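import Cfsg.Statements.S0670
import Cfsg.Agent.Lib.Perm.PGroupFix
import Mathlib

set_option autoImplicit false
open Cfsg

namespace Cfsg.Agent.S0670

/-- In characteristic `p`, the permutation module of a transitive action of degree `p ^ f` has the line of constant functions as its only irreducible submodule: every non-zero subrepresentation contains it. -/
theorem result {G : Type*} [Group G] [Finite G] {K : Type*} [Field K] {p f : ℕ} [Fact p.Prime] [CharP K p] {Ω : Type*} [Fintype Ω] [MulAction G Ω] [MulAction.IsPretransitive G Ω] (hf : 1 ≤ f) (hcard : Fintype.card Ω = p ^ f) (W : Subrepresentation (Cfsg.permRep K G Ω)) (hW : W.toSubmodule ≠ ⊥) : (Cfsg.permConstants K G Ω).toSubmodule ≤ W.toSubmodule := by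
  classical
  have hp : p.Prime := Fact.out
  obtain ⟨P⟩ : Nonempty (Sylow p G) := inferInstance
  have hcard' : Nat.card Ω = p ^ f := by rw [Nat.card_eq_fintype_card, hcard]
  have hPt : MulAction.IsPretransitive (P : Subgroup G) Ω :=
    Cfsg.Agent.Perm.PGroupFix.sylow_isPretransitive hcard' P
  -- pick a nonzero vector
  obtain ⟨v, hvW, hv0⟩ := Submodule.exists_mem_ne_zero_of_ne_bot hW
  let ρ : (P : Subgroup G) →* AddMonoid.End (Ω → K) :=
    { toFun := fun g => ((Cfsg.permRep K G Ω (g : G)).toAddMonoidHom)
      map_one' := by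
        refine AddMonoidHom.ext fun u => funext fun x => ?_
        change u (((1 : (P : Subgroup G)) : G)⁻¹ • x) = u x
        simp
      map_mul' := fun g h => by
        refine AddMonoidHom.ext fun u => funext fun x => ?_
        change u (((g * h : (P : Subgroup G)) : G)⁻¹ • x) = u ((h : G)⁻¹ • (g : G)⁻¹ • x)
        simp [mul_smul] }
  have hexp : ∀ u : Ω → K, p • u = 0 := by
    intro u
    ext x
    simp only [Pi.smul_apply, Pi.zero_apply, nsmul_eq_mul, CharP.cast_eq_zero, zero_mul]
  obtain ⟨w, hwA, hw0, hwfix⟩ := Cfsg.Agent.Perm.PGroupFix.exists_fixed_vector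
    (P.isPGroup') ρ hexp hv0
  have hwW : w ∈ W.toSubmodule := by
    have : AddSubgroup.closure (Set.range fun g => ρ g v) ≤ W.toSubmodule.toAddSubgroup := by
      rw [AddSubgroup.closure_le]
      rintro _ ⟨g, rfl⟩
      exact W.apply_mem_toSubmodule (g : G) hvW
    exact this hwA
  -- `w` is constant
  have hconst : ∀ x y : Ω, w x = w y := by
    intro x y
    obtain ⟨g, hg⟩ := MulAction.exists_smul_eq (P : Subgroup G) x y
    have h1 : w ((g : G)⁻¹ • y) = w y := congrFun (hwfix g) y
    rw [← h1, ← hg]
    congr 1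
    change x = (g : G)⁻¹ • ((g : G) • x)
    simp
  obtain ⟨x₀, hx₀⟩ : ∃ x, w x ≠ 0 := by
    by_contra hcon
    push Not at hcon
    exact hw0 (funext hcon)
  have hone : (fun _ : Ω => (1 : K)) ∈ W.toSubmodule := by
    have : (fun _ : Ω => (1 : K)) = (w x₀)⁻¹ • w := by
      funext x
      simp only [Pi.smul_apply, smul_eq_mul]
      rw [hconst x x₀, inv_mul_cancel₀ hx₀]
    rw [this]
    exact W.toSubmodule.smul_mem _ hwW
  change Submodule.span K {fun _ => 1} ≤ W.toSubmodule
  rw [Submodule.span_le]
  simpa using hone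

end Cfsg.Agent.S0670
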