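import Cfsg.Statements.S0185
import Cfsg.Agent.Lib.Char.Degree
import Cfsg.Agent.Lib.Char.Constituent
-- import your own Cfsg.Agent.* helpers here

set_option autoImplicit false
open Cfsg

namespace Cfsg.Agent.S0185

/-- If a finite group has a faithful complex representation of degree less than the smallest prime dividing its order, the group is abelian. -/
theorem result {G : Type*} [Group G] [Finite G] {V : Type*} [AddCommGroup V] [Module ℂ V] [FiniteDimensional ℂ V] (ρ : Representation ℂ G V) (hfaithful : Function.Injective ρ) (hdeg : ∀ p : ℕ, p.Prime → p ∣ Nat.card G → Module.finrank ℂ V < p) (a b : G) : a * b = b * a := by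
  classical
  let _ : Fintype G := Fintype.ofFinite G
  have hχc : Cfsg.IsCharacter G ρ.character := Cfsg.Agent.Lib.Char.isCharacter_character ρ
  -- all constituents are linear
  obtain ⟨m, hm, hsum⟩ := Cfsg.Agent.Lib.Char.IsCharacter.exists_eq_sum hχc
  have hlin : ∀ ψ : Cfsg.IrrCharacter G, m ψ ≠ 0 → (ψ : G → ℂ) 1 = 1 := by
    intro ψ hψ
    have hdeg1 := Cfsg.Agent.Lib.Char.apply_one_eq_charDegree (Cfsg.Agent.Lib.Char.IsIrrCharacter.isCharacter ψ.2)
    have hdvd := Cfsg.Agent.Lib.Char.charDegree_dvd_card ψ.2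
    have hne : Cfsg.classInner ρ.character (ψ : G → ℂ) ≠ 0 := by
      rw [hm]
      exact_mod_cast hψ
    have hle := Cfsg.Agent.Lib.Char.IsCharacter.degree_ge_of_classInner_ne_zero hχc ψ.2 hne
    rw [Representation.char_one, hdeg1] at hle
    simp only [Complex.natCast_re] at hle
    have hle' : Cfsg.charDegree (ψ : G → ℂ) ≤ Module.finrank ℂ V := by exact_mod_cast hle
    by_cases h1 : Cfsg.charDegree (ψ : G → ℂ) = 1
    · rw [hdeg1, h1]; simp
    · exfalso
      have hp := Nat.minFac_prime h1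
      have hd2 := Nat.minFac_dvd (Cfsg.charDegree (ψ : G → ℂ))
      have h3 := hdeg _ hp (hd2.trans hdvd)
      have h4 := Nat.minFac_le (Nat.pos_of_ne_zero (Cfsg.Agent.Lib.Char.charDegree_pos ψ.2).ne')
      omega
  have hval : ∀ (ψ : Cfsg.IrrCharacter G), m ψ ≠ 0 → (ψ : G → ℂ) (a * b * (b * a)⁻¹) = 1 := by
    intro ψ hψ
    obtain ⟨lam, hlam⟩ := Cfsg.Agent.Lib.Char.IsCharacter.exists_monoidHom (Cfsg.Agent.Lib.Char.IsIrrCharacter.isCharacter ψ.2) (hlin ψ hψ)
    rw [hlam]
    have : lam (a * b * (b * a)⁻¹) = 1 := by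
      rw [map_mul, map_inv, map_mul, map_mul, mul_comm (lam b) (lam a), mul_inv_cancel]
    show ((lam (a * b * (b * a)⁻¹) : ℂˣ) : ℂ) = 1
    rw [this]
    rfl
  have hchi : ρ.character (a * b * (b * a)⁻¹) = ρ.character 1 := by
    have h1 := congrFun hsum (a * b * (b * a)⁻¹)
    have h2 := congrFun hsum 1
    rw [h1, h2]
    simp only [Finset.sum_apply, Pi.smul_apply]
    refine Finset.sum_congr rfl fun ψ _ => ?_
    by_cases hψ : m ψ = 0
    · simp [hψ]
    · rw [hval ψ hψ, hlin ψ hψ]
  rw [Representation.char_one] at hchi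
  have hker := (Cfsg.Agent.Lib.Char.character_eq_finrank_iff ρ _).mp hchi
  have h1 : a * b * (b * a)⁻¹ = 1 := hfaithful (by rw [hker, map_one]; rfl)
  exact mul_inv_eq_one.mp h1

end Cfsg.Agent.S0185
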