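import Cfsg.Statements.S4456
import Cfsg.Agent.Lib.H8Group.Thompson

set_option autoImplicit false

open Cfsg

namespace Cfsg.Agent.S4456

open Cfsg.Agent.Lib.Char Cfsg.Agent.Lib.H8Group

section

variable {G : Type*} [Group G] [Finite G]

theorem detChar_hom (lam : G →* ℂˣ) : detChar (fun g => ((lam g : ℂˣ) : ℂ)) = fun g => ((lam g : ℂˣ) : ℂ) := by
  funext g
  have h1 : (fun g => ((lam g : ℂˣ) : ℂ)) = (linearRep lam).character := by
    funext g
    exact (character_linearRep lam g).symm
  rw [h1, detChar_of_rep]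
  show LinearMap.det (((lam g : ℂˣ) : ℂ) • (LinearMap.id : (Fin 1 → ℂ) →ₗ[ℂ] (Fin 1 → ℂ))) = _
  rw [LinearMap.det_smul, LinearMap.det_id, mul_one]
  simp

theorem detOrder_hom (lam : G →* ℂˣ) : detOrder (fun g => ((lam g : ℂˣ) : ℂ)) = orderOf lam := by
  unfold detOrder
  rw [detChar_hom]
  let f : (G →* ℂˣ) →* (G → ℂ) :=
    { toFun := fun l g => ((l g : ℂˣ) : ℂ)
      map_one' := by funext g; simp
      map_mul' := fun a b => by funext g; simp }
  have hf : Function.Injective f := by
    intro a b h
    ext g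
    exact congrFun h g
  exact orderOf_injective f hf lam

end

/-- Let p be a prime and G a finite group such that p divides the degree of every irreducible character of G of degree greater than one. Then G has a normal p-complement: a normal subgroup of order prime to p whose index is a power of p. -/
theorem result {G : Type*} [Group G] [Finite G] (p : ℕ) (hp : p.Prime) (hdeg : ∀ χ : Cfsg.IrrCharacter G, Cfsg.charDegree (χ : G → ℂ) ≠ 1 → p ∣ Cfsg.charDegree (χ : G → ℂ)) : ∃ N : Subgroup G, N.Normal ∧ (Nat.card N).Coprime p ∧ ∃ k : ℕ, N.index = p ^ k := by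
  classical
  have := Fact.mk hp
  refine ⟨pResidual p G, Cfsg.Agent.Lib.Transfer.pResidual_normal p G, ?_,
    Cfsg.Agent.Lib.Transfer.index_eq_pow_of_isPGroup_quotient Cfsg.Agent.Lib.Transfer.isPGroup_quotient_pResidual⟩
  have h1 := card_residual_modEq (G := G) p
  -- the count of the linear characters of `p'`-order
  have : Finite (G →* ℂˣ) := Finite.of_equiv _ (linearCharEquiv G)
  let T : Subgroup (G →* ℂˣ) :=
    { carrier := {lam | Nat.Coprime (orderOf lam) p}
      one_mem' := by simp
      mul_mem' := by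
        intro a b ha hb
        have h2 : orderOf (a * b) ∣ orderOf a * orderOf b :=
          (Commute.all a b).orderOf_mul_dvd_mul_orderOf
        exact Nat.Coprime.coprime_dvd_left h2 (Nat.Coprime.mul_left ha hb)
      inv_mem' := by
        intro a ha
        show Nat.Coprime (orderOf a⁻¹) p
        have h2 : orderOf a⁻¹ ∣ orderOf a :=
          orderOf_dvd_of_pow_eq_one (by
            have h3 : a ^ orderOf a = 1 := pow_orderOf_eq_one a
            ext g
            have h4 : (a g) ^ orderOf a = 1 := by
              rw [← MonoidHom.pow_apply, h3]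
              rfl
            rw [MonoidHom.pow_apply, MonoidHom.inv_apply, inv_pow, h4, inv_one]
            rfl)
        exact Nat.Coprime.coprime_dvd_left h2 ha }
  have hT : ¬ p ∣ Nat.card T := by
    intro hdvd
    obtain ⟨t, ht⟩ := exists_prime_orderOf_dvd_card' p hdvd
    have h2 : Nat.Coprime (orderOf (t : G →* ℂˣ)) p := t.2
    rw [Subgroup.orderOf_coe, ht] at h2
    exact hp.one_lt.ne' ((Nat.coprime_self p).mp h2)
  -- reduce the sum
  have hsum : ∑ χ : IrrCharacter G, (if ¬ p ∣ charDegree (χ : G → ℂ) ∧ ¬ p ∣ detOrder (χ : G → ℂ) then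
        (charDegree (χ : G → ℂ) : ℤ) ^ 2 else 0) = (Nat.card T : ℤ) := by
    have h2 : ∀ χ : IrrCharacter G, (if ¬ p ∣ charDegree (χ : G → ℂ) ∧ ¬ p ∣ detOrder (χ : G → ℂ) then
        (charDegree (χ : G → ℂ) : ℤ) ^ 2 else 0) =
        (if ¬ p ∣ charDegree (χ : G → ℂ) ∧ ¬ p ∣ detOrder (χ : G → ℂ) then 1 else 0) := by
      intro χ
      split_ifs with h
      · have h3 : charDegree (χ : G → ℂ) = 1 := by
          by_contra hne
          exact h.1 (hdeg χ hne)
        rw [h3]
        simp
      · rfl
    simp only [h2]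
    rw [Finset.sum_boole]
    have h3 : Nat.card {χ : IrrCharacter G // ¬ p ∣ charDegree (χ : G → ℂ) ∧ ¬ p ∣ detOrder (χ : G → ℂ)} =
        Nat.card T := by
      symm
      apply Nat.card_eq_of_bijective (f := fun t : T =>
        (⟨⟨fun g => (((t : G →* ℂˣ) g : ℂˣ) : ℂ), isIrrCharacter_of_monoidHom _⟩, by
          have h4 : Nat.Coprime (orderOf (t : G →* ℂˣ)) p := t.2
          constructor
          · show ¬ p ∣ charDegree (fun g => (((t : G →* ℂˣ) g : ℂˣ) : ℂ))
            rw [charDegree_eq (n := 1) (by simp)]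
            intro h
            exact hp.one_lt.ne' (Nat.dvd_one.mp h)
          · show ¬ p ∣ detOrder (fun g => (((t : G →* ℂˣ) g : ℂˣ) : ℂ))
            rw [detOrder_hom]
            intro h
            exact hp.one_lt.ne' (Nat.Coprime.eq_one_of_dvd h4.symm h)⟩ :
          {χ : IrrCharacter G // ¬ p ∣ charDegree (χ : G → ℂ) ∧ ¬ p ∣ detOrder (χ : G → ℂ)}))
      constructor
      · intro a b hab
        apply Subtype.ext
        ext g
        have := congrArg (fun z => (z.1.1 : G → ℂ) g) hab
        exact this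
      · rintro ⟨χ, hχ1, hχ2⟩
        have h4 : charDegree (χ : G → ℂ) = 1 := by
          by_contra hne
          exact hχ1 (hdeg χ hne)
        have h5 : (χ : G → ℂ) 1 = 1 := by
          rw [apply_one_eq_charDegree (IsIrrCharacter.isCharacter χ.2), h4]
          simp
        obtain ⟨lam, hlam⟩ := IsCharacter.exists_monoidHom (IsIrrCharacter.isCharacter χ.2) h5
        have hlam2 : ¬ p ∣ orderOf lam := by
          rw [← detOrder_hom, ← hlam]
          exact hχ2
        refine ⟨⟨lam, (Nat.Prime.coprime_iff_not_dvd hp).mpr hlam2 |>.symm⟩, ?_⟩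
        apply Subtype.ext
        apply Subtype.ext
        exact hlam.symm
    rw [← h3, ← Fintype.card_subtype, Nat.card_eq_fintype_card]
  rw [hsum] at h1
  apply Nat.Coprime.symm
  rw [Nat.Prime.coprime_iff_not_dvd hp]
  intro hdvd
  apply hT
  have h2 : (p : ℤ) ∣ (Nat.card T : ℤ) := by
    have h3 := (Int.ModEq.dvd h1)
    have h4 : (p : ℤ) ∣ (Nat.card (pResidual p G) : ℤ) := by exact_mod_cast hdvd
    have := dvd_add h3 h4
    simpa using this
  exact_mod_cast h2

end Cfsg.Agent.S4456
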