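import Cfsg.Statements.S4457
import Cfsg.Agent.S4456
import Cfsg.Agent.Lib.Char.TwoDeg
-- import your own Cfsg.Agent.* helpers here

set_option autoImplicit false
open Cfsg

namespace Cfsg.Agent.S4457

/-- Let G be a finite group whose irreducible character degrees are exactly 1 and m (m ≠ 1). Then either G has an abelian normal subgroup of index m, or m is a power of a prime p and G is the direct product of a p-group and an abelian group: there are normal subgroups P and A with P a p-group, A abelian, P ⊓ A = 1 and P ⊔ A = G. -/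
theorem result {G : Type*} [Group G] [Finite G] (m : ℕ) (hcd : ∀ χ : Cfsg.IrrCharacter G, Cfsg.charDegree (χ : G → ℂ) = 1 ∨ Cfsg.charDegree (χ : G → ℂ) = m) (hm : ∃ χ : Cfsg.IrrCharacter G, Cfsg.charDegree (χ : G → ℂ) = m) (hm1 : m ≠ 1) : (∃ A : Subgroup G, A.Normal ∧ (∀ a ∈ A, ∀ b ∈ A, a * b = b * a) ∧ A.index = m) ∨ ∃ p e : ℕ, p.Prime ∧ m = p ^ e ∧ ∃ P A : Subgroup G, P.Normal ∧ A.Normal ∧ IsPGroup p P ∧ (∀ a ∈ A, ∀ b ∈ A, a * b = b * a) ∧ P ⊓ A = ⊥ ∧ P ⊔ A = ⊤ := by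
  classical
  have hK : ∀ p : ℕ, p.Prime → p ∣ m → ∃ N : Subgroup G, N.Normal ∧ (Nat.card N).Coprime p ∧
      ∃ k : ℕ, N.index = p ^ k := by
    intro p hp hpm
    refine Cfsg.Agent.S4456.result p hp fun χ hχ => ?_
    rcases hcd χ with h | h
    · exact absurd h hχ
    · rw [h]
      exact hpm
  rcases Cfsg.Agent.Lib.Char.TwoDeg.main m hcd hm hm1 hK with ⟨A, h1, h2, h3, -⟩ | ⟨-, h⟩
  · exact Or.inl ⟨A, h1, h2, h3⟩
  · exact Or.inr h

end Cfsg.Agent.S4457
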