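import Cfsg.Statements.S1068
import Cfsg.Agent.Lib.Chev.Tw.F4e
-- import your own Cfsg.Agent.* helpers here

set_option autoImplicit false
open Cfsg

namespace Cfsg.Agent.S1068

/-- `|²F₄(q)| = q¹² (q - 1)(q³ + 1)(q⁴ - 1)(q⁶ + 1)` for `q = 2^(2m+1)` (θ = 2^m-th power map), every `m ≥ 0`. -/
theorem result {K : Type*} [Field K] [Fintype K] {m : ℕ} (hK : Fintype.card K = 2 ^ (2 * m + 1)) :
    Nat.card ↥(Cfsg.Lie.twistedF4 K (2 ^ m)) =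
      (2 ^ (2 * m + 1)) ^ 12 * (2 ^ (2 * m + 1) - 1) * ((2 ^ (2 * m + 1)) ^ 3 + 1) * ((2 ^ (2 * m + 1)) ^ 4 - 1) * ((2 ^ (2 * m + 1)) ^ 6 + 1) := by
  open Cfsg.Agent.Lib.Chev Cfsg.Agent.Lib.Chev.TwF4 in
  have h3 : Nat.Prime 2 := Nat.prime_two
  have hn : 2 * m + 1 ≠ 0 := by omega
  have := charP_of_card h3 hn hK
  obtain ⟨f, hf⟩ := frobP h3 hn hK m
  rw [← AA_eq f (frob_sq hK f hf) hf]
  apply Nat.cast_injective (R := ℤ)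
  rw [card_G f (frob_sq hK f hf), hK]
  have h1 : 1 ≤ 2 ^ (2 * m + 1) := Nat.one_le_two_pow
  have h2 : 1 ≤ (2 ^ (2 * m + 1)) ^ 4 := Nat.one_le_pow _ _ h1
  generalize 2 ^ (2 * m + 1) = Q at *
  push_cast [Nat.cast_sub h1, Nat.cast_sub h2]
  ring

end Cfsg.Agent.S1068
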