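import Cfsg.Statements.S5656
import Cfsg.Agent.Lib.ClassMax.UnitCrit
import Cfsg.Agent.Lib.ClassMax.PhiCount

set_option autoImplicit false
open Cfsg

namespace Cfsg.Agent.S5656

open Matrix Cfsg.Geo Cfsg.Agent.Lib.ClassMax Cfsg.Agent.Lib.ClassMax.QuadOver Cfsg.Agent.Lib.ClassMax.HermOver Cfsg.Agent.Lib.ClassMax.UnitCore

section Aux

variable {ι : Type} [Fintype ι] [DecidableEq ι] {F : Type*} [Field F] [Fintype F] {σ : F ≃+* F} {f : (ι → F) → (ι → F) → F}

theorem two_zero_aux (hF : Fintype.card F = 4) : (2 : F) = 0 := by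
  obtain ⟨n, hp, hn⟩ := FiniteField.card F (ringChar F)
  rw [hF] at hn
  have hd : ringChar F ∣ 4 := by
    rw [hn]
    exact dvd_pow_self _ n.pos.ne'
  have h2 : ringChar F ∣ 2 ^ 2 := by simpa using hd
  have h3 := hp.dvd_of_dvd_pow h2
  have h4 : ringChar F = 2 := (Nat.prime_dvd_prime_iff_eq hp Nat.prime_two).mp h3
  have := ringChar.Nat.cast_ringChar (R := F)
  rw [h4] at this
  exact_mod_cast this

theorem cube_one_aux (hF : Fintype.card F = 4) {a : F} (ha : a ≠ 0) : a ^ 3 = 1 := by
  have h := FiniteField.pow_card a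
  rw [hF] at h
  have h2 : a * (a ^ 3 - 1) = 0 := by linear_combination h
  rcases mul_eq_zero.mp h2 with h3 | h3
  · exact absurd h3 ha
  · linear_combination h3

theorem norm_aux (hf : IsUnitaryForm σ f) (hσ : ∀ x, σ x = x ^ 2) (v : ι → F) : f v v = 0 ∨ f v v = 1 := by
  have h := hf.herm v v
  rw [hσ] at h
  have h2 : f v v * (f v v - 1) = 0 := by linear_combination - h
  rcases mul_eq_zero.mp h2 with h3 | h3
  · exact Or.inl h3
  · right; linear_combination h3

theorem aniso_aux (hF : Fintype.card F = 4) (hf : IsUnitaryForm σ f) {W : Submodule F (ι → F)} (hW : IsNondegenerateOn f W)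
    {w : ι → F} (hw : w ∈ W) (hw0 : w ≠ 0) : ∃ e ∈ W, f e e ≠ 0 := by
  by_contra hcon
  push Not at hcon
  obtain ⟨x, hx, hxw⟩ := (hW w hw hw0).1
  have h2 := two_zero_aux hF
  obtain ⟨y, hy⟩ : ∃ y, σ y ≠ y := by
    by_contra h
    push Not at h
    exact sig_ne hf (by ext y; exact h y)
  have hy2 : y + σ y ≠ 0 := by
    intro h0
    apply hy
    linear_combination h0 - y * h2
  have h3 : σ (f x w) ≠ 0 := by
    intro h0
    exact hxw (σ.injective (by rw [h0, map_zero]))
  set c := y / σ (f x w) with hc
  have h4 := hcon (x + c • w) (W.add_mem hx (W.smul_mem c hw))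
  simp only [hf.add_left, add_right hf, hf.smul_left, smul_right hf, hcon x hx, hcon w hw] at h4
  have h5 : f w x = σ (f x w) := hf.herm w x
  rw [h5] at h4
  have h6 : c * σ (f x w) = y := by rw [hc]; field_simp
  have h7 : σ c * f x w = σ y := by
    have := congrArg σ h6
    rwa [map_mul, hf.involutive] at this
  apply hy2
  linear_combination h4 - h7 - h6

theorem pair_aux (hF : Fintype.card F = 4) (hf : IsUnitaryForm σ f) (hσ : ∀ x, σ x = x ^ 2) {W : Submodule F (ι → F)}
    (hW : IsNondegenerateOn f W) (hd : Module.finrank F W = 2) :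
    ∃ e ∈ W, ∃ e' ∈ W, f e e = 1 ∧ f e' e' = 1 ∧ f e e' = 0 ∧ ∀ v ∈ W, ∃ a b : F, v = a • e + b • e' := by
  have hWbot : W ≠ ⊥ := by
    rintro rfl
    simp at hd
  obtain ⟨w₀, hw₀, hw₀0⟩ := Submodule.exists_mem_ne_zero_of_ne_bot hWbot
  obtain ⟨e, he, hee⟩ := aniso_aux hF hf hW hw₀ hw₀0
  have hee1 : f e e = 1 := (norm_aux hf hσ e).resolve_left hee
  have he0 : e ≠ 0 := by
    rintro rfl
    exact hee (zero_left hf _)
  have hlt : Submodule.span F {e} < W := by
    apply lt_of_le_of_ne
    · rw [Submodule.span_singleton_le_iff_mem]; exact he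
    · intro h
      have : Module.finrank F (Submodule.span F {e}) = 1 := finrank_span_singleton he0
      rw [h, hd] at this
      omega
  obtain ⟨w, hw, hwn⟩ := SetLike.exists_of_lt hlt
  have hspan : ∀ v ∈ W, ∃ a b : F, a • e + b • w = v := by
    have hli : LinearIndependent F ![e, w] := by
      rw [LinearIndependent.pair_iff]
      intro a b hab
      have hb : b = 0 := by
        by_contra hb
        apply hwn
        rw [Submodule.mem_span_singleton]
        refine ⟨- (a / b), ?_⟩
        have : w = b⁻¹ • (b • w) := by rw [smul_smul, inv_mul_cancel₀ hb, one_smul]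
        rw [this, eq_neg_of_add_eq_zero_right hab, smul_neg, neg_smul, smul_smul, div_eq_mul_inv, mul_comm a]
      rw [hb, zero_smul, add_zero] at hab
      exact ⟨(smul_eq_zero.mp hab).resolve_right he0, hb⟩
    have hle : Submodule.span F (Set.range ![e, w]) ≤ W := by
      rw [Submodule.span_le]
      rintro _ ⟨i, rfl⟩
      fin_cases i
      · exact he
      · exact hw
    have heq : Submodule.span F (Set.range ![e, w]) = W := by
      apply Submodule.eq_of_le_of_finrank_eq hle
      rw [hd, finrank_span_eq_card hli]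
      simp
    intro v hv
    rw [← heq, Matrix.range_cons, Matrix.range_cons, Matrix.range_empty] at hv
    simp only [Set.union_empty, Set.singleton_union] at hv
    exact Submodule.mem_span_pair.mp hv
  set e' := w - f w e • e with he'
  have he'W : e' ∈ W := W.sub_mem hw (W.smul_mem _ he)
  have h1 : f e' e = 0 := by
    rw [he', sub_left hf, hf.smul_left, hee1]; ring
  have h2 : f e e' = 0 := by rw [hf.herm, h1, map_zero]
  have he'0 : e' ≠ 0 := by
    intro h0
    apply hwn
    rw [Submodule.mem_span_singleton]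
    exact ⟨f w e, by rw [← sub_eq_zero, ← neg_sub, ← he', h0, neg_zero]⟩
  have hw_eq : w = e' + f w e • e := by rw [he']; abel
  have hrep : ∀ v ∈ W, ∃ a b : F, v = a • e + b • e' := by
    intro v hv
    obtain ⟨a, b, rfl⟩ := hspan v hv
    refine ⟨a + b * f w e, b, ?_⟩
    conv_lhs => rw [hw_eq]
    module
  obtain ⟨x, hx, hxe'⟩ := (hW e' he'W he'0).1
  obtain ⟨a, b, rfl⟩ := hrep x hx
  have h3 : f e' e' ≠ 0 := by
    intro h0
    apply hxe'
    rw [hf.add_left, hf.smul_left, hf.smul_left, h2, h0]
    ring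
  exact ⟨e, he, e', he'W, hee1, (norm_aux hf hσ e').resolve_left h3, h2, hrep⟩

/-- Stabiliser of a set of vectors inside a subgroup. -/
def setStabAux (G : Subgroup (GL ι F)) (S : Set (ι → F)) : Subgroup (GL ι F) where
  carrier := {g | g ∈ G ∧ ∀ v, (g.val *ᵥ v) ∈ S ↔ v ∈ S}
  mul_mem' {a b} ha hb := by
    refine ⟨G.mul_mem ha.1 hb.1, fun v => ?_⟩
    rw [Units.val_mul, ← Matrix.mulVec_mulVec, ha.2, hb.2]
  one_mem' := ⟨G.one_mem, fun v => by simp⟩
  inv_mem' {a} ha := by
    refine ⟨G.inv_mem ha.1, fun v => ?_⟩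
    rw [← ha.2, Matrix.mulVec_mulVec, ← Units.val_mul, mul_inv_cancel]
    simp

end Aux


/-- Let F be the field with 4 elements (q = 2) and n ≥ 13. Let D be a decomposition of F^n into t pairwise orthogonal 2-dimensional subspaces, each non-degenerate for the standard unitary form Σ u_i v_i². Then the elements of SU_n(2) permuting the members of D form a subgroup that is not maximal: some subgroup lies strictly between it and SU_n(2). -/
theorem result {F : Type*} [Field F] [Fintype F] (n : ℕ) (hF : Fintype.card F = 4) (hn : 13 ≤ n) {t : ℕ} (D : Fin t → Submodule F (Fin n → F)) (hD : Cfsg.Geo.IsNondegenerateMDecomposition (Cfsg.hermForm n F 2) 2 D) : ∃ K : Subgroup (Matrix.GeneralLinearGroup (Fin n) F), Cfsg.Geo.decompositionStabilizer D ⊓ (Cfsg.GU n F 2 ⊓ Cfsg.Geo.specialLinear (Fin n) F) < K ∧ K < (Cfsg.GU n F 2 ⊓ Cfsg.Geo.specialLinear (Fin n) F) := by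
    classical
  have hF4 : Fintype.card F = 2 ^ 2 := by rw [hF]; norm_num
  obtain ⟨σ, hf, hσ⟩ := UnitCore.hermForm_unitary (n := n) hF4
  set f := Cfsg.hermForm n F 2 with hfdef
  have h2 : (2 : F) = 0 := two_zero_aux hF
  have hpair := fun i => pair_aux hF hf hσ (hD.nondegenerate i) (hD.decomp.finrank_eq i)
  choose e he e' he' hee he'e' hee' hrep using hpair
  have horth : ∀ i j, i ≠ j → ∀ u ∈ D i, ∀ v ∈ D j, f u v = 0 := fun i j hij => hD.orthogonal i j hij
  have ht : 4 ≤ t := by
    have := PhiCount.card_le_of_decomp hD.decomp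
    simp only [Fintype.card_fin] at this
    omega
  have h1s : (1 : F) + σ 1 = 0 := by rw [map_one]; linear_combination h2
  -- transvections
  have hT : ∀ u : Fin n → F, f u u = 0 → ∀ v, ((eg f u 0 1 : GL (Fin n) F) : Matrix (Fin n) (Fin n) F) *ᵥ v = v + f v u • u := by
    intro u hu v
    rw [eg_apply hf hu (zero_right hf u) (skew_ok hf h1s)]
    unfold egFun
    rw [zero_right hf]
    simp
  have hTG : ∀ u : Fin n → F, f u u = 0 → (eg f u 0 1 : GL (Fin n) F) ∈ Cfsg.GU n F 2 ⊓ Cfsg.Geo.specialLinear (Fin n) F := by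
    intro u hu
    exact ⟨fun a b => eg_iso hf hu (zero_right hf u) (skew_ok hf h1s) a b, eg_tv_mem_SL hf hu h1s⟩
  let S : Set (Fin n → F) := {v | ∃ i, v ∈ D i ∧ f v v ≠ 0}
  have fee : ∀ i j, f (e i) (e j) = if i = j then 1 else 0 := by
    intro i j
    split_ifs with h
    · rw [h, hee]
    · exact horth i j h _ (he i) _ (he j)
  have fe'e : ∀ i j, f (e' i) (e j) = 0 := by
    intro i j
    by_cases h : i = j
    · subst h
      rw [hf.herm, hee', map_zero]
    · exact horth i j h _ (he' i) _ (he j)
  obtain ⟨i₀, i₁, i₂, i₃, h01, h02, h03, h12, h13, h23⟩ : ∃ i₀ i₁ i₂ i₃ : Fin t, i₀ ≠ i₁ ∧ i₀ ≠ i₂ ∧ i₀ ≠ i₃ ∧ i₁ ≠ i₂ ∧ i₁ ≠ i₃ ∧ i₂ ≠ i₃ := by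
    refine ⟨⟨0, by omega⟩, ⟨1, by omega⟩, ⟨2, by omega⟩, ⟨3, by omega⟩, ?_⟩
    simp [Fin.ext_iff]
  have hS_e : ∀ i (a : F), a ≠ 0 → a • e i ∈ S := by
    intro i a ha
    refine ⟨i, (D i).smul_mem a (he i), ?_⟩
    rw [hf.smul_left, smul_right hf, hee, hσ, mul_one]
    intro h0
    rw [mul_eq_zero] at h0
    rcases h0 with h0 | h0
    · exact ha h0
    · exact ha (pow_eq_zero_iff (by norm_num) |>.mp h0)
  refine ⟨setStabAux (Cfsg.GU n F 2 ⊓ Cfsg.Geo.specialLinear (Fin n) F) S, ?_, ?_⟩
  · rw [SetLike.lt_iff_le_and_exists]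
    constructor
    · intro g hg
      obtain ⟨⟨τ, hτ⟩, hgG⟩ := hg
      refine ⟨hgG, fun v => ?_⟩
      have hiso : ∀ a b, f (g.val *ᵥ a) (g.val *ᵥ b) = f a b := hgG.1
      constructor
      · rintro ⟨j, hj, hne⟩
        obtain ⟨i, rfl⟩ := τ.surjective j
        rw [← hτ i] at hj
        obtain ⟨u, hu, huv⟩ := hj
        rw [Matrix.toLin'_apply] at huv
        have huv' : u = v := by
          have := congrArg (fun x => (g⁻¹).val *ᵥ x) huv
          simpa [Matrix.mulVec_mulVec] using this
        subst huv'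
        exact ⟨i, hu, by rwa [hiso] at hne⟩
      · rintro ⟨i, hi, hne⟩
        refine ⟨τ i, ?_, by rwa [hiso]⟩
        rw [← hτ i]
        exact ⟨v, hi, by rw [Matrix.toLin'_apply]⟩
    · have hu : f (e i₀ + e i₁) (e i₀ + e i₁) = 0 := by
        simp only [hf.add_left, add_right hf, fee, if_neg h01, if_neg h01.symm, if_true]
        linear_combination h2
      refine ⟨eg f (e i₀ + e i₁) 0 1, ⟨hTG _ hu, ?_⟩, ?_⟩
      · have hinv : ∀ v, (eg f (e i₀ + e i₁) 0 1).val *ᵥ ((eg f (e i₀ + e i₁) 0 1).val *ᵥ v) = v := by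
          intro v
          rw [hT _ hu, hT _ hu, hf.add_left, hf.smul_left, hu, mul_zero, add_zero, add_assoc, ← add_smul]
          have : f v (e i₀ + e i₁) + f v (e i₀ + e i₁) = 0 := by linear_combination (f v (e i₀ + e i₁)) * h2
          rw [this, zero_smul, add_zero]
        have hfw : ∀ v, v ∈ S → (eg f (e i₀ + e i₁) 0 1).val *ᵥ v ∈ S := by
          rintro v ⟨i, hi, hne⟩
          obtain ⟨a, b, rfl⟩ := hrep i v hi
          rw [hT _ hu]
          have hnm : f (a • e i + b • e' i) (a • e i + b • e' i) = a ^ 3 + b ^ 3 := by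
            simp only [hf.add_left, add_right hf, hf.smul_left, smul_right hf, hee, he'e', hee', fe'e, hσ]
            ring
          rw [hnm] at hne
          have hcase : a = 0 ∨ b = 0 := by
            by_contra hc
            push Not at hc
            apply hne
            rw [cube_one_aux hF hc.1, cube_one_aux hF hc.2]
            linear_combination h2
          simp only [hf.add_left, add_right hf, hf.smul_left, fe'e, mul_zero, add_zero, fee]
          rcases hcase with rfl | rfl
          · have hb : b ≠ 0 := by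
              rintro rfl
              simp at hne
            simp only [zero_mul, zero_add, zero_smul, add_zero]
            refine ⟨i, (D i).smul_mem _ (he' i), ?_⟩
            rw [hf.smul_left, smul_right hf, he'e', hσ, mul_one]
            intro h0
            rw [mul_eq_zero] at h0
            rcases h0 with h0 | h0
            · exact hb h0
            · exact hb (pow_eq_zero_iff (by norm_num) |>.mp h0)
          · have ha : a ≠ 0 := by
              rintro rfl
              simp at hne
            simp only [zero_smul, add_zero]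
            by_cases c0 : i = i₀
            · subst c0
              rw [if_pos rfl, if_neg h01, mul_one, mul_zero, add_zero]
              have : a • e i + a • (e i + e i₁) = a • e i₁ := by
                rw [smul_add, ← add_assoc, ← two_smul F (a • e i), h2, zero_smul, zero_add]
              rw [this]
              exact hS_e _ a ha
            · by_cases c1 : i = i₁
              · subst c1
                rw [if_neg h01.symm, if_pos rfl, mul_one, mul_zero, zero_add]
                have : a • e i + a • (e i₀ + e i) = a • e i₀ := by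
                  rw [smul_add, add_comm (a • e i₀), ← add_assoc, ← two_smul F (a • e i), h2, zero_smul, zero_add]
                rw [this]
                exact hS_e _ a ha
              · rw [if_neg c0, if_neg c1, mul_zero, add_zero, zero_smul, add_zero]
                exact hS_e _ a ha
        intro v
        refine ⟨fun h => ?_, hfw v⟩
        have := hfw _ h
        rwa [hinv] at this
      · rintro ⟨⟨τ, hτ⟩, -⟩
        have h1 : (eg f (e i₀ + e i₁) 0 1).val *ᵥ e i₀ = e i₁ := by
          rw [hT _ hu]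
          simp only [add_right hf, fee, if_neg h01, if_true, add_zero, one_smul]
          rw [← add_assoc, ← two_smul F (e i₀), h2, zero_smul, zero_add]
        have h1' : (eg f (e i₀ + e i₁) 0 1).val *ᵥ e' i₀ = e' i₀ := by
          rw [hT _ hu]
          simp only [add_right hf, fe'e, add_zero, zero_smul]
        have h3 : e i₁ ∈ D (τ i₀) := by
          rw [← hτ i₀]
          exact ⟨e i₀, he i₀, by rw [Matrix.toLin'_apply, h1]⟩
        have h4 : e' i₀ ∈ D (τ i₀) := by
          rw [← hτ i₀]
          exact ⟨e' i₀, he' i₀, by rw [Matrix.toLin'_apply, h1']⟩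
        have h5 : τ i₀ = i₁ := by
          by_contra hc
          have := horth _ _ hc _ h3 _ (he i₁)
          rw [hee] at this
          exact one_ne_zero this
        have h6 : τ i₀ = i₀ := by
          by_contra hc
          have := horth _ _ hc _ h4 _ (he' i₀)
          rw [he'e'] at this
          exact one_ne_zero this
        exact h01 (h6.symm.trans h5)
  · rw [SetLike.lt_iff_le_and_exists]
    refine ⟨fun g hg => hg.1, ?_⟩
    have hu : f (e i₀ + e i₁ + e i₂ + e i₃) (e i₀ + e i₁ + e i₂ + e i₃) = 0 := by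
      simp only [hf.add_left, add_right hf, fee, if_neg h01, if_neg h01.symm, if_neg h02, if_neg h02.symm, if_neg h03, if_neg h03.symm, if_neg h12, if_neg h12.symm, if_neg h13, if_neg h13.symm, if_neg h23, if_neg h23.symm, if_true]
      linear_combination 2 * h2
    refine ⟨eg f (e i₀ + e i₁ + e i₂ + e i₃) 0 1, hTG _ hu, ?_⟩
    rintro ⟨-, hs⟩
    obtain ⟨j, hj, -⟩ := (hs (e i₀)).mpr (by simpa using hS_e i₀ 1 one_ne_zero)
    rw [hT _ hu] at hj
    have hval : e i₀ + f (e i₀) (e i₀ + e i₁ + e i₂ + e i₃) • (e i₀ + e i₁ + e i₂ + e i₃) = e i₁ + e i₂ + e i₃ := by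
      simp only [add_right hf, fee, if_neg h01, if_neg h02, if_neg h03, if_true, add_zero, one_smul]
      have : e i₀ + e i₀ = 0 := by
        rw [← two_smul F (e i₀), h2, zero_smul]
      linear_combination (exp := 1) this
    rw [hval] at hj
    have hne : ∀ a, a ≠ j → f (e i₁ + e i₂ + e i₃) (e a) = 0 := fun a ha => horth j a ha.symm _ hj _ (he a)
    by_cases c1 : i₁ = j
    · subst c1
      have := hne i₂ h12.symm
      simp [hf.add_left, fee, h12, h23.symm] at this
    · have := hne i₁ c1
      simp [hf.add_left, fee, h12.symm, h13.symm] at this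

end Cfsg.Agent.S5656
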