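import Cfsg.Statements.S0814
import Mathlib
import Cfsg.Agent.Lib.Classical.AutSp4

set_option autoImplicit false
open Cfsg Cfsg.Agent.Lib.Classical

namespace Cfsg.Agent.S0814

/-- |Aut(PSp_2m(q))| = gcd(2, q−1) · f · |PSp_2m(q)| for q = p^f, m ≥ 2, (m, q) ≠ (2, 2), with an extra factor 2 exactly when m = 2 and p = 2. -/
theorem result {F : Type*} [Field F] [Fintype F] (p f : ℕ) [Fact p.Prime] (hf : 1 ≤ f) (hF : Fintype.card F = p ^ f) (m : ℕ) (hm : 2 ≤ m) (h22 : m = 2 → 3 ≤ p ^ f) : Nat.card (MulAut (Cfsg.PSp m F)) = (if m = 2 ∧ p = 2 then 2 else 1) * Nat.gcd 2 (p ^ f - 1) * f * Nat.card (Cfsg.PSp m F) := by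
  classical
  haveI : CharP F p := Cfsg.Agent.Lib.AutPSL.charP_of_card hf hF
  haveI : Fact (1 ≤ m) := ⟨by omega⟩
  haveI : Nonempty (Fin m) := ⟨⟨0, by omega⟩⟩
  have hS : Nat.card (semiSet m F) = Nat.card (Cfsg.Agent.Lib.AutPSp.Sp m F) * f := by
    rw [card_semiSet, (Cfsg.Agent.Lib.AutPSL.card_gal hf hF).2]
  have hSp : Nat.card (Cfsg.Agent.Lib.AutPSp.Sp m F) = Nat.card (Cfsg.PSp m F) * Nat.gcd 2 (p ^ f - 1) := by
    have h1 := Subgroup.card_eq_card_quotient_mul_card_subgroup (Subgroup.center (Matrix.symplecticGroup (Fin m) F))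
    rw [card_center_sp hF (by omega)] at h1
    exact h1
  by_cases hex : m = 2 ∧ p = 2
  · obtain ⟨rfl, rfl⟩ := hex
    have h2 : (2 : F) = 0 := by simpa using CharP.cast_eq_zero F 2
    have h3 : 3 ≤ Fintype.card F := by
      rw [hF]
      exact h22 rfl
    have := card_two_cosets (semiSet 2 F) (tauE h2 h3) (fun _ _ => semiSet_mul) (fun _ => semiSet_inv) (tau_not_semi h2 h3)
      (exc_all (p := 2) h2 h3)
    rw [this, hS, hSp, if_pos ⟨rfl, rfl⟩]
    ring
  · rw [if_neg hex]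
    have huniv : semiSet m F = Set.univ := by
      apply Set.eq_univ_of_forall
      intro α
      obtain ⟨g, σ, hg, e⟩ := Cfsg.Agent.Lib.AutPSp.aut_semilinear hm (fun hm2 hp2 => hex ⟨hm2, hp2⟩) α
      exact ⟨g, σ, hg, e⟩
    have h1 : Nat.card (MulAut (Cfsg.PSp m F)) = Nat.card (semiSet m F) := by
      rw [huniv]
      exact (Nat.card_congr (Equiv.Set.univ _)).symm
    rw [h1, hS, hSp]
    ring

end Cfsg.Agent.S0814
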