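import Cfsg.Statements.S3761
-- import your own Cfsg.Agent.* helpers here
import Mathlib
import Cfsg.Agent.Lib.Coprime.CycNormal

set_option autoImplicit false
open Cfsg

namespace Cfsg.Agent.S3761

open Cfsg.Agent.Lib.Coprime.CycNormal

/-- Let G be a finite non-abelian p-group with a cyclic normal subgroup U of order p^n such that C_G(U) = U. Then either p = 2 and G is dihedral, generalized quaternion or semidihedral of order 2^(n+1); or, writing U₁ for the subgroup generated by the p-th powers of elements of U and M = C_G(U₁), the subgroup U has index p in M and the subgroup Ω₁(M) generated by the elements of M of order dividing p is elementary abelian of order p² and characteristic in G. -/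
theorem result {G : Type*} [Group G] [Finite G] {p : ℕ} [Fact p.Prime] (hG : IsPGroup p G) (hna : ¬ IsMulCommutative G) (U : Subgroup G) [U.Normal] (hU : IsCyclic U) (n : ℕ) (hUn : Nat.card U = p ^ n) (hC : Subgroup.centralizer (U : Set G) = U) : (p = 2 ∧ Nat.card G = 2 ^ (n + 1) ∧ ((∃ m : ℕ, Nonempty (G ≃* DihedralGroup m)) ∨ (∃ m : ℕ, Nonempty (G ≃* QuaternionGroup m)) ∨ Cfsg.IsQuasiDihedral G)) ∨ (U.relIndex (Subgroup.centralizer (Cfsg.powerClosure p 1 U : Set G)) = p ∧ Cfsg.IsElementaryAbelian p (Cfsg.omegaOne p (Subgroup.centralizer (Cfsg.powerClosure p 1 U : Set G))) ∧ Nat.card ↥(Cfsg.omegaOne p (Subgroup.centralizer (Cfsg.powerClosure p 1 U : Set G))) = p ^ 2 ∧ (Cfsg.omegaOne p (Subgroup.centralizer (Cfsg.powerClosure p 1 U : Set G))).Characteristic) := by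
  classical
  obtain ⟨⟨u, huU⟩, hgen⟩ := hU.exists_generator
  have hUu : U = Subgroup.zpowers u := by
    apply le_antisymm
    · intro x hx
      obtain ⟨k, hk⟩ := hgen ⟨x, hx⟩
      exact ⟨k, congrArg Subtype.val hk⟩
    · rw [Subgroup.zpowers_le]
      exact huU
  subst hUu
  have hord : orderOf u = p ^ n := by
    rw [← Nat.card_zpowers, hUn]
  have hcent : ∀ g : G, g * u = u * g → g ∈ Subgroup.zpowers u := by
    intro g hg
    rw [← SetLike.mem_coe]
    have hmem : g ∈ Subgroup.centralizer ((Subgroup.zpowers u : Subgroup G) : Set G) := by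
      rw [Subgroup.mem_centralizer_iff]
      rintro _ ⟨b, rfl⟩
      have hc : Commute u g := (show Commute g u from hg).symm
      exact (hc.zpow_left b).eq
    rw [hC] at hmem
    exact hmem
  have hnorm : ∀ g : G, ∃ k : ℕ, g * u * g⁻¹ = u ^ k := by
    intro g
    have h1 : g * u * g⁻¹ ∈ Subgroup.zpowers u :=
      Subgroup.Normal.conj_mem inferInstance u (Subgroup.mem_zpowers u) g
    rw [← mem_powers_iff_mem_zpowers] at h1
    obtain ⟨k, hk⟩ := h1
    exact ⟨k, hk.symm⟩
  exact main_of_gen hG hna hord hcent hnorm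

end Cfsg.Agent.S3761
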