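import Cfsg.Statements.S1460
import Cfsg.Agent.Lib.OddLocal.CoprimeFix
import Cfsg.Agent.Lib.Struct.Basic

set_option autoImplicit false
open Cfsg

namespace Cfsg.Agent.S1460

open Cfsg.Agent.Lib.OddLocal
open scoped commutatorElement

/-- Let G be a finite solvable group, K a normal subgroup and U a subgroup with G = KU, and H ≤ U a subgroup whose order is coprime to that of K. Then H ∩ G' = H ∩ U'; N_G(H) is generated by K ∩ C_G(H) and U ∩ N_G(H); and if gHg⁻¹ ≤ U for some g ∈ G then g = u c with u ∈ U and c ∈ K ∩ C_G(H). -/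
theorem result {G : Type*} [Group G] [Finite G] [Group.IsSolvable G] (K U H : Subgroup G) [K.Normal] (hKU : K ⊔ U = ⊤) (hH : H ≤ U) (hcop : (Nat.card H).Coprime (Nat.card K)) :
    H ⊓ commutator G = H ⊓ ⁅U, U⁆ ∧
      Subgroup.normalizer (H : Set G) = (K ⊓ Subgroup.centralizer (H : Set G)) ⊔ (U ⊓ Subgroup.normalizer (H : Set G)) ∧
      ∀ g : G, H.map (MulAut.conj g).toMonoidHom ≤ U → ∃ u ∈ U, ∃ c ∈ K ⊓ Subgroup.centralizer (H : Set G), g = u * c := by
  have hKn : K.Normal := inferInstance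
  have hfact : ∀ g : G, ∃ u ∈ U, ∃ k ∈ K, u * k = g := by
    intro g
    have : g ∈ U ⊔ K := by rw [sup_comm, hKU]; trivial
    exact Subgroup.mem_sup_of_normal_right.mp this
  have hc : ∀ g : G, H.map (MulAut.conj g).toMonoidHom ≤ U → ∃ u ∈ U, ∃ c ∈ K ⊓ Subgroup.centralizer (H : Set G), g = u * c := by
    intro g hg
    obtain ⟨u, hu, k, hk, rfl⟩ := hfact g
    set L := K ⊓ U with hL
    have hLH : H ≤ Subgroup.normalizer (L : Set G) := by
      intro x hx
      apply mem_normalizer_inf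
      · exact Subgroup.normalizer_eq_top_iff.mpr hKn ▸ Subgroup.mem_top x
      · exact Subgroup.le_normalizer (hH hx)
    have hcopL : (Nat.card L).Coprime (Nat.card H) :=
      Nat.Coprime.coprime_dvd_left (Subgroup.card_dvd_of_le inf_le_left) hcop.symm
    have hcomm : ∀ a ∈ H, k * a * k⁻¹ * a⁻¹ ∈ L := by
      intro a ha
      refine Subgroup.mem_inf.mpr ⟨?_, ?_⟩
      · have := hKn.conj_mem _ (K.inv_mem hk) a
        have e : k * a * k⁻¹ * a⁻¹ = k * (a * k⁻¹ * a⁻¹) := by group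
        rw [e]
        exact K.mul_mem hk this
      · have h1 : (u * k) * a * (u * k)⁻¹ ∈ U := hg ⟨a, ha, by simp only [MulEquiv.coe_toMonoidHom, MulAut.conj_apply]⟩
        have h2 : k * a * k⁻¹ = u⁻¹ * ((u * k) * a * (u * k)⁻¹) * u := by group
        rw [h2]
        exact U.mul_mem (U.mul_mem (U.mul_mem (U.inv_mem hu) h1) hu) (U.inv_mem (hH ha))
    obtain ⟨n, hn, hnk⟩ := exists_mul_mem_centralizer hLH hcopL (Or.inl inferInstance) k hcomm
    have hnK : n ∈ K := (Subgroup.mem_inf.mp hn).1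
    have hnU : n ∈ U := (Subgroup.mem_inf.mp hn).2
    exact ⟨u * n⁻¹, U.mul_mem hu (U.inv_mem hnU), n * k,
      Subgroup.mem_inf.mpr ⟨K.mul_mem hnK hk, hnk⟩, by group⟩
  refine ⟨?_, ?_, hc⟩
  · apply le_antisymm
    · intro x hx
      obtain ⟨hxH, hxG⟩ := Subgroup.mem_inf.mp hx
      refine Subgroup.mem_inf.mpr ⟨hxH, ?_⟩
      have hGle : commutator G ≤ K ⊔ ⁅U, U⁆ := by
        rw [commutator_def, Subgroup.commutator_le]
        intro a _ b _
        obtain ⟨u₁, hu₁, k₁, hk₁, rfl⟩ := hfact a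
        obtain ⟨u₂, hu₂, k₂, hk₂, rfl⟩ := hfact b
        have h1 : (QuotientGroup.mk' K) ⁅u₁ * k₁, u₂ * k₂⁆ = (QuotientGroup.mk' K) ⁅u₁, u₂⁆ := by
          simp only [map_commutatorElement, map_mul]
          have e1 : (QuotientGroup.mk' K) k₁ = 1 := by
            rw [QuotientGroup.mk'_apply, QuotientGroup.eq_one_iff]; exact hk₁
          have e2 : (QuotientGroup.mk' K) k₂ = 1 := by
            rw [QuotientGroup.mk'_apply, QuotientGroup.eq_one_iff]; exact hk₂
          rw [e1, e2, mul_one, mul_one]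
        have h2 : ⁅u₁ * k₁, u₂ * k₂⁆ * ⁅u₁, u₂⁆⁻¹ ∈ K := by
          rw [← QuotientGroup.eq_one_iff]
          have : ((⁅u₁ * k₁, u₂ * k₂⁆ * ⁅u₁, u₂⁆⁻¹ : G) : G ⧸ K) =
              (QuotientGroup.mk' K) ⁅u₁ * k₁, u₂ * k₂⁆ * ((QuotientGroup.mk' K) ⁅u₁, u₂⁆)⁻¹ := by
            rw [← map_inv, ← map_mul]
            rfl
          rw [this, h1, mul_inv_cancel]
        have h3 : ⁅u₁ * k₁, u₂ * k₂⁆ = (⁅u₁ * k₁, u₂ * k₂⁆ * ⁅u₁, u₂⁆⁻¹) * ⁅u₁, u₂⁆ := by group
        rw [h3]
        exact Subgroup.mul_mem_sup h2 (Subgroup.commutator_mem_commutator hu₁ hu₂)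
      obtain ⟨k, hk, w, hw, rfl⟩ := Subgroup.mem_sup_of_normal_left.mp (hGle hxG)
      have hwU : w ∈ U := Subgroup.commutator_le_self U hw
      have hkU : k ∈ U := by
        have := U.mul_mem (hH hxH) (U.inv_mem hwU)
        simpa using this
      have hkN : k ∈ Subgroup.normalizer ((⁅U, U⁆ : Subgroup G) : Set G) :=
        Subgroup.normalizer_commutator_ge_left U U hkU
      obtain ⟨w', hw', e⟩ := pow_mul_mem_of_normalizes hkN hw (Nat.card K)
      have hkpow : k ^ Nat.card K = 1 :=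
        orderOf_dvd_iff_pow_eq_one.mp (Subgroup.orderOf_dvd_natCard K hk)
      rw [hkpow, one_mul] at e
      apply Cfsg.Agent.Lib.Struct.mem_of_pow_mem_of_coprime ⁅U, U⁆
        (Nat.Coprime.coprime_dvd_left (Subgroup.orderOf_dvd_natCard H hxH) hcop)
      rw [e]
      exact hw'
    · refine inf_le_inf_left _ ?_
      rw [commutator_def]
      exact Subgroup.commutator_mono le_top le_top
  · apply le_antisymm
    · intro g hg
      have h1 : H.map (MulAut.conj g).toMonoidHom ≤ U := by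
        have := Subgroup.mem_normalizer_iff_map_conj_eq.mp hg
        have h2 : H.map (MulAut.conj g).toMonoidHom = H := this
        rw [h2]
        exact hH
      obtain ⟨u, hu, c, hc', rfl⟩ := hc g h1
      have hcC := (Subgroup.mem_inf.mp hc').2
      have hcN : c ∈ Subgroup.normalizer (H : Set G) :=
        Subgroup.centralizer_le_normalizer _ hcC
      have huN : u ∈ Subgroup.normalizer (H : Set G) := by
        have := (Subgroup.normalizer (H : Set G)).mul_mem hg ((Subgroup.normalizer (H : Set G)).inv_mem hcN)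
        simpa using this
      rw [sup_comm]
      exact Subgroup.mul_mem_sup (Subgroup.mem_inf.mpr ⟨hu, huN⟩) hc'
    · refine sup_le ?_ inf_le_right
      exact inf_le_right.trans (Subgroup.centralizer_le_normalizer _)

end Cfsg.Agent.S1460
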