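import Cfsg.Statements.S1461
import Cfsg.Agent.Lib.OddLocal.PLength
import Cfsg.Agent.S1460

set_option autoImplicit false
open Cfsg

namespace Cfsg.Agent.S1461

open Cfsg.Agent.Lib.OddLocal
open scoped commutatorElement

/-- Let G be a finite solvable group, p a prime with G = O_{p',p,p'}(G), and S a Sylow p-subgroup. Then: if S ≤ G' then S ≤ [N_G(S), N_G(S)]; if Y ⊆ S and xYx⁻¹ ⊆ S then x = g c for some g ∈ N_G(S) and c centralizing Y; and for every p-subgroup Q there is x ∈ C_G(Q ∩ S) with xQx⁻¹ ≤ S. -/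
theorem result {G : Type*} [Group G] [Finite G] [Group.IsSolvable G] (p : ℕ) [Fact p.Prime] (hpl : Cfsg.PLengthLE p 1 G) (S : Sylow p G) :
    ((S : Subgroup G) ≤ commutator G → (S : Subgroup G) ≤ ⁅Subgroup.normalizer ((S : Subgroup G) : Set G), Subgroup.normalizer ((S : Subgroup G) : Set G)⁆) ∧
      (∀ (Y : Set G) (x : G), Y ⊆ (S : Subgroup G) → (fun y => x * y * x⁻¹) '' Y ⊆ (S : Subgroup G) →
        ∃ g ∈ Subgroup.normalizer ((S : Subgroup G) : Set G), ∃ c ∈ Subgroup.centralizer Y, g * c = x) ∧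
      ∀ Q : Subgroup G, IsPGroup p Q → ∃ x ∈ Subgroup.centralizer ((Q ⊓ (S : Subgroup G) : Subgroup G) : Set G), Q.map (MulAut.conj x).toMonoidHom ≤ (S : Subgroup G) := by
  set K := pPrimeCore p G with hK
  set U := Subgroup.normalizer ((S : Subgroup G) : Set G) with hU
  have hKU : K ⊔ U = ⊤ := pPrimeCore_sup_normalizer_sylow hpl S
  have hKcop : (Nat.card K).Coprime p := Cfsg.Agent.Lib.Basic.pPrimeCore_coprime p
  have hSU : (S : Subgroup G) ≤ U := Subgroup.le_normalizer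
  -- coprimality for subgroups of S
  have hcopS : ∀ H : Subgroup G, H ≤ (S : Subgroup G) → (Nat.card H).Coprime (Nat.card K) := by
    intro H hH
    have hp : IsPGroup p H := IsPGroup.to_le S.isPGroup' hH
    obtain ⟨k, hk⟩ := hp.exists_card_eq
    rw [hk]
    exact Nat.Coprime.pow_left _ hKcop.symm
  have hU' := fun (H : Subgroup G) (hH : H ≤ (S : Subgroup G)) => Cfsg.Agent.S1460.result K U H hKU (hH.trans hSU) (hcopS H hH)
  have hS := hU' (S : Subgroup G) le_rfl
  refine ⟨?_, ?_, ?_⟩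
  · intro hle x hx
    have : x ∈ (S : Subgroup G) ⊓ commutator G := Subgroup.mem_inf.mpr ⟨hx, hle hx⟩
    rw [hS.1] at this
    exact (Subgroup.mem_inf.mp this).2
  · intro Y x hY hxY
    have hle : Subgroup.closure Y ≤ (S : Subgroup G) := (Subgroup.closure_le _).mpr hY
    have h := (hU' _ hle).2.2 x ?_
    · obtain ⟨u, hu, c, hc, rfl⟩ := h
      refine ⟨u, hu, c, ?_, rfl⟩
      exact Subgroup.centralizer_le Subgroup.subset_closure (Subgroup.mem_inf.mp hc).2
    · rw [Subgroup.map_le_iff_le_comap, Subgroup.closure_le]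
      intro y hy
      have : x * y * x⁻¹ ∈ (S : Subgroup G) := hxY ⟨y, hy, rfl⟩
      exact hSU this
  · intro Q hQ
    -- conjugate Q into S using an element of K
    obtain ⟨R, hR⟩ := hQ.exists_le_sylow
    obtain ⟨g, hg⟩ := MulAction.exists_smul_eq G R S
    have hgx : ∀ x ∈ Q, g * x * g⁻¹ ∈ (S : Subgroup G) := by
      intro x hx
      rw [← hg, Sylow.coe_subgroup_smul]
      exact Cfsg.Agent.Lib.Basic.conj_mem_conj_smul.mpr (hR hx)
    have hD := hU' (Q ⊓ (S : Subgroup G)) inf_le_right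
    obtain ⟨v, hv, c, hc, e⟩ := hD.2.2 g (by
      rintro _ ⟨x, hx, rfl⟩
      exact hSU (hgx x (Subgroup.mem_inf.mp hx).1))
    refine ⟨c, (Subgroup.mem_inf.mp hc).2, ?_⟩
    rintro _ ⟨x, hx, rfl⟩
    have h1 := (Subgroup.mem_normalizer_iff.mp (U.inv_mem hv) (g * x * g⁻¹)).mp (hgx x hx)
    have h2 : (MulAut.conj c).toMonoidHom x = v⁻¹ * (g * x * g⁻¹) * v⁻¹⁻¹ := by
      simp only [MulEquiv.coe_toMonoidHom, MulAut.conj_apply, e]
      group
    rw [h2]
    exact h1

end Cfsg.Agent.S1461
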