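import Cfsg.Statements.S1443
import Cfsg.Agent.Lib.OddLocal.PGroup

set_option autoImplicit false
open Cfsg

namespace Cfsg.Agent.S1443

open Cfsg.Agent.Lib.OddLocal

/-- Let G be a finite group, p an odd prime, H a p-subgroup, E an elementary abelian subgroup of H, and A a subgroup of order coprime to p normalizing H. If A centralizes every element of order p in H ∩ C_G(E), then A centralizes H. -/
theorem result {G : Type*} [Group G] [Finite G] (p : ℕ) [Fact p.Prime] (hp : p ≠ 2) (H E A : Subgroup G) (hH : IsPGroup p H) (hE : E ≤ H) (hEe : Cfsg.IsElementaryAbelian p E)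
    (hA : (A ≤ Subgroup.normalizer (H : Set G))) (hcop : (Nat.card A).Coprime p)
    (hfix : ∀ x ∈ (H ⊓ Subgroup.centralizer (E : Set G)), orderOf x = p → A ≤ Subgroup.centralizer ({x} : Set G)) :
    A ≤ Subgroup.centralizer (H : Set G) := by
  have hpp : p.Prime := Fact.out
  -- elements with x ^ p = 1 in C_H(E) are fixed
  have hfix' : ∀ x ∈ (H ⊓ Subgroup.centralizer (E : Set G)), x ^ p = 1 → ∀ a ∈ A, a * x = x * a := by
    intro x hx hxp a ha
    by_cases hx1 : x = 1
    · subst hx1; simp
    have hord : orderOf x = p := orderOf_eq_prime hxp hx1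
    have := hfix x hx hord ha
    rw [Subgroup.mem_centralizer_iff] at this
    exact (this x rfl).symm
  -- A commutes with E
  have hAE : ∀ a ∈ A, ∀ e ∈ E, a * e = e * a := by
    intro a ha e he
    apply hfix' e _ (hEe.2 e he) a ha
    refine Subgroup.mem_inf.mpr ⟨hE he, ?_⟩
    rw [Subgroup.mem_centralizer_iff]
    intro f hf
    have hc := hEe.1.is_comm.comm (⟨e, he⟩ : E) ⟨f, hf⟩
    exact congrArg Subtype.val hc.symm
  refine thompson_AxB p H A E hH (hH.to_le hE) hcop hA ?_ hAE ?_
  · intro e he
    have heH := hE he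
    rw [Subgroup.mem_normalizer_iff'']
    intro h
    constructor
    · intro hh
      exact H.mul_mem (H.mul_mem (H.inv_mem heH) hh) heH
    · intro hh
      have := H.mul_mem (H.mul_mem heH hh) (H.inv_mem heH)
      simpa [mul_assoc] using this
  · intro a ha x hx hxE
    have haord : (orderOf a).Coprime p :=
      Nat.Coprime.coprime_dvd_left (Subgroup.orderOf_dvd_natCard A ha) hcop
    have haH := Subgroup.mem_normalizer_iff''.mp (hA ha)
    have hinv : ∀ z ∈ H ⊓ Subgroup.centralizer (E : Set G), a * z * a⁻¹ ∈ H ⊓ Subgroup.centralizer (E : Set G) := by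
      intro z hz
      obtain ⟨hzH, hzE⟩ := Subgroup.mem_inf.mp hz
      refine Subgroup.mem_inf.mpr ⟨(haH _).mpr (by
        have h2 : a⁻¹ * (a * z * a⁻¹) * a = z := by group
        rw [h2]; exact hzH), ?_⟩
      rw [Subgroup.mem_centralizer_iff]
      intro e he
      have e1 := hAE a ha e he
      have e2 := Subgroup.mem_centralizer_iff.mp hzE e he
      have e3 : e * a⁻¹ = a⁻¹ * e := by
        calc e * a⁻¹ = a⁻¹ * (a * e) * a⁻¹ := by group
          _ = a⁻¹ * (e * a) * a⁻¹ := by rw [e1]
          _ = a⁻¹ * e := by group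
      calc e * (a * z * a⁻¹) = (e * a) * z * a⁻¹ := by group
        _ = (a * e) * z * a⁻¹ := by rw [e1]
        _ = a * (e * z) * a⁻¹ := by group
        _ = a * (z * e) * a⁻¹ := by rw [e2]
        _ = a * z * (e * a⁻¹) := by group
        _ = a * z * (a⁻¹ * e) := by rw [e3]
        _ = _ := by group
    have h := fix_of_fix_omega p hp a haord (H ⊓ Subgroup.centralizer (E : Set G))
      (hH.to_le inf_le_left) hinv (fun z hz hzp => by
        have := hfix' z hz hzp a ha
        rw [this]; group) x (Subgroup.mem_inf.mpr ⟨hx, by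
        rw [Subgroup.mem_centralizer_iff]
        intro e he
        exact hxE e he⟩)
    calc a * x = a * x * a⁻¹ * a := by group
      _ = x * a := by rw [h]

end Cfsg.Agent.S1443
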