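import Cfsg.Statements.S1451
import Cfsg.Agent.Lib.OddLocal.Rank2F

set_option autoImplicit false
open Cfsg

namespace Cfsg.Agent.S1451

/-- Let G be a solvable group of odd order such that G, or its Fitting subgroup, has no elementary abelian subgroup of order q ^ 3 for any prime q. Then G' is nilpotent; for every Sylow subgroup S of G, every characteristic subgroup T of S with T ≤ [S, S] is normal in G; and for every prime p, G has a characteristic subgroup that is a Hall subgroup for the set of primes greater than p. -/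
theorem result {G : Type*} [Group G] [Finite G] [Group.IsSolvable G] (hodd : Odd (Nat.card G)) (hr : Cfsg.RankLE 2 G ∨ Cfsg.RankLE 2 (Cfsg.fittingSubgroup G)) :
    Group.IsNilpotent ↥(commutator G) ∧
      (∀ (q : ℕ) [Fact q.Prime] (S : Sylow q G) (T : Subgroup ↥(S : Subgroup G)), T.Characteristic → T.map (S : Subgroup G).subtype ≤ ⁅(S : Subgroup G), (S : Subgroup G)⁆ →
        (T.map (S : Subgroup G).subtype).Normal) ∧
      ∀ p : ℕ, ∃ N : Subgroup G, N.Characteristic ∧ Cfsg.IsPiHall {q | q.Prime ∧ p < q} N := by
  have hF : Cfsg.RankLE 2 (Cfsg.fittingSubgroup G) := by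
    rcases hr with h | h
    · intro r hr
      exact Cfsg.Agent.Lib.OddLocal.prank_of_subgroup (h r hr) _
    · exact h
  have hnil := Cfsg.Agent.Lib.OddLocal.s1451_nilp hodd hF
  refine ⟨hnil, ?_, Cfsg.Agent.Lib.OddLocal.s1451_tower hodd hF hnil⟩
  intro q _ S T hT hle
  exact Cfsg.Agent.Lib.OddLocal.s1451_char hnil q S T hT hle

end Cfsg.Agent.S1451
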