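import Cfsg.Statements.S1505
import Cfsg.Agent.Lib.OddChar.CyclicTI2

set_option autoImplicit false
open Cfsg

namespace Cfsg.Agent.S1505

open Cfsg.Agent.Lib.Char Cfsg.Agent.Lib.OddChar

open Classical in
/-- Let W₁, W₂ ≤ G form a self-normalising cyclic subgroup W = W₁ ⊔ W₂. For nontrivial linear characters φ, φ' of W trivial on W₂ and ψ, ψ' trivial on W₁, put α = (1 − φ)(1 − ψ) and α' = (1 − φ')(1 − ψ'). Then the function induced from α to G has inner product 1 with the principal character, and the inner product of the functions induced from α and α' is 1 + a + b + ab where a = 1 if φ = φ' (else 0) and b = 1 if ψ = ψ' (else 0). -/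
theorem result {G : Type*} [Group G] [Fintype G] (W₁ W₂ : Subgroup G) (hW : Cfsg.IsSelfNormalizingCyclic W₁ W₂) (φ φ' ψ ψ' : ↥(W₁ ⊔ W₂) →* ℂˣ) (hφ : φ ≠ 1) (hφ' : φ' ≠ 1) (hψ : ψ ≠ 1) (hψ' : ψ' ≠ 1) (hφ₂ : ∀ w : ↥(W₁ ⊔ W₂), (w : G) ∈ W₂ → φ w = 1 ∧ φ' w = 1) (hψ₁ : ∀ w : ↥(W₁ ⊔ W₂), (w : G) ∈ W₁ → ψ w = 1 ∧ ψ' w = 1) : Cfsg.classInner (Cfsg.indFun (W₁ ⊔ W₂) (fun w => 1 - (φ w : ℂ) - (ψ w : ℂ) + (φ w : ℂ) * (ψ w : ℂ))) (fun _ => 1) = 1 ∧ Cfsg.classInner (Cfsg.indFun (W₁ ⊔ W₂) (fun w => 1 - (φ w : ℂ) - (ψ w : ℂ) + (φ w : ℂ) * (ψ w : ℂ))) (Cfsg.indFun (W₁ ⊔ W₂) (fun w => 1 - (φ' w : ℂ) - (ψ' w : ℂ) + (φ' w : ℂ) * (ψ' w : ℂ))) = 1 + (if φ = φ' then 1 else 0) + (if ψ = ψ' then 1 else 0) + (if φ = φ' then 1 else 0) * (if ψ = ψ' then 1 else 0) := by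
  have hcomm := hW.2.2.2.1
  constructor
  · letI : Fintype ↥(W₁ ⊔ W₂) := Fintype.ofFinite _
    have ha : ∀ w : ↥(W₁ ⊔ W₂), (w : G) ∈ W₂ → φ w = 1 := fun w hw => (hφ₂ w hw).1
    have hb : ∀ w : ↥(W₁ ⊔ W₂), (w : G) ∈ W₁ → ψ w = 1 := fun w hw => (hψ₁ w hw).1
    rw [classInner_indFun_left _ _ _ (fun _ _ => rfl)]
    change classInner _ (fun _ : ↥(W₁ ⊔ W₂) => (1 : ℂ)) = 1
    have hone : (fun _ : ↥(W₁ ⊔ W₂) => (1 : ℂ)) = fun w => (((1 : ↥(W₁ ⊔ W₂) →* ℂˣ) w : ℂˣ) : ℂ) := by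
      funext w
      simp
    have h2 : (fun w : ↥(W₁ ⊔ W₂) => 1 - (φ w : ℂ) - (ψ w : ℂ) + (φ w : ℂ) * (ψ w : ℂ)) =
        (fun w => (((1 : ↥(W₁ ⊔ W₂) →* ℂˣ) w : ℂˣ) : ℂ)) - (fun w => (φ w : ℂ)) - (fun w => (ψ w : ℂ)) +
          (fun w => (((φ * ψ) w : ℂˣ) : ℂ)) := by
      funext w
      simp
    rw [hone, h2, classInner_add_left, classInner_sub_left, classInner_sub_left, classInner_hom,
      classInner_hom, classInner_hom, classInner_hom]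
    have h3 : ¬ φ * ψ = 1 := by
      intro h
      have := hom_product_unique hcomm (φ' := 1) (ψ' := 1) ha (by simp) hb (by simp)
        (h.trans (by ext x; simp))
      exact hφ this.1
    simp [hφ, hψ, h3]
  · exact classInner_indFun_alpha hW hφ hφ' hψ hψ' (fun w hw => (hφ₂ w hw).1) (fun w hw => (hφ₂ w hw).2)
      (fun w hw => (hψ₁ w hw).1) (fun w hw => (hψ₁ w hw).2)

end Cfsg.Agent.S1505
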