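import Cfsg.Statements.S1457
import Cfsg.Agent.S1465

set_option autoImplicit false
open Cfsg

namespace Cfsg.Agent.S1457

/-- Let G be a solvable group of odd order, p a prime, S a Sylow p-subgroup of G and A an abelian subgroup of S normal in S. Then A ≤ O_{p',p}(G). -/
theorem result {G : Type*} [Group G] [Finite G] [Group.IsSolvable G] (hodd : Odd (Nat.card G)) (p : ℕ) [Fact p.Prime] (S : Sylow p G) (A : Subgroup G) (hA : A ≤ (S : Subgroup G)) (hAc : IsMulCommutative A)
    (hAn : (S : Subgroup G) ≤ Subgroup.normalizer (A : Set G)) :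
    A ≤ Cfsg.pPrimePCore p G := by
  classical
  have hpp : p.Prime := Fact.out
  by_cases hp : p = 2
  · -- A is trivial
    subst hp
    intro a ha
    have h1 : ∃ k, (a : G) ^ (2 ^ k) = 1 := by
      obtain ⟨k, hk⟩ := S.isPGroup' ⟨a, hA ha⟩
      exact ⟨k, congrArg Subtype.val hk⟩
    obtain ⟨k, hk⟩ := h1
    have h2 : orderOf a ∣ 2 ^ k := orderOf_dvd_of_pow_eq_one hk
    have h3 : orderOf a ∣ Nat.card G := orderOf_dvd_natCard a
    have h4 : Nat.Coprime (orderOf a) (2 ^ k) := by
      apply Nat.Coprime.coprime_dvd_left h3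
      exact Nat.Coprime.pow_right k (Nat.coprime_two_right.mpr hodd)
    have h5 : orderOf a = 1 := Nat.Coprime.eq_one_of_dvd h4 h2
    rw [orderOf_eq_one_iff.mp h5]
    exact Subgroup.one_mem _
  -- odd case
  set O := Cfsg.pPrimeCore p G with hO
  haveI hOn : O.Normal := Cfsg.Agent.Lib.Basic.pPrimeCore_normal p
  let π := QuotientGroup.mk' O
  have hπ : Function.Surjective π := QuotientGroup.mk'_surjective O
  have hodd' : Odd (Nat.card (G ⧸ O)) := Odd.of_dvd_nat hodd (Subgroup.card_quotient_dvd_card O)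
  set T := Cfsg.pCore p (G ⧸ O) with hT
  haveI hTn : T.Normal := Cfsg.Agent.Lib.Basic.pCore_normal p
  have hTp : IsPGroup p T := Cfsg.Agent.Lib.Basic.pCore_isPGroup p
  have hcore : Cfsg.pPrimeCore p (G ⧸ O) = ⊥ := Cfsg.Agent.Lib.OddLocal.pPrimeCore_quotient_eq_bot p
  haveI hsol : Group.IsSolvable (G ⧸ O) := inferInstance
  let Sbar : Sylow p (G ⧸ O) := S.mapSurjective hπ
  have hTS : T ≤ (Sbar : Subgroup (G ⧸ O)) := Cfsg.Agent.Lib.Basic.pCore_le_sylow Sbar
  have hSbar : (Sbar : Subgroup (G ⧸ O)) = (S : Subgroup G).map π := rfl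
  have h1 := (Cfsg.Agent.S1465.result hodd' p hp T hTp {A.map π} (by
    rintro B rfl
    refine ⟨⟨⟨?_⟩⟩, ?_, ?_⟩
    · rintro ⟨_, a, ha, rfl⟩ ⟨_, b, hb, rfl⟩
      apply Subtype.ext
      have := hAc.is_comm.comm (⟨a, ha⟩ : A) ⟨b, hb⟩
      have h2 := congrArg (fun x : A => π (x : G)) this
      simpa using h2
    · exact (S.isPGroup'.to_le hA).map π
    · intro t ht
      have ht' : t ∈ (S : Subgroup G).map π := hSbar ▸ hTS ht
      obtain ⟨s, hs, rfl⟩ := ht'
      rw [Subgroup.mem_normalizer_iff]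
      intro x
      constructor
      · rintro ⟨a, ha, rfl⟩
        refine ⟨s * a * s⁻¹, (Subgroup.mem_normalizer_iff.mp (hAn hs) a).mp ha, ?_⟩
        simp
      · rintro ⟨a, ha, hax⟩
        refine ⟨s⁻¹ * a * s, ?_, ?_⟩
        · have h3 := Subgroup.mem_normalizer_iff.mp (hAn (S.inv_mem hs)) a
          rw [inv_inv] at h3
          exact h3.mp ha
        · have h4 : π (s⁻¹ * a * s) = (π s)⁻¹ * π a * π s := by simp
          rw [h4]
          rw [hax]
          group)).2 hcore (by
    intro z hz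
    exact hz.1)
  rw [sSup_singleton] at h1
  exact (Subgroup.map_le_iff_le_comap).mp h1

end Cfsg.Agent.S1457
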