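import Cfsg.Statements.S4718
import Cfsg.Agent.Lib.H8Group.Landau
import Cfsg.Agent.Lib.H8Group.SMat
import Cfsg.Agent.Lib.H8Group.BlockBasics

set_option autoImplicit false
universe u
open Cfsg

namespace Cfsg.Agent.S4718

open Cfsg.Agent.Lib.Char Cfsg.Agent.Lib.H8Group Cfsg.Agent.Lib.Blocks

/-- Let p be a prime and a a natural number. There is a bound N such that every finite group whose Sylow p-subgroups have order p^a and whose only p-block (relative to a maximal ideal of the algebraic integers containing p) is the principal block has order at most N. -/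
theorem result (p : ℕ) [Fact p.Prime] (a : ℕ) : ∃ N : ℕ, ∀ (G : Type u) [Group G] [Finite G] (M : Ideal Cfsg.AlgInt), Cfsg.IsPModular p M → (Nat.card G).factorization p = a → (∀ B : Set (Cfsg.IrrCharacter G), Cfsg.IsPBlock M B → B = Cfsg.principalBlock M G) → Nat.card G ≤ N := by
  classical
  obtain ⟨N, hN⟩ := landau_bound.{u} (p ^ (2 * a) + 4)
  refine ⟨N, ?_⟩
  intro G _ _ M hM ha honly
  letI := Fintype.ofFinite G
  have := isPrime_of_modular hM
  apply hN
  have h1 := four_mul_card_block_le hM (isPBlock_principalBlock M G)
  have h2 : Nat.card (principalBlock M G) = Nat.card (IrrCharacter G) := by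
    have h3 : (principalBlock M G) = Set.univ := by
      rw [Set.eq_univ_iff_forall]
      intro χ
      rw [← honly _ (isPBlock_blockOf χ)]
      exact self_mem_blockOf χ
    rw [h3]
    exact Nat.card_congr (Equiv.Set.univ _)
  rw [h2, card_irr_eq_card_conjClasses] at h1
  have h4 : blockDefect p (principalBlock M G) ≤ a := by
    rw [blockDefect, ha]
    exact Nat.sub_le _ _
  have h5 : p ^ (2 * blockDefect p (principalBlock M G)) ≤ p ^ (2 * a) :=
    Nat.pow_le_pow_right hM.1.pos (by omega)
  omega

end Cfsg.Agent.S4718
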