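import Cfsg.Statements.S5421
import Cfsg.Agent.Lib.Basic.Core
-- import your own Cfsg.Agent.* helpers here

set_option autoImplicit false
open Cfsg

namespace Cfsg.Agent.S5421

lemma elt_trivial {G : Type*} [Group G] [Finite G] (K H : Subgroup G) (hK : Odd (Nat.card K))
    (hH : IsPGroup 2 H) {x : G} (hxK : x ∈ K) (hxH : x ∈ H) : x = 1 := by
  obtain ⟨n, hn⟩ := hH ⟨x, hxH⟩
  have h1 : x ^ (2 ^ n) = 1 := by
    have := congrArg Subtype.val hn
    simpa using this
  have h2 : x ^ (Nat.card K) = 1 := by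
    have h3 : ((⟨x, hxK⟩ : K) ^ Nat.card K : K) = 1 := pow_card_eq_one'
    have h4 := congrArg Subtype.val h3
    rw [Subgroup.coe_pow] at h4
    exact h4
  have hc : Nat.Coprime (2 ^ n) (Nat.card K) :=
    Nat.Coprime.pow_left _ ((Nat.coprime_two_left).mpr hK)
  have := (pow_gcd_eq_one (a := x)).mpr ⟨h1, h2⟩
  rwa [hc.gcd_eq_one, pow_one] at this

/-- An involution normalizing `K` with no non-trivial fixed point in `K` inverts `K`. -/
lemma inverts_of_fpf {G : Type*} [Group G] [Finite G] (K : Subgroup G) (t : G) (ht : t * t = 1)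
    (hn : ∀ k ∈ K, t * k * t⁻¹ ∈ K) (hf : ∀ k ∈ K, k * t = t * k → k = 1) :
    ∀ k ∈ K, t * k * t⁻¹ = k⁻¹ := by
  have htinv : t⁻¹ = t := by rw [inv_eq_iff_mul_eq_one]; exact ht
  let f : K → K := fun k => ⟨(k : G)⁻¹ * (t * k * t⁻¹), K.mul_mem (K.inv_mem k.2) (hn k k.2)⟩
  have hinj : Function.Injective f := by
    intro a b hab
    have h1 : (a : G)⁻¹ * (t * a * t⁻¹) = (b : G)⁻¹ * (t * b * t⁻¹) := congrArg Subtype.val hab
    have h2 : (b : G) * (a : G)⁻¹ * t = t * ((b : G) * (a : G)⁻¹) := by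
      have h3 : (b : G) * ((a : G)⁻¹ * (t * a * t⁻¹)) * (t * (a : G)⁻¹ * t⁻¹)⁻¹⁻¹ = (b : G) * ((b : G)⁻¹ * (t * b * t⁻¹)) * (t * (a : G)⁻¹ * t⁻¹)⁻¹⁻¹ := by rw [h1]
      simp only [inv_inv] at h3
      have e1 : (b : G) * ((a : G)⁻¹ * (t * a * t⁻¹)) * (t * (a : G)⁻¹ * t⁻¹) = (b : G) * (a : G)⁻¹ := by group
      have e2 : (b : G) * ((b : G)⁻¹ * (t * b * t⁻¹)) * (t * (a : G)⁻¹ * t⁻¹) = t * ((b : G) * (a : G)⁻¹) * t⁻¹ := by group
      rw [e1, e2] at h3
      rw [eq_mul_inv_iff_mul_eq] at h3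
      exact h3
    have h3 := hf _ (K.mul_mem b.2 (K.inv_mem a.2)) h2
    have h4 : (b : G) = a := by
      rwa [mul_inv_eq_one] at h3
    exact Subtype.ext h4.symm
  have hsurj : Function.Surjective f := Finite.surjective_of_injective hinj
  intro x hx
  obtain ⟨k, hk⟩ := hsurj ⟨x, hx⟩
  have hxk : x = (k : G)⁻¹ * (t * k * t⁻¹) := (congrArg Subtype.val hk).symm
  rw [hxk, htinv]
  have e : t * t = 1 := ht
  calc t * ((k : G)⁻¹ * (t * k * t)) * t = t * (k : G)⁻¹ * t * k * (t * t) := by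
        simp only [mul_assoc]
    _ = t * (k : G)⁻¹ * t * k := by rw [e, mul_one]
    _ = ((k : G)⁻¹ * (t * k * t))⁻¹ := by
      simp only [mul_inv_rev, htinv, inv_inv, mul_assoc]

open scoped commutatorElement in
lemma comm_mem' {Q : Type*} [Group Q] (x y : Q) : x * y * x⁻¹ * y⁻¹ ∈ commutator Q :=
  Subgroup.commutator_mem_commutator (Subgroup.mem_top x) (Subgroup.mem_top y)

/-- Let Q be an extraspecial 2-subgroup of the finite group G whose centralizer in G is its centre Z and which is normal in the centralizer of Z. If some involution b of Q outside Z has Z inside the largest normal 2-subgroup of the centralizer of b, then Q is a large extraspecial 2-subgroup of G. -/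
theorem result {G : Type*} [Group G] [Finite G] (Q : Subgroup G) (hL1 : Cfsg.IsExtraspecial 2 ↥Q) (hL2 : Subgroup.centralizer (Q : Set G) = ((Subgroup.center ↥Q).map Q.subtype)) (hL3 : Subgroup.centralizer (((Subgroup.center ↥Q).map Q.subtype) : Set G) ≤ Subgroup.normalizer (Q : Set G)) (b : G) (hbQ : b ∈ Q) (hbZ : b ∉ ((Subgroup.center ↥Q).map Q.subtype)) (hb : orderOf b = 2) (hZ : ((Subgroup.center ↥Q).map Q.subtype) ≤ (Cfsg.pCore 2 ↥(Subgroup.centralizer ({b} : Set G))).map (Subgroup.centralizer ({b} : Set G)).subtype) : Cfsg.IsLargeExtraspecial Q := by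
  classical
  refine ⟨hL1, hL2, hL3, ?_⟩
  intro K hK hQK
  have hQ2 : IsPGroup 2 Q := hL1.1.1
  set Z := (Subgroup.center Q).map Q.subtype with hZdef
  have hZQ : Z ≤ Q := Subgroup.map_subtype_le _
  -- generator of the centre
  have hcard : Nat.card (Subgroup.center Q) = 2 := hL1.2
  obtain ⟨⟨z', hz'c⟩, hz'1⟩ : ∃ q : Subgroup.center Q, q ≠ 1 := by
    have : Nontrivial (Subgroup.center Q) := Finite.one_lt_card_iff_nontrivial.mp (by rw [hcard]; norm_num)
    exact exists_ne 1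
  have hZcases : ∀ x : Subgroup.center Q, x = 1 ∨ x = ⟨z', hz'c⟩ := by
    intro x
    by_cases hx : x = 1
    · exact Or.inl hx
    · right
      obtain ⟨a, b, hab, hall⟩ := Nat.card_eq_two_iff.mp hcard
      have h1 : ∀ y : Subgroup.center Q, y = a ∨ y = b := fun y => by
        have : y ∈ ({a, b} : Set _) := hall ▸ Set.mem_univ y
        simpa using this
      rcases h1 1 with h | h <;> rcases h1 x with h2 | h2 <;> rcases h1 ⟨z', hz'c⟩ with h3 | h3 <;>
        simp_all
  set z : G := (z' : G) with hzdef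
  have hzQ : z ∈ Q := z'.2
  have hzZ : z ∈ Z := ⟨z', hz'c, rfl⟩
  have hz1 : z ≠ 1 := by
    intro h
    apply hz'1
    apply Subtype.ext
    apply Subtype.ext
    exact h
  have hZmem : ∀ x ∈ Z, x = 1 ∨ x = z := by
    rintro x ⟨y, hy, rfl⟩
    rcases hZcases ⟨y, hy⟩ with h | h
    · left
      have := congrArg (fun t : Subgroup.center Q => ((t : Q) : G)) h
      exact this
    · right
      have := congrArg (fun t : Subgroup.center Q => ((t : Q) : G)) h
      exact this
  have hzz : z * z = 1 := by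
    have h1 : z * z ∈ Z := Z.mul_mem hzZ hzZ
    rcases hZmem _ h1 with h | h
    · exact h
    · exfalso
      apply hz1
      have : z * z = z * 1 := by rw [h, mul_one]
      exact mul_left_cancel this
  have hzinv : z⁻¹ = z := by rw [inv_eq_iff_mul_eq_one]; exact hzz
  have hnorm : ∀ q ∈ Q, ∀ k ∈ K, q * k * q⁻¹ ∈ K := by
    intro q hq k hk
    exact (Subgroup.mem_normalizer_iff.mp (hQK hq) k).mp hk
  -- Step A
  have hA : ∀ k ∈ K, k * z = z * k → k = 1 := by
    intro k hk hkz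
    have hkC : k ∈ Subgroup.centralizer ((Z : Subgroup G) : Set G) := by
      rw [Subgroup.mem_centralizer_iff]
      intro y hy
      rcases hZmem y hy with rfl | rfl
      · simp
      · exact hkz.symm
    have hkN := hL3 hkC
    have hkQ : k ∈ Subgroup.centralizer (Q : Set G) := by
      rw [Subgroup.mem_centralizer_iff]
      intro q hq
      have h1 : k * q * k⁻¹ * q⁻¹ ∈ Q := by
        have h2 := (Subgroup.mem_normalizer_iff.mp hkN q).mp hq
        exact Q.mul_mem h2 (Q.inv_mem hq)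
      have h2 : k * q * k⁻¹ * q⁻¹ ∈ K := by
        have h3 : q * k⁻¹ * q⁻¹ ∈ K := hnorm q hq _ (K.inv_mem hk)
        have : k * q * k⁻¹ * q⁻¹ = k * (q * k⁻¹ * q⁻¹) := by group
        rw [this]
        exact K.mul_mem hk h3
      have h3 := elt_trivial K Q hK hQ2 h2 h1
      have h4 : k * q * k⁻¹ = q := by rwa [mul_inv_eq_one] at h3
      rw [mul_inv_eq_iff_eq_mul] at h4
      exact h4.symm
    rw [hL2] at hkQ
    exact elt_trivial K Q hK hQ2 hk (hZQ hkQ)
  -- Step C : C_K(b) = 1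
  have hbC : b ∈ Subgroup.centralizer ({b} : Set G) := by
    rw [Subgroup.mem_centralizer_iff]
    intro y hy
    rw [Set.mem_singleton_iff.mp hy]
  have hC : ∀ k ∈ K, k * b = b * k → k = 1 := by
    intro k hk hkb
    apply hA k hk
    have hkC : k ∈ Subgroup.centralizer ({b} : Set G) := by
      rw [Subgroup.mem_centralizer_iff]
      intro y hy
      rw [Set.mem_singleton_iff.mp hy]
      exact hkb.symm
    obtain ⟨w, hw2, hw3⟩ := hZ hzZ
    have hw3' : (w : G) = z := hw3
    have hO2n : (Cfsg.pCore 2 ↥(Subgroup.centralizer ({b} : Set G))).Normal :=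
      @Subgroup.normal_of_characteristic _ _ _ (Cfsg.Agent.Lib.Basic.pCore_characteristic 2)
    have hcomm : (⟨k, hkC⟩ : Subgroup.centralizer ({b} : Set G)) * w * (⟨k, hkC⟩ : Subgroup.centralizer ({b} : Set G))⁻¹ * w⁻¹ ∈ Cfsg.pCore 2 ↥(Subgroup.centralizer ({b} : Set G)) :=
      Subgroup.mul_mem _ (hO2n.conj_mem _ hw2 _) (Subgroup.inv_mem _ hw2)
    have hpg : IsPGroup 2 ((Cfsg.pCore 2 ↥(Subgroup.centralizer ({b} : Set G))).map (Subgroup.centralizer ({b} : Set G)).subtype) :=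
      (Cfsg.Agent.Lib.Basic.pCore_isPGroup 2).map _
    have hmem1 : k * z * k⁻¹ * z⁻¹ ∈ (Cfsg.pCore 2 ↥(Subgroup.centralizer ({b} : Set G))).map (Subgroup.centralizer ({b} : Set G)).subtype := by
      refine ⟨_, hcomm, ?_⟩
      simp [hw3']
    have hmem2 : k * z * k⁻¹ * z⁻¹ ∈ K := by
      have h3 : z * k⁻¹ * z⁻¹ ∈ K := hnorm z hzQ _ (K.inv_mem hk)
      have : k * z * k⁻¹ * z⁻¹ = k * (z * k⁻¹ * z⁻¹) := by group
      rw [this]
      exact K.mul_mem hk h3
    have h3 := elt_trivial K _ hK hpg hmem2 hmem1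
    have h4 : k * z * k⁻¹ = z := by rwa [mul_inv_eq_one] at h3
    rw [mul_inv_eq_iff_eq_mul] at h4
    exact h4
  -- b inverts K
  have hbb : b * b = 1 := by
    have := pow_orderOf_eq_one b
    rw [hb, pow_two] at this
    exact this
  have hbinv : b⁻¹ = b := by rw [inv_eq_iff_mul_eq_one]; exact hbb
  have hbK := inverts_of_fpf K b hbb (hnorm b hbQ) hC
  have hzK := inverts_of_fpf K z hzz (hnorm z hzQ) hA
  -- b is not central in Q: a conjugate by Q is b z
  have hnc : ∃ x ∈ Q, x * b * x⁻¹ * b⁻¹ = z := by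
    by_contra hcon
    push Not at hcon
    apply hbZ
    have hcen : (⟨b, hbQ⟩ : Q) ∈ Subgroup.center Q := by
      rw [Subgroup.mem_center_iff]
      intro x
      have hcm := comm_mem' x (⟨b, hbQ⟩ : Q)
      rw [hL1.1.2.2] at hcm
      have hm : (x : G) * b * (x : G)⁻¹ * b⁻¹ ∈ Z := ⟨_, hcm, rfl⟩
      rcases hZmem _ hm with h | h
      · have h1 : (x : G) * b * (x : G)⁻¹ = b := by rwa [mul_inv_eq_one] at h
        rw [mul_inv_eq_iff_eq_mul] at h1
        apply Subtype.ext
        exact h1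
      · exact absurd h (hcon x x.2)
    exact ⟨_, hcen, rfl⟩
  obtain ⟨x, hxQ, hxb⟩ := hnc
  have hxb' : x * b * x⁻¹ = z * b := by
    rw [← hxb]; group
  -- z b centralizes K, hence K = 1
  rw [eq_bot_iff]
  intro k hk
  rw [Subgroup.mem_bot]
  have hkK : k ∈ K := hk
  have hfix : z * b * k * (z * b)⁻¹ = k := by
    have h1 := hbK k hkK
    have h2 := hzK _ (K.inv_mem hkK)
    rw [hbinv] at h1
    rw [hzinv] at h2
    rw [mul_inv_rev, hbinv, hzinv]
    calc z * b * k * (b * z) = z * (b * k * b) * z := by group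
      _ = z * k⁻¹ * z := by rw [h1]
      _ = k⁻¹⁻¹ := h2
      _ = k := inv_inv k
  -- conjugate back by x
  have hkx : x⁻¹ * k * x ∈ K := by
    have := hnorm x⁻¹ (Q.inv_mem hxQ) k hkK
    simpa using this
  have hcomm : (x⁻¹ * k * x) * b = b * (x⁻¹ * k * x) := by
    have h1 : z * b * k = k * (z * b) := by
      rw [mul_inv_eq_iff_eq_mul] at hfix
      exact hfix
    rw [← hxb'] at h1
    have h2 : x * b * x⁻¹ * k * x = k * (x * b * x⁻¹) * x := by rw [h1]
    have h3 : x⁻¹ * (x * b * x⁻¹ * k * x) = x⁻¹ * (k * (x * b * x⁻¹) * x) := by rw [h2]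
    have e1 : x⁻¹ * (x * b * x⁻¹ * k * x) = b * (x⁻¹ * k * x) := by group
    have e2 : x⁻¹ * (k * (x * b * x⁻¹) * x) = (x⁻¹ * k * x) * b := by group
    rw [e1, e2] at h3
    exact h3.symm
  have h1 := hC _ hkx hcomm
  have h2 : k = x * (x⁻¹ * k * x) * x⁻¹ := by group
  rw [h2, h1]
  simp

end Cfsg.Agent.S5421
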