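import Cfsg.Statements.S0292
import Mathlib
import Cfsg.Agent.Lib.Classical.OrthCenter
import Cfsg.Agent.Lib.Classical.OrthOrder
import Cfsg.Agent.Lib.Classical.SL2Local

set_option autoImplicit false
open Cfsg Cfsg.Agent.Lib.Classical

namespace Cfsg.Agent.S0292

/-- 2 |PΩ_{2m+1}(q)| = q^(m^2) prod_{i=1}^{m} (q^(2i) - 1), for q odd and m at least 3 (type B_m). -/
theorem result {F : Type*} [Field F] [Fintype F] {q : ℕ} (hF : Fintype.card F = q) (hodd : Odd q) (m : ℕ) (hm : 3 ≤ m) : 2 * Nat.card (Cfsg.POmega F (Cfsg.quadFormOdd m F)) = q ^ (m ^ 2) * ∏ i ∈ Finset.range m, (q ^ (2 * (i + 1)) - 1) := by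
  have hodd' : Odd (Fintype.card F) := by rwa [hF]
  have h2 : (2 : F) ≠ 0 := two_ne_zero_of_odd hodd'
  obtain ⟨Q', hQ', hnd⟩ := ndq_odd h2 m
  have hO := card_isometry_odd hF h2 m
  rw [← hQ'] at hO ⊢
  have hcard : Fintype.card (Unit ⊕ (Fin m ⊕ Fin m)) = 2 * m + 1 := by
    simp only [Fintype.card_sum, Fintype.card_unit, Fintype.card_fin]
    omega
  apply pomega_card_odd_no h2 hnd (by omega) (by rw [mul_assoc] at hO; exact hO)
  apply neg_one_not_mem_of_odd h2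
  rw [hcard]
  exact ⟨m, rfl⟩

end Cfsg.Agent.S0292
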