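import Cfsg.Statements.S1498
import Cfsg.Agent.Lib.OddLocal.Sup
import Cfsg.Prelude.Def_OddOrderChar
import Mathlib.GroupTheory.OrderOfElement

set_option autoImplicit false
open Cfsg

namespace Cfsg.Agent.S1498

open Cfsg.Agent.Lib

/-- Two normal subgroups of `C` complementing `E`, with orders coprime to `|E|`: one lies in the other. -/
private theorem le_of_complements {G : Type*} [Group G] [Finite G] (C E K M : Subgroup G)
    (hKn : ∀ c ∈ C, ∀ k ∈ K, c * k * c⁻¹ ∈ K) (hEC : E ≤ C) (hKC : K ≤ C)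
    (hinf : K ⊓ E = ⊥) (hsup : K ⊔ E = C) (hM : M ≤ C)
    (hcop : Nat.Coprime (Nat.card M) (Nat.card E)) : M ≤ K := by
  intro u hu
  have huC : u ∈ K ⊔ E := hsup ▸ hM hu
  have hN : E ≤ Subgroup.normalizer (K : Set G) := by
    intro e he
    rw [Subgroup.mem_normalizer_iff]
    intro k
    constructor
    · exact hKn e (hEC he) k
    · intro h
      have := hKn e⁻¹ (C.inv_mem (hEC he)) _ h
      have e' : e⁻¹ * (e * k * e⁻¹) * e⁻¹⁻¹ = k := by group
      rwa [e'] at this
  obtain ⟨k, hk, e, he, rfl⟩ := OddLocal.mem_sup_of_le_normalizer hN huC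
  -- powers of `k * e`
  have hpow : ∀ n : ℕ, ∃ k' ∈ K, (k * e) ^ n = k' * e ^ n := by
    intro n
    induction n with
    | zero => exact ⟨1, K.one_mem, by simp⟩
    | succ n ih =>
      obtain ⟨k', hk', h⟩ := ih
      refine ⟨k' * (e ^ n * k * (e ^ n)⁻¹), K.mul_mem hk' (hKn _ (C.pow_mem (hEC he) n) k hk), ?_⟩
      rw [pow_succ, h, pow_succ]
      group
  obtain ⟨k', hk', h⟩ := hpow (Nat.card M)
  have h1 : (k * e) ^ Nat.card M = 1 :=
    orderOf_dvd_iff_pow_eq_one.mp (Subgroup.orderOf_dvd_natCard M hu)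
  rw [h1] at h
  have h2 : e ^ Nat.card M ∈ K := by
    have : e ^ Nat.card M = k'⁻¹ := by
      rw [eq_inv_iff_mul_eq_one]
      have := h.symm
      exact (by
        calc e ^ Nat.card M * k' = k'⁻¹ * (k' * e ^ Nat.card M) * k' := by group
          _ = 1 := by rw [this]; group)
    rw [this]
    exact K.inv_mem hk'
  have h3 : e ^ Nat.card M = 1 := by
    have : e ^ Nat.card M ∈ K ⊓ E := ⟨h2, E.pow_mem he _⟩
    rw [hinf] at this
    simpa using this
  have h4 : orderOf e ∣ Nat.card M := orderOf_dvd_of_pow_eq_one h3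
  have h5 : orderOf e ∣ Nat.card E := Subgroup.orderOf_dvd_natCard E he
  have h6 : orderOf e = 1 := Nat.eq_one_of_dvd_coprimes hcop h4 h5
  rw [orderOf_eq_one_iff.mp h6, mul_one]
  exact hk

/-- Under the Dade hypothesis for (A, L, H): for a ∈ A and x ∈ L, the subgroup attached to x * a * x⁻¹ is the conjugate of H a by x. -/
theorem result {G : Type*} [Group G] [Finite G] (A : Set G) (L : Subgroup G) (H : G → Subgroup G) (hD : Cfsg.DadeHypothesis A L H) (a : G) (ha : a ∈ A) (x : G) (hx : x ∈ L) : H (x * a * x⁻¹) = (H a).map (MulAut.conj x).toMonoidHom := by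
  classical
  set b := x * a * x⁻¹ with hb
  have hbA : b ∈ A := hD.conj_mem x hx a ha
  let K := (H a).map (MulAut.conj x).toMonoidHom
  have hKmem : ∀ u, u ∈ K ↔ x⁻¹ * u * x ∈ H a := by
    intro u
    simp only [K, Subgroup.mem_map]
    constructor
    · rintro ⟨v, hv, rfl⟩
      have e : x⁻¹ * ((MulEquiv.toMonoidHom (MulAut.conj x)) v) * x = v := by
        simp [MulAut.conj_apply]
        group
      rw [e]
      exact hv
    · intro h
      refine ⟨_, h, ?_⟩
      simp [MulAut.conj_apply]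
      group
  have hCmem : ∀ u, u ∈ Subgroup.centralizer ({b} : Set G) ↔
      x⁻¹ * u * x ∈ Subgroup.centralizer ({a} : Set G) := by
    intro u
    simp only [Subgroup.mem_centralizer_singleton_iff, hb]
    constructor
    · intro h
      calc x⁻¹ * u * x * a = x⁻¹ * (u * (x * a * x⁻¹)) * x := by group
        _ = x⁻¹ * ((x * a * x⁻¹) * u) * x := by rw [h]
        _ = a * (x⁻¹ * u * x) := by group
    · intro h
      calc u * (x * a * x⁻¹) = x * ((x⁻¹ * u * x) * a) * x⁻¹ := by group
        _ = x * (a * (x⁻¹ * u * x)) * x⁻¹ := by rw [h]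
        _ = x * a * x⁻¹ * u := by group
  let C := Subgroup.centralizer ({b} : Set G)
  let E := L ⊓ C
  have hEC : E ≤ C := inf_le_right
  have hLmem : ∀ u, u ∈ L ↔ x⁻¹ * u * x ∈ L := by
    intro u
    constructor
    · intro h
      exact L.mul_mem (L.mul_mem (L.inv_mem hx) h) hx
    · intro h
      have := L.mul_mem (L.mul_mem hx h) (L.inv_mem hx)
      have e : x * (x⁻¹ * u * x) * x⁻¹ = u := by group
      rwa [e] at this
  have hKC : K ≤ C := by
    intro u hu
    exact (hCmem u).mpr (hD.le_centralizer a ha ((hKmem u).mp hu))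
  have hKn : ∀ c ∈ C, ∀ k ∈ K, c * k * c⁻¹ ∈ K := by
    intro c hc k hk
    rw [hKmem]
    have := hD.conj_mem_H a ha _ ((hCmem c).mp hc) _ ((hKmem k).mp hk)
    have e : x⁻¹ * (c * k * c⁻¹) * x = x⁻¹ * c * x * (x⁻¹ * k * x) * (x⁻¹ * c * x)⁻¹ := by group
    rw [e]
    exact this
  have hHbn : ∀ c ∈ C, ∀ k ∈ H b, c * k * c⁻¹ ∈ H b := fun c hc k hk =>
    hD.conj_mem_H b hbA c hc k hk
  have hKinf : K ⊓ E = ⊥ := by
    rw [eq_bot_iff]
    rintro u ⟨hu1, hu2⟩
    have h1 : x⁻¹ * u * x ∈ H a ⊓ (L ⊓ Subgroup.centralizer ({a} : Set G)) :=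
      ⟨(hKmem u).mp hu1, (hLmem u).mp hu2.1, (hCmem u).mp hu2.2⟩
    rw [hD.inf_eq_bot a ha] at h1
    have h2 : x⁻¹ * u * x = 1 := by simpa using h1
    have : u = x * (x⁻¹ * u * x) * x⁻¹ := by group
    rw [this, h2]
    simp
  have hKsup : K ⊔ E = C := by
    apply le_antisymm (sup_le hKC hEC)
    intro c hc
    have h1 : x⁻¹ * c * x ∈ H a ⊔ (L ⊓ Subgroup.centralizer ({a} : Set G)) := by
      rw [hD.sup_eq a ha]
      exact (hCmem c).mp hc
    have hN : L ⊓ Subgroup.centralizer ({a} : Set G) ≤ Subgroup.normalizer (H a : Set G) := by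
      intro e he
      rw [Subgroup.mem_normalizer_iff]
      intro k
      constructor
      · exact hD.conj_mem_H a ha e he.2 k
      · intro h
        have := hD.conj_mem_H a ha e⁻¹ (Subgroup.inv_mem _ he.2) _ h
        have e' : e⁻¹ * (e * k * e⁻¹) * e⁻¹⁻¹ = k := by group
        rwa [e'] at this
    obtain ⟨u, hu, e, he, hue⟩ := OddLocal.mem_sup_of_le_normalizer hN h1
    have h2 : c = (x * u * x⁻¹) * (x * e * x⁻¹) := by
      have : x * (u * e) * x⁻¹ = c := by rw [hue]; group
      rw [← this]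
      group
    rw [h2]
    refine Subgroup.mul_mem_sup ?_ ?_
    · rw [hKmem]
      have e' : x⁻¹ * (x * u * x⁻¹) * x = u := by group
      rwa [e']
    · refine ⟨?_, ?_⟩
      · change x * e * x⁻¹ ∈ L
        rw [hLmem]
        have e' : x⁻¹ * (x * e * x⁻¹) * x = e := by group
        rw [e']
        exact he.1
      · change x * e * x⁻¹ ∈ Subgroup.centralizer ({b} : Set G)
        rw [hCmem]
        have e' : x⁻¹ * (x * e * x⁻¹) * x = e := by group
        rw [e']
        exact he.2
  have hKcard : Nat.card K = Nat.card (H a) :=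
    Nat.card_congr ((H a).equivMapOfInjective _ (MulEquiv.injective _)).toEquiv.symm
  apply le_antisymm
  · refine le_of_complements C E K (H b) hKn hEC hKC hKinf hKsup (hD.le_centralizer b hbA) ?_
    exact hD.coprime b hbA b hbA
  · refine le_of_complements C E (H b) K hHbn hEC (hD.le_centralizer b hbA) (hD.inf_eq_bot b hbA)
      (hD.sup_eq b hbA) hKC ?_
    rw [hKcard]
    exact hD.coprime a ha b hbA

end Cfsg.Agent.S1498
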