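import Cfsg.Statements.S1496
import Cfsg.Agent.Lib.SmallSimple.Count

set_option autoImplicit false
open Cfsg

namespace Cfsg.Agent.S1496

open Cfsg.Agent.Lib.SmallSimple

/-- Let H be a subgroup of the finite group G and g an element normalising H whose order is coprime to the order of H. Then for every h ∈ H there are x ∈ H and c ∈ H commuting with g such that x * (h * g) * x⁻¹ = c * g. -/
theorem result {G : Type*} [Group G] [Finite G] (H : Subgroup G) (g : G) (hg : g ∈ Subgroup.normalizer (H : Set G)) (hcop : Nat.Coprime (orderOf g) (Nat.card H)) (h : G) (hh : h ∈ H) : ∃ x ∈ H, ∃ c ∈ H, c * g = g * c ∧ x * (h * g) * x⁻¹ = c * g := by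
  classical
  have hgn : ∀ u ∈ H, g * u * g⁻¹ ∈ H := fun u hu => (Subgroup.mem_normalizer_iff.mp hg u).mp hu
  obtain ⟨b, hb1, hb0⟩ := Nat.chineseRemainder hcop 1 0
  let C : Subgroup G := H ⊓ Subgroup.centralizer {g}
  have hCmem : ∀ c, c ∈ C ↔ c ∈ H ∧ c * g = g * c := by
    intro c
    simp only [C, Subgroup.mem_inf, Subgroup.mem_centralizer_singleton_iff]
  have hpow : ∀ c ∈ C, (c * g) ^ b = g := by
    intro c hc
    obtain ⟨hc1, hc2⟩ := (hCmem c).mp hc
    have hcomm : Commute c g := hc2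
    rw [hcomm.mul_pow]
    have h1 : c ^ b = 1 := orderOf_dvd_iff_pow_eq_one.mp
      ((Subgroup.orderOf_dvd_natCard H hc1).trans ((Nat.modEq_zero_iff_dvd).mp hb0))
    have h2 : g ^ b = g ^ 1 := pow_eq_pow_iff_modEq.mpr hb1
    rw [h1, h2, one_mul, pow_one]
  have hkey : ∀ y : G, ∀ c ∈ C, ∀ c' ∈ C, y * (c * g) * y⁻¹ = c' * g →
      y * g = g * y ∧ c' = y * c * y⁻¹ := by
    intro y c hc c' hc' h
    have h1 : y * g * y⁻¹ = g := by
      have := congrArg (· ^ b) h
      simp only [conj_pow, hpow c hc, hpow c' hc'] at this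
      exact this
    have hyg : y * g = g * y := by
      calc y * g = y * g * y⁻¹ * y := by group
        _ = g * y := by rw [h1]
    refine ⟨hyg, ?_⟩
    have h2 : y * (c * g) * y⁻¹ = y * c * y⁻¹ * g := by
      calc y * (c * g) * y⁻¹ = y * c * y⁻¹ * (y * g * y⁻¹) := by group
        _ = y * c * y⁻¹ * g := by rw [h1]
    rw [h2] at h
    exact (mul_right_cancel h).symm
  have hmemf : ∀ p : H × C, (p.1 : G) * (p.2 : G) * g * (p.1 : G)⁻¹ * g⁻¹ ∈ H := by
    rintro ⟨x, c⟩
    have h1 := ((hCmem c).mp c.2).1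
    have h2 : (x : G) * c * g * (x : G)⁻¹ * g⁻¹ = x * c * (g * (x : G)⁻¹ * g⁻¹) := by group
    simp only
    rw [h2]
    exact H.mul_mem (H.mul_mem x.2 h1) (hgn _ (H.inv_mem x.2))
  let f : H × C → H := fun p => ⟨_, hmemf p⟩
  have hfeq : ∀ p q : H × C, f p = f q ↔
      (p.1 : G) * (p.2 : G) * g * (p.1 : G)⁻¹ = (q.1 : G) * (q.2 : G) * g * (q.1 : G)⁻¹ := by
    intro p q
    simp only [f, Subtype.mk.injEq]
    exact mul_left_inj _
  have hfib : ∀ y : Set.range f, Nat.card {p // Set.rangeFactorization f p = y} = Nat.card C := by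
    rintro ⟨_, ⟨x₀, c₀⟩, rfl⟩
    have hc₀ := c₀.2
    have hconj : ∀ u : C, (u : G)⁻¹ * c₀ * u ∈ C := fun u =>
      C.mul_mem (C.mul_mem (C.inv_mem u.2) c₀.2) u.2
    have hx : ∀ u : C, (x₀ : G) * u ∈ H := fun u => H.mul_mem x₀.2 ((hCmem u).mp u.2).1
    have hval : ∀ u : C, f (⟨_, hx u⟩, ⟨_, hconj u⟩) = f (x₀, c₀) := by
      intro u
      rw [hfeq]
      have hu := ((hCmem u).mp u.2).2
      simp only
      have h3 : (u : G) * g * (u : G)⁻¹ = g := by
        rw [hu]
        group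
      calc (x₀ : G) * u * ((u : G)⁻¹ * c₀ * u) * g * ((x₀ : G) * u)⁻¹
          = (x₀ : G) * c₀ * ((u : G) * g * (u : G)⁻¹) * (x₀ : G)⁻¹ := by group
        _ = (x₀ : G) * c₀ * g * (x₀ : G)⁻¹ := by rw [h3]
    let φ : C → {p // Set.rangeFactorization f p = Set.rangeFactorization f (x₀, c₀)} := fun u =>
      ⟨(⟨_, hx u⟩, ⟨_, hconj u⟩), Subtype.ext (hval u)⟩
    have hφ : Function.Bijective φ := by
      constructor
      · intro u v huv
        have h1 := congrArg (fun p => ((p.1.1 : H) : G)) huv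
        simp only [φ] at h1
        exact Subtype.ext (mul_left_cancel h1)
      · rintro ⟨⟨x, c⟩, hp⟩
        have hp' : f (x, c) = f (x₀, c₀) := congrArg Subtype.val hp
        rw [hfeq] at hp'
        simp only at hp'
        have h1 : ((x₀ : G)⁻¹ * x) * ((c : G) * g) * ((x₀ : G)⁻¹ * x)⁻¹ = (c₀ : G) * g := by
          calc ((x₀ : G)⁻¹ * x) * ((c : G) * g) * ((x₀ : G)⁻¹ * x)⁻¹
              = (x₀ : G)⁻¹ * ((x : G) * c * g * (x : G)⁻¹) * x₀ := by group
            _ = (c₀ : G) * g := by rw [hp']; group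
        obtain ⟨h2, h3⟩ := hkey _ c c.2 c₀ c₀.2 h1
        have hu : (x₀ : G)⁻¹ * x ∈ C := (hCmem _).mpr ⟨H.mul_mem (H.inv_mem x₀.2) x.2, h2⟩
        refine ⟨⟨_, hu⟩, ?_⟩
        apply Subtype.ext
        apply Prod.ext
        · apply Subtype.ext
          simp [φ]
        · apply Subtype.ext
          simp only [φ]
          rw [h3]
          group
    exact (Nat.card_eq_of_bijective φ hφ).symm
  have hcard := card_eq_mul_of_fibers (Set.rangeFactorization f) _ hfib
  rw [Nat.card_prod] at hcard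
  have hRH : Nat.card (Set.range f) = Nat.card H :=
    (Nat.eq_of_mul_eq_mul_right Nat.card_pos hcard).symm
  have hsurj : Function.Surjective f := by
    have hinj : Function.Injective (Subtype.val : Set.range f → H) := Subtype.val_injective
    have hb := hinj.bijective_of_nat_card_le hRH.ge
    intro y
    obtain ⟨⟨_, p, rfl⟩, hy⟩ := hb.2 y
    exact ⟨p, hy⟩
  obtain ⟨⟨x, c⟩, hxc⟩ := hsurj ⟨h, hh⟩
  have hxc' : (x : G) * c * g * (x : G)⁻¹ * g⁻¹ = h := congrArg Subtype.val hxc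
  refine ⟨(x : G)⁻¹, H.inv_mem x.2, c, ((hCmem c).mp c.2).1, ((hCmem c).mp c.2).2, ?_⟩
  rw [← hxc']
  group

end Cfsg.Agent.S1496
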