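import Cfsg.Statements.S1512
import Cfsg.Agent.S1496

set_option autoImplicit false
open Cfsg

namespace Cfsg.Agent.S1512

/-- Let K be a normal subgroup of the finite group L and x a non-identity element whose order is coprime to the order of K, such that K ⊓ C_L(y) = W₂ for every non-identity element y of the cyclic group generated by x. Then the number of conjugacy classes of K mapped to themselves by conjugation by x is at most Nat.card W₂. -/
theorem result {L : Type*} [Group L] [Finite L] (K W₂ : Subgroup L) [hK : K.Normal] (x : L) (hx1 : x ≠ 1) (hx : Nat.Coprime (orderOf x) (Nat.card K)) (hC : ∀ y ∈ Subgroup.zpowers x, y ≠ 1 → K ⊓ Subgroup.centralizer ({y} : Set L) = W₂) : Nat.card {C : ConjClasses K // ConjClasses.map (MulEquiv.toMonoidHom ((MulAut.conjNormal x : MulAut K))) C = C} ≤ Nat.card W₂ := by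
  classical
  have hxz : x ∈ Subgroup.zpowers x := Subgroup.mem_zpowers x
  have hW := hC x hxz hx1
  have hW₂K : W₂ ≤ K := by
    rw [← hW]; exact inf_le_left
  have hxn : x ∈ Subgroup.normalizer (K : Set L) := by
    rw [Subgroup.mem_normalizer_iff]
    intro n
    constructor
    · intro h; exact hK.conj_mem n h x
    · intro h
      have := hK.conj_mem _ h x⁻¹
      simpa [mul_assoc] using this
  have hφ : ∀ k : K, ((MulEquiv.toMonoidHom ((MulAut.conjNormal x : MulAut K))) k : L) = x * k * x⁻¹ := by
    intro k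
    simp
  have hmk : ∀ k : K, ConjClasses.map (MulEquiv.toMonoidHom ((MulAut.conjNormal x : MulAut K))) (ConjClasses.mk k) =
      ConjClasses.mk ((MulEquiv.toMonoidHom ((MulAut.conjNormal x : MulAut K))) k) := fun k => rfl
  let F : W₂ → {C : ConjClasses K // ConjClasses.map (MulEquiv.toMonoidHom ((MulAut.conjNormal x : MulAut K))) C = C} :=
    fun w => ⟨ConjClasses.mk ⟨w, hW₂K w.2⟩, by
      rw [hmk]
      congr 1
      apply Subtype.ext
      rw [hφ]
      have hw : (w : L) ∈ K ⊓ Subgroup.centralizer ({x} : Set L) := by rw [hW]; exact w.2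
      have := Subgroup.mem_centralizer_iff.mp hw.2 x (by simp)
      simp only
      rw [this]
      group⟩
  have hF : Function.Surjective F := by
    rintro ⟨C, hC'⟩
    obtain ⟨k, rfl⟩ := ConjClasses.mk_surjective C
    rw [hmk, ConjClasses.mk_eq_mk_iff_isConj, isConj_iff] at hC'
    obtain ⟨u, hu⟩ := hC'
    rw [Subtype.ext_iff] at hu
    simp only [Subgroup.coe_mul, InvMemClass.coe_inv, hφ] at hu
    obtain ⟨t, ht, c, hc, hcx, hconj⟩ := Cfsg.Agent.S1496.result K x hxn hx u u.2
    -- `g = u * x` commutes with `k`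
    have hgk : Commute ((u : L) * x) (k : L) := by
      have : (u : L) * x * k = k * ((u : L) * x) := by
        nth_rw 2 [← hu]
        group
      exact this
    obtain ⟨b, hb1, hb0⟩ := Nat.chineseRemainder hx 1 0
    have hpow : (c * x) ^ b = x := by
      rw [(show Commute c x from hcx).mul_pow]
      have h1 : c ^ b = 1 := orderOf_dvd_iff_pow_eq_one.mp
        ((Subgroup.orderOf_dvd_natCard K hc).trans ((Nat.modEq_zero_iff_dvd).mp hb0))
      have h2 : x ^ b = x ^ 1 := pow_eq_pow_iff_modEq.mpr hb1
      rw [h1, h2, one_mul, pow_one]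
    have hxeq : t * ((u : L) * x) ^ b * t⁻¹ = x := by
      rw [← conj_pow, hconj, hpow]
    have hcomm : Commute x (t * k * t⁻¹) := by
      rw [← hxeq]
      have h3 : Commute (((u : L) * x) ^ b) (k : L) := hgk.pow_left b
      change _ * _ = _ * _
      calc t * ((u : L) * x) ^ b * t⁻¹ * (t * k * t⁻¹) = t * (((u : L) * x) ^ b * k) * t⁻¹ := by group
        _ = t * (k * ((u : L) * x) ^ b) * t⁻¹ := by rw [h3.eq]
        _ = _ := by group
    have hkK : t * (k : L) * t⁻¹ ∈ K := K.mul_mem (K.mul_mem ht k.2) (K.inv_mem ht)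
    have hw : t * (k : L) * t⁻¹ ∈ W₂ := by
      rw [← hW]
      refine ⟨hkK, Subgroup.mem_centralizer_iff.mpr ?_⟩
      intro y hy
      rw [Set.mem_singleton_iff] at hy
      subst hy
      exact hcomm.eq
    refine ⟨⟨_, hw⟩, ?_⟩
    apply Subtype.ext
    simp only [F]
    rw [ConjClasses.mk_eq_mk_iff_isConj, isConj_iff]
    refine ⟨⟨t, ht⟩⁻¹, ?_⟩
    apply Subtype.ext
    simp only [Subgroup.coe_mul, InvMemClass.coe_inv]
    group
  exact Nat.card_le_card_of_surjective F hF

end Cfsg.Agent.S1512
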