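import Cfsg.Statements.S1468
import Cfsg.Agent.Lib.OddLocal.PuigG

set_option autoImplicit false
open Cfsg

namespace Cfsg.Agent.S1468

open Cfsg.Agent.Lib.OddLocal

/-- Let p be an odd prime, G a solvable group of odd order with O_{p'}(G) = 1, S a Sylow p-subgroup and T = O_p(G). Then, viewing the Puig subgroups of S and of T inside G, L_*(S) ≤ L_*(T) ≤ L(T) ≤ L(S). -/
theorem result {G : Type*} [Group G] [Finite G] [Group.IsSolvable G] (hodd : Odd (Nat.card G)) (p : ℕ) [Fact p.Prime] (hp : p ≠ 2) (hO : Cfsg.pPrimeCore p G = ⊥) (S : Sylow p G) :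
    (Cfsg.puigLower ↥(S : Subgroup G)).map (S : Subgroup G).subtype ≤ (Cfsg.puigLower ↥(Cfsg.pCore p G)).map (Cfsg.pCore p G).subtype ∧
      (Cfsg.puigLower ↥(Cfsg.pCore p G)).map (Cfsg.pCore p G).subtype ≤ (Cfsg.puigSubgroup ↥(Cfsg.pCore p G)).map (Cfsg.pCore p G).subtype ∧
      (Cfsg.puigSubgroup ↥(Cfsg.pCore p G)).map (Cfsg.pCore p G).subtype ≤ (Cfsg.puigSubgroup ↥(S : Subgroup G)).map (S : Subgroup G).subtype := by
  classical
  set T := Cfsg.pCore p G with hT
  haveI hTn : T.Normal := Cfsg.Agent.Lib.Basic.pCore_normal p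
  have hTp : IsPGroup p T := Cfsg.Agent.Lib.Basic.pCore_isPGroup p
  have hTS : T ≤ (S : Subgroup G) := Cfsg.Agent.Lib.Basic.pCore_le_sylow S
  have hchain : ∀ i : ℕ, Lm (S : Subgroup G) (2 * i) ≤ Lm T (2 * i) ∧ Lm T (2 * i + 1) ≤ Lm (S : Subgroup G) (2 * i + 1) := by
    intro i
    induction i with
    | zero =>
      refine ⟨?_, ?_⟩
      · change Lm (S : Subgroup G) 0 ≤ _
        rw [Lm_zero]
        exact bot_le
      · change Lm T 1 ≤ Lm (S : Subgroup G) 1
        rw [Lm_one, Lm_one]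
        exact hTS
    | succ i ih =>
      obtain ⟨ih1, ih2⟩ := ih
      have e1 : 2 * (i + 1) = (2 * i + 1) + 1 := by ring
      have h1 : Lm (S : Subgroup G) (2 * (i + 1)) ≤ Lm T (2 * (i + 1)) := by
        rw [e1, Lm_succ (S : Subgroup G)]
        haveI hPn : (Lm T (2 * i + 1)).Normal := Lm_normal T _
        have hPp : IsPGroup p (Lm T (2 * i + 1)) := hTp.to_le (Lm_le T _)
        have hall := (Cfsg.Agent.S1465.result hodd p hp (Lm T (2 * i + 1)) hPp
          {A : Subgroup G | IsMulCommutative A ∧ A ≤ (S : Subgroup G) ∧ Lm (S : Subgroup G) (2 * i + 1) ≤ Subgroup.normalizer (A : Set G)}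
          (by
            rintro B ⟨hc, hBS, hn⟩
            exact ⟨hc, S.isPGroup'.to_le hBS, ih2.trans hn⟩)).2 hO
          (inf_centralizer_Lm_le T hTp _ (Nat.succ_pos _))
        rw [Lm_succ T]
        apply sSup_le
        rintro B ⟨hc, hBS, hn⟩
        apply le_sSup
        have hB : B ≤ sSup {A : Subgroup G | IsMulCommutative A ∧ A ≤ (S : Subgroup G) ∧ Lm (S : Subgroup G) (2 * i + 1) ≤ Subgroup.normalizer (A : Set G)} :=
          le_sSup ⟨hc, hBS, hn⟩
        exact ⟨hc, hB.trans hall, ih2.trans hn⟩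
      have e2 : 2 * (i + 1) + 1 = (2 * (i + 1)) + 1 := rfl
      refine ⟨h1, ?_⟩
      rw [Lm_succ T, Lm_succ (S : Subgroup G)]
      apply sSup_le
      rintro B ⟨hc, hBT, hn⟩
      apply le_sSup
      exact ⟨hc, hBT.trans hTS, h1.trans hn⟩
  obtain ⟨k₁, hk₁⟩ := puigSeq_stabilizes (G := T)
  obtain ⟨k₂, hk₂⟩ := puigSeq_stabilizes (G := (S : Subgroup G))
  set k := max k₁ k₂
  have h1 := hk₁ k (le_max_left _ _)
  have h2 := hk₂ k (le_max_right _ _)
  rw [← h1.1, ← h2.1, ← h1.2, ← h2.2]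
  refine ⟨(hchain k).1, ?_, (hchain k).2⟩
  exact Subgroup.map_mono (puigSeq_even_le_succ k)

end Cfsg.Agent.S1468
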