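import Cfsg.Statements.S0744
import Cfsg.Agent.Lib.Perm.Orbits
import Mathlib

set_option autoImplicit false
open Cfsg

namespace Cfsg.Agent.S0744

/-- If for some `k > 1` the pointwise stabilisers of all `(k-1)`-subsets have the same order `> 1` and those of all `k`-subsets have the same order, then the group is `(k-1)`-transitive. -/
theorem result {α : Type*} [Fintype α] [DecidableEq α] (G : Subgroup (Equiv.Perm α)) {k : ℕ} (hk : 1 < k) (hkn : k ≤ Fintype.card α) (l m : ℕ) (hl : 1 < l) (hkm1 : ∀ s : Finset α, s.card = k - 1 → Nat.card (fixingSubgroup G (s : Set α)) = l) (hkm : ∀ s : Finset α, s.card = k → Nat.card (fixingSubgroup G (s : Set α)) = m) : MulAction.IsMultiplyPretransitive G α (k - 1) := by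
  classical
  have hk1 : k - 1 < Nat.card α := by
    rw [Nat.card_eq_fintype_card]; omega
  apply Cfsg.Agent.Lib.Perm.isMultiplyPretransitive_of_update hk1
  intro x i z hz
  let r : Finset α := (Finset.univ.erase i).image x
  have hrcard : r.card = k - 2 := by
    rw [Finset.card_image_of_injective _ x.injective, Finset.card_erase_of_mem (Finset.mem_univ i),
      Finset.card_univ, Fintype.card_fin]
    omega
  have hxr : ∀ j, j ≠ i → x j ∈ r := by
    intro j hj
    exact Finset.mem_image_of_mem _ (Finset.mem_erase.mpr ⟨hj, Finset.mem_univ j⟩)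
  have hxir : x i ∉ r := by
    intro h
    obtain ⟨j, hj, hji⟩ := Finset.mem_image.mp h
    exact (Finset.mem_erase.mp hj).1 (x.injective hji)
  have hzr : z ∉ r := by
    intro h
    obtain ⟨j, _, hji⟩ := Finset.mem_image.mp h
    exact hz ⟨j, hji⟩
  let H := fixingSubgroup G (r : Set α)
  let Y := SubMulAction.ofFixingSubgroup G (r : Set α)
  have hinsert : ∀ (y : α), y ∉ r → (insert y r).card = k - 1 := by
    intro y hy
    rw [Finset.card_insert_of_notMem hy, hrcard]
    omega
  have hpre : MulAction.IsPretransitive H Y := by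
    apply Cfsg.Agent.Lib.Perm.isPretransitive_of_stabilizer_cards (l := l) (m := m) ?_ hl
    · intro y
      have hy : (y : α) ∉ r := (SubMulAction.mem_ofFixingSubgroup_iff G).mp y.2
      rw [← hkm1 _ (hinsert y hy)]
      apply Nat.card_congr
      refine ⟨fun a => ⟨a.1.1, ?_⟩, fun a => ⟨⟨a.1, ?_⟩, ?_⟩, fun _ => rfl, fun _ => rfl⟩
      · rw [mem_fixingSubgroup_iff]
        intro w hw
        rw [Finset.mem_coe, Finset.mem_insert] at hw
        rcases hw with rfl | hw
        · exact congrArg Subtype.val a.2
        · exact (mem_fixingSubgroup_iff G).mp a.1.2 w hw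
      · rw [mem_fixingSubgroup_iff]
        intro w hw
        exact (mem_fixingSubgroup_iff G).mp a.2 w (by rw [Finset.mem_coe]; exact Finset.mem_insert_of_mem hw)
      · apply Subtype.ext
        exact (mem_fixingSubgroup_iff G).mp a.2 _ (by rw [Finset.mem_coe]; exact Finset.mem_insert_self _ _)
    · intro y y' hyy'
      have hy : (y : α) ∉ r := (SubMulAction.mem_ofFixingSubgroup_iff G).mp y.2
      have hy' : (y' : α) ∉ r := (SubMulAction.mem_ofFixingSubgroup_iff G).mp y'.2
      have hne : (y : α) ≠ y' := fun e => hyy' (Subtype.ext e)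
      have hc : (insert (y : α) (insert (y' : α) r)).card = k := by
        rw [Finset.card_insert_of_notMem, hinsert _ hy']
        · omega
        · rw [Finset.mem_insert]
          rintro (h | h)
          · exact hne h
          · exact hy h
      rw [← hkm _ hc]
      apply Nat.card_congr
      refine ⟨fun a => ⟨a.1.1, ?_⟩, fun a => ⟨⟨a.1, ?_⟩, ?_, ?_⟩, fun _ => rfl, fun _ => rfl⟩
      · rw [mem_fixingSubgroup_iff]
        intro w hw
        rw [Finset.mem_coe, Finset.mem_insert, Finset.mem_insert] at hw
        rcases hw with rfl | rfl | hw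
        · exact congrArg Subtype.val a.2.1
        · exact congrArg Subtype.val a.2.2
        · exact (mem_fixingSubgroup_iff G).mp a.1.2 w hw
      · rw [mem_fixingSubgroup_iff]
        intro w hw
        exact (mem_fixingSubgroup_iff G).mp a.2 w (by
          rw [Finset.mem_coe]; exact Finset.mem_insert_of_mem (Finset.mem_insert_of_mem hw))
      · apply Subtype.ext
        exact (mem_fixingSubgroup_iff G).mp a.2 _ (by rw [Finset.mem_coe]; exact Finset.mem_insert_self _ _)
      · apply Subtype.ext
        exact (mem_fixingSubgroup_iff G).mp a.2 _ (by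
          rw [Finset.mem_coe]; exact Finset.mem_insert_of_mem (Finset.mem_insert_self _ _))
    · intro h hh
      apply Subtype.ext
      apply Subtype.ext
      ext w
      by_cases hw : w ∈ r
      · exact (mem_fixingSubgroup_iff G).mp h.2 w hw
      · have hw' : w ∈ Y := (SubMulAction.mem_ofFixingSubgroup_iff G).mpr hw
        exact congrArg Subtype.val (hh ⟨w, hw'⟩)
  have hxiY : x i ∈ Y := (SubMulAction.mem_ofFixingSubgroup_iff G).mpr hxir
  have hzY : z ∈ Y := (SubMulAction.mem_ofFixingSubgroup_iff G).mpr hzr
  obtain ⟨h, hh⟩ := MulAction.exists_smul_eq H (⟨x i, hxiY⟩ : Y) ⟨z, hzY⟩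
  have hh' : (h : G) • (x i) = z := congrArg Subtype.val hh
  refine ⟨(h : G), ?_⟩
  ext j
  rw [Function.Embedding.smul_apply]
  by_cases hji : j = i
  · subst hji
    rw [Cfsg.Agent.Lib.Perm.updateEmb_same]
    exact hh'
  · rw [Cfsg.Agent.Lib.Perm.updateEmb_ne _ _ _ _ _ hji]
    exact (mem_fixingSubgroup_iff G).mp h.2 _ (hxr j hji)

end Cfsg.Agent.S0744
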