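import Cfsg.Statements.S0684
import Cfsg.Agent.Lib.Perm.RegLin
import Mathlib

set_option autoImplicit false
open Cfsg

namespace Cfsg.Agent.S0684

/-- Point stabiliser of a sharply doubly transitive group not of semilinear type: a maximal normal abelian subgroup `A` of a linear group `H` that is regular on non-zero vectors and has no irreducible cyclic normal subgroup is cyclic and reducible, and the order of `A` divides `p ^ k - 1` for `k` the dimension of a minimal `A`-invariant subspace. -/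
theorem result {p : ℕ} [Fact p.Prime] {V : Type*} [AddCommGroup V] [Module (ZMod p) V] [Finite V] (H : Subgroup (V ≃ₗ[ZMod p] V)) (hreg : ∀ v w : V, v ≠ 0 → w ≠ 0 → ∃! h : H, (h : V ≃ₗ[ZMod p] V) v = w) (hI : ∀ A : Subgroup H, A.Normal → IsCyclic A → ∃ W : Submodule (ZMod p) V, W ≠ ⊥ ∧ W ≠ ⊤ ∧ ∀ a ∈ A, ∀ v ∈ W, ((a : H) : V ≃ₗ[ZMod p] V) v ∈ W) (A : Subgroup H) (hAn : A.Normal) (hAc : IsMulCommutative A) (hAmax : ∀ B : Subgroup H, B.Normal → IsMulCommutative B → A ≤ B → B = A) : IsCyclic A ∧ ∃ W : Submodule (ZMod p) V, W ≠ ⊥ ∧ W ≠ ⊤ ∧ (∀ a ∈ A, ∀ v ∈ W, ((a : H) : V ≃ₗ[ZMod p] V) v ∈ W) ∧ (∀ W' : Submodule (ZMod p) V, W' ≤ W → (∀ a ∈ A, ∀ v ∈ W', ((a : H) : V ≃ₗ[ZMod p] V) v ∈ W') → W' = ⊥ ∨ W' = W) ∧ Nat.card A ∣ p ^ Module.finrank (ZMod p) W - 1 := by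
  classical
  have hfree := Cfsg.Agent.Lib.Perm.reg_free hreg
  have hbc : IsCyclic (⊥ : Subgroup H) := inferInstance
  obtain ⟨W₁, hW₁, -, -⟩ := hI ⊥ inferInstance hbc
  have htopne : (⊤ : Submodule (ZMod p) V) ≠ ⊥ := by
    intro h
    apply hW₁
    rw [eq_bot_iff, ← h]
    exact le_top
  have htopinv : Cfsg.Agent.Lib.Perm.RegInv A (⊤ : Submodule (ZMod p) V) :=
    fun _ _ _ _ => Submodule.mem_top
  obtain ⟨W₂, -, hW₂ne, hW₂inv, hW₂min⟩ := Cfsg.Agent.Lib.Perm.exists_min_regInv htopne htopinv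
  have hc := (Cfsg.Agent.Lib.Perm.cyclic_of_irreducible hfree A hAc hW₂ne hW₂inv hW₂min).1
  obtain ⟨W₀, h0, h0', h0inv⟩ := hI A hAn hc
  obtain ⟨W, hle, hne, hinv, hmin⟩ := Cfsg.Agent.Lib.Perm.exists_min_regInv h0 h0inv
  refine ⟨hc, W, hne, ?_, hinv, hmin, (Cfsg.Agent.Lib.Perm.cyclic_of_irreducible hfree A hAc hne hinv hmin).2⟩
  intro h
  apply h0'
  rw [eq_top_iff, ← h]
  exact hle

end Cfsg.Agent.S0684
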