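import Cfsg.Statements.S0685
import Cfsg.Agent.S0684
import Cfsg.Agent.Lib.Perm.RegLin
import Mathlib

set_option autoImplicit false
open Cfsg

namespace Cfsg.Agent.S0685

/-- In a linear group over the prime field that is regular on non-zero vectors and has no irreducible cyclic normal subgroup, a maximal normal abelian subgroup is properly contained in its centraliser, which is non-abelian. -/
theorem result {p : ℕ} [Fact p.Prime] {V : Type*} [AddCommGroup V] [Module (ZMod p) V] [Finite V] (H : Subgroup (V ≃ₗ[ZMod p] V)) (hreg : ∀ v w : V, v ≠ 0 → w ≠ 0 → ∃! h : H, (h : V ≃ₗ[ZMod p] V) v = w) (hI : ∀ A : Subgroup H, A.Normal → IsCyclic A → ∃ W : Submodule (ZMod p) V, W ≠ ⊥ ∧ W ≠ ⊤ ∧ ∀ a ∈ A, ∀ v ∈ W, ((a : H) : V ≃ₗ[ZMod p] V) v ∈ W) (A : Subgroup H) (hAn : A.Normal) (hAc : IsMulCommutative A) (hAmax : ∀ B : Subgroup H, B.Normal → IsMulCommutative B → A ≤ B → B = A) : A < Subgroup.centralizer (A : Set H) ∧ ¬ IsMulCommutative (Subgroup.centralizer (A : Set H)) := by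
  classical
  have hfree := Cfsg.Agent.Lib.Perm.reg_free hreg
  haveI : Finite H := Finite.of_injective (fun h : H => fun v : V => (h : V ≃ₗ[ZMod p] V) v)
    (fun h h' e => Subtype.ext (LinearEquiv.ext fun v => congrFun e v))
  have hAC : A ≤ Subgroup.centralizer (A : Set H) := by
    intro x hx
    rw [Subgroup.mem_centralizer_iff]
    intro y hy
    have := hAc.is_comm.comm ⟨y, hy⟩ ⟨x, hx⟩
    exact congrArg Subtype.val this
  have hCn : (Subgroup.centralizer (A : Set H)).Normal := inferInstance
  have hlt : A < Subgroup.centralizer (A : Set H) := by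
    refine lt_of_le_of_ne hAC fun hEq => ?_
    obtain ⟨hc, W, hWne, hWtop, hWinv, hWmin, hWd⟩ :=
      Cfsg.Agent.S0684.result H hreg hI A hAn hAc hAmax
    -- a vector outside `W`
    obtain ⟨v, hv⟩ : ∃ v, v ∉ W := by
      by_contra hcon
      push Not at hcon
      exact hWtop (eq_top_iff.mpr fun x _ => hcon x)
    obtain ⟨w₀, hw₀, hw₀ne⟩ := (Submodule.ne_bot_iff W).mp hWne
    have hvne : v ≠ 0 := fun h => hv (h ▸ W.zero_mem)
    obtain ⟨h, hh, -⟩ := hreg w₀ v hw₀ne hvne
    set W' := W.map ((h : V ≃ₗ[ZMod p] V) : V →ₗ[ZMod p] V) with hW'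
    have hinvW' : Cfsg.Agent.Lib.Perm.RegInv A W' := by
      rintro a ha _ ⟨u, hu, rfl⟩
      have h1 : h⁻¹ * a * h ∈ A := by
        have := hAn.conj_mem a ha h⁻¹
        simpa using this
      refine ⟨_, hWinv _ h1 u hu, ?_⟩
      change (h : V ≃ₗ[ZMod p] V) (((h⁻¹ * a * h : H) : V ≃ₗ[ZMod p] V) u) =
        (a : V ≃ₗ[ZMod p] V) ((h : V ≃ₗ[ZMod p] V) u)
      have h2 : (h * (h⁻¹ * a * h) : H) = a * h := by group
      have h3 := congrArg (fun g : H => (g : V ≃ₗ[ZMod p] V) u) h2
      exact h3
    have hinf : W ⊓ W' = ⊥ := by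
      have hinfinv : Cfsg.Agent.Lib.Perm.RegInv A (W ⊓ W') := fun a ha u hu =>
        ⟨hWinv a ha u hu.1, hinvW' a ha u hu.2⟩
      rcases hWmin _ inf_le_left hinfinv with h1 | h1
      · exact h1
      · exfalso
        have hle : W ≤ W' := by
          rw [← h1]
          exact inf_le_right
        have hfr : Module.finrank (ZMod p) W' = Module.finrank (ZMod p) W :=
          LinearEquiv.finrank_map_eq (h : V ≃ₗ[ZMod p] V) W
        have hEqW : W = W' := Submodule.eq_of_le_of_finrank_le hle hfr.le
        apply hv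
        rw [hEqW]
        exact ⟨w₀, hw₀, hh⟩
    have hfr : Module.finrank (ZMod p) W' = Module.finrank (ZMod p) W :=
      LinearEquiv.finrank_map_eq (h : V ≃ₗ[ZMod p] V) W
    have hdim : 2 * Module.finrank (ZMod p) W ≤ Module.finrank (ZMod p) V := by
      have := Submodule.finrank_add_finrank_le_of_disjoint (disjoint_iff.mpr hinf)
      omega
    -- the order of `H`
    have hcardH : Nat.card H = p ^ Module.finrank (ZMod p) V - 1 := by
      letI : Fintype V := Fintype.ofFinite V
      let φ : H → {u : V // u ≠ 0} := fun g => ⟨(g : V ≃ₗ[ZMod p] V) w₀, fun h0 =>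
        hw₀ne ((LinearEquiv.map_eq_zero_iff _).mp h0)⟩
      have hφ : Function.Bijective φ := by
        constructor
        · intro g g' hgg
          have h1 : (g : V ≃ₗ[ZMod p] V) w₀ = (g' : V ≃ₗ[ZMod p] V) w₀ := congrArg Subtype.val hgg
          obtain ⟨u, -, hu⟩ := hreg w₀ ((g : V ≃ₗ[ZMod p] V) w₀)
            hw₀ne ((φ g).2)
          rw [hu g rfl, hu g' h1.symm]
        · rintro ⟨u, hu⟩
          obtain ⟨g, hg, -⟩ := hreg w₀ u hw₀ne hu
          exact ⟨g, Subtype.ext hg⟩
      rw [Nat.card_congr (Equiv.ofBijective φ hφ), Nat.card_eq_fintype_card,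
        Fintype.card_subtype_compl, Fintype.card_subtype_eq,
        @Module.card_eq_pow_finrank (ZMod p) V _ _ _ _ _, ZMod.card]
    -- bound via automorphisms
    have hbound : Nat.card H ≤ Nat.card A * Nat.card A := by
      let φ : H →* MulAut A := MulAut.conjNormal
      have hker : φ.ker = A := by
        ext g
        rw [MonoidHom.mem_ker]
        constructor
        · intro hg
          have h1 : g ∈ Subgroup.centralizer (A : Set H) := by
            rw [Subgroup.mem_centralizer_iff]
            intro y hy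
            have h2 := congrArg (fun e : MulAut A => ((e ⟨y, hy⟩ : A) : H)) hg
            have h3 : g * y * g⁻¹ = y := by
              simpa [φ, MulAut.conjNormal_apply] using h2
            exact (mul_inv_eq_iff_eq_mul.mp h3).symm
          rwa [← hEq] at h1
        · intro hg
          refine MulEquiv.ext fun y => Subtype.ext ?_
          have h1 := Subgroup.mem_centralizer_iff.mp (hAC hg) y y.2
          have h3 : g * (y : H) * g⁻¹ = y := mul_inv_eq_iff_eq_mul.mpr h1.symm
          simpa [φ, MulAut.conjNormal_apply] using h3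
      have h1 : Nat.card H = Nat.card φ.ker * Nat.card φ.range := by
        rw [← Subgroup.index_ker, Subgroup.card_mul_index]
      rw [h1, hker]
      apply Nat.mul_le_mul_left
      calc Nat.card φ.range ≤ Nat.card (MulAut A) := Subgroup.card_le_card_group _
        _ = Nat.totient (Nat.card A) := IsCyclic.card_mulAut A
        _ ≤ Nat.card A := Nat.totient_le _
    set k := Module.finrank (ZMod p) W with hk
    have hp2 : 2 ≤ p := (Fact.out : p.Prime).two_le
    have hkpos : 1 ≤ k := by
      rw [hk]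
      exact Module.finrank_pos_iff.mpr ((Submodule.nontrivial_iff_ne_bot).mpr hWne) 
    have hq : 2 ≤ p ^ k := le_trans hp2 (Nat.le_self_pow (by omega) p)
    have hAle : Nat.card A ≤ p ^ k - 1 := Nat.le_of_dvd (by omega) hWd
    have hpn : p ^ (2 * k) ≤ p ^ Module.finrank (ZMod p) V := Nat.pow_le_pow_right (by omega) hdim
    have hsq : p ^ (2 * k) = p ^ k * p ^ k := by rw [two_mul, pow_add]
    obtain ⟨r, hr⟩ : ∃ r, p ^ k = r + 2 := ⟨p ^ k - 2, by omega⟩
    rw [hr] at hAle hsq
    rw [hsq] at hpn
    have h5 : Nat.card A * Nat.card A ≤ (r + 1) * (r + 1) := Nat.mul_le_mul (by omega) (by omega)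
    have h6 : (r + 2) * (r + 2) = (r + 1) * (r + 1) + 2 * r + 3 := by ring
    omega
  refine ⟨hlt, fun hC => ?_⟩
  have := hAmax _ hCn hC hlt.le
  exact hlt.ne this.symm

end Cfsg.Agent.S0685
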