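import Cfsg.Statements.S0687
import Cfsg.Agent.Lib.Perm.RegLin
import Mathlib

set_option autoImplicit false
open Cfsg

namespace Cfsg.Agent.S0687

/-- In a linear group over the prime field that is regular on non-zero vectors and has no irreducible cyclic normal subgroup, a normal subgroup `N` minimal among the non-abelian normal subgroups centralising a maximal normal abelian subgroup `A` is irreducible on `V`, and its centraliser is `A`. -/
theorem result {p : ℕ} [Fact p.Prime] {V : Type*} [AddCommGroup V] [Module (ZMod p) V] [Finite V] (H : Subgroup (V ≃ₗ[ZMod p] V)) (hreg : ∀ v w : V, v ≠ 0 → w ≠ 0 → ∃! h : H, (h : V ≃ₗ[ZMod p] V) v = w) (hI : ∀ A : Subgroup H, A.Normal → IsCyclic A → ∃ W : Submodule (ZMod p) V, W ≠ ⊥ ∧ W ≠ ⊤ ∧ ∀ a ∈ A, ∀ v ∈ W, ((a : H) : V ≃ₗ[ZMod p] V) v ∈ W) (A : Subgroup H) (hAn : A.Normal) (hAc : IsMulCommutative A) (hAmax : ∀ B : Subgroup H, B.Normal → IsMulCommutative B → A ≤ B → B = A) (N : Subgroup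 H) (hNn : N.Normal) (hNle : N ≤ Subgroup.centralizer (A : Set H)) (hNna : ¬ IsMulCommutative N) (hNmin : ∀ M : Subgroup H, M.Normal → M ≤ N → ¬ IsMulCommutative M → M = N) : (∀ W : Submodule (ZMod p) V, (∀ n ∈ N, ∀ v ∈ W, ((n : H) : V ≃ₗ[ZMod p] V) v ∈ W) → W = ⊥ ∨ W = ⊤) ∧ Subgroup.centralizer (N : Set H) = A := by
  classical
  have hirr : ∀ W : Submodule (ZMod p) V, (∀ n ∈ N, ∀ v ∈ W, ((n : H) : V ≃ₗ[ZMod p] V) v ∈ W) →
      W = ⊥ ∨ W = ⊤ := fun W hW =>
    Cfsg.Agent.Lib.Perm.reg_normal_irreducible hreg N hNn hNna W hW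
  refine ⟨hirr, ?_⟩
  -- the centraliser of `N` is abelian
  have hVne : Nontrivial V := by
    obtain ⟨W, hW, -, -⟩ := hI ⊥ inferInstance inferInstance
    exact (Submodule.ne_bot_iff W).mp hW |>.elim fun x hx => ⟨⟨x, 0, hx.2⟩⟩
  let 𝒮 : Set (Module.End (ZMod p) V) :=
    Set.range fun n : N => (((n : H) : V ≃ₗ[ZMod p] V) : V →ₗ[ZMod p] V)
  have hirr' : ∀ W : Submodule (ZMod p) V, (∀ s ∈ 𝒮, ∀ v ∈ W, s v ∈ W) → W = ⊥ ∨ W = ⊤ := by
    intro W hW
    exact hirr W fun n hn v hv => hW _ ⟨⟨n, hn⟩, rfl⟩ v hv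
  have hDn : (Subgroup.centralizer (N : Set H)).Normal := inferInstance
  have hDc : IsMulCommutative (Subgroup.centralizer (N : Set H)) := by
    refine ⟨⟨fun x y => Subtype.ext ?_⟩⟩
    have hx : ∀ s ∈ 𝒮, Commute ((((x : H) : V ≃ₗ[ZMod p] V)) : V →ₗ[ZMod p] V) s := by
      rintro _ ⟨n, rfl⟩
      have h1 := Subgroup.mem_centralizer_iff.mp x.2 n n.2
      ext v
      have h2 := congrArg (fun g : H => (g : V ≃ₗ[ZMod p] V) v) h1
      exact h2.symm
    have hy : ∀ s ∈ 𝒮, Commute ((((y : H) : V ≃ₗ[ZMod p] V)) : V →ₗ[ZMod p] V) s := by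
      rintro _ ⟨n, rfl⟩
      have h1 := Subgroup.mem_centralizer_iff.mp y.2 n n.2
      ext v
      have h2 := congrArg (fun g : H => (g : V ≃ₗ[ZMod p] V) v) h1
      exact h2.symm
    have hc := (Cfsg.Agent.Lib.Perm.schur_comm hirr' hx hy).eq
    apply Subtype.ext
    apply LinearEquiv.ext
    intro v
    have := congrArg (fun f : Module.End (ZMod p) V => f v) hc
    exact this
  have hAD : A ≤ Subgroup.centralizer (N : Set H) := by
    intro a ha
    rw [Subgroup.mem_centralizer_iff]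
    intro n hn
    have := Subgroup.mem_centralizer_iff.mp (hNle hn) a ha
    exact this.symm
  exact hAmax _ hDn hDc hAD

end Cfsg.Agent.S0687
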