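import Cfsg.Statements.S0669
import Mathlib

set_option autoImplicit false
open Cfsg

namespace Cfsg.Agent.S0669

/-- The rank of a transitive action: orbits on ordered pairs correspond to orbits of a point stabiliser. -/
theorem result {G : Type*} [Group G] {Ω : Type*} [Finite Ω] [MulAction G Ω] [MulAction.IsPretransitive G Ω] (a : Ω) : Nat.card (MulAction.orbitRel.Quotient G (Ω × Ω)) = Nat.card (MulAction.orbitRel.Quotient (MulAction.stabilizer G a) Ω) := by
  symm
  refine Nat.card_congr (Equiv.ofBijective
    (Quotient.lift (fun b : Ω => (Quotient.mk (MulAction.orbitRel G (Ω × Ω)) (a, b))) ?_) ⟨?_, ?_⟩)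
  · intro b c h
    obtain ⟨g, rfl⟩ := (MulAction.orbitRel_apply.mp h)
    apply Quotient.sound
    refine MulAction.orbitRel_apply.mpr ⟨(g : G), ?_⟩
    have : (g : G) • a = a := g.2
    simp [Prod.smul_mk, Subgroup.smul_def, this]
  · intro x y
    induction x using Quotient.inductionOn with | _ b => ?_
    induction y using Quotient.inductionOn with | _ c => ?_
    intro h
    have h' := Quotient.exact h
    obtain ⟨g, hg⟩ := MulAction.orbitRel_apply.mp h'
    simp only [Prod.smul_mk, Prod.mk.injEq] at hg
    apply Quotient.sound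
    refine MulAction.orbitRel_apply.mpr ⟨⟨g, hg.1⟩, hg.2⟩
  · intro x
    induction x using Quotient.inductionOn with | _ p => ?_
    obtain ⟨g, hg⟩ := MulAction.exists_smul_eq G p.1 a
    refine ⟨Quotient.mk _ (g • p.2), ?_⟩
    apply Quotient.sound
    refine MulAction.orbitRel_apply.mpr ⟨g, ?_⟩
    simp [← hg, Prod.smul_def]

end Cfsg.Agent.S0669
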