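import Cfsg.Statements.S2569
import Mathlib
import Cfsg.Agent.Lib.ElemOrders.Semisimple

set_option autoImplicit false
open Cfsg

namespace Cfsg.Agent.S2569


/-- In GL_n over a finite field of characteristic p, the conjugacy class of a semisimple element (an element of order prime to p) under the special linear group is its whole GL-conjugacy class: for every such x and every invertible g there is h of determinant one with h x h⁻¹ = g x g⁻¹. -/
theorem result {F : Type*} [Field F] [Fintype F] {p : ℕ} [Fact p.Prime] [CharP F p] {n : ℕ} (x g : GL (Fin n) F) (hx : (orderOf x).Coprime p) : ∃ h : GL (Fin n) F, (h : Matrix (Fin n) (Fin n) F).det = 1 ∧ h * x * h⁻¹ = g * x * g⁻¹ := by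
  classical
  rcases Nat.eq_zero_or_pos n with rfl | hn
  · refine ⟨g, by simp, rfl⟩
  haveI : Nonempty (Fin n) := ⟨⟨0, hn⟩⟩
  haveI : Nontrivial (Fin n → F) := inferInstance
  let T : Module.End F (Fin n → F) := Matrix.toLin' (x : Matrix (Fin n) (Fin n) F)
  have hrF : ((orderOf x : ℕ) : F) ≠ 0 := by
    intro h0
    have h1 := (CharP.cast_eq_zero_iff F p (orderOf x)).1 h0
    have hp : p.Prime := Fact.out
    have h2 : p ∣ Nat.gcd (orderOf x) p := Nat.dvd_gcd h1 dvd_rfl
    rw [hx.gcd_eq_one] at h2
    exact hp.one_lt.ne' (Nat.dvd_one.1 h2)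
  have hsep : (Polynomial.X ^ orderOf x - 1 : Polynomial F).Separable := by
    have := Polynomial.separable_X_pow_sub_C (n := orderOf x) (1 : F) hrF one_ne_zero
    simpa using this
  have hTaeval : Polynomial.aeval T (Polynomial.X ^ orderOf x - 1 : Polynomial F) = 0 := by
    have h1 : (x : Matrix (Fin n) (Fin n) F) ^ orderOf x = 1 := by
      rw [← Units.val_pow_eq_pow_val, pow_orderOf_eq_one]; rfl
    simp only [map_sub, map_pow, Polynomial.aeval_X, map_one, T]
    rw [← Matrix.toLin'_pow, h1, Matrix.toLin'_one]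
    exact sub_self _
  have hTs : T.IsSemisimple := Module.End.isSemisimple_of_squarefree_aeval_eq_zero hsep.squarefree hTaeval
  obtain ⟨c, hc, hdet⟩ := Cfsg.Agent.Lib.ElemOrders.exists_commuting_det T hTs (g : Matrix (Fin n) (Fin n) F).det
  let C : Matrix (Fin n) (Fin n) F := LinearMap.toMatrix' c
  have hCdet : C.det = (g : Matrix (Fin n) (Fin n) F).det := by
    rw [← hdet]
    exact LinearMap.det_toMatrix' c
  have hgdet : (g : Matrix (Fin n) (Fin n) F).det ≠ 0 :=
    ((Matrix.isUnit_iff_isUnit_det _).1 g.isUnit).ne_zero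
  let c' : GL (Fin n) F := Matrix.GeneralLinearGroup.mkOfDetNeZero C (by rw [hCdet]; exact hgdet)
  have hc'val : (c' : Matrix (Fin n) (Fin n) F) = C := rfl
  have hcomm : c' * x = x * c' := by
    apply Units.ext
    rw [Units.val_mul, Units.val_mul, hc'val]
    apply Matrix.toLin'.injective
    rw [Matrix.toLin'_mul, Matrix.toLin'_mul, Matrix.toLin'_toMatrix']
    exact hc
  refine ⟨g * c'⁻¹, ?_, ?_⟩
  · have hval : ((g * c'⁻¹ : GL (Fin n) F) : Matrix (Fin n) (Fin n) F) * C = g := by
      rw [← hc'val, ← Units.val_mul, inv_mul_cancel_right]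
    have h1 := congrArg Matrix.det hval
    rw [Matrix.det_mul, hCdet] at h1
    exact mul_right_cancel₀ hgdet (by rw [h1, one_mul])
  · have h1 : c'⁻¹ * x * c' = x := by
      rw [mul_assoc, ← hcomm, inv_mul_cancel_left]
    calc g * c'⁻¹ * x * (g * c'⁻¹)⁻¹ = g * (c'⁻¹ * x * c') * g⁻¹ := by group
      _ = g * x * g⁻¹ := by rw [h1]

end Cfsg.Agent.S2569
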