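import Cfsg.Statements.S5017
import Cfsg.Agent.Lib.Root.RankOne
import Cfsg.Agent.Lib.Components.Layer
import Mathlib

set_option autoImplicit false
open Cfsg

namespace Cfsg.Agent.S5017
open Cfsg.Agent.Lib.Root

/-- Normal subgroups of a rank one group. -/
theorem normal_dichotomy {X : Type*} [Group X] {A B : Subgroup X} (h : Cfsg.IsRankOneGroup X A B)
    (N : Subgroup X) (hN : N.Normal) : N ⊔ A = ⊤ ∨ N ≤ Subgroup.center X := by
  classical
  obtain ⟨htop, hp⟩ := h
  by_cases H : ∃ n ∈ N, ∃ C ∈ Cfsg.unipotentSubgroups A B, Cfsg.conjBy C n ≠ C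
  · obtain ⟨n, hn, C, hC, hne⟩ := H
    left
    obtain ⟨x, -, hx⟩ := hp.exists_conj_moving hC (by rw [htop]; trivial) hne
    have hnn : x * n * x⁻¹ ∈ N := hN.conj_mem n hn x
    set n' := x * n * x⁻¹
    rw [eq_top_iff, ← htop]
    apply sup_le le_sup_right
    rw [← hx]
    intro b hb
    have h1 : n'⁻¹ * b * n' ∈ A := mem_conjBy.mp hb
    set a := n'⁻¹ * b * n' with ha
    have h2 : b = (n' * (a * n'⁻¹ * a⁻¹)) * a := by
      rw [ha]; group
    rw [h2]
    refine Subgroup.mul_mem _ ((le_sup_left : N ≤ N ⊔ A) ?_) ((le_sup_right : A ≤ N ⊔ A) h1)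
    exact N.mul_mem hnn (hN.conj_mem _ (N.inv_mem hnn) a)
  · right
    push Not at H
    have hNA : N ≤ Subgroup.normalizer (A : Set X) := fun n hn =>
      mem_normalizer_of_conj_le (H n hn A left_mem_unipotent)
    have hNB : N ≤ Subgroup.normalizer (B : Set X) := fun n hn =>
      mem_normalizer_of_conj_le (H n hn B hp.right_mem_unipotent)
    have hnorm : ∀ K : Subgroup X, K ≤ Subgroup.normalizer (N : Set X) := fun K k _ => by
      rw [Subgroup.mem_normalizer_iff]
      intro y
      constructor
      · exact fun hy => hN.conj_mem y hy k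
      · intro hy
        have := hN.conj_mem _ hy k⁻¹
        simpa [mul_assoc] using this
    intro n hn
    rw [Subgroup.mem_center_iff]
    intro g
    have := hp.commute_of_mem_of_normalizes hNA hNB (hnorm A) (hnorm B) hn
      (x := g) (by rw [htop]; trivial)
    exact this.symm

/-- Let X be a rank one group with unipotent subgroups A and B and N a normal subgroup of X. Then either X = N A or N lies in the centre of X. Consequently a perfect rank one group is quasisimple. -/
theorem result {X : Type*} [Group X] {A B : Subgroup X} (h : Cfsg.IsRankOneGroup X A B) :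
    (∀ N : Subgroup X, N.Normal → N ⊔ A = ⊤ ∨ N ≤ Subgroup.center X) ∧
    (Group.IsPerfect X → Cfsg.IsQuasisimple X) := by
  classical
  refine ⟨normal_dichotomy h, ?_⟩
  intro hperf
  haveI : Nontrivial X := by
    obtain ⟨a, -, ha1⟩ := h.2.exists_ne_one_left
    exact ⟨⟨a, 1, ha1⟩⟩
  apply Cfsg.Agent.Lib.Components.qs_of_forall_normal hperf
  intro N hN
  rcases normal_dichotomy h N hN with h1 | h1
  · left
    by_contra hne
    haveI : Nontrivial (X ⧸ N) := QuotientGroup.nontrivial_iff.mpr hne
    haveI : Group.IsPerfect (X ⧸ N) := Group.IsPerfect.ofSurjective (QuotientGroup.mk'_surjective N)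
    have hsurj : Function.Surjective ((QuotientGroup.mk' N).comp A.subtype) := by
      intro y
      obtain ⟨x, rfl⟩ := QuotientGroup.mk'_surjective N y
      have hx : x ∈ N ⊔ A := by rw [h1]; trivial
      rw [sup_comm] at hx
      haveI := hN
      have hx' : x ∈ ((A ⊔ N : Subgroup X) : Set X) := hx
      rw [Subgroup.mul_normal, Set.mem_mul] at hx'
      obtain ⟨a, ha, n, hn, rfl⟩ := hx'
      refine ⟨⟨a, ha⟩, ?_⟩
      simp only [MonoidHom.comp_apply, Subgroup.subtype_apply, map_mul]
      have : (QuotientGroup.mk' N) n = 1 := by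
        rw [← MonoidHom.mem_ker, QuotientGroup.ker_mk']
        exact hn
      rw [this, mul_one]
    haveI := h.2.nilpotent_left
    have hnil : Group.IsNilpotent (X ⧸ N) := Group.nilpotent_of_surjective _ hsurj
    exact Group.IsPerfect.not_isNilpotent (X ⧸ N) hnil
  · exact Or.inr h1

end Cfsg.Agent.S5017
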