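import Cfsg.Agent.Lib.Golay.Steiner

set_option autoImplicit false
open Cfsg

namespace Cfsg.Agent.S0351

/-- Derived design: removing a point p from the blocks through p of an S(t+1, k+1, v) yields an S(t, k, v-1) on the points other than p. -/
theorem result {α : Type*} [Fintype α] [DecidableEq α] {t k : ℕ} {B : Set (Finset α)} (hB : Cfsg.IsSteinerSystem (t + 1) (k + 1) B) (p : α) : Cfsg.IsSteinerSystem t k {b' : Finset {a : α // a ≠ p} | ∃ b ∈ B, p ∈ b ∧ b' = Finset.subtype (fun a => a ≠ p) b} := by
  classical
  constructor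
  · rintro _ ⟨b, hb, hp, rfl⟩
    have h1 := hB.1 b hb
    have h2 : (Finset.subtype (fun a => a ≠ p) b).card = (b.erase p).card := by
      rw [Finset.card_subtype]
      congr 1
      ext x
      simp only [Finset.mem_filter, Finset.mem_erase]
      tauto
    rw [h2, Finset.card_erase_of_mem hp, h1]
    rfl
  · intro s hs
    have hcard : (insert p (s.map (Function.Embedding.subtype _))).card = t + 1 := by
      rw [Finset.card_insert_of_notMem, Finset.card_map, hs]
      simp
    obtain ⟨b, ⟨hb, hsb⟩, huniq⟩ := hB.2 _ hcard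
    have hpb : p ∈ b := hsb (Finset.mem_insert_self _ _)
    refine ⟨Finset.subtype (fun a => a ≠ p) b, ⟨⟨b, hb, hpb, rfl⟩, ?_⟩, ?_⟩
    · intro x hx
      rw [Finset.mem_subtype]
      apply hsb
      apply Finset.mem_insert_of_mem
      exact Finset.mem_map.mpr ⟨x, hx, rfl⟩
    · rintro _ ⟨⟨b2, hb2, hp2, rfl⟩, hs2⟩
      have : b2 = b := by
        apply huniq
        refine ⟨hb2, ?_⟩
        intro y hy
        rcases Finset.mem_insert.mp hy with rfl | hy
        · exact hp2
        · obtain ⟨x, hx, rfl⟩ := Finset.mem_map.mp hy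
          exact Finset.mem_subtype.mp (hs2 hx)
      rw [this]

end Cfsg.Agent.S0351
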