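import Cfsg.Agent.Lib.Golay.Group

set_option autoImplicit false
open Cfsg

namespace Cfsg.Agent.S0369

open Cfsg.Agent.Lib.Golay
open scoped Pointwise

/-- Twelve octads spanning the code. -/
def OB : List ℕ := [262637, 525274, 1050548, 2101096, 4196943, 36294, 69395, 133817, 5279, 10558, 18147, 8391797]

/-- Coefficients of the echelon basis in terms of `OB`. -/
def cert : List ℕ := [1, 2, 4, 8, 16, 32, 64, 128, 256, 512, 1024, 2048]

theorem OB_octads : ∀ m ∈ OB, m ∈ octadL := by decide +kernel

theorem E_eq : E = cert.map (combAux OB 0) := by decide +kernel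

theorem mem_of_octads (g : Equiv.Perm GolayPt) (h : ∀ m ∈ OB, wordOf m ∘ g ∈ golayCode) :
    g ∈ M24 := by
  apply mem_M24_of_E
  intro e he
  rw [E_eq, List.mem_map] at he
  obtain ⟨c, _, rfl⟩ := he
  have key : ∀ (L : List ℕ), (∀ m ∈ L, wordOf m ∘ g ∈ golayCode) → ∀ i,
      wordOf (combAux L i c) ∘ g ∈ golayCode := by
    intro L
    induction L with
    | nil =>
      intro _ i
      have : wordOf (combAux [] i c) ∘ g = 0 := by
        funext p
        simp [combAux, wordOf]
      rw [this]
      exact Submodule.zero_mem _
    | cons m ms ih =>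
      intro hL i
      have h1 : wordOf (combAux (m :: ms) i c) ∘ g
          = wordOf (if c.testBit i then m else 0) ∘ g + wordOf (combAux ms (i + 1) c) ∘ g := by
        simp only [combAux, wordOf_xor]
        rfl
      rw [h1]
      apply Submodule.add_mem
      · split
        · exact hL m (by simp)
        · have : wordOf 0 ∘ g = 0 := by
            funext p
            simp [wordOf]
          rw [this]
          exact Submodule.zero_mem _
      · exact ih (fun m' hm' => hL m' (by simp [hm'])) _
  exact key OB h 0

/-- The group of the length-24 code coincides with the automorphism group of its octad system. -/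
theorem result : Cfsg.M24 = Cfsg.setSystemAut Cfsg.octads := by
  ext g
  constructor
  · intro hg
    rw [MulAction.mem_stabilizer_iff]
    apply Set.eq_of_subset_of_ncard_le
    · rintro _ ⟨o, ho, rfl⟩
      exact smul_octad hg ho
    · rw [Set.ncard_smul_set]
    · exact Set.toFinite _
  · intro hg
    rw [MulAction.mem_stabilizer_iff] at hg
    apply mem_of_octads
    intro m hm
    have h1 : finOf m ∈ octads := (mem_octads_iff _).mpr ⟨m, OB_octads m hm, rfl⟩
    have h2 : g⁻¹ • finOf m ∈ octads := by
      have hg' : g⁻¹ • (octads : Set (Finset GolayPt)) = octads := by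
        rw [inv_smul_eq_iff, hg]
      rw [← hg']
      exact Set.smul_mem_smul_set h1
    rw [← support_wordOf, smul_support, inv_inv] at h2
    obtain ⟨w, hw, h3⟩ := h2.1
    rwa [← word_eq_of_support h3]

end Cfsg.Agent.S0369
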