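import Cfsg.Statements.S0059
import Cfsg.Agent.Lib.Basic.Glauberman

set_option autoImplicit false
open Cfsg

namespace Cfsg.Agent.S0059

/-- Let a finite group act on a set on which a normal subgroup K of coprime order and index is transitive, with K or the quotient solvable. Then any complement H of K has a fixed point, and any two H-fixed points are interchanged by an element of K centralising H. -/
theorem result {G : Type*} [Group G] [Finite G] {X : Type*} [Nonempty X] [MulAction G X]
    (K H : Subgroup G) [K.Normal] (hc : Subgroup.IsComplement' K H) (hcop : (Nat.card K).Coprime K.index)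
    (hsolv : Group.IsSolvable K ∨ Group.IsSolvable (G ⧸ K)) (htrans : MulAction.IsPretransitive K X) :
    (∃ x : X, ∀ h ∈ H, h • x = x) ∧
    ∀ x y : X, (∀ h ∈ H, h • x = x) → (∀ h ∈ H, h • y = y) → ∃ k ∈ K ⊓ Subgroup.centralizer (H : Set G), k • x = y := by
  have hsolv' : Group.IsSolvable K ∨ Group.IsSolvable H := by
    rcases hsolv with h | h
    · exact Or.inl h
    · right
      have hinj : Function.Injective ((QuotientGroup.mk' K).comp H.subtype) := by
        intro x y hxy
        have h1 : (x : G)⁻¹ * y ∈ K := QuotientGroup.eq.mp hxy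
        have h2 : (x : G)⁻¹ * y ∈ H := H.mul_mem (H.inv_mem x.2) y.2
        have h3 : (x : G)⁻¹ * y = 1 := Subgroup.disjoint_def.mp hc.disjoint h1 h2
        exact Subtype.ext (inv_mul_eq_one.mp h3)
      exact Group.isSolvable_of_isSolvable_injective hinj
  have hne : (Set.univ : Set X).Nonempty := Set.univ_nonempty
  have htr : ∀ x ∈ (Set.univ : Set X), ∀ y ∈ (Set.univ : Set X), ∃ k ∈ K, k • x = y := by
    intro x _ y _
    obtain ⟨k, hk⟩ := htrans.exists_smul_eq x y
    exact ⟨k, k.2, hk⟩
  obtain ⟨⟨x, -, hx⟩, h2⟩ := Cfsg.Agent.Lib.Basic.glauberman_normal hc hcop hsolv' Set.univ hne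
    (fun _ _ _ _ => Set.mem_univ _) (fun _ _ _ _ => Set.mem_univ _) htr
  exact ⟨⟨x, hx⟩, fun x y hx hy => h2 x (Set.mem_univ _) y (Set.mem_univ _) hx hy⟩

end Cfsg.Agent.S0059
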