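import Cfsg.Statements.S0063
import Cfsg.Agent.Lib.Basic.Nilpotent

set_option autoImplicit false
open Cfsg

namespace Cfsg.Agent.S0063

/-- A finite group of prime-power order p ^ m with m > 1 is nilpotent of class at most m - 1. -/
theorem result {G : Type*} [Group G] [Finite G] (p m : ℕ) [Fact p.Prime]
    (hG : Nat.card G = p ^ m) (hm : 1 < m) : Group.nilpotencyClass G ≤ m - 1 := by
  exact Cfsg.Agent.Lib.Basic.nilpotencyClass_le_of_card_eq_prime_pow p m hG hm

end Cfsg.Agent.S0063
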