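import Cfsg.Statements.S0067
import Cfsg.Agent.Lib.Basic.Nilpotent
import Cfsg.Agent.Lib.Coprime.Wielandt
import Cfsg.Agent.Lib.Components.Basic

set_option autoImplicit false
open Pointwise
open Cfsg

namespace Cfsg.Agent.S0067

/-- If the join of a subgroup A with each of its conjugates is nilpotent, then A is subnormal in the finite group and contained in the Fitting subgroup. -/
theorem result {G : Type*} [Group G] [Finite G] (A : Subgroup G)
    (h : ∀ g : G, Group.IsNilpotent (A ⊔ MulAut.conj g • A : Subgroup G)) : A.IsSubnormal ∧ A ≤ Cfsg.fittingSubgroup G := by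
  classical
  have hA : A.IsSubnormal := by
    open Cfsg.Agent.Lib.Coprime.Wielandt in
    refine snIn_top_iff.mp (criterion_aux _ ⊤ A rfl le_top fun g _ => ?_)
    open Cfsg.Agent.Lib.Coprime.Wielandt in
    refine (snIn_iff le_sup_left).mpr ?_
    haveI := h g
    exact (Cfsg.Agent.Lib.Basic.isNilpotent_iff_forall_isSubnormal.mp (h g)) _
  refine ⟨hA, ?_⟩
  have h1 := h 1
  have h2 : (A ⊔ MulAut.conj (1 : G) • A : Subgroup G) = A := by
    rw [map_one, one_smul, sup_idem]
  rw [h2] at h1
  exact Cfsg.Agent.Lib.Components.subnormal_le_fitting hA h1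

end Cfsg.Agent.S0067
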