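import Cfsg.Statements.S0073
import Mathlib
import Cfsg.Agent.Lib.Transfer.Burnside

set_option autoImplicit false
open Cfsg

namespace Cfsg.Agent.S0073

theorem aux1 (p : ℕ) (hp : 2 ≤ p) : p ^ 2 - 1 = (p - 1) * (p + 1) := by
  obtain ⟨r, rfl⟩ : ∃ r, p = r + 1 := ⟨p - 1, by omega⟩
  simp only [Nat.add_sub_cancel]
  have : (r + 1) ^ 2 = r * (r + 1 + 1) + 1 := by ring
  omega

theorem aux2 (p : ℕ) (hp : 2 ≤ p) : p ^ 2 - p = p * (p - 1) := by
  obtain ⟨r, rfl⟩ : ∃ r, p = r + 1 := ⟨p - 1, by omega⟩
  simp only [Nat.add_sub_cancel]
  have : (r + 1) ^ 2 = (r + 1) * r + (r + 1) := by ring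
  omega

/-- For a finite non-abelian simple group, either the cube of the least prime divisor of the order divides the order, or 12 does. -/
theorem result {G : Type*} [Group G] [Finite G] [IsSimpleGroup G] (hG : ∃ x y : G, x * y ≠ y * x) : (Nat.card G).minFac ^ 3 ∣ Nat.card G ∨ 12 ∣ Nat.card G := by
  classical
  by_contra hcon
  push Not at hcon
  obtain ⟨h3, h12⟩ := hcon
  have hne : Nat.card G ≠ 1 := by
    have : Nontrivial G := IsSimpleGroup.toNontrivial
    exact Finite.one_lt_card.ne'
  set p := (Nat.card G).minFac with hpdef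
  have hp : p.Prime := Nat.minFac_prime hne
  haveI : Fact p.Prime := ⟨hp⟩
  have hpd : p ∣ Nat.card G := Nat.minFac_dvd _
  obtain ⟨P⟩ : Nonempty (Sylow p G) := inferInstance
  have hcardP : Nat.card (P : Subgroup G) = p ^ (Nat.card G).factorization p := P.card_eq_multiplicity
  set a := (Nat.card G).factorization p with ha
  have hpos : Nat.card G ≠ 0 := Nat.card_pos.ne'
  have ha3 : a < 3 := by
    by_contra hge
    push Not at hge
    apply h3
    exact (pow_dvd_pow p hge).trans (Nat.ordProj_dvd _ _)
  have ha1 : 1 ≤ a := (hp.dvd_iff_one_le_factorization hpos).1 hpd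
  have hab : IsMulCommutative (P : Subgroup G) := by
    have hq : Nat.card (P : Subgroup G) = p ^ 1 ∨ Nat.card (P : Subgroup G) = p ^ 2 := by
      rw [hcardP]
      interval_cases a
      · left; rfl
      · right; rfl
    rcases hq with hq | hq
    · rw [pow_one] at hq
      haveI : Fact (Nat.card (P : Subgroup G)).Prime := ⟨by rw [hq]; exact hp⟩
      have : IsCyclic (P : Subgroup G) := isCyclic_of_prime_card (p := Nat.card (P : Subgroup G)) rfl
      exact IsCyclic.isMulCommutative
    · exact IsPGroup.isMulCommutative_of_card_eq_prime_sq hq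
  by_cases hN : Subgroup.normalizer ((P : Subgroup G) : Set G) ≤
      Subgroup.centralizer ((P : Subgroup G) : Set G)
  · -- Burnside
    have hcomp := MonoidHom.ker_transferSylow_isComplement' P hN
    set K := (MonoidHom.transferSylow P hN).ker with hK
    have hKn : K.Normal := inferInstance
    rcases hKn.eq_bot_or_eq_top with h0 | h0
    · rw [h0] at hcomp
      have htop : (P : Subgroup G) = ⊤ := (Subgroup.isComplement'_bot_left).mp hcomp
      obtain ⟨x, y, hxy⟩ := hG
      apply hxy
      have h1 := hab.is_comm.comm (⟨x, by rw [htop]; trivial⟩ : (P : Subgroup G)) ⟨y, by rw [htop]; trivial⟩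
      exact congrArg Subtype.val h1
    · rw [h0] at hcomp
      have hbot : (P : Subgroup G) = ⊥ := (Subgroup.isComplement'_top_left).mp hcomp
      have h1 : Nat.card (P : Subgroup G) = 1 := by rw [hbot]; simp
      rw [hcardP] at h1
      have h2 := Nat.pow_eq_one.mp h1
      rcases h2 with h2 | h2
      · exact hp.one_lt.ne' h2
      · omega
  · obtain ⟨q, hq, hqp, hqG, c, hc1, hc2, hc3⟩ :=
      Cfsg.Agent.Lib.Transfer.exists_prime_of_not_normalizer_le P hab hN
    have hpq : p < q := lt_of_le_of_ne (Nat.minFac_le_of_dvd hq.two_le hqG) hqp.symm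
    rw [hcardP] at hc1 hc2 hc3
    have hpp : p - 1 < q := by omega
    have hnd : ¬ q ∣ p - 1 := by
      intro hd
      have := Nat.le_of_dvd (by have := hp.two_le; omega) hd
      omega
    interval_cases a
    · -- |P| = p
      rw [pow_one] at hc1 hc2 hc3
      have : c = 1 := by
        rcases (Nat.dvd_prime hp).1 hc1 with h | h
        · exact h
        · exact absurd h hc2
      rw [this] at hc3
      exact hnd hc3
    · -- |P| = p ^ 2
      obtain ⟨j, -, hj⟩ := (Nat.dvd_prime_pow hp).1 hc1
      have hj2 : j ≠ 2 := by
        rintro rfl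
        exact hc2 hj
      have hj3 : j < 2 := by
        have := (Nat.pow_dvd_pow_iff_le_right hp.one_lt).1 (hj ▸ hc1)
        omega
      interval_cases j
      · -- c = 1
        rw [hj, pow_zero] at hc3
        have h4 : p ^ 2 - 1 = (p - 1) * (p + 1) := aux1 p hp.two_le
        rw [h4] at hc3
        rcases (Nat.Prime.dvd_mul hq).1 hc3 with h5 | h5
        · exact hnd h5
        · have h6 := Nat.le_of_dvd (by omega) h5
          have h7 : q = p + 1 := by omega
          have h8 : p = 2 := by
            rcases hp.eq_two_or_odd with h | h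
            · exact h
            · have h9 : q = 2 := by
                rcases hq.eq_two_or_odd with h' | h'
                · exact h'
                · omega
              have := hp.two_le
              omega
          have h9 : q = 3 := by omega
          apply h12
          have hdvd : 4 ∣ Nat.card G := by
            have h10 := Subgroup.card_subgroup_dvd_card (P : Subgroup G)
            rw [hcardP, h8] at h10
            exact h10
          have h3d : 3 ∣ Nat.card G := h9 ▸ hqG
          have : Nat.Coprime 3 4 := by norm_num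
          exact (Nat.Coprime.mul_dvd_of_dvd_of_dvd this h3d hdvd)
      · -- c = p
        rw [hj, pow_one] at hc3
        have h4 : p ^ 2 - p = p * (p - 1) := aux2 p hp.two_le
        rw [h4] at hc3
        rcases (Nat.Prime.dvd_mul hq).1 hc3 with h5 | h5
        · have := (Nat.prime_dvd_prime_iff_eq hq hp).1 h5
          exact hqp this
        · exact hnd h5

end Cfsg.Agent.S0073
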