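import Cfsg.Statements.S0075
import Mathlib
import Cfsg.Agent.Lib.Transfer.Fusion

set_option autoImplicit false
open Cfsg

namespace Cfsg.Agent.S0075

/-- For an abelian Sylow p-subgroup T, its intersection with the subgroup generated by the elements of order prime to p is the commutator of T with its normalizer. -/
theorem result {G : Type*} [Group G] [Finite G] {p : ℕ} [Fact p.Prime] (T : Sylow p G) (hT : IsMulCommutative T) : (T : Subgroup G) ⊓ Cfsg.pResidual p G = ⁅(T : Subgroup G), Subgroup.normalizer (T : Set G)⁆ := by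
  haveI hT' : IsMulCommutative (T : Subgroup G) := hT
  haveI := Cfsg.Agent.Lib.Transfer.pResidual_normal p G
  apply le_antisymm
  · have h1 := Cfsg.Agent.Lib.Transfer.inf_pResidual_le_focal T
    refine h1.trans (Cfsg.Agent.Lib.Transfer.focalSubgroup_le_commutator_of_control _ _ ?_)
    intro x hx u hu
    exact Cfsg.Agent.Lib.Transfer.exists_normalizer_conj_of_abelian T hx u hu
  · rw [Subgroup.commutator_le]
    intro t ht n hn
    refine ⟨?_, ?_⟩
    · rw [commutatorElement_def]
      have h0 : t * n * t⁻¹ * n⁻¹ = t * (n * t⁻¹ * n⁻¹) := by group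
      rw [h0]
      exact mul_mem ht ((Subgroup.mem_normalizer_iff.mp hn _).1 (inv_mem ht))
    · -- `G / O^p(G)` is abelian since it is an image of `T`
      have hq := Cfsg.Agent.Lib.Transfer.isPGroup_quotient_pResidual (p := p) (G := G)
      have hsup := Cfsg.Agent.Lib.Transfer.sup_eq_top_of_isPGroup_quotient T hq
      have hab : ∀ x y : G, x * y * x⁻¹ * y⁻¹ ∈ Cfsg.pResidual p G := by
        intro x y
        have hx : x ∈ (Cfsg.pResidual p G ⊔ (T : Subgroup G)) := by rw [hsup]; trivial
        have hy : y ∈ (Cfsg.pResidual p G ⊔ (T : Subgroup G)) := by rw [hsup]; trivial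
        rw [← SetLike.mem_coe, Subgroup.normal_mul] at hx hy
        obtain ⟨a, ha, u, hu, rfl⟩ := hx
        obtain ⟨b, hb, v, hv, rfl⟩ := hy
        rw [← QuotientGroup.eq_one_iff]
        simp only [QuotientGroup.mk_mul, QuotientGroup.mk_inv]
        rw [(QuotientGroup.eq_one_iff _).mpr ha, (QuotientGroup.eq_one_iff _).mpr hb]
        have huv : u * v = v * u := congrArg Subtype.val
          (hT'.is_comm.comm (⟨u, hu⟩ : (T : Subgroup G)) ⟨v, hv⟩)
        simp only [one_mul]
        rw [← QuotientGroup.mk_mul, huv, QuotientGroup.mk_mul]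
        group
      rw [commutatorElement_def]
      exact hab t n

end Cfsg.Agent.S0075
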