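import Cfsg.Statements.S0076
import Mathlib
import Cfsg.Agent.Lib.Transfer.Burnside

set_option autoImplicit false
open Cfsg

namespace Cfsg.Agent.S0076

/-- Two P-invariant subsets of a Sylow p-subgroup P that are conjugate in G are conjugate under the normalizer of P. -/
theorem result {G : Type*} [Group G] [Finite G] {p : ℕ} [Fact p.Prime] (P : Sylow p G) (X Y : Set G) (hXP : X ⊆ P) (hYP : Y ⊆ P) (hX : ∀ x ∈ P, (fun y => x * y * x⁻¹) '' X = X) (hY : ∀ x ∈ P, (fun y => x * y * x⁻¹) '' Y = Y) (g : G) (hg : (fun y => g * y * g⁻¹) '' X = Y) : ∃ n ∈ Subgroup.normalizer (P : Set G), (fun y => n * y * n⁻¹) '' X = Y := by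
  have hYn : ∀ a b : G, (fun y => a * y * a⁻¹) '' ((fun y => b * y * b⁻¹) '' X) =
      (fun y => (a * b) * y * (a * b)⁻¹) '' X := by
    intro a b
    rw [Set.image_image]
    apply Set.image_congr
    intro x _
    group
  let H : Subgroup G := Subgroup.normalizer Y
  have hPH : (P : Subgroup G) ≤ H := by
    intro x hx
    rw [Subgroup.mem_normalizer_iff_conj_image_eq]
    exact hY x hx
  have hgPH : ((g • P : Sylow p G) : Subgroup G) ≤ H := by
    intro x hx
    have hx' : g⁻¹ * x * g ∈ (P : Subgroup G) := Cfsg.Agent.Lib.Transfer.mem_smul_sylow.1 hx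
    rw [Subgroup.mem_normalizer_iff_conj_image_eq]
    have h2 := hX _ hx'
    have h1 : x * g = g * (g⁻¹ * x * g) := by group
    change (fun y => x * y * x⁻¹) '' Y = Y
    rw [← hg, hYn, h1, ← hYn, h2]
  obtain ⟨s, hs, hsP⟩ := Cfsg.Agent.Lib.Transfer.exists_mem_smul_eq_of_le P (g • P) H hPH hgPH
  refine ⟨s * g, ?_, ?_⟩
  · apply Sylow.smul_eq_iff_mem_normalizer.mp
    rw [mul_smul]; exact hsP
  · rw [← hYn, hg]
    have := (Subgroup.mem_normalizer_iff_conj_image_eq.mp hs)
    exact this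

end Cfsg.Agent.S0076
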