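import Cfsg.Statements.S0077
import Mathlib
import Cfsg.Agent.Lib.Transfer.Fusion

set_option autoImplicit false
open Cfsg

namespace Cfsg.Agent.S0077

/-- If a subgroup Z of the centre of a Sylow p-subgroup P is weakly closed in P, then P meets the derived subgroup of G exactly where it meets the derived subgroup of the normalizer of Z. -/
theorem result {G : Type*} [Group G] [Finite G] {p : ℕ} [Fact p.Prime] (P : Sylow p G) (Z : Subgroup G) (hZ : Z ≤ Subgroup.centralizer (P : Set G)) (hW : Cfsg.IsWeaklyClosed Z P) : commutator G ⊓ (P : Subgroup G) = ⁅Subgroup.normalizer (Z : Set G), Subgroup.normalizer (Z : Set G)⁆ ⊓ (P : Subgroup G) := by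
  apply Cfsg.Agent.Lib.Transfer.commutator_inf_eq_of_control P
  · intro x hx u hu
    obtain ⟨n, hn, h⟩ := Cfsg.Agent.Lib.Transfer.exists_normalizer_conj_of_weaklyClosed P Z hZ hW
      (Subgroup.zpowers x) (Subgroup.zpowers_le.mpr hx) u (by
        rintro _ ⟨k, rfl⟩
        have : u * x ^ k * u⁻¹ = (u * x * u⁻¹) ^ k := by
          rw [conj_zpow]
        simp only [] 
        rw [this]
        exact zpow_mem hu k)
    exact ⟨n, hn, h x (Subgroup.mem_zpowers x)⟩
  · intro x hx
    rw [Subgroup.mem_normalizer_iff]
    intro z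
    constructor
    · intro hz
      have := (Subgroup.mem_centralizer_iff.mp (hZ hz)) x hx
      rw [this]; simpa using hz
    · intro hz
      have h1 := (Subgroup.mem_centralizer_iff.mp (hZ hz)) x hx
      have h2 : z = x * z * x⁻¹ := by
        have h3 : z = x⁻¹ * (x * z * x⁻¹) * x := by group
        rw [mul_assoc x⁻¹, ← h1] at h3
        simpa using h3
      rw [h2]; exact hz

end Cfsg.Agent.S0077
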