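import Cfsg.Statements.S0080
import Mathlib
import Cfsg.Agent.Lib.Transfer.Focal

set_option autoImplicit false
open Cfsg

namespace Cfsg.Agent.S0080

/-- When the index of H is prime to the order of H/H', the focal subgroup of H is G' ∩ H, and H/(G' ∩ H) has a normal complement. -/
theorem result {G : Type*} [Group G] [Finite G] (H : Subgroup G) (h : Nat.Coprime H.index (⁅H, H⁆.relIndex H)) : Subgroup.focalSubgroup H = commutator G ⊓ H ∧ ∃ N : Subgroup G, N.Normal ∧ N ⊓ H = commutator G ⊓ H ∧ N ⊔ H = ⊤ := by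
  classical
  have hd : Nat.card (H ⧸ H.focalSubgroupOf) ∣ ⁅H, H⁆.relIndex H := by
    rw [← Subgroup.index_eq_card]
    apply Subgroup.index_dvd_of_le
    intro x hx
    exact H.commutator_le_focalSubgroup hx
  have hc : Nat.Coprime H.index (Nat.card (H ⧸ H.focalSubgroupOf)) :=
    Nat.Coprime.coprime_dvd_right hd h
  obtain ⟨h1, h2⟩ := Cfsg.Agent.Lib.Transfer.focal_general H hc
  have h3 : Subgroup.focalSubgroup H = commutator G ⊓ H := by
    apply le_antisymm
    · exact le_inf H.focalSubgroup_le_commutator H.focalSubgroup_le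
    · rw [← h1]
      exact inf_le_inf_right _ (Cfsg.Agent.Lib.Transfer.commutator_le_ker_transferFocal H)
  refine ⟨h3, H.transferFocal.ker, inferInstance, ?_, h2⟩
  rw [h1, h3]

end Cfsg.Agent.S0080
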