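import Cfsg.Statements.S0082
import Mathlib
import Cfsg.Agent.Lib.Transfer.Burnside

set_option autoImplicit false
open Cfsg

namespace Cfsg.Agent.S0082

/-- With a cyclic Sylow p-subgroup, either there is a normal p-complement or the elements of order prime to p generate the whole group. -/
theorem result {G : Type*} [Group G] [Finite G] {p : ℕ} [Fact p.Prime] (P : Sylow p G) (hP : IsCyclic P) : Cfsg.HasNormalPComplement p G ∨ Cfsg.pResidual p G = ⊤ := by
  by_cases htop : Cfsg.pResidual p G = ⊤
  · exact Or.inr htop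
  left
  haveI := Cfsg.Agent.Lib.Transfer.pResidual_normal p G
  have hq := Cfsg.Agent.Lib.Transfer.isPGroup_quotient_pResidual (p := p) (G := G)
  have hsup := Cfsg.Agent.Lib.Transfer.sup_eq_top_of_isPGroup_quotient P hq
  obtain ⟨k, hk⟩ := Cfsg.Agent.Lib.Transfer.index_eq_pow_of_isPGroup_quotient hq
  refine Cfsg.Agent.Lib.Transfer.hasNormalPComplement_of_normal_of_index hk
    (Cfsg.Agent.Lib.Transfer.tate_hasNormalPComplement P _ ?_)
  -- the Sylow subgroup is not contained in `O^p(G)`
  have hPg : IsPGroup p (P : Subgroup G) := P.2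
  haveI : IsCyclic (P : Subgroup G) := hP
  have hD : (Cfsg.pResidual p G).subgroupOf (P : Subgroup G) ≠ ⊤ := by
    intro h
    apply htop
    rw [eq_top_iff, ← hsup]
    refine sup_le le_rfl ?_
    intro x hx
    have : (⟨x, hx⟩ : (P : Subgroup G)) ∈ (Cfsg.pResidual p G).subgroupOf (P : Subgroup G) := by
      rw [h]; trivial
    exact this
  have h1 := Cfsg.Agent.Lib.Transfer.le_frattini_of_isCyclic hPg hD
  rintro x ⟨hx1, hx2⟩
  exact ⟨⟨x, hx2⟩, h1 hx1, rfl⟩

end Cfsg.Agent.S0082
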