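import Cfsg.Statements.S0083
import Mathlib
import Cfsg.Agent.Lib.Transfer.Burnside

set_option autoImplicit false
open Cfsg

namespace Cfsg.Agent.S0083

/-- For an abelian Sylow p-subgroup P, a normal p-complement exists exactly when the normalizer of P is an internal direct product of P with some subgroup. -/
theorem result {G : Type*} [Group G] [Finite G] {p : ℕ} [Fact p.Prime] (P : Sylow p G) (hP : IsMulCommutative P) : Cfsg.HasNormalPComplement p G ↔ ∃ Q : Subgroup G, Q ≤ Subgroup.centralizer (P : Set G) ∧ Q ⊓ (P : Subgroup G) = ⊥ ∧ Q ⊔ (P : Subgroup G) = Subgroup.normalizer (P : Set G) := by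
  constructor
  · intro h
    obtain ⟨N, hn, hc⟩ := Cfsg.Agent.Lib.Transfer.exists_normal_isComplement'_of_hasNormalPComplement h P
    have hdisj : N ⊓ (P : Subgroup G) = ⊥ := disjoint_iff.mp hc.disjoint
    have hsup : N ⊔ (P : Subgroup G) = ⊤ := hc.sup_eq_top
    refine ⟨N ⊓ Subgroup.normalizer ((P : Subgroup G) : Set G), ?_, ?_, ?_⟩
    · intro q hq
      obtain ⟨hqN, hqP⟩ := Subgroup.mem_inf.1 hq
      rw [Subgroup.mem_centralizer_iff]
      intro x hx
      have h1 : q * x * q⁻¹ * x⁻¹ ∈ N ⊓ (P : Subgroup G) := by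
        rw [Subgroup.mem_inf]
        constructor
        · have h2 : q * x * q⁻¹ * x⁻¹ = q * (x * q⁻¹ * x⁻¹) := by group
          rw [h2]
          exact mul_mem hqN (hn.conj_mem _ (inv_mem hqN) x)
        · exact mul_mem ((Subgroup.mem_normalizer_iff.mp hqP x).1 hx) (inv_mem hx)
      rw [hdisj, Subgroup.mem_bot, mul_inv_eq_one, mul_inv_eq_iff_eq_mul] at h1
      exact h1.symm
    · rw [eq_bot_iff]
      intro x hx
      obtain ⟨hx0, hx2⟩ := Subgroup.mem_inf.1 hx
      have : x ∈ N ⊓ (P : Subgroup G) := Subgroup.mem_inf.2 ⟨(Subgroup.mem_inf.1 hx0).1, hx2⟩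
      rwa [hdisj] at this
    · apply le_antisymm
      · exact sup_le inf_le_right Subgroup.le_normalizer
      · intro n hn'
        have h1 : n ∈ N ⊔ (P : Subgroup G) := by rw [hsup]; trivial
        rw [← SetLike.mem_coe, Subgroup.normal_mul] at h1
        obtain ⟨k, hk, u, hu, rfl⟩ := h1
        apply mul_mem
        · apply Subgroup.mem_sup_left
          refine Subgroup.mem_inf.2 ⟨hk, ?_⟩
          have h2 : k = (k * u) * u⁻¹ := by group
          rw [h2]
          exact mul_mem hn' (inv_mem (Subgroup.le_normalizer hu))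
        · exact Subgroup.mem_sup_right hu
  · rintro ⟨Q, hQ, -, hsup⟩
    have hab : IsMulCommutative (P : Subgroup G) := hP
    apply Cfsg.Agent.Lib.Transfer.hasNormalPComplement_of_normalizer_le P
    have hle : Q ⊔ (P : Subgroup G) ≤ Subgroup.centralizer ((P : Subgroup G) : Set G) := by
      refine sup_le hQ ?_
      intro x hx
      rw [Subgroup.mem_centralizer_iff]
      intro y hy
      exact congrArg Subtype.val (hab.is_comm.comm (⟨y, hy⟩ : (P : Subgroup G)) ⟨x, hx⟩)
    have hs : Subgroup.normalizer ((P : Subgroup G) : Set G) = Q ⊔ (P : Subgroup G) := hsup.symm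
    rw [hs]
    exact hle

end Cfsg.Agent.S0083
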