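import Cfsg.Statements.S0085
import Mathlib
import Cfsg.Agent.Lib.Transfer.Burnside

set_option autoImplicit false
open Cfsg

namespace Cfsg.Agent.S0085

/-- A group whose Sylow 2-subgroups are elementary abelian of order 8 and whose order is prime to 3 and to 7 has a normal 2-complement. -/
theorem result {G : Type*} [Group G] [Finite G] (T : Sylow 2 G) (h8 : Nat.card T = 8) (he : ∀ x : T, x * x = 1) (h3 : ¬ 3 ∣ Nat.card G) (h7 : ¬ 7 ∣ Nat.card G) : Cfsg.HasNormalPComplement 2 G := by
  have hc : Nat.card (T : Subgroup G) = 8 := h8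
  have hab : IsMulCommutative (T : Subgroup G) := by
    refine ⟨⟨fun a b => ?_⟩⟩
    have h1 : (a * b) * (a * b) = 1 := he (a * b)
    have h2 : a * a = 1 := he a
    have h3' : b * b = 1 := he b
    have h4 : a * b * (b * a) = 1 := by
      calc a * b * (b * a) = a * (b * b) * a := by group
        _ = 1 := by rw [h3', mul_one, h2]
    have h5 : a * b = (a * b)⁻¹ := eq_inv_of_mul_eq_one_left h1
    have h6 : b * a = (a * b)⁻¹ := eq_inv_of_mul_eq_one_right h4
    exact h5.trans h6.symm
  apply Cfsg.Agent.Lib.Transfer.hasNormalPComplement_of_normalizer_le T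
  by_contra hN
  obtain ⟨q, hq, hq2, hqG, c, hc1, hc2, hc3⟩ :=
      Cfsg.Agent.Lib.Transfer.exists_prime_of_not_normalizer_le T hab hN
  rw [hc] at hc1 hc2 hc3
  have hcle := Nat.le_of_dvd (by norm_num) hc1
  interval_cases c <;> try omega
  · have : q = 7 := (Nat.prime_dvd_prime_iff_eq hq (by norm_num)).1 hc3
    exact h7 (this ▸ hqG)
  · -- q ∣ 6
    have h6 : q ∣ 2 * 3 := hc3
    rcases (Nat.Prime.dvd_mul hq).1 h6 with h | h
    · exact hq2 ((Nat.prime_dvd_prime_iff_eq hq (by norm_num)).1 h)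
    · exact h3 (((Nat.prime_dvd_prime_iff_eq hq (by norm_num)).1 h) ▸ hqG)
  · -- q ∣ 4
    have h6 : q ∣ 2 * 2 := hc3
    rcases (Nat.Prime.dvd_mul hq).1 h6 with h | h <;>
    exact hq2 ((Nat.prime_dvd_prime_iff_eq hq (by norm_num)).1 h)

end Cfsg.Agent.S0085
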