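import Cfsg.Statements.S0087
import Mathlib
import Cfsg.Agent.Lib.Transfer.HallComp

set_option autoImplicit false
open Cfsg

namespace Cfsg.Agent.S0087

/-- A Hall subgroup that is central in its normalizer has a normal complement. -/
theorem result {G : Type*} [Group G] [Finite G] (H : Subgroup G) (hHall : Nat.Coprime (Nat.card H) H.index) (h : Subgroup.normalizer (H : Set G) ≤ Subgroup.centralizer (H : Set G)) : ∃ N : Subgroup G, N.Normal ∧ N.IsComplement' H := by
  exact Cfsg.Agent.Lib.Transfer.burnside_hall H hHall h

end Cfsg.Agent.S0087
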