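import Cfsg.Statements.S0089
import Mathlib
import Cfsg.Agent.Lib.Transfer.Hall

set_option autoImplicit false
open Cfsg

namespace Cfsg.Agent.S0089

/-- When all Sylow subgroups are abelian, the derived subgroup meets the centre trivially. -/
theorem result {G : Type*} [Group G] [Finite G] (h : ∀ p : ℕ, p.Prime → ∀ P : Sylow p G, IsMulCommutative P) : commutator G ⊓ Subgroup.center G = ⊥ := by
  rw [eq_bot_iff]
  rintro z ⟨hzG, hzC⟩
  rw [Subgroup.mem_bot]
  by_contra hz1
  have hord : orderOf z ≠ 1 := fun h0 => hz1 (orderOf_eq_one_iff.mp h0)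
  -- take a prime `q` dividing the order of `z`
  obtain ⟨q, hq, hqd⟩ := Nat.exists_prime_and_dvd hord
  obtain ⟨m, hm⟩ := hqd
  let w : G := z ^ m
  haveI : Fact q.Prime := ⟨hq⟩
  have hw : orderOf w = q := by
    have hpos : 0 < orderOf z := orderOf_pos z
    have hm0 : 0 < m := by
      rcases Nat.eq_zero_or_pos m with h | h
      · rw [h, mul_zero] at hm; omega
      · exact h
    rw [show w = z ^ m from rfl, orderOf_pow_of_dvd (by omega) ⟨q, by rw [hm, mul_comm]⟩, hm]
    exact Nat.mul_div_cancel _ hm0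
  have hw1 : w ≠ 1 := by
    intro h0
    rw [h0, orderOf_one] at hw
    exact hq.one_lt.ne hw
  have hpz : IsPGroup q (Subgroup.zpowers w) :=
    IsPGroup.of_card (n := 1) (by rw [Nat.card_zpowers, hw, pow_one])
  obtain ⟨P, hP⟩ := hpz.exists_le_sylow
  have hPab := h q hq P
  have hwP : w ∈ (P : Subgroup G) := hP (Subgroup.mem_zpowers w)
  have hwG : w ∈ commutator G := pow_mem hzG m
  have hwC : ∀ y : G, y * w = w * y := by
    intro y
    exact (Commute.pow_right (show Commute y z from (Subgroup.mem_center_iff.mp hzC) y) m).eq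
  haveI : IsMulCommutative (P : Subgroup G) := hPab
  have hHall : Nat.Coprime (Nat.card (P : Subgroup G)) (P : Subgroup G).index := by
    obtain ⟨k, hk⟩ := P.2.exists_card_eq
    rw [hk]
    exact Nat.Coprime.pow_left _ ((Nat.Prime.coprime_iff_not_dvd hq).2 P.not_dvd_index)
  exact hw1 (Cfsg.Agent.Lib.Transfer.eq_one_of_hall_of_central _ hHall hwP hwG hwC)

end Cfsg.Agent.S0089
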