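import Cfsg.Statements.S0091
import Mathlib
import Cfsg.Agent.Lib.Transfer.Burnside

set_option autoImplicit false
open Cfsg

namespace Cfsg.Agent.S0091

/-- If a nontrivial Sylow p-subgroup controls its own fusion then it is not contained in the derived subgroup. -/
theorem result {G : Type*} [Group G] [Finite G] {p : ℕ} [Fact p.Prime] (P : Sylow p G) (hp : p ∣ Nat.card G) (h : ∀ x ∈ P, ∀ y ∈ P, (∃ g : G, g * x * g⁻¹ = y) → ∃ z ∈ P, z * x * z⁻¹ = y) : ¬ (P : Subgroup G) ≤ commutator G := by
  intro hle
  have hfoc := Subgroup.commutator_inf_eq_focalSubgroup P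
  have h1 : (P : Subgroup G) ≤ (P : Subgroup G).focalSubgroup := by
    rw [← hfoc]; exact le_inf hle le_rfl
  have h2 := Cfsg.Agent.Lib.Transfer.focalSubgroup_le_of_control (P : Subgroup G) h
  have h3 := Cfsg.Agent.Lib.Transfer.commutator_le_frattini_map (P : Subgroup G) P.2
  have h4 : (P : Subgroup G) ≤ (frattini P).map (P : Subgroup G).subtype := h1.trans (h2.trans h3)
  have htop : frattini (P : Subgroup G) = ⊤ := by
    rw [eq_top_iff]
    rintro ⟨x, hx⟩ -
    obtain ⟨y, hy, hxy⟩ := h4 hx
    have : y = ⟨x, hx⟩ := Subtype.ext hxy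
    exact this ▸ hy
  have hne : Nontrivial (P : Subgroup G) := by
    have hpP : p ∣ Nat.card (P : Subgroup G) := by
      have hcard := P.card_eq_multiplicity
      rw [hcard]
      have hp' : p.Prime := Fact.out
      have : (Nat.card G).factorization p ≠ 0 := by
        have hpos : Nat.card G ≠ 0 := Nat.card_pos.ne'
        have := (hp'.dvd_iff_one_le_factorization hpos).1 hp
        omega
      exact dvd_pow_self p this
    have hp' : p.Prime := Fact.out
    apply Finite.one_lt_card_iff_nontrivial.1
    have := Nat.le_of_dvd Nat.card_pos hpP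
    have := hp'.two_le
    omega
  obtain h5 | ⟨M, hM, -⟩ := eq_top_or_exists_le_coatom (⊥ : Subgroup (P : Subgroup G))
  · exact bot_ne_top h5
  · have h6 : frattini (P : Subgroup G) ≤ M := Order.radical_le_coatom hM
    rw [htop, top_le_iff] at h6
    exact hM.1 h6

end Cfsg.Agent.S0091
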