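import Cfsg.Statements.S0095
import Mathlib
import Cfsg.Agent.Lib.Transfer.Extra

set_option autoImplicit false
open Cfsg

namespace Cfsg.Agent.S0095

/-- The order of an extraspecial p-group is an odd power p^(2n+1) of p with n ≥ 1. -/
theorem result {P : Type*} [Group P] [Finite P] {p : ℕ} [Fact p.Prime] (h : Cfsg.IsExtraspecial p P) : ∃ n : ℕ, 1 ≤ n ∧ Nat.card P = p ^ (2 * n + 1) := by
  classical
  have hc := Cfsg.Agent.Lib.Transfer.extraspecial_commutator_mem h
  obtain ⟨k, hk⟩ := Cfsg.Agent.Lib.Transfer.card_of_class_two_center_prime h.2 hc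
  have hp' : p.Prime := Fact.out
  rcases Nat.eq_zero_or_pos k with rfl | hkpos
  · exfalso
    have hcard : Nat.card (Subgroup.center P) = Nat.card P := by
      rw [hk, h.2]; simp
    have htop : Subgroup.center P = ⊤ := by
      apply Subgroup.eq_top_of_card_eq
      exact hcard
    have hcomm : commutator P = ⊥ := by
      rw [commutator_eq_bot_iff_center_eq_top]
      exact htop
    have h3 := h.1.2.2
    rw [hcomm, htop] at h3
    have h4 : Nat.card (⊤ : Subgroup P) = 1 := by
      rw [← h3]; simp
    rw [Subgroup.card_top, hcard.symm, h.2] at h4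
    exact hp'.one_lt.ne' h4
  · exact ⟨k, hkpos, hk⟩

end Cfsg.Agent.S0095
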