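import Cfsg.Statements.S0097
import Mathlib
import Cfsg.Agent.Lib.Transfer.Special

set_option autoImplicit false
open Cfsg

namespace Cfsg.Agent.S0097

/-- For odd p and E extraspecial, the subgroup generated by the elements of order dividing p has exponent dividing p and index at most p. -/
theorem result {E : Type*} [Group E] [Finite E] {p : ℕ} [Fact p.Prime] (hp : p ≠ 2) (h : Cfsg.IsExtraspecial p E) : (Subgroup.closure {x : E | x ^ p = 1}).index ≤ p ∧ ∀ g ∈ Subgroup.closure {x : E | x ^ p = 1}, g ^ p = 1 := by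
  have hp' : p.Prime := Fact.out
  have hsp := h.1
  have h2 := Cfsg.Agent.Lib.Transfer.special_class_two hsp
  refine ⟨?_, fun g hg => Cfsg.Agent.Lib.Transfer.pow_eq_one_of_mem_closure hp' hp
    (by rw [h2, Subgroup.commutator_bot_left]) (Or.inr h2) g hg⟩
  have hmem : ∀ x : E, x ^ p ∈ Subgroup.center E := by
    intro x
    rw [← hsp.2.1]
    exact Cfsg.Agent.Lib.Transfer.pow_mem_frattini hsp.1 x
  let f : E →* Subgroup.center E := MonoidHom.mk' (fun x => ⟨x ^ p, hmem x⟩) (fun x y =>
    Subtype.ext (Cfsg.Agent.Lib.Transfer.special_mul_pow hp hsp x y))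
  have hk : f.ker ≤ Subgroup.closure {x : E | x ^ p = 1} := by
    intro x hx
    apply Subgroup.subset_closure
    exact congrArg Subtype.val hx
  have h3 : (Subgroup.closure {x : E | x ^ p = 1}).index ≤ f.ker.index :=
    Nat.le_of_dvd (Nat.pos_of_ne_zero (Subgroup.index_ne_zero_of_finite)) (Subgroup.index_dvd_of_le hk)
  rw [Subgroup.index_ker] at h3
  refine h3.trans ?_
  rw [← h.2]
  exact Subgroup.card_le_card_group _

end Cfsg.Agent.S0097
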