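import Cfsg.Statements.S0099
import Cfsg.Agent.Lib.Basic.Extra2

set_option autoImplicit false
open Cfsg

namespace Cfsg.Agent.S0099

/-- Among three extraspecial 2-groups of equal order, some two are isomorphic. -/
theorem result {E₁ : Type*} {E₂ : Type*} {E₃ : Type*} [Group E₁] [Group E₂] [Group E₃] [Finite E₁] [Finite E₂] [Finite E₃] (h₁ : Cfsg.IsExtraspecial 2 E₁) (h₂ : Cfsg.IsExtraspecial 2 E₂) (h₃ : Cfsg.IsExtraspecial 2 E₃) (h12 : Nat.card E₁ = Nat.card E₂) (h23 : Nat.card E₂ = Nat.card E₃) : Nonempty (E₁ ≃* E₂) ∨ Nonempty (E₂ ≃* E₃) ∨ Nonempty (E₁ ≃* E₃) := by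
  obtain ⟨n, -, hc₁, hN₁⟩ := Cfsg.Agent.Lib.Basic.extraspecial2_order_count h₁
  obtain ⟨n₂, -, hc₂, hN₂⟩ := Cfsg.Agent.Lib.Basic.extraspecial2_order_count h₂
  obtain ⟨n₃, -, hc₃, hN₃⟩ := Cfsg.Agent.Lib.Basic.extraspecial2_order_count h₃
  have e₂ : n₂ = n := by
    have h := hc₂.symm.trans (h12.symm.trans hc₁)
    have := Nat.pow_right_injective (le_refl 2) h
    omega
  have e₃ : n₃ = n := by
    have h := hc₃.symm.trans (h23.symm.trans (h12.symm.trans hc₁))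
    have := Nat.pow_right_injective (le_refl 2) h
    omega
  subst e₂ e₃
  have h13 : Nat.card E₁ = Nat.card E₃ := h12.trans h23
  have hcases : Nat.card {x : E₁ // x ^ 2 = 1} = Nat.card {x : E₂ // x ^ 2 = 1} ∨
      Nat.card {x : E₂ // x ^ 2 = 1} = Nat.card {x : E₃ // x ^ 2 = 1} ∨
      Nat.card {x : E₁ // x ^ 2 = 1} = Nat.card {x : E₃ // x ^ 2 = 1} := by
    rcases hN₁ with h | h <;> rcases hN₂ with h' | h' <;> rcases hN₃ with h'' | h'' <;> omega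
  rcases hcases with h | h | h
  · exact Or.inl (Cfsg.Agent.Lib.Basic.extraspecial2_iso h₁ h₂ h12 h)
  · exact Or.inr (Or.inl (Cfsg.Agent.Lib.Basic.extraspecial2_iso h₂ h₃ h23 h))
  · exact Or.inr (Or.inr (Cfsg.Agent.Lib.Basic.extraspecial2_iso h₁ h₃ h13 h))

end Cfsg.Agent.S0099
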