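import Cfsg.Statements.S0102
import Mathlib
import Cfsg.Agent.Lib.Transfer.Schur

set_option autoImplicit false
open Cfsg

namespace Cfsg.Agent.S0102

/-- A finite perfect group with cyclic Sylow p-subgroups has no perfect central extension whose kernel has order divisible by p. -/
theorem result {G : Type*} {H : Type*} [Group G] [Group H] [Finite G] [Finite H] (hG : commutator G = ⊤) {p : ℕ} [Fact p.Prime] (hcyc : ∀ P : Sylow p G, IsCyclic P) (σ : H →* G) (hσ : Function.Surjective σ) (hz : σ.ker ≤ Subgroup.center H) (hH : commutator H = ⊤) : ¬ p ∣ Nat.card σ.ker := by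
  intro hdvd
  classical
  obtain ⟨P⟩ : Nonempty (Sylow p H) := inferInstance
  have hp' : p.Prime := Fact.out
  have hcentral : ∀ z ∈ σ.ker, ∀ y : H, y * z = z * y := by
    intro z hzk y
    exact (Subgroup.mem_center_iff.1 (hz hzk)) y
  -- P ∩ ker ≤ Φ(P)
  have hfr : ∀ z (hzk : z ∈ σ.ker) (hzP : z ∈ (P : Subgroup H)),
      (⟨z, hzP⟩ : (P : Subgroup H)) ∈ frattini (P : Subgroup H) := by
    intro z hzk hzP
    apply Cfsg.Agent.Lib.Transfer.central_mem_frattini_of_mem_commutator P hzP (hcentral z hzk)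
    rw [hH]; trivial
  let Q : Sylow p G := P.mapSurjective hσ
  have hQc : IsCyclic (Q : Subgroup G) := hcyc Q
  obtain ⟨g, hg⟩ := hQc.exists_generator
  obtain ⟨x, hxP, hxg⟩ : ∃ x ∈ (P : Subgroup H), σ x = (g : G) := g.2
  have hK : Subgroup.zpowers (⟨x, hxP⟩ : (P : Subgroup H)) ⊔ frattini (P : Subgroup H) = ⊤ := by
    rw [eq_top_iff]
    rintro ⟨y, hy⟩ -
    have hσy : σ y ∈ (Q : Subgroup G) := ⟨y, hy, rfl⟩
    obtain ⟨k, hk⟩ := Subgroup.mem_zpowers_iff.1 (hg ⟨σ y, hσy⟩)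
    have hk' : (g : G) ^ k = σ y := congrArg Subtype.val hk
    have h1 : (⟨x, hxP⟩ : (P : Subgroup H)) ^ k ∈ Subgroup.zpowers (⟨x, hxP⟩ : (P : Subgroup H)) :=
      Subgroup.mem_zpowers_iff.2 ⟨k, rfl⟩
    have hker : (x ^ k)⁻¹ * y ∈ σ.ker := by
      rw [MonoidHom.mem_ker, map_mul, map_inv, map_zpow, hxg, hk', inv_mul_cancel]
    have hPmem : (x ^ k)⁻¹ * y ∈ (P : Subgroup H) :=
      mul_mem (inv_mem (zpow_mem hxP k)) hy
    have h2 := hfr _ hker hPmem
    have h3 : (⟨y, hy⟩ : (P : Subgroup H)) = (⟨x, hxP⟩ : (P : Subgroup H)) ^ k * ⟨_, hPmem⟩ := by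
      apply Subtype.ext
      simp
    rw [h3]
    exact mul_mem (Subgroup.mem_sup_left h1) (Subgroup.mem_sup_right h2)
  have htop := frattini_nongenerating hK
  have hPc : IsCyclic (P : Subgroup H) :=
    ⟨⟨⟨x, hxP⟩, fun y => by
      have : y ∈ Subgroup.zpowers (⟨x, hxP⟩ : (P : Subgroup H)) := by rw [htop]; trivial
      exact this⟩⟩
  haveI hcomm : IsMulCommutative (P : Subgroup H) := IsCyclic.isMulCommutative
  obtain ⟨z, hzo⟩ := exists_prime_orderOf_dvd_card' p hdvd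
  have hzo' : orderOf (z : H) = p := by
    rw [← hzo]; exact Subgroup.orderOf_coe z
  have hpz : IsPGroup p (Subgroup.zpowers (z : H)) :=
    IsPGroup.of_card (n := 1) (by rw [Nat.card_zpowers, hzo', pow_one])
  obtain ⟨R, hR⟩ := hpz.exists_le_sylow
  have hzR : (z : H) ∈ (R : Subgroup H) := hR (Subgroup.mem_zpowers _)
  obtain ⟨c, hc⟩ := MulAction.exists_smul_eq H R P
  have hzP : (z : H) ∈ (P : Subgroup H) := by
    have h1 := Cfsg.Agent.Lib.Transfer.conj_mem_smul_sylow (g := c) hzR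
    rw [hc] at h1
    have h2 : c * (z : H) * c⁻¹ = z := by
      rw [hcentral _ z.2 c]; group
    rwa [h2] at h1
  have h1 : (z : H) = 1 := by
    apply Cfsg.Agent.Lib.Transfer.eq_one_of_hall_of_central (P : Subgroup H) P.card_coprime_index hzP
    · rw [hH]; trivial
    · exact hcentral _ z.2
  rw [h1, orderOf_one] at hzo'
  exact hp'.one_lt.ne hzo'

end Cfsg.Agent.S0102
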