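import Cfsg.Statements.S0104
import Mathlib
import Cfsg.Agent.Lib.Transfer.Misc

set_option autoImplicit false
open Cfsg

namespace Cfsg.Agent.S0104

/-- A subgroup Z of a Sylow p-subgroup P that is normalized by N_G(P) is weakly closed in P exactly when it is normal in every Sylow p-subgroup containing it. -/
theorem result {G : Type*} [Group G] [Finite G] {p : ℕ} [Fact p.Prime] (P : Sylow p G) (Z : Subgroup G) (hZP : Z ≤ (P : Subgroup G)) (hZN : Subgroup.normalizer (P : Set G) ≤ Subgroup.normalizer (Z : Set G)) : Cfsg.IsWeaklyClosed Z P ↔ ∀ R : Sylow p G, Z ≤ (R : Subgroup G) → (R : Subgroup G) ≤ Subgroup.normalizer (Z : Set G) := by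
  have hPN : (P : Subgroup G) ≤ Subgroup.normalizer (Z : Set G) :=
    Subgroup.le_normalizer.trans hZN
  constructor
  · intro hW R hZR
    obtain ⟨g, hg⟩ := MulAction.exists_smul_eq G P R
    have hgN : g ∈ Subgroup.normalizer (Z : Set G) := by
      have h1 : Z.map (MulAut.conj g⁻¹).toMonoidHom ≤ (P : Subgroup G) := by
        rw [Cfsg.Agent.Lib.Transfer.map_conj_mono_iff]
        intro x hx
        have h2 : x ∈ (g • P : Sylow p G) := by rw [hg]; exact hZR hx
        have h3 := Cfsg.Agent.Lib.Transfer.mem_smul_sylow.1 h2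
        rw [inv_inv]
        exact h3
      have h2 := hW.2 g⁻¹ h1
      exact inv_mem_iff.1 (Cfsg.Agent.Lib.Transfer.map_conj_eq_iff.1 h2)
    intro x hx
    have h2 : x ∈ (g • P : Sylow p G) := by rw [hg]; exact hx
    have h3 := Cfsg.Agent.Lib.Transfer.mem_smul_sylow.1 h2
    have h4 : x = g * (g⁻¹ * x * g) * g⁻¹ := by group
    rw [h4]
    exact mul_mem (mul_mem hgN (hPN h3)) (inv_mem hgN)
  · intro h
    refine ⟨hZP, fun g hg => ?_⟩
    -- Z ≤ g⁻¹ • P
    have hZR : Z ≤ ((g⁻¹ • P : Sylow p G) : Subgroup G) := by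
      intro x hx
      apply Cfsg.Agent.Lib.Transfer.mem_smul_sylow.2
      have := hg ⟨x, hx, rfl⟩
      rw [inv_inv]
      exact this
    have hRN := h _ hZR
    obtain ⟨c, hc, hcP⟩ := Cfsg.Agent.Lib.Transfer.exists_mem_smul_eq_of_le P (g⁻¹ • P) _ hPN hRN
    have h1 : c * g⁻¹ ∈ Subgroup.normalizer ((P : Subgroup G) : Set G) := by
      rw [Cfsg.Agent.Lib.Transfer.mem_normalizer_sylow_iff, mul_smul]
      exact hcP
    have h2 : c * g⁻¹ ∈ Subgroup.normalizer (Z : Set G) := hZN h1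
    have h3 : g⁻¹ ∈ Subgroup.normalizer (Z : Set G) := by
      have : g⁻¹ = c⁻¹ * (c * g⁻¹) := by group
      rw [this]
      exact mul_mem (inv_mem hc) h2
    exact Cfsg.Agent.Lib.Transfer.map_conj_eq_iff.2 (inv_mem_iff.1 h3)

end Cfsg.Agent.S0104
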