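import Cfsg.Statements.S0105
import Mathlib
import Cfsg.Agent.Lib.Transfer.Misc

set_option autoImplicit false
open Cfsg

namespace Cfsg.Agent.S0105

/-- With an abelian Sylow p-subgroup P, some quotient of G is isomorphic to the part of P central in N_G(P). -/
theorem result {G : Type*} [Group G] [Finite G] {p : ℕ} [Fact p.Prime] (P : Sylow p G) (hP : IsMulCommutative P) : ∃ (N : Subgroup G) (hN : N.Normal), Nonempty (G ⧸ N ≃* ((P : Subgroup G) ⊓ Subgroup.centralizer (Subgroup.normalizer (P : Set G) : Set G) : Subgroup G)) := by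
  classical
  haveI hP' : IsMulCommutative (P : Subgroup G) := hP
  set N : Subgroup G := Subgroup.normalizer ((P : Subgroup G) : Set G) with hN
  have hPN : (P : Subgroup G) ≤ N := Subgroup.le_normalizer
  let A : Subgroup N := (P : Subgroup G).subgroupOf N
  have hAS : A = ((P.subtype hPN : Sylow p N) : Subgroup N) := rfl
  haveI hAn : A.Normal := Subgroup.normal_in_normalizer
  haveI hAc : IsMulCommutative A := by
    refine ⟨⟨fun a b => ?_⟩⟩
    apply Subtype.ext
    apply Subtype.ext
    have := hP'.is_comm.comm (⟨(a : N), a.2⟩ : (P : Subgroup G)) ⟨(b : N), b.2⟩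
    have h := congrArg (Subtype.val : ↥(P : Subgroup G) → G) this
    exact h
  have hHall : Nat.Coprime (Nat.card A) A.index := (P.subtype hPN).card_coprime_index
  have hsup := Cfsg.Agent.Lib.Transfer.abelian_normal_hall_sup A hHall
  -- decomposition of elements of `P`
  have hdec : ∀ x ∈ (P : Subgroup G), ∃ a ∈ ⁅(P : Subgroup G), N⁆, ∃ c ∈ (P : Subgroup G) ⊓ Subgroup.centralizer (N : Set G),
      x = a * c := by
    intro x hx
    have hx' : (⟨x, hPN hx⟩ : N) ∈ A := hx
    rw [← hsup] at hx'
    haveI : (Subgroup.center N ⊓ A).Normal := inferInstance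
    obtain ⟨a, ha, c, hc, hac⟩ := Subgroup.mem_sup_of_normal_right.1 hx'
    refine ⟨(a : G), ?_, (c : G), ?_, ?_⟩
    · have h1 : (a : G) ∈ (⁅A, (⊤ : Subgroup N)⁆).map N.subtype := ⟨a, ha, rfl⟩
      rw [Subgroup.map_commutator] at h1
      have h2 : A.map N.subtype = (P : Subgroup G) := Subgroup.map_subgroupOf_eq_of_le hPN
      have h3 : (⊤ : Subgroup N).map N.subtype = N := by
        rw [← MonoidHom.range_eq_map, Subgroup.range_subtype]
      rwa [h2, h3] at h1
    · obtain ⟨hc1, hc2⟩ := Subgroup.mem_inf.1 hc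
      refine Subgroup.mem_inf.2 ⟨hc2, ?_⟩
      rw [Subgroup.mem_centralizer_iff]
      intro n hn
      have := (Subgroup.mem_center_iff.1 hc1) ⟨n, hn⟩
      exact congrArg Subtype.val this
    · exact (congrArg Subtype.val hac).symm
  have hinf : ∀ c ∈ (P : Subgroup G) ⊓ Subgroup.centralizer (N : Set G), c ∈ ⁅(P : Subgroup G), N⁆ → c = 1 := by
    intro c hc hc2
    obtain ⟨hcP, hcN⟩ := Subgroup.mem_inf.1 hc
    have h1 : c ∈ (commutator N).map N.subtype := by
      rw [commutator_def, Subgroup.map_commutator]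
      have h3 : (⊤ : Subgroup N).map N.subtype = N := by
        rw [← MonoidHom.range_eq_map, Subgroup.range_subtype]
      rw [h3]
      exact Subgroup.commutator_mono hPN le_rfl hc2
    obtain ⟨c', hc', rfl⟩ := h1
    have hc'A : c' ∈ A := hcP
    have := Cfsg.Agent.Lib.Transfer.eq_one_of_hall_of_central A hHall hc'A hc' (fun y => by
      apply Subtype.ext
      exact (Subgroup.mem_centralizer_iff.1 hcN (y : G) y.2))
    simp [this]
  -- the focal subgroup
  have hfoc : (P : Subgroup G).focalSubgroup = ⁅(P : Subgroup G), N⁆ := by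
    apply le_antisymm
    · apply Cfsg.Agent.Lib.Transfer.focalSubgroup_le_commutator_of_control
      intro x hx u hu
      exact Cfsg.Agent.Lib.Transfer.exists_normalizer_conj_of_abelian P hx u hu
    · rw [Subgroup.commutator_le]
      intro x hx n hn
      apply Subgroup.subset_closure
      refine ⟨?_, x, hx, n, rfl⟩
      rw [commutatorElement_def]
      have h0 : x * n * x⁻¹ * n⁻¹ = x * (n * x⁻¹ * n⁻¹) := by group
      rw [h0]
      exact mul_mem hx ((Subgroup.mem_normalizer_iff.mp hn _).1 (inv_mem hx))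
  let f : ((P : Subgroup G) ⊓ Subgroup.centralizer (N : Set G) : Subgroup G) →*
      ((P : Subgroup G) ⧸ (P : Subgroup G).focalSubgroupOf) :=
    (QuotientGroup.mk' _).comp (Subgroup.inclusion inf_le_left)
  have hmem : ∀ x : (P : Subgroup G), x ∈ (P : Subgroup G).focalSubgroupOf ↔ (x : G) ∈ ⁅(P : Subgroup G), N⁆ := by
    intro x
    rw [← hfoc]
    rfl
  have hf : Function.Bijective f := by
    constructor
    · rw [injective_iff_map_eq_one]
      intro c hc
      have h1 : Subgroup.inclusion inf_le_left c ∈ (P : Subgroup G).focalSubgroupOf :=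
        (QuotientGroup.eq_one_iff _).1 hc
      rw [hmem] at h1
      apply Subtype.ext
      exact hinf _ c.2 h1
    · intro y
      obtain ⟨x, rfl⟩ := QuotientGroup.mk'_surjective _ y
      obtain ⟨a, ha, c, hc, hx⟩ := hdec x x.2
      refine ⟨⟨c, hc⟩, ?_⟩
      show QuotientGroup.mk' _ _ = QuotientGroup.mk' _ _
      rw [QuotientGroup.mk'_eq_mk']
      have hcP : c ∈ (P : Subgroup G) := (Subgroup.mem_inf.1 hc).1
      have haP : a ∈ (P : Subgroup G) := by
        have : a = x * c⁻¹ := by rw [hx]; group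
        rw [this]; exact mul_mem x.2 (inv_mem hcP)
      refine ⟨⟨a, haP⟩, (hmem _).2 ha, ?_⟩
      apply Subtype.ext
      have h := congrArg (Subtype.val : ↥(P : Subgroup G) → G) (hP'.is_comm.comm (⟨c, hcP⟩ : (P : Subgroup G)) ⟨a, haP⟩)
      change c * a = (x : G)
      rw [hx]
      exact h
  exact ⟨_, inferInstance, ⟨(Subgroup.transferFocal.quotientKerMulEquivQuotientFocalSubroupOf P).trans (MulEquiv.ofBijective f hf).symm⟩⟩

end Cfsg.Agent.S0105
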