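import Cfsg.Statements.S0107
import Mathlib
import Cfsg.Agent.S0111

set_option autoImplicit false
open Cfsg

namespace Cfsg.Agent.S0107

theorem eq_of_orderOf_two_of_cyclic {C : Type*} [Group C] [Finite C] [IsCyclic C] (a b : C)
    (ha : orderOf a = 2) (hb : orderOf b = 2) : a = b := by
  classical
  letI : Fintype C := Fintype.ofFinite C
  have hd : 2 ∣ Fintype.card C := by
    rw [← ha]; exact orderOf_dvd_card
  have h1 := IsCyclic.card_orderOf_eq_totient (α := C) hd
  rw [Nat.totient_prime Nat.prime_two] at h1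
  have h2 : (Finset.univ.filter (fun x : C => orderOf x = 2)).card ≤ 1 := by
    rw [h1]
  rw [Finset.card_le_one] at h2
  exact h2 a (by simpa using ha) b (by simpa using hb)

theorem no_index_two {G : Type*} [Group G] [Finite G] (hO : Cfsg.pResidual 2 G = ⊤)
    (M : Subgroup G) (hM : M.Normal) (hi : M.index = 2) : False := by
  have h1 : IsPGroup 2 (G ⧸ M) :=
    Cfsg.Agent.Lib.Transfer.isPGroup_quotient_of_index (k := 1) (by rw [hi, pow_one])
  have h2 := Cfsg.Agent.Lib.Transfer.pResidual_le_of_isPGroup h1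
  rw [hO, top_le_iff] at h2
  rw [h2, Subgroup.index_top] at hi
  omega

/-- If `Q` has index 2 in a Sylow 2-subgroup and has a unique involution, and there is no
normal subgroup of index 2, all involutions are conjugate. -/
theorem involutions_conj {G : Type*} [Group G] [Finite G] (T : Sylow 2 G) (Q : Subgroup G)
    (hQP : Q ≤ (T : Subgroup G)) (hQi : Q.relIndex (T : Subgroup G) = 2)
    (huniq : ∀ a ∈ Q, ∀ b ∈ Q, orderOf a = 2 → orderOf b = 2 → a = b)
    (hO : Cfsg.pResidual 2 G = ⊤) (x y : G) (hx : orderOf x = 2) (hy : orderOf y = 2) :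
    ∃ g : G, g * x * g⁻¹ = y := by
  have key : ∀ x : G, orderOf x = 2 → ∃ g : G, g * x * g⁻¹ ∈ Q := by
    intro x hx
    have hpz : IsPGroup 2 (Subgroup.zpowers x) :=
      IsPGroup.of_card (n := 1) (by rw [Nat.card_zpowers, hx, pow_one])
    obtain ⟨R, hR⟩ := hpz.exists_le_sylow
    have hxR : x ∈ (R : Subgroup G) := hR (Subgroup.mem_zpowers _)
    obtain ⟨c, hc⟩ := MulAction.exists_smul_eq G R T
    have h1 := Cfsg.Agent.Lib.Transfer.conj_mem_smul_sylow (g := c) hxR
    rw [hc] at h1
    have hord : orderOf (c * x * c⁻¹) = 2 := by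
      rw [Cfsg.Agent.Lib.Transfer.orderOf_conj_eq, hx]
    by_cases hQ : c * x * c⁻¹ ∈ Q
    · exact ⟨c, hQ⟩
    · rcases Cfsg.Agent.S0111.result T Q hQP hQi _ hord h1 hQ with ⟨M, hM, hi, -⟩ | ⟨g, hg⟩
      · exact (no_index_two hO M hM hi).elim
      · refine ⟨g * c, ?_⟩
        have : g * c * x * (g * c)⁻¹ = g * (c * x * c⁻¹) * g⁻¹ := by group
        rwa [this]
  obtain ⟨g, hg⟩ := key x hx
  obtain ⟨k, hk⟩ := key y hy
  have h1 := huniq _ hg _ hk (by rw [Cfsg.Agent.Lib.Transfer.orderOf_conj_eq, hx])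
    (by rw [Cfsg.Agent.Lib.Transfer.orderOf_conj_eq, hy])
  refine ⟨k⁻¹ * g, ?_⟩
  calc k⁻¹ * g * x * (k⁻¹ * g)⁻¹ = k⁻¹ * (g * x * g⁻¹) * k := by group
    _ = k⁻¹ * (k * y * k⁻¹) * k := by rw [h1]
    _ = y := by group

/-- A finite group with no nontrivial 2-group quotient and dihedral Sylow 2-subgroups of order at least 8 has a single class of involutions. -/
theorem result {G : Type*} [Group G] [Finite G] (T : Sylow 2 G) (n : ℕ) (hn : 2 ≤ n) (hT : Nonempty ((T : Subgroup G) ≃* DihedralGroup (2 ^ n))) (hO : Cfsg.pResidual 2 G = ⊤) (x y : G) (hx : orderOf x = 2) (hy : orderOf y = 2) : ∃ g : G, g * x * g⁻¹ = y := by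
  obtain ⟨e⟩ := hT
  haveI : NeZero (2 ^ n) := ⟨by positivity⟩
  let D := DihedralGroup (2 ^ n)
  let R : Subgroup (DihedralGroup (2 ^ n)) := Subgroup.zpowers (DihedralGroup.r 1)
  let f : (T : Subgroup G) →* G := (T : Subgroup G).subtype
  let Q' : Subgroup (T : Subgroup G) := R.map (e.symm : DihedralGroup (2 ^ n) →* (T : Subgroup G))
  let Q : Subgroup G := Q'.map f
  have hRc : Nat.card R = 2 ^ n := by
    rw [Nat.card_zpowers, DihedralGroup.orderOf_r_one]
  have hRi : R.index = 2 := by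
    have h1 := R.card_mul_index
    rw [hRc, DihedralGroup.nat_card] at h1
    have h2 : 0 < 2 ^ n := by positivity
    nlinarith
  apply involutions_conj T Q (Subgroup.map_subtype_le _) _ _ hO x y hx hy
  · show (Q.subgroupOf (T : Subgroup G)).index = 2
    have h0 : Q.subgroupOf (T : Subgroup G) = Q' :=
      Subgroup.comap_map_eq_self_of_injective Subtype.val_injective Q'
    rw [h0]
    show (Subgroup.map (e.symm : DihedralGroup (2 ^ n) →* (T : Subgroup G)) R).index = 2
    rw [Subgroup.index_map_equiv, hRi]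
  · rintro _ ⟨_, ⟨a, ha, rfl⟩, rfl⟩ _ ⟨_, ⟨b, hb, rfl⟩, rfl⟩ hoa hob
    have hinj : Function.Injective (fun w : DihedralGroup (2 ^ n) => f (e.symm w)) :=
      (Subtype.val_injective).comp e.symm.injective
    have hoa' : orderOf a = 2 := by
      rw [← orderOf_injective (f.comp (e.symm : DihedralGroup (2 ^ n) →* (T : Subgroup G))) hinj a]
      exact hoa
    have hob' : orderOf b = 2 := by
      rw [← orderOf_injective (f.comp (e.symm : DihedralGroup (2 ^ n) →* (T : Subgroup G))) hinj b]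
      exact hob
    have h1 := eq_of_orderOf_two_of_cyclic (⟨a, ha⟩ : R) ⟨b, hb⟩ (by rw [Subgroup.orderOf_mk]; exact hoa')
      (by rw [Subgroup.orderOf_mk]; exact hob')
    have h2 : a = b := congrArg Subtype.val h1
    rw [h2]

end Cfsg.Agent.S0107
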