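import Cfsg.Statements.S0109
import Mathlib
import Cfsg.Agent.Lib.PLocal.ThompsonFact
import Cfsg.Agent.Lib.Char.PBlock
import Cfsg.Agent.Lib.Struct.PLen

set_option autoImplicit false
open Cfsg

namespace Cfsg.Agent.S0109

/-- The Thompson factorization Theorem for solvable groups states that, with p odd (and abelian Sylow 2-subgroups when p = 3) and no nontrivial normal subgroup of order prime to p, every element of G is a product of an element normalizing J(P) and an element centralizing the elements of order dividing p in the centre of P. -/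
theorem result {G : Type*} [Group G] [Finite G] {p : ℕ} [Fact p.Prime] (hp : p ≠ 2) (hs : Group.IsSolvable G) (h3 : p = 3 → ∀ T : Sylow 2 G, IsMulCommutative T) (hF : ∀ N : Subgroup G, N.Normal → Nat.Coprime (Nat.card N) p → N = ⊥) (P : Sylow p G) (g : G) : ∃ a ∈ Subgroup.normalizer (Cfsg.thompsonSubgroupOf p (P : Subgroup G) : Set G), ∃ c ∈ Subgroup.centralizer {x : G | x ∈ (P : Subgroup G) ∧ (∀ y ∈ (P : Subgroup G), x * y = y * x) ∧ x ^ p = 1}, g = a * c := by
  classical
  have hpS : Cfsg.IsPSolvable p G := Cfsg.Agent.Lib.Struct.isPSolvable_of_isSolvable p _ G rfl hs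
  have hO : Cfsg.pPrimeCore p G = ⊥ := hF _ (Cfsg.Agent.Lib.Basic.pPrimeCore_normal p) (Cfsg.Agent.Lib.Basic.pPrimeCore_coprime p)
  have hc := Cfsg.Agent.Lib.Char.centralizer_pCore_le_of_isPSolvable hpS hO
  have hst : Cfsg.IsActionPStable p G := by
    by_cases h : p = 3
    · exact Cfsg.Agent.Lib.PLocal.isActionPStable_of_class (Cfsg.Agent.Lib.PLocal.ab2Class hp)
        (Cfsg.Agent.Lib.PLocal.Ab2.of_sylow (h3 h))
    · exact Cfsg.Agent.Lib.PLocal.isActionPStable_of_class (Cfsg.Agent.Lib.PLocal.ps3Class hp)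
        ⟨hpS, fun h' => absurd h' h⟩
  obtain ⟨c, hc', n, hn, e⟩ := Cfsg.Agent.Lib.PLocal.thompson_fact_of_stable hO hc hst.1 P g⁻¹
  refine ⟨n⁻¹, inv_mem hn, c⁻¹, ?_, ?_⟩
  · refine inv_mem (Subgroup.centralizer_le ?_ hc')
    rintro x ⟨hxP, hx1, hx2⟩
    refine Subgroup.subset_closure ⟨⟨hxP, ?_⟩, hx2⟩
    refine Subgroup.mem_centralizer_iff.mpr ?_
    intro y hy
    exact (hx1 y hy).symm
  · have : g = (g⁻¹)⁻¹ := by simp
    rw [this, e, mul_inv_rev]

end Cfsg.Agent.S0109
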