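import Cfsg.Statements.S0110
import Mathlib
import Cfsg.Agent.Lib.Transfer.Extra

set_option autoImplicit false
open Cfsg

namespace Cfsg.Agent.S0110

/-- In a p-group G, an extraspecial subgroup E with [G, E] ≤ Z(E) satisfies G = E C_G(E). -/
theorem result {G : Type*} [Group G] [Finite G] {p : ℕ} [Fact p.Prime] (hG : IsPGroup p G) (E : Subgroup G) (hE : Cfsg.IsExtraspecial p E) (h : ⁅(⊤ : Subgroup G), E⁆ ≤ E ⊓ Subgroup.centralizer (E : Set G)) : E ⊔ Subgroup.centralizer (E : Set G) = ⊤ := by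
  classical
  have hc := Cfsg.Agent.Lib.Transfer.extraspecial_commutator_mem hE
  have hsub : ∀ (g : G) (e : E), g * e * g⁻¹ * (e : G)⁻¹ ∈ E ⊓ Subgroup.centralizer (E : Set G) := by
    intro g e
    apply h
    exact Subgroup.commutator_mem_commutator (Subgroup.mem_top g) e.2
  rw [eq_top_iff]
  intro g _
  -- elements of `E ⊓ C(E)` are central in `E`
  have hcen : ∀ z (hz : z ∈ E ⊓ Subgroup.centralizer (E : Set G)), (⟨z, hz.1⟩ : E) ∈ Subgroup.center E := by
    intro z hz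
    rw [Subgroup.mem_center_iff]
    rintro ⟨w, hw⟩
    apply Subtype.ext
    exact (Subgroup.mem_centralizer_iff.mp hz.2) w hw
  let χ : E → E := fun e => ⟨g * e * g⁻¹ * (e : G)⁻¹, (hsub g e).1⟩
  have hχZ : ∀ w, χ w ∈ Subgroup.center E := fun w => hcen _ (hsub g w)
  have hχm : ∀ u v, χ (u * v) = χ u * χ v := by
    intro u v
    apply Subtype.ext
    have h2 := (Subgroup.mem_centralizer_iff.mp (hsub g v).2) u u.2
    show g * ((u : G) * v) * g⁻¹ * ((u : G) * v)⁻¹ = (g * u * g⁻¹ * (u : G)⁻¹) * (g * v * g⁻¹ * (v : G)⁻¹)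
    calc g * ((u : G) * v) * g⁻¹ * ((u : G) * v)⁻¹
        = (g * u * g⁻¹ * (u : G)⁻¹) * ((u : G) * (g * v * g⁻¹ * (v : G)⁻¹) * (u : G)⁻¹) := by group
      _ = _ := by rw [h2]; group
  have hχ1 : χ 1 = 1 := by
    apply Subtype.ext
    show g * ((1 : E) : G) * g⁻¹ * ((1 : E) : G)⁻¹ = 1
    simp
  have hχz : ∀ z ∈ Subgroup.center E, χ z = 1 := by
    intro z hz
    rw [← hE.1.2.2] at hz
    rw [_root_.commutator_def] at hz
    induction hz using Subgroup.closure_induction with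
    | mem x hx =>
      obtain ⟨a, -, b, -, rfl⟩ := hx
      have hinv : ∀ u, χ u⁻¹ = (χ u)⁻¹ := by
        intro u
        have := hχm u u⁻¹
        rw [mul_inv_cancel, hχ1] at this
        exact eq_inv_of_mul_eq_one_right this.symm
      rw [commutatorElement_def, hχm, hχm, hχm, hinv, hinv]
      have := (Subgroup.mem_center_iff.mp (hχZ b)) (χ a)
      rw [this]
      group
    | one => exact hχ1
    | mul x y _ _ hx hy => rw [hχm, hx, hy, one_mul]
    | inv x _ hx =>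
      have := hχm x x⁻¹
      rw [mul_inv_cancel, hχ1, hx, one_mul] at this
      exact this.symm
  obtain ⟨e₀, he₀⟩ := Cfsg.Agent.Lib.Transfer.inner_of_class_two_center_prime hE.2 hc χ hχm hχZ hχz
  have hmem : (e₀ : G)⁻¹ * g ∈ Subgroup.centralizer (E : Set G) := by
    rw [Subgroup.mem_centralizer_iff]
    intro w hw
    have h3 := congrArg Subtype.val (he₀ ⟨w, hw⟩)
    have h4 : g * w * g⁻¹ * w⁻¹ = e₀ * w * (e₀ : G)⁻¹ * w⁻¹ := h3
    have h5 : g * w * g⁻¹ = e₀ * w * (e₀ : G)⁻¹ := mul_right_cancel h4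
    have h6 : g * w = e₀ * w * (e₀ : G)⁻¹ * g := by rw [← h5]; group
    calc w * ((e₀ : G)⁻¹ * g) = (e₀ : G)⁻¹ * (e₀ * w * (e₀ : G)⁻¹ * g) := by group
      _ = (e₀ : G)⁻¹ * (g * w) := by rw [h6]
      _ = _ := by group
  have : g = e₀ * ((e₀ : G)⁻¹ * g) := by group
  rw [this]
  exact Subgroup.mul_mem_sup e₀.2 hmem

end Cfsg.Agent.S0110
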