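import Cfsg.Statements.S0115
import Mathlib
import Cfsg.Agent.Lib.Transfer.MaxClass2

set_option autoImplicit false
open Cfsg

namespace Cfsg.Agent.S0115

/-- A 2-group of order 2^n, n ≥ 3, is of maximal class exactly when its commutator quotient is a Klein four-group. -/
theorem result {X : Type*} [Group X] [Finite X] (n : ℕ) (hn : 3 ≤ n) (hX : Nat.card X = 2 ^ n) : Group.nilpotencyClass X = n - 1 ↔ IsKleinFour (X ⧸ commutator X) := by
  constructor
  · exact Cfsg.Agent.Lib.Transfer.isKleinFour_of_maximal_class hn hX
  · intro h
    apply Cfsg.Agent.Lib.Transfer.class_of_index_commutator n X hn hX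
    have := h.card_four
    rw [← this]
    rfl

end Cfsg.Agent.S0115
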