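import Cfsg.Statements.S0125
import Mathlib
import Cfsg.Agent.Lib.Transfer.Misc
import Cfsg.Agent.Lib.LocalEven.PReduced

set_option autoImplicit false
open Cfsg

namespace Cfsg.Agent.S0125

/-- The centralizer of a self-centralizing normal subgroup A of a Sylow p-subgroup is the direct product of A with a normal p'-subgroup. -/
theorem result {G : Type*} [Group G] [Finite G] {p : ℕ} [Fact p.Prime] (R : Sylow p G) (A : Subgroup G) (hAR : A ≤ (R : Subgroup G)) (hAn : (R : Subgroup G) ≤ Subgroup.normalizer (A : Set G)) (hC : (R : Subgroup G) ⊓ Subgroup.centralizer (A : Set G) = A) : ∃ H : Subgroup G, H ≤ Subgroup.centralizer (A : Set G) ∧ Nat.Coprime (Nat.card H) p ∧ Subgroup.centralizer (A : Set G) ≤ Subgroup.normalizer (H : Set G) ∧ H ⊓ A = ⊥ ∧ H ⊔ A = Subgroup.centralizer (A : Set G) := by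
  classical
  set C : Subgroup G := Subgroup.centralizer (A : Set G) with hCdef
  have hRC : (R : Subgroup G) ≤ Subgroup.normalizer (C : Set G) := by
    intro r hr
    rw [Subgroup.mem_normalizer_iff]
    have hrA := hAn hr
    rw [Subgroup.mem_normalizer_iff] at hrA
    intro x
    have hx : ∀ y : G, (∀ a ∈ A, a * y = y * a) ↔ ∀ a ∈ A, a * (r * y * r⁻¹) = (r * y * r⁻¹) * a := by
      intro y
      constructor
      · intro h a ha
        have h1 : r⁻¹ * a * r ∈ A := by
          rw [hrA]
          have : r * (r⁻¹ * a * r) * r⁻¹ = a := by group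
          rwa [this]
        have h2 := h _ h1
        calc a * (r * y * r⁻¹) = r * ((r⁻¹ * a * r) * y) * r⁻¹ := by group
          _ = r * (y * (r⁻¹ * a * r)) * r⁻¹ := by rw [h2]
          _ = _ := by group
      · intro h a ha
        have h1 : r * a * r⁻¹ ∈ A := (hrA a).1 ha
        have h2 := h _ h1
        have e1 : r * a * r⁻¹ * (r * y * r⁻¹) = r * (a * y) * r⁻¹ := by group
        have e2 : r * y * r⁻¹ * (r * a * r⁻¹) = r * (y * a) * r⁻¹ := by group
        rw [e1, e2] at h2
        have := mul_left_cancel (mul_right_cancel h2)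
        exact this
    exact hx x
  obtain ⟨S, hS⟩ := Cfsg.Agent.Lib.LocalEven.exists_sylow_inf_of_normalizes R hRC
  rw [hC] at hS
  have hN : Subgroup.normalizer ((S : Subgroup C) : Set C) ≤ Subgroup.centralizer ((S : Subgroup C) : Set C) := by
    intro n _
    rw [Subgroup.mem_centralizer_iff]
    intro s hs
    rw [hS] at hs
    apply Subtype.ext
    have := Subgroup.mem_centralizer_iff.1 n.2 (s : G) hs
    exact this
  obtain ⟨N, hnN, hcomp⟩ : ∃ N : Subgroup C, N.Normal ∧ N.IsComplement' (S : Subgroup C) :=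
    ⟨_, inferInstance, MonoidHom.ker_transferSylow_isComplement' S hN⟩
  have hcop := Cfsg.Agent.Lib.Transfer.card_coprime_of_isComplement' S hcomp
  have hAC : A ≤ C := by
    rw [← hC]; exact inf_le_right
  refine ⟨N.map C.subtype, Subgroup.map_subtype_le _, ?_, ?_, ?_, ?_⟩
  · rw [Nat.card_congr (Subgroup.equivMapOfInjective N C.subtype C.subtype_injective).toEquiv.symm]
    exact hcop
  · intro c hc
    rw [Subgroup.mem_normalizer_iff]
    intro h
    constructor
    · rintro ⟨n, hn, rfl⟩
      exact ⟨(⟨c, hc⟩ : C) * n * (⟨c, hc⟩ : C)⁻¹, hnN.conj_mem n hn _, rfl⟩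
    · rintro ⟨n, hn, hn'⟩
      refine ⟨(⟨c, hc⟩ : C)⁻¹ * n * (⟨c, hc⟩ : C), ?_, ?_⟩
      · have := hnN.conj_mem n hn (⟨c, hc⟩ : C)⁻¹
        rwa [inv_inv] at this
      · have h2 : c⁻¹ * (n : G) * c = h := by
          have h3 : (n : G) = c * h * c⁻¹ := hn'
          rw [h3]; group
        exact h2
  · rw [eq_bot_iff]
    intro x hx
    obtain ⟨⟨n, hn, rfl⟩, hx2⟩ := Subgroup.mem_inf.1 hx
    have hs : n ∈ (S : Subgroup C) := by
      rw [hS]
      exact hx2
    have := Subgroup.disjoint_def.1 hcomp.disjoint hn hs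
    rw [this]
    exact one_mem _
  · have h1 : (S : Subgroup C).map C.subtype = A := by
      rw [hS]
      exact Subgroup.map_subgroupOf_eq_of_le hAC
    rw [← h1, ← Subgroup.map_sup, hcomp.sup_eq_top, ← MonoidHom.range_eq_map, Subgroup.range_subtype]

end Cfsg.Agent.S0125
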