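import Cfsg.Statements.S0131
import Mathlib
import Cfsg.Agent.Lib.Transfer.Focal

set_option autoImplicit false
open Cfsg

namespace Cfsg.Agent.S0131

/-- P/P' has a normal complement in G exactly when the focal subgroup G' ∩ P is as small as possible, namely P'. -/
theorem result {G : Type*} [Group G] [Finite G] {p : ℕ} [Fact p.Prime] (P : Sylow p G) : (∃ N : Subgroup G, N.Normal ∧ N ⊓ (P : Subgroup G) = ⁅(P : Subgroup G), (P : Subgroup G)⁆ ∧ N ⊔ (P : Subgroup G) = ⊤) ↔ commutator G ⊓ (P : Subgroup G) = ⁅(P : Subgroup G), (P : Subgroup G)⁆ := by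
  constructor
  · rintro ⟨N, hn, h1, h2⟩
    apply le_antisymm
    · rw [← h1]
      apply inf_le_inf_right
      -- G' ≤ N
      rw [commutator_def, Subgroup.commutator_le]
      intro x _ y _
      have hx : x ∈ (N ⊔ (P : Subgroup G)) := by rw [h2]; trivial
      have hy : y ∈ (N ⊔ (P : Subgroup G)) := by rw [h2]; trivial
      rw [← SetLike.mem_coe, Subgroup.normal_mul] at hx hy
      obtain ⟨n, hn', u, hu, rfl⟩ := hx
      obtain ⟨m, hm', v, hv, rfl⟩ := hy
      have hcomm : u * v * u⁻¹ * v⁻¹ ∈ N := by
        have := Subgroup.commutator_mem_commutator hu hv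
        rw [← h1, commutatorElement_def] at this
        exact this.1
      rw [commutatorElement_def, ← QuotientGroup.eq_one_iff]
      rw [← QuotientGroup.eq_one_iff] at hcomm
      simp only [QuotientGroup.mk_mul, QuotientGroup.mk_inv] at hcomm ⊢
      have hn1 : ((n : G) : G ⧸ N) = 1 := (QuotientGroup.eq_one_iff _).mpr hn'
      have hm1 : ((m : G) : G ⧸ N) = 1 := (QuotientGroup.eq_one_iff _).mpr hm'
      rw [hn1, hm1]
      simpa using hcomm
    · refine le_inf (Subgroup.commutator_mono le_top le_top) ?_
      rw [Subgroup.commutator_le]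
      intro x hx y hy
      rw [commutatorElement_def]
      exact mul_mem (mul_mem (mul_mem hx hy) (inv_mem hx)) (inv_mem hy)
  · intro h
    have hfoc := Subgroup.commutator_inf_eq_focalSubgroup P
    refine ⟨(P : Subgroup G).transferFocal.ker, inferInstance, ?_, ?_⟩
    · rw [Subgroup.ker_transferFocal_inf_eq_focalSubgroup P, ← hfoc, h]
    · rw [eq_top_iff]
      intro g _
      obtain ⟨x, hx⟩ := Subgroup.focalSubgroupOf.pow_index_surjective P ((P : Subgroup G).transferFocal g)
      obtain ⟨k, rfl⟩ := QuotientGroup.mk'_surjective _ x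
      have h1 : (P : Subgroup G).transferFocal (k : G) = (P : Subgroup G).transferFocal g := by
        rw [(P : Subgroup G).transferFocal_eq_pow k]
        exact hx
      have h2 : g * (k : G)⁻¹ ∈ (P : Subgroup G).transferFocal.ker := by
        rw [MonoidHom.mem_ker, map_mul, map_inv, h1, mul_inv_cancel]
      have h3 : g = (g * (k : G)⁻¹) * k := by group
      rw [h3]
      exact mul_mem (Subgroup.mem_sup_left h2) (Subgroup.mem_sup_right k.2)

end Cfsg.Agent.S0131
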