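import Cfsg.Statements.S0132
import Mathlib
import Cfsg.Agent.Lib.Transfer.Rank
import Cfsg.Agent.Lib.OddLocal.Fitting

set_option autoImplicit false
open Cfsg

namespace Cfsg.Agent.S0132

/-- A minimal non-p-nilpotent finite group is a minimal non-nilpotent group with a normal Sylow p-subgroup. -/
theorem result {G : Type*} [Group G] [Finite G] {p : ℕ} [Fact p.Prime] (h1 : ¬ Cfsg.HasNormalPComplement p G) (h2 : ∀ H : Subgroup G, H ≠ ⊤ → Cfsg.HasNormalPComplement p H) : (∀ H : Subgroup G, H ≠ ⊤ → Group.IsNilpotent H) ∧ ¬ Group.IsNilpotent G ∧ ∀ P : Sylow p G, (P : Subgroup G).Normal := by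
  classical
  have hp' : p.Prime := Fact.out
  rw [Cfsg.Agent.Lib.Transfer.hasNormalPComplement_iff_stable] at h1
  unfold Cfsg.Agent.Lib.Transfer.FrobeniusStable at h1
  push Not at h1
  obtain ⟨D, hD, g, hgN, hgc, hgC⟩ := h1
  -- the subgroup generated by `D` and `g` is everything
  have htop : D ⊔ Subgroup.zpowers g = ⊤ := by
    by_contra hne
    set K := D ⊔ Subgroup.zpowers g with hK
    have hgK : g ∈ K := Subgroup.mem_sup_right (Subgroup.mem_zpowers g)
    have hDK : D ≤ K := le_sup_left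
    have hst := Cfsg.Agent.Lib.Transfer.frobeniusStable_of_hasNormalPComplement (h2 K hne)
    have hD' : IsPGroup p (D.subgroupOf K) := by
      rintro ⟨⟨x, hxK⟩, hxD⟩
      obtain ⟨k, hk⟩ := hD ⟨x, hxD⟩
      refine ⟨k, ?_⟩
      apply Subtype.ext
      apply Subtype.ext
      simpa using congrArg Subtype.val hk
    have hgN' : (⟨g, hgK⟩ : K) ∈ Subgroup.normalizer ((D.subgroupOf K : Subgroup K) : Set K) := by
      rw [Subgroup.mem_normalizer_iff]
      rintro ⟨h, hh⟩
      have := (Subgroup.mem_normalizer_iff.mp hgN) h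
      simpa [Subgroup.mem_subgroupOf] using this
    have hc' : Nat.Coprime (orderOf (⟨g, hgK⟩ : K)) p := by
      rwa [Subgroup.orderOf_mk]
    have := hst _ hD' _ hgN' hc'
    apply hgC
    rw [Subgroup.mem_centralizer_iff] at this ⊢
    intro d hd
    have h3 := this ⟨d, hDK hd⟩ (by simpa [Subgroup.mem_subgroupOf] using hd)
    simpa using congrArg Subtype.val h3
  -- `D` is normal
  have hDn : D.Normal := by
    rw [← Subgroup.normalizer_eq_top_iff, eq_top_iff, ← htop]
    refine sup_le Subgroup.le_normalizer ?_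
    rwa [Subgroup.zpowers_le]
  -- the quotient by `D` is generated by the image of `g`
  have hform : ∀ u : G, ∃ d ∈ D, ∃ k : ℤ, u = d * g ^ k := by
    intro u
    have hu : u ∈ (↑(D ⊔ Subgroup.zpowers g) : Set G) := by rw [htop]; simp
    rw [Subgroup.normal_mul] at hu
    obtain ⟨d, hd, z, hz, rfl⟩ := Set.mem_mul.mp hu
    obtain ⟨k, rfl⟩ := Subgroup.mem_zpowers_iff.mp hz
    exact ⟨d, hd, k, rfl⟩
  let f : G →* G ⧸ D := QuotientGroup.mk' D
  have hfk : ∀ u : G, f u = 1 ↔ u ∈ D := fun u => QuotientGroup.eq_one_iff u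
  have hform' : ∀ u : G, ∃ k : ℤ, f u = f g ^ k := by
    intro u
    obtain ⟨d, hd, k, rfl⟩ := hform u
    exact ⟨k, by rw [map_mul, (hfk d).2 hd, one_mul, map_zpow]⟩
  have hcomm : ∀ u v : G, u * v * u⁻¹ * v⁻¹ ∈ D := by
    intro u v
    rw [← hfk]
    obtain ⟨k, hk⟩ := hform' u
    obtain ⟨l, hl⟩ := hform' v
    simp only [map_mul, map_inv, hk, hl]
    rw [show f g ^ k * f g ^ l = f g ^ l * f g ^ k from
      (Commute.refl (f g)).zpow_zpow k l]
    group
  have hpel : ∀ u : G, IsPGroup p (Subgroup.zpowers u) → u ∈ D := by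
    intro u hu
    obtain ⟨k, hk⟩ := hu ⟨u, Subgroup.mem_zpowers u⟩
    have hk' : u ^ p ^ k = 1 := by simpa using congrArg Subtype.val hk
    rw [← hfk]
    obtain ⟨m, hm⟩ := hform' u
    have h3 : f u ^ p ^ k = 1 := by rw [← map_pow, hk', map_one]
    have h4 : f u ^ orderOf g = 1 := by
      rw [hm, ← zpow_natCast, ← zpow_mul, mul_comm, zpow_mul, zpow_natCast, ← map_pow, pow_orderOf_eq_one,
        map_one, one_zpow]
    have h5 : (p ^ k).Coprime (orderOf g) := (Nat.Coprime.pow_right k hgc).symm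
    have h6 : orderOf (f u) = 1 := by
      exact Nat.eq_one_of_dvd_coprimes h5 (orderOf_dvd_of_pow_eq_one h3) (orderOf_dvd_of_pow_eq_one h4)
    exact orderOf_eq_one_iff.mp h6
  have hSyl : ∀ P : Sylow p G, (P : Subgroup G) = D := by
    intro P
    have hle : (P : Subgroup G) ≤ D := by
      intro u hu
      apply hpel
      apply P.isPGroup'.to_le
      rwa [Subgroup.zpowers_le]
    exact (P.is_maximal' hD hle).symm ▸ rfl
  refine ⟨?_, ?_, ?_⟩
  · intro H hH
    obtain ⟨S⟩ : Nonempty (Sylow p H) := inferInstance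
    obtain ⟨N, hNn, hNc⟩ := Cfsg.Agent.Lib.Transfer.exists_normal_isComplement'_of_hasNormalPComplement (h2 H hH) S
    let A : Subgroup H := D.subgroupOf H
    have hAn : A.Normal := inferInstance
    have hAp : IsPGroup p A := by
      rintro ⟨⟨x, hxK⟩, hxD⟩
      obtain ⟨k, hk⟩ := hD ⟨x, hxD⟩
      refine ⟨k, ?_⟩
      apply Subtype.ext
      apply Subtype.ext
      simpa using congrArg Subtype.val hk
    have hSA : (S : Subgroup H) ≤ A := by
      rintro ⟨x, hx⟩ hxS
      rw [Subgroup.mem_subgroupOf]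
      apply hpel
      rintro ⟨_, y, rfl⟩
      obtain ⟨k, hk⟩ := S.isPGroup' ⟨⟨x, hx⟩, hxS⟩
      refine ⟨k, ?_⟩
      apply Subtype.ext
      have h7 : x ^ p ^ k = 1 := by
        simpa using congrArg (fun z : S => ((z : H) : G)) hk
      simp only [Subgroup.coe_pow, SubgroupClass.coe_zpow, Subgroup.coe_one]
      rw [← zpow_natCast, ← zpow_mul, mul_comm, zpow_mul, zpow_natCast, h7, one_zpow]
    have hAS : A = S := (S.is_maximal' hAp hSA).symm ▸ rfl
    have hNcomm : ∀ u v : N, u * v = v * u := by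
      rintro ⟨u, hu⟩ ⟨v, hv⟩
      apply Subtype.ext
      have h8 : (u * v * u⁻¹ * v⁻¹ : H) ∈ N :=
        N.mul_mem (N.mul_mem (N.mul_mem hu hv) (N.inv_mem hu)) (N.inv_mem hv)
      have h9 : (u * v * u⁻¹ * v⁻¹ : H) ∈ A := by
        rw [Subgroup.mem_subgroupOf]
        simpa using hcomm u v
      have h10 : (u * v * u⁻¹ * v⁻¹ : H) = 1 := by
        rw [hAS] at h9
        exact Subgroup.disjoint_def.mp hNc.disjoint h8 h9
      have h11 : u * v = v * u := by
        calc u * v = (u * v * u⁻¹ * v⁻¹) * (v * u) := by group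
          _ = v * u := by rw [h10, one_mul]
      simpa using h11
    have hNnil : Group.IsNilpotent N := by
      letI : CommGroup N := { (inferInstance : Group N) with mul_comm := hNcomm }
      exact CommGroup.isNilpotent
    have hAnil : Group.IsNilpotent A := hAp.isNilpotent
    have hsup : Group.IsNilpotent ↥(A ⊔ N) :=
      Cfsg.Agent.Lib.OddLocal.isNilpotent_sup_of_normal hAn hNn hAnil hNnil
    have hAN : A ⊔ N = ⊤ := by
      rw [hAS, sup_comm]
      exact hNc.sup_eq_top
    rw [hAN] at hsup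
    exact (Group.isNilpotent_congr (Subgroup.topEquiv (G := H))).mp hsup
  · intro hnil
    apply hgC
    rw [Subgroup.mem_centralizer_iff]
    intro d hd
    have hd' : Nat.Coprime (orderOf d) (orderOf g) := by
      obtain ⟨k, hk⟩ := IsPGroup.iff_orderOf.mp hD ⟨d, hd⟩
      rw [Subgroup.orderOf_mk] at hk
      rw [hk]
      exact (Nat.Coprime.pow_right k hgc).symm
    exact Cfsg.Agent.Lib.OddLocal.commute_of_coprime_of_nilpotent d g hd'
  · intro P
    rw [hSyl P]
    exact hDn

end Cfsg.Agent.S0132
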