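import Cfsg.Statements.S0136
import Cfsg.Agent.Lib.Char.Basic
-- import your own Cfsg.Agent.* helpers here

set_option autoImplicit false
open Cfsg

namespace Cfsg.Agent.S0136

/-- Two elements of a finite group are conjugate if and only if no irreducible complex character separates them. -/
theorem result {G : Type*} [Group G] [Finite G] (g h : G) : IsConj g h ↔ ∀ χ : Cfsg.IrrCharacter G, (χ : G → ℂ) g = (χ : G → ℂ) h := by
  let _ := Fintype.ofFinite G
  constructor
  · intro hc χ
    exact Cfsg.Agent.Lib.Char.IsClassFunction.congr_isConj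
      (Cfsg.Agent.Lib.Char.IsCharacter.isClassFunction
        (Cfsg.Agent.Lib.Char.IsIrrCharacter.isCharacter χ.2)) hc
  · intro h'
    by_contra hc
    have h1 := Cfsg.Agent.Lib.Char.sum_irr_mul_conj_of_not_isConj hc
    have h2 := Cfsg.Agent.Lib.Char.sum_irr_mul_conj_of_isConj (IsConj.refl g)
    have h3 : ∑ χ : Cfsg.IrrCharacter G, (χ : G → ℂ) g * (starRingEnd ℂ) ((χ : G → ℂ) h) =
        ∑ χ : Cfsg.IrrCharacter G, (χ : G → ℂ) g * (starRingEnd ℂ) ((χ : G → ℂ) g) :=
      Finset.sum_congr rfl fun χ _ => by rw [h' χ]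
    rw [h3, h2] at h1
    have h4 : (Nat.card (Subgroup.centralizer ({g} : Set G)) : ℂ) ≠ 0 := by
      exact_mod_cast Nat.card_pos.ne'
    exact h4 h1

end Cfsg.Agent.S0136
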