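import Cfsg.Statements.S0155
import Cfsg.Agent.Lib.Char.Basic
-- import your own Cfsg.Agent.* helpers here

set_option autoImplicit false
open Cfsg

namespace Cfsg.Agent.S0155

/-- The character of the left regular representation of a finite group takes the value |G| at the identity and 0 at every other element. -/
theorem result {G : Type*} [Group G] [Fintype G] [DecidableEq G] (g : G) : (Representation.leftRegular ℂ G).character g = if g = 1 then (Nat.card G : ℂ) else 0 := by
  classical
  show LinearMap.trace ℂ _ _ = _
  rw [LinearMap.trace_eq_matrix_trace ℂ (MonoidAlgebra.basis G ℂ), Matrix.trace]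
  have h : ∀ x : G, (LinearMap.toMatrix (MonoidAlgebra.basis G ℂ) (MonoidAlgebra.basis G ℂ)
      ((Representation.leftRegular ℂ G) g)).diag x = if g = 1 then 1 else 0 := by
    intro x
    simp only [Matrix.diag_apply, LinearMap.toMatrix_apply, MonoidAlgebra.basis_apply,
      Representation.ofMulAction_single]
    have hb : (MonoidAlgebra.basis G ℂ).repr (MonoidAlgebra.single (g • x) (1 : ℂ)) x =
        (MonoidAlgebra.single (g • x) (1 : ℂ)).coeff x := rfl
    rw [hb, MonoidAlgebra.coeff_single, Finsupp.single_apply]
    simp
  simp only [h]
  by_cases hg : g = 1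
  · simp [hg, Nat.card_eq_fintype_card]
  · simp [hg]

end Cfsg.Agent.S0155
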