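import Cfsg.Statements.S0157
import Cfsg.Agent.Lib.Char.PermChar
-- import your own Cfsg.Agent.* helpers here

set_option autoImplicit false
open Cfsg

namespace Cfsg.Agent.S0157

/-- For a transitive action of a finite group on a finite set with at least two points: the action is 2-transitive if and only if the function sending g to (number of fixed points of g) − 1 is an irreducible character. -/
theorem result {G : Type*} [Group G] [Finite G] (X : Type*) [MulAction G X] [Finite X] [MulAction.IsPretransitive G X] (hX : 2 ≤ Nat.card X) : Cfsg.IsIrrCharacter G (fun g => (Nat.card (MulAction.fixedBy X g) : ℂ) - 1) ↔ MulAction.IsMultiplyPretransitive G X 2 := by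
  classical
  let _ : Fintype G := Fintype.ofFinite G
  have hne : Nontrivial X := Finite.one_lt_card_iff_nontrivial.mp (by omega)
  obtain ⟨a₀, b₀, hab₀⟩ := exists_pair_ne X
  set π : G → ℂ := fun g => (Nat.card (MulAction.fixedBy X g) : ℂ) with hπ
  let one : G → ℂ := fun _ => 1
  have hone : Cfsg.IsIrrCharacter G one := Cfsg.Agent.Lib.Char.isIrrCharacter_one
  have hπchar : Cfsg.IsCharacter G π := Cfsg.Agent.Lib.Char.isCharacter_permChar
  have hπclass := Cfsg.Agent.Lib.Char.IsCharacter.isClassFunction hπchar
  have honeclass := Cfsg.Agent.Lib.Char.IsCharacter.isClassFunction (Cfsg.Agent.Lib.Char.IsIrrCharacter.isCharacter hone)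
  have h11 : Cfsg.classInner one one = 1 := Cfsg.Agent.Lib.Char.classInner_irr_self hone
  have hπ1 : Cfsg.classInner π one = 1 := by
    have h := Cfsg.Agent.Lib.Char.classInner_permChar_one (G := G) (X := X)
    have horb : Nat.card (MulAction.orbitRel.Quotient G X) = 1 := by
      rw [Nat.card_eq_one_iff_unique]
      refine ⟨(MulAction.pretransitive_iff_subsingleton_quotient G X).mp inferInstance, ⟨Quotient.mk'' a₀⟩⟩
    rw [horb, Nat.cast_one] at h
    exact h
  have h1π : Cfsg.classInner one π = 1 := by
    have := Cfsg.Agent.Lib.Char.classInner_conj_symm one π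
    rw [this, hπ1, map_one]
  have hππ := Cfsg.Agent.Lib.Char.classInner_permChar_self (G := G) (X := X)
  have hχ : (fun g => (Nat.card (MulAction.fixedBy X g) : ℂ) - 1) = π - one := rfl
  rw [hχ]
  have hχχ : Cfsg.classInner (π - one) (π - one) = Cfsg.classInner π π - 1 := by
    rw [Cfsg.Agent.Lib.Char.classInner_sub_left, Cfsg.Agent.Lib.Char.classInner_sub_right,
      Cfsg.Agent.Lib.Char.classInner_sub_right, hπ1, h1π, h11]
    ring
  have hχclass : Cfsg.IsClassFunction G (π - one) := Cfsg.Agent.Lib.Char.IsClassFunction.sub hπclass honeclass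
  have hχchar : Cfsg.IsCharacter G (π - one) := by
    apply Cfsg.Agent.Lib.Char.isCharacter_of_classInner_nat hχclass
    intro ψ hψ
    by_cases h : ψ = one
    · refine ⟨0, ?_⟩
      rw [h, Cfsg.Agent.Lib.Char.classInner_sub_left, hπ1, h11]
      simp
    · obtain ⟨n, hn⟩ := Cfsg.Agent.Lib.Char.IsCharacter.classInner_irr_eq_nat hπchar hψ
      refine ⟨n, ?_⟩
      rw [Cfsg.Agent.Lib.Char.classInner_sub_left, hn, Cfsg.Agent.Lib.Char.classInner_irr_of_ne hone hψ (Ne.symm h), sub_zero]
  -- the rank
  have hmk : ∀ p q : X × X, (Quotient.mk'' p : MulAction.orbitRel.Quotient G (X × X)) = Quotient.mk'' q ↔ ∃ g : G, g • q = p := by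
    intro p q
    constructor
    · intro h
      have h2 := Quotient.exact' h
      rw [MulAction.orbitRel_apply] at h2
      obtain ⟨g, hg⟩ := h2
      exact ⟨g, hg⟩
    · rintro ⟨g, hg⟩
      apply Quotient.sound'
      rw [MulAction.orbitRel_apply]
      exact ⟨g, hg⟩
  have hrank : Nat.card (MulAction.orbitRel.Quotient G (X × X)) = 2 ↔ MulAction.IsMultiplyPretransitive G X 2 := by
    rw [MulAction.is_two_pretransitive_iff]
    constructor
    · intro h2
      rw [Nat.card_eq_two_iff] at h2
      obtain ⟨D, E, hDE, huniv⟩ := h2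
      intro a b c d hab hcd
      have hall : ∀ z : MulAction.orbitRel.Quotient G (X × X), z = D ∨ z = E := by
        intro z
        have : z ∈ ({D, E} : Set _) := by rw [huniv]; trivial
        simpa using this
      -- diagonal class
      have hdiag : ∀ p q : X, p ≠ q → (Quotient.mk'' (p, q) : MulAction.orbitRel.Quotient G (X × X)) ≠ Quotient.mk'' (a, a) := by
        intro p q hpq h
        obtain ⟨g, hg⟩ := (hmk _ _).mp h
        have h1 : g • a = p := congrArg Prod.fst hg
        have h2 : g • a = q := congrArg Prod.snd hg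
        exact hpq (h1.symm.trans h2)
      have h3 : (Quotient.mk'' (c, d) : MulAction.orbitRel.Quotient G (X × X)) = Quotient.mk'' (a, b) := by
        have h4 := hdiag a b hab
        have h5 := hdiag c d hcd
        rcases hall (Quotient.mk'' (a, a)) with h6 | h6 <;> rcases hall (Quotient.mk'' (a, b)) with h7 | h7 <;>
          rcases hall (Quotient.mk'' (c, d)) with h8 | h8
        all_goals first
          | (exfalso; rw [h6, h7] at h4; exact h4 rfl)
          | (exfalso; rw [h6, h8] at h5; exact h5 rfl)
          | (rw [h7, h8])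
      obtain ⟨g, hg⟩ := (hmk _ _).mp h3
      exact ⟨g, congrArg Prod.fst hg, congrArg Prod.snd hg⟩
    · intro h2
      rw [Nat.card_eq_two_iff]
      refine ⟨Quotient.mk'' (a₀, a₀), Quotient.mk'' (a₀, b₀), ?_, ?_⟩
      · intro h
        obtain ⟨g, hg⟩ := (hmk _ _).mp h
        have h1 : g • a₀ = a₀ := congrArg Prod.fst hg
        have h3 : g • b₀ = a₀ := congrArg Prod.snd hg
        exact hab₀ (MulAction.injective g (h1.trans h3.symm))
      · ext z
        simp only [Set.mem_insert_iff, Set.mem_singleton_iff, Set.mem_univ, iff_true]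
        obtain ⟨⟨c, d⟩, rfl⟩ := Quotient.exists_rep z
        by_cases hcd : c = d
        · left
          subst hcd
          obtain ⟨g, hg⟩ := MulAction.exists_smul_eq G a₀ c
          exact (hmk _ _).mpr ⟨g, Prod.ext hg hg⟩
        · right
          obtain ⟨g, hg1, hg2⟩ := h2 hab₀ hcd
          exact (hmk _ _).mpr ⟨g, Prod.ext hg1 hg2⟩
  rw [← hrank]
  constructor
  · intro h
    have h1 := Cfsg.Agent.Lib.Char.classInner_irr_self h
    rw [hχχ, hππ] at h1
    have h2 : (Nat.card (MulAction.orbitRel.Quotient G (X × X)) : ℂ) = 2 := by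
      linear_combination h1
    exact_mod_cast h2
  · intro h
    apply Cfsg.Agent.Lib.Char.isIrrCharacter_of_classInner_self hχchar
    rw [hχχ, hππ, h]
    norm_num

end Cfsg.Agent.S0157
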