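import Cfsg.Statements.S0162
import Cfsg.Agent.Lib.Char.Degree
import Cfsg.Agent.Lib.Char.IndNormal
import Mathlib.Data.ZMod.Basic
-- import your own Cfsg.Agent.* helpers here

set_option autoImplicit false
open Cfsg

namespace Cfsg.Agent.S0162

/-- If a finite group has odd order, its order is congruent to its number of conjugacy classes modulo 16. -/
theorem result {G : Type*} [Group G] [Finite G] (hodd : Odd (Nat.card G)) : Nat.card G ≡ Nat.card (ConjClasses G) [MOD 16] := by
  classical
  let _ : Fintype G := Fintype.ofFinite G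
  let d : Cfsg.IrrCharacter G → ℕ := fun χ => Cfsg.charDegree (χ : G → ℂ)
  have hdodd : ∀ χ, Odd (d χ) := fun χ =>
    Odd.of_dvd_nat hodd (Cfsg.Agent.Lib.Char.charDegree_dvd_card χ.2)
  have hd8 : ∀ χ, ∃ t, d χ ^ 2 = 8 * t + 1 := by
    intro χ
    obtain ⟨k, hk⟩ := hdodd χ
    -- `k (k+1)` is even
    obtain ⟨r, hr⟩ := Nat.even_mul_succ_self k
    refine ⟨r, ?_⟩
    rw [hk]
    have : (2 * k + 1) ^ 2 = 4 * (k * (k + 1)) + 1 := by ring
    rw [this, hr]
    ring
  choose t ht using hd8
  have hsumC := Cfsg.Agent.Lib.Char.sum_irr_degree_sq (G := G)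
  have hsumN : ∑ χ : Cfsg.IrrCharacter G, d χ ^ 2 = Nat.card G := by
    have : ∀ χ : Cfsg.IrrCharacter G, (χ : G → ℂ) 1 ^ 2 = ((d χ ^ 2 : ℕ) : ℂ) := by
      intro χ
      rw [Cfsg.Agent.Lib.Char.apply_one_eq_charDegree (Cfsg.Agent.Lib.Char.IsIrrCharacter.isCharacter χ.2)]
      push_cast
      rfl
    simp only [this] at hsumC
    exact_mod_cast hsumC
  -- the conjugation involution
  let cj : Cfsg.IrrCharacter G → Cfsg.IrrCharacter G := fun χ =>
    ⟨fun g => (starRingEnd ℂ) ((χ : G → ℂ) g), Cfsg.Agent.Lib.Char.IsIrrCharacter.conj χ.2⟩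
  have hcj2 : ∀ χ, cj (cj χ) = χ := by
    intro χ
    apply Subtype.ext
    funext g
    simp [cj]
  have hdcj : ∀ χ, d (cj χ) = d χ := by
    intro χ
    have h1 : ((cj χ : Cfsg.IrrCharacter G) : G → ℂ) 1 = (χ : G → ℂ) 1 :=
      Cfsg.Agent.Lib.Char.IsCharacter.conj_apply_one (Cfsg.Agent.Lib.Char.IsIrrCharacter.isCharacter χ.2)
    simp only [d, Cfsg.charDegree, h1]
  have htcj : ∀ χ, t (cj χ) = t χ := by
    intro χ
    have h1 := ht (cj χ)
    have h2 := ht χ
    rw [hdcj] at h1
    omega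
  have heven : ((∑ χ, t χ : ℕ) : ZMod 2) = 0 := by
    push_cast
    apply Finset.sum_involution (fun χ _ => cj χ)
    · intro χ _
      rw [htcj, CharTwo.add_self_eq_zero]
    · intro χ _ hne hfix
      -- `χ` is real, hence principal, hence of degree one
      have hreal : ∀ g : G, ((χ : G → ℂ) g).im = 0 := by
        intro g
        have := congrFun (congrArg Subtype.val hfix) g
        exact Complex.conj_eq_iff_im.mp this
      have hone := Cfsg.Agent.Lib.Char.eq_one_of_real_of_odd hodd χ.2 hreal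
      have hd1 : d χ = 1 := by
        apply Cfsg.Agent.Lib.Char.charDegree_eq
        rw [hone]
        simp
      have h3 := ht χ
      rw [hd1] at h3
      have ht0 : t χ = 0 := by omega
      apply hne
      rw [ht0]
      simp
    · intro χ _
      exact Finset.mem_univ _
    · intro χ _
      exact hcj2 χ
  obtain ⟨r, hr⟩ := (ZMod.natCast_eq_zero_iff _ 2).mp heven
  have hk := Cfsg.Agent.Lib.Char.card_irr_eq_card_conjClasses (G := G)
  rw [← hk, ← hsumN]
  simp only [ht]
  rw [Finset.sum_add_distrib, ← Finset.mul_sum, hr]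
  simp only [Finset.sum_const, Finset.card_univ, smul_eq_mul, mul_one]
  rw [Nat.card_eq_fintype_card]
  have h16 : 8 * (2 * r) = 16 * r := by ring
  rw [h16]
  simp [Nat.ModEq, Nat.add_mod]

end Cfsg.Agent.S0162
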