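import Cfsg.Statements.S0168
import Cfsg.Agent.Lib.Char.Values
import Mathlib.Algebra.Polynomial.Roots
import Mathlib.Algebra.Polynomial.Eval.Degree
-- import your own Cfsg.Agent.* helpers here

set_option autoImplicit false
open Cfsg

namespace Cfsg.Agent.S0168

/-- The Burnside–Brauer Theorem. Let χ be the character of a faithful complex representation of a finite group, taking m distinct values. Then every irreducible character has nonzero inner product with χ ^ i for some i < m. -/
theorem result {G : Type*} [Group G] [Fintype G] {V : Type*} [AddCommGroup V] [Module ℂ V] [FiniteDimensional ℂ V] (ρ : Representation ℂ G V) (hfaithful : Function.Injective ρ) (ψ : G → ℂ) (hψ : Cfsg.IsIrrCharacter G ψ) : ∃ i : ℕ, i < Nat.card (Set.range ρ.character) ∧ Cfsg.classInner (fun g => ρ.character g ^ i) ψ ≠ 0 := by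
  classical
  haveI : Fintype (Set.range ρ.character) := Fintype.ofFinite _
  set χ := ρ.character with hχdef
  let S : Finset ℂ := (Set.range χ).toFinset.erase (χ 1)
  let P : Polynomial ℂ := ∏ a ∈ S, (Polynomial.X - Polynomial.C a)
  have hdeg : P.natDegree = S.card := Polynomial.natDegree_finsetProd_X_sub_C_eq_card S _
  have hScard : S.card + 1 = Nat.card (Set.range χ) := by
    have h1 : χ 1 ∈ (Set.range χ).toFinset := by simp
    have h2 := Finset.card_erase_add_one h1
    rw [h2, Set.toFinset_card, Nat.card_eq_fintype_card]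
  have hP1 : P.eval (χ 1) ≠ 0 := by
    simp only [P, Polynomial.eval_prod, Polynomial.eval_sub, Polynomial.eval_X, Polynomial.eval_C]
    rw [Finset.prod_ne_zero_iff]
    intro a ha
    have := Finset.ne_of_mem_erase ha
    exact sub_ne_zero.mpr (Ne.symm this)
  have hPg : ∀ g : G, g ≠ 1 → P.eval (χ g) = 0 := by
    intro g hg
    simp only [P, Polynomial.eval_prod, Polynomial.eval_sub, Polynomial.eval_X, Polynomial.eval_C]
    apply Finset.prod_eq_zero (i := χ g)
    · simp only [S, Finset.mem_erase, Set.mem_toFinset, Set.mem_range, exists_apply_eq_apply, and_true]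
      intro h
      apply hg
      apply hfaithful
      rw [map_one]
      have h1 : χ g = (Module.finrank ℂ V : ℂ) := by rw [h, hχdef, Representation.char_one]
      exact (Cfsg.Agent.Lib.Char.character_eq_finrank_iff ρ g).mp h1
    · simp
  have hinner : Cfsg.classInner (fun g => P.eval (χ g)) ψ ≠ 0 := by
    simp only [Cfsg.classInner]
    have hcard : ((Nat.card G : ℕ) : ℂ)⁻¹ ≠ 0 := inv_ne_zero (by exact_mod_cast Nat.card_pos.ne')
    apply mul_ne_zero hcard
    rw [Finset.sum_eq_single (1 : G)]
    · apply mul_ne_zero hP1
      rw [Ne, map_eq_zero]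
      exact Cfsg.Agent.Lib.Char.IsIrrCharacter.apply_one_ne_zero hψ
    · intro g _ hg
      rw [hPg g hg, zero_mul]
    · simp
  have hexpand : Cfsg.classInner (fun g => P.eval (χ g)) ψ =
      ∑ i ∈ Finset.range (P.natDegree + 1), P.coeff i * Cfsg.classInner (fun g => χ g ^ i) ψ := by
    simp only [Cfsg.classInner, Polynomial.eval_eq_sum_range, Finset.sum_mul, Finset.mul_sum]
    rw [Finset.sum_comm]
    refine Finset.sum_congr rfl fun i _ => Finset.sum_congr rfl fun g _ => ?_
    ring
  by_contra hcon
  push Not at hcon
  apply hinner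
  rw [hexpand]
  refine Finset.sum_eq_zero fun i hi => ?_
  rw [hcon i (by rw [← hScard, ← hdeg]; exact Finset.mem_range.mp hi), mul_zero]

end Cfsg.Agent.S0168
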