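import Cfsg.Statements.S0170
import Cfsg.Agent.Lib.Char.Exceptional
-- import your own Cfsg.Agent.* helpers here

set_option autoImplicit false
open Cfsg

namespace Cfsg.Agent.S0170

/-- Exceptional characters. Let S be a subset of a finite group contained in its normalizer N and meeting its conjugates by elements outside N only in the identity. Given n ≥ 2 distinct irreducible characters of N of equal degree that vanish on N away from S, there exist a sign ε and n distinct irreducible characters θ_i of G such that inducing χ_i − χ_j to G gives ε (θ_i − θ_j) for all i, j. -/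
theorem result {G : Type*} [Group G] [Fintype G] (S : Set G) (hSN : S ⊆ Subgroup.normalizer S) (hTI : ∀ g : G, g ∉ Subgroup.normalizer S → ∀ s ∈ S, g * s * g⁻¹ ∈ S → s = 1) (n : ℕ) (hn : 2 ≤ n) (χ : Fin n → (Subgroup.normalizer S → ℂ)) (hirr : ∀ i, Cfsg.IsIrrCharacter (Subgroup.normalizer S) (χ i)) (hinj : Function.Injective χ) (hvan : ∀ i, ∀ x : Subgroup.normalizer S, (x : G) ∉ S → χ i x = 0) (hdeg : ∀ i j, χ i 1 = χ j 1) : ∃ ε : ℂ, (ε = 1 ∨ ε = -1) ∧ ∃ θ : Fin n → (G → ℂ), (∀ i, Cfsg.IsIrrCharacter G (θ i)) ∧ Function.Injective θ ∧ ∀ i j, Cfsg.indFun (Subgroup.normalizer S) (χ i) - Cfsg.indFun (Subgroup.normalizer S) (χ j) = ε • (θ i - θ j) := by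
  classical
  let N := Subgroup.normalizer S
  let _ : Fintype N := Fintype.ofFinite N
  let i₀ : Fin n := ⟨0, by omega⟩
  let τ : Fin n → (G → ℂ) := fun i => Cfsg.indFun N (χ i - χ i₀)
  have hτsub : ∀ i, τ i = Cfsg.indFun N (χ i) - Cfsg.indFun N (χ i₀) := fun i =>
    Cfsg.Agent.Lib.Char.indFun_sub N _ _
  have h0 : τ i₀ = 0 := by
    simp only [τ, sub_self]
    exact Cfsg.Agent.Lib.Char.indFun_zero N
  have hgen : ∀ i, Cfsg.IsGeneralizedCharacter G (τ i) := by
    intro i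
    refine ⟨_, _, Cfsg.Agent.Lib.Char.isCharacter_indFun N (Cfsg.Agent.Lib.Char.IsIrrCharacter.isCharacter (hirr i)),
      Cfsg.Agent.Lib.Char.isCharacter_indFun N (Cfsg.Agent.Lib.Char.IsIrrCharacter.isCharacter (hirr i₀)), hτsub i⟩
  have hone : ∀ i, τ i 1 = 0 := by
    intro i
    simp only [τ]
    rw [Cfsg.Agent.Lib.Char.indFun_one]
    simp [hdeg i i₀]
  have hclass : ∀ i, Cfsg.IsClassFunction N (χ i) := fun i =>
    Cfsg.Agent.Lib.Char.IsCharacter.isClassFunction (Cfsg.Agent.Lib.Char.IsIrrCharacter.isCharacter (hirr i))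
  have hvan' : ∀ i, ∀ x : N, (x : G) ∉ S → (χ i - χ i₀) x = 0 := by
    intro i x hx
    simp [hvan i x hx, hvan i₀ x hx]
  have hgram : ∀ i j, i ≠ i₀ → j ≠ i₀ → Cfsg.classInner (τ i) (τ j) = if i = j then 2 else 1 := by
    intro i j hi hj
    simp only [τ]
    rw [Cfsg.Agent.Lib.Char.classInner_indFun_of_TI N S hTI _ _
      (Cfsg.Agent.Lib.Char.IsClassFunction.sub (hclass j) (hclass i₀)) (hvan' i) (hvan' j) (by simp [hdeg i i₀])]
    rw [Cfsg.Agent.Lib.Char.classInner_sub_left, Cfsg.Agent.Lib.Char.classInner_sub_right,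
      Cfsg.Agent.Lib.Char.classInner_sub_right]
    have hne : ∀ {a b : Fin n}, a ≠ b → χ a ≠ χ b := fun h h' => h (hinj h')
    rw [Cfsg.Agent.Lib.Char.classInner_irr_of_ne (hirr i) (hirr i₀) (hne hi),
      Cfsg.Agent.Lib.Char.classInner_irr_of_ne (hirr i₀) (hirr j) (hne hj.symm),
      Cfsg.Agent.Lib.Char.classInner_irr_self (hirr i₀)]
    by_cases hij : i = j
    · subst hij
      rw [Cfsg.Agent.Lib.Char.classInner_irr_self (hirr i), if_pos rfl]
      norm_num
    · rw [Cfsg.Agent.Lib.Char.classInner_irr_of_ne (hirr i) (hirr j) (hne hij), if_neg hij]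
      norm_num
  obtain ⟨ε, hε, μ, hμ, hμinj, hτ⟩ := Cfsg.Agent.Lib.Char.exists_irr_of_gram i₀ τ h0 hgen hone hgram
  refine ⟨ε, hε, μ, hμ, hμinj, ?_⟩
  intro i j
  have h1 : Cfsg.indFun N (χ i) - Cfsg.indFun N (χ j) = τ i - τ j := by
    rw [hτsub i, hτsub j]
    abel
  rw [h1, hτ i, hτ j, ← smul_sub]
  congr 1
  abel

end Cfsg.Agent.S0170
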