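import Cfsg.Statements.S0171
import Cfsg.Agent.Lib.Char.FrobKer
-- import your own Cfsg.Agent.* helpers here

set_option autoImplicit false
open Cfsg

namespace Cfsg.Agent.S0171

/-- Let G = K H with K normal, K ⊓ H trivial, and no non-identity element of H commuting with a non-identity element of K (a Frobenius group with kernel K and complement H). Then every non-principal irreducible character of K induces to an irreducible character of G. -/
theorem result {G : Type*} [Group G] [Fintype G] (K H : Subgroup G) [K.Normal] (hKH : K ⊓ H = ⊥) (hKH' : K ⊔ H = ⊤) (hfpf : ∀ h ∈ H, h ≠ 1 → ∀ k ∈ K, h * k = k * h → k = 1) (τ : K → ℂ) (hτ : Cfsg.IsIrrCharacter K τ) (hτ1 : τ ≠ fun _ => 1) : Cfsg.IsIrrCharacter G (Cfsg.indFun K τ) := by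
  classical
  let _ : Fintype K := Fintype.ofFinite K
  apply Cfsg.Agent.Lib.Char.isIrrCharacter_indFun_of_inertia K hτ
  intro x hx
  have hxmem : x ∈ ((K ⊔ H : Subgroup G) : Set G) := by rw [hKH']; trivial
  rw [Subgroup.normal_mul] at hxmem
  obtain ⟨k, hk, h, hh, rfl⟩ := Set.mem_mul.mp hxmem
  have hkT : k ∈ Cfsg.Agent.Lib.Char.inertia K τ :=
    Cfsg.Agent.Lib.Char.le_inertia K (Cfsg.Agent.Lib.Char.IsCharacter.isClassFunction (Cfsg.Agent.Lib.Char.IsIrrCharacter.isCharacter hτ)) hk
  have hhT : h ∈ Cfsg.Agent.Lib.Char.inertia K τ := by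
    have := (Cfsg.Agent.Lib.Char.inertia K τ).mul_mem ((Cfsg.Agent.Lib.Char.inertia K τ).inv_mem hkT) hx
    simpa using this
  by_cases h1 : h = 1
  · rw [h1, mul_one]; exact hk
  · exfalso
    exact hτ1 (Cfsg.Agent.Lib.Char.eq_one_of_conjFun_eq_of_fpf K (h := h)
      (fun k hk hc => hfpf h hh h1 k hk hc) hτ hhT)

end Cfsg.Agent.S0171
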