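import Cfsg.Statements.S0172
import Cfsg.Agent.Lib.Char.FrobKer
-- import your own Cfsg.Agent.* helpers here

set_option autoImplicit false
open Cfsg

namespace Cfsg.Agent.S0172

/-- Class number of a Frobenius group: if G = K H with K normal, K ⊓ H trivial and no non-identity element of H commuting with a non-identity element of K, then |H| * k(G) + 1 = |H| * k(H) + k(K), where k denotes the number of conjugacy classes. -/
theorem result {G : Type*} [Group G] [Finite G] (K H : Subgroup G) [K.Normal] (hKH : K ⊓ H = ⊥) (hKH' : K ⊔ H = ⊤) (hfpf : ∀ h ∈ H, h ≠ 1 → ∀ k ∈ K, h * k = k * h → k = 1) : Nat.card H * Nat.card (ConjClasses G) + 1 = Nat.card H * Nat.card (ConjClasses H) + Nat.card (ConjClasses K) := by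
  classical
  let _ : Fintype G := Fintype.ofFinite G
  let _ : Fintype K := Fintype.ofFinite K
  let _ : Fintype H := Fintype.ofFinite H
  -- commuting count
  have hcount : ∀ (X : Type _) [Group X] [Fintype X],
      ∑ g : X, Nat.card {x : X // Commute g x} = Nat.card (ConjClasses X) * Nat.card X := by
    intro X _ _
    rw [← card_comm_eq_card_conjClasses_mul_card X]
    let e : { p : X × X // Commute p.1 p.2 } ≃ (Σ g : X, {x : X // Commute g x}) :=
      { toFun := fun p => ⟨p.1.1, ⟨p.1.2, p.2⟩⟩
        invFun := fun s => ⟨(s.1, s.2.1), s.2.2⟩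
        left_inv := fun _ => rfl
        right_inv := fun _ => rfl }
    rw [Nat.card_congr e, Nat.card_sigma]
  -- complement decomposition
  have hmulcard : Nat.card G = Nat.card K * Nat.card H := by
    have h1 := Subgroup.card_mul_index K
    have h2 : K.index = Nat.card H := by
      have hc : Subgroup.IsComplement' K H :=
        Subgroup.isComplement'_of_disjoint_and_mul_eq_univ (disjoint_iff.mpr hKH)
          (by
            have := Subgroup.normal_mul K H
            rw [← this, hKH']; rfl)
      exact hc.symm.index_eq_card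
    rw [← h1, h2]
  have hcomp : Subgroup.IsComplement' K H :=
    Subgroup.isComplement'_of_disjoint_and_mul_eq_univ (disjoint_iff.mpr hKH)
      (by
        have := Subgroup.normal_mul K H
        rw [← this, hKH']; rfl)
  have hdec : ∀ x : G, ∃ (a : K) (b : H), (a : G) * (b : G) = x := by
    intro x
    obtain ⟨⟨a, b⟩, hab⟩ := hcomp.2 x
    exact ⟨a, b, hab⟩
  -- fpf in the form of FrobKer
  have hfpf' : ∀ h ∈ H, h ≠ 1 → ∀ k ∈ K, h * k = k * h → k = 1 := hfpf
  -- the projection to the H part: commuting mod K
  -- centralizer of a nontrivial element of K lies in K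
  have hcentK : ∀ k : K, (k : G) ≠ 1 → ∀ x : G, Commute (k : G) x → x ∈ K := by
    intro k hk x hx
    -- write x = c * h
    obtain ⟨⟨c, hc⟩, ⟨h, hh⟩, rfl⟩ := hdec x
    by_cases hh1 : h = 1
    · subst hh1
      simpa using hc
    · exfalso
      obtain ⟨u, hu, hcu⟩ := Cfsg.Agent.Lib.Char.exists_conj_of_coset_of_fpf K (hfpf h hh hh1) c hc
      apply hk
      rw [hcu] at hx
      have hcomm : h * (u⁻¹ * k * u) = (u⁻¹ * k * u) * h := by
        have := hx.eq
        calc h * (u⁻¹ * k * u) = u⁻¹ * ((u * h * u⁻¹) * k) * u := by group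
          _ = u⁻¹ * ((k : G) * (u * h * u⁻¹)) * u := by rw [← this]
          _ = (u⁻¹ * k * u) * h := by group
      have h1 := hfpf h hh hh1 (u⁻¹ * k * u) (K.mul_mem (K.mul_mem (K.inv_mem hu) k.2) hu) hcomm
      have : (k : G) = u * (u⁻¹ * k * u) * u⁻¹ := by group
      rw [this, h1]; group
  -- centralizer of an element outside K
  have hcentH : ∀ h : H, (h : G) ≠ 1 → ∀ x : G, Commute (h : G) x → x ∈ H := by
    intro h hh x hx
    obtain ⟨⟨c, hc⟩, ⟨y, hy⟩, rfl⟩ := hdec x
    -- commutator [h,y] lies in K ∩ H
    have h1 : (h : G) * c * (h : G)⁻¹ * ((h : G) * y * (h : G)⁻¹ * y⁻¹) = c := by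
      have := hx.eq
      calc (h : G) * c * (h : G)⁻¹ * ((h : G) * y * (h : G)⁻¹ * y⁻¹) = ((h : G) * (c * y)) * (h : G)⁻¹ * y⁻¹ := by group
        _ = ((c * y) * h) * (h : G)⁻¹ * y⁻¹ := by rw [this]
        _ = c := by group
    have hK1 : (h : G) * y * (h : G)⁻¹ * y⁻¹ ∈ K := by
      have hhc : (h : G) * c * (h : G)⁻¹ ∈ K := ‹K.Normal›.conj_mem c hc h
      have : (h : G) * y * (h : G)⁻¹ * y⁻¹ = ((h : G) * c * (h : G)⁻¹)⁻¹ * c := by
        rw [eq_inv_mul_iff_mul_eq]; exact h1
      rw [this]
      exact K.mul_mem (K.inv_mem hhc) hc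
    have hH1 : (h : G) * y * (h : G)⁻¹ * y⁻¹ ∈ H :=
      H.mul_mem (H.mul_mem (H.mul_mem h.2 hy) (H.inv_mem h.2)) (H.inv_mem hy)
    have hone : (h : G) * y * (h : G)⁻¹ * y⁻¹ = 1 := by
      have : (h : G) * y * (h : G)⁻¹ * y⁻¹ ∈ K ⊓ H := ⟨hK1, hH1⟩
      rw [hKH] at this
      simpa using this
    rw [hone, mul_one] at h1
    have hcomm : (h : G) * c = c * h := by
      have := congrArg (· * (h : G)) h1
      simpa [mul_assoc] using this
    have hc1 := hfpf h h.2 hh c hc hcomm
    subst hc1
    simpa using hy
  -- card of commuting sets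
  have hK_card : ∀ k : K, (k : G) ≠ 1 →
      Nat.card {x : G // Commute (k : G) x} = Nat.card {x : K // Commute k x} := by
    intro k hk
    symm
    refine Nat.card_congr
      { toFun := fun x => ⟨(x.1 : G), by
          have := x.2.eq
          exact congrArg Subtype.val this⟩
        invFun := fun x => ⟨⟨x.1, hcentK k hk x.1 x.2⟩, by
          apply Subtype.ext
          exact x.2.eq⟩
        left_inv := fun _ => rfl
        right_inv := fun _ => rfl }
  have hH_card : ∀ h : H, (h : G) ≠ 1 →
      Nat.card {x : G // Commute (h : G) x} = Nat.card {x : H // Commute h x} := by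
    intro h hh
    symm
    refine Nat.card_congr
      { toFun := fun x => ⟨(x.1 : G), by
          have := x.2.eq
          exact congrArg Subtype.val this⟩
        invFun := fun x => ⟨⟨x.1, hcentH h hh x.1 x.2⟩, by
          apply Subtype.ext
          exact x.2.eq⟩
        left_inv := fun _ => rfl
        right_inv := fun _ => rfl }
  have hconj_card : ∀ (u g : G), Nat.card {x : G // Commute (u * g * u⁻¹) x} = Nat.card {x : G // Commute g x} := by
    intro u g
    refine Nat.card_congr
      { toFun := fun x => ⟨u⁻¹ * x.1 * u, by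
          have := x.2.eq
          show g * (u⁻¹ * x.1 * u) = (u⁻¹ * x.1 * u) * g
          calc g * (u⁻¹ * x.1 * u) = u⁻¹ * ((u * g * u⁻¹) * x.1) * u := by group
            _ = u⁻¹ * (x.1 * (u * g * u⁻¹)) * u := by rw [this]
            _ = (u⁻¹ * x.1 * u) * g := by group⟩
        invFun := fun x => ⟨u * x.1 * u⁻¹, by
          have := x.2.eq
          show (u * g * u⁻¹) * (u * x.1 * u⁻¹) = (u * x.1 * u⁻¹) * (u * g * u⁻¹)
          calc (u * g * u⁻¹) * (u * x.1 * u⁻¹) = u * (g * x.1) * u⁻¹ := by group
            _ = u * (x.1 * g) * u⁻¹ := by rw [this]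
            _ = (u * x.1 * u⁻¹) * (u * g * u⁻¹) := by group⟩
        left_inv := fun x => by
          apply Subtype.ext
          show u * (u⁻¹ * x.1 * u) * u⁻¹ = x.1
          group
        right_inv := fun x => by
          apply Subtype.ext
          show u⁻¹ * (u * x.1 * u⁻¹) * u = x.1
          group }
  -- main sum
  have hsum : ∑ g : G, Nat.card {x : G // Commute g x}
      = ∑ p : K × H, Nat.card {x : G // Commute ((p.1 : G) * (p.2 : G)) x} := by
    symm
    exact Fintype.sum_equiv (Equiv.ofBijective _ hcomp) _ _ (fun p => rfl)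
  have hp : ∀ k : K, ∀ h : H, (h : G) ≠ 1 →
      Nat.card {x : G // Commute ((k : G) * (h : G)) x} = Nat.card {x : H // Commute h x} := by
    intro k h hh
    obtain ⟨u, hu, hcu⟩ := Cfsg.Agent.Lib.Char.exists_conj_of_coset_of_fpf K (hfpf h h.2 hh) k k.2
    rw [hcu, hconj_card, hH_card h hh]
  have hK1 : ∑ k : K, Nat.card {x : G // Commute (k : G) x}
      + Nat.card K = Nat.card G + ∑ k : K, Nat.card {x : K // Commute k x} := by
    rw [← Finset.add_sum_erase Finset.univ _ (Finset.mem_univ (1 : K)),
      ← Finset.add_sum_erase Finset.univ (fun k : K => Nat.card {x : K // Commute k x}) (Finset.mem_univ (1 : K))]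
    have h1 : ∑ k ∈ Finset.univ.erase (1 : K), Nat.card {x : G // Commute (k : G) x}
        = ∑ k ∈ Finset.univ.erase (1 : K), Nat.card {x : K // Commute k x} := by
      apply Finset.sum_congr rfl
      intro k hk
      apply hK_card k
      have := (Finset.mem_erase.mp hk).1
      simpa using this
    have h2 : Nat.card {x : G // Commute ((1 : K) : G) x} = Nat.card G := by
      rw [Nat.card_congr (Equiv.subtypeUnivEquiv (fun x => by simp))]
    have h3 : Nat.card {x : K // Commute (1 : K) x} = Nat.card K := by
      rw [Nat.card_congr (Equiv.subtypeUnivEquiv (fun x => by simp))]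
    rw [h1, h2, h3]
    omega
  have hH1 : ∑ h : H, Nat.card {x : H // Commute h x}
      = Nat.card H + ∑ h ∈ Finset.univ.erase (1 : H), Nat.card {x : H // Commute h x} := by
    rw [← Finset.add_sum_erase Finset.univ _ (Finset.mem_univ (1 : H))]
    have h3 : Nat.card {x : H // Commute (1 : H) x} = Nat.card H := by
      rw [Nat.card_congr (Equiv.subtypeUnivEquiv (fun x => by simp))]
    rw [h3]
  have htotal : ∑ p : K × H, Nat.card {x : G // Commute ((p.1 : G) * (p.2 : G)) x}
      = ∑ k : K, Nat.card {x : G // Commute (k : G) x}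
        + Nat.card K * ∑ h ∈ Finset.univ.erase (1 : H), Nat.card {x : H // Commute h x} := by
    rw [Fintype.sum_prod_type]
    have h1 : ∀ k : K, ∑ h : H, Nat.card {x : G // Commute ((k : G) * (h : G)) x}
        = Nat.card {x : G // Commute (k : G) x}
          + ∑ h ∈ Finset.univ.erase (1 : H), Nat.card {x : H // Commute h x} := by
      intro k
      rw [← Finset.add_sum_erase Finset.univ _ (Finset.mem_univ (1 : H))]
      congr 1
      · simp
      · apply Finset.sum_congr rfl
        intro h hh
        apply hp k h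
        have := (Finset.mem_erase.mp hh).1
        simpa using this
    simp_rw [h1]
    rw [Finset.sum_add_distrib, Finset.sum_const, Finset.card_univ, smul_eq_mul, Nat.card_eq_fintype_card]
  have hG := hcount G
  have hKc := hcount K
  have hHc := hcount H
  rw [hsum, htotal] at hG
  set A := ∑ k : K, Nat.card {x : G // Commute (k : G) x}
  set B := ∑ h ∈ Finset.univ.erase (1 : H), Nat.card {x : H // Commute h x}
  rw [hKc] at hK1
  rw [hHc] at hH1
  have hKpos : 0 < Nat.card K := Nat.card_pos
  apply Nat.eq_of_mul_eq_mul_left hKpos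
  have e1 : Nat.card K * (Nat.card H * Nat.card (ConjClasses G)) = A + Nat.card K * B := by
    rw [hG, hmulcard]; ring
  have e2 : Nat.card K * (Nat.card H * Nat.card (ConjClasses H)) = Nat.card K * (Nat.card H + B) := by
    rw [← hH1]; ring
  have e3 : A + Nat.card K = Nat.card K * Nat.card H + Nat.card (ConjClasses K) * Nat.card K := by
    rw [hK1, hmulcard]
  rw [mul_add, mul_add, e1, e2, mul_one, mul_add]
  nlinarith

end Cfsg.Agent.S0172
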