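import Cfsg.Statements.S0174
import Cfsg.Agent.Lib.Char.Clifford
-- import your own Cfsg.Agent.* helpers here

set_option autoImplicit false
open Cfsg

namespace Cfsg.Agent.S0174

/-- The Clifford Theorem for characters: if θ is an irreducible character of a finite group G, N is a normal subgroup and χ is an irreducible character of N occurring in the restriction of θ, then θ restricted to N equals e times the sum of the distinct G-conjugates of χ, where e is the inner product of the restriction with χ. -/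
theorem result {G : Type*} [Group G] [Fintype G] (N : Subgroup G) [Fintype N] (hN : N.Normal) (θ : G → ℂ) (hθ : Cfsg.IsIrrCharacter G θ) (χ : N → ℂ) (hχ : Cfsg.IsIrrCharacter N χ) (hconst : Cfsg.classInner (fun n : N => θ n) χ ≠ 0) : (fun n : N => θ n) = Cfsg.classInner (fun n : N => θ n) χ • ∑ᶠ ψ ∈ {ψ : N → ℂ | ∃ g : G, ψ = fun n : N => χ ⟨g * n * g⁻¹, hN.conj_mem n n.2 g⟩}, ψ := by
  classical
  haveI := hN
  set e := Cfsg.classInner (fun n : N => θ n) χ with he
  let F : Finset (N → ℂ) := Finset.univ.image (fun g : G => Cfsg.Agent.Lib.Char.conjFun N g χ)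
  have hS : {ψ : N → ℂ | ∃ g : G, ψ = fun n : N => χ ⟨g * n * g⁻¹, hN.conj_mem n n.2 g⟩} = (F : Set (N → ℂ)) := by
    ext ψ
    simp only [Set.mem_setOf_eq, F, Finset.coe_image, Finset.coe_univ, Set.image_univ, Set.mem_range]
    constructor
    · rintro ⟨g, rfl⟩
      refine ⟨g⁻¹, ?_⟩
      funext n
      simp only [Cfsg.Agent.Lib.Char.conjFun_apply]
      congr 2
      simp
    · rintro ⟨g, rfl⟩
      refine ⟨g⁻¹, ?_⟩
      funext n
      simp only [Cfsg.Agent.Lib.Char.conjFun_apply]
      congr 2
      simp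
  rw [hS, finsum_mem_coe_finset]
  funext n
  have hsum := Cfsg.Agent.Lib.Char.clifford_sum N hθ hχ hconst n
  have hcount : ∑ g : G, Cfsg.Agent.Lib.Char.conjFun N g χ n =
      (Nat.card (Cfsg.Agent.Lib.Char.inertia N χ) : ℂ) * (∑ ψ ∈ F, ψ) n := by
    rw [Finset.sum_apply, ← Finset.sum_fiberwise_of_maps_to (s := Finset.univ) (t := F)
      (g := fun g : G => Cfsg.Agent.Lib.Char.conjFun N g χ) (fun g _ => Finset.mem_image_of_mem _ (Finset.mem_univ g)),
      Finset.mul_sum]
    refine Finset.sum_congr rfl fun ψ hψ => ?_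
    obtain ⟨g₀, -, rfl⟩ := Finset.mem_image.mp hψ
    rw [Finset.sum_congr rfl (g := fun _ => Cfsg.Agent.Lib.Char.conjFun N g₀ χ n)]
    · rw [Finset.sum_const, nsmul_eq_mul]
      congr 1
      have h1 := Cfsg.Agent.Lib.Char.card_filter_conjFun N χ g₀
      rw [← h1]
      congr 2
      ext g
      simp only [Finset.mem_filter, Finset.mem_univ, true_and]
      exact eq_comm
    · intro g hg
      rw [(Finset.mem_filter.mp hg).2]
  rw [hcount] at hsum
  have hne : (Nat.card (Cfsg.Agent.Lib.Char.inertia N χ) : ℂ) ≠ 0 := by exact_mod_cast Nat.card_pos.ne'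
  apply mul_left_cancel₀ hne
  rw [hsum, Pi.smul_apply, smul_eq_mul]
  ring

end Cfsg.Agent.S0174
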