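import Cfsg.Statements.S0178
import Cfsg.Agent.Lib.Char.Constituent
-- import your own Cfsg.Agent.* helpers here

set_option autoImplicit false
open Cfsg

namespace Cfsg.Agent.S0178

/-- The degree of an irreducible complex representation of a finite group is at most the index of any abelian subgroup. -/
theorem result {G : Type*} [Group G] [Finite G] {V : Type*} [AddCommGroup V] [Module ℂ V] [FiniteDimensional ℂ V] (ρ : Representation ℂ G V) [ρ.IsIrreducible] (A : Subgroup G) (hA : ∀ a ∈ A, ∀ b ∈ A, a * b = b * a) : Module.finrank ℂ V ≤ A.index := by
  classical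
  haveI : Fintype G := Fintype.ofFinite G
  have h := Cfsg.Agent.Lib.Char.IsIrrCharacter.degree_le_index_of_comm
    (Cfsg.Agent.Lib.Char.isIrrCharacter_character ρ) A hA
  rw [Representation.char_one] at h
  simpa using h

end Cfsg.Agent.S0178
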