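import Cfsg.Statements.S0180
import Cfsg.Agent.Lib.Char.Galois
-- import your own Cfsg.Agent.* helpers here

set_option autoImplicit false
open Cfsg

namespace Cfsg.Agent.S0180

/-- Every irreducible complex character of a finite group takes only rational values if and only if g is conjugate to g ^ m for every element g and every m coprime to the group order. -/
theorem result {G : Type*} [Group G] [Finite G] : (∀ χ : Cfsg.IrrCharacter G, ∀ g : G, ∃ q : ℚ, (χ : G → ℂ) g = (q : ℂ)) ↔ ∀ m : ℕ, m.Coprime (Nat.card G) → ∀ g : G, IsConj g (g ^ m) := by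
  classical
  let _ : Fintype G := Fintype.ofFinite G
  haveI : NeZero (Nat.card G) := ⟨Nat.card_pos.ne'⟩
  constructor
  · intro hrat m hm g
    obtain ⟨σ, hσ⟩ := Cfsg.Agent.Lib.Char.exists_sigma (Nat.card G) m hm
    have hval : ∀ χ : Cfsg.IrrCharacter G, (χ : G → ℂ) (g ^ m) = (χ : G → ℂ) g := by
      intro χ
      rw [← Cfsg.Agent.Lib.Char.sigma_character (Cfsg.Agent.Lib.Char.IsIrrCharacter.isCharacter χ.2) σ m hσ g]
      obtain ⟨q, hq⟩ := hrat χ g
      rw [hq]
      exact map_ratCast σ q
    by_contra hnot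
    have h0 := Cfsg.Agent.Lib.Char.sum_irr_mul_conj_of_not_isConj hnot
    simp only [hval] at h0
    have h1 := Cfsg.Agent.Lib.Char.sum_irr_mul_conj_of_isConj (IsConj.refl g)
    rw [h1] at h0
    have h2 : Nat.card (Subgroup.centralizer ({g} : Set G)) ≠ 0 := Nat.card_pos.ne'
    exact h2 (by exact_mod_cast h0)
  · intro hconj χ g
    have hχc := Cfsg.Agent.Lib.Char.IsIrrCharacter.isCharacter χ.2
    apply Cfsg.Agent.Lib.Char.rat_of_forall_sigma (Nat.card G) (Cfsg.Agent.Lib.Char.character_mem_cycField hχc g)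
    intro σ k hk hσ
    rw [Cfsg.Agent.Lib.Char.sigma_character hχc σ k hσ g]
    exact Cfsg.Agent.Lib.Char.IsClassFunction.congr_isConj (Cfsg.Agent.Lib.Char.IsCharacter.isClassFunction hχc) (hconj k hk g).symm

end Cfsg.Agent.S0180
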