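import Cfsg.Statements.S0181
import Cfsg.Agent.Lib.Char.Kernel
import Cfsg.Agent.Lib.Char.Values
-- import your own Cfsg.Agent.* helpers here

set_option autoImplicit false
open Cfsg

namespace Cfsg.Agent.S0181

/-- Let H be a normal subgroup of a finite group G and ρ an irreducible complex representation whose kernel does not contain H. If g commutes with no non-identity element of H, then the character of ρ vanishes at g. -/
theorem result {G : Type*} [Group G] [Finite G] {V : Type*} [AddCommGroup V] [Module ℂ V] [FiniteDimensional ℂ V] (ρ : Representation ℂ G V) [ρ.IsIrreducible] (H : Subgroup G) [H.Normal] (hker : ∃ h ∈ H, ρ h ≠ LinearMap.id) (g : G) (hg : ∀ h ∈ H, h * g = g * h → h = 1) : ρ.character g = 0 := by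
  classical
  haveI : Fintype G := Fintype.ofFinite G
  haveI : Fintype H := Fintype.ofFinite H
  have hχ := Cfsg.Agent.Lib.Char.isIrrCharacter_character ρ
  have hnot : ¬ H ≤ Cfsg.Agent.Lib.Char.charKer ρ.character := by
    intro hle
    obtain ⟨h, hh, hne⟩ := hker
    apply hne
    have h1 := (Cfsg.Agent.Lib.Char.mem_charKer (Cfsg.Agent.Lib.Char.IsIrrCharacter.isCharacter hχ)).mp (hle hh)
    rw [Representation.char_one] at h1
    exact (Cfsg.Agent.Lib.Char.character_eq_finrank_iff ρ h).mp h1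
  have hsum := Cfsg.Agent.Lib.Char.sum_coset_irr H hχ g
  rw [if_neg hnot] at hsum
  have hgH : ∀ h : H, g * (h : G)⁻¹ * g⁻¹ ∈ H := fun h =>
    (inferInstance : H.Normal).conj_mem _ (H.inv_mem h.2) g
  let φ : H → H := fun h => h * ⟨g * (h : G)⁻¹ * g⁻¹, hgH h⟩
  have hφinj : Function.Injective φ := by
    intro h₁ h₂ h
    have h' : (h₁ : G) * (g * (h₁ : G)⁻¹ * g⁻¹) = (h₂ : G) * (g * (h₂ : G)⁻¹ * g⁻¹) := by
      simpa [φ] using congrArg Subtype.val h
    have hc := hg ((h₂ : G)⁻¹ * h₁) (H.mul_mem (H.inv_mem h₂.2) h₁.2) (by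
      have h3 : (h₁ : G) * g * (h₁ : G)⁻¹ = (h₂ : G) * g * (h₂ : G)⁻¹ := by
        have := congrArg (· * g) h'
        simpa [mul_assoc] using this
      have h4 : (h₂ : G)⁻¹ * ((h₁ : G) * g * (h₁ : G)⁻¹) * h₁ = (h₂ : G)⁻¹ * ((h₂ : G) * g * (h₂ : G)⁻¹) * h₁ := by rw [h3]
      simpa [mul_assoc] using h4)
    apply Subtype.ext
    have : (h₂ : G) * ((h₂ : G)⁻¹ * h₁) = h₂ := by rw [hc, mul_one]
    simpa using this
  have hφbij : Function.Bijective φ := Finite.injective_iff_bijective.mp hφinj
  have hsum2 : ∑ h : H, ρ.character ((φ h : H) * g) = ∑ n : H, ρ.character (n * g) :=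
    Function.Bijective.sum_comp hφbij (fun n : H => ρ.character (n * g))
  have hval : ∀ h : H, ρ.character ((φ h : H) * g) = ρ.character g := by
    intro h
    have h1 : ((φ h : H) : G) * g = (h : G) * g * (h : G)⁻¹ := by
      simp only [φ, Subgroup.coe_mul]
      simp [mul_assoc]
    rw [h1]
    exact Cfsg.Agent.Lib.Char.IsCharacter.isClassFunction (Cfsg.Agent.Lib.Char.IsIrrCharacter.isCharacter hχ) g h
  simp only [hval] at hsum2
  rw [hsum, Finset.sum_const, nsmul_eq_mul] at hsum2
  have hcard : ((Finset.univ : Finset H).card : ℂ) ≠ 0 := by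
    simp only [Finset.card_univ]
    exact_mod_cast Fintype.card_pos.ne'
  exact (mul_eq_zero.mp hsum2).resolve_left hcard

end Cfsg.Agent.S0181
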