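import Cfsg.Statements.S0186
import Cfsg.Agent.Lib.Char.Burnside
import Cfsg.Agent.Lib.Char.Constituent
-- import your own Cfsg.Agent.* helpers here

set_option autoImplicit false
open Cfsg

namespace Cfsg.Agent.S0186

/-- Let G be a finite simple group of order n and p a prime dividing n. If G has more than n / p^2 conjugacy classes, then every Sylow p-subgroup of G is abelian. -/
theorem result {G : Type*} [Group G] [Finite G] [IsSimpleGroup G] (p : ℕ) [Fact p.Prime] (hp : p ∣ Nat.card G) (hmany : Nat.card G < p ^ 2 * Nat.card (ConjClasses G)) (P : Sylow p G) (a b : G) (ha : a ∈ P) (hb : b ∈ P) : a * b = b * a := by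
  classical
  let _ : Fintype G := Fintype.ofFinite G
  by_contra hne
  have hPp : IsPGroup p P := P.isPGroup'
  obtain ⟨m, hm⟩ := IsPGroup.iff_card.mp hPp
  have hnoncomm : ¬ ∀ x y : P, x * y = y * x := by
    intro h
    apply hne
    exact congrArg Subtype.val (h ⟨a, ha⟩ ⟨b, hb⟩)
  have hm2 : 2 ≤ m := by
    by_contra hlt
    apply hnoncomm
    have hm1 : m = 0 ∨ m = 1 := by omega
    rcases hm1 with rfl | rfl
    · intro x y
      have : Nat.card P = 1 := by simpa using hm
      have hs : Subsingleton P := (Nat.card_eq_one_iff_unique.mp this).1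
      exact Subsingleton.elim _ _
    · have hc : Nat.card P = p := by simpa using hm
      haveI : Fact (Nat.card P).Prime := by rw [hc]; infer_instance
      haveI := isCyclic_of_prime_card (α := P) rfl
      intro x y
      letI := IsCyclic.commGroup (α := P)
      exact mul_comm x y
  have hp2 : p ^ 2 ∣ Nat.card G := by
    have h1 : p ^ 2 ∣ Nat.card P := by
      rw [hm]
      exact pow_dvd_pow p hm2
    exact h1.trans (Subgroup.card_subgroup_dvd_card _)
  let one : Cfsg.IrrCharacter G := ⟨fun _ => 1, Cfsg.Agent.Lib.Char.isIrrCharacter_one⟩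
  let d : Cfsg.IrrCharacter G → ℕ := fun χ => Cfsg.charDegree (χ : G → ℂ)
  have hd : ∀ χ : Cfsg.IrrCharacter G, (χ : G → ℂ) 1 = (d χ : ℂ) := fun χ =>
    Cfsg.Agent.Lib.Char.apply_one_eq_charDegree (Cfsg.Agent.Lib.Char.IsIrrCharacter.isCharacter χ.2)
  -- nonprincipal characters are faithful
  have hfaith : ∀ χ : Cfsg.IrrCharacter G, χ ≠ one → Cfsg.Agent.Lib.Char.charKer (χ : G → ℂ) = ⊥ := by
    intro χ hχ
    have hkerN := Cfsg.Agent.Lib.Char.charKer_normal (Cfsg.Agent.Lib.Char.IsIrrCharacter.isCharacter χ.2)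
    rcases hkerN.eq_bot_or_eq_top with h | h
    · exact h
    · exfalso
      apply hχ
      apply Subtype.ext
      have hconst : ∀ x, (χ : G → ℂ) x = (χ : G → ℂ) 1 := fun x =>
        (Cfsg.Agent.Lib.Char.mem_charKer (Cfsg.Agent.Lib.Char.IsIrrCharacter.isCharacter χ.2)).mp (by rw [h]; trivial)
      by_contra hne'
      have h0 := Cfsg.Agent.Lib.Char.classInner_irr_of_ne χ.2 one.2 hne'
      simp only [Cfsg.classInner, one, map_one, mul_one, hconst] at h0
      rw [Finset.sum_const] at h0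
      have hG : ((Nat.card G : ℕ) : ℂ) ≠ 0 := by exact_mod_cast Nat.card_pos.ne'
      have hcard : (Finset.univ : Finset G).card ≠ 0 := by
        rw [Finset.card_univ]; exact Fintype.card_ne_zero
      have h5 := (mul_eq_zero.mp h0).resolve_left (inv_ne_zero hG)
      rw [nsmul_eq_mul] at h5
      have h6 : ((Finset.univ : Finset G).card : ℂ) ≠ 0 := by exact_mod_cast hcard
      exact Cfsg.Agent.Lib.Char.IsIrrCharacter.apply_one_ne_zero χ.2 ((mul_eq_zero.mp h5).resolve_left h6)
  -- nonprincipal characters have degree at least `p`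
  have hdeg : ∀ χ : Cfsg.IrrCharacter G, χ ≠ one → p ≤ d χ := by
    intro χ hχ
    by_contra hlt
    push Not at hlt
    -- the restriction to `P` has only linear constituents
    let _ : Fintype P := Fintype.ofFinite P
    have hres := Cfsg.Agent.Lib.Char.isCharacter_resFun (P : Subgroup G) (Cfsg.Agent.Lib.Char.IsIrrCharacter.isCharacter χ.2)
    obtain ⟨m', hm', hsum⟩ := Cfsg.Agent.Lib.Char.IsCharacter.exists_eq_sum hres
    have hlin : ∀ ψ : Cfsg.IrrCharacter P, m' ψ ≠ 0 → (ψ : P → ℂ) 1 = 1 := by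
      intro ψ hψ
      have hne' : Cfsg.classInner (Cfsg.Agent.Lib.Char.resFun (P : Subgroup G) (χ : G → ℂ)) (ψ : P → ℂ) ≠ 0 := by
        rw [hm']
        exact_mod_cast hψ
      have hle := Cfsg.Agent.Lib.Char.IsCharacter.degree_ge_of_classInner_ne_zero hres ψ.2 hne'
      have hψd := Cfsg.Agent.Lib.Char.apply_one_eq_charDegree (Cfsg.Agent.Lib.Char.IsIrrCharacter.isCharacter ψ.2)
      have hχ1 : Cfsg.Agent.Lib.Char.resFun (P : Subgroup G) (χ : G → ℂ) 1 = (d χ : ℂ) := hd χ
      rw [hχ1, hψd] at hle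
      simp only [Complex.natCast_re] at hle
      have hle' : Cfsg.charDegree (ψ : P → ℂ) ≤ d χ := by exact_mod_cast hle
      have hdvd := Cfsg.Agent.Lib.Char.charDegree_dvd_card ψ.2
      rw [hm] at hdvd
      obtain ⟨j, -, hj⟩ := (Nat.dvd_prime_pow (Fact.out : p.Prime)).mp hdvd
      have hj0 : j = 0 := by
        by_contra hj0
        have : p ≤ p ^ j := Nat.le_self_pow hj0 p
        omega
      rw [hψd, hj, hj0]
      simp
    let A : P := ⟨a, ha⟩
    let B : P := ⟨b, hb⟩
    have hval : ∀ (ψ : Cfsg.IrrCharacter P), m' ψ ≠ 0 → (ψ : P → ℂ) (A * B * (B * A)⁻¹) = 1 := by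
      intro ψ hψ
      obtain ⟨lam, hlam⟩ := Cfsg.Agent.Lib.Char.IsCharacter.exists_monoidHom (Cfsg.Agent.Lib.Char.IsIrrCharacter.isCharacter ψ.2) (hlin ψ hψ)
      rw [hlam]
      have : lam (A * B * (B * A)⁻¹) = 1 := by
        rw [map_mul, map_inv, map_mul, map_mul, mul_comm (lam B) (lam A), mul_inv_cancel]
      show ((lam (A * B * (B * A)⁻¹) : ℂˣ) : ℂ) = 1
      rw [this]
      rfl
    have hchi : (χ : G → ℂ) ((A * B * (B * A)⁻¹ : P) : G) = (χ : G → ℂ) ((1 : P) : G) := by
      have h1 := congrFun hsum (A * B * (B * A)⁻¹)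
      have h2 := congrFun hsum 1
      change (χ : G → ℂ) _ = _ at h1
      change (χ : G → ℂ) _ = _ at h2
      rw [h1, h2]
      simp only [Finset.sum_apply, Pi.smul_apply]
      refine Finset.sum_congr rfl fun ψ _ => ?_
      by_cases hψ : m' ψ = 0
      · simp [hψ]
      · rw [hval ψ hψ, hlin ψ hψ]
    have hker : ((A * B * (B * A)⁻¹ : P) : G) ∈ Cfsg.Agent.Lib.Char.charKer (χ : G → ℂ) :=
      (Cfsg.Agent.Lib.Char.mem_charKer (Cfsg.Agent.Lib.Char.IsIrrCharacter.isCharacter χ.2)).mpr hchi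
    rw [hfaith χ hχ] at hker
    have h3 : A * B * (B * A)⁻¹ = 1 := Subtype.ext (by simpa using hker)
    exact hne (congrArg Subtype.val (mul_inv_eq_one.mp h3))
  -- the count
  have hsumC := Cfsg.Agent.Lib.Char.sum_irr_degree_sq (G := G)
  have hsumN : ∑ χ : Cfsg.IrrCharacter G, d χ ^ 2 = Nat.card G := by
    simp only [hd] at hsumC
    exact_mod_cast hsumC
  have hd1 : d one = 1 := by
    apply Cfsg.Agent.Lib.Char.charDegree_eq
    simp [one]
  have hsplit := Finset.add_sum_erase Finset.univ (fun χ : Cfsg.IrrCharacter G => d χ ^ 2) (Finset.mem_univ one)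
  rw [hsumN] at hsplit
  simp only [hd1, one_pow] at hsplit
  -- the excess
  have hex : ∃ S : ℕ, ∑ χ ∈ Finset.univ.erase one, d χ ^ 2 = (Finset.univ.erase one).card * p ^ 2 + S := by
    refine ⟨∑ χ ∈ Finset.univ.erase one, (d χ ^ 2 - p ^ 2), ?_⟩
    rw [← smul_eq_mul, ← Finset.sum_const, ← Finset.sum_add_distrib]
    refine Finset.sum_congr rfl fun χ hχ => ?_
    have h1 := hdeg χ (Finset.ne_of_mem_erase hχ)
    have h2 : p ^ 2 ≤ d χ ^ 2 := Nat.pow_le_pow_left h1 2
    omega
  obtain ⟨S, hS⟩ := hex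
  rw [hS] at hsplit
  have hk : Nat.card (ConjClasses G) = (Finset.univ.erase one).card + 1 := by
    rw [← Cfsg.Agent.Lib.Char.card_irr_eq_card_conjClasses, Finset.card_erase_of_mem (Finset.mem_univ one),
      Finset.card_univ, Nat.card_eq_fintype_card]
    have : 0 < Fintype.card (Cfsg.IrrCharacter G) := Fintype.card_pos_iff.mpr ⟨one⟩
    omega
  rw [hk] at hmany
  -- contradiction modulo `p ^ 2`
  set t := (Finset.univ.erase one).card
  have hdvd : p ^ 2 ∣ 1 + S := by
    have h1 : Nat.card G = t * p ^ 2 + (1 + S) := by omega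
    rw [h1] at hp2
    exact (Nat.dvd_add_right (Dvd.intro_left t rfl)).mp hp2
  have hlt : 1 + S < p ^ 2 := by
    have h1 : p ^ 2 * (t + 1) = t * p ^ 2 + p ^ 2 := by ring
    omega
  exact absurd (Nat.le_of_dvd (by omega) hdvd) (by omega)

end Cfsg.Agent.S0186
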