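import Cfsg.Statements.S0189
import Cfsg.Agent.Lib.Char.Basic
-- import your own Cfsg.Agent.* helpers here

set_option autoImplicit false
open Cfsg

namespace Cfsg.Agent.S0189

/-- If a complex character of a finite group vanishes at every non-identity element of a Sylow p-subgroup P, then |P| divides its degree. -/
theorem result {G : Type*} [Group G] [Finite G] (p : ℕ) [Fact p.Prime] (P : Sylow p G) (χ : G → ℂ) (hχ : Cfsg.IsCharacter G χ) (hvan : ∀ g : G, g ∈ P → g ≠ 1 → χ g = 0) : ∃ k : ℕ, χ 1 = (Nat.card P : ℂ) * k := by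
  classical
  obtain ⟨n, ρ, hρ⟩ := hχ
  have hχ' : Cfsg.IsCharacter G χ := ⟨n, ρ, hρ⟩
  have hres : Cfsg.IsCharacter (P : Subgroup G) (χ ∘ (P : Subgroup G).subtype) :=
    Cfsg.Agent.Lib.Char.IsCharacter.comp hχ' _
  let _ := Fintype.ofFinite G
  let _ := Fintype.ofFinite (P : Subgroup G)
  obtain ⟨m, hm⟩ := Cfsg.Agent.Lib.Char.IsCharacter.classInner_irr_eq_nat hres
    (Cfsg.Agent.Lib.Char.isIrrCharacter_one)
  refine ⟨m, ?_⟩
  rw [← hm]
  simp only [Cfsg.classInner, map_one, mul_one, Function.comp]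
  have hne : (Nat.card (P : Subgroup G) : ℂ) ≠ 0 := by exact_mod_cast Nat.card_pos.ne'
  rw [Finset.sum_eq_single (1 : (P : Subgroup G))]
  · field_simp
    simp
  · intro b _ hb
    apply hvan
    · exact b.2
    · simpa using hb
  · simp

end Cfsg.Agent.S0189
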