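import Cfsg.Statements.S0190
import Cfsg.Agent.Lib.Char.Ind
-- import your own Cfsg.Agent.* helpers here

set_option autoImplicit false
open Cfsg

namespace Cfsg.Agent.S0190

/-- For a transitive action of a finite group on X, the permutation character g ↦ (number of fixed points of g) is the function induced from the principal character of the stabilizer of any point. -/
theorem result {G : Type*} [Group G] [Fintype G] (X : Type*) [MulAction G X] [Finite X] [MulAction.IsPretransitive G X] (x : X) : (fun g : G => (Nat.card (MulAction.fixedBy X g) : ℂ)) = Cfsg.indFun (MulAction.stabilizer G x) (fun _ => 1) := by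
  classical
  haveI : Fintype X := Fintype.ofFinite X
  funext g
  rw [Cfsg.Agent.Lib.Char.indFun_apply]
  have hext : ∀ y : G, Cfsg.extendByZero (MulAction.stabilizer G x) (fun _ => (1 : ℂ)) (y⁻¹ * g * y) =
      if y • x ∈ MulAction.fixedBy X g then 1 else 0 := by
    intro y
    have hiff : y⁻¹ * g * y ∈ MulAction.stabilizer G x ↔ y • x ∈ MulAction.fixedBy X g := by
      rw [MulAction.mem_stabilizer_iff, MulAction.mem_fixedBy, mul_smul, mul_smul, inv_smul_eq_iff]
    split_ifs with h
    · rw [Cfsg.Agent.Lib.Char.extendByZero_of_mem _ _ (hiff.mpr h)]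
    · rw [Cfsg.Agent.Lib.Char.extendByZero_of_notMem _ _ (fun h' => h (hiff.mp h'))]
  simp only [hext]
  rw [Finset.sum_boole]
  have hfib : ∀ z : X, (Finset.univ.filter (fun y : G => y • x = z)).card = Nat.card (MulAction.stabilizer G x) := by
    intro z
    obtain ⟨y0, hy0⟩ := MulAction.exists_smul_eq G x z
    rw [Nat.card_eq_fintype_card, Fintype.card_subtype]
    refine Finset.card_equiv (Equiv.mulLeft y0⁻¹) ?_
    intro y
    simp only [Finset.mem_filter, Finset.mem_univ, true_and, Equiv.coe_mulLeft, MulAction.mem_stabilizer_iff, mul_smul, inv_smul_eq_iff, hy0]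
  have hcount : (Finset.univ.filter (fun y : G => y • x ∈ MulAction.fixedBy X g)).card =
      (Finset.univ.filter (fun z : X => z ∈ MulAction.fixedBy X g)).card * Nat.card (MulAction.stabilizer G x) := by
    rw [Finset.card_eq_sum_card_fiberwise (f := fun y : G => y • x) (t := Finset.univ.filter (fun z : X => z ∈ MulAction.fixedBy X g))
      (fun y hy => by simpa using hy)]
    rw [← smul_eq_mul, ← Finset.sum_const]
    refine Finset.sum_congr rfl fun z hz => ?_
    rw [← hfib z]
    congr 1
    ext y
    simp only [Finset.mem_filter, Finset.mem_univ, true_and]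
    constructor
    · rintro ⟨_, h⟩; exact h
    · rintro h
      refine ⟨?_, h⟩
      rw [h]
      simpa using hz
  rw [hcount]
  have hne : ((Nat.card (MulAction.stabilizer G x) : ℕ) : ℂ) ≠ 0 := by exact_mod_cast Nat.card_pos.ne'
  have hF : (Finset.univ.filter (fun z : X => z ∈ MulAction.fixedBy X g)).card = Nat.card (MulAction.fixedBy X g) := by
    rw [Nat.card_eq_fintype_card, Fintype.card_subtype]
  rw [hF]
  push_cast
  field_simp

end Cfsg.Agent.S0190
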