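import Cfsg.Statements.S0191
import Cfsg.Agent.Lib.Char.Galois
-- import your own Cfsg.Agent.* helpers here

set_option autoImplicit false
open Cfsg

namespace Cfsg.Agent.S0191

/-- An irreducible complex representation of a finite group of degree greater than 1 has a character that vanishes somewhere. -/
theorem result {G : Type*} [Group G] [Finite G] {V : Type*} [AddCommGroup V] [Module ℂ V] [FiniteDimensional ℂ V] (ρ : Representation ℂ G V) [ρ.IsIrreducible] (hdeg : 1 < Module.finrank ℂ V) : ∃ g : G, ρ.character g = 0 := by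
  classical
  let _ : Fintype G := Fintype.ofFinite G
  by_contra hne
  push Not at hne
  have hχ := Cfsg.Agent.Lib.Char.isIrrCharacter_character ρ
  have hχc := Cfsg.Agent.Lib.Char.IsIrrCharacter.isCharacter hχ
  let S : Finset G := Finset.univ.erase 1
  have hS : ∀ k : ℕ, k.Coprime (Nat.card G) → ∀ x ∈ S, x ^ k ∈ S := by
    intro k hk x hx
    have hx1 := Finset.ne_of_mem_erase hx
    apply Finset.mem_erase.mpr ⟨?_, Finset.mem_univ _⟩
    intro h
    apply hx1
    exact (Cfsg.Agent.Lib.Char.pow_bijective_of_coprime hk).1 (h.trans (one_pow k).symm)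
  have h1 := Cfsg.Agent.Lib.Char.card_le_sum_norm_sq hχc S hS (fun x _ => hne x)
  -- sum of squares
  have h2 := Cfsg.Agent.Lib.Char.classInner_irr_self hχ
  simp only [Cfsg.classInner] at h2
  have hG : ((Nat.card G : ℕ) : ℂ) ≠ 0 := by exact_mod_cast Nat.card_pos.ne'
  have h3 : ∑ g : G, ρ.character g * (starRingEnd ℂ) (ρ.character g) = (Nat.card G : ℂ) := by
    field_simp at h2
    exact h2
  have h4 : ∀ g : G, ρ.character g * (starRingEnd ℂ) (ρ.character g) = ((‖ρ.character g‖ ^ 2 : ℝ) : ℂ) := by
    intro g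
    rw [Complex.mul_conj, Complex.normSq_eq_norm_sq]
  simp only [h4] at h3
  have h5 : ∑ g : G, ‖ρ.character g‖ ^ 2 = (Nat.card G : ℝ) := by exact_mod_cast h3
  have hsplit := Finset.add_sum_erase Finset.univ (fun g : G => ‖ρ.character g‖ ^ 2) (Finset.mem_univ (1 : G))
  rw [h5, Representation.char_one] at hsplit
  have hScard : (S.card : ℝ) = (Nat.card G : ℝ) - 1 := by
    have : S.card = Nat.card G - 1 := by
      rw [Finset.card_erase_of_mem (Finset.mem_univ _), Finset.card_univ, Nat.card_eq_fintype_card]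
    rw [this, Nat.cast_sub Nat.card_pos]
    simp
  rw [hScard] at h1
  have h6 : ‖((Module.finrank ℂ V : ℕ) : ℂ)‖ = (Module.finrank ℂ V : ℝ) := by simp
  rw [h6] at hsplit
  have h7 : (1 : ℝ) < (Module.finrank ℂ V : ℝ) := by exact_mod_cast hdeg
  nlinarith

end Cfsg.Agent.S0191
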