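import Cfsg.Statements.S0192
import Cfsg.Agent.Lib.Char.Invariants
-- import your own Cfsg.Agent.* helpers here

set_option autoImplicit false
open Cfsg

namespace Cfsg.Agent.S0192

/-- Brauer's generation criterion. Let G be a finite simple group, H₁ and H₂ subgroups, and χ a non-principal irreducible character. If the multiplicity of the principal character in χ restricted to H₁ ⊓ H₂ is less than the sum of the corresponding multiplicities for H₁ and H₂, then H₁ and H₂ do not generate G. -/
theorem result {G : Type*} [Group G] [Fintype G] [IsSimpleGroup G] (H₁ H₂ : Subgroup G) [Fintype H₁] [Fintype H₂] [Fintype ↥(H₁ ⊓ H₂)] (χ : G → ℂ) (hχ : Cfsg.IsIrrCharacter G χ) (hχ1 : χ ≠ fun _ => 1) (hlt : (Cfsg.classInner (fun x : ↥(H₁ ⊓ H₂) => χ x) (fun _ => 1)).re < (Cfsg.classInner (fun x : H₁ => χ x) (fun _ => 1)).re + (Cfsg.classInner (fun x : H₂ => χ x) (fun _ => 1)).re) : H₁ ⊔ H₂ ≠ ⊤ := by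
  classical
  intro htop
  obtain ⟨n, ρ, hirr, rfl⟩ := hχ
  rw [Cfsg.Agent.Lib.Char.classInner_res_one_eq_finrank ρ (H₁ ⊓ H₂),
    Cfsg.Agent.Lib.Char.classInner_res_one_eq_finrank ρ H₁,
    Cfsg.Agent.Lib.Char.classInner_res_one_eq_finrank ρ H₂] at hlt
  simp only [Complex.natCast_re] at hlt
  have hlt' : Module.finrank ℂ (Representation.invariants (ρ.comp (H₁ ⊓ H₂).subtype)) <
      Module.finrank ℂ (Representation.invariants (ρ.comp H₁.subtype)) +
      Module.finrank ℂ (Representation.invariants (ρ.comp H₂.subtype)) := by exact_mod_cast hlt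
  set U₁ := Representation.invariants (ρ.comp H₁.subtype) with hU₁
  set U₂ := Representation.invariants (ρ.comp H₂.subtype) with hU₂
  set U := Representation.invariants (ρ.comp (H₁ ⊓ H₂).subtype) with hU
  have hsup : U₁ ⊔ U₂ ≤ U := by
    apply sup_le
    · intro v hv g
      exact hv ⟨g.1, g.2.1⟩
    · intro v hv g
      exact hv ⟨g.1, g.2.2⟩
  have h1 := Submodule.finrank_sup_add_finrank_inf_eq U₁ U₂
  have h2 := Submodule.finrank_mono hsup
  have h3 : 0 < Module.finrank ℂ ↥(U₁ ⊓ U₂) := by omega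
  have h4 : U₁ ⊓ U₂ ≠ ⊥ := by
    intro h
    rw [h, finrank_bot] at h3
    exact lt_irrefl _ h3
  obtain ⟨v, hv, hv0⟩ := (Submodule.ne_bot_iff _).mp h4
  let S : Subgroup G :=
    { carrier := {g | ρ g v = v}
      mul_mem' := by
        intro a b ha hb
        simp only [Set.mem_setOf_eq] at *
        rw [map_mul, Module.End.mul_apply, hb, ha]
      one_mem' := by simp
      inv_mem' := by
        intro a ha
        simp only [Set.mem_setOf_eq] at *
        have : ρ a⁻¹ (ρ a v) = v := by
          rw [← Module.End.mul_apply, ← map_mul]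
          simp
        rwa [ha] at this }
  have hS : H₁ ⊔ H₂ ≤ S := by
    apply sup_le
    · intro g hg
      exact hv.1 ⟨g, hg⟩
    · intro g hg
      exact hv.2 ⟨g, hg⟩
  rw [htop] at hS
  have hfix : ∀ g, ρ g v = v := fun g => hS (Subgroup.mem_top g)
  exact hχ1 (Cfsg.Agent.Lib.Char.character_eq_one_of_fixed ρ hv0 hfix)

end Cfsg.Agent.S0192
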