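import Cfsg.Statements.S0196
import Mathlib.Tactic.Group
import Mathlib.GroupTheory.GroupAction.Quotient
import Mathlib.Algebra.BigOperators.GroupWithZero.Action
import Mathlib.Data.Fintype.Card
import Mathlib.Data.Set.Card
-- import your own Cfsg.Agent.* helpers here

set_option autoImplicit false
open Cfsg

namespace Cfsg.Agent.S0196

/-- Let A be a subgroup of a finite group G that equals the centralizer of each of its non-identity elements, and let N be its normalizer. Then the index of A in N divides |A| − 1 (N/A permutes the non-identity elements of A in orbits of full length). -/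
theorem result {G : Type*} [Group G] [Finite G] (A : Subgroup G) (hA : ∀ x ∈ A, x ≠ 1 → Subgroup.centralizer ({x} : Set G) = A) : (A.subgroupOf (Subgroup.normalizer (A : Set G))).index ∣ Nat.card A - 1 := by
  classical
  have := Fintype.ofFinite G
  have hNA : ∀ (n : Subgroup.normalizer (A : Set G)) (x : A), (n:G) * x * (n:G)⁻¹ ∈ A :=
    fun n x => (Subgroup.mem_normalizer_iff.mp n.2 x).1 x.2
  let X := {x : A // x ≠ 1}
  let act : MulAction (Subgroup.normalizer (A : Set G)) X :=
    { smul := fun n x => ⟨⟨n * x.1 * (n : G)⁻¹, hNA n x.1⟩, by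
        intro h
        apply x.2
        have h' : (n : G) * (x.1 : G) * (n : G)⁻¹ = 1 := congrArg Subtype.val h
        ext
        have h2 : (x.1 : G) = (n : G)⁻¹ * ((n : G) * (x.1 : G) * (n : G)⁻¹) * n := by group
        rw [h2, h']
        simp⟩
      one_smul := by
        intro x
        apply Subtype.ext; apply Subtype.ext
        change ((1 : Subgroup.normalizer (A : Set G)) : G) * x.1 * ((1 : Subgroup.normalizer (A : Set G)) : G)⁻¹ = x.1
        simp
      mul_smul := by
        intro a b x
        apply Subtype.ext; apply Subtype.ext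
        change ((a * b : Subgroup.normalizer (A : Set G)) : G) * x.1 * ((a * b : Subgroup.normalizer (A : Set G)) : G)⁻¹ = (a : G) * ((b : G) * x.1 * (b : G)⁻¹) * (a : G)⁻¹
        simp only [Subgroup.coe_mul]
        group }
  have hsm : ∀ (n : Subgroup.normalizer (A : Set G)) (x : X), (((n • x : X) : A) : G) = (n : G) * x.1 * (n : G)⁻¹ := fun _ _ => rfl
  have hstab : ∀ x : X, MulAction.stabilizer (Subgroup.normalizer (A : Set G)) x = A.subgroupOf (Subgroup.normalizer (A : Set G)) := by
    intro x
    ext n
    rw [MulAction.mem_stabilizer_iff, Subgroup.mem_subgroupOf]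
    have hx1 : (x.1 : G) ≠ 1 := fun h => x.2 (Subtype.ext h)
    have hxc : (n : G) ∈ A ↔ (n : G) ∈ Subgroup.centralizer ({(x.1 : G)} : Set G) := by
      rw [hA x.1 x.1.2 hx1]
    rw [hxc, Subgroup.mem_centralizer_singleton_iff]
    constructor
    · intro h
      have h' := congrArg (fun y : X => ((y : A) : G)) h
      simp only [hsm] at h'
      calc (n : G) * x.1 = (n : G) * x.1 * (n : G)⁻¹ * n := by group
        _ = x.1 * n := by rw [h']
    · intro h
      apply Subtype.ext; apply Subtype.ext
      rw [hsm, h]
      group
  let e := MulAction.selfEquivSigmaOrbitsQuotientStabilizer (Subgroup.normalizer (A : Set G)) X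
  have hcard : Nat.card X = ∑ ω : MulAction.orbitRel.Quotient (Subgroup.normalizer (A : Set G)) X, (A.subgroupOf (Subgroup.normalizer (A : Set G))).index := by
    rw [Nat.card_congr e, Nat.card_sigma]
    refine Finset.sum_congr rfl fun ω _ => ?_
    rw [hstab]
    rfl
  have hX : Nat.card X = Nat.card A - 1 := by
    simp only [X]
    rw [Nat.card_eq_fintype_card, Nat.card_eq_fintype_card, Fintype.card_subtype_compl]
    simp
  rw [← hX, hcard]
  exact Finset.dvd_sum fun _ _ => dvd_rfl

end Cfsg.Agent.S0196
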