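import Cfsg.Statements.S0206
import Mathlib
import Cfsg.Agent.Lib.Invol.Basic

set_option autoImplicit false
open Cfsg

namespace Cfsg.Agent.S0206

open Cfsg.Agent.Lib.Invol

private theorem pw_eq {G : Type*} [Group G] (c : G) [NeZero (orderOf c)] (k : ℤ) :
    c ^ (((k : ZMod (orderOf c))).val : ℤ) = c ^ k := by
  rw [zpow_eq_zpow_iff_modEq, ← ZMod.intCast_eq_intCast_iff]
  simp

private theorem pw_eq' {G : Type*} [Group G] (c : G) [NeZero (orderOf c)] (i : ZMod (orderOf c)) (k : ℤ)
    (h : (k : ZMod (orderOf c)) = i) :
    c ^ (i.val : ℤ) = c ^ k := by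
  rw [← h, pw_eq]

/-- Two distinct involutions x, y of a finite group generate a subgroup isomorphic to the dihedral group of order 2·|xy|. -/
theorem result {G : Type*} [Group G] [Finite G] (x y : G) (hx : orderOf x = 2) (hy : orderOf y = 2) (hxy : x ≠ y) : Nonempty (↥(Subgroup.closure ({x, y} : Set G)) ≃* DihedralGroup (orderOf (x * y))) := by
  have hx' := mul_self_of_orderOf_eq_two hx
  have hy' := mul_self_of_orderOf_eq_two hy
  have hxi := inv_eq_of_orderOf_eq_two hx
  have hyi := inv_eq_of_orderOf_eq_two hy
  set c := x * y with hc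
  have hn0 : orderOf c ≠ 0 := (orderOf_pos c).ne'
  haveI : NeZero (orderOf c) := ⟨hn0⟩
  have hyc : y = x * c := by rw [hc, ← mul_assoc, hx', one_mul]
  -- define the map
  let F : DihedralGroup (orderOf c) → Subgroup.closure ({x, y} : Set G) := fun d =>
    match d with
    | DihedralGroup.r i => ⟨c ^ (i.val : ℤ), zpow_mem_closure_pair _⟩
    | DihedralGroup.sr i => ⟨x * c ^ (i.val : ℤ), x_zpow_mem_closure_pair _⟩
  have Fmul : ∀ a b, F (a * b) = F a * F b := by
    intro a b
    apply Subtype.ext
    cases a with
    | r i =>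
      cases b with
      | r j =>
        show c ^ ((i + j).val : ℤ) = c ^ (i.val : ℤ) * c ^ (j.val : ℤ)
        rw [← zpow_add]
        exact pw_eq' c _ _ (by simp)
      | sr j =>
        show x * c ^ ((j - i).val : ℤ) = c ^ (i.val : ℤ) * (x * c ^ (j.val : ℤ))
        rw [zpow_x_zpow hx' hy']
        congr 1
        exact pw_eq' c _ _ (by simp)
    | sr i =>
      cases b with
      | r j =>
        show x * c ^ ((i + j).val : ℤ) = x * c ^ (i.val : ℤ) * c ^ (j.val : ℤ)
        rw [mul_assoc, ← zpow_add]
        congr 1
        exact pw_eq' c _ _ (by simp)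
      | sr j =>
        show c ^ ((j - i).val : ℤ) = x * c ^ (i.val : ℤ) * (x * c ^ (j.val : ℤ))
        rw [x_zpow_x_zpow hx' hy']
        exact pw_eq' c _ _ (by simp)
  have hinj_pow : ∀ i j : ZMod (orderOf c), c ^ (i.val : ℤ) = c ^ (j.val : ℤ) → i = j := by
    intro i j hij
    rw [zpow_eq_zpow_iff_modEq, ← ZMod.intCast_eq_intCast_iff] at hij
    simpa using hij
  have hxnot : ∀ k : ℤ, x ≠ c ^ k := by
    intro k hk
    -- then x commutes with c
    have h1 : x * c * x = c := by
      have hcomm : Commute x c := by
        rw [hk]; exact (Commute.refl c).zpow_left k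
      rw [hcomm.eq, mul_assoc, hx', mul_one]
    have h2 : x * c * x = c⁻¹ := conj_mul_eq_inv hx' hy'
    have h3 : c * c = 1 := by
      have : c = c⁻¹ := h1.symm.trans h2
      calc c * c = c * c⁻¹ := by rw [← this]
        _ = 1 := mul_inv_cancel c
    -- now c has order dividing 2
    have hc1 : c ≠ 1 := by
      intro h
      apply hxy
      have : x * y = 1 := h
      calc x = x * (y * y) := by rw [hy', mul_one]
        _ = (x * y) * y := by rw [mul_assoc]
        _ = y := by rw [this, one_mul]
    have hcord : orderOf c = 2 := orderOf_eq_two_of_mul_self h3 hc1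
    -- c^k ∈ {1,c}
    have hk2 : c ^ k = 1 ∨ c ^ k = c := by
      rcases Int.emod_two_eq_zero_or_one k with h | h
      · left
        rw [← zpow_mod_orderOf, hcord]
        simp [h]
      · right
        rw [← zpow_mod_orderOf, hcord]
        simp [h]
    rcases hk2 with h | h
    · rw [h] at hk
      rw [hk] at hx
      simp at hx
    · rw [h] at hk
      have : y = 1 := by
        have h5 : x * y = x := by rw [← hc]; exact hk.symm
        exact mul_left_cancel (h5.trans (mul_one x).symm)
      rw [this] at hy
      simp at hy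
  have Finj : Function.Injective F := by
    intro a b hab
    have hab' := congrArg Subtype.val hab
    cases a with
    | r i =>
      cases b with
      | r j =>
        congr 1
        exact hinj_pow i j hab'
      | sr j =>
        exfalso
        have hab'' : c ^ (i.val : ℤ) = x * c ^ (j.val : ℤ) := hab'
        apply hxnot ((i.val : ℤ) - j.val)
        rw [zpow_sub, hab'']
        simp
    | sr i =>
      cases b with
      | r j =>
        exfalso
        have hab'' : x * c ^ (i.val : ℤ) = c ^ (j.val : ℤ) := hab'
        apply hxnot ((j.val : ℤ) - i.val)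
        rw [zpow_sub, ← hab'']
        simp
      | sr j =>
        congr 1
        have hab'' : x * c ^ (i.val : ℤ) = x * c ^ (j.val : ℤ) := hab'
        exact hinj_pow i j (mul_left_cancel hab'')
  have Fsurj : Function.Surjective F := by
    rintro ⟨d, hd⟩
    rcases mem_closure_pair hx' hy' hd with ⟨k, rfl⟩ | ⟨k, rfl⟩
    · refine ⟨DihedralGroup.r (k : ZMod (orderOf c)), ?_⟩
      apply Subtype.ext
      exact pw_eq c k
    · refine ⟨DihedralGroup.sr (k : ZMod (orderOf c)), ?_⟩
      apply Subtype.ext
      show x * c ^ (((k : ZMod (orderOf c))).val : ℤ) = x * c ^ k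
      rw [pw_eq c k]
  exact ⟨(MulEquiv.ofBijective (MulHom.mk F Fmul) ⟨Finj, Fsurj⟩).symm⟩

end Cfsg.Agent.S0206
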