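import Cfsg.Statements.S0207
import Mathlib
import Cfsg.Agent.Lib.Invol.Basic

set_option autoImplicit false
open Cfsg

namespace Cfsg.Agent.S0207

/-- If x, y are distinct involutions, every element of the subgroup they generate that lies outside the cyclic subgroup generated by xy is an involution. -/
theorem result {G : Type*} [Group G] [Finite G] (x y : G) (hx : orderOf x = 2) (hy : orderOf y = 2) (hxy : x ≠ y) (d : G) (hd : d ∈ Subgroup.closure ({x, y} : Set G)) (hd' : d ∉ Subgroup.zpowers (x * y)) : orderOf d = 2 := by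
  have hx' := Cfsg.Agent.Lib.Invol.mul_self_of_orderOf_eq_two hx
  have hy' := Cfsg.Agent.Lib.Invol.mul_self_of_orderOf_eq_two hy
  rcases Cfsg.Agent.Lib.Invol.mem_closure_pair hx' hy' hd with ⟨k, rfl⟩ | ⟨k, rfl⟩
  · exact absurd (Subgroup.mem_zpowers_iff.mpr ⟨k, rfl⟩) hd'
  · apply Cfsg.Agent.Lib.Invol.orderOf_eq_two_of_mul_self (Cfsg.Agent.Lib.Invol.x_zpow_sq hx' hy' k)
    intro h
    apply hd'
    rw [h]
    exact Subgroup.one_mem _

end Cfsg.Agent.S0207
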