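import Cfsg.Statements.S0208
import Mathlib
import Cfsg.Agent.Lib.Invol.Basic

set_option autoImplicit false
open Cfsg

namespace Cfsg.Agent.S0208

/-- If x, y are involutions and xy has odd order, then some element of the subgroup generated by x and y conjugates x to y. -/
theorem result {G : Type*} [Group G] [Finite G] (x y : G) (hx : orderOf x = 2) (hy : orderOf y = 2) (hodd : Odd (orderOf (x * y))) : ∃ d ∈ Subgroup.closure ({x, y} : Set G), d * x * d⁻¹ = y := by
  have hx' := Cfsg.Agent.Lib.Invol.mul_self_of_orderOf_eq_two hx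
  have hy' := Cfsg.Agent.Lib.Invol.mul_self_of_orderOf_eq_two hy
  obtain ⟨m, hm⟩ := hodd
  have hc : (x * y) ^ (2 * (m : ℤ) + 1) = 1 := by
    have := pow_orderOf_eq_one (x * y)
    rw [hm] at this
    exact_mod_cast this
  refine ⟨(x * y) ^ ((m : ℤ)), Cfsg.Agent.Lib.Invol.zpow_mem_closure_pair _, ?_⟩
  rw [Cfsg.Agent.Lib.Invol.conj_by_zpow hx' hy']
  have : -(2 * (m : ℤ)) = 1 - (2 * m + 1) := by ring
  rw [this, zpow_sub, hc, inv_one, mul_one, zpow_one, ← mul_assoc, hx', one_mul]

end Cfsg.Agent.S0208
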