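import Cfsg.Statements.S0209
import Mathlib
import Cfsg.Agent.Lib.Invol.Basic

set_option autoImplicit false
open Cfsg

namespace Cfsg.Agent.S0209

/-- If x, y are involutions whose product has even order n, the element (xy)^(n/2) is an involution that commutes with x and with y. -/
theorem result {G : Type*} [Group G] [Finite G] (x y : G) (hx : orderOf x = 2) (hy : orderOf y = 2) (heven : Even (orderOf (x * y))) : orderOf ((x * y) ^ (orderOf (x * y) / 2)) = 2 ∧ Commute ((x * y) ^ (orderOf (x * y) / 2)) x ∧ Commute ((x * y) ^ (orderOf (x * y) / 2)) y := by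
  have hx' := Cfsg.Agent.Lib.Invol.mul_self_of_orderOf_eq_two hx
  have hy' := Cfsg.Agent.Lib.Invol.mul_self_of_orderOf_eq_two hy
  obtain ⟨m, hm⟩ := heven
  have hm0 : 0 < m := by
    have := orderOf_pos (x * y)
    omega
  have hdiv : orderOf (x * y) / 2 = m := by omega
  rw [hdiv]
  have hord : orderOf ((x * y) ^ m) = 2 := by
    rw [orderOf_pow' _ hm0.ne', hm]
    have : Nat.gcd (m + m) m = m := by
      rw [Nat.gcd_comm]; simp
    rw [this]
    exact Nat.div_eq_of_eq_mul_right hm0 (by ring)
  refine ⟨hord, ?_, ?_⟩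
  · -- commutes with x
    have hzz := Cfsg.Agent.Lib.Invol.inv_eq_of_orderOf_eq_two hord
    have h1 := Cfsg.Agent.Lib.Invol.conj_zpow_eq hx' hy' (m : ℤ)
    rw [zpow_natCast, zpow_neg, zpow_natCast, hzz] at h1
    -- x z x = z
    show (x * y) ^ m * x = x * (x * y) ^ m
    calc (x * y) ^ m * x = (x * (x * y) ^ m * x) * x := by rw [h1]
      _ = x * (x * y) ^ m := by rw [mul_assoc, hx', mul_one]
  · have hzz := Cfsg.Agent.Lib.Invol.inv_eq_of_orderOf_eq_two hord
    have hxz : (x * y) ^ m * x = x * (x * y) ^ m := by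
      have h1 := Cfsg.Agent.Lib.Invol.conj_zpow_eq hx' hy' (m : ℤ)
      rw [zpow_natCast, zpow_neg, zpow_natCast, hzz] at h1
      calc (x * y) ^ m * x = (x * (x * y) ^ m * x) * x := by rw [h1]
        _ = x * (x * y) ^ m := by rw [mul_assoc, hx', mul_one]
    show (x * y) ^ m * y = y * (x * y) ^ m
    have hc : Commute (x * y) ((x * y) ^ m) := (Commute.refl _).pow_right m
    -- y = x * c
    have hy2 : y = x * (x * y) := by rw [← mul_assoc, hx', one_mul]
    calc (x * y) ^ m * y = (x * y) ^ m * (x * (x * y)) := by rw [← hy2]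
      _ = x * (x * y) ^ m * (x * y) := by rw [← mul_assoc, hxz]
      _ = x * (x * y) * (x * y) ^ m := by rw [mul_assoc, ← hc.eq, ← mul_assoc]
      _ = y * (x * y) ^ m := by rw [← hy2]

end Cfsg.Agent.S0209
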