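import Cfsg.Statements.S0210
import Mathlib
import Cfsg.Agent.Lib.Invol.Basic

set_option autoImplicit false
open Cfsg

namespace Cfsg.Agent.S0210

/-- If x, y are involutions whose product has even order, no element of the subgroup generated by x and y conjugates x to y. -/
theorem result {G : Type*} [Group G] [Finite G] (x y : G) (hx : orderOf x = 2) (hy : orderOf y = 2) (heven : Even (orderOf (x * y))) (d : G) (hd : d ∈ Subgroup.closure ({x, y} : Set G)) : d * x * d⁻¹ ≠ y := by
  have hx' := Cfsg.Agent.Lib.Invol.mul_self_of_orderOf_eq_two hx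
  have hy' := Cfsg.Agent.Lib.Invol.mul_self_of_orderOf_eq_two hy
  obtain ⟨m, hm⟩ := heven
  have hy2 : y = x * (x * y) ^ (1 : ℤ) := by rw [zpow_one, ← mul_assoc, hx', one_mul]
  have key : ∀ j : ℤ, x * (x * y) ^ (2 * j) ≠ y := by
    intro j hj
    have hj2 := hj.trans hy2
    rw [mul_right_inj] at hj2
    have h3 : (x * y) ^ (2 * j - 1) = 1 := by
      rw [zpow_sub, hj2]; simp
    have h4 := orderOf_dvd_iff_zpow_eq_one.mpr h3
    rw [hm] at h4
    obtain ⟨t, ht⟩ := h4
    push_cast at ht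
    have : (2 : ℤ) ∣ 1 := ⟨j - m * t, by linarith⟩
    omega
  rcases Cfsg.Agent.Lib.Invol.mem_closure_pair hx' hy' hd with ⟨k, rfl⟩ | ⟨k, rfl⟩
  · rw [Cfsg.Agent.Lib.Invol.conj_by_zpow hx' hy']
    have := key (-k)
    rwa [show 2 * -k = -(2 * k) by ring] at this
  · rw [Cfsg.Agent.Lib.Invol.conj_by_x_zpow hx' hy']
    exact key k

end Cfsg.Agent.S0210
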