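import Cfsg.Statements.S0211
import Mathlib
import Cfsg.Agent.Lib.Invol.Basic

set_option autoImplicit false
open Cfsg

namespace Cfsg.Agent.S0211

/-- Let x, y be involutions with xy of even order n and z = (xy)^(n/2). Then xz is conjugate to x by an element of the subgroup generated by x, y if and only if 4 divides n. -/
theorem result {G : Type*} [Group G] [Finite G] (x y : G) (hx : orderOf x = 2) (hy : orderOf y = 2) (heven : Even (orderOf (x * y))) : (∃ d ∈ Subgroup.closure ({x, y} : Set G), d * x * d⁻¹ = x * (x * y) ^ (orderOf (x * y) / 2)) ↔ 4 ∣ orderOf (x * y) := by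
  have hx' := Cfsg.Agent.Lib.Invol.mul_self_of_orderOf_eq_two hx
  have hy' := Cfsg.Agent.Lib.Invol.mul_self_of_orderOf_eq_two hy
  obtain ⟨m, hm⟩ := heven
  have hdiv : orderOf (x * y) / 2 = m := by omega
  rw [hdiv]
  have hm0 : 0 < m := by
    have := orderOf_pos (x * y)
    omega
  have key : ∀ j : ℤ, x * (x * y) ^ (2 * j) = x * (x * y) ^ m → 4 ∣ orderOf (x * y) := by
    intro j hj
    rw [mul_right_inj] at hj
    have h3 : (x * y) ^ (2 * j - m) = 1 := by
      rw [zpow_sub, hj]; simp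
    have h4 := orderOf_dvd_iff_zpow_eq_one.mpr h3
    rw [hm] at h4 ⊢
    obtain ⟨t, ht⟩ := h4
    push_cast at ht
    have h2m : (2 : ℤ) ∣ m := ⟨j - m * t, by linarith⟩
    omega
  constructor
  · rintro ⟨d, hd, hdx⟩
    rcases Cfsg.Agent.Lib.Invol.mem_closure_pair hx' hy' hd with ⟨k, rfl⟩ | ⟨k, rfl⟩
    · rw [Cfsg.Agent.Lib.Invol.conj_by_zpow hx' hy'] at hdx
      apply key (-k)
      rw [show 2 * -k = -(2 * k) by ring]
      exact hdx
    · rw [Cfsg.Agent.Lib.Invol.conj_by_x_zpow hx' hy'] at hdx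
      exact key k hdx
  · intro h4
    rw [hm] at h4
    obtain ⟨t, ht⟩ := h4
    have hmt : m = 2 * t := by omega
    refine ⟨x * (x * y) ^ (t : ℤ), Cfsg.Agent.Lib.Invol.x_zpow_mem_closure_pair _, ?_⟩
    rw [Cfsg.Agent.Lib.Invol.conj_by_x_zpow hx' hy', hmt]
    congr 1
    exact_mod_cast (rfl : (x*y)^(2*t) = (x*y)^(2*t))

end Cfsg.Agent.S0211
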