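import Cfsg.Statements.S0235
import Mathlib
import Cfsg.Agent.Lib.Invol.Basic

set_option autoImplicit false
open Cfsg

namespace Cfsg.Agent.S0235

/-- If x² ≠ 1, the ordered pairs (u, v) of involutions with uv = x correspond bijectively to the involutions t with t x t⁻¹ = x⁻¹ (via (u, v) ↦ u), so the two counts agree. -/
theorem result {G : Type*} [Group G] [Finite G] (x : G) (hx : x ^ 2 ≠ 1) : Nat.card {p : G × G // orderOf p.1 = 2 ∧ orderOf p.2 = 2 ∧ p.1 * p.2 = x} = Nat.card {t : G // orderOf t = 2 ∧ t * x * t⁻¹ = x⁻¹} := by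
  open Cfsg.Agent.Lib.Invol in
  refine Nat.card_congr ⟨fun p => ⟨p.1.1, p.2.1, ?_⟩, fun t => ⟨(t.1, t.1 * x), t.2.1, ?_, ?_⟩, ?_, ?_⟩
  · obtain ⟨⟨u, v⟩, hu, hv, huv⟩ := p
    simp only at hu hv huv ⊢
    subst huv
    rw [mul_inv_rev, inv_eq_of_orderOf_eq_two hu, inv_eq_of_orderOf_eq_two hv]
    rw [← mul_assoc, mul_self_of_orderOf_eq_two hu, one_mul]
  · obtain ⟨t, ht, htx⟩ := t
    simp only
    apply orderOf_eq_two_of_mul_self
    · rw [inv_eq_of_orderOf_eq_two ht] at htx
      calc t * x * (t * x) = (t * x * t) * x := by simp only [mul_assoc]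
        _ = 1 := by rw [htx]; simp
    · intro h
      apply hx
      have h1 : x = t := by
        have : t * x = t * t := by rw [h, mul_self_of_orderOf_eq_two ht]
        exact mul_left_cancel this
      rw [h1, pow_two, mul_self_of_orderOf_eq_two ht]
  · obtain ⟨t, ht, htx⟩ := t
    simp only
    rw [← mul_assoc, mul_self_of_orderOf_eq_two ht, one_mul]
  · rintro ⟨⟨u, v⟩, hu, hv, huv⟩
    simp only at hu hv huv
    subst huv
    simp only [Subtype.mk.injEq, Prod.mk.injEq, true_and]
    rw [← mul_assoc, mul_self_of_orderOf_eq_two hu, one_mul]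
  · rintro ⟨t, ht, htx⟩
    rfl

end Cfsg.Agent.S0235
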