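import Cfsg.Statements.S0236
import Mathlib
import Cfsg.Agent.Lib.Invol.Basic

set_option autoImplicit false
open Cfsg

namespace Cfsg.Agent.S0236

/-- If x is an involution, the number of ordered pairs (u, v) of involutions with uv = x, plus one, equals the number of involutions in the centralizer of x. -/
theorem result {G : Type*} [Group G] [Finite G] (x : G) (hx : orderOf x = 2) : Nat.card {p : G × G // orderOf p.1 = 2 ∧ orderOf p.2 = 2 ∧ p.1 * p.2 = x} + 1 = Nat.card {t : G // orderOf t = 2 ∧ Commute t x} := by
  open Cfsg.Agent.Lib.Invol in
  have hx' := mul_self_of_orderOf_eq_two hx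
  have hcomm : ∀ t : {t : G // orderOf t = 2 ∧ Commute t x}, True := fun _ => trivial
  let A := {p : G × G // orderOf p.1 = 2 ∧ orderOf p.2 = 2 ∧ p.1 * p.2 = x}
  let B := {t : G // orderOf t = 2 ∧ Commute t x}
  have hA : ∀ p : A, Commute p.1.1 x ∧ p.1.1 ≠ x := by
    rintro ⟨⟨u, v⟩, hu, hv, huv⟩
    simp only at hu hv huv ⊢
    subst huv
    have hu' := mul_self_of_orderOf_eq_two hu
    have hv' := mul_self_of_orderOf_eq_two hv
    constructor
    · show u * (u * v) = u * v * u
      have h1 : u * v * u = v := by
        have hxx : (u * v) * (u * v) = 1 := hx'
        have : u * v * u * v = 1 := by rw [← mul_assoc] at hxx; exact hxx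
        calc u * v * u = u * v * u * (v * v) := by rw [hv', mul_one]
          _ = (u * v * u * v) * v := by simp only [mul_assoc]
          _ = v := by rw [this, one_mul]
      rw [h1, ← mul_assoc, hu', one_mul]
    · intro h
      have : v = 1 := by
        have h2 : u * v = u * 1 := by rw [mul_one]; exact h.symm
        exact mul_left_cancel h2
      rw [this] at hv
      simp at hv
  let f : Option A → B := fun o => match o with
    | none => ⟨x, hx, Commute.refl x⟩
    | some p => ⟨p.1.1, p.2.1, (hA p).1⟩
  have hf : Function.Bijective f := by
    constructor
    · intro a b hab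
      cases a with
      | none =>
        cases b with
        | none => rfl
        | some q =>
          exfalso
          exact (hA q).2 (congrArg Subtype.val hab).symm
      | some p =>
        cases b with
        | none =>
          exfalso
          exact (hA p).2 (congrArg Subtype.val hab)
        | some q =>
          have h1 : p.1.1 = q.1.1 := congrArg Subtype.val hab
          congr 1
          apply Subtype.ext
          apply Prod.ext h1
          have h2 : p.1.1 * p.1.2 = q.1.1 * q.1.2 := p.2.2.2.trans q.2.2.2.symm
          rw [h1] at h2
          exact mul_left_cancel h2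
    · rintro ⟨t, ht, htx⟩
      by_cases hxt : t = x
      · exact ⟨none, Subtype.ext hxt.symm⟩
      · have ht' := mul_self_of_orderOf_eq_two ht
        refine ⟨some ⟨(t, t * x), ht, ?_, ?_⟩, rfl⟩
        · apply orderOf_eq_two_of_mul_self
          · calc t * x * (t * x) = t * (x * t) * x := by simp only [mul_assoc]
              _ = t * (t * x) * x := by rw [htx.eq]
              _ = 1 := by rw [← mul_assoc, ht', one_mul, hx']
          · intro h
            apply hxt
            have h' : t * x = 1 := h
            have : t * x = t * t := by rw [h', ht']
            exact (mul_left_cancel this).symm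
        · simp only
          rw [← mul_assoc, ht', one_mul]
  have e := Nat.card_congr (Equiv.ofBijective f hf)
  rw [Finite.card_option] at e
  exact e

end Cfsg.Agent.S0236
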