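import Cfsg.Statements.S0237
import Mathlib
import Cfsg.Agent.Lib.Invol.Count

set_option autoImplicit false
open Cfsg

namespace Cfsg.Agent.S0237

/-- If x is real (conjugate to x⁻¹) in a finite group G, the number of g with g x g⁻¹ = x⁻¹ equals |C_G(x)|. -/
theorem result {G : Type*} [Group G] [Finite G] (x : G) (hreal : IsConj x x⁻¹) : Nat.card {g : G // g * x * g⁻¹ = x⁻¹} = Nat.card (Subgroup.centralizer ({x} : Set G)) := by
  obtain ⟨g₀, hg₀⟩ := isConj_iff.mp hreal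
  refine Nat.card_congr ⟨fun g => ⟨g₀⁻¹ * g.1, ?_⟩, fun c => ⟨g₀ * c.1, ?_⟩, ?_, ?_⟩
  · rw [Cfsg.Agent.Lib.Invol.mem_centralizer_singleton_iff']
    obtain ⟨g, hg⟩ := g
    simp only
    have : g * x = x⁻¹ * g := by
      rw [← hg]; group
    have h0 : g₀ * x = x⁻¹ * g₀ := by
      rw [← hg₀]; group
    have h1 : g₀⁻¹ * x⁻¹ = x * g₀⁻¹ := by
      rw [← hg₀]; group
    rw [mul_assoc, this, ← mul_assoc, h1, mul_assoc]
  · obtain ⟨c, hc⟩ := c
    rw [Cfsg.Agent.Lib.Invol.mem_centralizer_singleton_iff'] at hc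
    simp only
    have hc' : c * x * c⁻¹ = x := by rw [hc]; group
    calc g₀ * c * x * (g₀ * c)⁻¹ = g₀ * (c * x * c⁻¹) * g₀⁻¹ := by group
      _ = x⁻¹ := by rw [hc', hg₀]
  · intro g; simp
  · intro c; simp

end Cfsg.Agent.S0237
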