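import Cfsg.Statements.S0238
import Mathlib
import Cfsg.Agent.Lib.Invol.Count
import Cfsg.Agent.S0235
import Cfsg.Agent.S0236
import Cfsg.Agent.S0237

set_option autoImplicit false
open Cfsg

namespace Cfsg.Agent.S0238

open Cfsg.Agent.Lib.Invol

private theorem inv_case {G : Type*} [Group G] [Finite G] (x : G) (h : orderOf x = 2) :
    Nat.card {p : G × G // orderOf p.1 = 2 ∧ orderOf p.2 = 2 ∧ p.1 * p.2 = x} + 2 ≤
      Nat.card (Subgroup.centralizer ({x} : Set G)) := by
  rw [show Nat.card {p : G × G // orderOf p.1 = 2 ∧ orderOf p.2 = 2 ∧ p.1 * p.2 = x} + 2 =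
    (Nat.card {p : G × G // orderOf p.1 = 2 ∧ orderOf p.2 = 2 ∧ p.1 * p.2 = x} + 1) + 1 by ring,
    Cfsg.Agent.S0236.result x h]
  -- inject Option B into C(x)
  let B := {t : G // orderOf t = 2 ∧ Commute t x}
  let f : Option B → Subgroup.centralizer ({x} : Set G) := fun o => match o with
    | none => 1
    | some t => ⟨t.1, by
        rw [mem_centralizer_singleton_iff']
        exact t.2.2⟩
  have hf : Function.Injective f := by
    intro a b hab
    cases a with
    | none =>
      cases b with
      | none => rfl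
      | some t =>
        exfalso
        have h1 : (1 : G) = t.1 := congrArg Subtype.val hab
        have h2 := t.2.1
        rw [← h1] at h2
        simp at h2
    | some s =>
      cases b with
      | none =>
        exfalso
        have h1 : s.1 = 1 := congrArg Subtype.val hab
        have h2 := s.2.1
        rw [h1] at h2
        simp at h2
      | some t =>
        congr 1
        have h1 : s.1 = t.1 := congrArg (fun y : Subgroup.centralizer ({x} : Set G) => (y : G)) hab
        exact Subtype.ext h1
  have := Nat.card_le_card_of_injective f hf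
  rwa [Finite.card_option] at this

/-- For every x in a finite group G, the number c of ordered pairs (u, v) of involutions with uv = x is at most |C_G(x)|; c = 0 when x is not conjugate to x⁻¹; and c + 2 ≤ |C_G(x)| when x is an involution. -/
theorem result {G : Type*} [Group G] [Finite G] (x : G) : Nat.card {p : G × G // orderOf p.1 = 2 ∧ orderOf p.2 = 2 ∧ p.1 * p.2 = x} ≤ Nat.card (Subgroup.centralizer ({x} : Set G)) ∧ (¬ IsConj x x⁻¹ → Nat.card {p : G × G // orderOf p.1 = 2 ∧ orderOf p.2 = 2 ∧ p.1 * p.2 = x} = 0) ∧ (orderOf x = 2 → Nat.card {p : G × G // orderOf p.1 = 2 ∧ orderOf p.2 = 2 ∧ p.1 * p.2 = x} + 2 ≤ Nat.card (Subgroup.centralizer ({x} : Set G))) := by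
  have h0 : ¬ IsConj x x⁻¹ → Nat.card {p : G × G // orderOf p.1 = 2 ∧ orderOf p.2 = 2 ∧ p.1 * p.2 = x} = 0 := by
    intro hn
    rw [Nat.card_eq_zero]
    left
    rw [isEmpty_subtype]
    rintro ⟨u, v⟩ ⟨hu, hv, huv⟩
    simp only at hu hv huv
    apply hn
    rw [isConj_iff]
    refine ⟨u, ?_⟩
    subst huv
    rw [mul_inv_rev, inv_eq_of_orderOf_eq_two hu, inv_eq_of_orderOf_eq_two hv, ← mul_assoc,
      mul_self_of_orderOf_eq_two hu, one_mul]
  refine ⟨?_, h0, inv_case x⟩
  by_cases hsq : x ^ 2 = 1
  · by_cases hx1 : x = 1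
    · subst hx1
      have h1 : Nat.card (Subgroup.centralizer ({1} : Set G)) = Nat.card G := by
        rw [show Subgroup.centralizer ({1} : Set G) = ⊤ by
          ext g; simp [mem_centralizer_singleton_iff']]
        simp
      rw [h1]
      apply Nat.card_le_card_of_injective (fun p : {p : G × G // orderOf p.1 = 2 ∧ orderOf p.2 = 2 ∧ p.1 * p.2 = 1} => p.1.1)
      rintro ⟨⟨u, v⟩, hu, hv, huv⟩ ⟨⟨u', v'⟩, hu', hv', huv'⟩ h
      simp only at h huv huv' ⊢
      apply Subtype.ext
      subst h
      simp only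
      rw [Prod.mk.injEq]
      exact ⟨rfl, mul_left_cancel (huv.trans huv'.symm)⟩
    · have hord : orderOf x = 2 := by
        rw [pow_two] at hsq
        exact orderOf_eq_two_of_mul_self hsq hx1
      have := inv_case x hord
      omega
  · by_cases hc : IsConj x x⁻¹
    · rw [Cfsg.Agent.S0235.result x hsq, ← Cfsg.Agent.S0237.result x hc]
      apply Nat.card_le_card_of_injective (fun t : {t : G // orderOf t = 2 ∧ t * x * t⁻¹ = x⁻¹} => (⟨t.1, t.2.2⟩ : {g : G // g * x * g⁻¹ = x⁻¹}))
      rintro ⟨t, _, _⟩ ⟨t', _, _⟩ h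
      simp only [Subtype.mk.injEq] at h
      apply Subtype.ext
      exact h
    · rw [h0 hc]
      exact Nat.zero_le _

end Cfsg.Agent.S0238
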