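import Cfsg.Statements.S0233
import Mathlib
import Cfsg.Agent.S0235
import Cfsg.Agent.S0236
import Cfsg.Agent.S0237
import Cfsg.Agent.S0238

set_option autoImplicit false
open Cfsg

namespace Cfsg.Agent.S0233

section aux

variable {G : Type*} [Group G] [Finite G]

/-- pairs of involutions with product x -/
private abbrev PP (x : G) := {p : G × G // orderOf p.1 = 2 ∧ orderOf p.2 = 2 ∧ p.1 * p.2 = x}

private theorem sum_PP [Fintype G] :
    ∑ x : G, Nat.card (PP x) = (Nat.card {t : G // orderOf t = 2}) ^ 2 := by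
  classical
  rw [← Nat.card_sigma, sq, ← Nat.card_prod]
  apply Nat.card_congr
  exact
    { toFun := fun s => (⟨s.2.1.1, s.2.2.1⟩, ⟨s.2.1.2, s.2.2.2.1⟩)
      invFun := fun q => ⟨q.1.1 * q.2.1, ⟨(q.1.1, q.2.1), q.1.2, q.2.2, rfl⟩⟩
      left_inv := by
        rintro ⟨x, ⟨⟨u, v⟩, hu, hv, rfl⟩⟩
        rfl
      right_inv := by
        rintro ⟨⟨u, hu⟩, ⟨v, hv⟩⟩
        rfl }

private theorem card_PP_one : Nat.card (PP (1 : G)) = Nat.card {t : G // orderOf t = 2} := by
  apply Nat.card_congr
  refine
    { toFun := fun s => ⟨s.1.1, s.2.1⟩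
      invFun := fun t => ⟨(t.1, t.1), t.2, t.2, ?_⟩
      left_inv := ?_
      right_inv := ?_ }
  · have h : (t : G) ^ orderOf (t : G) = 1 := pow_orderOf_eq_one _
    rw [t.2, sq] at h
    exact h
  · rintro ⟨⟨u, v⟩, hu, hv, h⟩
    have h2 : (u : G) ^ 2 = 1 := by
      have := pow_orderOf_eq_one u
      rwa [hu] at this
    have h3 : v = u := by
      have h4 : u * u = 1 := by rw [← sq]; exact h2
      have h5 : u * v = u * u := by rw [h, h4]
      exact mul_left_cancel h5
    subst h3
    rfl
  · rintro ⟨t, ht⟩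
    rfl

/-- the extended centralizer -/
private def Cstar (x : G) : Subgroup G where
  carrier := {g | g * x * g⁻¹ = x ∨ g * x * g⁻¹ = x⁻¹}
  one_mem' := by simp
  mul_mem' := by
    intro a b ha hb
    simp only [Set.mem_setOf_eq] at ha hb ⊢
    have e : a * b * x * (a * b)⁻¹ = a * (b * x * b⁻¹) * a⁻¹ := by group
    rw [e]
    rcases hb with hb | hb <;> rw [hb]
    · exact ha
    · rcases ha with ha | ha
      · right
        have : a * x⁻¹ * a⁻¹ = (a * x * a⁻¹)⁻¹ := by group
        rw [this, ha]
      · left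
        have : a * x⁻¹ * a⁻¹ = (a * x * a⁻¹)⁻¹ := by group
        rw [this, ha, inv_inv]
  inv_mem' := by
    intro a ha
    simp only [Set.mem_setOf_eq] at ha ⊢
    rcases ha with ha | ha
    · left
      rw [inv_inv]
      nth_rewrite 1 [← ha]
      group
    · right
      have h : a * x⁻¹ * a⁻¹ = x := by
        have : a * x⁻¹ * a⁻¹ = (a * x * a⁻¹)⁻¹ := by group
        rw [this, ha, inv_inv]
      rw [inv_inv]
      nth_rewrite 1 [← h]
      group

private theorem mem_Cstar (x g : G) : g ∈ Cstar x ↔ g * x * g⁻¹ = x ∨ g * x * g⁻¹ = x⁻¹ := Iff.rfl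

private theorem card_Cstar (x : G) (hx : x ^ 2 ≠ 1) (hreal : IsConj x x⁻¹) :
    Nat.card (Cstar x) = 2 * Nat.card (Subgroup.centralizer ({x} : Set G)) := by
  classical
  cases nonempty_fintype G
  have hx1 : x ≠ x⁻¹ := by
    intro h
    apply hx
    rw [sq]
    nth_rewrite 1 [h]
    simp
  have h1 : Nat.card (Cstar x) = Nat.card {g : G // g * x * g⁻¹ = x ∨ g * x * g⁻¹ = x⁻¹} := rfl
  have h2 : Nat.card {g : G // g * x * g⁻¹ = x ∨ g * x * g⁻¹ = x⁻¹} =
      Nat.card {g : G // g * x * g⁻¹ = x} + Nat.card {g : G // g * x * g⁻¹ = x⁻¹} := by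
    rw [Nat.card_eq_fintype_card, Nat.card_eq_fintype_card, Nat.card_eq_fintype_card]
    apply Fintype.card_subtype_or_disjoint
    rw [Pi.disjoint_iff]
    intro g
    simp only [Prop.disjoint_iff]
    rintro ⟨a, b⟩
    exact hx1 (a.symm.trans b)
  have h3 : Nat.card {g : G // g * x * g⁻¹ = x} = Nat.card (Subgroup.centralizer ({x} : Set G)) := by
    apply Nat.card_congr
    refine Equiv.subtypeEquivRight ?_
    intro g
    rw [Subgroup.mem_centralizer_singleton_iff, mul_inv_eq_iff_eq_mul]
  rw [h1, h2, h3, Cfsg.Agent.S0237.result x hreal, two_mul]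

private theorem exists_real_of_pos {x : G} (hx : x ^ 2 ≠ 1) (hP : 0 < Nat.card (PP x)) :
    IsConj x x⁻¹ := by
  rw [Cfsg.Agent.S0235.result x hx] at hP
  haveI : Nonempty {t : G // orderOf t = 2 ∧ t * x * t⁻¹ = x⁻¹} := (Nat.card_pos_iff.mp hP).1
  obtain ⟨⟨t, _, h⟩⟩ := this
  rw [isConj_iff]
  exact ⟨t, h⟩

end aux

/-- Let G be a finite group of even order with exactly n involutions whose centre has odd order, and put a = |G|/n. Then G has a proper subgroup H with |G : H| = 2 or |G : H| < a(a+1)/2; over ℕ the latter reads 2·|G:H|·n² < |G|·(|G| + n). -/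
theorem result {G : Type*} [Group G] [Finite G] (heven : Even (Nat.card G)) (hZ : Odd (Nat.card (Subgroup.center G))) : ∃ H : Subgroup G, H ≠ ⊤ ∧ (H.index = 2 ∨ 2 * H.index * (Nat.card {t : G // orderOf t = 2}) ^ 2 < Nat.card G * (Nat.card G + Nat.card {t : G // orderOf t = 2})) := by
  classical
  cases nonempty_fintype G
  have hnt : Nontrivial G := by
    rw [← Finite.one_lt_card_iff_nontrivial]
    obtain ⟨k, hk⟩ := heven
    have : 0 < Nat.card G := Nat.card_pos
    omega
  -- H of maximal order among proper subgroups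
  haveI : Nonempty {K : Subgroup G // K ≠ ⊤} := ⟨⟨⊥, bot_ne_top⟩⟩
  obtain ⟨⟨H, hH⟩, hHmax⟩ := Finite.exists_max (fun K : {K : Subgroup G // K ≠ ⊤} => Nat.card K.1)
  refine ⟨H, hH, ?_⟩
  by_cases h2 : H.index = 2
  · exact Or.inl h2
  right
  set M := H.index with hM
  set g := Nat.card G with hg
  set n := Nat.card {t : G // orderOf t = 2} with hn
  have hgpos : 0 < g := Nat.card_pos
  have hHM : Nat.card H * M = g := Subgroup.card_mul_index H
  have hK : ∀ K : Subgroup G, K ≠ ⊤ → M * Nat.card K ≤ g := by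
    intro K hK
    have := hHmax ⟨K, hK⟩
    calc M * Nat.card K ≤ M * Nat.card H := Nat.mul_le_mul_left _ this
      _ = g := by rw [mul_comm, hHM]
  have hM1 : M ≠ 1 := by
    intro h
    exact hH (Subgroup.index_eq_one.mp h)
  have hM0 : M ≠ 0 := by
    intro h
    rw [h] at hHM
    omega
  have hM3 : 3 ≤ M := by omega
  have hidx : ∀ K : Subgroup G, K.index ≠ 2 := by
    intro K hK2
    have hKtop : K ≠ ⊤ := by
      rintro rfl
      simp at hK2
    have h1 := hK K hKtop
    have h3 : Nat.card K * K.index = g := Subgroup.card_mul_index K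
    rw [hK2] at h3
    have hKpos : 0 < Nat.card K := Nat.card_pos
    nlinarith
  -- bounds
  have hinv : ∀ x : G, orderOf x = 2 → M * (Nat.card (PP x) + 2) ≤ g := by
    intro x hx
    have h1 := (Cfsg.Agent.S0238.result x).2.2 hx
    have hne : Subgroup.centralizer ({x} : Set G) ≠ ⊤ := by
      intro htop
      have hxc : x ∈ Subgroup.center G := by
        rw [Subgroup.mem_center_iff]
        intro w
        have : w ∈ Subgroup.centralizer ({x} : Set G) := by rw [htop]; trivial
        rw [Subgroup.mem_centralizer_singleton_iff] at this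
        exact this
      have hdvd : orderOf (⟨x, hxc⟩ : Subgroup.center G) ∣ Nat.card (Subgroup.center G) :=
        orderOf_dvd_natCard _
      have : orderOf (⟨x, hxc⟩ : Subgroup.center G) = 2 := by
        rw [Subgroup.orderOf_mk, hx]
      rw [this] at hdvd
      obtain ⟨k, hk⟩ := hZ
      omega
    exact (Nat.mul_le_mul_left _ h1).trans (hK _ hne)
  have hoth : ∀ x : G, x ^ 2 ≠ 1 → 2 * M * Nat.card (PP x) ≤ g := by
    intro x hx
    rcases Nat.eq_zero_or_pos (Nat.card (PP x)) with h0 | hpos
    · rw [h0]; simp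
    have hreal := exists_real_of_pos hx hpos
    have hc := card_Cstar x hx hreal
    have hle : Nat.card (PP x) ≤ Nat.card (Subgroup.centralizer ({x} : Set G)) :=
      (Cfsg.Agent.S0238.result x).1
    have hne : Cstar x ≠ ⊤ := by
      intro htop
      have h3 : Nat.card (Subgroup.centralizer ({x} : Set G)) *
          (Subgroup.centralizer ({x} : Set G)).index = g := Subgroup.card_mul_index _
      rw [htop, Subgroup.card_top] at hc
      have hCpos : 0 < Nat.card (Subgroup.centralizer ({x} : Set G)) := Nat.card_pos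
      have : (Subgroup.centralizer ({x} : Set G)).index = 2 := by
        have h5 : Nat.card (Subgroup.centralizer ({x} : Set G)) *
            (Subgroup.centralizer ({x} : Set G)).index =
            Nat.card (Subgroup.centralizer ({x} : Set G)) * 2 := by
          rw [h3, mul_comm _ 2, ← hc]
        exact Nat.eq_of_mul_eq_mul_left hCpos h5
      exact hidx _ this
    have h6 := hK _ hne
    rw [hc] at h6
    calc 2 * M * Nat.card (PP x) ≤ 2 * M * Nat.card (Subgroup.centralizer ({x} : Set G)) :=
          Nat.mul_le_mul_left _ hle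
      _ = M * (2 * Nat.card (Subgroup.centralizer ({x} : Set G))) := by ring
      _ ≤ g := h6
  -- summation
  let I : Finset G := Finset.univ.filter (fun x => orderOf x = 2)
  let O : Finset G := (Finset.univ.filter (fun x => ¬ orderOf x = 2)).erase 1
  have h1O : (1 : G) ∈ Finset.univ.filter (fun x : G => ¬ orderOf x = 2) := by
    simp
  have hsum := sum_PP (G := G)
  rw [← Finset.sum_filter_add_sum_filter_not Finset.univ (fun x : G => orderOf x = 2),
    ← Finset.add_sum_erase _ _ h1O, card_PP_one] at hsum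
  have hIcard : I.card = n := by
    rw [hn, Nat.card_eq_fintype_card, Fintype.card_subtype]
  have hOcard : n + O.card + 1 = g := by
    have h3 := Finset.card_filter_add_card_filter_not (s := (Finset.univ : Finset G)) (fun x : G => orderOf x = 2)
    have h4 : O.card + 1 = (Finset.univ.filter (fun x : G => ¬ orderOf x = 2)).card :=
      Finset.card_erase_add_one h1O
    rw [Finset.card_univ, ← Nat.card_eq_fintype_card] at h3
    rw [← hIcard]
    change I.card + _ = _ at h3
    omega
  set S1 := ∑ x ∈ I, Nat.card (PP x) with hS1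
  set S2 := ∑ x ∈ O, Nat.card (PP x) with hS2
  have hS1b : 2 * M * S1 + 4 * M * n ≤ n * (2 * g) := by
    have h3 : ∑ x ∈ I, (2 * M * Nat.card (PP x) + 4 * M) ≤ I.card • (2 * g) := by
      apply Finset.sum_le_card_nsmul
      intro x hx
      have hx2 : orderOf x = 2 := (Finset.mem_filter.mp hx).2
      have := hinv x hx2
      nlinarith
    rw [Finset.sum_add_distrib, ← Finset.mul_sum, Finset.sum_const, hIcard, smul_eq_mul, smul_eq_mul] at h3
    calc 2 * M * S1 + 4 * M * n = 2 * M * S1 + n * (4 * M) := by ring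
      _ ≤ n * (2 * g) := h3
  have hS2b : 2 * M * S2 ≤ O.card * g := by
    have h3 : ∑ x ∈ O, (2 * M * Nat.card (PP x)) ≤ O.card • g := by
      apply Finset.sum_le_card_nsmul
      intro x hx
      have hmem := Finset.mem_erase.mp hx
      have hne1 : x ≠ 1 := hmem.1
      have hno2 : ¬ orderOf x = 2 := (Finset.mem_filter.mp hmem.2).2
      apply hoth
      intro h
      apply hno2
      exact orderOf_eq_prime h hne1
    rw [← Finset.mul_sum, smul_eq_mul] at h3
    exact h3
  have hfinal : 2 * M * n ^ 2 = 2 * M * S1 + 2 * M * n + 2 * M * S2 := by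
    rw [← hsum]
    ring
  have hgg : g * (g + n) = O.card * g + g + 2 * (n * g) := by
    calc g * (g + n) = g * g + n * g := by ring
      _ = (n + O.card + 1) * g + n * g := by rw [hOcard]
      _ = _ := by ring
  calc 2 * M * n ^ 2 = 2 * M * S1 + 2 * M * n + 2 * M * S2 := hfinal
    _ < g * (g + n) := by
      rw [hgg]
      have h5 : n * (2 * g) = 2 * (n * g) := by ring
      rw [h5] at hS1b
      have h6 : 0 ≤ M * n := Nat.zero_le _
      nlinarith

end Cfsg.Agent.S0233
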