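import Cfsg.Statements.S0212
import Mathlib
import Cfsg.Agent.S0233
import Cfsg.Agent.Lib.Invol.Count
import Cfsg.Agent.Lib.Small.Basic

set_option autoImplicit false
open Cfsg

namespace Cfsg.Agent.S0212

/-- `|G| ≤ [G:H]!` for a proper subgroup of a simple group -/
private theorem card_le_factorial_index {G : Type*} [Group G] [Finite G] [IsSimpleGroup G]
    (H : Subgroup G) (hH : H ≠ ⊤) : Nat.card G ≤ H.index.factorial := by
  classical
  have h1 := Nat.card_le_card_of_injective _ (Cfsg.Agent.Lib.Small.toPerm_injective H hH)
  rw [Nat.card_perm] at h1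
  exact h1

/-- The Brauer–Fowler bound: if G is a finite simple group and t an involution of G whose centralizer has order n, then |G| ≤ (2n^2)!. -/
theorem result {G : Type*} [Group G] [Finite G] [IsSimpleGroup G] (t : G) (ht : orderOf t = 2) : Nat.card G ≤ Nat.factorial (2 * (Nat.card (Subgroup.centralizer ({t} : Set G))) ^ 2) := by
  classical
  have hdvd : 2 ∣ Nat.card G := by
    rw [← ht]
    exact orderOf_dvd_natCard t
  have heven : Even (Nat.card G) := even_iff_two_dvd.mpr hdvd
  have hgpos : 0 < Nat.card G := Nat.card_pos
  set c := Nat.card (Subgroup.centralizer ({t} : Set G)) with hc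
  have hcpos : 0 < c := Nat.card_pos
  set m := Nat.card {x : G // orderOf x = 2} with hm
  have hcc := Cfsg.Agent.Lib.Invol.card_conj_mul_card_centralizer t
  -- class of t consists of involutions
  have hclass : Nat.card {g : G // IsConj t g} ≤ m := by
    apply Nat.card_le_card_of_injective (fun w : {g : G // IsConj t g} => (⟨w.1, by
      obtain ⟨d, hd⟩ := w.2
      rw [← SemiconjBy.orderOf_eq _ hd, ht]⟩ : {x : G // orderOf x = 2}))
    intro a b hab
    apply Subtype.ext
    exact congrArg (fun z : {x : G // orderOf x = 2} => z.1) hab
  have hgm : Nat.card G ≤ m * c := by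
    rw [← hcc]
    exact Nat.mul_le_mul_right _ hclass
  have hmpos : 0 < m := by
    have : 0 < Nat.card G := hgpos
    by_contra h
    have h0 : m = 0 := by omega
    rw [h0] at hgm
    omega
  rcases IsSimpleGroup.eq_bot_or_eq_top_of_normal (Subgroup.center G) inferInstance with hZ | hZ
  · have hZodd : Odd (Nat.card (Subgroup.center G)) := by
      rw [hZ]
      simp
    obtain ⟨H, hH, hor⟩ := Cfsg.Agent.S0233.result heven hZodd
    have hkey : Nat.card G ≤ H.index.factorial := card_le_factorial_index H hH
    rcases hor with h2 | h2
    · haveI : H.Normal := Subgroup.normal_of_index_eq_two h2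
      rcases IsSimpleGroup.eq_bot_or_eq_top_of_normal H inferInstance with hb | hb
      · have h3 : H.index ≤ 2 * c ^ 2 := by
          rw [h2]
          have : 0 < c ^ 2 := by positivity
          omega
        exact hkey.trans (Nat.factorial_le h3)
      · exact absurd hb hH
    · have h3 : H.index ≤ 2 * c ^ 2 := by
        have h4 : Nat.card G * (Nat.card G + m) ≤ (m * c) * (m * c + m) := by
          apply Nat.mul_le_mul hgm
          exact Nat.add_le_add_right hgm _
        have h5 : 2 * H.index * m ^ 2 < (c * (c + 1)) * m ^ 2 := by
          calc 2 * H.index * m ^ 2 < Nat.card G * (Nat.card G + m) := h2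
            _ ≤ (m * c) * (m * c + m) := h4
            _ = _ := by ring
        have h6 : 2 * H.index < c * (c + 1) := by
          exact Nat.lt_of_mul_lt_mul_right h5
        nlinarith
      exact hkey.trans (Nat.factorial_le h3)
  · -- commutative: centralizer is everything
    have hctop : c = Nat.card G := by
      rw [hc]
      have : Subgroup.centralizer ({t} : Set G) = ⊤ := by
        rw [eq_top_iff]
        intro w _
        have hw : t ∈ Subgroup.center G := by rw [hZ]; trivial
        rw [Subgroup.mem_centralizer_singleton_iff]
        exact (Subgroup.mem_center_iff.mp hw w)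
      rw [this, Subgroup.card_top]
    rw [← hctop]
    have h1 : c ≤ 2 * c ^ 2 := by nlinarith
    exact (Nat.self_le_factorial c).trans (Nat.factorial_le h1)

end Cfsg.Agent.S0212
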