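import Cfsg.Statements.S0213
import Mathlib
import Cfsg.Agent.S0208
import Cfsg.Agent.S0209
import Cfsg.Agent.Lib.Invol.Count

set_option autoImplicit false
open Cfsg

namespace Cfsg.Agent.S0213

section aux

variable {G : Type*} [Group G] [Finite G]

/-- uniqueness of the involution in a cyclic group -/
private theorem eq_of_mem_zpowers {c z : G} (hm : Even (orderOf c)) (hz : z ∈ Subgroup.zpowers c)
    (hz2 : orderOf z = 2) : z = c ^ (orderOf c / 2) := by
  obtain ⟨m, hm'⟩ := hm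
  have hmm : orderOf c / 2 = m := by omega
  rw [hmm]
  have hzz : z ^ 2 = 1 := by
    rw [← hz2]
    exact pow_orderOf_eq_one z
  rw [← mem_powers_iff_mem_zpowers] at hz
  obtain ⟨k, hk⟩ := hz
  simp only at hk
  subst hk
  have h1 : c ^ (k * 2) = 1 := by rw [pow_mul]; exact hzz
  have h2 : orderOf c ∣ k * 2 := orderOf_dvd_of_pow_eq_one h1
  rw [hm'] at h2
  have h3 : m ∣ k := by
    have : m + m = m * 2 := by ring
    rw [this] at h2
    exact Nat.dvd_of_mul_dvd_mul_right (by norm_num) h2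
  obtain ⟨j, rfl⟩ := h3
  have hcm : (c ^ m) ^ 2 = 1 := by
    rw [← pow_mul, mul_two, ← hm', pow_orderOf_eq_one]
  rcases Nat.even_or_odd' j with ⟨i, rfl | rfl⟩
  · exfalso
    have : c ^ (m * (2 * i)) = 1 := by
      rw [pow_mul, pow_mul, hcm, one_pow]
    rw [this, orderOf_one] at hz2
    omega
  · rw [pow_mul, pow_add, pow_mul, hcm, one_pow, one_mul, pow_one]

/-- the pairs with a given involution in their cyclic group -/
private abbrev FF (x₁ x₂ z : G) := {p : G × G // IsConj x₁ p.1 ∧ IsConj x₂ p.2 ∧ z ∈ Subgroup.zpowers (p.1 * p.2)}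

private theorem FF_map {x₁ x₂ z : G} (h : G) (z' : G) (hz' : z' = h * z * h⁻¹) {p : G × G}
    (hp : IsConj x₁ p.1 ∧ IsConj x₂ p.2 ∧ z ∈ Subgroup.zpowers (p.1 * p.2)) :
    IsConj x₁ (h * p.1 * h⁻¹) ∧ IsConj x₂ (h * p.2 * h⁻¹) ∧
      z' ∈ Subgroup.zpowers ((h * p.1 * h⁻¹) * (h * p.2 * h⁻¹)) := by
  refine ⟨hp.1.trans (isConj_iff.mpr ⟨h, rfl⟩), hp.2.1.trans (isConj_iff.mpr ⟨h, rfl⟩), ?_⟩
  obtain ⟨k, hk⟩ := hp.2.2
  simp only at hk
  subst hk
  subst hz'
  have e : (h * p.1 * h⁻¹) * (h * p.2 * h⁻¹) = h * (p.1 * p.2) * h⁻¹ := by group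
  rw [e]
  exact ⟨k, conj_zpow⟩

private theorem card_FF_conj (x₁ x₂ z : G) (g : G) :
    Nat.card (FF x₁ x₂ (g * z * g⁻¹)) = Nat.card (FF x₁ x₂ z) := by
  apply Nat.card_congr
  refine
    { toFun := fun q => ⟨(g⁻¹ * q.1.1 * g⁻¹⁻¹, g⁻¹ * q.1.2 * g⁻¹⁻¹), FF_map g⁻¹ z (by group) q.2⟩
      invFun := fun q => ⟨(g * q.1.1 * g⁻¹, g * q.1.2 * g⁻¹), FF_map g _ rfl q.2⟩
      left_inv := ?_
      right_inv := ?_ }
  · rintro ⟨⟨a, b⟩, h⟩
    apply Subtype.ext
    apply Prod.ext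
    · change g * (g⁻¹ * a * g⁻¹⁻¹) * g⁻¹ = a
      group
    · change g * (g⁻¹ * b * g⁻¹⁻¹) * g⁻¹ = b
      group
  · rintro ⟨⟨a, b⟩, h⟩
    apply Subtype.ext
    apply Prod.ext
    · change g⁻¹ * (g * a * g⁻¹) * g⁻¹⁻¹ = a
      group
    · change g⁻¹ * (g * b * g⁻¹) * g⁻¹⁻¹ = b
      group

private theorem ord_of_conj {x y : G} (h : IsConj x y) : orderOf y = orderOf x := by
  obtain ⟨d, hd⟩ := h
  exact (SemiconjBy.orderOf_eq _ hd).symm

end aux

/-- Thompson Order Formula, two-class case: if every involution of the finite group G is conjugate to exactly one of the non-conjugate involutions x₁, x₂, and nᵢ is the number of pairs (u, v) with u conjugate to x₁, v conjugate to x₂ and xᵢ in the cyclic group generated by uv, then |G| = |C(x₂)| n₁ + |C(x₁)| n₂. -/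
theorem result {G : Type*} [Group G] [Finite G] (x₁ x₂ : G) (h₁ : orderOf x₁ = 2) (h₂ : orderOf x₂ = 2) (hnc : ¬ IsConj x₁ x₂) (hall : ∀ t : G, orderOf t = 2 → IsConj x₁ t ∨ IsConj x₂ t) : Nat.card G = Nat.card (Subgroup.centralizer ({x₂} : Set G)) * Nat.card {p : G × G // IsConj x₁ p.1 ∧ IsConj x₂ p.2 ∧ x₁ ∈ Subgroup.zpowers (p.1 * p.2)} + Nat.card (Subgroup.centralizer ({x₁} : Set G)) * Nat.card {p : G × G // IsConj x₁ p.1 ∧ IsConj x₂ p.2 ∧ x₂ ∈ Subgroup.zpowers (p.1 * p.2)} := by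
  classical
  cases nonempty_fintype G
  -- the pairs and the map to involutions
  let Pairs := {p : G × G // IsConj x₁ p.1 ∧ IsConj x₂ p.2}
  have hord1 : ∀ p : Pairs, orderOf p.1.1 = 2 := fun p => by rw [ord_of_conj p.2.1, h₁]
  have hord2 : ∀ p : Pairs, orderOf p.1.2 = 2 := fun p => by rw [ord_of_conj p.2.2, h₂]
  have heven : ∀ p : Pairs, Even (orderOf (p.1.1 * p.1.2)) := by
    intro p
    by_contra hodd
    rw [Nat.not_even_iff_odd] at hodd
    obtain ⟨d, _, hd⟩ := Cfsg.Agent.S0208.result _ _ (hord1 p) (hord2 p) hodd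
    apply hnc
    exact (p.2.1.trans (isConj_iff.mpr ⟨d, hd⟩)).trans p.2.2.symm
  let f : Pairs → {z : G // orderOf z = 2} := fun p =>
    ⟨(p.1.1 * p.1.2) ^ (orderOf (p.1.1 * p.1.2) / 2), (Cfsg.Agent.S0209.result _ _ (hord1 p) (hord2 p) (heven p)).1⟩
  have hfib : ∀ z : {z : G // orderOf z = 2}, Nat.card {p : Pairs // f p = z} = Nat.card (FF x₁ x₂ z.1) := by
    intro z
    apply Nat.card_congr
    refine
      { toFun := fun q => ⟨q.1.1, q.1.2.1, q.1.2.2, ?_⟩
        invFun := fun q => ⟨⟨q.1, q.2.1, q.2.2.1⟩, ?_⟩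
        left_inv := ?_
        right_inv := ?_ }
    · have e : z.1 = _ := (congrArg Subtype.val q.2).symm
      rw [e]
      exact Subgroup.npow_mem_zpowers _ _
    · apply Subtype.ext
      exact (eq_of_mem_zpowers (heven ⟨q.1, q.2.1, q.2.2.1⟩) q.2.2.2 z.2).symm
    · intro q
      rfl
    · intro q
      rfl
  have hsum : Nat.card Pairs = ∑ z : {z : G // orderOf z = 2}, Nat.card (FF x₁ x₂ z.1) := by
    rw [Nat.card_congr (Equiv.sigmaFiberEquiv f).symm, Nat.card_sigma]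
    exact Finset.sum_congr rfl (fun z _ => hfib z)
  -- counts of classes
  set a₁ := Nat.card {g : G // IsConj x₁ g} with ha₁
  set a₂ := Nat.card {g : G // IsConj x₂ g} with ha₂
  set n₁ := Nat.card (FF x₁ x₂ x₁) with hn₁
  set n₂ := Nat.card (FF x₁ x₂ x₂) with hn₂
  have hP : Nat.card Pairs = a₁ * a₂ := by
    rw [ha₁, ha₂, ← Nat.card_prod]
    exact Nat.card_congr (Equiv.subtypeProdEquivProd)
  have hval : ∀ z : {z : G // orderOf z = 2}, Nat.card (FF x₁ x₂ z.1) = if IsConj x₁ z.1 then n₁ else n₂ := by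
    intro z
    split_ifs with hc
    · obtain ⟨g, hg⟩ := isConj_iff.mp hc
      rw [← hg]
      exact card_FF_conj x₁ x₂ x₁ g
    · have hc2 : IsConj x₂ z.1 := by
        rcases hall z.1 z.2 with h | h
        · exact absurd h hc
        · exact h
      obtain ⟨g, hg⟩ := isConj_iff.mp hc2
      rw [← hg]
      exact card_FF_conj x₁ x₂ x₂ g
  have hS : ∑ z : {z : G // orderOf z = 2}, Nat.card (FF x₁ x₂ z.1) = a₁ * n₁ + a₂ * n₂ := by
    rw [Finset.sum_congr rfl (fun z _ => hval z), Finset.sum_ite, Finset.sum_const, Finset.sum_const,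
      smul_eq_mul, smul_eq_mul]
    congr 2
    · rw [ha₁, Nat.card_eq_fintype_card, ← Fintype.card_subtype]
      apply Fintype.card_congr
      refine
        { toFun := fun q => ⟨q.1.1, q.2⟩
          invFun := fun q => ⟨⟨q.1, by rw [ord_of_conj q.2, h₁]⟩, q.2⟩
          left_inv := fun q => rfl
          right_inv := fun q => rfl }
    · rw [ha₂, Nat.card_eq_fintype_card, ← Fintype.card_subtype]
      apply Fintype.card_congr
      refine
        { toFun := fun q => ⟨q.1.1, ?_⟩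
          invFun := fun q => ⟨⟨q.1, by rw [ord_of_conj q.2, h₂]⟩, ?_⟩
          left_inv := fun q => rfl
          right_inv := fun q => rfl }
      · rcases hall q.1.1 q.1.2 with h | h
        · exact absurd h q.2
        · exact h
      · intro h
        exact hnc (h.trans q.2.symm)
  have hmain : a₁ * a₂ = a₁ * n₁ + a₂ * n₂ := by rw [← hP, hsum, hS]
  have hc1 := Cfsg.Agent.Lib.Invol.card_conj_mul_card_centralizer x₁
  have hc2 := Cfsg.Agent.Lib.Invol.card_conj_mul_card_centralizer x₂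
  rw [← ha₁] at hc1
  rw [← ha₂] at hc2
  set c₁ := Nat.card (Subgroup.centralizer ({x₁} : Set G))
  set c₂ := Nat.card (Subgroup.centralizer ({x₂} : Set G))
  change Nat.card G = c₂ * n₁ + c₁ * n₂
  have hgpos : 0 < Nat.card G := Nat.card_pos
  apply Nat.eq_of_mul_eq_mul_left hgpos
  calc Nat.card G * Nat.card G = (a₁ * c₁) * (a₂ * c₂) := by rw [hc1, hc2]
    _ = (a₁ * a₂) * (c₁ * c₂) := by ring
    _ = (a₁ * n₁ + a₂ * n₂) * (c₁ * c₂) := by rw [hmain]
    _ = (a₁ * c₁) * (c₂ * n₁) + (a₂ * c₂) * (c₁ * n₂) := by ring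
    _ = Nat.card G * (c₂ * n₁ + c₁ * n₂) := by rw [hc1, hc2]; ring

end Cfsg.Agent.S0213
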