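import Cfsg.Statements.S0218
import Mathlib

set_option autoImplicit false
open Cfsg

namespace Cfsg.Agent.S0218

/-- The generalized quaternion group of order 2^(n+3) contains exactly one element of order 2. -/
theorem result (n : ℕ) : Nat.card {x : QuaternionGroup (2 ^ (n + 1)) // orderOf x = 2} = 1 := by
  classical
  rw [Nat.card_eq_one_iff_unique]
  set m := 2 ^ (n + 1) with hm
  have hm0 : NeZero m := ⟨by positivity⟩
  have h2m0 : NeZero (2 * m) := ⟨by positivity⟩
  have hmem : ∀ x : QuaternionGroup m, orderOf x = 2 → x = QuaternionGroup.a (m : ZMod (2 * m)) := by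
    intro x hx
    cases x with
    | xa i =>
      rw [QuaternionGroup.orderOf_xa] at hx
      omega
    | a i =>
      have h1 : (QuaternionGroup.a i : QuaternionGroup m) ^ 2 = 1 := by
        rw [← hx]; exact pow_orderOf_eq_one _
      have h2 : i + i = 0 := by
        have : (QuaternionGroup.a (i + i) : QuaternionGroup m) = QuaternionGroup.a 0 := by
          rw [← QuaternionGroup.a_mul_a, ← pow_two, h1]; rfl
        exact QuaternionGroup.a.inj this
      have hi1 : i ≠ 0 := by
        rintro rfl
        have : (QuaternionGroup.a (0 : ZMod (2 * m)) : QuaternionGroup m) = 1 := rfl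
        rw [this] at hx
        simp at hx
      congr 1
      -- from 2 i = 0 and i ≠ 0 get i = m
      have h3 : (i.val + i.val) % (2 * m) = 0 := by
        have := congrArg ZMod.val h2
        rwa [ZMod.val_add, ZMod.val_zero] at this
      have hlt := ZMod.val_lt i
      have hne : i.val ≠ 0 := by
        intro h0
        exact hi1 ((ZMod.val_eq_zero i).mp h0)
      have h4 : i.val = m := by
        have hm1 : 0 < m := by positivity
        have h5 : i.val + i.val = 2 * m := by
          have h6 : i.val + i.val < 2 * (2 * m) := by omega
          have h7 : 2 * m ∣ i.val + i.val := Nat.dvd_of_mod_eq_zero h3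
          obtain ⟨k, hk⟩ := h7
          have hk1 : k < 2 := by
            by_contra hh
            have : 2 * m * 2 ≤ 2 * m * k := Nat.mul_le_mul_left _ (by omega)
            omega
          interval_cases k <;> omega
        omega
      have h8 : ((i.val : ℕ) : ZMod (2 * m)) = i := ZMod.natCast_zmod_val i
      rw [h4] at h8
      exact h8.symm
  have hord : orderOf (QuaternionGroup.a (m : ZMod (2 * m)) : QuaternionGroup m) = 2 := by
    rw [QuaternionGroup.orderOf_a]
    have hv : ((m : ZMod (2 * m))).val = m := by
      rw [ZMod.val_natCast]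
      apply Nat.mod_eq_of_lt
      have : 0 < m := by positivity
      omega
    rw [hv]
    have : Nat.gcd (2 * m) m = m := by simp
    rw [this]
    have hm1 : 0 < m := by positivity
    exact Nat.div_eq_of_eq_mul_right hm1 (by ring)
  refine ⟨⟨?_⟩, ⟨⟨_, hord⟩⟩⟩
  rintro ⟨x, hx⟩ ⟨y, hy⟩
  apply Subtype.ext
  exact (hmem x hx).trans (hmem y hy).symm

end Cfsg.Agent.S0218
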