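import Cfsg.Statements.S0221
import Cfsg.Agent.Lib.Misc19.NormalE4

set_option autoImplicit false
open Cfsg

namespace Cfsg.Agent.S0221



/-- Let G be a finite group with no subgroup of index 2 whose 2-rank is at least 3 (it contains an elementary abelian subgroup of order 8). Then the centralizer of every involution of G also contains an elementary abelian subgroup of order 8. -/
theorem result {G : Type*} [Group G] [Finite G] (hno : ∀ H : Subgroup G, H.index ≠ 2) (hrank : ∃ E : Subgroup G, Nat.card E = 8 ∧ ∀ e ∈ E, e ^ 2 = 1) (x : G) (hx : orderOf x = 2) : ∃ E : Subgroup G, E ≤ Subgroup.centralizer ({x} : Set G) ∧ Nat.card E = 8 ∧ ∀ e ∈ E, e ^ 2 = 1 := by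

  exact Cfsg.Agent.Lib.Misc19.rank_three_centralizer hno hrank x hx

end Cfsg.Agent.S0221
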