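import Cfsg.Statements.S0225
import Cfsg.Agent.S0201
import Cfsg.Agent.Lib.OddLocal.UniqueP2
import Cfsg.Agent.Lib.OddLocal.HallHigman
import Cfsg.Agent.Lib.Char.BrSuz3
import Cfsg.Agent.Lib.Classical.KleinCount
import Cfsg.Agent.Lib.Components.QuatQuot
import Cfsg.Agent.Lib.Basic.Core

set_option autoImplicit false
open Cfsg

namespace Cfsg.Agent.S0225

open Subgroup

/-- The conclusion when a Sylow 2-subgroup is cyclic: Burnside's transfer. -/
private theorem cyclic_case {G : Type*} [Group G] [Finite G] (T : Sylow 2 G) (hc : IsCyclic (T : Subgroup G))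
    (hne : (T : Subgroup G) ≠ ⊥) (z : G) :
    ∃ N : Subgroup G, N.Normal ∧ Odd (Nat.card N) ∧ ∀ g : G, z * g * z⁻¹ * g⁻¹ ∈ N := by
  haveI : Fact (Nat.Prime 2) := ⟨Nat.prime_two⟩
  have hN := Cfsg.Agent.Lib.Char.BrSuz.normalizer_le_centralizer_two T hc hne
  refine ⟨(MonoidHom.transferSylow T hN).ker, MonoidHom.normal_ker _, ?_, fun g => ?_⟩
  · rw [← Nat.not_even_iff_odd, even_iff_two_dvd]
    exact MonoidHom.not_dvd_card_ker_transferSylow T hN
  · rw [MonoidHom.mem_ker]
    have hcomm : ∀ a b : (T : Subgroup G), a * b = b * a := by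
      intro a b
      haveI := hc
      exact mul_comm' a b
    simp only [map_mul, map_inv]
    rw [hcomm _ (MonoidHom.transferSylow T hN g)]
    group


/-- If a finite group G has even order but contains no Klein four-subgroup (2-rank 1), then some involution z of G is central modulo a normal subgroup of odd order: there is a normal subgroup N of odd order containing every commutator z g z⁻¹ g⁻¹. -/
theorem result {G : Type*} [Group G] [Finite G] (heven : Even (Nat.card G)) (hrank : ∀ E : Subgroup G, ¬ IsKleinFour E) : ∃ z : G, orderOf z = 2 ∧ ∃ N : Subgroup G, N.Normal ∧ Odd (Nat.card N) ∧ ∀ g : G, z * g * z⁻¹ * g⁻¹ ∈ N := by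
  classical
  haveI : Fact (Nat.Prime 2) := ⟨Nat.prime_two⟩
  obtain ⟨T⟩ : Nonempty (Sylow 2 G) := inferInstance
  have h2 : 2 ∣ Nat.card G := even_iff_two_dvd.1 heven
  have hTne : (T : Subgroup G) ≠ ⊥ := by
    intro h
    have h3 := T.not_dvd_index
    rw [h, Subgroup.index_bot] at h3
    exact h3 h2
  haveI hTnt : Nontrivial (T : Subgroup G) := (Subgroup.nontrivial_iff_ne_bot _).2 hTne
  have hTp : IsPGroup 2 (T : Subgroup G) := T.2
  haveI hZnt : Nontrivial (center (T : Subgroup G)) := hTp.center_nontrivial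
  obtain ⟨z', hz'⟩ : ∃ z' : center (T : Subgroup G), orderOf z' = 2 := by
    have hdvd : 2 ∣ Nat.card (center (T : Subgroup G)) := by
      obtain ⟨k, hk⟩ := IsPGroup.iff_card.mp (hTp.to_subgroup (center (T : Subgroup G)))
      have hk0 : k ≠ 0 := by
        rintro rfl
        have := Finite.one_lt_card (α := center (T : Subgroup G))
        simp [hk] at this
      rw [hk]
      exact dvd_pow_self 2 hk0
    exact exists_prime_orderOf_dvd_card' 2 hdvd
  set z : G := ((z' : (T : Subgroup G)) : G) with hzdef
  have hzT : z ∈ (T : Subgroup G) := (z' : (T : Subgroup G)).2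
  have hzord : orderOf z = 2 := by
    rw [hzdef, Subgroup.orderOf_coe, Subgroup.orderOf_coe]; exact hz'
  have huniq : ∀ t ∈ (T : Subgroup G), orderOf t = 2 → t = z := by
    intro t ht hord
    by_contra hne
    have hcomm : z * t = t * z := by
      have := Subgroup.mem_center_iff.1 z'.2 (⟨t, ht⟩ : (T : Subgroup G))
      exact (congrArg Subtype.val this).symm
    have hci : Cfsg.Agent.Lib.Classical.CommInv z t :=
      ⟨by rw [← hzord]; exact pow_orderOf_eq_one z, by rw [← hord]; exact pow_orderOf_eq_one t,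
        fun h => by rw [h, orderOf_one] at hzord; omega, fun h => by rw [h, orderOf_one] at hord; omega,
        Ne.symm hne, hcomm⟩
    exact hrank _ (Cfsg.Agent.Lib.Classical.kleinFour_kleinSub hci)
  have hU : Cfsg.Agent.Lib.OddLocal.UniqueP 2 (T : Subgroup G) := by
    refine Cfsg.Agent.Lib.Components.uniqueP_of_existsUnique ⟨⟨z, hzT⟩, ?_, ?_⟩
    · change orderOf (⟨z, hzT⟩ : (T : Subgroup G)) = 2
      rw [Subgroup.orderOf_mk]; exact hzord
    · intro t ht
      apply Subtype.ext
      exact huniq t t.2 (by rw [Subgroup.orderOf_coe]; exact ht)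
  refine ⟨z, hzord, ?_⟩
  rcases Cfsg.Agent.Lib.OddLocal.cyclic_or_quaternion hTp hU with hc | ⟨n, ⟨e⟩⟩
  · exact cyclic_case T hc hTne z
  · rcases n with _ | m
    · -- `QuaternionGroup 1` is cyclic
      have hcy : IsCyclic (QuaternionGroup (2 ^ 0)) := by
        simpa using QuaternionGroup.quaternionGroup_one_isCyclic
      exact cyclic_case T (isCyclic_of_surjective e.symm e.symm.surjective) hTne z
    · set O := pPrimeCore 2 G with hO
      have hOcop : (Nat.card O).Coprime 2 := Cfsg.Agent.Lib.Basic.pPrimeCore_coprime 2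
      have hOodd : Odd (Nat.card O) := Nat.Coprime.odd_of_right hOcop
      refine ⟨O, inferInstance, hOodd, fun g => ?_⟩
      -- pass to `G / O`
      let f : G →* G ⧸ O := QuotientGroup.mk' O
      have hf : Function.Surjective f := QuotientGroup.mk'_surjective O
      let Tb : Sylow 2 (G ⧸ O) := T.mapSurjective hf
      have hTb : (Tb : Subgroup (G ⧸ O)) = (T : Subgroup G).map f := Sylow.coe_mapSurjective hf T
      have hinj : ∀ x ∈ (T : Subgroup G), f x = 1 → x = 1 := by
        intro x hx hfx
        have hxO : x ∈ O := (QuotientGroup.eq_one_iff x).1 hfx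
        have h1 : orderOf x ∣ Nat.card O := by
          have := Subgroup.orderOf_dvd_natCard O hxO
          exact this
        obtain ⟨k, hk⟩ := (hTp).exists_card_eq
        have h3 : orderOf x ∣ 2 ^ k := by
          have := Subgroup.orderOf_dvd_natCard (T : Subgroup G) hx
          rwa [hk] at this
        have h4 : Nat.Coprime (orderOf x) (2 ^ k) :=
          Nat.Coprime.coprime_dvd_left h1 (Nat.Coprime.pow_right k hOcop)
        have h5 : orderOf x = 1 := Nat.eq_one_of_dvd_coprimes h4 (dvd_refl _) h3
        exact orderOf_eq_one_iff.1 h5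
      let r : (T : Subgroup G) →* (Tb : Subgroup (G ⧸ O)) :=
        (f.comp (T : Subgroup G).subtype).codRestrict (Tb : Subgroup (G ⧸ O)) (by
          intro x
          rw [hTb]
          exact Subgroup.mem_map_of_mem f x.2)
      have hrinj : Function.Injective r := by
        rw [injective_iff_map_eq_one]
        intro x hx
        have h1 : f (x : G) = 1 := congrArg Subtype.val hx
        exact Subtype.ext (hinj x x.2 h1)
      have hrsurj : Function.Surjective r := by
        rintro ⟨y, hy⟩
        rw [hTb] at hy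
        obtain ⟨x, hx, rfl⟩ := hy
        exact ⟨⟨x, hx⟩, rfl⟩
      let eb : (Tb : Subgroup (G ⧸ O)) ≃* QuaternionGroup (2 ^ (m + 1)) :=
        (MulEquiv.ofBijective r ⟨hrinj, hrsurj⟩).symm.trans e
      have hOb : ∀ N : Subgroup (G ⧸ O), N.Normal → Odd (Nat.card N) → N = ⊥ := by
        intro N hNn hNo
        have h1 : N ≤ pPrimeCore 2 (G ⧸ O) :=
          Cfsg.Agent.Lib.Basic.le_pPrimeCore hNn (Nat.Coprime.symm (Nat.coprime_two_left.2 hNo))
        rw [Cfsg.Agent.Lib.OddLocal.pPrimeCore_quotient_eq_bot 2] at h1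
        exact le_bot_iff.1 h1
      have hcen : Nat.card (center (G ⧸ O)) = 2 := Cfsg.Agent.S0201.result Tb m eb hOb
      -- the central involution
      have hcenp : IsPGroup 2 (center (G ⧸ O)) := IsPGroup.of_card (n := 1) (by simpa using hcen)
      have hcenT : center (G ⧸ O) ≤ (Tb : Subgroup (G ⧸ O)) := hcenp.le_sylow_of_normal Tb
      obtain ⟨c, hc⟩ : ∃ c : center (G ⧸ O), orderOf c = 2 :=
        exists_prime_orderOf_dvd_card' 2 (by rw [hcen])
      have hcT : ((c : G ⧸ O)) ∈ (Tb : Subgroup (G ⧸ O)) := hcenT c.2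
      obtain ⟨x, hxT, hxc⟩ : ∃ x ∈ (T : Subgroup G), f x = c := by
        rw [hTb] at hcT
        obtain ⟨x, hx, h⟩ := hcT
        exact ⟨x, hx, h⟩
      have hxord : orderOf x = 2 := by
        have hc' : orderOf (c : G ⧸ O) = 2 := by rw [Subgroup.orderOf_coe]; exact hc
        have hxinj : orderOf (f x) = orderOf x := by
          have h1 : orderOf (r ⟨x, hxT⟩) = orderOf (⟨x, hxT⟩ : (T : Subgroup G)) := orderOf_injective r hrinj _
          have h3 : orderOf (⟨x, hxT⟩ : (T : Subgroup G)) = orderOf x := Subgroup.orderOf_mk x hxT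
          have h2 : orderOf (f x) = orderOf (r ⟨x, hxT⟩) := Subgroup.orderOf_coe (r ⟨x, hxT⟩)
          exact h2.trans (h1.trans h3)
        rw [← hxinj, hxc]; exact hc'
      have hxz : x = z := huniq x hxT hxord
      -- conclusion
      have hfz : f z = c := by rw [← hxz]; exact hxc
      have hcomm : f z * f g = f g * f z := by
        rw [hfz]
        exact (Subgroup.mem_center_iff.1 c.2 (f g)).symm
      have : f (z * g * z⁻¹ * g⁻¹) = 1 := by
        simp only [map_mul, map_inv]
        rw [hcomm]
        group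
      exact (QuotientGroup.eq_one_iff _).1 this

end Cfsg.Agent.S0225
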