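import Cfsg.Statements.S0226
import Mathlib
import Cfsg.Agent.Lib.Invol.Basic

set_option autoImplicit false
open Cfsg

namespace Cfsg.Agent.S0226

open Cfsg.Agent.Lib.Invol

/-- A finite group of even order has an odd number of involutions. -/
theorem result {G : Type*} [Group G] [Finite G] (heven : Even (Nat.card G)) : Odd (Nat.card {t : G // orderOf t = 2}) := by
  classical
  cases nonempty_fintype G
  let f : Function.End G := fun g => g⁻¹
  have hf : f ^ 2 ^ 1 = 1 := by
    rw [pow_one, pow_two]
    funext g
    show (g⁻¹)⁻¹ = g
    simp
  have : Fact (Nat.Prime 2) := ⟨Nat.prime_two⟩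
  have h := Equiv.Perm.card_fixedPoints_modEq (α := G) hf
  -- fixed points = Option involutions
  let I := {t : G // orderOf t = 2}
  let φ : Option I → Function.fixedPoints f := fun o => match o with
    | none => ⟨1, by simp [f, Function.IsFixedPt]⟩
    | some t => ⟨t.1, by
        show t.1⁻¹ = t.1
        exact inv_eq_of_orderOf_eq_two t.2⟩
  have hφ : Function.Bijective φ := by
    constructor
    · intro a b hab
      cases a with
      | none =>
        cases b with
        | none => rfl
        | some t =>
          exfalso
          have h1 : (1 : G) = t.1 := congrArg Subtype.val hab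
          have h2 := t.2
          rw [← h1] at h2
          simp at h2
      | some s =>
        cases b with
        | none =>
          exfalso
          have h1 : s.1 = 1 := congrArg Subtype.val hab
          have h2 := s.2
          rw [h1] at h2
          simp at h2
        | some t =>
          congr 1
          have h1 : s.1 = t.1 := congrArg (fun y : Function.fixedPoints f => (y : G)) hab
          exact Subtype.ext h1
    · rintro ⟨g, hg⟩
      have hg' : g⁻¹ = g := hg
      by_cases h1 : g = 1
      · exact ⟨none, Subtype.ext h1.symm⟩
      · refine ⟨some ⟨g, ?_⟩, rfl⟩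
        apply orderOf_eq_two_of_mul_self _ h1
        calc g * g = g⁻¹ * g := by rw [hg']
          _ = 1 := inv_mul_cancel g
  have e1 : Fintype.card (Function.fixedPoints f) = Nat.card I + 1 := by
    rw [← Nat.card_eq_fintype_card, ← Nat.card_congr (Equiv.ofBijective φ hφ), Finite.card_option]
  rw [Nat.card_eq_fintype_card] at heven
  rw [Nat.modEq_iff_dvd] at h
  rw [e1] at h
  obtain ⟨r, hr⟩ := heven
  obtain ⟨c, hc⟩ := h
  push_cast at hc
  rw [hr] at hc
  push_cast at hc
  rw [Nat.odd_iff]
  have hI : Nat.card I = Nat.card {t : G // orderOf t = 2} := rfl
  omega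

end Cfsg.Agent.S0226
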