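import Cfsg.Statements.S0228
import Mathlib
import Cfsg.Agent.Lib.Small.Order3

set_option autoImplicit false
open Cfsg

namespace Cfsg.Agent.S0228

open Cfsg.Agent.Lib.Small Cfsg.Agent.Lib.Invol

/-- A group of order 12 in which no involution is central is isomorphic to the alternating group on four letters. -/
theorem result {G : Type*} [Group G] [Finite G] (hG : Nat.card G = 12) (hz : ∀ z : G, orderOf z = 2 → z ∉ Subgroup.center G) : Nonempty (G ≃* alternatingGroup (Fin 4)) := by
  classical
  have hp3 : Fact (Nat.Prime 3) := ⟨by norm_num⟩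
  have hp2 : Fact (Nat.Prime 2) := ⟨by norm_num⟩
  have h12 : Nat.card G = 3 ^ 1 * 4 := by rw [hG]; norm_num
  have h12' : Nat.card G = 2 ^ 2 * 3 := by rw [hG]; norm_num
  obtain ⟨hmod, hdvd⟩ := card_sylow_mod_dvd (G := G) (p := 3) (a := 1) (m := 4) h12 (by norm_num)
  obtain ⟨P⟩ : Nonempty (Sylow 3 G) := inferInstance
  have hPcard : ∀ Q : Sylow 3 G, Nat.card (Q : Subgroup G) = 3 := fun Q => by
    simpa using card_sylow_eq_of h12 (by norm_num) Q
  have hn : Nat.card (Sylow 3 G) = 1 ∨ Nat.card (Sylow 3 G) = 4 := by
    have hle := Nat.le_of_dvd (by norm_num) hdvd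
    interval_cases hk : Nat.card (Sylow 3 G) <;> omega
  have hgen : ∀ Q : Sylow 3 G, ∃ y ∈ (Q : Subgroup G), orderOf y = 3 := fun Q => by
    apply exists_orderOf_eq_prime_of_dvd
    rw [hPcard]
  rcases hn with hn | hn
  · exfalso
    haveI : Subsingleton (Sylow 3 G) := (Nat.card_eq_one_iff_unique.mp hn).1
    haveI hPn := Sylow.normal_of_subsingleton P
    obtain ⟨y, hyP, hy⟩ := hgen P
    have hy1 : y ≠ 1 := by
      rintro rfl
      simp at hy
    have h1 := card_conj_le_of_normal hyP hy1
    rw [hPcard] at h1
    have h2 := card_conj_mul_card_centralizer y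
    rw [hG] at h2
    have h3 : 6 ≤ Nat.card (Subgroup.centralizer ({y} : Set G)) := by
      by_contra hlt
      have : Nat.card {g : G // IsConj y g} * Nat.card (Subgroup.centralizer ({y} : Set G)) ≤ 2 * 5 :=
        Nat.mul_le_mul (by omega) (by omega)
      omega
    have h4 : 2 ∣ Nat.card (Subgroup.centralizer ({y} : Set G)) := by
      have h5 : Nat.card (Subgroup.centralizer ({y} : Set G)) ∣ 12 := by
        rw [← hG]; exact Subgroup.card_subgroup_dvd_card _
      have hle := Nat.le_of_dvd (by norm_num) h5
      interval_cases hk : Nat.card (Subgroup.centralizer ({y} : Set G)) <;> omega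
    obtain ⟨t, htC, ht⟩ := exists_orderOf_eq_prime_of_dvd (p := 2) _ h4
    rw [mem_centralizer_singleton_iff'] at htC
    -- t lies in a Sylow 2-subgroup, which is abelian; so C(t) has order 12
    apply hz t ht
    have hPz : IsPGroup 2 (Subgroup.zpowers t) := by
      rw [IsPGroup.iff_card, Nat.card_zpowers, ht]
      exact ⟨1, by norm_num⟩
    obtain ⟨T, hT⟩ := hPz.exists_le_sylow
    have htT : t ∈ (T : Subgroup G) := hT (Subgroup.mem_zpowers t)
    have hTcard : Nat.card (T : Subgroup G) = 2 ^ 2 := card_sylow_eq_of h12' (by norm_num) T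
    have hTab : ∀ a ∈ (T : Subgroup G), ∀ b ∈ (T : Subgroup G), a * b = b * a := by
      intro a ha b hb
      letI := IsPGroup.commGroupOfCardEqPrimeSq hTcard
      have := mul_comm (⟨a, ha⟩ : (T : Subgroup G)) ⟨b, hb⟩
      exact congrArg Subtype.val this
    -- C(t) contains T and y
    have hC : ∀ a ∈ (T : Subgroup G), a ∈ Subgroup.centralizer ({t} : Set G) := by
      intro a ha
      rw [mem_centralizer_singleton_iff']
      exact hTab a ha t htT
    have hyC : y ∈ Subgroup.centralizer ({t} : Set G) := by
      rw [mem_centralizer_singleton_iff']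
      exact htC.symm
    have hd1 : 4 ∣ Nat.card (Subgroup.centralizer ({t} : Set G)) := by
      have := Subgroup.card_dvd_of_le (H := (T : Subgroup G)) (K := Subgroup.centralizer ({t} : Set G)) hC
      rwa [hTcard] at this
    have hd2 : 3 ∣ Nat.card (Subgroup.centralizer ({t} : Set G)) := by
      have h5 := orderOf_dvd_natCard (⟨y, hyC⟩ : Subgroup.centralizer ({t} : Set G))
      rw [Subgroup.orderOf_mk, hy] at h5
      exact h5
    have hd3 : Nat.card (Subgroup.centralizer ({t} : Set G)) = 12 := by
      have h5 : Nat.card (Subgroup.centralizer ({t} : Set G)) ∣ 12 := by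
        rw [← hG]; exact Subgroup.card_subgroup_dvd_card _
      have h6 : 12 ∣ Nat.card (Subgroup.centralizer ({t} : Set G)) :=
        Nat.Coprime.mul_dvd_of_dvd_of_dvd (by norm_num) hd1 hd2
      exact Nat.dvd_antisymm h5 h6
    have htop : Subgroup.centralizer ({t} : Set G) = ⊤ :=
      Subgroup.eq_top_of_card_eq _ (by rw [hd3, hG])
    rw [Subgroup.mem_center_iff]
    intro g
    have : g ∈ Subgroup.centralizer ({t} : Set G) := by rw [htop]; trivial
    rw [mem_centralizer_singleton_iff'] at this
    exact this
  · -- N(P) = P so action is faithful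
    have hNP : ∀ Q : Sylow 3 G, Subgroup.normalizer ((Q : Subgroup G) : Set G) = Q := by
      intro Q
      have h1 := card_sylow_eq_index Q
      rw [hn] at h1
      have h2 := (Subgroup.normalizer ((Q : Subgroup G) : Set G)).card_mul_index
      rw [← h1, hG] at h2
      have h3 : Nat.card (Subgroup.normalizer ((Q : Subgroup G) : Set G)) = 3 := by omega
      have hle : (Q : Subgroup G) ≤ Subgroup.normalizer ((Q : Subgroup G) : Set G) := Subgroup.le_normalizer
      exact (Subgroup.eq_of_le_of_card_ge hle (by rw [h3, hPcard])).symm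
    have hfaith : Function.Injective (MulAction.toPermHom G (Sylow 3 G)) := by
      rw [← MonoidHom.ker_eq_bot_iff, eq_bot_iff]
      intro k hk
      have hmem : ∀ Q : Sylow 3 G, k ∈ (Q : Subgroup G) := by
        intro Q
        have h3 := mem_normalizer_of_mem_ker hk Q
        rwa [hNP Q] at h3
      have hnt : Nontrivial (Sylow 3 G) := by
        rw [← Finite.one_lt_card_iff_nontrivial, hn]; norm_num
      obtain ⟨Q, R, hQR⟩ := hnt.exists_pair_ne
      have h5 := inf_eq_bot_of_card_prime Q R hQR (hPcard Q)
      have h6 : k ∈ (Q : Subgroup G) ⊓ (R : Subgroup G) := ⟨hmem Q, hmem R⟩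
      rwa [h5] at h6
    have e : Sylow 3 G ≃ Fin 4 := Finite.equivFinOfCardEq hn
    let φ : Equiv.Perm (Sylow 3 G) ≃* Equiv.Perm (Fin 4) := e.permCongrHom
    let F : G →* Equiv.Perm (Fin 4) := φ.toMonoidHom.comp (MulAction.toPermHom G (Sylow 3 G))
    have hF : Function.Injective F := φ.injective.comp hfaith
    have hrange : F.range = alternatingGroup (Fin 4) := by
      apply Equiv.Perm.eq_alternatingGroup_of_index_eq_two
      have h1 := F.range.card_mul_index
      rw [Nat.card_congr (MonoidHom.ofInjective hF).toEquiv.symm, hG, Nat.card_perm] at h1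
      simp [Nat.factorial] at h1
      omega
    have e2 : G ≃* F.range := MonoidHom.ofInjective hF
    rw [hrange] at e2
    exact ⟨e2⟩

end Cfsg.Agent.S0228
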