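import Cfsg.Statements.S0229
import Mathlib
import Cfsg.Agent.Lib.Invol.Count
import Cfsg.Agent.S0208

set_option autoImplicit false
open Cfsg

namespace Cfsg.Agent.S0229

/-- Let t be an involution of a Sylow 2-subgroup S of a finite group G, conjugate in G to no other element of S, and let s be an involution of G not conjugate to t. Then the order of st is twice an odd number. -/
theorem result {G : Type*} [Group G] [Finite G] (S : Sylow 2 G) (t : G) (ht : orderOf t = 2) (htS : t ∈ S) (hiso : ∀ g : G, g * t * g⁻¹ ∈ S → g * t * g⁻¹ = t) (s : G) (hs : orderOf s = 2) (hns : ¬ IsConj s t) : orderOf (s * t) % 4 = 2 := by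
  open Cfsg.Agent.Lib.Invol in
  have ht' := mul_self_of_orderOf_eq_two ht
  have hs' := mul_self_of_orderOf_eq_two hs
  have hord : orderOf (s * t) = orderOf (t * s) := by
    rw [← orderOf_inv (t * s), mul_inv_rev, inv_eq_of_orderOf_eq_two ht, inv_eq_of_orderOf_eq_two hs]
  rw [hord]
  set c := t * s with hc
  -- not odd
  have hnotodd : ¬ Odd (orderOf c) := by
    intro hodd
    obtain ⟨d, _, hd⟩ := Cfsg.Agent.S0208.result t s ht hs hodd
    exact hns (isConj_iff.mpr ⟨d, hd⟩).symm
  rw [Nat.not_odd_iff_even] at hnotodd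
  by_contra hne
  have h4 : 4 ∣ orderOf c := by
    obtain ⟨r, hr⟩ := hnotodd
    omega
  obtain ⟨a, m, hm, hn⟩ := Nat.exists_eq_two_pow_mul_odd (n := orderOf c) (orderOf_pos c).ne'
  have hmpos : 0 < m := hm.pos
  -- c^(m * 2) conjugates t to t c^{2m}
  have hconj : IsConj t (t * c ^ ((m : ℤ) * 2)) := by
    rw [isConj_iff]
    refine ⟨c ^ (-(m : ℤ)), ?_⟩
    rw [conj_by_zpow ht' hs']
    congr 2
    ring
  have h1 := isolated_zpow_eq (t := t) (s := s) ht' hs' htS hiso hn 2 hconj
  have h2 : c ^ (m * 2) = 1 := by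
    have : ((m : ℤ) * 2) = ((m * 2 : ℕ) : ℤ) := by push_cast; ring
    rw [this, zpow_natCast] at h1
    exact h1
  have h3 : orderOf c ∣ m * 2 := orderOf_dvd_of_pow_eq_one h2
  rw [hn] at h3 h4
  -- 2^a m ∣ 2 m so 2^a ∣ 2
  have h5 : 2 ^ a ∣ 2 := by
    have : 2 ^ a * m ∣ 2 * m := by rwa [mul_comm m 2] at h3
    exact (Nat.mul_dvd_mul_iff_right hmpos).mp this
  have h6 : a ≤ 1 := by
    exact (Nat.pow_dvd_pow_iff_le_right (by norm_num : 1 < 2)).mp (by simpa using h5)
  have h7 : 4 ∣ m * 2 ^ a := by rwa [mul_comm] at h4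
  interval_cases a
  · simp at h7
    obtain ⟨r, rfl⟩ := h7
    exact absurd hm (by simp [Nat.not_odd_iff_even]; exact ⟨2 * r, by ring⟩)
  · simp at h7
    have h8 : 2 ∣ m := by omega
    exact absurd hm (by simp [Nat.not_odd_iff_even]; exact even_iff_two_dvd.mpr h8)

end Cfsg.Agent.S0229
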