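import Cfsg.Statements.S0230
import Mathlib
import Cfsg.Agent.Lib.Invol.Count
import Cfsg.Agent.S0208
import Cfsg.Agent.S0209

set_option autoImplicit false
open Cfsg

namespace Cfsg.Agent.S0230

open Cfsg.Agent.Lib.Invol

/-- Let G be a finite group with two non-conjugate involutions, and let t be an involution whose centralizer has maximal order among centralizers of involutions. Then |G| < |C_G(t)|^3. -/
theorem result {G : Type*} [Group G] [Finite G] (s t : G) (hs : orderOf s = 2) (ht : orderOf t = 2) (hnc : ¬ IsConj s t) (hmax : ∀ u : G, orderOf u = 2 → Nat.card (Subgroup.centralizer ({u} : Set G)) ≤ Nat.card (Subgroup.centralizer ({t} : Set G))) : Nat.card G < Nat.card (Subgroup.centralizer ({t} : Set G)) ^ 3 := by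
  classical
  cases nonempty_fintype G
  set N := Nat.card (Subgroup.centralizer ({t} : Set G)) with hN
  let C : G → Subgroup G := fun a => Subgroup.centralizer ({a} : Set G)
  have hcent : ∀ a : G, (Finset.univ.filter fun g : G => g ∈ C a ∧ g ≠ 1).card + 1 = Nat.card (C a) := by
    intro a
    rw [Nat.card_eq_fintype_card, Fintype.card_subtype]
    have : (Finset.univ.filter fun g : G => g ∈ C a) =
        insert 1 (Finset.univ.filter fun g : G => g ∈ C a ∧ g ≠ 1) := by
      ext g
      simp only [Finset.mem_filter, Finset.mem_univ, true_and, Finset.mem_insert]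
      constructor
      · intro hg
        by_cases h1 : g = 1
        · exact Or.inl h1
        · exact Or.inr ⟨hg, h1⟩
      · rintro (rfl | h)
        · exact (C a).one_mem
        · exact h.1
    rw [this, Finset.card_insert_of_notMem (by simp)]
  have hCt := hcent t
  have hCs := hcent s
  have hst : Nat.card (C s) ≤ N := hmax s hs
  let z : G → G := fun v => (s * v) ^ (orderOf (s * v) / 2)
  let A : Finset G := Finset.univ.filter fun v => IsConj t v
  have hzprop : ∀ v ∈ A, orderOf (z v) = 2 ∧ Commute (z v) s ∧ Commute (z v) v := by
    intro v hv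
    have hvc : IsConj t v := (Finset.mem_filter.mp hv).2
    have hvord : orderOf v = 2 := by
      obtain ⟨c, rfl⟩ := isConj_iff.mp hvc
      exact (MulEquiv.orderOf_eq (MulAut.conj c) t).trans ht
    have heven : Even (orderOf (s * v)) := by
      by_contra hne
      rw [Nat.not_even_iff_odd] at hne
      obtain ⟨d, _, hd⟩ := Cfsg.Agent.S0208.result s v hs hvord hne
      exact hnc ((isConj_iff.mpr ⟨d, hd⟩).trans hvc.symm)
    exact Cfsg.Agent.S0209.result s v hs hvord heven
  -- A has at most (N-1)^2 elements
  have hbound : A.card ≤ (N - 1) * (N - 1) := by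
    have h1 := Finset.card_le_mul_card_image (f := z) A (N - 1) (by
      intro a ha
      obtain ⟨v0, hv0, rfl⟩ := Finset.mem_image.mp ha
      have hord := (hzprop v0 hv0).1
      have hle : Nat.card (C (z v0)) ≤ N := hmax _ hord
      have h2 := hcent (z v0)
      have h3 : (A.filter fun x => z x = z v0) ⊆ (Finset.univ.filter fun g : G => g ∈ C (z v0) ∧ g ≠ 1) := by
        intro v hv
        obtain ⟨hvA, hvz⟩ := Finset.mem_filter.mp hv
        obtain ⟨_, _, hcomm⟩ := hzprop v hvA
        simp only [Finset.mem_filter, Finset.mem_univ, true_and]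
        constructor
        · show v ∈ Subgroup.centralizer _
          rw [mem_centralizer_singleton_iff', ← hvz]
          exact hcomm.eq.symm
        · rintro rfl
          have hvc : IsConj t 1 := (Finset.mem_filter.mp hvA).2
          have : t = 1 := isConj_one_right.mp hvc.symm
          rw [this] at ht
          simp at ht
      have := Finset.card_le_card h3
      omega)
    have h4 : (A.image z).card ≤ N - 1 := by
      have h5 : A.image z ⊆ (Finset.univ.filter fun g : G => g ∈ C s ∧ g ≠ 1) := by
        intro a ha
        obtain ⟨v0, hv0, rfl⟩ := Finset.mem_image.mp ha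
        obtain ⟨hord, hcomm, _⟩ := hzprop v0 hv0
        simp only [Finset.mem_filter, Finset.mem_univ, true_and]
        constructor
        · show _ ∈ Subgroup.centralizer _
          rw [mem_centralizer_singleton_iff']
          exact hcomm.eq
        · intro h1
          rw [h1] at hord
          simp at hord
      have := Finset.card_le_card h5
      omega
    calc A.card ≤ (N - 1) * (A.image z).card := h1
      _ ≤ (N - 1) * (N - 1) := Nat.mul_le_mul_left _ h4
  have hcl := card_conj_mul_card_centralizer t
  have hAcard : Nat.card {g : G // IsConj t g} = A.card := by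
    rw [Nat.card_eq_fintype_card, Fintype.card_subtype]
  rw [hAcard, ← hN] at hcl
  rw [← hcl]
  have hNpos : 0 < N := by
    rw [hN]; exact Nat.card_pos
  obtain ⟨M, hM⟩ : ∃ M, N = M + 1 := ⟨N - 1, by omega⟩
  rw [hM] at hbound ⊢
  simp only [Nat.add_sub_cancel] at hbound
  calc A.card * (M + 1) ≤ (M * M) * (M + 1) := Nat.mul_le_mul_right _ hbound
    _ < (M + 1) ^ 3 := by nlinarith [sq_nonneg M]

end Cfsg.Agent.S0230
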