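import Cfsg.Statements.S0231
import Mathlib
import Cfsg.Agent.Lib.Invol.Count
import Cfsg.Agent.S0208
import Cfsg.Agent.S0209

set_option autoImplicit false
open scoped Pointwise
open Cfsg

namespace Cfsg.Agent.S0231

open Cfsg.Agent.Lib.Invol
open scoped Pointwise

private theorem exists_conj_mem {G : Type*} [Group G] [Finite G] (T : Sylow 2 G) (s : G) (hs : orderOf s = 2) :
    ∃ g : G, g * s * g⁻¹ ∈ (T : Subgroup G) := by
  have hP : IsPGroup 2 (Subgroup.zpowers s) := by
    rw [IsPGroup.iff_card, Nat.card_zpowers, hs]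
    exact ⟨1, by norm_num⟩
  obtain ⟨Q, hQ⟩ := hP.exists_le_sylow
  obtain ⟨h, rfl⟩ := MulAction.exists_smul_eq G Q T
  refine ⟨h, ?_⟩
  have hsQ : s ∈ (Q : Subgroup G) := hQ (Subgroup.mem_zpowers s)
  rw [Sylow.coe_subgroup_smul]
  exact Subgroup.smul_mem_pointwise_smul _ (MulAut.conj h) _ hsQ

private theorem key {G : Type*} [Group G] [Finite G]
    (hTI : ∀ A B : Sylow 2 G, A ≠ B → (A : Subgroup G) ⊓ B = ⊥)
    (A B : Sylow 2 G) (hAB : A ≠ B) (s t : G) (hs : orderOf s = 2) (ht : orderOf t = 2)
    (hsA : s ∈ (A : Subgroup G)) (htB : t ∈ (B : Subgroup G)) : IsConj s t := by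
  by_cases hodd : Odd (orderOf (s * t))
  · obtain ⟨d, _, hd⟩ := Cfsg.Agent.S0208.result s t hs ht hodd
    exact isConj_iff.mpr ⟨d, hd⟩
  · rw [Nat.not_odd_iff_even] at hodd
    exfalso
    obtain ⟨hz, hzs, hzt⟩ := Cfsg.Agent.S0209.result s t hs ht hodd
    set z := (s * t) ^ (orderOf (s * t) / 2) with hzdef
    -- z normalises every Sylow containing an element it commutes with
    have hmem : ∀ (P : Sylow 2 G) (w : G), orderOf w = 2 → w ∈ (P : Subgroup G) → Commute z w →
        z ∈ (P : Subgroup G) := by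
      intro P w hw hwP hzw
      have hconjP : (z • P : Sylow 2 G) = P := by
        by_contra hne
        have h1 := hTI _ _ hne
        have h2 : w ∈ ((z • P : Sylow 2 G) : Subgroup G) ⊓ (P : Subgroup G) := by
          refine ⟨?_, hwP⟩
          rw [Sylow.coe_subgroup_smul]
          have : w = MulAut.conj z • w := by
            show w = z * w * z⁻¹
            rw [hzw.eq]; group
          rw [this]
          exact Subgroup.smul_mem_pointwise_smul _ (MulAut.conj z) _ hwP
        rw [h1, Subgroup.mem_bot] at h2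
        rw [h2] at hw
        simp at hw
      have hzN : z ∈ Subgroup.normalizer ((P : Subgroup G) : Set G) :=
        Sylow.smul_eq_iff_mem_normalizer.mp hconjP
      have hPz : IsPGroup 2 (Subgroup.zpowers z) := by
        rw [IsPGroup.iff_card, Nat.card_zpowers, hz]
        exact ⟨1, by norm_num⟩
      have h3 := hPz.inf_normalizer_sylow P
      have h5 : z ∈ Subgroup.zpowers z ⊓ (P : Subgroup G) := by
        rw [← h3]; exact ⟨Subgroup.mem_zpowers z, hzN⟩
      exact h5.2
    have h1 := hmem A s hs hsA hzs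
    have h2 := hmem B t ht htB hzt
    have h3 : z ∈ (A : Subgroup G) ⊓ (B : Subgroup G) := ⟨h1, h2⟩
    rw [hTI A B hAB, Subgroup.mem_bot] at h3
    rw [h3] at hz
    simp at hz

/-- Let T be a Sylow 2-subgroup of the finite group G which is not normal and which intersects every other Sylow 2-subgroup trivially. Then G has a single conjugacy class of involutions. -/
theorem result {G : Type*} [Group G] [Finite G] (T : Sylow 2 G) (hnn : ¬ (T : Subgroup G).Normal) (hTI : ∀ g : G, MulAut.conj g • (T : Subgroup G) ≠ T → MulAut.conj g • (T : Subgroup G) ⊓ T = ⊥) (s t : G) (hs : orderOf s = 2) (ht : orderOf t = 2) : IsConj s t := by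
  -- sylow form of TI
  have hTI' : ∀ A B : Sylow 2 G, A ≠ B → (A : Subgroup G) ⊓ B = ⊥ := by
    intro A B hAB
    obtain ⟨a, rfl⟩ := MulAction.exists_smul_eq G T A
    obtain ⟨b, rfl⟩ := MulAction.exists_smul_eq G T B
    rw [eq_bot_iff]
    intro x hx
    rw [Subgroup.mem_inf] at hx
    obtain ⟨hxa, hxb⟩ := hx
    rw [Sylow.coe_subgroup_smul] at hxa hxb
    by_cases hab : MulAut.conj (a⁻¹ * b) • (T : Subgroup G) = T
    · exfalso
      apply hAB
      apply Sylow.ext
      rw [Sylow.coe_subgroup_smul, Sylow.coe_subgroup_smul]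
      have : b = a * (a⁻¹ * b) := by group
      rw [this, map_mul, mul_smul, hab]
    · have h1 := hTI (a⁻¹ * b) hab
      have h2 : a⁻¹ * x * a ∈ MulAut.conj (a⁻¹ * b) • (T : Subgroup G) ⊓ (T : Subgroup G) := by
        rw [Subgroup.mem_inf]
        constructor
        · rw [Subgroup.mem_pointwise_smul_iff_inv_smul_mem] at hxb ⊢
          have : (MulAut.conj (a⁻¹ * b))⁻¹ • (a⁻¹ * x * a) = (MulAut.conj b)⁻¹ • x := by
            simp only [MulAut.smul_def, MulAut.conj_inv_apply]
            group
          rw [this]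
          exact hxb
        · rw [Subgroup.mem_pointwise_smul_iff_inv_smul_mem] at hxa
          simp only [MulAut.smul_def, MulAut.conj_inv_apply] at hxa
          exact hxa
      rw [h1, Subgroup.mem_bot] at h2
      have : x = a * (a⁻¹ * x * a) * a⁻¹ := by group
      rw [this, h2]
      simp
  obtain ⟨a, ha⟩ := exists_conj_mem T s hs
  obtain ⟨b, hb⟩ := exists_conj_mem T t ht
  -- a conjugate of T different from T
  have hne : ∃ g : G, (g • T : Sylow 2 G) ≠ T := by
    by_contra hall
    push Not at hall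
    apply hnn
    constructor
    intro n hn g
    have h1 : (T : Subgroup G) = MulAut.conj g • (T : Subgroup G) := by
      have := congrArg (fun S : Sylow 2 G => (S : Subgroup G)) (hall g)
      simp only [Sylow.coe_subgroup_smul] at this
      exact this.symm
    rw [h1]
    exact Subgroup.smul_mem_pointwise_smul _ (MulAut.conj g) _ hn
  obtain ⟨g, hg⟩ := hne
  have hconjord : ∀ (c w : G), orderOf (c * w * c⁻¹) = orderOf w := by
    intro c w
    exact MulEquiv.orderOf_eq (MulAut.conj c) w
  have h1 := key hTI' T (g • T) (Ne.symm hg) (a * s * a⁻¹) (g * (b * t * b⁻¹) * g⁻¹)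
    (by rw [hconjord]; exact hs) (by rw [hconjord, hconjord]; exact ht) ha (by
      rw [Sylow.coe_subgroup_smul]
      exact Subgroup.smul_mem_pointwise_smul _ (MulAut.conj g) _ hb)
  have h2 : IsConj s (a * s * a⁻¹) := isConj_iff.mpr ⟨a, rfl⟩
  have h3 : IsConj t (b * t * b⁻¹) := isConj_iff.mpr ⟨b, rfl⟩
  have h4 : IsConj (b * t * b⁻¹) (g * (b * t * b⁻¹) * g⁻¹) := isConj_iff.mpr ⟨g, rfl⟩
  exact h2.trans (h1.trans ((h3.trans h4).symm))

end Cfsg.Agent.S0231
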