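import Cfsg.Statements.S0232
import Mathlib
import Cfsg.Agent.S0233
import Cfsg.Agent.S0230
import Cfsg.Agent.S0219
import Cfsg.Agent.Lib.Invol.Count

set_option autoImplicit false
open Cfsg

namespace Cfsg.Agent.S0232

section aux
universe u

private theorem main : ∀ (k : ℕ) {G : Type u} [Group G] [Finite G], Nat.card G = k → Even k → 2 < k →
    ∃ H : Subgroup G, H ≠ ⊤ ∧ Nat.card G < (Nat.card H) ^ 3 := by
  intro k
  induction k using Nat.strong_induction_on with
  | _ k ih =>
  intro G _ _ hk heven hgt
  classical
  by_cases hidx : ∃ H : Subgroup G, H.index = 2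
  · -- index two
    obtain ⟨H, hH⟩ := hidx
    refine ⟨H, ?_, ?_⟩
    · rintro rfl
      simp at hH
    · have h1 := Subgroup.card_mul_index H
      rw [hH] at h1
      rw [← h1]
      have h2 : 2 ≤ Nat.card H := by omega
      nlinarith [Nat.pow_le_pow_left h2 2, sq_nonneg (Nat.card H)]
  have hidx' : ∀ H : Subgroup G, H.index ≠ 2 := fun H h => hidx ⟨H, h⟩
  have h2dvd : 2 ∣ Nat.card G := by
    rw [hk]
    exact even_iff_two_dvd.mp heven
  haveI : Fact (Nat.Prime 2) := ⟨Nat.prime_two⟩
  by_cases hcent : ∃ z : G, orderOf z = 2 ∧ z ∈ Subgroup.center G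
  · -- central involution: go to quotient
    obtain ⟨z, hz, hzc⟩ := hcent
    let Z : Subgroup G := Subgroup.zpowers z
    have hZle : Z ≤ Subgroup.center G := by
      rw [Subgroup.zpowers_le]
      exact hzc
    haveI hZn : Z.Normal := by
      constructor
      intro a ha g
      have := hZle ha
      have h1 : g * a * g⁻¹ = a := by
        rw [Subgroup.mem_center_iff.mp this g]
        group
      rw [h1]
      exact ha
    have hZcard : Nat.card Z = 2 := by
      rw [Nat.card_zpowers, hz]
    have hQ : Nat.card (G ⧸ Z) * 2 = k := by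
      rw [← hk, ← hZcard, mul_comm]
      exact (Subgroup.card_mul_index Z).symm ▸ rfl
    have hZi : Nat.card (G ⧸ Z) = Z.index := rfl
    have hQ2 : Nat.card (G ⧸ Z) ≠ 2 := by
      rw [hZi]
      exact hidx' Z
    have hQeven : Even (Nat.card (G ⧸ Z)) := by
      by_contra hodd
      rw [Nat.not_even_iff_odd] at hodd
      -- Sylow 2 has order 2
      obtain ⟨P⟩ : Nonempty (Sylow 2 G) := inferInstance
      obtain ⟨H, hH⟩ := Cfsg.Agent.S0219.result (G := G) (by rw [hk]; exact heven) P (by
        have hPcard : Nat.card (P : Subgroup G) = 2 := by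
          have h1 := Sylow.card_eq_multiplicity P
          have h2 : (Nat.card G).factorization 2 = 1 := by
            rw [hk, ← hQ, Nat.factorization_mul (by
              intro h0; rw [h0] at hQ; omega) (by norm_num)]
            simp only [Finsupp.add_apply, Nat.Prime.factorization_self Nat.prime_two]
            have : (Nat.card (G ⧸ Z)).factorization 2 = 0 := by
              apply Nat.factorization_eq_zero_of_not_dvd
              rw [← even_iff_two_dvd]
              exact Nat.not_even_iff_odd.mpr hodd
            rw [this]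
          rw [h1, h2, pow_one]
        exact isCyclic_of_prime_card hPcard)
      exact hidx' H hH
    have hQpos : 0 < Nat.card (G ⧸ Z) := Nat.card_pos
    have hQgt : 2 < Nat.card (G ⧸ Z) := by
      obtain ⟨r, hr⟩ := hQeven
      omega
    obtain ⟨B, hB, hBlt⟩ := ih (Nat.card (G ⧸ Z)) (by omega) rfl hQeven hQgt
    let q : G →* G ⧸ Z := QuotientGroup.mk' Z
    have hqs : Function.Surjective q := QuotientGroup.mk'_surjective Z
    refine ⟨B.comap q, ?_, ?_⟩
    · intro htop
      apply hB
      rw [eq_top_iff]
      intro w _
      obtain ⟨v, rfl⟩ := hqs w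
      have : v ∈ B.comap q := by rw [htop]; trivial
      exact this
    · have hi : (B.comap q).index = B.index := Subgroup.index_comap_of_surjective B hqs
      have h1 := Subgroup.card_mul_index (B.comap q)
      have h2 := Subgroup.card_mul_index B
      rw [hi] at h1
      have hipos : 0 < B.index := by
        rw [Nat.pos_iff_ne_zero]
        intro h
        rw [h] at h2
        omega
      have h3 : Nat.card (B.comap q) = 2 * Nat.card B := by
        apply Nat.eq_of_mul_eq_mul_right hipos
        rw [h1, mul_assoc, h2, hk]
        omega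
      rw [h3, hk, ← hQ]
      have h4 : 0 < Nat.card B := Nat.card_pos
      have h5 : (2 * Nat.card B) ^ 3 = 8 * (Nat.card B) ^ 3 := by ring
      rw [h5]
      omega
  · have hcent' : ∀ z : G, orderOf z = 2 → z ∉ Subgroup.center G := fun z hz hc => hcent ⟨z, hz, hc⟩
    have hZodd : Odd (Nat.card (Subgroup.center G)) := by
      by_contra h
      rw [Nat.not_odd_iff_even, even_iff_two_dvd] at h
      obtain ⟨z, hz⟩ := exists_prime_orderOf_dvd_card' (G := Subgroup.center G) 2 h
      apply hcent' (z : G) _ z.2
      rw [Subgroup.orderOf_coe, hz]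
    obtain ⟨H, hH, hor⟩ := Cfsg.Agent.S0233.result (G := G) (by rw [hk]; exact heven) hZodd
    rcases hor with h2 | hineq
    · exact absurd h2 (hidx' H)
    -- a maximal centralizer
    obtain ⟨t₀, ht₀⟩ := exists_prime_orderOf_dvd_card' (G := G) 2 h2dvd
    haveI : Nonempty {t : G // orderOf t = 2} := ⟨⟨t₀, ht₀⟩⟩
    obtain ⟨⟨t, ht⟩, htmax⟩ := Finite.exists_max
      (fun u : {t : G // orderOf t = 2} => Nat.card (Subgroup.centralizer ({u.1} : Set G)))
    have hCtop : Subgroup.centralizer ({t} : Set G) ≠ ⊤ := by
      intro htop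
      apply hcent' t ht
      rw [Subgroup.mem_center_iff]
      intro w
      have : w ∈ Subgroup.centralizer ({t} : Set G) := by rw [htop]; trivial
      rw [Subgroup.mem_centralizer_singleton_iff] at this
      exact this
    by_cases hlt : Nat.card G < (Nat.card (Subgroup.centralizer ({t} : Set G))) ^ 3
    · exact ⟨_, hCtop, hlt⟩
    rw [not_lt] at hlt
    have hallconj : ∀ s : G, orderOf s = 2 → IsConj t s := by
      intro s hs
      by_contra hns
      apply absurd _ (not_lt.mpr hlt)
      apply Cfsg.Agent.S0230.result s t hs ht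
      · intro h
        exact hns h.symm
      · intro u hu
        exact htmax ⟨u, hu⟩
    set c := Nat.card (Subgroup.centralizer ({t} : Set G)) with hc
    set m := Nat.card {x : G // orderOf x = 2} with hm
    have hmc : m * c = Nat.card G := by
      have h1 := Cfsg.Agent.Lib.Invol.card_conj_mul_card_centralizer t
      have h2 : Nat.card {g : G // IsConj t g} = m := by
        apply Nat.card_congr
        refine Equiv.subtypeEquivRight ?_
        intro w
        constructor
        · rintro ⟨d, hd⟩
          rw [← SemiconjBy.orderOf_eq _ hd, ht]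
        · exact hallconj w
      rw [h2] at h1
      exact h1
    have hcpos : 0 < c := Nat.card_pos
    have hgpos : 0 < Nat.card G := Nat.card_pos
    have hmpos : 0 < m := by
      by_contra h
      have h0 : m = 0 := by omega
      rw [h0] at hmc
      omega
    refine ⟨H, hH, ?_⟩
    have h1 : 2 * H.index < c * (c + 1) := by
      have h5 : 2 * H.index * m ^ 2 < (c * (c + 1)) * m ^ 2 := by
        calc 2 * H.index * m ^ 2 < Nat.card G * (Nat.card G + m) := hineq
          _ = (m * c) * (m * c + m) := by rw [hmc]
          _ = _ := by ring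
      exact Nat.lt_of_mul_lt_mul_right h5
    have h2 : H.index < c ^ 2 := by nlinarith
    have hHi := Subgroup.card_mul_index H
    have hipos : 0 < H.index := by
      rw [Nat.pos_iff_ne_zero]
      intro h
      rw [h] at hHi
      omega
    have h3 : H.index ^ 3 < (Nat.card G) ^ 2 := by
      calc H.index ^ 3 < (c ^ 2) ^ 3 := Nat.pow_lt_pow_left h2 (by norm_num)
        _ = (c ^ 3) ^ 2 := by ring
        _ ≤ (Nat.card G) ^ 2 := Nat.pow_le_pow_left hlt 2
    have h4 : Nat.card G * H.index ^ 3 < Nat.card H ^ 3 * H.index ^ 3 := by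
      calc Nat.card G * H.index ^ 3 < Nat.card G * (Nat.card G) ^ 2 := Nat.mul_lt_mul_of_pos_left h3 hgpos
        _ = (Nat.card H * H.index) ^ 3 := by rw [hHi]; ring
        _ = _ := by ring
    exact Nat.lt_of_mul_lt_mul_right h4

end aux

/-- A finite group G of even order greater than 2 has a proper subgroup H with |G| < |H|^3. -/
theorem result {G : Type*} [Group G] [Finite G] (heven : Even (Nat.card G)) (hgt : 2 < Nat.card G) : ∃ H : Subgroup G, H ≠ ⊤ ∧ Nat.card G < (Nat.card H) ^ 3 := by
  exact main _ rfl heven hgt

end Cfsg.Agent.S0232
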