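import Cfsg.Statements.S0234
import Mathlib
import Cfsg.Agent.S0233
import Cfsg.Agent.S0493
import Cfsg.Agent.Lib.SmallSimple.Basic

set_option autoImplicit false
open Cfsg

namespace Cfsg.Agent.S0234

private theorem a5_count : Nat.card {t : alternatingGroup (Fin 5) // orderOf t = 2} = 15 := by
  have e : {t : alternatingGroup (Fin 5) // orderOf t = 2} ≃ {t : alternatingGroup (Fin 5) // t ^ 2 = 1 ∧ t ≠ 1} := by
    refine Equiv.subtypeEquivRight ?_
    intro t
    constructor
    · intro h
      refine ⟨by rw [← h]; exact pow_orderOf_eq_one t, ?_⟩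
      rintro rfl
      rw [orderOf_one] at h
      omega
    · rintro ⟨h1, h2⟩
      exact orderOf_eq_prime h1 h2
  rw [Nat.card_congr e, Nat.card_eq_fintype_card]
  decide +kernel

private theorem card_inv_of_embed {G : Type*} [Group G] [Finite G] (hg : Nat.card G = 60) {k : ℕ} (hk : k = 5)
    (f : G →* alternatingGroup (Fin k)) (hf : Function.Injective f) :
    Nat.card {t : G // orderOf t = 2} = 15 := by
  subst hk
  have hcard : Nat.card (alternatingGroup (Fin 5)) = 60 := by
    rw [Nat.card_eq_fintype_card]
    decide +kernel
  have hb : Function.Bijective f := by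
    rw [Nat.bijective_iff_injective_and_card]
    exact ⟨hf, by rw [hg, hcard]⟩
  let e : G ≃* alternatingGroup (Fin 5) := MulEquiv.ofBijective f hb
  rw [← a5_count]
  apply Nat.card_congr
  refine e.toEquiv.subtypeEquiv ?_
  intro t
  have : orderOf (e t) = orderOf t := MulEquiv.orderOf_eq e t
  simp only [MulEquiv.toEquiv_eq_coe, EquivLike.coe_coe, this]

/-- In a finite simple group G of even order greater than 2, the number n of involutions satisfies 3n < |G|. -/
theorem result {G : Type*} [Group G] [Finite G] [IsSimpleGroup G] (heven : Even (Nat.card G)) (hgt : 2 < Nat.card G) : 3 * Nat.card {t : G // orderOf t = 2} < Nat.card G := by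
  classical
  have hnc : ¬ IsMulCommutative G := by
    intro hc
    letI : CommGroup G := { (inferInstance : Group G) with mul_comm := hc.is_comm.comm }
    have hp : (Nat.card G).Prime := IsSimpleGroup.prime_card
    have h2 : 2 ∣ Nat.card G := even_iff_two_dvd.mp heven
    have := (Nat.prime_dvd_prime_iff_eq Nat.prime_two hp).mp h2
    omega
  have hcyc : ¬ IsCyclic G := by
    intro h
    apply hnc
    exact IsCyclic.isMulCommutative
  have hcenter : Subgroup.center G = ⊥ := by
    rcases IsSimpleGroup.eq_bot_or_eq_top_of_normal (Subgroup.center G) inferInstance with h | h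
    · exact h
    · exfalso
      apply hnc
      refine ⟨⟨fun a b => ?_⟩⟩
      have : b ∈ Subgroup.center G := by rw [h]; trivial
      exact (Subgroup.mem_center_iff.mp this a)
  have hZodd : Odd (Nat.card (Subgroup.center G)) := by
    rw [hcenter]
    simp
  obtain ⟨H, hH, hor⟩ := Cfsg.Agent.S0233.result heven hZodd
  by_contra hcon
  rw [not_lt] at hcon
  set n := Nat.card {t : G // orderOf t = 2} with hn
  set g := Nat.card G with hg
  have hgpos : 0 < g := Nat.card_pos
  have hnpos : 0 < n := by omega
  have hidx : H.index < 6 := by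
    rcases hor with h2 | h2
    · omega
    · by_contra h6
      rw [not_lt] at h6
      have h3 : g * (g + n) ≤ 3 * n * (3 * n + n) := by
        apply Nat.mul_le_mul hcon
        omega
      have h4 : 12 * n ^ 2 ≤ 2 * H.index * n ^ 2 := by
        apply Nat.mul_le_mul_right
        omega
      nlinarith
  have hdvd := Cfsg.Agent.Lib.SmallSimple.two_mul_card_dvd_factorial hnc H hH
  have hdvd5 : H.index.factorial ∣ Nat.factorial 5 := Nat.factorial_dvd_factorial (by omega)
  have h120 : 2 * g ∣ Nat.factorial 5 := hdvd.trans hdvd5
  have h120' : 2 * g ≤ 120 := Nat.le_of_dvd (by decide) h120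
  have h60 : g = 60 := Cfsg.Agent.S0493.result hcyc (by omega)
  have h60' : Nat.card G = 60 := h60
  rw [h60'] at hdvd
  have hidx5 : H.index = 5 := by
    by_contra hne
    have hle : H.index ≤ 4 := by omega
    have h3 := hdvd.trans (Nat.factorial_dvd_factorial hle)
    revert h3
    decide
  -- embedding
  obtain ⟨f, hf⟩ := Cfsg.Agent.Lib.SmallSimple.exists_embed_alt hnc H hH
  have hcount := card_inv_of_embed h60' hidx5 f hf
  rw [← hn] at hcount
  omega

end Cfsg.Agent.S0234
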