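import Cfsg.Statements.S0239
import Mathlib

set_option autoImplicit false
open Cfsg

namespace Cfsg.Agent.S0239

/-- If some nontrivial element x of a finite group G is conjugate to x⁻¹, then |G| is even. -/
theorem result {G : Type*} [Group G] [Finite G] (x : G) (hx : x ≠ 1) (hreal : IsConj x x⁻¹) : Even (Nat.card G) := by
  by_contra hodd
  rw [Nat.not_even_iff_odd] at hodd
  obtain ⟨g, hg⟩ := isConj_iff.mp hreal
  -- g^2 centralises x
  have h2 : g ^ 2 * x * (g ^ 2)⁻¹ = x := by
    have : g ^ 2 * x * (g ^ 2)⁻¹ = g * (g * x * g⁻¹) * g⁻¹ := by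
      rw [pow_two, mul_inv_rev]; simp only [mul_assoc]
    rw [this, hg]
    have h3 : g * x⁻¹ * g⁻¹ = (g * x * g⁻¹)⁻¹ := by group
    rw [h3, hg, inv_inv]
  have hcomm : Commute (g ^ 2) x := by
    show g ^ 2 * x = x * g ^ 2
    have := eq_mul_inv_iff_mul_eq.mp h2.symm
    exact this.symm
  have hgord : Odd (orderOf g) := Odd.of_dvd_nat hodd (orderOf_dvd_natCard g)
  obtain ⟨m, hm⟩ := hgord
  have hgpow : g = (g ^ 2) ^ (m + 1) := by
    rw [← pow_mul]
    have : 2 * (m + 1) = orderOf g + 1 := by omega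
    rw [this, pow_succ, pow_orderOf_eq_one, one_mul]
  have hcomm2 : Commute g x := by
    rw [hgpow]; exact hcomm.pow_left _
  have h4 : x = x⁻¹ := by
    have : g * x * g⁻¹ = x := by rw [hcomm2.eq]; group
    rw [← hg, this]
  have h5 : x * x = 1 := by
    calc x * x = x⁻¹ * x := by rw [← h4]
      _ = 1 := inv_mul_cancel x
  have h6 : orderOf x = 2 := by
    have : Fact (Nat.Prime 2) := ⟨Nat.prime_two⟩
    exact orderOf_eq_prime (by rw [pow_two]; exact h5) hx
  have h7 : Odd (orderOf x) := Odd.of_dvd_nat hodd (orderOf_dvd_natCard x)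
  rw [h6] at h7
  exact absurd h7 (by decide)

end Cfsg.Agent.S0239
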