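import Cfsg.Statements.S0240
import Mathlib
import Cfsg.Agent.Lib.Invol.Basic

set_option autoImplicit false
open Cfsg

namespace Cfsg.Agent.S0240

/-- Let G be a finite group with n involutions and H a subgroup with |H|·(n+1) > |G|. Then some nontrivial h ∈ H is strongly real in G: an involution t of G satisfies t h t⁻¹ = h⁻¹. -/
theorem result {G : Type*} [Group G] [Finite G] (H : Subgroup G) (hH : Nat.card G < Nat.card H * (Nat.card {t : G // orderOf t = 2} + 1)) : ∃ h : G, h ∈ H ∧ h ≠ 1 ∧ ∃ t : G, orderOf t = 2 ∧ t * h * t⁻¹ = h⁻¹ := by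
  open Cfsg.Agent.Lib.Invol in
  classical
  cases nonempty_fintype G
  -- I = Option of involutions
  let I := {t : G // orderOf t = 2}
  let ι : Option I → G := fun o => match o with
    | none => 1
    | some t => t.1
  have hιsq : ∀ o, ι o * ι o = 1 := by
    intro o
    cases o with
    | none => simp [ι]
    | some t => exact mul_self_of_orderOf_eq_two t.2
  have hιinj : Function.Injective ι := by
    intro a b hab
    cases a with
    | none =>
      cases b with
      | none => rfl
      | some t =>
        exfalso
        have h1 : (1 : G) = t.1 := hab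
        have := t.2
        rw [← h1] at this
        simp at this
    | some s =>
      cases b with
      | none =>
        exfalso
        have h1 : s.1 = 1 := hab
        have := s.2
        rw [h1] at this
        simp at this
      | some t =>
        congr 1
        exact Subtype.ext hab
  -- not injective
  let φ : H × Option I → G := fun p => (p.1 : G) * ι p.2
  have hcard : Fintype.card G < Fintype.card (H × Option I) := by
    rw [Fintype.card_prod, Fintype.card_option]
    simpa [Nat.card_eq_fintype_card] using hH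
  obtain ⟨⟨h₁, i₁⟩, ⟨h₂, i₂⟩, hne, heq⟩ := Fintype.exists_ne_map_eq_of_card_lt φ hcard
  simp only [φ] at heq
  set a := ι i₁ with ha
  set b := ι i₂ with hb
  have haa : a * a = 1 := hιsq i₁
  have hbb : b * b = 1 := hιsq i₂
  have hai : a⁻¹ = a := inv_eq_of_mul_eq_one_left haa
  have hbi : b⁻¹ = b := inv_eq_of_mul_eq_one_left hbb
  set h : G := (h₂ : G)⁻¹ * h₁ with hh
  have hi : h = b * a := by
    have h3 : (h₁ : G) = h₂ * (b * a⁻¹) := by
      rw [← mul_assoc, ← heq]; group
    rw [hh, h3, hai]; group
  have hhH : h ∈ H := H.mul_mem (H.inv_mem h₂.2) h₁.2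
  have hne1 : h ≠ 1 := by
    intro h1
    apply hne
    have h4 : (h₂ : G)⁻¹ * h₁ = 1 := h1
    have h5 : (h₁ : G) = h₂ := by
      have := inv_mul_eq_one.mp h4
      exact this.symm
    have h6 : a = b := by
      rw [h5] at heq
      exact mul_left_cancel heq
    have h7 : i₁ = i₂ := hιinj h6
    have h8 : h₁ = h₂ := Subtype.ext h5
    rw [h7, h8]
  refine ⟨h, hhH, hne1, ?_⟩
  by_cases ha1 : a = 1
  · have hb1 : b ≠ 1 := by
      intro hb1
      apply hne1
      rw [hi, ha1, hb1, mul_one]
    refine ⟨b, orderOf_eq_two_of_mul_self hbb hb1, ?_⟩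
    rw [hi, ha1, mul_one, hbi, hbb, one_mul]
  · refine ⟨a, orderOf_eq_two_of_mul_self haa ha1, ?_⟩
    rw [hi, mul_inv_rev, hai, hbi]
    rw [mul_assoc, mul_assoc, haa, mul_one]

end Cfsg.Agent.S0240
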