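import Cfsg.Statements.S0241
import Mathlib
import Cfsg.Agent.Lib.Invol.Count

set_option autoImplicit false
open Cfsg

namespace Cfsg.Agent.S0241

/-- If x ≠ 1 is conjugate to x⁻¹ in a finite group G and |C_G(x)| is odd, then some involution t satisfies t x t⁻¹ = x⁻¹. -/
theorem result {G : Type*} [Group G] [Finite G] (x : G) (hx : x ≠ 1) (hreal : IsConj x x⁻¹) (hodd : Odd (Nat.card (Subgroup.centralizer ({x} : Set G)))) : ∃ t : G, orderOf t = 2 ∧ t * x * t⁻¹ = x⁻¹ := by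
  open Cfsg.Agent.Lib.Invol in
  obtain ⟨g, hg⟩ := isConj_iff.mp hreal
  have hg2 : g ^ 2 * x = x * g ^ 2 := by
    have h2 : g ^ 2 * x * (g ^ 2)⁻¹ = x := by
      have : g ^ 2 * x * (g ^ 2)⁻¹ = g * (g * x * g⁻¹) * g⁻¹ := by
        rw [pow_two, mul_inv_rev]; simp only [mul_assoc]
      rw [this, hg]
      have h3 : g * x⁻¹ * g⁻¹ = (g * x * g⁻¹)⁻¹ := by group
      rw [h3, hg, inv_inv]
    exact (eq_mul_inv_iff_mul_eq.mp h2.symm).symm
  let C := Subgroup.centralizer ({x} : Set G)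
  have hg2C : g ^ 2 ∈ C := by
    rw [mem_centralizer_singleton_iff']
    exact hg2
  have hordg2 : Odd (orderOf (g ^ 2)) := by
    have h1 : orderOf (⟨g ^ 2, hg2C⟩ : C) ∣ Nat.card C := orderOf_dvd_natCard _
    rw [Subgroup.orderOf_mk] at h1
    exact Odd.of_dvd_nat hodd h1
  obtain ⟨k, hk⟩ := hordg2
  set m := 2 * k + 1 with hm
  refine ⟨g ^ m, ?_, ?_⟩
  · have h1 : (g ^ m) * (g ^ m) = 1 := by
      rw [← pow_add, ← two_mul, pow_mul, ← hk, pow_orderOf_eq_one]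
    have hinv : g ^ m * x * (g ^ m)⁻¹ = x⁻¹ := by
      have hcomm : Commute (g ^ 2) x⁻¹ := by
        have : Commute (g ^ 2) x := hg2
        exact this.inv_right
      have hm2 : g ^ m = (g ^ 2) ^ k * g := by
        rw [hm, pow_succ, pow_mul]
      rw [hm2]
      calc (g ^ 2) ^ k * g * x * ((g ^ 2) ^ k * g)⁻¹
          = (g ^ 2) ^ k * (g * x * g⁻¹) * ((g ^ 2) ^ k)⁻¹ := by group
        _ = (g ^ 2) ^ k * x⁻¹ * ((g ^ 2) ^ k)⁻¹ := by rw [hg]
        _ = x⁻¹ := by rw [(hcomm.pow_left k).eq]; group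
    apply orderOf_eq_two_of_mul_self h1
    intro h2
    rw [h2] at hinv
    simp only [one_mul, inv_one, mul_one] at hinv
    have h3 : x * x = 1 := by
      calc x * x = x⁻¹ * x := by rw [← hinv]
        _ = 1 := inv_mul_cancel x
    have hxC : x ∈ C := by
      rw [mem_centralizer_singleton_iff']
    have h4 : orderOf (⟨x, hxC⟩ : C) ∣ Nat.card C := orderOf_dvd_natCard _
    rw [Subgroup.orderOf_mk, orderOf_eq_two_of_mul_self h3 hx] at h4
    have := Odd.of_dvd_nat hodd h4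
    exact absurd this (by decide)
  · have hcomm : Commute (g ^ 2) x⁻¹ := by
      have : Commute (g ^ 2) x := hg2
      exact this.inv_right
    have hm2 : g ^ m = (g ^ 2) ^ k * g := by
      rw [hm, pow_succ, pow_mul]
    rw [hm2]
    calc (g ^ 2) ^ k * g * x * ((g ^ 2) ^ k * g)⁻¹
        = (g ^ 2) ^ k * (g * x * g⁻¹) * ((g ^ 2) ^ k)⁻¹ := by group
      _ = (g ^ 2) ^ k * x⁻¹ * ((g ^ 2) ^ k)⁻¹ := by rw [hg]
      _ = x⁻¹ := by rw [(hcomm.pow_left k).eq]; group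

end Cfsg.Agent.S0241
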