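import Cfsg.Statements.S0804
import Mathlib
import Cfsg.Agent.Lib.Classical.PslApps

set_option autoImplicit false
open Cfsg Cfsg.Agent.Lib.Classical

namespace Cfsg.Agent.S0804

/-- PSL_2(q) has a subgroup isomorphic to A_5 iff 5 ∣ q(q² − 1). -/
theorem result {F : Type*} [Field F] [Fintype F] {q : ℕ} (hF : Fintype.card F = q) : (∃ H : Subgroup (Matrix.ProjectiveSpecialLinearGroup (Fin 2) F), Nonempty (H ≃* alternatingGroup (Fin 5))) ↔ 5 ∣ q * (q ^ 2 - 1) := by
  classical
  have hq2 : 2 ≤ q := by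
    rw [← hF]
    exact Fintype.one_lt_card
  constructor
  · rintro ⟨H, ⟨e⟩⟩
    have hcard : 60 ∣ Nat.card (Matrix.ProjectiveSpecialLinearGroup (Fin 2) F) := by
      have h1 := Subgroup.card_subgroup_dvd_card H
      rwa [Nat.card_congr e.toEquiv, card_alt_five] at h1
    have h5 : 5 ∣ Nat.card (Matrix.ProjectiveSpecialLinearGroup (Fin 2) F) := (by norm_num : 5 ∣ 60).trans hcard
    rcases Nat.even_or_odd q with hq | hq
    · rw [card_psl2_even hF hq] at h5
      exact h5
    · have h1 := card_psl2_odd hF hq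
      rw [← h1]
      exact h5.mul_left _
  · intro h
    rcases Nat.even_or_odd q with hq | hq
    · obtain ⟨n, hn1, hn⟩ := char_two_of_even (F := F) (by rw [hF]; exact hq)
      have hq5 : ¬ 5 ∣ q := by
        rw [← hF, hn]
        intro h6
        have := (by norm_num : Nat.Prime 5).dvd_of_dvd_pow h6
        omega
      have h6 : 5 ∣ q ^ 2 - 1 := ((by norm_num : Nat.Prime 5).dvd_mul.1 h).resolve_left hq5
      have hqe : q = 2 ^ n := by rw [← hF, hn]
      have hn2 : Even n := by
        rw [← Nat.not_odd_iff_even]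
        rintro ⟨k, hk⟩
        rw [hqe, hk] at h6
        have h7 : (2 ^ (2 * k + 1)) ^ 2 % 5 = 4 := by
          rw [← pow_mul, show (2 * k + 1) * 2 = 2 * (2 * k) + 2 by ring, pow_add, pow_mul, pow_mul, Nat.mul_mod, Nat.pow_mod]
          norm_num
        have h8 : 1 ≤ (2 ^ (2 * k + 1)) ^ 2 := Nat.one_le_pow _ _ (by positivity)
        generalize (2 ^ (2 * k + 1)) ^ 2 = x at h6 h7 h8
        omega
      obtain ⟨k, hk⟩ := hn2
      refine exists_a5_of_four (F := F) k (by omega) ?_
      rw [hn, hk, ← two_mul, pow_mul]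
      norm_num
    · obtain ⟨φ, hφ⟩ := exists_phi hF hq h
      obtain ⟨S⟩ := QSplit.nonempty_of_odd (F := F) (by rw [hF]; exact Nat.odd_iff.1 hq)
      exact ⟨_, (S.a5 φ hφ).I_equiv⟩

end Cfsg.Agent.S0804
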