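import Cfsg.Statements.S0254
import Mathlib
import Cfsg.Agent.S0804
import Cfsg.Agent.Lib.Classical.PslApps
import Cfsg.Agent.Lib.Classical.PSL2Simple

set_option autoImplicit false
open Cfsg Cfsg.Agent.Lib.Classical

namespace Cfsg.Agent.S0254

/-- PSL_2(9) is isomorphic to A_6. -/
theorem result {F : Type*} [Field F] [Fintype F] (hF : Fintype.card F = 9) : Nonempty (Matrix.ProjectiveSpecialLinearGroup (Fin 2) F ≃* alternatingGroup (Fin 6)) := by
  classical
  obtain ⟨H, ⟨e⟩⟩ := (Cfsg.Agent.S0804.result hF).2 (by norm_num)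
  have hodd : Odd 9 := by decide
  have hc := card_psl2_odd hF hodd
  have hG : Nat.card (Matrix.ProjectiveSpecialLinearGroup (Fin 2) F) = 360 := by
    have e : 9 * (9 ^ 2 - 1) = 720 := by norm_num
    rw [e] at hc
    omega
  have hH : Nat.card H = 60 := by
    rw [Nat.card_congr e.toEquiv, card_alt_five]
  have hidx : Nat.card (Matrix.ProjectiveSpecialLinearGroup (Fin 2) F ⧸ H) = 6 := by
    have h := Subgroup.card_eq_card_quotient_mul_card_subgroup H
    rw [hG, hH] at h
    omega
  haveI : IsSimpleGroup (Matrix.ProjectiveSpecialLinearGroup (Fin 2) F) := psl_isSimpleGroup_of_four_le (by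
    rw [Nat.card_eq_fintype_card, hF]
    norm_num)
  refine nonempty_mulEquiv_alt_of_injective 6 (MulAction.toPermHom _ (Matrix.ProjectiveSpecialLinearGroup (Fin 2) F ⧸ H)) ?_ hidx (by rw [hG]; rfl)
  apply coset_action_injective
  intro x hx
  rcases (Subgroup.normalCore_normal H).eq_bot_or_eq_top with h | h
  · rw [h] at hx
    exact (Subgroup.mem_bot).1 hx
  · exfalso
    have h1 : H = ⊤ := top_le_iff.1 (by rw [← h]; exact H.normalCore_le)
    rw [h1, Nat.card_congr Subgroup.topEquiv.toEquiv, hG] at hH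
    omega

end Cfsg.Agent.S0254
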