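import Cfsg.Statements.S0255
import Mathlib
import Cfsg.Agent.S0243
import Cfsg.Agent.S0495
import Cfsg.Agent.Lib.Classical.PSL

set_option autoImplicit false
open Cfsg

namespace Cfsg.Agent.S0255

/-- PSL_2(7) is isomorphic to PSL_3(2). -/
theorem result {F K : Type*} [Field F] [Fintype F] [Field K] [Fintype K] (hF : Fintype.card F = 7) (hK : Fintype.card K = 2) : Nonempty (Matrix.ProjectiveSpecialLinearGroup (Fin 2) F ≃* Matrix.ProjectiveSpecialLinearGroup (Fin 3) K) := by
  have h := Cfsg.Agent.S0243.result (F := K) hK 3 (by norm_num)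
  simp only [Fin.prod_univ_three] at h
  norm_num at h
  have hs : IsSimpleGroup (Matrix.ProjectiveSpecialLinearGroup (Fin 3) K) :=
    Cfsg.Agent.Lib.Classical.psl_isSimpleGroup_of_three_le (by simp)
  have h2 : Nat.card (Matrix.ProjectiveSpecialLinearGroup (Fin 3) K) = 168 := by omega
  obtain ⟨e⟩ := Cfsg.Agent.S0495.result h2 hF
  exact ⟨e.symm⟩

end Cfsg.Agent.S0255
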