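import Cfsg.Statements.S0257
import Mathlib
import Cfsg.Agent.Lib.Classical.Transfer
import Cfsg.Agent.Lib.Classical.Card2

set_option autoImplicit false
open Cfsg

namespace Cfsg.Agent.S0257

open Matrix
open scoped MatrixGroups

def qa : SL(2, ZMod 3) := ⟨!![0, 1; -1, 0], by decide⟩
def qb : SL(2, ZMod 3) := ⟨!![1, 1; 1, -1], by decide⟩

def qmap : QuaternionGroup 2 → SL(2, ZMod 3)
  | .a i => qa ^ i.val
  | .xa i => qb * qa ^ i.val

set_option maxRecDepth 100000 in
theorem qmap_mul : ∀ x y : QuaternionGroup 2, qmap (x * y) = qmap x * qmap y := by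
  decide

set_option maxRecDepth 100000 in
theorem qmap_inj : ∀ x y : QuaternionGroup 2, qmap x = qmap y → x = y := by
  decide

set_option maxRecDepth 100000 in
theorem qmap_norm' : ∀ (a b c d : ZMod 3) (x : QuaternionGroup 2), a * d - b * c = 1 → ∃ y, (!![a, b; c, d] : Matrix (Fin 2) (Fin 2) (ZMod 3)) * (qmap x : Matrix (Fin 2) (Fin 2) (ZMod 3)) * !![d, -b; -c, a] = (qmap y : Matrix (Fin 2) (Fin 2) (ZMod 3)) := by
  decide

def qhom : QuaternionGroup 2 →* SL(2, ZMod 3) := MonoidHom.mk' qmap qmap_mul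

theorem qhom_normal : qhom.range.Normal := by
  constructor
  rintro _ ⟨x, rfl⟩ g
  have hdet : g 0 0 * g 1 1 - g 0 1 * g 1 0 = 1 := by
    have := g.2
    rwa [Matrix.det_fin_two] at this
  obtain ⟨y, hy⟩ := qmap_norm' (g 0 0) (g 0 1) (g 1 0) (g 1 1) x hdet
  refine ⟨y, ?_⟩
  apply Subtype.ext
  change (qmap y : Matrix (Fin 2) (Fin 2) (ZMod 3)) = (g : Matrix (Fin 2) (Fin 2) (ZMod 3)) * (qmap x) * (g⁻¹ : SL(2, ZMod 3))
  rw [← hy, Matrix.SpecialLinearGroup.SL2_inv_expl g]
  congr 1
  congr 1
  exact (Matrix.eta_fin_two _).symm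

theorem card_sl23 : Nat.card SL(2, ZMod 3) = 24 := by
  have h : Nat.card (Matrix.GeneralLinearGroup (Fin 2) (ZMod 3)) = (Nat.card (ZMod 3) - 1) * Nat.card SL(2, ZMod 3) :=
    Cfsg.Agent.Lib.Classical.card_GL_eq_mul_card_SL (Fin 2)
  rw [Matrix.card_GL_field, Fin.prod_univ_two, ZMod.card, Nat.card_zmod] at h
  generalize Nat.card SL(2, ZMod 3) = a at h ⊢
  norm_num at h
  omega

theorem result {F : Type*} [Field F] [Fintype F] (hF : Fintype.card F = 3) : (∃ Q : Subgroup (Matrix.SpecialLinearGroup (Fin 2) F), Q.Normal ∧ Q.index = 3 ∧ Nonempty (Q ≃* QuaternionGroup 2)) ∧ Nat.card (Subgroup.center (Matrix.SpecialLinearGroup (Fin 2) F)) = 2 := by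
  classical
  constructor
  · have : Fact (Nat.Prime 3) := ⟨Nat.prime_three⟩
    let e : SL(2, F) ≃* SL(2, ZMod 3) := Cfsg.Agent.Lib.Classical.slCongr (ZMod.ringEquivOfPrime F Nat.prime_three hF).symm
    have hinj : Function.Injective qhom := fun x y h => qmap_inj x y h
    have hcard : Nat.card qhom.range = 8 := by
      rw [Nat.card_congr (MonoidHom.ofInjective hinj).toEquiv.symm]
      rw [Nat.card_eq_fintype_card, QuaternionGroup.card]
    refine ⟨qhom.range.comap e.toMonoidHom, ?_, ?_, ?_⟩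
    · have := qhom_normal
      exact Subgroup.Normal.comap this _
    · have hs : Function.Surjective e.toMonoidHom := e.surjective
      rw [Subgroup.index_comap_of_surjective _ hs]
      have h := Subgroup.card_mul_index qhom.range
      rw [hcard, card_sl23] at h
      omega
    · refine ⟨?_⟩
      have h1 : (qhom.range.comap e.toMonoidHom) ≃* qhom.range :=
        (Subgroup.equivMapOfInjective _ e.toMonoidHom e.injective).trans (MulEquiv.subgroupCongr (by
          exact Subgroup.map_comap_eq_self_of_surjective e.surjective _))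
      exact h1.trans (MonoidHom.ofInjective hinj).symm
  · have h := Cfsg.Agent.Lib.Classical.card_center_SL (F := F) 2 (by omega)
    rw [Nat.card_eq_fintype_card (α := F), hF] at h
    simpa using h

end Cfsg.Agent.S0257
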