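import Cfsg.Statements.S0261
import Mathlib
import Cfsg.Agent.S0016
import Cfsg.Agent.S0268
import Cfsg.Agent.Lib.Classical.SL2Order
import Cfsg.Agent.Lib.Classical.SylowSL2

set_option autoImplicit false
open Cfsg Cfsg.Agent.Lib.Classical

namespace Cfsg.Agent.S0261

/-- For q odd, the Sylow 2-subgroups of SL_2(q) are generalised quaternion. -/
theorem result {F : Type*} [Field F] [Fintype F] (hF : Odd (Fintype.card F)) (P : Sylow 2 (Matrix.SpecialLinearGroup (Fin 2) F)) : ∃ k : ℕ, 1 ≤ k ∧ Nonempty ((P : Subgroup (Matrix.SpecialLinearGroup (Fin 2) F)) ≃* QuaternionGroup (2 ^ k)) := by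
  classical
  set q := Fintype.card F with hq
  obtain ⟨p, hpc⟩ := CharP.exists F
  haveI hp : Fact p.Prime := ⟨CharP.char_is_prime F p⟩
  have hp2 : p ≠ 2 := by
    intro h
    subst h
    obtain ⟨n, hn⟩ := FiniteField.card F 2
    have : Even q := by
      rw [hq, hn.2]
      exact (Nat.even_pow' n.ne_zero).2 even_two
    exact (Nat.not_even_iff_odd.2 hF) this
  have hcardG : Nat.card (Matrix.SpecialLinearGroup (Fin 2) F) = q * (q ^ 2 - 1) := card_SL2_eq
  have hP := Sylow.card_eq_multiplicity P
  set a := (Nat.card (Matrix.SpecialLinearGroup (Fin 2) F)).factorization 2 with ha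
  have hq1 : 1 ≤ q := Fintype.card_pos
  have hq3 : 3 ≤ q := by
    have := FiniteField.card F p
    by_contra hcon
    have : q = 1 ∨ q = 2 := by omega
    rcases this with h | h
    · have : Fintype.card F ≠ 1 := Fintype.one_lt_card.ne'
      exact this h
    · rw [h] at hF
      exact absurd hF (by decide)
  obtain ⟨m, hm⟩ := hF
  -- `8` divides the order
  have h8 : 8 ∣ q ^ 2 - 1 := by
    rw [hm]
    have : (2 * m + 1) ^ 2 - 1 = 4 * (m * (m + 1)) := by
      have : (2 * m + 1) ^ 2 = 4 * (m * (m + 1)) + 1 := by ring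
      omega
    rw [this]
    obtain ⟨k, hk⟩ := Nat.even_mul_succ_self m
    rw [hk]
    omega
  have hG0 : Nat.card (Matrix.SpecialLinearGroup (Fin 2) F) ≠ 0 := Nat.card_pos.ne'
  have h38 : 3 ≤ a := by
    have : 2 ^ 3 ∣ Nat.card (Matrix.SpecialLinearGroup (Fin 2) F) := by
      rw [hcardG]
      exact Dvd.dvd.mul_left h8 _
    exact (Nat.Prime.pow_dvd_iff_le_factorization Nat.prime_two hG0).1 this
  have hP8 : 8 ≤ Nat.card P := by
    rw [hP]
    calc 8 = 2 ^ 3 := rfl
      _ ≤ 2 ^ a := Nat.pow_le_pow_right (by omega) h38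
  -- uniqueness of the involution
  have huniq : ∀ H K : Subgroup (P : Subgroup (Matrix.SpecialLinearGroup (Fin 2) F)), Nat.card H = 2 → Nat.card K = 2 → H = K := by
    have key : ∀ H : Subgroup (P : Subgroup (Matrix.SpecialLinearGroup (Fin 2) F)), Nat.card H = 2 → ∀ x ∈ H, x ≠ 1 →
        ((x : Matrix.SpecialLinearGroup (Fin 2) F) : Matrix (Fin 2) (Fin 2) F) = -1 := by
      intro H hH x hx hx1
      have h2 : (⟨x, hx⟩ : H) ^ 2 = 1 := by
        have := pow_card_eq_one' (x := (⟨x, hx⟩ : H))
        rwa [hH] at this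
      have h3 : x ^ 2 = 1 := congrArg Subtype.val h2
      have h4 : (x : Matrix.SpecialLinearGroup (Fin 2) F) * x = 1 := by
        have := congrArg Subtype.val h3
        rwa [pow_two] at this
      apply Cfsg.Agent.S0268.result ⟨m, hm⟩ _ _ h4
      intro h5
      exact hx1 (Subtype.ext h5)
    have key2 : ∀ H K : Subgroup (P : Subgroup (Matrix.SpecialLinearGroup (Fin 2) F)), Nat.card H = 2 → Nat.card K = 2 → H ≤ K := by
      intro H K hH hK x hx
      by_cases hx1 : x = 1
      · rw [hx1]; exact one_mem _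
      · have hnt : Nontrivial K := by
          rw [← Finite.one_lt_card_iff_nontrivial, hK]
          omega
        obtain ⟨y, hy⟩ := exists_ne (1 : K)
        have hy1 : (y : (P : Subgroup (Matrix.SpecialLinearGroup (Fin 2) F))) ≠ 1 := fun h => hy (Subtype.ext h)
        have e1 := key H hH x hx hx1
        have e2 := key K hK y y.2 hy1
        have : x = y := by
          apply Subtype.ext
          apply Subtype.ext
          rw [e1, e2]
        rw [this]
        exact y.2
    intro H K hH hK
    exact le_antisymm (key2 H K hH hK) (key2 K H hK hH)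
  have hPg : IsPGroup 2 (P : Subgroup (Matrix.SpecialLinearGroup (Fin 2) F)) := P.isPGroup'
  rcases Cfsg.Agent.S0016.result 2 hPg huniq with hcyc | ⟨-, n, ⟨e⟩⟩
  · exfalso
    obtain ⟨g, hg⟩ := IsCyclic.exists_generator (α := (P : Subgroup (Matrix.SpecialLinearGroup (Fin 2) F)))
    have hog : orderOf g = Nat.card P := orderOf_eq_card_of_forall_mem_zpowers hg
    have hog2 : orderOf (g : Matrix.SpecialLinearGroup (Fin 2) F) = 2 ^ a := by
      rw [← hP, ← hog]
      exact Subgroup.orderOf_coe g
    have hcop : Nat.Coprime (orderOf (g : Matrix.SpecialLinearGroup (Fin 2) F)) p := by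
      rw [hog2]
      apply Nat.Coprime.pow_left
      exact (Nat.coprime_primes Nat.prime_two hp.out).2 (Ne.symm hp2)
    have hdvd := Cfsg.Agent.Lib.Classical.sl_two_semisimple_order_dvd (p := p) (g : Matrix.SpecialLinearGroup (Fin 2) F) hcop
    rw [hog2] at hdvd
    have hnot : ¬ 2 ^ (a + 1) ∣ Nat.card (Matrix.SpecialLinearGroup (Fin 2) F) := by
      rw [Nat.Prime.pow_dvd_iff_le_factorization Nat.prime_two hG0]
      omega
    apply hnot
    rw [hcardG]
    apply Dvd.dvd.mul_left
    have he : q ^ 2 - 1 = (q - 1) * (q + 1) := by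
      have : q ^ 2 = (q - 1) * (q + 1) + 1 := by
        obtain ⟨r, hr⟩ : ∃ r, q = r + 1 := ⟨q - 1, by omega⟩
        rw [hr]
        simp only [Nat.add_sub_cancel]
        ring
      omega
    rw [he, pow_succ]
    have h2a : (2 : ℕ) ∣ q - 1 := ⟨m, by omega⟩
    have h2b : (2 : ℕ) ∣ q + 1 := ⟨m + 1, by omega⟩
    rcases hdvd with h | h
    · exact mul_dvd_mul h h2b
    · rw [mul_comm (q - 1)]
      exact mul_dvd_mul h h2a
  · have hcardQ : Nat.card (QuaternionGroup (2 ^ n)) = 4 * 2 ^ n := by
      rw [Nat.card_eq_fintype_card, QuaternionGroup.card]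
    have heq : Nat.card P = 4 * 2 ^ n := by
      rw [← hcardQ]
      exact Nat.card_congr e.toEquiv
    refine ⟨n, ?_, ⟨e⟩⟩
    by_contra hcon
    have hn0 : n = 0 := by omega
    rw [hn0] at heq
    omega

end Cfsg.Agent.S0261
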