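import Cfsg.Statements.S0262
import Mathlib
import Cfsg.Agent.Lib.Classical.SL2Tori

set_option autoImplicit false
open Cfsg Cfsg.Agent.Lib.Classical

namespace Cfsg.Agent.S0262

/-- For an odd prime r different from the characteristic, the Sylow r-subgroups of SL_2(q) are cyclic. -/
theorem result {F : Type*} [Field F] [Fintype F] (p : ℕ) [Fact p.Prime] [CharP F p] (r : ℕ) [Fact r.Prime] (hr : r ≠ 2) (hrp : r ≠ p) (R : Sylow r (Matrix.SpecialLinearGroup (Fin 2) F)) : IsCyclic (R : Subgroup (Matrix.SpecialLinearGroup (Fin 2) F)) := by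
  classical
  by_cases hR : Nontrivial (R : Subgroup (Matrix.SpecialLinearGroup (Fin 2) F))
  · have hPg : IsPGroup r (R : Subgroup (Matrix.SpecialLinearGroup (Fin 2) F)) := R.isPGroup'
    haveI hcn := hPg.center_nontrivial
    obtain ⟨c, hc⟩ := exists_ne (1 : Subgroup.center (R : Subgroup (Matrix.SpecialLinearGroup (Fin 2) F)))
    set z : Matrix.SpecialLinearGroup (Fin 2) F := ((c : (R : Subgroup (Matrix.SpecialLinearGroup (Fin 2) F))) : Matrix.SpecialLinearGroup (Fin 2) F) with hz
    have hz1 : z ≠ 1 := by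
      intro h
      apply hc
      apply Subtype.ext
      apply Subtype.ext
      exact h
    have hzR : z ∈ (R : Subgroup (Matrix.SpecialLinearGroup (Fin 2) F)) := (c : (R : Subgroup (Matrix.SpecialLinearGroup (Fin 2) F))).2
    obtain ⟨k, hk⟩ : ∃ k, orderOf z = r ^ k := by
      obtain ⟨k, hk⟩ := hPg (c : (R : Subgroup (Matrix.SpecialLinearGroup (Fin 2) F)))
      have : orderOf z ∣ r ^ k := by
        apply orderOf_dvd_of_pow_eq_one
        have := congrArg Subtype.val hk
        simpa using this
      obtain ⟨j, -, hj⟩ := (Nat.dvd_prime_pow (Fact.out : r.Prime)).1 this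
      exact ⟨j, hj⟩
    have hrp' : r.Prime := Fact.out
    have hpp : p.Prime := Fact.out
    have hcop : Nat.Coprime (orderOf z) p := by
      rw [hk]
      exact Nat.Coprime.pow_left _ ((Nat.coprime_primes hrp' hpp).2 hrp)
    have ht : slTr z ^ 2 ≠ 4 := by
      intro h4
      have h5 : (∃ l : F, 2 * l = slTr z ∧ l ^ 2 = 1) := by
        by_cases h2 : (2 : F) = 0
        · refine ⟨1, ?_, one_pow _⟩
          have h6 : slTr z ^ 2 = 0 := by
            rw [h4]
            linear_combination 2 * h2
          rw [pow_eq_zero_iff (by norm_num)] at h6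
          rw [h6, h2, zero_mul]
        · refine ⟨slTr z / 2, by field_simp, ?_⟩
          have h22 : (2 : F) ^ 2 = 4 := by norm_num
          rw [div_pow, h4, h22]
          exact div_self (by rw [← h22]; exact pow_ne_zero _ h2)
      obtain ⟨l, hl1, hl2⟩ := h5
      have hM := cayley_two (z : Matrix (Fin 2) (Fin 2) F) z.2
      have hzm : (z : Matrix (Fin 2) (Fin 2) F) ^ orderOf z = 1 := by
        calc (z : Matrix (Fin 2) (Fin 2) F) ^ orderOf z = ((z ^ orderOf z : Matrix.SpecialLinearGroup (Fin 2) F) : Matrix (Fin 2) (Fin 2) F) := (Matrix.SpecialLinearGroup.coe_pow z _).symm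
          _ = 1 := by rw [pow_orderOf_eq_one]; rfl
      have hd : ((z : Matrix (Fin 2) (Fin 2) F) - algebraMap F _ l) * ((z : Matrix (Fin 2) (Fin 2) F) - algebraMap F _ l) = 0 := by
        have e1 : algebraMap F (Matrix (Fin 2) (Fin 2) F) (slTr z) = 2 • algebraMap F (Matrix (Fin 2) (Fin 2) F) l := by
          rw [← hl1, two_mul, map_add, two_smul]
        have e2 : algebraMap F (Matrix (Fin 2) (Fin 2) F) l * algebraMap F (Matrix (Fin 2) (Fin 2) F) l = 1 := by
          rw [← map_mul, ← pow_two, hl2, map_one]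
        have e3 : (z : Matrix (Fin 2) (Fin 2) F) * algebraMap F (Matrix (Fin 2) (Fin 2) F) l = algebraMap F (Matrix (Fin 2) (Fin 2) F) l * z :=
          ((Algebra.commutes l _)).symm
        have h7 : ((z : Matrix (Fin 2) (Fin 2) F) - algebraMap F _ l) * ((z : Matrix (Fin 2) (Fin 2) F) - algebraMap F _ l)
            = (z : Matrix (Fin 2) (Fin 2) F) ^ 2 - algebraMap F _ (slTr z) * z + 1 := by
          rw [e1, sub_mul, mul_sub, mul_sub, e3, e2, pow_two, two_smul, add_mul]
          abel
        rw [h7]
        exact hM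
      have hsc := eq_scalar_of_double_root (p := p) (z : Matrix (Fin 2) (Fin 2) F) l hl2 hd _ hcop hzm
      have h22 : z ^ 2 = 1 := by
        apply Subtype.ext
        have : ((z ^ 2 : Matrix.SpecialLinearGroup (Fin 2) F) : Matrix (Fin 2) (Fin 2) F) = (z : Matrix (Fin 2) (Fin 2) F) ^ 2 := by simp
        rw [this, hsc, ← map_pow, hl2, map_one]
        rfl
      have ho2 : orderOf z ∣ 2 := orderOf_dvd_of_pow_eq_one h22
      rw [hk] at ho2
      by_cases hk0 : k = 0
      · rw [hk0, pow_zero] at hk
        exact hz1 (orderOf_eq_one_iff.1 hk)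
      · have hr2' : r ∣ 2 := (dvd_pow_self r hk0).trans ho2
        exact hr ((Nat.prime_dvd_prime_iff_eq hrp' Nat.prime_two).1 hr2')
    haveI := centralizer_cyclic z ht
    have hle : (R : Subgroup (Matrix.SpecialLinearGroup (Fin 2) F)) ≤ Subgroup.centralizer ({z} : Set (Matrix.SpecialLinearGroup (Fin 2) F)) := by
      intro x hx
      rw [Subgroup.mem_centralizer_iff]
      rintro y rfl
      have := (Subgroup.mem_center_iff.1 c.2) ⟨x, hx⟩
      exact (congrArg Subtype.val this).symm
    exact isCyclic_of_injective (Subgroup.inclusion hle) (Subgroup.inclusion_injective hle)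
  · rw [not_nontrivial_iff_subsingleton] at hR
    exact isCyclic_of_subsingleton

end Cfsg.Agent.S0262
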