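import Cfsg.Statements.S0264
import Mathlib
import Cfsg.Agent.Lib.Classical.GLCommutator

set_option autoImplicit false
open Cfsg

namespace Cfsg.Agent.S0264

/-- GL_n(F)' = SL_n(F) (as the kernel of det), for every field F and every n, except n = 2 over the field of two elements. -/
theorem result {F : Type*} [Field F] (n : ℕ) (h : n = 2 → ∃ a : F, a ≠ 0 ∧ a ≠ 1) : commutator (Matrix.GeneralLinearGroup (Fin n) F) = (Matrix.GeneralLinearGroup.det : Matrix.GeneralLinearGroup (Fin n) F →* Fˣ).ker := by
  exact Cfsg.Agent.Lib.Classical.commutator_gl_eq_ker_det n h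

end Cfsg.Agent.S0264
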