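import Cfsg.Statements.S0265
import Mathlib
import Cfsg.Agent.Lib.Classical.Card2

set_option autoImplicit false
open Cfsg

namespace Cfsg.Agent.S0265

/-- |PGL_n(q)| = |SL_n(q)|: GL_n modulo its centre (the q-1 non-zero scalars) has the same order as the kernel of det. -/
theorem result {F : Type*} [Field F] [Fintype F] (n : ℕ) : Nat.card (Matrix.ProjGenLinGroup (Fin n) F) = Nat.card (Matrix.SpecialLinearGroup (Fin n) F) := by
  exact Cfsg.Agent.Lib.Classical.card_PGL_eq_card_SL n

end Cfsg.Agent.S0265
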