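import Cfsg.Statements.S0267
import Mathlib
import Cfsg.Agent.Lib.Classical.ProjLine2

set_option autoImplicit false
open Cfsg

namespace Cfsg.Agent.S0267

/-- SL_2(q) is 3-transitive on the q+1 points of the projective line if and only if q is even. -/
theorem result {F : Type*} [Field F] [Fintype F] : MulAction.IsMultiplyPretransitive (Matrix.SpecialLinearGroup (Fin 2) F) (Projectivization F (Fin 2 → F)) 3 ↔ ringChar F = 2 := by
  exact Cfsg.Agent.Lib.Classical.sl_two_is_three_pretransitive_iff

end Cfsg.Agent.S0267
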