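import Cfsg.Statements.S0275
import Mathlib
import Cfsg.Agent.Lib.PLocal.Dickson
import Cfsg.Agent.S0016
import Cfsg.Agent.Lib.Classical.SL2Local

set_option autoImplicit false
open Cfsg Cfsg.Agent.Lib.Classical

namespace Cfsg.Agent.S0275

theorem exists_noncomm_two_sub (p : ℕ) [Fact p.Prime] (hp : p ≠ 2) :
    ∃ a b : Matrix.SpecialLinearGroup (Fin 2) (ZMod p), a ^ 4 = 1 ∧ b ^ 4 = 1 ∧ a * b * a⁻¹ = b⁻¹ ∧ a * b ≠ b * a := by
  obtain ⟨x, y, hxy⟩ := ZMod.sq_add_sq p (-1)
  have h2 : (2 : ZMod p) ≠ 0 := by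
    intro h
    have h1 : ((2 : ℕ) : ZMod p) = 0 := by exact_mod_cast h
    rw [ZMod.natCast_eq_zero_iff] at h1
    exact hp ((Nat.prime_dvd_prime_iff_eq Fact.out Nat.prime_two).1 h1)
  let a : Matrix.SpecialLinearGroup (Fin 2) (ZMod p) := ⟨!![0, 1; -1, 0], by simp [Matrix.det_fin_two]⟩
  let b : Matrix.SpecialLinearGroup (Fin 2) (ZMod p) := ⟨!![x, y; y, -x], by
    simp only [Matrix.det_fin_two_of]
    linear_combination -hxy⟩
  have ha2 : (a : Matrix (Fin 2) (Fin 2) (ZMod p)) * a = -1 := by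
    ext i j
    fin_cases i <;> fin_cases j <;> simp [a, Matrix.mul_apply, Fin.sum_univ_two]
  have hb2 : (b : Matrix (Fin 2) (Fin 2) (ZMod p)) * b = -1 := by
    ext i j
    fin_cases i <;> fin_cases j <;> simp [b, Matrix.mul_apply, Fin.sum_univ_two]
    · linear_combination hxy
    · ring
    · ring
    · linear_combination hxy
  have hab : (a : Matrix (Fin 2) (Fin 2) (ZMod p)) * b = - (b * a) := by
    ext i j
    fin_cases i <;> fin_cases j <;> simp [a, b, Matrix.mul_apply, Fin.sum_univ_two]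
  have h4 : ∀ c : Matrix.SpecialLinearGroup (Fin 2) (ZMod p), (c : Matrix (Fin 2) (Fin 2) (ZMod p)) * c = -1 → c ^ 4 = 1 := by
    intro c hc
    apply Subtype.ext
    change (c : Matrix (Fin 2) (Fin 2) (ZMod p)) ^ 4 = 1
    have : (c : Matrix (Fin 2) (Fin 2) (ZMod p)) ^ 4 = (c * c) * (c * c) := by noncomm_ring
    rw [this, hc]
    simp
  refine ⟨a, b, h4 a ha2, h4 b hb2, ?_, ?_⟩
  · rw [mul_inv_eq_iff_eq_mul, eq_inv_mul_iff_mul_eq]
    apply Subtype.ext
    change (b : Matrix (Fin 2) (Fin 2) (ZMod p)) * (a * b) = a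
    rw [hab]
    have : (b : Matrix (Fin 2) (Fin 2) (ZMod p)) * (- (b * a)) = - ((b * b) * a) := by noncomm_ring
    rw [this, hb2]
    simp
  · intro h
    have h3 : (a : Matrix (Fin 2) (Fin 2) (ZMod p)) * b = b * a := congrArg Subtype.val h
    rw [hab] at h3
    have h5 : (2 : ZMod p) • ((b : Matrix (Fin 2) (Fin 2) (ZMod p)) * a) = 0 := by
      rw [two_smul]
      nth_rewrite 1 [← h3]
      simp
    have h6 := (smul_eq_zero.1 h5).resolve_left h2
    have h7 : (b : Matrix (Fin 2) (Fin 2) (ZMod p)) * (a * a) * b = 1 := by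
      rw [ha2]
      have : (b : Matrix (Fin 2) (Fin 2) (ZMod p)) * (-1) * b = - (b * b) := by noncomm_ring
      rw [this, hb2, neg_neg]
    have h8 : (b : Matrix (Fin 2) (Fin 2) (ZMod p)) * (a * a) * b = (b * a) * a * b := by noncomm_ring
    rw [h8, h6] at h7
    simp at h7

theorem exists_two_sylow_of_conj {H : Type*} [Group H] [Finite H] (a b : H) (ha : a ^ 4 = 1) (hb : b ^ 4 = 1)
    (hab : a * b * a⁻¹ = b⁻¹) : ∃ Q : Sylow 2 H, a ∈ (Q : Subgroup H) ∧ b ∈ (Q : Subgroup H) := by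
  have hp2 : ∀ g : H, g ^ 4 = 1 → IsPGroup 2 (Subgroup.zpowers g) := by
    intro g hg
    rw [IsPGroup.iff_card, Nat.card_zpowers]
    have : orderOf g ∣ 2 ^ 2 := orderOf_dvd_of_pow_eq_one hg
    obtain ⟨k, -, hk⟩ := (Nat.dvd_prime_pow Nat.prime_two).1 this
    exact ⟨k, hk⟩
  have hnorm : a ∈ Subgroup.normalizer ((Subgroup.zpowers b : Subgroup H) : Set H) := by
    rw [Subgroup.mem_normalizer_iff]
    intro h
    have h1 : ∀ k : ℤ, a * b ^ k * a⁻¹ = b ^ (-k) := by
      intro k
      rw [← conj_zpow, hab, inv_zpow, zpow_neg]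
    have h3 : ∀ k : ℤ, a⁻¹ * b ^ k * a = b ^ (-k) := by
      intro k
      have := h1 (-k)
      rw [neg_neg] at this
      rw [← this]
      group
    constructor
    · rintro ⟨k, rfl⟩
      exact ⟨-k, by simp only [h1 k]⟩
    · rintro ⟨k, hk⟩
      refine ⟨-k, ?_⟩
      have h5 : a⁻¹ * (a * h * a⁻¹) * a = h := by group
      rw [← h5, ← hk]
      simp only [h3 k]
  have hA := IsPGroup.to_sup_of_normal_left' (hp2 b hb) (hp2 a ha) (by
    rw [Subgroup.zpowers_le]
    exact hnorm)
  obtain ⟨Q, hQ⟩ := hA.exists_le_sylow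
  refine ⟨Q, hQ ?_, hQ ?_⟩
  · exact Subgroup.mem_sup_right (Subgroup.mem_zpowers a)
  · exact Subgroup.mem_sup_left (Subgroup.mem_zpowers b)

/-- If p is odd and H is a subgroup of SL_2(q), q a power of p, with more than one Sylow p-subgroup, then the Sylow 2-subgroups of H are generalised quaternion. -/
theorem result {F : Type*} [Field F] [Fintype F] (p : ℕ) [Fact p.Prime] [CharP F p] (hp : p ≠ 2) (H : Subgroup (Matrix.SpecialLinearGroup (Fin 2) F)) (hH : 1 < Nat.card (Sylow p H)) (S : Sylow 2 H) : ∃ k : ℕ, 1 ≤ k ∧ Nonempty ((S : Subgroup H) ≃* QuaternionGroup (2 ^ k)) := by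
  classical
  haveI : Finite F := inferInstance
  obtain ⟨ψ, hψ, hH'⟩ := Cfsg.Agent.Lib.PLocal.dk_main (p := p) hp H hH
  have h2 : (2 : F) ≠ 0 := by
    intro h
    have h1 := (CharP.cast_eq_zero_iff F p 2).1 (by exact_mod_cast h)
    exact hp ((Nat.prime_dvd_prime_iff_eq Fact.out Nat.prime_two).1 h1)
  have hodd : Odd (Fintype.card F) := by
    have : Fintype.card F % 2 = 1 := by
      apply FiniteField.odd_card_of_char_ne_two
      intro h
      apply h2
      have : CharP F 2 := by rw [← h]; exact ringChar.charP F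
      exact CharTwo.two_eq_zero
    exact Nat.odd_iff.2 this
  -- uniqueness of the involution
  have hinv : ∀ (y : (S : Subgroup H)), y * y = 1 → y ≠ 1 →
      (((y : H) : Matrix.SpecialLinearGroup (Fin 2) F) : Matrix (Fin 2) (Fin 2) F) = -1 := by
    intro y hy hy1
    have h1 : (((y : H) : Matrix.SpecialLinearGroup (Fin 2) F)) * ((y : H) : Matrix.SpecialLinearGroup (Fin 2) F) = 1 := by
      have := congrArg (fun z : (S : Subgroup H) => (((z : H) : Matrix.SpecialLinearGroup (Fin 2) F))) hy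
      simpa using this
    rcases sq_eq_one_center hodd (g := ((y : H) : Matrix.SpecialLinearGroup (Fin 2) F)) (by rw [pow_two]; exact h1) with h3 | h3
    · exact absurd (Subtype.ext (Subtype.ext h3)) hy1
    · exact h3
  have hinj : ∀ y z : (S : Subgroup H), (((y : H) : Matrix.SpecialLinearGroup (Fin 2) F) : Matrix (Fin 2) (Fin 2) F) =
      (((z : H) : Matrix.SpecialLinearGroup (Fin 2) F) : Matrix (Fin 2) (Fin 2) F) → y = z := by
    intro y z h
    exact Subtype.ext (Subtype.ext (Subtype.ext h))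
  have hele : ∀ X : Subgroup (S : Subgroup H), Nat.card X = 2 → ∀ y ∈ X, y * y = 1 := by
    intro X hX y hy
    have := pow_card_eq_one' (x := (⟨y, hy⟩ : X))
    rw [hX, pow_two] at this
    exact congrArg Subtype.val this
  have hex : ∀ X : Subgroup (S : Subgroup H), Nat.card X = 2 → ∃ y ∈ X, y ≠ 1 := by
    intro X hX
    by_contra hcon
    push Not at hcon
    have : X = ⊥ := by
      rw [eq_bot_iff]
      intro y hy
      exact hcon y hy
    rw [this] at hX
    simp at hX
  have huniq : ∀ A B : Subgroup (S : Subgroup H), Nat.card A = 2 → Nat.card B = 2 → A = B := by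
    have hle : ∀ A B : Subgroup (S : Subgroup H), Nat.card A = 2 → Nat.card B = 2 → A ≤ B := by
      intro A B hA hB y hy
      by_cases hy1 : y = 1
      · rw [hy1]
        exact one_mem _
      · obtain ⟨z, hz, hz1⟩ := hex B hB
        have := hinj y z (by rw [hinv y (hele A hA y hy) hy1, hinv z (hele B hB z hz) hz1])
        rw [this]
        exact hz
    intro A B hA hB
    exact le_antisymm (hle A B hA hB) (hle B A hB hA)
  have hS : IsPGroup 2 (S : Subgroup H) := S.isPGroup'
  -- a non abelian `2`-subgroup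
  obtain ⟨a, b, ha4, hb4, hab, hne⟩ := exists_noncomm_two_sub p hp
  let a' : H := ⟨ψ a, hH' a⟩
  let b' : H := ⟨ψ b, hH' b⟩
  have ha4' : a' ^ 4 = 1 := by
    apply Subtype.ext
    change ψ a ^ 4 = 1
    rw [← map_pow, ha4, map_one]
  have hb4' : b' ^ 4 = 1 := by
    apply Subtype.ext
    change ψ b ^ 4 = 1
    rw [← map_pow, hb4, map_one]
  have hab' : a' * b' * a'⁻¹ = b'⁻¹ := by
    apply Subtype.ext
    change ψ a * ψ b * (ψ a)⁻¹ = (ψ b)⁻¹
    rw [← map_inv, ← map_mul, ← map_mul, hab, map_inv]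
  have hne' : a' * b' ≠ b' * a' := by
    intro h
    apply hne
    apply hψ
    rw [map_mul, map_mul]
    exact congrArg Subtype.val h
  have hcyc : ¬ IsCyclic (S : Subgroup H) := by
    intro hc
    obtain ⟨Q, hQ⟩ := exists_two_sylow_of_conj a' b' ha4' hb4' hab'
    haveI : IsCyclic (Q : Subgroup H) := isCyclic_of_surjective (Sylow.equiv S Q) (Sylow.equiv S Q).surjective
    letI : CommGroup (Q : Subgroup H) := IsCyclic.commGroup
    have h3 := mul_comm (⟨a', hQ.1⟩ : (Q : Subgroup H)) ⟨b', hQ.2⟩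
    exact hne' (congrArg Subtype.val h3)
  rcases Cfsg.Agent.S0016.result (G := (S : Subgroup H)) 2 hS huniq with h | ⟨-, n, ⟨e⟩⟩
  · exact absurd h hcyc
  · refine ⟨n, ?_, ⟨e⟩⟩
    by_contra hn
    have hn0 : n = 0 := by omega
    subst hn0
    apply hcyc
    have : IsCyclic (QuaternionGroup (2 ^ 0)) := by
      simpa using QuaternionGroup.quaternionGroup_one_isCyclic
    exact isCyclic_of_surjective e.symm e.symm.surjective

end Cfsg.Agent.S0275
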