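import Cfsg.Statements.S0276
import Mathlib
import Cfsg.Agent.Lib.Classical.SL2Local
import Cfsg.Agent.Lib.Classical.SylowGL

set_option autoImplicit false
open Cfsg Cfsg.Agent.Lib.Classical

namespace Cfsg.Agent.S0276

/-- For q = 3 or 5 mod 8 the Sylow 2-subgroups of PSL_2(q) are elementary abelian of order 4. -/
theorem result {F : Type*} [Field F] [Fintype F] {q : ℕ} (hF : Fintype.card F = q) (hq : q % 8 = 3 ∨ q % 8 = 5) (P : Sylow 2 (Matrix.ProjectiveSpecialLinearGroup (Fin 2) F)) : IsKleinFour (P : Subgroup (Matrix.ProjectiveSpecialLinearGroup (Fin 2) F)) := by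
  classical
  have hodd : Odd q := by
    rw [Nat.odd_iff]
    omega
  have hc := card_psl2_odd hF hodd
  obtain ⟨k, r, hr, hk⟩ : ∃ k r, (r = 3 ∨ r = 5) ∧ q = 8 * k + r := by
    refine ⟨q / 8, q % 8, hq, by omega⟩
  obtain ⟨m, hm, hmodd⟩ : ∃ m, q ^ 2 - 1 = 8 * m ∧ ¬ 2 ∣ m := by
    rcases hr with rfl | rfl
    · refine ⟨8 * k ^ 2 + 6 * k + 1, ?_, by omega⟩
      have : q ^ 2 = 8 * (8 * k ^ 2 + 6 * k + 1) + 1 := by rw [hk]; ring
      omega
    · refine ⟨8 * k ^ 2 + 10 * k + 3, ?_, by omega⟩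
      have : q ^ 2 = 8 * (8 * k ^ 2 + 10 * k + 3) + 1 := by rw [hk]; ring
      omega
  have hcard : Nat.card (Matrix.ProjectiveSpecialLinearGroup (Fin 2) F) = 2 ^ 2 * (q * m) := by
    rw [hm] at hc
    nlinarith [hc]
  have hnd : ¬ 2 ∣ q * m := by
    rw [Nat.Prime.dvd_mul Nat.prime_two]
    rintro (h | h)
    · exact (Nat.not_even_iff_odd.2 hodd) (even_iff_two_dvd.2 h)
    · exact hmodd h
  have hP4 : Nat.card P = 2 ^ 2 := card_sylow_of_eq_mul P hcard hnd
  have hnt : Nontrivial (P : Subgroup (Matrix.ProjectiveSpecialLinearGroup (Fin 2) F)) := by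
    rw [← Finite.one_lt_card_iff_nontrivial, hP4]
    norm_num
  refine ⟨hP4, ?_⟩
  rw [Monoid.exponent_eq_prime_iff Nat.prime_two]
  intro g hg
  have h4 : g ^ 4 = 1 := by
    have := pow_card_eq_one' (x := g)
    rwa [hP4] at this
  have h2 : g ^ 2 = 1 := by
    apply Subtype.ext
    have h5 : (g : Matrix.ProjectiveSpecialLinearGroup (Fin 2) F) ^ 4 = 1 := by
      have := congrArg Subtype.val h4
      simpa using this
    have := psl2_pow_four (by rw [hF]; exact hq) _ h5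
    simpa using this
  exact orderOf_eq_prime h2 hg

end Cfsg.Agent.S0276
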