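import Cfsg.Statements.S0282
import Mathlib
import Cfsg.Agent.Lib.Classical.SU2
import Cfsg.Agent.Lib.Char.Burnside

set_option autoImplicit false
open Cfsg

namespace Cfsg.Agent.S0282

/-- PSU_3(2) is a solvable group of order 72. -/
theorem result {F : Type*} [Field F] [Fintype F] (hF : Fintype.card F = 4) : Nat.card (Cfsg.PSU 3 F 2) = 72 ∧ Group.IsSolvable (Cfsg.PSU 3 F 2) := by
  have hF' : Fintype.card F = 2 ^ 2 := by rw [hF]; norm_num
  have h := Cfsg.Agent.Lib.Classical.card_psu hF' 3 (by omega)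
  have h1 : Nat.card (Cfsg.PSU 3 F 2) = 72 := by
    have h2 : (∏ i ∈ Finset.range 3, (if Even i then 2 ^ (i + 1) + 1 else 2 ^ (i + 1) - 1)) = 81 := by
      decide
    rw [h2] at h
    norm_num at h
    omega
  refine ⟨h1, ?_⟩
  exact Cfsg.Agent.Lib.Char.isSolvable_of_card_eq_aux Nat.prime_two Nat.prime_three _ _ rfl ⟨3, 2, by rw [h1]; norm_num⟩

end Cfsg.Agent.S0282
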