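import Cfsg.Statements.S0293
import Mathlib
import Cfsg.Agent.Lib.Classical.OrthCenter
import Cfsg.Agent.Lib.Classical.OrthOrder
import Cfsg.Agent.Lib.Classical.SL2Local
import Cfsg.Agent.S0790

set_option autoImplicit false
open Cfsg Cfsg.Agent.Lib.Classical

namespace Cfsg.Agent.S0293

/-- gcd(4, q^m - 1) |PΩ^+_{2m}(q)| = q^(m(m-1)) (q^m - 1) prod_{i=1}^{m-1} (q^(2i) - 1), m at least 4 (type D_m). -/
theorem result {F : Type*} [Field F] [Fintype F] {q : ℕ} (hF : Fintype.card F = q) (m : ℕ) (hm : 4 ≤ m) : Nat.gcd 4 (q ^ m - 1) * Nat.card (Cfsg.POmega F (Cfsg.quadFormPlus m F)) = q ^ (m * (m - 1)) * (q ^ m - 1) * ∏ i ∈ Finset.range (m - 1), (q ^ (2 * (i + 1)) - 1) := by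
  obtain ⟨Q', hQ', hnd⟩ := ndq_plus (F := F) m
  have hO := card_isometry_plus hF m (by omega)
  have h790 := fun h => Cfsg.Agent.S0790.result hF h m (by omega)
  rw [← hQ'] at hO h790 ⊢
  have hcard : 7 ≤ Fintype.card (Fin m ⊕ Fin m) := by
    simp only [Fintype.card_sum, Fintype.card_fin]
    omega
  have hO' : Nat.card (OG Q') = 2 * (q ^ (m * (m - 1)) * (q ^ m - 1) * ∏ i ∈ Finset.range (m - 1), (q ^ (2 * (i + 1)) - 1)) := by
    rw [hO]
    ring
  have hqpos : 0 < q := by
    rw [← hF]
    exact Fintype.card_pos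
  rcases Nat.even_or_odd q with hq | hq
  · -- characteristic two
    have hch : ringChar F = 2 := by
      rw [FiniteField.even_card_iff_char_two, hF]
      exact Nat.even_iff.1 hq
    haveI : CharP F 2 := by
      rw [← hch]
      exact ringChar.charP F
    rw [pomega_card_even hnd hcard hO']
    have h1 : Nat.gcd 4 (q ^ m - 1) = 1 := by
      have h3 : Even (q ^ m) := hq.pow_of_ne_zero (by omega)
      have h4 : 0 < q ^ m := pow_pos hqpos m
      have h5 : Odd (q ^ m - 1) := by
        rw [Nat.odd_iff]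
        have := Nat.even_iff.1 h3
        omega
      have h6 : Nat.Coprime 2 (q ^ m - 1) := Nat.coprime_two_left.2 h5
      exact Nat.Coprime.pow_left 2 h6
    rw [h1, one_mul]
  · have hodd' : Odd (Fintype.card F) := by rwa [hF]
    have h2 : (2 : F) ≠ 0 := two_ne_zero_of_odd hodd'
    have h3 : Odd (q ^ m) := hq.pow
    have h4 := Nat.odd_iff.1 h3
    have h5 : q ^ m % 4 = 1 ∨ q ^ m % 4 = 3 := by omega
    rcases h5 with h5 | h5
    · have hyes := (h790 hq).2 h5
      have h6 := pomega_card_odd_yes h2 hnd hcard hO' hyes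
      rw [gcd_four_of_mod4 (by omega)]
      exact h6
    · have hno : ¬ ∃ g : OG Q', g ∈ OmG Q' ∧ oM g = -1 := by
        intro h
        have := (h790 hq).1 h
        omega
      have h6 := pomega_card_odd_no h2 hnd hcard hO' hno
      rw [gcd_two_of_mod4 (by omega)]
      exact h6

end Cfsg.Agent.S0293
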