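import Cfsg.Statements.S0791
import Mathlib
import Cfsg.Agent.Lib.Spinor.Disc
import Cfsg.Agent.Lib.Classical.OrthMinus

set_option autoImplicit false
open Cfsg

namespace Cfsg.Agent.S0791

open Cfsg.Agent.Lib.Spinor Cfsg.Agent.Lib.Quad


/-- −1 ∈ Ω⁻_2m(q) iff q^m ≡ −1 (mod 4), for q odd and m ≥ 1; for the minus-type form quadFormMinus (m−1) with anisotropic binary part. -/
theorem result {F : Type*} [Field F] [Fintype F] {q : ℕ} (hF : Fintype.card F = q) (hodd : Odd q) (m : ℕ) (hm : 1 ≤ m) (a b : F) (hab : ∀ z₁ z₂ : F, z₁ ^ 2 + a * z₁ * z₂ + b * z₂ ^ 2 = 0 → z₁ = 0 ∧ z₂ = 0) : (∃ g : ↥(Cfsg.isometryGroup F (Cfsg.quadFormMinus (m - 1) F a b)), g ∈ Cfsg.Omega F (Cfsg.quadFormMinus (m - 1) F a b) ∧ ((g : Matrix.GeneralLinearGroup ((Fin (m - 1) ⊕ Fin (m - 1)) ⊕ Fin 2) F) : Matrix ((Fin (m - 1) ⊕ Fin (m - 1)) ⊕ Fin 2) ((Fin (m - 1) ⊕ Fin (m - 1)) ⊕ Fin 2) F) = -1) ↔ q ^ m % 4 = 3 := by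
  have h2 : (2 : F) ≠ 0 := by
    intro h
    have h3 := FiniteField.cast_card_eq_zero F
    rw [hF] at h3
    obtain ⟨r, rfl⟩ := hodd
    have : ((2 * r + 1 : ℕ) : F) = 1 := by
      push_cast
      rw [h]
      simp
    rw [this] at h3
    exact one_ne_zero h3
  obtain ⟨Q', hQ', hnd⟩ := Cfsg.Agent.Lib.Classical.ndq_minus a b hab (m - 1)
  rw [← hQ']
  have hcard : Fintype.card ((Fin (m - 1) ⊕ Fin (m - 1)) ⊕ Fin 2) = 2 * (m - 1) + 2 := by
    simp only [Fintype.card_sum, Fintype.card_fin]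
    ring
  have key := neg_one_mem_iff_disc h2 (by rw [hcard]; omega) (by rw [hcard]; exact ⟨m, by omega⟩) Q' hnd
  refine Iff.trans key ?_
  have hG : IsSquare (Matrix.of (fun i j : (Fin (m - 1) ⊕ Fin (m - 1)) ⊕ Fin 2 => QuadraticMap.polar ⇑Q' (Pi.single i 1) (Pi.single j 1))).det ↔ IsSquare (minusGram (m - 1) a b).det := by
    have := isSquare_gram_iff (Pi.basisFun F ((Fin (m - 1) ⊕ Fin (m - 1)) ⊕ Fin 2)) (⇑Q') (minusGram (m - 1) a b) (by
      intro u v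
      rw [hQ', polar_minus])
    simpa [Pi.basisFun_apply] using this
  rw [hG, det_minusGram]
  -- the discriminant is a non-square
  have hdisc : ¬ IsSquare (a ^ 2 - 4 * b) := by
    rintro ⟨s, hs⟩
    have h3 := hab ((s - a) / 2) 1 (by
      field_simp
      linear_combination -hs)
    exact one_ne_zero h3.2
  have h5 : (a ^ 2 - 4 * b) ≠ 0 := by
    intro h0
    exact hdisc (by rw [h0]; exact IsSquare.zero)
  have hm' : (-1 : F) ^ (m - 1) * (4 * b - a ^ 2) = (-1) ^ m * (a ^ 2 - 4 * b) := by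
    obtain ⟨r, rfl⟩ : ∃ r, m = r + 1 := ⟨m - 1, by omega⟩
    simp only [Nat.add_sub_cancel, pow_succ]
    ring
  rw [hm', isSquare_mul_iff_of_nonsquare _ _ (pow_ne_zero _ (neg_ne_zero.2 one_ne_zero)) h5 hdisc, isSquare_neg_one_pow_iff hF hodd]
  have hodd' : Odd (q ^ m) := hodd.pow
  have : q ^ m % 2 = 1 := Nat.odd_iff.1 hodd'
  omega

end Cfsg.Agent.S0791
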