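import Cfsg.Statements.S0294
import Mathlib
import Cfsg.Agent.Lib.Classical.OrthCenter
import Cfsg.Agent.Lib.Classical.OrthMinus
import Cfsg.Agent.Lib.Classical.SL2Local
import Cfsg.Agent.S0791

set_option autoImplicit false
open Cfsg Cfsg.Agent.Lib.Classical

namespace Cfsg.Agent.S0294

/-- gcd(4, q^m + 1) |PΩ^-_{2m}(q)| = q^(m(m-1)) (q^m + 1) prod_{i=1}^{m-1} (q^(2i) - 1), m at least 4 (type ²D_m). -/
theorem result {F : Type*} [Field F] [Fintype F] {q : ℕ} (hF : Fintype.card F = q) (m : ℕ) (hm : 4 ≤ m) (a b : F) (hab : ∀ z₁ z₂ : F, z₁ ^ 2 + a * z₁ * z₂ + b * z₂ ^ 2 = 0 → z₁ = 0 ∧ z₂ = 0) : Nat.gcd 4 (q ^ m + 1) * Nat.card (Cfsg.POmega F (Cfsg.quadFormMinus (m - 1) F a b)) = q ^ (m * (m - 1)) * (q ^ m + 1) * ∏ i ∈ Finset.range (m - 1), (q ^ (2 * (i + 1)) - 1) := by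
  obtain ⟨Q', hQ', hnd⟩ := ndq_minus a b hab (m - 1)
  have hO := card_isometry_minus hF m (by omega) a b hab
  have h791 := fun h => Cfsg.Agent.S0791.result hF h m (by omega) a b hab
  rw [← hQ'] at hO h791 ⊢
  have hcard : 7 ≤ Fintype.card ((Fin (m - 1) ⊕ Fin (m - 1)) ⊕ Fin 2) := by
    simp only [Fintype.card_sum, Fintype.card_fin]
    omega
  have hO' : Nat.card (OG Q') = 2 * (q ^ (m * (m - 1)) * (q ^ m + 1) * ∏ i ∈ Finset.range (m - 1), (q ^ (2 * (i + 1)) - 1)) := by
    rw [hO]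
    ring
  have hqpos : 0 < q := by
    rw [← hF]
    exact Fintype.card_pos
  rcases Nat.even_or_odd q with hq | hq
  · -- characteristic two
    have hch : ringChar F = 2 := by
      rw [FiniteField.even_card_iff_char_two, hF]
      exact Nat.even_iff.1 hq
    haveI : CharP F 2 := by
      rw [← hch]
      exact ringChar.charP F
    rw [pomega_card_even hnd hcard hO']
    have h1 : Nat.gcd 4 (q ^ m + 1) = 1 := by
      have h3 : Even (q ^ m) := hq.pow_of_ne_zero (by omega)
      have h5 : Odd (q ^ m + 1) := by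
        rw [Nat.odd_iff]
        have := Nat.even_iff.1 h3
        omega
      have h6 : Nat.Coprime 2 (q ^ m + 1) := Nat.coprime_two_left.2 h5
      exact Nat.Coprime.pow_left 2 h6
    rw [h1, one_mul]
  · have hodd' : Odd (Fintype.card F) := by rwa [hF]
    have h2 : (2 : F) ≠ 0 := two_ne_zero_of_odd hodd'
    have h3 : Odd (q ^ m) := hq.pow
    have h4 := Nat.odd_iff.1 h3
    have h5 : q ^ m % 4 = 1 ∨ q ^ m % 4 = 3 := by omega
    rcases h5 with h5 | h5
    · have hno : ¬ ∃ g : OG Q', g ∈ OmG Q' ∧ oM g = -1 := by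
        intro h
        have := (h791 hq).1 h
        omega
      have h6 := pomega_card_odd_no h2 hnd hcard hO' hno
      rw [gcd_two_of_mod4 (by omega)]
      exact h6
    · have hyes := (h791 hq).2 h5
      have h6 := pomega_card_odd_yes h2 hnd hcard hO' hyes
      rw [gcd_four_of_mod4 (by omega)]
      exact h6

end Cfsg.Agent.S0294
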