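import Cfsg.Statements.S0307
import Mathlib


set_option autoImplicit false
open Cfsg

namespace Cfsg.Agent.S0307

/-- PSL_n(q) is normal in PGL_n(q) with cyclic quotient of order gcd(n, q-1): the image of the natural map PSL_n → PGL_n is the kernel of a surjective homomorphism onto the cyclic group of that order. -/
theorem result {F : Type*} [Field F] [Fintype F] {q : ℕ} (hF : Fintype.card F = q) (n : ℕ) (hn : 1 ≤ n) : ∃ g : Matrix.ProjGenLinGroup (Fin n) F →* Multiplicative (ZMod (Nat.gcd n (q - 1))), Function.Surjective g ∧ g.ker = (Matrix.ProjectiveSpecialLinearGroup.toPGL : Matrix.ProjectiveSpecialLinearGroup (Fin n) F →* Matrix.ProjGenLinGroup (Fin n) F).range := by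
  classical
  have hcG : Nat.card Fˣ = q - 1 := by
    rw [Nat.card_eq_fintype_card, Fintype.card_units, hF]
  set H : Subgroup Fˣ := (powMonoidHom n : Fˣ →* Fˣ).range with hH
  have hidx : Nat.card (Fˣ ⧸ H) = Nat.gcd n (q - 1) := by
    have := IsCyclic.index_powMonoidHom_range (G := Fˣ) n
    rw [hcG, Nat.gcd_comm] at this
    exact this
  let d : Matrix.GeneralLinearGroup (Fin n) F →* Fˣ ⧸ H :=
    (QuotientGroup.mk' H).comp Matrix.GeneralLinearGroup.det
  have hdetscalar : ∀ u : Fˣ, Matrix.GeneralLinearGroup.det (Matrix.GeneralLinearGroup.scalar (Fin n) u) = u ^ n := by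
    intro u
    apply Units.ext
    simp [Matrix.GeneralLinearGroup.val_det_apply]
  have hd : Subgroup.center (Matrix.GeneralLinearGroup (Fin n) F) ≤ d.ker := by
    rw [Matrix.GeneralLinearGroup.center_eq_range_scalar]
    rintro _ ⟨u, rfl⟩
    rw [MonoidHom.mem_ker]
    change (QuotientGroup.mk' H) (Matrix.GeneralLinearGroup.det (Matrix.GeneralLinearGroup.scalar (Fin n) u)) = 1
    rw [hdetscalar, QuotientGroup.mk'_apply, QuotientGroup.eq_one_iff]
    exact ⟨u, rfl⟩
  let pg : Matrix.ProjGenLinGroup (Fin n) F →* Fˣ ⧸ H := QuotientGroup.lift _ d hd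
  have hpg : ∀ g, pg (Matrix.ProjGenLinGroup.mk g) = d g := fun g => rfl
  have hcyc : IsCyclic (Fˣ ⧸ H) := inferInstance
  have hcZ : Nat.card (Multiplicative (ZMod (Nat.gcd n (q - 1)))) = Nat.gcd n (q - 1) :=
    Nat.card_zmod _
  let e : Fˣ ⧸ H ≃* Multiplicative (ZMod (Nat.gcd n (q - 1))) :=
    mulEquivOfCyclicCardEq (hidx.trans hcZ.symm)
  refine ⟨e.toMonoidHom.comp pg, ?_, ?_⟩
  · apply e.surjective.comp
    intro y
    obtain ⟨u, rfl⟩ := QuotientGroup.mk_surjective y
    let g : Matrix.GeneralLinearGroup (Fin n) F :=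
      Matrix.GeneralLinearGroup.mkOfDetNeZero (Matrix.diagonal (fun k => if k = (⟨0, hn⟩ : Fin n) then (u : F) else 1)) (by
        rw [Matrix.det_diagonal, Finset.prod_ite_eq']
        simp)
    refine ⟨Matrix.ProjGenLinGroup.mk g, ?_⟩
    rw [hpg]
    change (QuotientGroup.mk (Matrix.GeneralLinearGroup.det g) : Fˣ ⧸ H) = _
    congr 1
    apply Units.ext
    simp [g, Matrix.GeneralLinearGroup.val_det_apply, Matrix.GeneralLinearGroup.mkOfDetNeZero]
  · ext x
    induction x using Matrix.ProjGenLinGroup.induction_on with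
    | mk g =>
      rw [MonoidHom.mem_ker]
      simp only [MonoidHom.comp_apply, MulEquiv.coe_toMonoidHom, EmbeddingLike.map_eq_one_iff, hpg]
      change (QuotientGroup.mk (Matrix.GeneralLinearGroup.det g) : Fˣ ⧸ H) = 1 ↔ _
      rw [QuotientGroup.eq_one_iff]
      constructor
      · rintro ⟨c, hc⟩
        simp only [powMonoidHom_apply] at hc
        have hdet1 : ((Matrix.GeneralLinearGroup.scalar (Fin n) c⁻¹ * g : Matrix.GeneralLinearGroup (Fin n) F) : Matrix (Fin n) (Fin n) F).det = 1 := by
          have h1 := congrArg Units.val (map_mul Matrix.GeneralLinearGroup.det (Matrix.GeneralLinearGroup.scalar (Fin n) c⁻¹) g)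
          rw [hdetscalar, ← hc] at h1
          simpa [Matrix.GeneralLinearGroup.val_det_apply] using h1
        let s : Matrix.SpecialLinearGroup (Fin n) F := ⟨_, hdet1⟩
        refine ⟨QuotientGroup.mk s, ?_⟩
        rw [Matrix.ProjectiveSpecialLinearGroup.toPGL_mk, Matrix.ProjGenLinGroup.mk_eq_mk_iff]
        refine ⟨c, ?_⟩
        apply Units.ext
        change (Matrix.GeneralLinearGroup.scalar (Fin n) c⁻¹ * g : Matrix.GeneralLinearGroup (Fin n) F).val * (Matrix.GeneralLinearGroup.scalar (Fin n) c).val = g.val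
        have hcomm : Matrix.GeneralLinearGroup.scalar (Fin n) c⁻¹ * g * Matrix.GeneralLinearGroup.scalar (Fin n) c = g := by
          have : Matrix.GeneralLinearGroup.scalar (Fin n) c ∈ Subgroup.center (Matrix.GeneralLinearGroup (Fin n) F) := by
            rw [Matrix.GeneralLinearGroup.center_eq_range_scalar]
            exact ⟨c, rfl⟩
          rw [mul_assoc, Subgroup.mem_center_iff.1 this g, ← mul_assoc, ← map_mul]
          simp
        exact congrArg Units.val hcomm
      · rintro ⟨x, hx⟩
        obtain ⟨s, rfl⟩ := QuotientGroup.mk_surjective x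
        rw [Matrix.ProjectiveSpecialLinearGroup.toPGL_mk, Matrix.ProjGenLinGroup.mk_eq_mk_iff] at hx
        obtain ⟨u, hu⟩ := hx
        refine ⟨u, ?_⟩
        simp only [powMonoidHom_apply]
        rw [← hu, map_mul, hdetscalar]
        have h1 : Matrix.GeneralLinearGroup.det (Matrix.SpecialLinearGroup.toGL s) = 1 := by
          apply Units.ext
          simp [Matrix.GeneralLinearGroup.val_det_apply]
        rw [h1, one_mul]

end Cfsg.Agent.S0307
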