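import Cfsg.Statements.S0309
import Cfsg.Agent.Lib.BN.Parabolic
-- import your own Cfsg.Agent.* helpers here

set_option autoImplicit false
open Cfsg

namespace Cfsg.Agent.S0309

/-- Bruhat decomposition, uniqueness part: for `n, n' ∈ N` the double cosets `B n B` and `B n' B` coincide
exactly when `n` and `n'` have the same image in `W = N / (B ⊓ N)`. -/
theorem result {G : Type*} [Group G] (P : Cfsg.BNPair G) {n n' : G}
    (hn : n ∈ P.N) (hn' : n' ∈ P.N) :
    DoubleCoset.doubleCoset n (P.B : Set G) P.B = DoubleCoset.doubleCoset n' (P.B : Set G) P.B ↔ n⁻¹ * n' ∈ P.B := by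
  open Cfsg.Agent.Lib.BN in
  constructor
  · intro h
    have h1 : n' ∈ DoubleCoset.doubleCoset n' (P.B : Set G) P.B :=
      (mem_dc_iff P).2 (DC.refl n')
    rw [← h] at h1
    exact dc_unique hn hn' ((mem_dc_iff P).1 h1)
  · intro h
    have h1 : n' ∈ DoubleCoset.doubleCoset n (P.B : Set G) P.B := by
      apply (mem_dc_iff P).2
      have := dc_mul_right_self (P := P) (n := n) h
      have e : n * (n⁻¹ * n') = n' := by group
      rwa [e] at this
    exact (DoubleCoset.doubleCoset_eq_of_mem h1).symm

end Cfsg.Agent.S0309
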