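import Cfsg.Statements.S0316
import Cfsg.Agent.Lib.BN.Parabolic
-- import your own Cfsg.Agent.* helpers here

set_option autoImplicit false
open Cfsg

namespace Cfsg.Agent.S0316

/-- The map `J ↦ P_J` is a lattice isomorphism from the power set of the set of distinguished generators onto the
subgroups containing `B`. -/
theorem result {G : Type*} [Group G] (P : Cfsg.BNPair G) :
    ∃ e : Set P.S ≃o {M : Subgroup G // P.B ≤ M},
      ∀ J : Set P.S, ((e J : {M : Subgroup G // P.B ≤ M}) : Subgroup G) = P.parabolic (Subtype.val '' J) := by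
  open Cfsg.Agent.Lib.BN in
  refine ⟨{ toFun := fun J => ⟨P.parabolic (Subtype.val '' J), B_le_parabolic _⟩
            invFun := fun M => {s | (s : G) ∈ M.1}
            left_inv := ?_
            right_inv := ?_
            map_rel_iff' := ?_ }, fun J => rfl⟩
  · intro J
    ext s
    constructor
    · intro h
      have := mem_of_mem_parabolic (P := P) (J := Subtype.val '' J) (by rintro _ ⟨x, -, rfl⟩; exact x.2) s.2 h
      obtain ⟨x, hx, hxs⟩ := this
      rwa [← Subtype.ext hxs]
    · intro h
      exact subset_parabolic ⟨s, h, rfl⟩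
  · rintro ⟨M, hM⟩
    apply Subtype.ext
    show P.parabolic (Subtype.val '' {s : P.S | (s : G) ∈ M}) = M
    have e : Subtype.val '' {s : P.S | (s : G) ∈ M} = P.S ∩ M := by
      ext x
      constructor
      · rintro ⟨s, hs, rfl⟩
        exact ⟨s.2, hs⟩
      · rintro ⟨h1, h2⟩
        exact ⟨⟨x, h1⟩, h2, rfl⟩
    rw [e]
    exact (eq_parabolic M hM).symm
  · intro J K
    show P.parabolic (Subtype.val '' J) ≤ P.parabolic (Subtype.val '' K) ↔ J ≤ K
    constructor
    · intro h s hs
      have := h (subset_parabolic (P := P) (J := Subtype.val '' J) ⟨s, hs, rfl⟩)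
      have := mem_of_mem_parabolic (P := P) (J := Subtype.val '' K) (by rintro _ ⟨x, -, rfl⟩; exact x.2) s.2 this
      obtain ⟨x, hx, hxs⟩ := this
      rwa [← Subtype.ext hxs]
    · intro h
      exact parabolic_mono (Set.image_mono h)

end Cfsg.Agent.S0316
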