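import Cfsg.Statements.S0321
import Cfsg.Agent.Lib.BN.Simple
-- import your own Cfsg.Agent.* helpers here

set_option autoImplicit false
open Cfsg

namespace Cfsg.Agent.S0321

/-- For `n ∈ N` not in `B`, the union `B ∪ B n B` is (the underlying set of) a subgroup exactly when `n` agrees
modulo `B ⊓ N` with one of the distinguished representatives; thus the distinguished involutions are
determined by `B` and `N`. -/
theorem result {G : Type*} [Group G] (P : Cfsg.BNPair G) {n : G}
    (hn : n ∈ P.N) (hnB : n ∉ P.B) :
    (∃ H : Subgroup G, (H : Set G) = (P.B : Set G) ∪ DoubleCoset.doubleCoset n (P.B : Set G) P.B) ↔ ∃ s ∈ P.S, s⁻¹ * n ∈ P.B := by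
  open Cfsg.Agent.Lib.BN in
  have hnN := hn
  constructor
  · rintro ⟨M, hM⟩
    have hB : P.B ≤ M := by
      intro b hb
      have : b ∈ (M : Set G) := by rw [hM]; exact Or.inl hb
      exact this
    have hnM : n ∈ M := by
      have : n ∈ (M : Set G) := by
        rw [hM]; exact Or.inr ((mem_dc_iff P).2 (DC.refl n))
      exact this
    obtain ⟨l, hr, hlen⟩ := len_spec hnN
    have h0 : len P n ≠ 0 := fun h => hnB ((len_eq_zero_iff hnN).1 h)
    cases l with
    | nil => simp at hlen; exact absurd hlen.symm h0
    | cons s l' =>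
      have hs : s ∈ P.S := hr.1 s (by simp)
      have hsM : s ∈ M := letters_mem M hB _ hr hlen hnN hnM s (by simp)
      have hsM' : s ∈ (M : Set G) := hsM
      rw [hM] at hsM'
      rcases hsM' with hsB | hsC
      · exact absurd hsB (S_not_mem_B hs)
      · have := dc_unique hnN (S_mem_N hs) ((mem_dc_iff P).1 hsC)
        refine ⟨s, hs, ?_⟩
        have h2 := P.B.inv_mem this
        simpa using h2
  · rintro ⟨s, hs, hsn⟩
    refine ⟨P.parabolic {s}, ?_⟩
    have hsn' : DC P s n := by
      have := dc_mul_right_self (P := P) (n := s) hsn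
      have e : s * (s⁻¹ * n) = n := by group
      rwa [e] at this
    ext g
    rw [SetLike.mem_coe, mem_parabolic_singleton hs, Set.mem_union, mem_dc_iff]
    constructor
    · rintro (h | h)
      · exact Or.inl h
      · exact Or.inr (hsn'.symm.trans h)
    · rintro (h | h)
      · exact Or.inl h
      · exact Or.inr (hsn'.trans h)

end Cfsg.Agent.S0321
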