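import Cfsg.Statements.S0322
import Cfsg.Agent.Lib.BN.Simple
-- import your own Cfsg.Agent.* helpers here

set_option autoImplicit false
open Cfsg

namespace Cfsg.Agent.S0322

/-- A group with a (B,N)-pair of rank one acts doubly transitively on the left cosets of `B`. -/
theorem result {G : Type*} [Group G] (P : Cfsg.BNPair G) (h : P.rank = 1) : MulAction.IsMultiplyPretransitive G (G ⧸ P.B) 2 := by
  open Cfsg.Agent.Lib.BN in
  have hcard : Nat.card P.S = 1 := h
  obtain ⟨hsub, hne⟩ := Nat.card_eq_one_iff_unique.1 hcard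
  obtain ⟨⟨s, hs⟩⟩ := hne
  have hS : P.S = {s} := by
    ext t
    constructor
    · intro ht
      have := Subsingleton.elim (⟨t, ht⟩ : P.S) ⟨s, hs⟩
      simpa using this
    · intro ht
      rw [Set.mem_singleton_iff.1 ht]; exact hs
  have key : ∀ a b : G ⧸ P.B, a ≠ b → ∃ g : G, g • a = (QuotientGroup.mk 1 : G ⧸ P.B) ∧
      g • b = (QuotientGroup.mk s : G ⧸ P.B) := by
    intro a b hab
    obtain ⟨x, rfl⟩ := QuotientGroup.mk_surjective a
    obtain ⟨y, rfl⟩ := QuotientGroup.mk_surjective b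
    have hz : x⁻¹ * y ∉ P.B := by
      intro h
      exact hab (QuotientGroup.eq.2 h)
    rcases rank_one_cases hS (x⁻¹ * y) with h1 | h1
    · exact absurd h1 hz
    · obtain ⟨b₁, h₁, b₂, h₂, hEq⟩ := h1
      refine ⟨b₁⁻¹ * x⁻¹, ?_, ?_⟩
      · rw [MulAction.Quotient.smul_mk, QuotientGroup.eq]
        simpa using h₁
      · rw [MulAction.Quotient.smul_mk, QuotientGroup.eq]
        have e : (b₁⁻¹ * x⁻¹ * y)⁻¹ * s = b₂⁻¹ := by
          have e2 : b₁⁻¹ * x⁻¹ * y = s * b₂ := by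
            calc b₁⁻¹ * x⁻¹ * y = b₁⁻¹ * (x⁻¹ * y) := by group
              _ = _ := by rw [hEq]; group
          rw [e2]; group
        simp only [smul_eq_mul]
        rw [e]
        exact P.B.inv_mem h₂
  rw [MulAction.is_two_pretransitive_iff]
  intro a b c d hab hcd
  obtain ⟨g₁, h₁, h₂⟩ := key a b hab
  obtain ⟨g₂, h₃, h₄⟩ := key c d hcd
  refine ⟨g₂⁻¹ * g₁, ?_, ?_⟩
  · rw [mul_smul, h₁, ← h₃, inv_smul_smul]
  · rw [mul_smul, h₂, ← h₄, inv_smul_smul]

end Cfsg.Agent.S0322
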