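import Cfsg.Statements.S0323
import Cfsg.Agent.Lib.BN.Simple
-- import your own Cfsg.Agent.* helpers here

set_option autoImplicit false
open scoped Pointwise
open Cfsg

namespace Cfsg.Agent.S0323

/-- A doubly transitive action on a set with at least three points yields a (B,N)-pair of rank one:
`B` is the stabiliser of a point `x`, `N` the setwise stabiliser of a pair `{x, y}`. -/
theorem result {G Ω : Type*} [Group G] [MulAction G Ω]
    (h2 : MulAction.IsMultiplyPretransitive G Ω 2) {x y z : Ω} (hxy : x ≠ y) (hyz : y ≠ z) (hxz : x ≠ z) :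
    ∃ P : Cfsg.BNPair G, P.B = MulAction.stabilizer G x ∧
      P.N = MulAction.stabilizer G ({x, y} : Set Ω) ∧ P.rank = 1 := by
  rw [MulAction.is_two_pretransitive_iff] at h2
  -- a swap of x and y
  obtain ⟨s, hsx, hsy⟩ := h2 hxy hxy.symm
  have stab_pair : ∀ g : G, (g • x = x ∧ g • y = y) ∨ (g • x = y ∧ g • y = x) →
      g ∈ MulAction.stabilizer G ({x, y} : Set Ω) := by
    intro g hg
    rw [MulAction.mem_stabilizer_iff]
    ext w
    simp only [Set.mem_smul_set, Set.mem_insert_iff, Set.mem_singleton_iff]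
    rcases hg with ⟨h1, h3⟩ | ⟨h1, h3⟩
    · constructor
      · rintro ⟨a, rfl | rfl, rfl⟩
        · exact Or.inl h1
        · exact Or.inr h3
      · rintro (h | h)
        · exact ⟨x, Or.inl rfl, h1.trans h.symm⟩
        · exact ⟨y, Or.inr rfl, h3.trans h.symm⟩
    · constructor
      · rintro ⟨a, rfl | rfl, rfl⟩
        · exact Or.inr h1
        · exact Or.inl h3
      · rintro (h | h)
        · exact ⟨y, Or.inr rfl, h3.trans h.symm⟩
        · exact ⟨x, Or.inl rfl, h1.trans h.symm⟩
  have stab_cases : ∀ g : G, g ∈ MulAction.stabilizer G ({x, y} : Set Ω) →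
      (g • x = x ∧ g • y = y) ∨ (g • x = y ∧ g • y = x) := by
    intro g hg
    rw [MulAction.mem_stabilizer_iff] at hg
    have hgx : g • x ∈ ({x, y} : Set Ω) := by
      rw [← hg]; exact Set.smul_mem_smul_set (Or.inl rfl)
    have hgy : g • y ∈ ({x, y} : Set Ω) := by
      rw [← hg]; exact Set.smul_mem_smul_set (Or.inr rfl)
    rcases hgx with h1 | h1
    · left
      refine ⟨h1, ?_⟩
      rcases hgy with h3 | h3
      · exfalso
        exact hxy (MulAction.injective g (h1.trans h3.symm))
      · exact h3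
    · right
      refine ⟨h1, ?_⟩
      rcases hgy with h3 | h3
      · exact h3
      · exfalso
        exact hxy (MulAction.injective g (h1.trans h3.symm))
  have hsN : s ∈ MulAction.stabilizer G ({x, y} : Set Ω) := stab_pair s (Or.inr ⟨hsx, hsy⟩)
  -- every element is in `B` or `B s B`
  have hcases : ∀ g : G, g • x = x ∨ ∃ b₁ ∈ MulAction.stabilizer G x, ∃ b₂ ∈ MulAction.stabilizer G x,
      g = b₁ * s * b₂ := by
    intro g
    by_cases hg : g • x = x
    · exact Or.inl hg
    · right
      obtain ⟨b, hb1, hb2⟩ := h2 (a := x) (b := g • x) (c := x) (d := y) (Ne.symm hg) hxy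
      refine ⟨b⁻¹, ?_, s⁻¹ * (b * g), ?_, by group⟩
      · exact Subgroup.inv_mem _ hb1
      · rw [MulAction.mem_stabilizer_iff, mul_smul, mul_smul, hb2, inv_smul_eq_iff, hsx]
  refine ⟨{ B := MulAction.stabilizer G x
            N := MulAction.stabilizer G ({x, y} : Set Ω)
            S := {s}
            sup_eq_top := ?_
            conj_mem := ?_
            subset := ?_
            sq_mem := ?_
            inj := ?_
            closure_sup := ?_
            mul_mem_union := ?_
            conj_ne := ?_ }, rfl, rfl, ?_⟩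
  · rw [eq_top_iff]
    intro g _
    rcases hcases g with h | ⟨b₁, h₁, b₂, h₃, rfl⟩
    · exact (le_sup_left : MulAction.stabilizer G x ≤ _) h
    · exact Subgroup.mul_mem _ (Subgroup.mul_mem _ ((le_sup_left : MulAction.stabilizer G x ≤ _) h₁)
        ((le_sup_right : MulAction.stabilizer G ({x, y} : Set Ω) ≤ _) hsN))
        ((le_sup_left : MulAction.stabilizer G x ≤ _) h₃)
  · rintro n hn t ⟨ht1, ht2⟩
    have ht : t • x = x ∧ t • y = y := by
      rcases stab_cases t ht2 with h | h
      · exact h
      · exact absurd (h.1.symm.trans ht1) (Ne.symm hxy)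
    rw [MulAction.mem_stabilizer_iff, mul_smul, mul_smul]
    rcases stab_cases n hn with h | h
    · have e : n⁻¹ • x = x := by rw [inv_smul_eq_iff, h.1]
      rw [e, ht.1, h.1]
    · have e : n⁻¹ • x = y := by rw [inv_smul_eq_iff, h.2]
      rw [e, ht.2, h.2]
  · intro t ht
    rw [Set.mem_singleton_iff.1 ht]
    exact hsN
  · intro t ht
    rw [Set.mem_singleton_iff.1 ht, MulAction.mem_stabilizer_iff, mul_smul, hsx, hsy]
  · intro a ha b hb _
    rw [Set.mem_singleton_iff.1 ha, Set.mem_singleton_iff.1 hb]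
  · apply le_antisymm
    · refine sup_le ?_ inf_le_right
      rw [Subgroup.closure_le]
      intro t ht
      rw [Set.mem_singleton_iff.1 ht]
      exact hsN
    · intro n hn
      rcases stab_cases n hn with h | h
      · exact (le_sup_right : _ ≤ Subgroup.closure {s} ⊔ _) ⟨h.1, hn⟩
      · have hk : s⁻¹ * n ∈ MulAction.stabilizer G x ⊓ MulAction.stabilizer G ({x, y} : Set Ω) := by
          have h3 : (s⁻¹ * n) • x = x := by rw [mul_smul, h.1, inv_smul_eq_iff, hsx]
          exact ⟨h3, Subgroup.mul_mem _ (Subgroup.inv_mem _ hsN) hn⟩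
        have e : n = s * (s⁻¹ * n) := by group
        rw [e]
        exact Subgroup.mul_mem _ ((le_sup_left : Subgroup.closure {s} ≤ _) (Subgroup.subset_closure rfl))
          ((le_sup_right : _ ≤ Subgroup.closure {s} ⊔ _) hk)
  · intro t ht n hn b hb
    rw [Set.mem_singleton_iff.1 ht]
    have hB : s * s ∈ MulAction.stabilizer G x := by
      rw [MulAction.mem_stabilizer_iff, mul_smul, hsx, hsy]
    have dc : ∀ g : G, g ∈ MulAction.stabilizer G x ∨
        g ∈ DoubleCoset.doubleCoset s (MulAction.stabilizer G x : Set G) (MulAction.stabilizer G x) := by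
      intro g
      rcases hcases g with h | ⟨b₁, h₁, b₂, h₃, rfl⟩
      · exact Or.inl h
      · exact Or.inr (DoubleCoset.mem_doubleCoset.2 ⟨b₁, h₁, b₂, h₃, rfl⟩)
    rcases stab_cases n hn with hc | hc
    · have hnB : n ∈ MulAction.stabilizer G x := hc.1
      rcases dc (s * b * n) with h | h
      · right
        apply DoubleCoset.mem_doubleCoset.2
        refine ⟨s * b * n * n⁻¹, ?_, 1, Subgroup.one_mem _, by group⟩
        exact Subgroup.mul_mem _ h (Subgroup.inv_mem _ hnB)
      · left
        obtain ⟨b₁, h₁, b₂, h₃, hEq⟩ := DoubleCoset.mem_doubleCoset.1 h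
        apply DoubleCoset.mem_doubleCoset.2
        refine ⟨b₁, h₁, n⁻¹ * b₂, Subgroup.mul_mem _ (Subgroup.inv_mem _ hnB) h₃, ?_⟩
        rw [hEq]; group
    · have hnB : s⁻¹ * n ∈ MulAction.stabilizer G x := by
        rw [MulAction.mem_stabilizer_iff, mul_smul, hc.1, inv_smul_eq_iff, hsx]
      rcases dc (s * b * n) with h | h
      · left
        apply DoubleCoset.mem_doubleCoset.2
        have hsn : s * n ∈ MulAction.stabilizer G x := by
          rw [MulAction.mem_stabilizer_iff, mul_smul, hc.1, hsy]
        refine ⟨s * b * n * (s * n)⁻¹, ?_, 1, Subgroup.one_mem _, by group⟩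
        exact Subgroup.mul_mem _ h (Subgroup.inv_mem _ hsn)
      · right
        obtain ⟨b₁, h₁, b₂, h₃, hEq⟩ := DoubleCoset.mem_doubleCoset.1 h
        apply DoubleCoset.mem_doubleCoset.2
        refine ⟨b₁, h₁, (s⁻¹ * n)⁻¹ * b₂, Subgroup.mul_mem _ (Subgroup.inv_mem _ hnB) h₃, ?_⟩
        rw [hEq]; group
  · intro t ht heq
    rw [Set.mem_singleton_iff.1 ht] at heq
    -- the element of `G_y` moving `x` to `z`
    obtain ⟨g, hg1, hg2⟩ := h2 (a := y) (b := x) (c := y) (d := z) hxy.symm hyz
    have hmem : s⁻¹ * g * s * (s * s)⁻¹ ∈ MulAction.stabilizer G x := by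
      rw [MulAction.mem_stabilizer_iff, mul_smul, mul_smul, mul_smul]
      have e1 : (s * s)⁻¹ • x = x := by
        rw [inv_smul_eq_iff, mul_smul, hsx, hsy]
      rw [e1, hsx, hg1, inv_smul_eq_iff, hsx]
    have himg : g ∈ (fun b => s * b * s) '' (MulAction.stabilizer G x : Set G) :=
      ⟨_, hmem, by group⟩
    rw [heq] at himg
    have : g • x = x := himg
    rw [hg2] at this
    exact hxz this.symm
  · show Nat.card ({s} : Set G) = 1
    simp

end Cfsg.Agent.S0323
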