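import Cfsg.Statements.S0334
import Cfsg.Agent.Lib.Suzuki.Zass

set_option autoImplicit false
open Cfsg

namespace Cfsg.Agent.S0334




/-- Every element of the Suzuki group preserves the alternating form with antidiagonal matrix:
`gᵀ J g = J`. Hence the Suzuki group is a subgroup of a 4-dimensional symplectic group. -/
theorem result {F : Type*} [Field F] [Fintype F] {m : ℕ} (hm : 1 ≤ m)
    (hF : Fintype.card F = 2 ^ (2 * m + 1)) {g : Matrix.SpecialLinearGroup (Fin 4) F}
    (hg : g ∈ Cfsg.Sz F m) :
    (g : Matrix (Fin 4) (Fin 4) F).transpose * Cfsg.suzukiForm F * (g : Matrix (Fin 4) (Fin 4) F) =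
      Cfsg.suzukiForm F := by
---PRE
  exact Cfsg.Agent.Lib.Suzuki.form_Sz hF hm hg

end Cfsg.Agent.S0334
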