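import Cfsg.Statements.S0338
import Cfsg.Agent.Lib.Perm.ZSimple
import Mathlib

set_option autoImplicit false
open Cfsg

namespace Cfsg.Agent.S0338

/-- A Zassenhaus group of odd degree is a simple group. -/
theorem result {G Ω : Type*} [Group G] [MulAction G Ω] [Fintype Ω]
    (hZ : Cfsg.IsZassenhausGroup G Ω) (hodd : Odd (Fintype.card Ω)) : IsSimpleGroup G := by
  exact Cfsg.Agent.Lib.Perm.zsimple_main hZ hodd

end Cfsg.Agent.S0338
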