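import Cfsg.Agent.Lib.Golay.Words

set_option autoImplicit false
open Cfsg

namespace Cfsg.Agent.S0358

open Cfsg.Agent.Lib.Golay

/-- The basis of the code as a family indexed by `Fin 12`. -/
def Efn (i : Fin 12) : GolayPt → ZMod 2 := wordOf (E.getD i 0)

theorem Efn_pivot : ∀ i j : Fin 12, Efn i (pt (P.getD j 0)) = if i = j then 1 else 0 := by
  decide +kernel

theorem Efn_li : LinearIndependent (ZMod 2) Efn := by
  rw [Fintype.linearIndependent_iff]
  intro g hg j
  have h := congrFun hg (pt (P.getD j 0))
  simp only [Finset.sum_apply, Pi.smul_apply, smul_eq_mul, Efn_pivot, Pi.zero_apply] at h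
  simpa using h

theorem span_Efn : Submodule.span (ZMod 2) (Set.range Efn) = golayCode := by
  apply le_antisymm
  · rw [Submodule.span_le]
    rintro _ ⟨i, rfl⟩
    apply E_mem
    show E.getD i 0 ∈ E
    revert i
    decide
  · intro w hw
    refine code_induction (P := fun w => w ∈ Submodule.span (ZMod 2) (Set.range Efn))
      (Submodule.zero_mem _) (fun _ _ h1 h2 => Submodule.add_mem _ h1 h2) ?_ hw
    intro e he
    apply Submodule.subset_span
    have : ∀ e ∈ E, ∃ i : Fin 12, E.getD i 0 = e := by decide
    obtain ⟨i, hi⟩ := this e he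
    exact ⟨i, by rw [Efn, hi]⟩

/-- The length-24 code built from the squares modulo 23 has dimension 12 over the field with two elements. -/
theorem result : Module.finrank (ZMod 2) Cfsg.golayCode = 12 := by
  rw [← span_Efn, finrank_span_eq_card Efn_li]
  simp

end Cfsg.Agent.S0358
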