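import Cfsg.Agent.Lib.Golay.M24Chain

set_option autoImplicit false
open Cfsg

namespace Cfsg.Agent.S0367

open Cfsg.Agent.Lib.Golay
open scoped Pointwise

/-- The permutation group preserving the length-24 code is transitive on octads. -/
theorem result (o o' : Finset Cfsg.GolayPt) (ho : o ∈ Cfsg.octads) (ho' : o' ∈ Cfsg.octads) : ∃ g : Cfsg.M24, g • o = o' := by
  -- five points of each octad
  have h5 : ∀ o : Finset GolayPt, o ∈ octads → ∃ p : Fin 5 → GolayPt, Function.Injective p ∧ ∀ i, p i ∈ o := by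
    intro o ho
    have hc : 5 ≤ o.card := by rw [octad_card ho]; norm_num
    have : (Fintype.card (Fin 5)) ≤ Fintype.card o := by simpa using hc
    obtain ⟨f⟩ := Function.Embedding.nonempty_of_card_le this
    exact ⟨fun i => (f i : GolayPt), fun a b h => f.injective (Subtype.ext h), fun i => (f i).2⟩
  obtain ⟨p, hp, hpo⟩ := h5 o ho
  obtain ⟨q, hq, hqo⟩ := h5 o' ho'
  obtain ⟨g, hg, hgpq⟩ := exists_map_five p q hp hq
  refine ⟨⟨g, hg⟩, ?_⟩
  have h1 : g • o ∈ octads := smul_octad hg ho
  apply octad_eq_of_card_inter h1 ho'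
  have h2 : (Finset.univ.image q) ⊆ (g • o) ∩ o' := by
    intro x hx
    obtain ⟨i, -, rfl⟩ := Finset.mem_image.mp hx
    refine Finset.mem_inter.mpr ⟨?_, hqo i⟩
    rw [← hgpq i]
    exact (mem_smul_iff g o (p i)).mpr (hpo i)
  have h3 : (Finset.univ.image q).card = 5 := by
    rw [Finset.card_image_of_injective _ hq]
    simp
  rw [← h3]
  exact Finset.card_le_card h2

end Cfsg.Agent.S0367
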