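import Cfsg.Agent.Lib.Golay.Group

set_option autoImplicit false
open Cfsg

namespace Cfsg.Agent.S0370

open Cfsg.Agent.Lib.Golay

/-- The list of the translation. -/
def lst : List ℕ := [1,2,3,4,5,6,7,8,9,10,11,12,13,14,15,16,17,18,19,20,21,22,0,23]

/-- The permutation x ↦ x + 1 of the residues modulo 23, fixing the extra point, lies in the group of the length-24 code. -/
theorem result : Equiv.optionCongr (Equiv.addRight (1 : ZMod 23)) ∈ Cfsg.M24 :=
  mem_M24_of_list (l := lst) (by decide +kernel) (by decide +kernel) (by decide +kernel)

end Cfsg.Agent.S0370
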