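import Cfsg.Agent.Lib.Golay.Group

set_option autoImplicit false
open Cfsg

namespace Cfsg.Agent.S0371

open Cfsg.Agent.Lib.Golay

/-- The list of multiplication by `a`. -/
def lst (a : ℕ) : List ℕ := (List.range 23).map (fun i => (a * i) % 23) ++ [23]

theorem check : ∀ r : ZMod 23, r ≠ 0 → isPerm (lst (r * r).val) = true ∧ autCheck (lst (r * r).val) = true := by
  decide +kernel

theorem agree : ∀ r : ZMod 23, r ≠ 0 → ∀ p : GolayPt, Option.map (fun x => r * r * x) p = lp (lst (r * r).val) p := by
  decide +kernel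

/-- Multiplication by a nonzero square residue modulo 23, fixing the extra point, lies in the group of the length-24 code. -/
theorem result (u : (ZMod 23)ˣ) (hu : IsSquare u) : Equiv.optionCongr (Units.mulLeft u) ∈ Cfsg.M24 := by
  obtain ⟨v, hv⟩ := hu
  haveI : Fact (Nat.Prime 23) := ⟨by norm_num⟩
  have hr : ((v : (ZMod 23)ˣ) : ZMod 23) ≠ 0 := Units.ne_zero v
  have hu2 : (u : ZMod 23) = (v : ZMod 23) * (v : ZMod 23) := by
    rw [hv]; simp
  obtain ⟨h1, h2⟩ := check _ hr
  refine mem_M24_of_list h1 h2 (fun p => ?_)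
  rw [← agree _ hr p, ← hu2]
  cases p <;> rfl

end Cfsg.Agent.S0371
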