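import Cfsg.Agent.Lib.Golay.Group

set_option autoImplicit false
open Cfsg

namespace Cfsg.Agent.S0372

open Cfsg.Agent.Lib.Golay

/-- The list of the involution. -/
def lst : List ℕ := [23,22,11,15,17,9,19,13,20,5,16,2,21,7,18,3,10,4,14,6,8,12,1,0]

/-- The involution x ↦ -1/x of the projective line over ZMod 23 lies in the group of the length-24 code. -/
theorem result : Cfsg.projInv ∈ Cfsg.M24 :=
  mem_M24_of_list (l := lst) (by decide +kernel) (by decide +kernel) (by decide +kernel)

end Cfsg.Agent.S0372
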