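import Cfsg.Agent.Lib.Golay.Group

set_option autoImplicit false
open Cfsg

namespace Cfsg.Agent.S0373

open Cfsg.Agent.Lib.Golay

/-- The list of the cube twist. -/
def lst : List ℕ := [0,18,6,3,2,21,1,5,16,12,7,19,8,9,17,15,13,11,4,22,10,20,14,23]

/-- The cube-twist permutation (squares t ↦ t^3/9, non-squares t ↦ 9t^3, extra point fixed) lies in the group of the length-24 code. -/
theorem result : Cfsg.cubeTwist ∈ Cfsg.M24 :=
  mem_M24_of_list (l := lst) (by decide +kernel) (by decide +kernel)
    (fun p => (show cubeTwistFun p = lp lst p from by revert p; decide +kernel))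

end Cfsg.Agent.S0373
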