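import Cfsg.Agent.Lib.Golay.Simple
import Cfsg.Agent.S0367

set_option autoImplicit false
set_option linter.style.haveILetI false
set_option linter.unusedVariables false
open scoped Pointwise
open Cfsg

namespace Cfsg.Agent.S0381

open Cfsg.Agent.Lib.Golay MulAction

/-- The pointwise stabiliser of the base octad. -/
def e16 : List (List ℕ) := [
  [0,1,2,3,4,5,6,7,8,9,10,11,12,13,14,15,16,17,18,19,20,21,22,23],
  [0,1,2,3,6,5,4,22,20,12,11,10,9,19,14,18,21,17,15,13,8,16,7,23],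
  [0,1,2,3,7,5,22,4,15,11,12,9,10,21,14,8,19,17,20,16,18,13,6,23],
  [0,1,2,3,8,5,20,15,4,21,19,13,16,11,14,7,12,17,22,10,6,9,18,23],
  [0,1,2,3,9,5,12,11,21,4,22,7,6,15,14,13,20,17,19,18,16,8,10,23],
  [0,1,2,3,10,5,11,12,19,22,4,6,7,20,14,16,15,17,21,8,13,18,9,23],
  [0,1,2,3,11,5,10,9,13,7,6,4,22,8,14,21,18,17,16,20,19,15,12,23],
  [0,1,2,3,12,5,9,10,16,6,7,22,4,18,14,19,8,17,13,15,21,20,11,23],
  [0,1,2,3,13,5,19,21,11,15,20,8,18,4,14,9,22,17,12,6,10,7,16,23],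
  [0,1,2,3,15,5,18,8,7,13,16,21,19,9,14,4,10,17,6,12,22,11,20,23],
  [0,1,2,3,16,5,21,19,12,20,15,18,8,22,14,10,4,17,11,7,9,6,13,23],
  [0,1,2,3,18,5,15,20,22,19,21,16,13,12,14,6,11,17,4,9,7,10,8,23],
  [0,1,2,3,19,5,13,16,10,18,8,20,15,6,14,12,7,17,9,4,11,22,21,23],
  [0,1,2,3,20,5,8,18,6,16,13,19,21,10,14,22,9,17,7,11,4,12,15,23],
  [0,1,2,3,21,5,16,13,9,8,18,15,20,7,14,11,6,17,10,22,12,4,19,23],
  [0,1,2,3,22,5,7,6,18,10,9,12,11,16,14,20,13,17,8,21,15,19,4,23]]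

/-- The fixed points of the base octad as a list. -/
def o0L : List ℕ := [23, 0, 1, 2, 3, 5, 14, 17]

/-- The base octad. -/
def O0 : Finset GolayPt := finOf o3

theorem O0_mem : O0 ∈ octads := (mem_octads_iff _).mpr ⟨o3, by decide +kernel, rfl⟩

theorem O0_iff : ∀ p : GolayPt, p ∈ O0 ↔ idx p ∈ o0L := by decide +kernel

/-- The pointwise stabiliser of the base octad. -/
abbrev K0 : Subgroup (Equiv.Perm GolayPt) := stabL M24 o0L

theorem e16_check : checkT o0L 4 e16 = true := by decide +kernel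

theorem e16_nodup : (orbitL 4 e16).Nodup := by decide +kernel

theorem e16_orb : ∀ j : Fin 24, (j : ℕ) ∉ o0L → (j : ℕ) ∈ orbitL 4 e16 := by decide +kernel

theorem e16_sq : e16.all (fun t => mulL t t == idL) = true := by decide +kernel

theorem e16_spec {t : List ℕ} (ht : t ∈ e16) : isPerm t = true ∧ perm t ∈ K0 := by
  have h := List.all_eq_true.mp e16_check t ht
  simp only [Bool.and_eq_true] at h
  exact ⟨h.1.1, perm_mem_stabL e16_check (by decide) ht⟩

theorem K0_eq {g : Equiv.Perm GolayPt} (hg : g ∈ K0) : ∃ t ∈ e16, g = perm t := by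
  obtain ⟨hg1, hg2⟩ := mem_stabL.mp hg
  have h1 : idx (g (pt 4)) ∉ o0L := by
    intro hm
    have h2 := hg2 _ hm
    rw [pt_idx] at h2
    have h3 := g.injective h2
    rw [h3, idx_pt (by norm_num)] at hm
    revert hm
    decide
  obtain ⟨t, ht, hte⟩ := List.mem_map.mp (e16_orb ⟨_, idx_lt _⟩ h1)
  obtain ⟨ht1, ht2⟩ := e16_spec ht
  refine ⟨t, ht, ?_⟩
  have h4 : g (pt 4) = perm t (pt 4) := by
    rw [perm_pt ht1 (by norm_num), hte, pt_idx]
  have h5 := inv_mul_mem_stabL_append hg ht2 h4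
  have h6 : (perm t)⁻¹ * g ∈ stabL M24 [23, 0, 1, 2, 3, 4, 5] := by
    obtain ⟨h7, h8⟩ := mem_stabL.mp h5
    refine mem_stabL.mpr ⟨h7, fun b hb => h8 b ?_⟩
    revert b
    decide
  rw [stab_base_trivial, Subgroup.mem_bot] at h6
  exact (inv_mul_eq_one.mp h6).symm

theorem K0_chain : ChainOK K0 [(pt 4, e16.map perm)] := by
  refine ⟨?_, ?_, ?_, ?_⟩
  · intro t ht
    obtain ⟨u, hu, rfl⟩ := List.mem_map.mp ht
    exact (e16_spec hu).2
  · rw [List.map_map]
    have h1 : (e16.map ((fun t : Equiv.Perm GolayPt => t (pt 4)) ∘ perm)) = (orbitL 4 e16).map pt := by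
      rw [orbitL, List.map_map]
      apply List.map_congr_left
      intro t ht
      simp [perm_pt (e16_spec ht).1 (by norm_num : 4 < 24)]
    rw [h1]
    apply List.Nodup.map_on _ e16_nodup
    intro a ha b hb hab
    have hlt : ∀ c ∈ orbitL 4 e16, c < 24 := by decide +kernel
    have := congrArg idx hab
    rwa [idx_pt (hlt a ha), idx_pt (hlt b hb)] at this
  · intro g hg
    obtain ⟨t, ht, rfl⟩ := K0_eq hg
    exact ⟨perm t, List.mem_map.mpr ⟨t, ht, rfl⟩, rfl⟩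
  · show K0 ⊓ stabilizer (Equiv.Perm GolayPt) (pt 4) = ⊥
    rw [eq_bot_iff]
    rintro g hg
    obtain ⟨hg1, hg2⟩ := Subgroup.mem_inf.mp hg
    have h1 : g (pt 4) = pt 4 := mem_stabilizer_iff.mp hg2
    obtain ⟨h7, h8⟩ := mem_stabL.mp hg1
    have h6 : g ∈ stabL M24 [23, 0, 1, 2, 3, 4, 5] := by
      refine mem_stabL.mpr ⟨h7, fun b hb => ?_⟩
      by_cases hb4 : b = 4
      · rw [hb4]; exact h1
      · refine h8 b ?_
        revert hb hb4
        revert b
        decide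
    rw [stab_base_trivial] at h6
    exact h6

theorem K0_card : Nat.card K0 = 16 := by
  rw [card_of_chainOK K0 _ K0_chain]
  simp only [chainCard, List.map_cons, List.length_map, List.map_nil, List.prod_cons, List.prod_nil]
  decide +kernel

theorem K0_sq {g : Equiv.Perm GolayPt} (hg : g ∈ K0) : g * g = 1 := by
  obtain ⟨t, ht, rfl⟩ := K0_eq hg
  obtain ⟨ht1, -⟩ := e16_spec ht
  have h2 : mulL t t = idL := by
    simpa using List.all_eq_true.mp e16_sq t ht
  have h3 : isPerm (mulL t t) = true := by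
    rw [h2]
    decide +kernel
  rw [perm_mulL ht1 ht1 h3, h2, perm_idL]

theorem mem_K0_iff (g x : Equiv.Perm GolayPt) (hg : g ∈ M24) :
    x ∈ M24 ⊓ fixingSubgroup (Equiv.Perm GolayPt) ((g • O0 : Finset GolayPt) : Set GolayPt) ↔ g⁻¹ * x * g ∈ K0 := by
  rw [Subgroup.mem_inf, mem_fixingSubgroup_iff, mem_stabL]
  constructor
  · rintro ⟨h1, h2⟩
    refine ⟨M24.mul_mem (M24.mul_mem (M24.inv_mem hg) h1) hg, fun b hb => ?_⟩
    rw [conj_fix_iff]
    apply h2
    have hb' : pt b ∈ O0 := by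
      rw [O0_iff, idx_pt]
      · exact hb
      · revert b
        decide
    exact Finset.mem_coe.mpr (Finset.smul_mem_smul_finset hb')
  · rintro ⟨h1, h2⟩
    constructor
    · have := M24.mul_mem (M24.mul_mem hg h1) (M24.inv_mem hg)
      have e : g * (g⁻¹ * x * g) * g⁻¹ = x := by group
      rwa [e] at this
    · intro y hy
      obtain ⟨z, hz, rfl⟩ := Finset.mem_smul_finset.mp (Finset.mem_coe.mp hy)
      have h3 := h2 (idx z) ((O0_iff z).mp hz)
      rw [pt_idx, conj_fix_iff] at h3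
      exact h3

/-- The pointwise stabiliser of an octad in the group of the length-24 code has order 16 and every element of it squares to the identity. -/
theorem result (o : Finset Cfsg.GolayPt) (ho : o ∈ Cfsg.octads) : Nat.card ↥(Cfsg.M24 ⊓ fixingSubgroup (Equiv.Perm Cfsg.GolayPt) (o : Set Cfsg.GolayPt)) = 16 ∧ ∀ g ∈ Cfsg.M24 ⊓ fixingSubgroup (Equiv.Perm Cfsg.GolayPt) (o : Set Cfsg.GolayPt), g * g = 1 := by
  obtain ⟨⟨g, hg⟩, hgo⟩ := Cfsg.Agent.S0367.result O0 o O0_mem ho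
  have hgo' : g • O0 = o := hgo
  subst hgo'
  constructor
  · rw [← K0_card]
    refine Nat.card_congr ⟨fun a => ⟨g⁻¹ * a.1 * g, (mem_K0_iff g a.1 hg).mp a.2⟩,
      fun b => ⟨g * b.1 * g⁻¹, (mem_K0_iff g _ hg).mpr ?_⟩, fun a => ?_, fun b => ?_⟩
    · have e : g⁻¹ * (g * b.1 * g⁻¹) * g = b.1 := by group
      rw [e]
      exact b.2
    · apply Subtype.ext
      show g * (g⁻¹ * a.1 * g) * g⁻¹ = a.1
      group
    · apply Subtype.ext
      show g⁻¹ * (g * b.1 * g⁻¹) * g = b.1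
      group
  · intro x hx
    have h1 := K0_sq ((mem_K0_iff g x hg).mp hx)
    have h2 : x * x = g * ((g⁻¹ * x * g) * (g⁻¹ * x * g)) * g⁻¹ := by group
    rw [h2, h1]
    group

end Cfsg.Agent.S0381
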