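import Cfsg.Statements.S0413
import Cfsg.Agent.Lib.SteinerU.Two

set_option autoImplicit false
open Cfsg

namespace Cfsg.Agent.S0413

/-- Aut of an S(4, 7, 23) is simple of order 10200960 and 4-transitive. -/
theorem result {α : Type*} [Fintype α] [DecidableEq α] (hα : Fintype.card α = 23) {B : Set (Finset α)} (hB : Cfsg.IsSteinerSystem 4 7 B) : Cfsg.IsM23 (Cfsg.setSystemAut B) ∧ MulAction.IsMultiplyPretransitive (Cfsg.setSystemAut B) α 4 := by
  obtain ⟨j, hj⟩ := Lib.SteinerU.exists_emb_23 hα hB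
  let e := Lib.SteinerU.equivOfRange hj.phiA hj.phiA_inj (Lib.SteinerU.range_23 hj hB)
  refine ⟨⟨?_, ?_⟩, hj.multi_trans hB (by rw [Lib.SteinerU.S1_card]) (by rw [Lib.SteinerU.S1_card])⟩
  · haveI := Lib.Golay.H23_simple
    exact e.isSimpleGroup
  · rw [Nat.card_congr e.toEquiv, Lib.Golay.H23_card]

end Cfsg.Agent.S0413
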