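import Mathlib
import Cfsg.Prelude.Def_SporadicB

set_option autoImplicit false
open Cfsg

namespace Cfsg.Agent.S0439

theorem cube_or_sq {n : ℕ} {σ τ : Equiv.Perm (Fin n)} (hσ : σ.IsSwap) (hτ : τ.IsSwap) :
    (σ * τ) ^ 2 = 1 ∨ (σ * τ) ^ 3 = 1 := by
  obtain ⟨a, b, hab, rfl⟩ := hσ
  obtain ⟨c, d, hcd, rfl⟩ := hτ
  by_cases h1 : a = c
  · subst h1
    by_cases h2 : b = d
    · subst h2
      left
      rw [pow_two]
      simp
    · right
      have := Equiv.Perm.isThreeCycle_swap_mul_swap_same (a := a) (b := b) (c := d) hab hcd h2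
      rw [← this.orderOf]
      exact pow_orderOf_eq_one _
  by_cases h3 : a = d
  · subst h3
    rw [Equiv.swap_comm c a]
    by_cases h2 : b = c
    · subst h2
      left
      rw [pow_two]
      simp
    · right
      have := Equiv.Perm.isThreeCycle_swap_mul_swap_same (a := a) (b := b) (c := c) hab hcd.symm h2
      rw [← this.orderOf]
      exact pow_orderOf_eq_one _
  by_cases h4 : b = c
  · subst h4
    rw [Equiv.swap_comm a b]
    right
    have := Equiv.Perm.isThreeCycle_swap_mul_swap_same (a := b) (b := a) (c := d) hab.symm hcd h3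
    rw [← this.orderOf]
    exact pow_orderOf_eq_one _
  by_cases h5 : b = d
  · subst h5
    rw [Equiv.swap_comm a b, Equiv.swap_comm c b]
    right
    have := Equiv.Perm.isThreeCycle_swap_mul_swap_same (a := b) (b := a) (c := c) hab.symm hcd.symm h1
    rw [← this.orderOf]
    exact pow_orderOf_eq_one _
  · left
    have hdisj : Equiv.Perm.Disjoint (Equiv.swap a b) (Equiv.swap c d) := by
      intro x
      by_cases hxa : x = a
      · subst hxa
        right
        exact Equiv.swap_apply_of_ne_of_ne h1 h3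
      by_cases hxb : x = b
      · subst hxb
        right
        exact Equiv.swap_apply_of_ne_of_ne h4 h5
      · left
        exact Equiv.swap_apply_of_ne_of_ne hxa hxb
    rw [hdisj.commute.mul_pow]
    simp [pow_two]

/-- In the symmetric group of degree n ≥ 2, the set of transpositions is a conjugacy class of 3-transpositions which generates the group. -/
theorem result (n : ℕ) (hn : 2 ≤ n) : Cfsg.IsThreeTranspositionClass {σ : Equiv.Perm (Fin n) | σ.IsSwap} := by
  constructor
  · constructor
    · rintro σ hσ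
      exact hσ.orderOf
    · intro d hd e he
      exact cube_or_sq hd he
  constructor
  · have h0 : (⟨0, by omega⟩ : Fin n) ≠ ⟨1, by omega⟩ := by
      simp [Fin.ext_iff]
    refine ⟨Equiv.swap ⟨0, by omega⟩ ⟨1, by omega⟩, ⟨_, _, h0, rfl⟩, ?_⟩
    ext σ
    constructor
    · rintro ⟨a, b, hab, rfl⟩
      exact Equiv.Perm.isConj_swap h0 hab
    · intro hc
      have hs : (Equiv.swap (⟨0, by omega⟩ : Fin n) ⟨1, by omega⟩).IsSwap := ⟨_, _, h0, rfl⟩
      obtain ⟨c, rfl⟩ := isConj_iff.mp hc
      have := Equiv.swap_apply_apply (c : Equiv.Perm (Fin n)) (⟨0, by omega⟩ : Fin n) ⟨1, by omega⟩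
      rw [← this]
      exact ⟨_, _, fun h => h0 (c.injective h), rfl⟩
  · exact Equiv.Perm.closure_isSwap

end Cfsg.Agent.S0439
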