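import Cfsg.Statements.S0442
import Mathlib

set_option autoImplicit false
open Cfsg

namespace Cfsg.Agent.S0442

/-- A standard trick for producing elements of an involution centraliser: for an involution a and an element g, let b be the conjugate g⁻¹ * a * g. If a * b has odd order 2m + 1 then g * (a * b) ^ m commutes with a; if a * b has even order 2m then (a * b) ^ m and (a * (g * a * g⁻¹)) ^ m commute with a. -/
theorem result {G : Type*} [Group G] (a g : G) (ha : orderOf a = 2) : (∀ m : ℕ, orderOf (a * (g⁻¹ * a * g)) = 2 * m + 1 → Commute (g * (a * (g⁻¹ * a * g)) ^ m) a) ∧ (∀ m : ℕ, orderOf (a * (g⁻¹ * a * g)) = 2 * m → Commute ((a * (g⁻¹ * a * g)) ^ m) a ∧ Commute ((a * (g * a * g⁻¹)) ^ m) a) := by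
  have ha2 : a * a = 1 := by
    have := pow_orderOf_eq_one a
    rw [ha, pow_two] at this; exact this
  have hinv : a⁻¹ = a := by
    rw [inv_eq_iff_mul_eq_one]; exact ha2
  have key : ∀ b : G, b * b = 1 → ∀ k : ℕ, a * (a * b) ^ k * a = ((a * b) ^ k)⁻¹ := by
    intro b hb k
    have hb' : b⁻¹ = b := by rw [inv_eq_iff_mul_eq_one]; exact hb
    have h1 : a * (a * b) * a = (a * b)⁻¹ := by
      rw [mul_inv_rev, hb', hinv]
      calc a * (a * b) * a = (a * a) * b * a := by group
        _ = b * a := by rw [ha2, one_mul]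
    have h2 : a * (a * b) ^ k * a = (a * (a * b) * a) ^ k := by
      have : a * (a * b) ^ k * a = a * (a * b) ^ k * a⁻¹ := by rw [hinv]
      rw [this, ← conj_pow, hinv]
    rw [h2, h1, inv_pow]
  have key' : ∀ b : G, b * b = 1 → ∀ k : ℕ, (a * b) ^ k * a = a * ((a * b) ^ k)⁻¹ := by
    intro b hb k
    rw [← key b hb k]
    calc (a * b) ^ k * a = (a * a) * (a * b) ^ k * a := by rw [ha2, one_mul]
      _ = a * (a * (a * b) ^ k * a) := by group
  have invol : ∀ h : G, (h⁻¹ * a * h) * (h⁻¹ * a * h) = 1 := by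
    intro h
    calc (h⁻¹ * a * h) * (h⁻¹ * a * h) = h⁻¹ * (a * a) * h := by group
      _ = 1 := by rw [ha2]; group
  refine ⟨?_, ?_⟩
  · intro m hm
    set b := g⁻¹ * a * g with hbdef
    have hb := invol g
    rw [← hbdef] at hb
    set u := (a * b) ^ m with hu
    have hord : (a * b) ^ (2 * m + 1) = 1 := by
      rw [← hm]; exact pow_orderOf_eq_one _
    have hu1 : u * u * (a * b) = 1 := by
      rw [← hord, hu, ← pow_add, ← pow_succ]; congr 1; ring
    have hua : u * a = a * u⁻¹ := key' b hb m
    have huinv : u⁻¹ * u⁻¹ = a * b := by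
      have : u * u = (a * b)⁻¹ := eq_inv_of_mul_eq_one_left hu1
      calc u⁻¹ * u⁻¹ = (u * u)⁻¹ := by group
        _ = a * b := by rw [this, inv_inv]
    have h3 : u * a * u⁻¹ = b := by
      rw [hua, mul_assoc, huinv, ← mul_assoc, ha2, one_mul]
    have h4 : g * u * a = a * (g * u) := by
      have : g * (u * a * u⁻¹) * g⁻¹ = a := by
        rw [h3, hbdef]; group
      calc g * u * a = g * (u * a * u⁻¹) * g⁻¹ * (g * u) := by group
        _ = a * (g * u) := by rw [this]
    exact h4
  · intro m hm
    have hb := invol g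
    have part : ∀ b : G, b * b = 1 → orderOf (a * b) = 2 * m → Commute ((a * b) ^ m) a := by
      intro b hb h
      have hord : (a * b) ^ (2 * m) = 1 := by
        rw [← h]; exact pow_orderOf_eq_one _
      have h5 : ((a * b) ^ m)⁻¹ = (a * b) ^ m := by
        rw [inv_eq_iff_mul_eq_one, ← pow_add, ← two_mul]; exact hord
      have := key' b hb m
      rw [h5] at this
      exact this
    refine ⟨part _ hb hm, part _ ?_ ?_⟩
    · have := invol g⁻¹
      simpa using this
    · -- a * (g a g⁻¹) is conjugate to the inverse of a * (g⁻¹ a g)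
      have h6 : g⁻¹ * (a * (g * a * g⁻¹)) * g = (a * (g⁻¹ * a * g))⁻¹ := by
        rw [mul_inv_rev, mul_inv_rev, mul_inv_rev, inv_inv, hinv]
        group
      have h7 : orderOf (g⁻¹ * (a * (g * a * g⁻¹)) * g) = orderOf (a * (g * a * g⁻¹)) := by
        have := orderOf_injective (MulAut.conj g⁻¹).toMonoidHom (MulAut.conj g⁻¹).injective (a * (g * a * g⁻¹))
        simpa [MulAut.conj_apply] using this
      rw [← h7, h6, orderOf_inv, hm]

end Cfsg.Agent.S0442
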