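import Mathlib
import Cfsg.Prelude.Def_SporadicB

set_option autoImplicit false
open Cfsg

namespace Cfsg.Agent.S0443

/-- Two definitions of a 2-central involution agree: an element t of order 2 of a finite group lies in the centre of some Sylow 2-subgroup if and only if its centraliser contains some Sylow 2-subgroup. -/
theorem result {G : Type*} [Group G] [Finite G] (t : G) (ht : orderOf t = 2) : Cfsg.IsTwoCentralInvolution t ↔ ∃ P : Sylow 2 G, (P : Subgroup G) ≤ Subgroup.centralizer ({t} : Set G) := by
  constructor
  · rintro ⟨-, P, -, hP⟩
    refine ⟨P, ?_⟩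
    intro x hx
    rw [Subgroup.mem_centralizer_singleton_iff]
    exact hP x hx
  · rintro ⟨P, hP⟩
    refine ⟨ht, P, ?_, ?_⟩
    · have h2 : IsPGroup 2 (Subgroup.zpowers t) := by
        apply IsPGroup.of_card (n := 1)
        rw [Nat.card_zpowers, ht, pow_one]
      have h3 : t ∈ Subgroup.zpowers t ⊓ Subgroup.normalizer (P : Set G) := by
        refine Subgroup.mem_inf.mpr ⟨Subgroup.mem_zpowers t, Subgroup.mem_normalizer_iff.mpr ?_⟩
        intro x
        have hcomm : ∀ y ∈ (P : Subgroup G), t * y * t⁻¹ = y := by
          intro y hy
          have := hP hy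
          rw [Subgroup.mem_centralizer_singleton_iff] at this
          rw [← this, mul_inv_cancel_right]
        constructor
        · intro hx
          rw [hcomm x hx]
          exact hx
        · intro hx
          have h5 := hcomm _ (show t * x * t⁻¹ ∈ (P : Subgroup G) from hx)
          have h6 : t * x * t⁻¹ = x := by
            have h7 : t * (t * x * t⁻¹) * t⁻¹ = t * x * t⁻¹ := h5
            have h8 : t * (t * x * t⁻¹) = t * x := by
              rw [mul_inv_eq_iff_eq_mul.mp h7]
              group
            exact mul_left_cancel h8
          rwa [h6] at hx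
      rw [IsPGroup.inf_normalizer_sylow h2 P] at h3
      exact (Subgroup.mem_inf.mp h3).2
    · intro x hx
      have := hP hx
      rw [Subgroup.mem_centralizer_singleton_iff] at this
      exact this

end Cfsg.Agent.S0443
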