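import Cfsg.Statements.S2572
import Mathlib
import Cfsg.Agent.Lib.Transv.Count

set_option autoImplicit false
open Cfsg

namespace Cfsg.Agent.S2572


/-- Centraliser of a transvection in GL_n(q), n ≥ 2: if t − 1 has rank one and square zero, the centraliser of t in GL_n(q) has order q^(2n−3) (q − 1) |GL_(n−2)(q)| (a group of order q^(2n−3) extended by GL_1(q) × GL_(n−2)(q)). -/
theorem result {F : Type*} [Field F] [Fintype F] {q n : ℕ} (hF : Fintype.card F = q) (hn : 2 ≤ n) (t : GL (Fin n) F) (ht : Cfsg.IsTransvection (t : Matrix (Fin n) (Fin n) F)) : Nat.card ↥(Subgroup.centralizer ({t} : Set (GL (Fin n) F))) = q ^ (2 * n - 3) * (q - 1) * ∏ i : Fin (n - 2), (q ^ (n - 2) - q ^ (i : ℕ)) := by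
  classical
  obtain ⟨hr, hs⟩ := ht
  obtain ⟨a, b, ha, hb, hM⟩ := Cfsg.Agent.Lib.Classical.exists_vecMulVec_of_rank_one hr
  have hab : b ⬝ᵥ a = 0 := by
    rw [hM, Matrix.vecMulVec_mul_vecMulVec, Matrix.vecMulVec_eq_zero] at hs
    rcases hs with hs | hs
    · exact absurd hs ha
    · rcases smul_eq_zero.1 hs with h1 | h1
      · simpa [MulOpposite.op_eq_zero_iff] using h1
      · exact absurd h1 hb
  let p₀ : Cfsg.Agent.Lib.Transv.PairSet (Fin n) F := ⟨(a, b), ha, hb, hab⟩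
  have ht0 : t = Cfsg.Agent.Lib.Transv.pairTv p₀ := by
    apply Units.ext
    show (t : Matrix (Fin n) (Fin n) F) = 1 + Matrix.vecMulVec a b
    rw [← hM]; abel
  rw [ht0]
  have h1 := Cfsg.Agent.Lib.Transv.card_centralizer_mul p₀
  rw [Cfsg.Agent.Lib.Transv.card_pairSet hF (n := n) (by omega) (by simp), Matrix.card_GL_field, hF] at h1
  have hq2 : 2 ≤ q := by
    rw [← hF]
    exact Fintype.one_lt_card
  obtain ⟨m, rfl⟩ : ∃ m, n = m + 2 := ⟨n - 2, by omega⟩
  have hcard : ∏ i : Fin (m + 2), ((Fintype.card F) ^ (m + 2) - (Fintype.card F) ^ (i : ℕ)) = _ :=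
    Cfsg.Agent.Lib.Transv.prod_card_GL_arith (Fintype.card F) m (by rw [hF]; omega)
  rw [hF] at hcard
  have e1 : m + 2 - 2 = m := by omega
  have e2 : 2 * (m + 2) - 3 = 2 * m + 1 := by omega
  have e3 : m + 2 - 1 = m + 1 := by omega
  rw [e1, e2]
  rw [e3] at h1
  have hne : (q ^ (m + 2) - 1) * (q ^ (m + 1) - 1) ≠ 0 := by
    have h3 : 1 < q ^ (m + 2) := Nat.one_lt_pow (by omega) (by omega)
    have h4 : 1 < q ^ (m + 1) := Nat.one_lt_pow (by omega) (by omega)
    apply Nat.mul_ne_zero <;> omega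
  apply Nat.eq_of_mul_eq_mul_right (Nat.pos_of_ne_zero hne)
  rw [h1]
  have hprod : ∏ i : Fin (m + 2), (q ^ (m + 2) - q ^ (i : ℕ)) = _ := hcard
  simp only [Nat.card_eq_fintype_card] at *
  convert congrArg (· * (q - 1)) hcard using 1
  ring

end Cfsg.Agent.S2572
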