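import Cfsg.Statements.S0445
import Mathlib
import Cfsg.Agent.S2572

set_option autoImplicit false
open Cfsg

namespace Cfsg.Agent.S0445

/-- In the special linear group of dimension 5 over the field with two elements, the centraliser of a transvection has order 21504 = 2 ^ 7 · 168 (it is an extension of an extraspecial group of order 2 ^ 7 by the simple group of order 168). -/
theorem result (s : Matrix.SpecialLinearGroup (Fin 5) (ZMod 2)) (hs : (s : Matrix (Fin 5) (Fin 5) (ZMod 2)) = Matrix.transvection 0 1 1) : Nat.card (Subgroup.centralizer ({s} : Set (Matrix.SpecialLinearGroup (Fin 5) (ZMod 2)))) = 21504 := by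
  classical
  -- the determinant is automatically one
  have hdet : ∀ g : GL (Fin 5) (ZMod 2), Matrix.det (g : Matrix (Fin 5) (Fin 5) (ZMod 2)) = 1 := by
    intro g
    have h1 : IsUnit (Matrix.det (g : Matrix (Fin 5) (Fin 5) (ZMod 2))) := (Matrix.isUnit_iff_isUnit_det _).1 g.isUnit
    generalize Matrix.det (g : Matrix (Fin 5) (Fin 5) (ZMod 2)) = d at h1
    revert h1 d
    decide
  let e : Matrix.SpecialLinearGroup (Fin 5) (ZMod 2) ≃ GL (Fin 5) (ZMod 2) :=
    Equiv.ofBijective Matrix.SpecialLinearGroup.toGL ⟨fun a b h => by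
      apply Subtype.ext
      exact congrArg Units.val h, fun g => ⟨⟨g, hdet g⟩, by ext i j; rfl⟩⟩
  have he : ∀ a b, e (a * b) = e a * e b := fun a b => map_mul Matrix.SpecialLinearGroup.toGL a b
  set t : GL (Fin 5) (ZMod 2) := e s with ht
  have htr : Cfsg.IsTransvection (t : Matrix (Fin 5) (Fin 5) (ZMod 2)) := by
    have h1 : (t : Matrix (Fin 5) (Fin 5) (ZMod 2)) = Matrix.transvection 0 1 1 := hs
    have h2 : (t : Matrix (Fin 5) (Fin 5) (ZMod 2)) - 1 = Matrix.vecMulVec (Pi.single 0 1) (Pi.single 1 1) := by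
      rw [h1]
      ext i j
      fin_cases i <;> fin_cases j <;> simp [Matrix.transvection, Matrix.vecMulVec_apply, Matrix.one_apply, Matrix.single_apply, Pi.single_apply]
    refine ⟨?_, ?_⟩
    · rw [h2]
      apply le_antisymm (Matrix.rank_vecMulVec_le _ _)
      rw [Nat.one_le_iff_ne_zero]
      intro h0
      have h3 : (Matrix.vecMulVec (Pi.single 0 1) (Pi.single 1 1) : Matrix (Fin 5) (Fin 5) (ZMod 2)).mulVecLin = 0 := LinearMap.range_eq_bot.1 (Submodule.finrank_eq_zero.1 h0)
      have h4 := congrFun (congrArg (fun f => f (Pi.single 1 1)) h3) 0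
      simp [Matrix.vecMulVec_apply, Matrix.mulVec, dotProduct, Fin.sum_univ_succ, Pi.single_apply] at h4
    · rw [h2, Matrix.vecMulVec_mul_vecMulVec]
      simp
  have h := Cfsg.Agent.S2572.result (q := 2) (n := 5) (by simp [ZMod.card]) (by norm_num) t htr
  have hc : Nat.card ↥(Subgroup.centralizer ({s} : Set (Matrix.SpecialLinearGroup (Fin 5) (ZMod 2)))) = Nat.card ↥(Subgroup.centralizer ({t} : Set (GL (Fin 5) (ZMod 2)))) := by
    apply Nat.card_congr
    refine Equiv.subtypeEquiv e ?_
    intro a
    rw [Subgroup.mem_centralizer_singleton_iff, Subgroup.mem_centralizer_singleton_iff, ht, ← he, ← he]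
    exact e.injective.eq_iff.symm
  rw [hc, h]
  norm_num [Fin.prod_univ_succ]

end Cfsg.Agent.S0445
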