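import Mathlib
import Cfsg.Prelude.Def_SporadicB

set_option autoImplicit false
open Cfsg

namespace Cfsg.Agent.S0446

/-- Every finite group of even order contains a 2-central involution, i.e. an element of order 2 in the centre of some Sylow 2-subgroup. -/
theorem result {G : Type*} [Group G] [Finite G] (h : Even (Nat.card G)) : ∃ t : G, Cfsg.IsTwoCentralInvolution t := by
  classical
  haveI : Fact (Nat.Prime 2) := ⟨Nat.prime_two⟩
  have h2 : 2 ∣ Nat.card G := even_iff_two_dvd.mp h
  obtain ⟨g, hg⟩ := exists_prime_orderOf_dvd_card' (G := G) 2 h2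
  -- a Sylow subgroup
  let P : Sylow 2 G := default
  have hP : IsPGroup 2 P := P.isPGroup'
  have hnt : Nontrivial P := by
    have h3 : 2 ∣ Nat.card P := by
      have := P.pow_dvd_card_of_pow_dvd_card (n := 1) (by simpa using h2)
      simpa using this
    apply Finite.one_lt_card_iff_nontrivial.mp
    have hpos : 0 < Nat.card P := Nat.card_pos
    have := Nat.le_of_dvd hpos h3
    omega
  haveI := hnt
  have hc : Nontrivial (Subgroup.center P) := hP.center_nontrivial
  have hc2 : 2 ∣ Nat.card (Subgroup.center P) := by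
    have h4 : IsPGroup 2 (Subgroup.center P) := hP.to_subgroup _
    obtain ⟨k, hk⟩ := IsPGroup.iff_card.mp h4
    have h5 : 1 < Nat.card (Subgroup.center P) := Finite.one_lt_card_iff_nontrivial.mpr hc
    rw [hk] at h5 ⊢
    rcases k with _ | k
    · simp at h5
    · exact dvd_pow_self 2 (Nat.succ_ne_zero k)
  obtain ⟨z, hz⟩ := exists_prime_orderOf_dvd_card' (G := Subgroup.center P) 2 hc2
  refine ⟨((z : P) : G), ?_, P, (z : P).2, ?_⟩
  · rw [Subgroup.orderOf_coe, Subgroup.orderOf_coe, hz]
  · intro x hx
    have h6 := (Subgroup.mem_center_iff.mp z.2) ⟨x, hx⟩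
    have h7 := congrArg Subtype.val h6
    exact h7

end Cfsg.Agent.S0446
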