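import Mathlib
import Cfsg.Prelude.Def_SporadicB
import Cfsg.Agent.S0443

set_option autoImplicit false
open Cfsg

namespace Cfsg.Agent.S0481

open scoped Pointwise in
theorem sylow_conj_aux {G : Type*} [Group G] [Finite G] (S P' : Sylow 2 G) [Fact (Nat.Prime 2)] :
    ∃ g : G, (∀ u ∈ (P' : Subgroup G), g⁻¹ * u * g ∈ (S : Subgroup G)) ∧
      (∀ x ∈ (S : Subgroup G), g * x * g⁻¹ ∈ (P' : Subgroup G)) := by
  obtain ⟨g, hg⟩ := MulAction.exists_smul_eq G S P'
  have hP' : (P' : Subgroup G) = MulAut.conj g • (S : Subgroup G) := by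
    rw [← hg]
    rfl
  refine ⟨g, fun u hu => ?_, fun x hx => ?_⟩
  · rw [hP', Subgroup.mem_pointwise_smul_iff_inv_smul_mem, MulAut.smul_def] at hu
    simpa using hu
  · rw [hP', Subgroup.mem_pointwise_smul_iff_inv_smul_mem, MulAut.smul_def]
    simpa [mul_assoc] using hx

/-- Large extraspecial subgroups: let z be an involution of a finite group G whose centraliser C contains a normal 2-subgroup Q with centre of order 2 and all squares central, such that every element of G centralising Q lies in Q. Then C contains a Sylow 2-subgroup of G, and any involution of G whose centraliser contains a Sylow 2-subgroup of G is conjugate to z. -/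
theorem result {G : Type*} [Group G] [Finite G] (z : G) (hz : orderOf z = 2) (Q : Subgroup G) (hQC : Q ≤ Subgroup.centralizer ({z} : Set G)) (hQn : ∀ g ∈ Subgroup.centralizer ({z} : Set G), ∀ q ∈ Q, g * q * g⁻¹ ∈ Q) (hQ2 : IsPGroup 2 Q) (hZ : Nat.card (Subgroup.center Q) = 2) (hsq : ∀ x : Q, x ^ 2 ∈ Subgroup.center Q) (hlarge : Subgroup.centralizer (Q : Set G) ≤ Q) : (∃ P : Sylow 2 G, (P : Subgroup G) ≤ Subgroup.centralizer ({z} : Set G)) ∧ ∀ u : G, orderOf u = 2 → (∃ P : Sylow 2 G, (P : Subgroup G) ≤ Subgroup.centralizer ({u} : Set G)) → IsConj z u := by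
  classical
  haveI : Fact (Nat.Prime 2) := ⟨Nat.prime_two⟩
  -- `z` lies in `Q`, in the centre
  have hzQ : z ∈ Q := by
    apply hlarge
    rw [Subgroup.mem_centralizer_iff]
    intro q hq
    have := hQC hq
    rw [Subgroup.mem_centralizer_singleton_iff] at this
    exact this
  have hz1 : z ≠ 1 := by
    rintro rfl
    rw [orderOf_one] at hz
    omega
  obtain ⟨S, hQS⟩ := hQ2.exists_le_sylow
  have hzc : (⟨z, hzQ⟩ : Q) ∈ Subgroup.center Q := by
    rw [Subgroup.mem_center_iff]
    intro q
    have := hQC q.2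
    rw [Subgroup.mem_centralizer_singleton_iff] at this
    exact Subtype.ext this
  -- elements of `Z(S)` are `1` or `z`
  have hZS : ∀ y ∈ (S : Subgroup G), (∀ x ∈ (S : Subgroup G), x * y = y * x) → y = 1 ∨ y = z := by
    intro y hy hc
    have hyQ : y ∈ Q := by
      apply hlarge
      rw [Subgroup.mem_centralizer_iff]
      intro q hq
      exact hc q (hQS hq)
    have hyc : (⟨y, hyQ⟩ : Q) ∈ Subgroup.center Q := by
      rw [Subgroup.mem_center_iff]
      intro q
      exact Subtype.ext (hc q (hQS q.2))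
    by_cases hy1 : y = 1
    · exact Or.inl hy1
    right
    obtain ⟨a, b, hab, huniv⟩ := Nat.card_eq_two_iff.mp hZ
    have h1 : ∀ v : Subgroup.center Q, v = a ∨ v = b := by
      intro v
      have : v ∈ ({a, b} : Set (Subgroup.center Q)) := by rw [huniv]; trivial
      simpa using this
    have hone : ∀ v : Subgroup.center Q, ((v : Q) : G) = 1 → v = 1 := by
      intro v hv
      exact Subtype.ext (Subtype.ext hv)
    have key : ∀ v w : Subgroup.center Q, v ≠ 1 → w ≠ 1 → v = w := by
      intro v w hv hw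
      have h3 : (1 : Subgroup.center Q) = a ∨ (1 : Subgroup.center Q) = b := h1 1
      rcases h3 with h3 | h3 <;> rcases h1 v with h4 | h4 <;> rcases h1 w with h5 | h5 <;>
        first
        | exact (hv (h4.trans h3.symm)).elim
        | exact (hw (h5.trans h3.symm)).elim
        | exact h4.trans h5.symm
    have h6 := key ⟨⟨y, hyQ⟩, hyc⟩ ⟨⟨z, hzQ⟩, hzc⟩
      (fun h => hy1 (congrArg (fun v : Subgroup.center Q => ((v : Q) : G)) h))
      (fun h => hz1 (congrArg (fun v : Subgroup.center Q => ((v : Q) : G)) h))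
    exact congrArg (fun v : Subgroup.center Q => ((v : Q) : G)) h6
  have hzS : z ∈ (S : Subgroup G) := hQS hzQ
  have hzcent : ∀ x ∈ (S : Subgroup G), x * z = z * x := by
    -- the centre of `S` is nontrivial
    have hntS : Nontrivial S := by
      refine ⟨⟨⟨z, hzS⟩, 1, ?_⟩⟩
      intro h
      exact hz1 (congrArg Subtype.val h)
    have hp : IsPGroup 2 S := S.isPGroup'
    have hc : Nontrivial (Subgroup.center S) := hp.center_nontrivial
    obtain ⟨y, hy⟩ := exists_ne (1 : Subgroup.center S)
    have hy0 : ((y : S) : G) ≠ 1 := by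
      intro h
      exact hy (Subtype.ext (Subtype.ext h))
    have hyc : ∀ x ∈ (S : Subgroup G), x * ((y : S) : G) = ((y : S) : G) * x := by
      intro x hx
      have := (Subgroup.mem_center_iff.mp y.2) ⟨x, hx⟩
      exact congrArg Subtype.val this
    rcases hZS _ (y : S).2 hyc with h | h
    · exact (hy0 h).elim
    · rw [← h]
      exact hyc
  refine ⟨⟨S, ?_⟩, ?_⟩
  · intro x hx
    rw [Subgroup.mem_centralizer_singleton_iff]
    exact hzcent x hx
  · rintro u hu ⟨P, hP⟩
    obtain ⟨-, P', huP', hcP'⟩ := (Cfsg.Agent.S0443.result u hu).mpr ⟨P, hP⟩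
    obtain ⟨g, hg1, hg2⟩ := sylow_conj_aux S P'
    have h1 : g⁻¹ * u * g ∈ (S : Subgroup G) := hg1 u huP'
    have h2 : ∀ x ∈ (S : Subgroup G), x * (g⁻¹ * u * g) = (g⁻¹ * u * g) * x := by
      intro x hx
      have h3 : g * x * g⁻¹ ∈ (P' : Subgroup G) := hg2 x hx
      have h4 := hcP' _ h3
      calc x * (g⁻¹ * u * g) = g⁻¹ * ((g * x * g⁻¹) * u) * g := by group
        _ = g⁻¹ * (u * (g * x * g⁻¹)) * g := by rw [h4]
        _ = (g⁻¹ * u * g) * x := by group
    rcases hZS _ h1 h2 with h | h
    · exfalso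
      have hu1 : u = 1 := by
        have : u = g * (g⁻¹ * u * g) * g⁻¹ := by group
        rw [this, h]
        group
      rw [hu1, orderOf_one] at hu
      omega
    · rw [isConj_comm, isConj_iff]
      exact ⟨g⁻¹, by rw [inv_inv]; exact h⟩

end Cfsg.Agent.S0481
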