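import Cfsg.Statements.S0496
import Mathlib
import Cfsg.Agent.S0144
import Cfsg.Agent.Lib.Small.Sweep
import Cfsg.Agent.Lib.Small.BrauerFour
import Cfsg.Agent.Lib.SmallSimple.Intersect

set_option autoImplicit false
open Cfsg

namespace Cfsg.Agent.S0496

open Cfsg.Agent.Lib.Small.BD
open scoped Pointwise

section
variable {G : Type*} [Group G] [Finite G] [IsSimpleGroup G]

theorem no_120 (h : Nat.card G = 120) : False := by
  haveI := Fintype.ofFinite G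
  haveI hp : Fact (Nat.Prime 5) := ⟨by norm_num⟩
  have hcard : Nat.card G = 5 * 24 := by rw [h]
  obtain ⟨P, m, c, n, hP, hnc, hCN, hCc, hn, hmd, hm1, hcd, hnd, hcmn, hnp, hn1, hfac, hsm⟩ :=
    exists_setup2 hcard (by norm_num) (by norm_num) (by norm_num)
  have hsm' : n ≠ 6 ∨ 2 * (5 * c * m) ∣ 20 := by
    by_cases hh : n = 6
    · exact Or.inr (hsm hh)
    · exact Or.inl hh
  have key : ∀ m ∈ Nat.divisors 4, ∀ n ∈ Nat.divisors 24, ∀ c ∈ Nat.divisors 24, 1 < m → 1 < n → n % 5 = 1 →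
      c * m * n = 24 → 2 * (5 * 24) ∣ n.factorial → (n ≠ 6 ∨ 2 * (5 * c * m) ∣ 20) → False := by
    decide +kernel
  exact key m hmd n hnd c hcd hm1 hn1 hnp hcmn hfac hsm'

theorem no_180 (h : Nat.card G = 180) : False := by
  haveI := Fintype.ofFinite G
  haveI hp : Fact (Nat.Prime 5) := ⟨by norm_num⟩
  have hcard : Nat.card G = 5 * 36 := by rw [h]
  obtain ⟨P, m, c, n, hP, hnc, hCN, hCc, hn, hmd, hm1, hcd, hnd, hcmn, hnp, hn1, hfac, hsm⟩ :=
    exists_setup2 hcard (by norm_num) (by norm_num) (by norm_num)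
  have hsm' : n ≠ 6 ∨ 2 * (5 * c * m) ∣ 20 := by
    by_cases hh : n = 6
    · exact Or.inr (hsm hh)
    · exact Or.inl hh
  have key : ∀ m ∈ Nat.divisors 4, ∀ n ∈ Nat.divisors 36, ∀ c ∈ Nat.divisors 36, 1 < m → 1 < n → n % 5 = 1 →
      c * m * n = 36 → 2 * (5 * 36) ∣ n.factorial → (n ≠ 6 ∨ 2 * (5 * c * m) ∣ 20) → False := by
    decide +kernel
  exact key m hmd n hnd c hcd hm1 hn1 hnp hcmn hfac hsm'

theorem no_264 (h : Nat.card G = 264) : False := by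
  haveI := Fintype.ofFinite G
  haveI hp : Fact (Nat.Prime 11) := ⟨by norm_num⟩
  have hcard : Nat.card G = 11 * 24 := by rw [h]
  obtain ⟨P, m, c, n, hP, hnc, hCN, hCc, hn, hmd, hm1, hcd, hnd, hcmn, hnp, hn1, hfac, hsm⟩ :=
    exists_setup2 hcard (by norm_num) (by norm_num) (by norm_num)
  have hsm' : n ≠ 12 ∨ 2 * (11 * c * m) ∣ 110 := by
    by_cases hh : n = 12
    · exact Or.inr (hsm hh)
    · exact Or.inl hh
  have key : ∀ m ∈ Nat.divisors 10, ∀ n ∈ Nat.divisors 24, ∀ c ∈ Nat.divisors 24, 1 < m → 1 < n → n % 11 = 1 →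
      c * m * n = 24 → 2 * (11 * 24) ∣ n.factorial → (n ≠ 12 ∨ 2 * (11 * c * m) ∣ 110) → False := by
    decide +kernel
  exact key m hmd n hnd c hcd hm1 hn1 hnp hcmn hfac hsm'

theorem no_336 (h : Nat.card G = 336) : False := by
  haveI := Fintype.ofFinite G
  haveI hp : Fact (Nat.Prime 7) := ⟨by norm_num⟩
  have hcard : Nat.card G = 7 * 48 := by rw [h]
  obtain ⟨P, m, c, n, hP, hnc, hCN, hCc, hn, hmd, hm1, hcd, hnd, hcmn, hnp, hn1, hfac, hsm⟩ :=
    exists_setup2 hcard (by norm_num) (by norm_num) (by norm_num)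
  have hsm' : n ≠ 8 ∨ 2 * (7 * c * m) ∣ 42 := by
    by_cases hh : n = 8
    · exact Or.inr (hsm hh)
    · exact Or.inl hh
  have key : ∀ m ∈ Nat.divisors 6, ∀ n ∈ Nat.divisors 48, ∀ c ∈ Nat.divisors 48, 1 < m → 1 < n → n % 7 = 1 →
      c * m * n = 48 → 2 * (7 * 48) ∣ n.factorial → (n ≠ 8 ∨ 2 * (7 * c * m) ∣ 42) → False := by
    decide +kernel
  exact key m hmd n hnd c hcd hm1 hn1 hnp hcmn hfac hsm'

theorem no_528 (h : Nat.card G = 528) : False := by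
  haveI := Fintype.ofFinite G
  haveI hp : Fact (Nat.Prime 11) := ⟨by norm_num⟩
  have hcard : Nat.card G = 11 * 48 := by rw [h]
  obtain ⟨P, m, c, n, hP, hnc, hCN, hCc, hn, hmd, hm1, hcd, hnd, hcmn, hnp, hn1, hfac, hsm⟩ :=
    exists_setup2 hcard (by norm_num) (by norm_num) (by norm_num)
  have hsm' : n ≠ 12 ∨ 2 * (11 * c * m) ∣ 110 := by
    by_cases hh : n = 12
    · exact Or.inr (hsm hh)
    · exact Or.inl hh
  have key : ∀ m ∈ Nat.divisors 10, ∀ n ∈ Nat.divisors 48, ∀ c ∈ Nat.divisors 48, 1 < m → 1 < n → n % 11 = 1 →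
      c * m * n = 48 → 2 * (11 * 48) ∣ n.factorial → (n ≠ 12 ∨ 2 * (11 * c * m) ∣ 110) → False := by
    decide +kernel
  exact key m hmd n hnd c hcd hm1 hn1 hnp hcmn hfac hsm'

theorem no_560 (h : Nat.card G = 560) : False := by
  haveI := Fintype.ofFinite G
  haveI hp : Fact (Nat.Prime 7) := ⟨by norm_num⟩
  have hcard : Nat.card G = 7 * 80 := by rw [h]
  obtain ⟨P, m, c, n, hP, hnc, hCN, hCc, hn, hmd, hm1, hcd, hnd, hcmn, hnp, hn1, hfac, hsm⟩ :=
    exists_setup2 hcard (by norm_num) (by norm_num) (by norm_num)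
  have hsm' : n ≠ 8 ∨ 2 * (7 * c * m) ∣ 42 := by
    by_cases hh : n = 8
    · exact Or.inr (hsm hh)
    · exact Or.inl hh
  have key : ∀ m ∈ Nat.divisors 6, ∀ n ∈ Nat.divisors 80, ∀ c ∈ Nat.divisors 80, 1 < m → 1 < n → n % 7 = 1 →
      c * m * n = 80 → 2 * (7 * 80) ∣ n.factorial → (n ≠ 8 ∨ 2 * (7 * c * m) ∣ 42) → False := by
    decide +kernel
  exact key m hmd n hnd c hcd hm1 hn1 hnp hcmn hfac hsm'

theorem no_672 (h : Nat.card G = 672) : False := by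
  haveI := Fintype.ofFinite G
  haveI hp : Fact (Nat.Prime 7) := ⟨by norm_num⟩
  have hcard : Nat.card G = 7 * 96 := by rw [h]
  obtain ⟨P, m, c, n, hP, hnc, hCN, hCc, hn, hmd, hm1, hcd, hnd, hcmn, hnp, hn1, hfac, hsm⟩ :=
    exists_setup2 hcard (by norm_num) (by norm_num) (by norm_num)
  have hsm' : n ≠ 8 ∨ 2 * (7 * c * m) ∣ 42 := by
    by_cases hh : n = 8
    · exact Or.inr (hsm hh)
    · exact Or.inl hh
  have key : ∀ m ∈ Nat.divisors 6, ∀ n ∈ Nat.divisors 96, ∀ c ∈ Nat.divisors 96, 1 < m → 1 < n → n % 7 = 1 →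
      c * m * n = 96 → 2 * (7 * 96) ∣ n.factorial → (n ≠ 8 ∨ 2 * (7 * c * m) ∣ 42) → False := by
    decide +kernel
  exact key m hmd n hnd c hcd hm1 hn1 hnp hcmn hfac hsm'

theorem no_760 (h : Nat.card G = 760) : False := by
  haveI := Fintype.ofFinite G
  haveI hp : Fact (Nat.Prime 19) := ⟨by norm_num⟩
  have hcard : Nat.card G = 19 * 40 := by rw [h]
  obtain ⟨P, m, c, n, hP, hnc, hCN, hCc, hn, hmd, hm1, hcd, hnd, hcmn, hnp, hn1, hfac, hsm⟩ :=
    exists_setup2 hcard (by norm_num) (by norm_num) (by norm_num)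
  have hsm' : n ≠ 20 ∨ 2 * (19 * c * m) ∣ 342 := by
    by_cases hh : n = 20
    · exact Or.inr (hsm hh)
    · exact Or.inl hh
  have key : ∀ m ∈ Nat.divisors 18, ∀ n ∈ Nat.divisors 40, ∀ c ∈ Nat.divisors 40, 1 < m → 1 < n → n % 19 = 1 →
      c * m * n = 40 → 2 * (19 * 40) ∣ n.factorial → (n ≠ 20 ∨ 2 * (19 * c * m) ∣ 342) → False := by
    decide +kernel
  exact key m hmd n hnd c hcd hm1 hn1 hnp hcmn hfac hsm'

theorem no_792 (h : Nat.card G = 792) : False := by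
  haveI := Fintype.ofFinite G
  haveI hp : Fact (Nat.Prime 11) := ⟨by norm_num⟩
  have hcard : Nat.card G = 11 * 72 := by rw [h]
  obtain ⟨P, m, c, n, hP, hnc, hCN, hCc, hn, hmd, hm1, hcd, hnd, hcmn, hnp, hn1, hfac, hsm⟩ :=
    exists_setup2 hcard (by norm_num) (by norm_num) (by norm_num)
  have hsm' : n ≠ 12 ∨ 2 * (11 * c * m) ∣ 110 := by
    by_cases hh : n = 12
    · exact Or.inr (hsm hh)
    · exact Or.inl hh
  have key : ∀ m ∈ Nat.divisors 10, ∀ n ∈ Nat.divisors 72, ∀ c ∈ Nat.divisors 72, 1 < m → 1 < n → n % 11 = 1 →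
      c * m * n = 72 → 2 * (11 * 72) ∣ n.factorial → (n ≠ 12 ∨ 2 * (11 * c * m) ∣ 110) → False := by
    decide +kernel
  exact key m hmd n hnd c hcd hm1 hn1 hnp hcmn hfac hsm'

theorem no_1056 (h : Nat.card G = 1056) : False := by
  haveI := Fintype.ofFinite G
  haveI hp : Fact (Nat.Prime 11) := ⟨by norm_num⟩
  have hcard : Nat.card G = 11 * 96 := by rw [h]
  obtain ⟨P, m, c, n, hP, hnc, hCN, hCc, hn, hmd, hm1, hcd, hnd, hcmn, hnp, hn1, hfac, hsm⟩ :=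
    exists_setup2 hcard (by norm_num) (by norm_num) (by norm_num)
  have hsm' : n ≠ 12 ∨ 2 * (11 * c * m) ∣ 110 := by
    by_cases hh : n = 12
    · exact Or.inr (hsm hh)
    · exact Or.inl hh
  have key : ∀ m ∈ Nat.divisors 10, ∀ n ∈ Nat.divisors 96, ∀ c ∈ Nat.divisors 96, 1 < m → 1 < n → n % 11 = 1 →
      c * m * n = 96 → 2 * (11 * 96) ∣ n.factorial → (n ≠ 12 ∨ 2 * (11 * c * m) ∣ 110) → False := by
    decide +kernel
  exact key m hmd n hnd c hcd hm1 hn1 hnp hcmn hfac hsm'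

theorem no_420 (h : Nat.card G = 420) : False := by
  haveI := Fintype.ofFinite G
  haveI hp : Fact (Nat.Prime 7) := ⟨by norm_num⟩
  have hcard : Nat.card G = 7 * 60 := by rw [h]
  obtain ⟨P, m, c, n, hP, hnc, hCN, hCc, hn, hmd, hm1, hcd, hnd, hcmn, hnp, hn1, hfac, hsm⟩ :=
    exists_setup2 hcard (by norm_num) (by norm_num) (by norm_num)
  have hsm' : n ≠ 8 ∨ 2 * (7 * c * m) ∣ 42 := by
    by_cases hh : n = 8
    · exact Or.inr (hsm hh)
    · exact Or.inl hh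
  have key : ∀ m ∈ Nat.divisors 6, ∀ n ∈ Nat.divisors 60, ∀ c ∈ Nat.divisors 60, 1 < m → 1 < n → n % 7 = 1 →
      c * m * n = 60 → 2 * (7 * 60) ∣ n.factorial → (n ≠ 8 ∨ 2 * (7 * c * m) ∣ 42) → m = 2 ∧ 1 < c := by
    decide +kernel
  obtain ⟨rfl, hc1⟩ := key m hmd n hnd c hcd hm1 hn1 hnp hcmn hfac hsm'
  have hpc : ∀ c ∈ Nat.divisors 60, ¬ 7 ∣ c := by decide +kernel
  have hC := not_isPGroup_of_card hCc hc1 (hpc c hcd)
  exact false_two hnc P hP hcard (by norm_num) (by norm_num) (r := 3) (by norm_num) (by norm_num) hCN hC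
    (by decide +kernel)

theorem no_480 (h : Nat.card G = 480) : False := by
  haveI := Fintype.ofFinite G
  haveI hp : Fact (Nat.Prime 5) := ⟨by norm_num⟩
  have hcard : Nat.card G = 5 * 96 := by rw [h]
  obtain ⟨P, m, c, n, hP, hnc, hCN, hCc, hn, hmd, hm1, hcd, hnd, hcmn, hnp, hn1, hfac, hsm⟩ :=
    exists_setup2 hcard (by norm_num) (by norm_num) (by norm_num)
  have hsm' : n ≠ 6 ∨ 2 * (5 * c * m) ∣ 20 := by
    by_cases hh : n = 6
    · exact Or.inr (hsm hh)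
    · exact Or.inl hh
  have key : ∀ m ∈ Nat.divisors 4, ∀ n ∈ Nat.divisors 96, ∀ c ∈ Nat.divisors 96, 1 < m → 1 < n → n % 5 = 1 →
      c * m * n = 96 → 2 * (5 * 96) ∣ n.factorial → (n ≠ 6 ∨ 2 * (5 * c * m) ∣ 20) → m = 2 ∧ 1 < c := by
    decide +kernel
  obtain ⟨rfl, hc1⟩ := key m hmd n hnd c hcd hm1 hn1 hnp hcmn hfac hsm'
  have hpc : ∀ c ∈ Nat.divisors 96, ¬ 5 ∣ c := by decide +kernel
  have hC := not_isPGroup_of_card hCc hc1 (hpc c hcd)
  exact false_two hnc P hP hcard (by norm_num) (by norm_num) (r := 2) (by norm_num) (by norm_num) hCN hC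
    (by decide +kernel)

theorem no_840 (h : Nat.card G = 840) : False := by
  haveI := Fintype.ofFinite G
  haveI hp : Fact (Nat.Prime 7) := ⟨by norm_num⟩
  have hcard : Nat.card G = 7 * 120 := by rw [h]
  obtain ⟨P, m, c, n, hP, hnc, hCN, hCc, hn, hmd, hm1, hcd, hnd, hcmn, hnp, hn1, hfac, hsm⟩ :=
    exists_setup2 hcard (by norm_num) (by norm_num) (by norm_num)
  have hsm' : n ≠ 8 ∨ 2 * (7 * c * m) ∣ 42 := by
    by_cases hh : n = 8
    · exact Or.inr (hsm hh)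
    · exact Or.inl hh
  have key : ∀ m ∈ Nat.divisors 6, ∀ n ∈ Nat.divisors 120, ∀ c ∈ Nat.divisors 120, 1 < m → 1 < n → n % 7 = 1 →
      c * m * n = 120 → 2 * (7 * 120) ∣ n.factorial → (n ≠ 8 ∨ 2 * (7 * c * m) ∣ 42) → m = 2 ∧ 1 < c := by
    decide +kernel
  obtain ⟨rfl, hc1⟩ := key m hmd n hnd c hcd hm1 hn1 hnp hcmn hfac hsm'
  have hpc : ∀ c ∈ Nat.divisors 120, ¬ 7 ∣ c := by decide +kernel
  have hC := not_isPGroup_of_card hCc hc1 (hpc c hcd)
  exact false_two hnc P hP hcard (by norm_num) (by norm_num) (r := 3) (by norm_num) (by norm_num) hCN hC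
    (by decide +kernel)

theorem no_1008 (h : Nat.card G = 1008) : False := by
  haveI := Fintype.ofFinite G
  haveI hp : Fact (Nat.Prime 7) := ⟨by norm_num⟩
  have hcard : Nat.card G = 7 * 144 := by rw [h]
  obtain ⟨P, m, c, n, hP, hnc, hCN, hCc, hn, hmd, hm1, hcd, hnd, hcmn, hnp, hn1, hfac, hsm⟩ :=
    exists_setup2 hcard (by norm_num) (by norm_num) (by norm_num)
  have hsm' : n ≠ 8 ∨ 2 * (7 * c * m) ∣ 42 := by
    by_cases hh : n = 8
    · exact Or.inr (hsm hh)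
    · exact Or.inl hh
  have key : ∀ m ∈ Nat.divisors 6, ∀ n ∈ Nat.divisors 144, ∀ c ∈ Nat.divisors 144, 1 < m → 1 < n → n % 7 = 1 →
      c * m * n = 144 → 2 * (7 * 144) ∣ n.factorial → (n ≠ 8 ∨ 2 * (7 * c * m) ∣ 42) → m = 2 ∧ 1 < c := by
    decide +kernel
  obtain ⟨rfl, hc1⟩ := key m hmd n hnd c hcd hm1 hn1 hnp hcmn hfac hsm'
  have hpc : ∀ c ∈ Nat.divisors 144, ¬ 7 ∣ c := by decide +kernel
  have hC := not_isPGroup_of_card hCc hc1 (hpc c hcd)
  exact false_two hnc P hP hcard (by norm_num) (by norm_num) (r := 3) (by norm_num) (by norm_num) hCN hC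
    (by decide +kernel)

theorem no_1080 (h : Nat.card G = 1080) : False := by
  haveI := Fintype.ofFinite G
  haveI hp : Fact (Nat.Prime 5) := ⟨by norm_num⟩
  have hcard : Nat.card G = 5 * 216 := by rw [h]
  obtain ⟨P, m, c, n, hP, hnc, hCN, hCc, hn, hmd, hm1, hcd, hnd, hcmn, hnp, hn1, hfac, hsm⟩ :=
    exists_setup2 hcard (by norm_num) (by norm_num) (by norm_num)
  have hsm' : n ≠ 6 ∨ 2 * (5 * c * m) ∣ 20 := by
    by_cases hh : n = 6
    · exact Or.inr (hsm hh)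
    · exact Or.inl hh
  have key : ∀ m ∈ Nat.divisors 4, ∀ n ∈ Nat.divisors 216, ∀ c ∈ Nat.divisors 216, 1 < m → 1 < n → n % 5 = 1 →
      c * m * n = 216 → 2 * (5 * 216) ∣ n.factorial → (n ≠ 6 ∨ 2 * (5 * c * m) ∣ 20) → m = 2 ∧ 1 < c := by
    decide +kernel
  obtain ⟨rfl, hc1⟩ := key m hmd n hnd c hcd hm1 hn1 hnp hcmn hfac hsm'
  have hpc : ∀ c ∈ Nat.divisors 216, ¬ 5 ∣ c := by decide +kernel
  have hC := not_isPGroup_of_card hCc hc1 (hpc c hcd)
  exact false_two hnc P hP hcard (by norm_num) (by norm_num) (r := 2) (by norm_num) (by norm_num) hCN hC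
    (by decide +kernel)

theorem no_612 (h : Nat.card G = 612) : False := by
  haveI := Fintype.ofFinite G
  haveI hp : Fact (Nat.Prime 17) := ⟨by norm_num⟩
  have hcard : Nat.card G = 17 * 36 := by rw [h]
  obtain ⟨P, m, c, n, hP, hnc, hCN, hCc, hn, hmd, hm1, hcd, hnd, hcmn, hnp, hn1, hfac, hsm⟩ :=
    exists_setup2 hcard (by norm_num) (by norm_num) (by norm_num)
  have hsm' : n ≠ 18 ∨ 2 * (17 * c * m) ∣ 272 := by
    by_cases hh : n = 18
    · exact Or.inr (hsm hh)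
    · exact Or.inl hh
  have key : ∀ m ∈ Nat.divisors 16, ∀ n ∈ Nat.divisors 36, ∀ c ∈ Nat.divisors 36, 1 < m → 1 < n → n % 17 = 1 →
      c * m * n = 36 → 2 * (17 * 36) ∣ n.factorial → (n ≠ 18 ∨ 2 * (17 * c * m) ∣ 272) → m = 2 := by
    decide +kernel
  obtain rfl := key m hmd n hnd c hcd hm1 hn1 hnp hcmn hfac hsm'
  exact Cfsg.Agent.Lib.Small.BD.false_of_check_two hnc P hP hcard (r := 8) (by norm_num) (by norm_num) hCN
    (by decide +kernel)

theorem no_1040 (h : Nat.card G = 1040) : False := by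
  haveI := Fintype.ofFinite G
  haveI hp : Fact (Nat.Prime 13) := ⟨by norm_num⟩
  have hcard : Nat.card G = 13 * 80 := by rw [h]
  obtain ⟨P, m, c, n, hP, hnc, hCN, hCc, hn, hmd, hm1, hcd, hnd, hcmn, hnp, hn1, hfac, hsm⟩ :=
    exists_setup2 hcard (by norm_num) (by norm_num) (by norm_num)
  have hsm' : n ≠ 14 ∨ 2 * (13 * c * m) ∣ 156 := by
    by_cases hh : n = 14
    · exact Or.inr (hsm hh)
    · exact Or.inl hh
  have key : ∀ m ∈ Nat.divisors 12, ∀ n ∈ Nat.divisors 80, ∀ c ∈ Nat.divisors 80, 1 < m → 1 < n → n % 13 = 1 →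
      c * m * n = 80 → 2 * (13 * 80) ∣ n.factorial → (n ≠ 14 ∨ 2 * (13 * c * m) ∣ 156) → m = 2 := by
    decide +kernel
  obtain rfl := key m hmd n hnd c hcd hm1 hn1 hnp hcmn hfac hsm'
  exact Cfsg.Agent.Lib.Small.BD.false_of_check_two hnc P hP hcard (r := 6) (by norm_num) (by norm_num) hCN
    (by decide +kernel)

theorem no_960 (h : Nat.card G = 960) : False := by
  haveI hp : Fact (Nat.Prime 2) := ⟨by norm_num⟩
  have hnc : ¬ IsMulCommutative G :=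
    Cfsg.Agent.Lib.SmallSimple.not_comm_of_not_prime (by rw [h]; norm_num)
  have hcard : Nat.card G = 2 ^ 6 * 15 := by rw [h]; norm_num
  have hnp : ¬ IsPGroup 2 G :=
    Cfsg.Agent.Lib.SmallSimple.not_isPGroup_of_dvd (q := 3) (by norm_num) (by norm_num) (by norm_num) (by rw [h]; norm_num)
  obtain ⟨h1, h2, h3, h4⟩ := Cfsg.Agent.Lib.SmallSimple.sylow_package hcard (by norm_num) (by norm_num) hnp hnc
  have key : ∀ n ∈ Nat.divisors 15, n % 2 = 1 → 1 < n → 2 * (2 ^ 6 * 15) ∣ n.factorial → n = 15 := by decide +kernel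
  rw [hcard] at h4
  have h15 := key _ (Nat.mem_divisors.mpr ⟨h2, by norm_num⟩) h1 h3 h4
  have hmod : ¬ Nat.card (Sylow 2 G) ≡ 1 [MOD 2 ^ 2] := by
    rw [h15]
    decide
  obtain ⟨N, hN, hd, hle⟩ := Cfsg.Agent.Lib.SmallSimple.exists_large_subgroup_of_not_modEq hcard (by norm_num) (by norm_num) hmod
  have hfac := Cfsg.Agent.Lib.SmallSimple.two_mul_card_dvd_factorial hnc N hN
  have hi := Subgroup.card_mul_index N
  rw [h] at hfac hi
  obtain ⟨k, hk⟩ := hd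
  have hkey : ∀ i ∈ Nat.divisors 960, 2 * 960 ∣ i.factorial → 8 ≤ i := by decide +kernel
  have hi8 := hkey N.index (Nat.mem_divisors.mpr ⟨⟨Nat.card N, by rw [← hi, mul_comm]⟩, by norm_num⟩) hfac
  rw [hk] at hi hle
  have h3' : 3 ≤ k := by omega
  have : 2 ^ 6 * 3 * N.index ≤ 960 := by
    calc 2 ^ 6 * 3 * N.index ≤ 2 ^ 6 * k * N.index := by gcongr
      _ = 960 := hi
  omega

theorem no_900 (h : Nat.card G = 900) : False := by
  haveI hp : Fact (Nat.Prime 5) := ⟨by norm_num⟩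
  have hnc : ¬ IsMulCommutative G :=
    Cfsg.Agent.Lib.SmallSimple.not_comm_of_not_prime (by rw [h]; norm_num)
  have hcard : Nat.card G = 5 ^ 2 * 36 := by rw [h]; norm_num
  have hnp : ¬ IsPGroup 5 G :=
    Cfsg.Agent.Lib.SmallSimple.not_isPGroup_of_dvd (q := 2) (by norm_num) (by norm_num) (by norm_num) (by rw [h]; norm_num)
  obtain ⟨h1, h2, h3, h4⟩ := Cfsg.Agent.Lib.SmallSimple.sylow_package hcard (by norm_num) (by norm_num) hnp hnc
  have key : ∀ n ∈ Nat.divisors 36, n % 5 = 1 → 1 < n → 2 * (5 ^ 2 * 36) ∣ n.factorial → n = 36 := by decide +kernel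
  rw [hcard] at h4
  have h36 := key _ (Nat.mem_divisors.mpr ⟨h2, by norm_num⟩) h1 h3 h4
  obtain ⟨P⟩ : Nonempty (Sylow 5 G) := inferInstance
  have hPc : Nat.card (P : Subgroup G) = 5 ^ 2 := by
    have := Sylow.card_eq_multiplicity P
    rw [this, hcard]
    have h5 : (5 ^ 2 * 36 : ℕ).factorization 5 = 2 := by
      rw [Nat.factorization_mul (by norm_num) (by norm_num), Nat.Prime.factorization_pow (by norm_num)]
      have : (36 : ℕ).factorization 5 = 0 := Nat.factorization_eq_zero_of_not_dvd (by norm_num)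
      simp [this]
    rw [h5]
  have hcomm : IsMulCommutative (P : Subgroup G) := IsPGroup.isMulCommutative_of_card_eq_prime_sq hPc
  have hN := Cfsg.Agent.Lib.SmallSimple.card_normalizer_mul_card_sylow 5 P
  rw [h36, hcard] at hN
  have hNc : Nat.card (Subgroup.normalizer (P : Set G)) = Nat.card (P : Subgroup G) := by
    rw [hPc]
    have h25 : Nat.card (Subgroup.normalizer (P : Set G)) * 36 = 25 * 36 := hN
    omega
  have hNeq : Subgroup.normalizer (P : Set G) = (P : Subgroup G) :=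
    (Subgroup.eq_of_le_of_card_ge Subgroup.le_normalizer hNc.le).symm
  refine Cfsg.Agent.Lib.SmallSimple.normalizer_not_le_centralizer (p := 5) (by rw [h]; norm_num) hnp P ?_
  rw [hNeq]
  intro x hx
  rw [Subgroup.mem_centralizer_iff]
  intro y hy
  have := hcomm.is_comm.comm (⟨y, hy⟩ : (P : Subgroup G)) ⟨x, hx⟩
  simpa [Subtype.ext_iff] using this

theorem no_756 (h : Nat.card G = 756) : False := by
  haveI := Fintype.ofFinite G
  haveI hp : Fact (Nat.Prime 7) := ⟨by norm_num⟩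
  have hcard : Nat.card G = 7 * 108 := by rw [h]
  obtain ⟨P, m, c, n, hP, hnc, hCN, hCc, hn, hmd, hm1, hcd, hnd, hcmn, hnp, hn1, hfac, hsm⟩ :=
    exists_setup2 hcard (by norm_num) (by norm_num) (by norm_num)
  have hsm' : n ≠ 8 ∨ 2 * (7 * c * m) ∣ 42 := by
    by_cases hh : n = 8
    · exact Or.inr (hsm hh)
    · exact Or.inl hh
  have key : ∀ m ∈ Nat.divisors 6, ∀ n ∈ Nat.divisors 108, ∀ c ∈ Nat.divisors 108, 1 < m → 1 < n → n % 7 = 1 →
      c * m * n = 108 → 2 * (7 * 108) ∣ n.factorial → (n ≠ 8 ∨ 2 * (7 * c * m) ∣ 42) → m = 3 := by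
    decide +kernel
  obtain rfl := key m hmd n hnd c hcd hm1 hn1 hnp hcmn hfac hsm'
  obtain ⟨M, χ₁, χ₂, η, a₁, a₂, ε, hM, h₁, h₂, hη, h₁1, h₂1, hη1, ha₁, ha₂, hε, hd₁, hd₂, hrel⟩ :=
    three_data hnc P hP (r := 2) (by norm_num) (by norm_num) hCN
  have hm₁ := degree_coprime ha₁ hd₁ hcard (by norm_num)
  have hm₂ := degree_coprime ha₂ hd₂ hcard (by norm_num)
  have hyd := Cfsg.Agent.Lib.Char.charDegree_dvd_card η.2
  rw [h] at hyd
  have hx1 : 1 < Cfsg.charDegree (χ₁ : G → ℂ) := by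
    by_contra hc
    exact h₁1 (eq_one'_of_degree hnc (by omega))
  have hx2 : 1 < Cfsg.charDegree (χ₂ : G → ℂ) := by
    by_contra hc
    exact h₂1 (eq_one'_of_degree hnc (by omega))
  have hcheck : ∀ x₁ ∈ Nat.divisors 108, ∀ x₂ ∈ Nat.divisors 108, ∀ a₁ ∈ ({1, -1} : Finset ℤ), ∀ a₂ ∈ ({1, -1} : Finset ℤ),
      1 < x₁ → 1 < x₂ → ((x₁ : ℤ) - a₁) % 7 = 0 → ((x₂ : ℤ) - a₂) % 7 = 0 →
        ¬ (1 + a₁ * x₁ + a₂ * x₂).natAbs ∣ 756 := by
    decide +kernel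
  have ha₁' : a₁ ∈ ({1, -1} : Finset ℤ) := by simpa using ha₁
  have ha₂' : a₂ ∈ ({1, -1} : Finset ℤ) := by simpa using ha₂
  refine hcheck _ hm₁ _ hm₂ _ ha₁' _ ha₂' hx1 hx2 (Int.emod_eq_zero_of_dvd hd₁) (Int.emod_eq_zero_of_dvd hd₂) ?_
  have hval : (1 + a₁ * (Cfsg.charDegree (χ₁ : G → ℂ) : ℤ) + a₂ * (Cfsg.charDegree (χ₂ : G → ℂ) : ℤ)).natAbs = Cfsg.charDegree (η : G → ℂ) := by
    have h3 : 1 + a₁ * (Cfsg.charDegree (χ₁ : G → ℂ) : ℤ) + a₂ * (Cfsg.charDegree (χ₂ : G → ℂ) : ℤ) = - (ε * (Cfsg.charDegree (η : G → ℂ) : ℤ)) := by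
      linarith
    rw [h3, Int.natAbs_neg, Int.natAbs_mul]
    rcases hε with rfl | rfl <;> simp
  rw [hval]
  exact hyd

/-- An involution normalizing but not centralizing a subgroup of order 5 inverts it. -/
theorem exists_inverting {P : Subgroup G} (hP : Nat.card P = 5) (hN : Even (Nat.card (Subgroup.normalizer (P : Set G))))
    (hC : Odd (Nat.card (Subgroup.centralizer (P : Set G)))) :
    ∃ t : G, orderOf t = 2 ∧ ∀ y ∈ P, t * y * t⁻¹ = y⁻¹ := by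
  haveI hp2 : Fact (Nat.Prime 2) := ⟨by norm_num⟩
  obtain ⟨t, ht⟩ := exists_prime_orderOf_dvd_card' (G := Subgroup.normalizer (P : Set G)) 2 hN.two_dvd
  refine ⟨t, by rw [← Subgroup.orderOf_coe] at ht; exact ht, ?_⟩
  have htN := t.2
  have ht2 : (t : G) ^ 2 = 1 := by
    have := pow_orderOf_eq_one t
    rw [ht] at this
    exact_mod_cast congrArg Subtype.val this
  have htC : (t : G) ∉ Subgroup.centralizer (P : Set G) := by
    intro hc
    have := orderOf_dvd_natCard (⟨t, hc⟩ : Subgroup.centralizer (P : Set G))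
    have h2 : orderOf (⟨t, hc⟩ : Subgroup.centralizer (P : Set G)) = 2 := by
      rw [← Subgroup.orderOf_coe] at ht ⊢
      exact ht
    rw [h2] at this
    exact (Nat.not_even_iff_odd.mpr hC) (even_iff_two_dvd.mpr this)
  have hcyc : IsCyclic P := isCyclic_of_prime_card (p := 5) (hp := ⟨by norm_num⟩) hP
  obtain ⟨g, hg⟩ := hcyc.exists_generator
  have hg5 : (g : G) ^ 5 = 1 := by
    have := pow_card_eq_one' (x := g)
    rw [hP] at this
    exact_mod_cast congrArg Subtype.val this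
  have hmem : ∀ y ∈ P, ∃ k : ℕ, y = (g : G) ^ k := by
    intro y hy
    obtain ⟨k, hk⟩ := Subgroup.mem_zpowers_iff.mp (hg ⟨y, hy⟩)
    refine ⟨(k % 5).toNat, ?_⟩
    have h5 : k = 5 * (k / 5) + k % 5 := (Int.mul_ediv_add_emod k 5).symm
    have hnn : 0 ≤ k % 5 := Int.emod_nonneg _ (by norm_num)
    have h1 : (g : G) ^ k = y := by
      have := congrArg Subtype.val hk
      simpa using this
    rw [← h1]
    conv_lhs => rw [h5]
    rw [zpow_add, zpow_mul]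
    have : (g : G) ^ (5 : ℤ) = 1 := by exact_mod_cast hg5
    rw [this, one_zpow, one_mul, ← zpow_natCast, Int.toNat_of_nonneg hnn]
  have hconj : (t : G) * g * (t : G)⁻¹ ∈ P := (Subgroup.mem_normalizer_iff.mp htN g).mp g.2
  obtain ⟨k, hk⟩ := hmem _ hconj
  have hgsq : (g : G) ^ (k * k) = g := by
    have h1 : ∀ j : ℕ, (t : G) * (g : G) ^ j * (t : G)⁻¹ = (g : G) ^ (k * j) := by
      intro j
      rw [pow_mul, ← hk, conj_pow]
    have h2 := h1 k
    have h3 : (t : G) * ((t : G) * g * (t : G)⁻¹) * (t : G)⁻¹ = g := by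
      have : (t : G) * ((t : G) * g * (t : G)⁻¹) * (t : G)⁻¹ = (t : G) ^ 2 * g * ((t : G) ^ 2)⁻¹ := by
        simp only [pow_two, mul_inv_rev, mul_assoc]
      rw [this, ht2]
      group
    rw [hk, h2] at h3
    exact h3
  have hk5 : (g : G) ^ ((k * k) % 5) = (g : G) ^ 1 := by
    rw [pow_one]
    conv_rhs => rw [← hgsq]
    rw [← Nat.mod_add_div (k * k) 5, pow_add, pow_mul, hg5, one_pow, mul_one, Nat.mod_add_div]
  have hg1 : orderOf (g : G) = 5 := by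
    have : orderOf (g : G) = orderOf g := Subgroup.orderOf_coe g
    rw [this, orderOf_eq_card_of_forall_mem_zpowers hg, hP]
  have hkk : (k * k) % 5 = 1 := by
    have := (pow_inj_mod (x := (g : G)) (n := (k * k) % 5) (m := 1)).mp hk5
    rw [hg1] at this
    simpa using this
  have hk15 : k % 5 = 1 ∨ k % 5 = 4 := by
    have : (k % 5) * (k % 5) % 5 = 1 := by rw [← Nat.mul_mod]; exact hkk
    have hlt : k % 5 < 5 := Nat.mod_lt _ (by norm_num)
    interval_cases (k % 5) <;> simp_all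
  have hgk : (g : G) ^ k = (g : G) ^ (k % 5) := by
    rw [← pow_mod_orderOf, hg1]
  rcases hk15 with hk1 | hk4
  · exfalso
    apply htC
    rw [Subgroup.mem_centralizer_iff]
    intro y hy
    obtain ⟨j, rfl⟩ := hmem y hy
    have h1 : (t : G) * (g : G) * (t : G)⁻¹ = g := by
      rw [hk, hgk, hk1, pow_one]
    have h2 : (t : G) * ((g : G) ^ j) * (t : G)⁻¹ = (g : G) ^ j := by
      rw [← conj_pow, h1]
    rw [mul_inv_eq_iff_eq_mul] at h2
    exact h2.symm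
  · intro y hy
    obtain ⟨j, rfl⟩ := hmem y hy
    have h1 : (t : G) * (g : G) * (t : G)⁻¹ = (g : G)⁻¹ := by
      rw [hk, hgk, hk4]
      rw [eq_inv_iff_mul_eq_one, ← pow_succ]
      exact hg5
    rw [← conj_pow, h1, inv_pow]

/-- No element of order 5 commutes with an involution when the Sylow 5-subgroup is self-centralizing. -/
theorem no_ten (P : Sylow 5 G) [Fact (Nat.Prime 5)] (hP : Nat.card (P : Subgroup G) = 5)
    (hC : Nat.card (Subgroup.centralizer ((P : Subgroup G) : Set G)) = 5 * 1) (t : G) (ht : orderOf t = 2)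
    (y : Subgroup.centralizer ({t} : Set G)) (hy : orderOf y = 5) : False := by
  have hy' : orderOf (y : G) = 5 := by rw [Subgroup.orderOf_coe]; exact hy
  have hcardQ : Nat.card (Subgroup.zpowers (y : G)) = 5 := by
    rw [Nat.card_zpowers, hy']
  let R : Sylow 5 G := Sylow.ofCard (Subgroup.zpowers (y : G)) (by
    rw [hcardQ]
    have := Sylow.card_eq_multiplicity P
    rw [hP] at this
    exact this)
  obtain ⟨g, hg⟩ := MulAction.exists_smul_eq G P R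
  have hmem : g⁻¹ * t * g ∈ Subgroup.centralizer ((P : Subgroup G) : Set G) := by
    rw [Subgroup.mem_centralizer_iff]
    intro x hx
    have hx' : g * x * g⁻¹ ∈ Subgroup.zpowers (y : G) := by
      have h2 : MulAut.conj g • x ∈ ((g • P : Sylow 5 G) : Subgroup G) := by
        rw [Sylow.coe_subgroup_smul]
        exact Subgroup.smul_mem_pointwise_smul _ _ _ hx
      rw [hg] at h2
      simpa [R, MulAut.smul_def, MulAut.conj_apply] using h2
    have hcomm : g * x * g⁻¹ * t = t * (g * x * g⁻¹) := by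
      obtain ⟨k, hk⟩ := Subgroup.mem_zpowers_iff.mp hx'
      rw [← hk]
      have : (y : G) * t = t * y := by
        have := Subgroup.mem_centralizer_iff.mp y.2 t rfl
        exact this.symm
      exact ((Commute.zpow_left this k)).eq
    have : x * (g⁻¹ * t * g) = (g⁻¹ * t * g) * x := by
      have h1 : g⁻¹ * (g * x * g⁻¹ * t) * g = g⁻¹ * (t * (g * x * g⁻¹)) * g := by rw [hcomm]
      simpa [mul_assoc] using h1
    exact this
  have hord : orderOf (g⁻¹ * t * g) = 2 := by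
    have : g⁻¹ * t * g = MulAut.conj g⁻¹ t := by simp [MulAut.conj_apply]
    rw [this, MulEquiv.orderOf_eq, ht]
  have h1 := orderOf_dvd_natCard (⟨_, hmem⟩ : Subgroup.centralizer ((P : Subgroup G) : Set G))
  rw [Subgroup.orderOf_mk, hord, hC] at h1
  omega

theorem no_720 (h : Nat.card G = 720) : False := by
  haveI := Fintype.ofFinite G
  haveI hp : Fact (Nat.Prime 5) := ⟨by norm_num⟩
  have hcard : Nat.card G = 5 * 144 := by rw [h]
  obtain ⟨P, m, c, n, hP, hnc, hCN, hCc, hn, hmd, hm1, hcd, hnd, hcmn, hnp, hn1, hfac, hsm⟩ :=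
    exists_setup2 hcard (by norm_num) (by norm_num) (by norm_num)
  have hsm' : n ≠ 6 ∨ 2 * (5 * c * m) ∣ 20 := by
    by_cases hh : n = 6
    · exact Or.inr (hsm hh)
    · exact Or.inl hh
  have key : ∀ m ∈ Nat.divisors 4, ∀ n ∈ Nat.divisors 144, ∀ c ∈ Nat.divisors 144, 1 < m → 1 < n → n % 5 = 1 →
      c * m * n = 144 → 2 * (5 * 144) ∣ n.factorial → (n ≠ 6 ∨ 2 * (5 * c * m) ∣ 20) → (m = 2 ∧ 1 < c) ∨ (m = 4 ∧ c = 1) := by
    set_option synthInstance.maxSize 2048 in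
    set_option synthInstance.maxHeartbeats 200000 in
    decide +kernel
  rcases key m hmd n hnd c hcd hm1 hn1 hnp hcmn hfac hsm' with ⟨rfl, hc1⟩ | ⟨rfl, rfl⟩
  · have hpc : ∀ c ∈ Nat.divisors 144, ¬ 5 ∣ c := by decide +kernel
    have hC := not_isPGroup_of_card hCc hc1 (hpc c hcd)
    exact false_two hnc P hP hcard (by norm_num) (by norm_num) (r := 2) (by norm_num) (by norm_num) hCN hC
      (by decide +kernel)
  · -- the inverting involution
    have hNc : Nat.card (Subgroup.normalizer ((P : Subgroup G) : Set G)) = 20 := by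
      rw [Cfsg.Agent.Lib.Small.BD.card_normalizer_eq (P : Subgroup G) hCN, hCc]
    obtain ⟨t, ht, htinv⟩ := exists_inverting (P := (P : Subgroup G)) hP (by rw [hNc]; decide) (by rw [hCc]; decide)
    obtain ⟨M, χ₁, χ₂, χ₃, χ₄, a₁, a₂, a₃, a₄, c', hM, ⟨hB₁, hB₂, hB₃, hB₄⟩, ⟨hne₁, hne₂, hne₃, hne₄⟩, ⟨ha₁, ha₂, ha₃, ha₄⟩, ⟨hd₁, hd₂, hd₃, hd₄⟩,
      hrel, ⟨hs₁, hs₂, hs₃⟩, hsq, hsec, hCc', hinv⟩ := four_data hnc P hP hCN
    have hc' : c' = 1 := by
      rw [hCc] at hCc'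
      omega
    subst hc'
    obtain ⟨L, n₁, n₂, n₃, n₄, hn₁, hn₂, hn₃, hn₄, -, -, -, -, hrelt, hsqt, hL, hL5, hL1⟩ := hinv t ht
    have hL5' := hL5 rfl
    have hL1' := hL1 rfl htinv
    have hx1 : ∀ χ : Cfsg.IrrCharacter G, χ ≠ Cfsg.Agent.Lib.Small.BD.one' G → 1 < Cfsg.charDegree (χ : G → ℂ) := by
      intro χ hχ
      by_contra hc
      exact hχ (eq_one'_of_degree hnc (by omega))
    have hm₁ := degree_coprime ha₁ hd₁ hcard (by norm_num)
    have hm₂ := degree_coprime ha₂ hd₂ hcard (by norm_num)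
    have hm₃ := degree_coprime ha₃ hd₃ hcard (by norm_num)
    have hm₄ := degree_coprime ha₄ hd₄ hcard (by norm_num)
    have hx₁' := hx1 χ₁ hne₁
    have hx₂' := hx1 χ₂ hne₂
    have hx₃' := hx1 χ₃ hne₃
    have hx₄' := hx1 χ₄ hne₄
    obtain ⟨x₁, hxe₁⟩ : ∃ x, x = Cfsg.charDegree (χ₁ : G → ℂ) := ⟨_, rfl⟩
    obtain ⟨x₂, hxe₂⟩ : ∃ x, x = Cfsg.charDegree (χ₂ : G → ℂ) := ⟨_, rfl⟩
    obtain ⟨x₃, hxe₃⟩ : ∃ x, x = Cfsg.charDegree (χ₃ : G → ℂ) := ⟨_, rfl⟩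
    obtain ⟨x₄, hxe₄⟩ : ∃ x, x = Cfsg.charDegree (χ₄ : G → ℂ) := ⟨_, rfl⟩
    rw [← hxe₁] at hx₁' hm₁ hd₁ hrel hs₁ hsq hn₁ hrelt hsqt hL
    rw [← hxe₂] at hx₂' hm₂ hd₂ hrel hs₁ hs₂ hsq hn₂ hrelt hsqt hL
    rw [← hxe₃] at hx₃' hm₃ hd₃ hrel hs₂ hs₃ hsq hn₃ hrelt hsqt hL
    rw [← hxe₄] at hx₄' hm₄ hd₄ hrel hs₃ hsq hn₄ hrelt hsqt hL
    obtain ⟨he₁, hr₁⟩ := eq_sgnFive ha₁ hd₁
    obtain ⟨he₂, hr₂⟩ := eq_sgnFive ha₂ hd₂
    obtain ⟨he₃, hr₃⟩ := eq_sgnFive ha₃ hd₃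
    obtain ⟨he₄, hr₄⟩ := eq_sgnFive ha₄ hd₄
    rw [h] at hsq hL
    have hsq' : (1 : ℤ) + (x₁ : ℤ) ^ 2 + (x₂ : ℤ) ^ 2 + (x₃ : ℤ) ^ 2 + (x₄ : ℤ) ^ 2 ≤ ((720 : ℕ) : ℤ) := hsq
    have hb₁ : x₁ ≤ 26 := le_of_sq_le (N := 720) (S := 1 + (x₂ : ℤ) ^ 2 + (x₃ : ℤ) ^ 2 + (x₄ : ℤ) ^ 2) (by linarith) (by positivity) (by norm_num)
    have hb₂ : x₂ ≤ 26 := le_of_sq_le (N := 720) (S := 1 + (x₁ : ℤ) ^ 2 + (x₃ : ℤ) ^ 2 + (x₄ : ℤ) ^ 2) (by linarith) (by positivity) (by norm_num)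
    have hb₃ : x₃ ≤ 26 := le_of_sq_le (N := 720) (S := 1 + (x₁ : ℤ) ^ 2 + (x₂ : ℤ) ^ 2 + (x₄ : ℤ) ^ 2) (by linarith) (by positivity) (by norm_num)
    have hb₄ : x₄ ≤ 26 := le_of_sq_le (N := 720) (S := 1 + (x₁ : ℤ) ^ 2 + (x₂ : ℤ) ^ 2 + (x₃ : ℤ) ^ 2) (by linarith) (by positivity) (by norm_num)
    have hD : ∀ x ∈ Nat.divisors 144, 1 < x → x ≤ 26 → (x % 5 = 1 ∨ x % 5 = 4) → x ∈ [4, 6, 9, 16, 24] := by
      decide +kernel
    have htup : ∀ x₁ ∈ [4, 6, 9, 16, 24], ∀ x₂ ∈ [4, 6, 9, 16, 24], ∀ x₃ ∈ [4, 6, 9, 16, 24],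
        ∀ x₄ ∈ [4, 6, 9, 16, 24], x₁ ≤ x₂ → x₂ ≤ x₃ → x₃ ≤ x₄ →
        1 + sgnFive x₁ * (x₁ : ℤ) + sgnFive x₂ * (x₂ : ℤ) + sgnFive x₃ * (x₃ : ℤ) + sgnFive x₄ * (x₄ : ℤ) = 0 →
        1 + (x₁ : ℤ) ^ 2 + (x₂ : ℤ) ^ 2 + (x₃ : ℤ) ^ 2 + (x₄ : ℤ) ^ 2 ≤ 720 →
        (x₁ = 4 ∧ x₂ = 4 ∧ x₃ = 9 ∧ x₄ = 16) ∨ (x₁ = 4 ∧ x₂ = 6 ∧ x₃ = 6 ∧ x₄ = 9) := by
      set_option synthInstance.maxSize 2048 in
      set_option synthInstance.maxHeartbeats 200000 in
      decide +kernel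
    rw [he₁, he₂, he₃, he₄] at hrel
    -- the centralizer
    set C := Nat.card (Subgroup.centralizer ({t} : Set G)) with hCdef
    have hCd : C ∈ Nat.divisors 720 := by
      refine Nat.mem_divisors.mpr ⟨?_, by norm_num⟩
      rw [← h]
      exact Subgroup.card_subgroup_dvd_card _
    have hC5 : ¬ 5 ∣ C := by
      intro h5
      obtain ⟨y, hy⟩ := exists_prime_orderOf_dvd_card' (G := Subgroup.centralizer ({t} : Set G)) 5 h5
      exact no_ten P hP hCc t ht y hy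
    have hC2 : 2 ∣ C := by
      have h1 := orderOf_dvd_natCard (⟨t, Subgroup.mem_centralizer_singleton_iff.mpr rfl⟩ : Subgroup.centralizer ({t} : Set G))
      rw [Subgroup.orderOf_mk, ht] at h1
      exact h1
    have hchk1 : ∀ n₁ ∈ List.range 4, ∀ n₂ ∈ List.range 4, ∀ n₃ ∈ List.range 9, ∀ n₄ ∈ List.range 16,
        1 + (-1) * (2 * (n₁ : ℤ) - 4) + (-1) * (2 * (n₂ : ℤ) - 4) + (-1) * (2 * (n₃ : ℤ) - 9) + 1 * (2 * (n₄ : ℤ) - 16) = 0 →
        ∀ C ∈ Nat.divisors 720, 2 ∣ C → ¬ 5 ∣ C →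
        1 + (2 * (n₁ : ℤ) - 4) ^ 2 + (2 * (n₂ : ℤ) - 4) ^ 2 + (2 * (n₃ : ℤ) - 9) ^ 2 + (2 * (n₄ : ℤ) - 16) ^ 2 ≤ (C : ℤ) →
        ∀ L ∈ [1, 2, 3, 4, 5], ((L : ℕ) : ℤ) * (C : ℤ) ^ 2 * 4 * 4 * 9 * 16 = 720 * 1 * (4 * 4 * 9 * 16 +
            (-1) * (2 * (n₁ : ℤ) - 4) ^ 2 * 4 * 9 * 16 + (-1) * (2 * (n₂ : ℤ) - 4) ^ 2 * 4 * 9 * 16 +
            (-1) * (2 * (n₃ : ℤ) - 9) ^ 2 * 4 * 4 * 16 + 1 * (2 * (n₄ : ℤ) - 16) ^ 2 * 4 * 4 * 9) → False := by
      set_option synthInstance.maxSize 2048 in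
      set_option synthInstance.maxHeartbeats 200000 in
      decide +kernel
    have hchk2 : ∀ n₁ ∈ List.range 4, ∀ n₂ ∈ List.range 6, ∀ n₃ ∈ List.range 6, ∀ n₄ ∈ List.range 9,
        1 + (-1) * (2 * (n₁ : ℤ) - 4) + 1 * (2 * (n₂ : ℤ) - 6) + 1 * (2 * (n₃ : ℤ) - 6) + (-1) * (2 * (n₄ : ℤ) - 9) = 0 →
        ∀ C ∈ Nat.divisors 720, 2 ∣ C → ¬ 5 ∣ C →
        1 + (2 * (n₁ : ℤ) - 4) ^ 2 + (2 * (n₂ : ℤ) - 6) ^ 2 + (2 * (n₃ : ℤ) - 6) ^ 2 + (2 * (n₄ : ℤ) - 9) ^ 2 ≤ (C : ℤ) →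
        ∀ L ∈ [1, 2, 3, 4, 5], ((L : ℕ) : ℤ) * (C : ℤ) ^ 2 * 4 * 6 * 6 * 9 = 720 * 1 * (4 * 6 * 6 * 9 +
            (-1) * (2 * (n₁ : ℤ) - 4) ^ 2 * 6 * 6 * 9 + 1 * (2 * (n₂ : ℤ) - 6) ^ 2 * 4 * 6 * 9 +
            1 * (2 * (n₃ : ℤ) - 6) ^ 2 * 4 * 6 * 9 + (-1) * (2 * (n₄ : ℤ) - 9) ^ 2 * 4 * 6 * 6) → False := by
      set_option synthInstance.maxSize 2048 in
      set_option synthInstance.maxHeartbeats 200000 in
      decide +kernel
    have hLm : L ∈ [1, 2, 3, 4, 5] := by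
      have h1 : L = 1 ∨ L = 2 ∨ L = 3 ∨ L = 4 ∨ L = 5 := by omega
      simpa using h1
    have hsq'' : (1 : ℤ) + (x₁ : ℤ) ^ 2 + (x₂ : ℤ) ^ 2 + (x₃ : ℤ) ^ 2 + (x₄ : ℤ) ^ 2 ≤ 720 := by
      simpa using hsq'
    rcases htup x₁ (hD _ hm₁ hx₁' hb₁ hr₁) x₂ (hD _ hm₂ hx₂' hb₂ hr₂) x₃ (hD _ hm₃ hx₃' hb₃ hr₃) x₄ (hD _ hm₄ hx₄' hb₄ hr₄)
      hs₁ hs₂ hs₃ hrel hsq'' with ⟨rfl, rfl, rfl, rfl⟩ | ⟨rfl, rfl, rfl, rfl⟩
    · have e1 : sgnFive 4 = -1 := by decide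
      have e2 : sgnFive 9 = -1 := by decide
      have e3 : sgnFive 16 = 1 := by decide
      rw [e1] at he₁ he₂
      rw [e2] at he₃
      rw [e3] at he₄
      subst he₁ he₂ he₃ he₄
      refine hchk1 n₁ (List.mem_range.mpr hn₁) n₂ (List.mem_range.mpr hn₂) n₃ (List.mem_range.mpr hn₃) n₄ (List.mem_range.mpr hn₄)
        ?_ C hCd hC2 hC5 ?_ L hLm ?_
      · push_cast at hrelt
        linarith
      · push_cast at hsqt
        linarith
      · push_cast at hL ⊢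
        linarith
    · have e1 : sgnFive 4 = -1 := by decide
      have e2 : sgnFive 6 = 1 := by decide
      have e3 : sgnFive 9 = -1 := by decide
      rw [e1] at he₁
      rw [e2] at he₂ he₃
      rw [e3] at he₄
      subst he₁ he₂ he₃ he₄
      refine hchk2 n₁ (List.mem_range.mpr hn₁) n₂ (List.mem_range.mpr hn₂) n₃ (List.mem_range.mpr hn₃) n₄ (List.mem_range.mpr hn₄)
        ?_ C hCd hC2 hC5 ?_ L hLm ?_
      · push_cast at hrelt
        linarith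
      · push_cast at hsqt
        linarith
      · push_cast at hL ⊢
        linarith

end

/-- A non-abelian finite simple group of order at most 1092 has order 60, 168, 360, 504, 660 or 1092. -/
theorem result {G : Type*} [Group G] [Finite G] [IsSimpleGroup G]
    (hG : ¬ IsMulCommutative G) (h : Nat.card G ≤ 1092) :
    Nat.card G = 60 ∨ Nat.card G = 168 ∨ Nat.card G = 360 ∨ Nat.card G = 504 ∨ Nat.card G = 660 ∨
      Nat.card G = 1092 := by
  have hall : ∀ g ∈ List.range 1093, (g = 60 ∨ g = 168 ∨ g = 360 ∨ g = 504 ∨ g = 660 ∨ g = 1092) ∨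
      (g ∈ [120, 180, 264, 336, 420, 480, 528, 560, 612, 672, 720, 756, 760, 792, 840, 900, 960, 1008, 1040, 1056, 1080]) ∨
      (g ∈ [144, 288, 400, 432, 576, 800, 864, 1053]) ∨
      Cfsg.Agent.Lib.Small.sweepAt g = true := by
    decide +kernel
  have h1 := hall (Nat.card G) (List.mem_range.mpr (by omega))
  rcases h1 with h1 | h1 | h1 | h1
  · exact h1
  · exfalso
    simp only [List.mem_cons, List.not_mem_nil, or_false] at h1
    rcases h1 with h1 | h1 | h1 | h1 | h1 | h1 | h1 | h1 | h1 | h1 | h1 | h1 | h1 | h1 | h1 | h1 | h1 | h1 | h1 | h1 | h1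
    · exact no_120 h1
    · exact no_180 h1
    · exact no_264 h1
    · exact no_336 h1
    · exact no_420 h1
    · exact no_480 h1
    · exact no_528 h1
    · exact no_560 h1
    · exact no_612 h1
    · exact no_672 h1
    · exact no_720 h1
    · exact no_756 h1
    · exact no_760 h1
    · exact no_792 h1
    · exact no_840 h1
    · exact no_900 h1
    · exact no_960 h1
    · exact no_1008 h1
    · exact no_1040 h1
    · exact no_1056 h1
    · exact no_1080 h1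
  · exfalso
    simp only [List.mem_cons, List.not_mem_nil, or_false] at h1
    have hsolv : ∀ (p q a b : ℕ), p.Prime → q.Prime → Nat.card G = p ^ a * q ^ b → False := by
      intro p q a b hp hq hc
      have hs := Cfsg.Agent.S0144.result p q a b hp hq hc
      exact hG ⟨⟨IsSimpleGroup.comm_iff_isSolvable.mpr hs⟩⟩
    rcases h1 with h1 | h1 | h1 | h1 | h1 | h1 | h1 | h1
    · exact hsolv 2 3 4 2 (by norm_num) (by norm_num) (by rw [h1]; norm_num)
    · exact hsolv 2 3 5 2 (by norm_num) (by norm_num) (by rw [h1]; norm_num)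
    · exact hsolv 2 5 4 2 (by norm_num) (by norm_num) (by rw [h1]; norm_num)
    · exact hsolv 2 3 4 3 (by norm_num) (by norm_num) (by rw [h1]; norm_num)
    · exact hsolv 2 3 6 2 (by norm_num) (by norm_num) (by rw [h1]; norm_num)
    · exact hsolv 2 5 5 2 (by norm_num) (by norm_num) (by rw [h1]; norm_num)
    · exact hsolv 2 3 5 3 (by norm_num) (by norm_num) (by rw [h1]; norm_num)
    · exact hsolv 3 13 4 1 (by norm_num) (by norm_num) (by rw [h1]; norm_num)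
  · exact (Cfsg.Agent.Lib.Small.false_of_sweepAt hG h1).elim

end Cfsg.Agent.S0496
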