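import Cfsg.Statements.S0502
import Mathlib
import Cfsg.Agent.Lib.Invol.Four
import Cfsg.Agent.Lib.Basic.Nilpotent

set_option autoImplicit false
open Cfsg

namespace Cfsg.Agent.S0502

open Cfsg.Agent.Lib.Invol

/-- the commuting relation -/
private abbrev RR (P : Type*) [Group P] : Subgroup P → Subgroup P → Prop :=
  fun A B : Subgroup P => IsKleinFour A ∧ IsKleinFour B ∧ ∀ a ∈ A, ∀ b ∈ B, a * b = b * a

/-- If a finite 2-group has a normal elementary abelian subgroup of order at least 8, then any two of its Klein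
four-subgroups are joined by a chain of Klein four-subgroups with consecutive members commuting elementwise. -/
theorem result {P : Type*} [Group P] [Finite P] (hP : IsPGroup 2 P)
    (E : Subgroup P) [E.Normal] (hE : IsMulCommutative E) (hE2 : ∀ e ∈ E, e ^ 2 = 1) (hE8 : 8 ≤ Nat.card E) :
    Cfsg.IsFourConnected P := by
  classical
  haveI : Fact (Nat.Prime 2) := ⟨Nat.prime_two⟩
  haveI hnil : Group.IsNilpotent P := hP.isNilpotent
  have hEb : E ≠ ⊥ := by
    rintro rfl
    rw [Subgroup.card_bot] at hE8
    omega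
  obtain ⟨z, hzE, hz1, hzc⟩ : ∃ z ∈ E, z ≠ 1 ∧ z ∈ Subgroup.center P := by
    have h := Cfsg.Agent.Lib.Basic.normal_inf_center_ne_bot E hEb
    rcases Subgroup.bot_or_exists_ne_one (E ⊓ Subgroup.center P) with h0 | ⟨z, hz, hz1⟩
    · exact absurd h0 h
    · exact ⟨z, hz.1, hz1, hz.2⟩
  have hEsq : ∀ e ∈ E, e * e = 1 := fun e he => by
    rw [← sq]
    exact hE2 e he
  have hEcomm : ∀ a ∈ E, ∀ b ∈ E, a * b = b * a := fun a ha b hb =>
    congrArg Subtype.val (hE.is_comm.comm ⟨a, ha⟩ ⟨b, hb⟩)
  have hzz : z * z = 1 := hEsq z hzE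
  have hzcomm : ∀ x : P, z * x = x * z := fun x => (Subgroup.mem_center_iff.mp hzc x).symm
  -- every Klein subgroup is connected to one in `E`
  have hconn : ∀ U : Subgroup P, IsKleinFour U → ∃ W : Subgroup P, IsKleinFour W ∧ W ≤ E ∧
      Relation.ReflTransGen (RR P) U W := by
    intro U hU
    -- `u ∈ U`, `u ≠ 1, z`
    obtain ⟨u, huU, hu1, huz⟩ : ∃ u ∈ U, u ≠ 1 ∧ z ≠ u := by
      obtain ⟨x, hx, y, hy, hx1, hy1, hxy⟩ := exists_pair_of_two_lt_card U (klein_two_lt hU)
      by_cases h : z = x
      · exact ⟨y, hy, hy1, fun h2 => hxy (h.symm.trans h2)⟩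
      · exact ⟨x, hx, hx1, h⟩
    have huu : u * u = 1 := klein_sq hU huU
    let V := kleinPair z u hzz huu (hzcomm u)
    have hV : IsKleinFour V := isKleinFour_kleinPair hz1 hu1 huz
    have hUV : RR P U V := by
      refine ⟨hU, hV, ?_⟩
      intro a ha b hb
      rcases hb with rfl | rfl | rfl | rfl
      · simp
      · exact (hzcomm a).symm
      · exact klein_comm hU ha huU
      · rw [← mul_assoc, ← hzcomm a, mul_assoc, klein_comm hU ha huU, mul_assoc]
    -- the centralizer of `u` in `E`
    have huinv : u⁻¹ = u := inv_eq_of_mul_eq_one_left huu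
    have hconjE : ∀ e ∈ E, u * e * u ∈ E := fun e he => by
      have := (inferInstance : E.Normal).conj_mem e he u
      rwa [huinv] at this
    let f : E →* E :=
      { toFun := fun e => ⟨e * (u * e * u), E.mul_mem e.2 (hconjE e e.2)⟩
        map_one' := by
          apply Subtype.ext
          simp [huu]
        map_mul' := by
          intro a b
          apply Subtype.ext
          simp only [Subgroup.coe_mul]
          have e1 : u * ((a : P) * b) * u = (u * a * u) * (u * b * u) := by
            have : (u * a * u) * (u * b * u) = u * a * (u * u) * b * u := by group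
            rw [this, huu]
            group
          rw [e1]
          have h3 := hEcomm (b : P) b.2 (u * a * u) (hconjE a a.2)
          calc (a : P) * b * ((u * a * u) * (u * b * u)) = a * (b * (u * a * u)) * (u * b * u) := by group
            _ = a * ((u * a * u) * b) * (u * b * u) := by rw [h3]
            _ = _ := by group }
    have hfker : ∀ e : E, f e = 1 ↔ u * e = e * u := by
      intro e
      have hee := hEsq e e.2
      constructor
      · intro h
        have h1 : (e : P) * (u * e * u) = 1 := congrArg Subtype.val h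
        have h2 : u * e * u = e := by
          have h3 : (e : P) * (u * e * u) = e * e := by rw [h1, hee]
          exact mul_left_cancel h3
        calc u * e = (u * e * u) * u := by rw [mul_assoc, mul_assoc, huu, mul_one]
          _ = e * u := by rw [h2]
      · intro h
        apply Subtype.ext
        change (e : P) * (u * e * u) = 1
        rw [h, mul_assoc, huu, mul_one, hee]
    have hrange : f.range ≤ f.ker := by
      rintro _ ⟨e, rfl⟩
      rw [MonoidHom.mem_ker, hfker]
      change u * ((e : P) * (u * e * u)) = ((e : P) * (u * e * u)) * u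
      have h3 := hEcomm (e : P) e.2 (u * e * u) (hconjE e e.2)
      calc u * ((e : P) * (u * e * u)) = (u * e * u * e) * u := by group
        _ = ((e : P) * (u * e * u)) * u := by rw [h3]
    have hcardker : 2 < Nat.card f.ker := by
      have h1 := Subgroup.card_mul_index f.ker
      rw [Subgroup.index_ker] at h1
      have h2 : Nat.card f.range ≤ Nat.card f.ker := Subgroup.card_le_of_le hrange
      by_contra h3
      have h4 : Nat.card f.ker ≤ 2 := by omega
      have h5 : Nat.card f.range ≤ 2 := by omega
      have h6 : Nat.card E ≤ 2 * 2 := by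
        rw [← h1]
        exact Nat.mul_le_mul h4 h5
      omega
    obtain ⟨⟨w₁, hw₁⟩, hw₁k, ⟨w₂, hw₂⟩, hw₂k, h1, h2, h12⟩ := exists_pair_of_two_lt_card f.ker hcardker
    have hw1u : u * w₁ = w₁ * u := (hfker _).mp hw₁k
    have hw2u : u * w₂ = w₂ * u := (hfker _).mp hw₂k
    have hne1 : w₁ ≠ 1 := fun h => h1 (Subtype.ext h)
    have hne2 : w₂ ≠ 1 := fun h => h2 (Subtype.ext h)
    have hne12 : w₁ ≠ w₂ := fun h => h12 (Subtype.ext h)
    let W := kleinPair w₁ w₂ (hEsq _ hw₁) (hEsq _ hw₂) (hEcomm _ hw₁ _ hw₂)
    have hW : IsKleinFour W := isKleinFour_kleinPair hne1 hne2 hne12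
    have hWE : W ≤ E := by
      rintro x (rfl | rfl | rfl | rfl)
      · exact E.one_mem
      · exact hw₁
      · exact hw₂
      · exact E.mul_mem hw₁ hw₂
    have hWu : ∀ w ∈ W, u * w = w * u := by
      rintro x (rfl | rfl | rfl | rfl)
      · simp
      · exact hw1u
      · exact hw2u
      · rw [← mul_assoc, hw1u, mul_assoc, hw2u, mul_assoc]
    have hVW : RR P V W := by
      refine ⟨hV, hW, ?_⟩
      intro a ha b hb
      rcases ha with rfl | rfl | rfl | rfl
      · simp
      · exact hzcomm b
      · exact hWu b hb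
      · rw [mul_assoc, hWu b hb, ← mul_assoc, hzcomm b, mul_assoc]
    exact ⟨W, hW, hWE, (Relation.ReflTransGen.single hUV).tail hVW⟩
  intro U V hU hV
  obtain ⟨W₁, hW₁, hW₁E, h₁⟩ := hconn U hU
  obtain ⟨W₂, hW₂, hW₂E, h₂⟩ := hconn V hV
  have hsymm : Symmetric (RR P) := by
    rintro A B ⟨hA, hB, h⟩
    exact ⟨hB, hA, fun a ha b hb => (h b hb a ha).symm⟩
  have hrev : ∀ A B, Relation.ReflTransGen (RR P) A B → Relation.ReflTransGen (RR P) B A := by
    intro A B h
    induction h with
    | refl => exact Relation.ReflTransGen.refl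
    | tail _ hbc ih => exact Relation.ReflTransGen.head (hsymm hbc) ih
  have h₂' : Relation.ReflTransGen (RR P) W₂ V := hrev _ _ h₂
  have hmid : RR P W₁ W₂ := ⟨hW₁, hW₂, fun a ha b hb => hEcomm a (hW₁E ha) b (hW₂E hb)⟩
  exact (h₁.tail hmid).trans h₂'

end Cfsg.Agent.S0502
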