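import Cfsg.Statements.S0505
import Mathlib
import Cfsg.Agent.Lib.OddLocal.PGroup
import Cfsg.Agent.Lib.Basic.Solv1
import Cfsg.Agent.Lib.Basic.Core

set_option autoImplicit false
open Cfsg

namespace Cfsg.Agent.S0505

/-- Let G be a finite group of even order in which the centralizer of every involution is solvable and has trivial
core (no nontrivial normal subgroup of odd order). Then G is of characteristic 2 type. -/
theorem result {G : Type*} [Group G] [Finite G]
    (h2 : Even (Nat.card G))
    (hs : ∀ t : G, orderOf t = 2 → Group.IsSolvable (Subgroup.centralizer ({t} : Set G)))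
    (hc : ∀ t : G, orderOf t = 2 → Cfsg.oddCore (Subgroup.centralizer ({t} : Set G)) = ⊥) :
    Cfsg.IsCharacteristicTwoType G := by
  classical
  haveI : Fact (Nat.Prime 2) := ⟨Nat.prime_two⟩
  refine ⟨h2, ?_⟩
  intro T hT hTb
  set H : Subgroup G := Subgroup.normalizer (T : Set G) with hH
  change Subgroup.centralizer (Cfsg.pCore 2 H : Set H) ≤ Cfsg.pCore 2 H
  set PH := Cfsg.pCore 2 H with hPH
  have hPHp : IsPGroup 2 PH := Cfsg.Agent.Lib.Basic.pCore_isPGroup 2
  set P' : Subgroup G := PH.map H.subtype with hP'
  have hP'p : IsPGroup 2 P' := hPHp.map H.subtype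
  have hTle : T ≤ P' := by
    have h1 : T.subgroupOf H ≤ PH := by
      apply Cfsg.Agent.Lib.Basic.le_pCore
      · exact Subgroup.normal_in_normalizer
      · exact hT.of_equiv (Subgroup.subgroupOfEquivOfLe Subgroup.le_normalizer).symm
    intro x hx
    exact ⟨⟨x, Subgroup.le_normalizer hx⟩, h1 hx, rfl⟩
  have hP'b : P' ≠ ⊥ := by
    intro h
    apply hTb
    rw [h] at hTle
    exact le_bot_iff.mp hTle
  -- an involution in the centre of `P'`
  obtain ⟨t, ht2, htP, htc⟩ : ∃ t : G, orderOf t = 2 ∧ t ∈ P' ∧ ∀ x ∈ P', x * t = t * x := by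
    haveI : Nontrivial P' := (Subgroup.nontrivial_iff_ne_bot _).mpr hP'b
    haveI : Nontrivial (Subgroup.center P') := hP'p.center_nontrivial
    have hZp : IsPGroup 2 (Subgroup.center P') := IsPGroup.to_subgroup hP'p _
    obtain ⟨k, hk, hk2⟩ := hZp.nontrivial_iff_card.mp inferInstance
    have hd : 2 ∣ Nat.card (Subgroup.center P') := by
      rw [hk2]
      exact dvd_pow_self 2 hk.ne'
    obtain ⟨z, hz⟩ := exists_prime_orderOf_dvd_card' (G := Subgroup.center P') 2 hd
    refine ⟨((z : P') : G), ?_, (z : P').2, ?_⟩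
    · rw [Subgroup.orderOf_coe, Subgroup.orderOf_coe]
      exact hz
    · intro x hx
      have := Subgroup.mem_center_iff.mp z.2 ⟨x, hx⟩
      exact congrArg Subtype.val this
  set X := Subgroup.centralizer ({t} : Set G) with hX
  have hXs : Group.IsSolvable X := hs t ht2
  have hXc : Cfsg.pPrimeCore 2 X = ⊥ := hc t ht2
  have hL1 := Cfsg.Agent.Lib.Basic.centralizer_pCore_le_of_pPrimeCore_eq_bot (G := X) 2 hXc
  set R := Cfsg.pCore 2 X with hR
  have hRp : IsPGroup 2 R := Cfsg.Agent.Lib.Basic.pCore_isPGroup 2
  set R' : Subgroup G := R.map X.subtype with hR'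
  have hR'p : IsPGroup 2 R' := hRp.map X.subtype
  set K := Subgroup.centralizer (PH : Set H) with hK
  -- image of `K` in `X`
  have hKX : ∀ k : K, ((k : H) : G) ∈ X := by
    intro k
    rw [hX, Subgroup.mem_centralizer_singleton_iff]
    obtain ⟨t₀, ht₀, e⟩ := htP
    have := Subgroup.mem_centralizer_iff.mp k.2 t₀ ht₀
    have h2 : (t₀ : H) * (k : H) = (k : H) * t₀ := this
    have h3 := congrArg Subtype.val h2
    simp only [Subgroup.coe_mul] at h3
    rw [← e]
    exact h3.symm
  let toX : K →* X :=
    { toFun := fun k => ⟨((k : H) : G), hKX k⟩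
      map_one' := rfl
      map_mul' := fun _ _ => rfl }
  have htoXinj : Function.Injective toX := by
    intro a b hab
    apply Subtype.ext
    apply Subtype.ext
    exact congrArg (fun z : X => (z : G)) hab
  haveI hKs : Group.IsSolvable K := solvable_of_solvable_injective htoXinj
  -- the odd core of `K`
  have hQbot : Cfsg.pPrimeCore 2 K = ⊥ := by
    set Q := Cfsg.pPrimeCore 2 K with hQ
    have hQcop : (Nat.card Q).Coprime 2 := Cfsg.Agent.Lib.Basic.pPrimeCore_coprime 2
    let ι : K →* G := H.subtype.comp K.subtype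
    have hι : Function.Injective ι := H.subtype_injective.comp K.subtype_injective
    set Q' : Subgroup G := Q.map ι with hQ'
    have hQ'card : Nat.card Q' = Nat.card Q :=
      Nat.card_congr (Subgroup.equivMapOfInjective Q ι hι).toEquiv.symm
    have hQ'X : Q' ≤ X := by
      rintro _ ⟨q, _, rfl⟩
      exact hKX q
    have hP'X : P' ≤ X := by
      intro x hx
      rw [hX, Subgroup.mem_centralizer_singleton_iff]
      exact htc x hx
    have hR'n : ∀ y ∈ X, y ∈ Subgroup.normalizer (R' : Set G) := by
      intro y hy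
      have : (⟨y, hy⟩ : X) ∈ Subgroup.normalizer (R : Set X) := by
        rw [Subgroup.normalizer_eq_top]
        trivial
      have h2 := Subgroup.le_normalizer_map X.subtype ⟨_, this, rfl⟩
      exact h2
    have hmain : Q' ≤ Subgroup.centralizer (R' : Set G) := by
      apply Cfsg.Agent.Lib.OddLocal.thompson_AxB 2 R' Q' P' hR'p hP'p
      · rw [hQ'card]
        exact hQcop
      · exact fun y hy => hR'n y (hQ'X hy)
      · exact fun y hy => hR'n y (hP'X hy)
      · rintro _ ⟨q, _, rfl⟩ _ ⟨b, hb, rfl⟩
        have := Subgroup.mem_centralizer_iff.mp (q : K).2 b hb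
        have h3 := congrArg Subtype.val this
        exact h3.symm
      · rintro _ ⟨q, hq, rfl⟩ x hx hxc
        -- `x` lies in `K`
        have hxH : x ∈ H := by
          rw [hH, Subgroup.mem_normalizer_iff]
          intro w
          have hcw : ∀ w ∈ T, x * w = w * x := fun w hw => (hxc w (hTle hw)).symm
          constructor
          · intro hw
            rw [hcw w hw]
            simpa using hw
          · intro hw
            have h5 := hcw _ hw
            have h6 : w = x⁻¹ * (x * w * x⁻¹) * x := by group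
            rw [h6]
            have h7 := hcw _ hw
            have h8 : x⁻¹ * (x * w * x⁻¹) * x = x * w * x⁻¹ := by
              rw [mul_assoc, ← h7]
              group
            rw [h8]
            exact hw
        have hxK : (⟨x, hxH⟩ : H) ∈ K := by
          rw [Subgroup.mem_centralizer_iff]
          intro y hy
          apply Subtype.ext
          exact hxc _ ⟨y, hy, rfl⟩
        -- `W`
        let W : Subgroup K := R'.comap ι
        haveI hWn : W.Normal := by
          constructor
          intro y hy k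
          change ι (k * y * k⁻¹) ∈ R'
          rw [map_mul, map_mul, map_inv]
          exact (Subgroup.mem_normalizer_iff.mp (hR'n _ (hKX k)) _).mp hy
        have hWp : IsPGroup 2 W := by
          have h1 : IsPGroup 2 (W.map ι) := hR'p.to_le (Subgroup.map_comap_le _ _)
          exact h1.of_equiv (Subgroup.equivMapOfInjective W ι hι).symm
        have hQn : Q.Normal := Cfsg.pPrimeCore_normal 2 K
        have hdisj : ∀ y, y ∈ W → y ∈ Q → y = 1 := by
          intro y hy hy2
          have h1 : orderOf y ∣ Nat.card Q := by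
            have := orderOf_dvd_natCard (⟨y, hy2⟩ : Q)
            rwa [Subgroup.orderOf_mk] at this
          obtain ⟨j, hj⟩ := IsPGroup.iff_orderOf.mp hWp ⟨y, hy⟩
          rw [Subgroup.orderOf_mk] at hj
          rw [hj] at h1
          have h2 : Nat.Coprime (2 ^ j) (Nat.card Q) :=
            Nat.Coprime.pow_left j hQcop.symm
          have h3 : 2 ^ j = 1 := Nat.Coprime.eq_one_of_dvd h2 h1
          have h4 : orderOf y = 1 := by rw [hj, h3]
          exact orderOf_eq_one_iff.mp h4
        let w : K := ⟨⟨x, hxH⟩, hxK⟩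
        have hwW : w ∈ W := hx
        have hcomm : q * w = w * q := by
          have h1 : q * w * q⁻¹ * w⁻¹ ∈ W := by
            apply W.mul_mem _ (W.inv_mem hwW)
            exact hWn.conj_mem w hwW q
          have h2 : q * w * q⁻¹ * w⁻¹ ∈ Q := by
            have e : q * w * q⁻¹ * w⁻¹ = q * (w * q⁻¹ * w⁻¹) := by group
            rw [e]
            exact Q.mul_mem hq (hQn.conj_mem _ (Q.inv_mem hq) w)
          have h3 := hdisj _ h1 h2
          rw [mul_inv_eq_one, mul_inv_eq_iff_eq_mul] at h3
          exact h3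
        have h5 := congrArg ι hcomm
        rw [map_mul, map_mul] at h5
        exact h5
    -- so `Q'` is trivial
    rw [eq_bot_iff]
    intro q hq
    have hqX : ι q ∈ X := hKX q
    have h1 : (⟨ι q, hqX⟩ : X) ∈ Subgroup.centralizer (R : Set X) := by
      rw [Subgroup.mem_centralizer_iff]
      intro r hr
      apply Subtype.ext
      have := Subgroup.mem_centralizer_iff.mp (hmain (⟨q, hq, rfl⟩ : ι q ∈ Q')) (r : G) ⟨r, hr, rfl⟩
      exact this
    have h2 := hL1 h1
    have h3 : orderOf (⟨ι q, hqX⟩ : X) ∣ Nat.card Q := by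
      have h4 : orderOf (⟨ι q, hqX⟩ : X) = orderOf q := by
        rw [Subgroup.orderOf_mk]
        exact orderOf_injective ι hι q
      rw [h4]
      have := orderOf_dvd_natCard (⟨q, hq⟩ : Q)
      rwa [Subgroup.orderOf_mk] at this
    obtain ⟨j, hj⟩ := IsPGroup.iff_orderOf.mp hRp ⟨_, h2⟩
    rw [Subgroup.orderOf_mk] at hj
    rw [hj] at h3
    have h5 : Nat.Coprime (2 ^ j) (Nat.card Q) := Nat.Coprime.pow_left j hQcop.symm
    have h6 : 2 ^ j = 1 := Nat.Coprime.eq_one_of_dvd h5 h3
    have h7 : orderOf (⟨ι q, hqX⟩ : X) = 1 := by rw [hj, h6]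
    have h8 := orderOf_eq_one_iff.mp h7
    have h9 : ι q = 1 := congrArg Subtype.val h8
    rw [Subgroup.mem_bot]
    apply hι
    rw [h9, map_one]
  have hL1K := Cfsg.Agent.Lib.Basic.centralizer_pCore_le_of_pPrimeCore_eq_bot (G := K) 2 hQbot
  set O := Cfsg.pCore 2 K with hO
  haveI hKn : K.Normal := inferInstance
  haveI hOc : O.Characteristic := Cfsg.Agent.Lib.Basic.pCore_characteristic 2
  have hOn : (O.map K.subtype).Normal := inferInstance
  have hOp : IsPGroup 2 (O.map K.subtype) := (Cfsg.Agent.Lib.Basic.pCore_isPGroup (G := K) 2).map K.subtype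
  have hOle : O.map K.subtype ≤ PH := Cfsg.Agent.Lib.Basic.le_pCore hOn hOp
  intro x hx
  have h1 : (⟨x, hx⟩ : K) ∈ Subgroup.centralizer (O : Set K) := by
    rw [Subgroup.mem_centralizer_iff]
    intro w hw
    apply Subtype.ext
    have h2 : (w : H) ∈ PH := hOle ⟨w, hw, rfl⟩
    have := Subgroup.mem_centralizer_iff.mp hx (w : H) h2
    exact this
  exact hOle ⟨_, hL1K h1, rfl⟩

end Cfsg.Agent.S0505
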