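import Cfsg.Statements.S0514
import Mathlib
import Cfsg.Agent.Lib.Transfer.Frobenius

set_option autoImplicit false
open Cfsg

namespace Cfsg.Agent.S0514

open scoped Pointwise

section aut

variable {Q : Type*} [Group Q] [Finite Q]

private theorem pow_apply_swap (α : MulAut Q) {x x' : Q} (h1 : α x = x') (h2 : α x' = x) (k : ℕ) :
    (Even k → (α ^ k) x = x) ∧ (Odd k → (α ^ k) x = x') := by
  induction k with
  | zero => simp
  | succ k ih =>
    rw [pow_succ']
    constructor
    · intro he
      have hk : Odd k := by
        rcases Nat.even_or_odd k with h | h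
        · exact absurd he (by simp [Nat.even_add_one, h])
        · exact h
      have := ih.2 hk
      simp only [MulAut.mul_apply, this, h2]
    · intro ho
      have hk : Even k := by
        rcases Nat.even_or_odd k with h | h
        · exact h
        · exact absurd ho (by simp [Nat.odd_add_one, h])
      have := ih.1 hk
      simp only [MulAut.mul_apply, this, h1]

/-- an automorphism of odd order fixing an involution, of a 2-group with a cyclic subgroup
of index at most 2 outside which all elements are involutions, is trivial -/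
private theorem aut_trivial (hQ : IsPGroup 2 Q) (A : Subgroup Q) (hA : IsCyclic A)
    (hout : ∀ x, x ∉ A → x * x = 1) (hidx : ∀ x y, x ∉ A → y ∉ A → x * y ∈ A)
    (α : MulAut Q) (m : ℕ) (hm : Odd m) (hα : α ^ m = 1) (z : Q) (hz : orderOf z = 2) (hαz : α z = z) :
    α = 1 := by
  classical
  haveI : Fact (Nat.Prime 2) := ⟨Nat.prime_two⟩
  by_cases hcard : Nat.card A ≤ 2
  · -- small case
    have hQ4 : Nat.card Q ≤ 4 := by
      by_cases hall : ∃ x₀, x₀ ∉ A
      · obtain ⟨x₀, hx₀⟩ := hall
        have hle : Nat.card Q ≤ Nat.card (A ⊕ A) := by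
          apply Nat.card_le_card_of_injective (fun x : Q =>
            if h : x ∈ A then Sum.inl ⟨x, h⟩ else Sum.inr ⟨x₀ * x, hidx _ _ hx₀ h⟩)
          intro a b hab
          by_cases ha : a ∈ A <;> by_cases hb : b ∈ A <;> simp only [ha, hb, dite_true, dite_false] at hab
          · exact congrArg Subtype.val (Sum.inl_injective hab)
          · exact absurd hab (by simp)
          · exact absurd hab (by simp)
          · have := congrArg Subtype.val (Sum.inr_injective hab)
            exact mul_left_cancel this
        rw [Nat.card_sum] at hle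
        omega
      · push Not at hall
        have : A = ⊤ := by
          rw [eq_top_iff]
          intro x _
          exact hall x
        rw [this, Subgroup.card_top] at hcard
        omega
    apply MulEquiv.ext
    intro x
    simp only [MulAut.one_apply]
    by_contra hne
    have hx1 : x ≠ 1 := by
      rintro rfl
      exact hne (map_one α)
    have hxz : x ≠ z := by
      rintro rfl
      exact hne hαz
    have hz1 : z ≠ 1 := by
      rintro rfl
      rw [orderOf_one] at hz
      omega
    set x' := α x with hx'
    have hx'1 : x' ≠ 1 := by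
      intro h
      apply hx1
      apply α.injective
      rw [map_one]
      exact h
    have hx'z : x' ≠ z := by
      intro h
      apply hxz
      apply α.injective
      rw [hαz]
      exact h
    have hww : α x' = x := by
      by_contra hw
      have hw1 : α x' ≠ 1 := by
        intro h
        apply hx'1
        apply α.injective
        rw [map_one]
        exact h
      have hwz : α x' ≠ z := by
        intro h
        apply hx'z
        apply α.injective
        rw [hαz]
        exact h
      have hwx' : α x' ≠ x' := by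
        intro h
        apply hne
        exact α.injective h
      cases nonempty_fintype Q
      have h5 : ({1, z, x, x', α x'} : Finset Q).card = 5 := by
        rw [Finset.card_insert_of_notMem, Finset.card_insert_of_notMem, Finset.card_insert_of_notMem,
          Finset.card_insert_of_notMem, Finset.card_singleton]
        · simp only [Finset.mem_singleton]
          exact fun h => hwx' h.symm
        · simp only [Finset.mem_insert, Finset.mem_singleton, not_or]
          exact ⟨fun h => hne h.symm, fun h => hw h.symm⟩
        · simp only [Finset.mem_insert, Finset.mem_singleton, not_or]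
          exact ⟨fun h => hxz h.symm, fun h => hx'z h.symm, fun h => hwz h.symm⟩
        · simp only [Finset.mem_insert, Finset.mem_singleton, not_or]
          exact ⟨hz1.symm, hx1.symm, hx'1.symm, hw1.symm⟩
      have h6 := Finset.card_le_univ ({1, z, x, x', α x'} : Finset Q)
      rw [h5, ← Nat.card_eq_fintype_card] at h6
      omega
    have := (pow_apply_swap α rfl hww m).2 hm
    rw [hα] at this
    exact hne this.symm
  · -- large case
    rw [not_le] at hcard
    obtain ⟨y, hy⟩ := IsCyclic.exists_generator (α := A)
    have hordy : orderOf (y : Q) = Nat.card A := by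
      rw [Subgroup.orderOf_coe]
      exact orderOf_eq_card_of_forall_mem_zpowers hy
    have hαy : α y ∈ A := by
      by_contra h
      have h1 := hout _ h
      have h2 : orderOf (α (y : Q)) = orderOf (y : Q) := MulEquiv.orderOf_eq α _
      have h3 : orderOf (α (y : Q)) ∣ 2 := orderOf_dvd_of_pow_eq_one (by rw [sq]; exact h1)
      have h4 := Nat.le_of_dvd (by norm_num) h3
      rw [h2, hordy] at h4
      omega
    have hαA : ∀ a ∈ A, α a ∈ A := by
      intro a ha
      obtain ⟨k, hk⟩ := hy ⟨a, ha⟩
      have hk' : (y : Q) ^ k = a := congrArg Subtype.val hk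
      rw [← hk', map_zpow]
      exact A.zpow_mem hαy k
    let β₀ : A →* A := (α.toMonoidHom.comp A.subtype).codRestrict A (fun a => hαA a a.2)
    have hβinj : Function.Injective β₀ := by
      intro a b hab
      apply Subtype.ext
      apply α.injective
      exact congrArg Subtype.val hab
    have hβbij : Function.Bijective β₀ := Finite.injective_iff_bijective.mp hβinj
    let β : MulAut A := MulEquiv.ofBijective β₀ hβbij
    have hβpow : ∀ (k : ℕ) (a : A), (((β ^ k) a : A) : Q) = (α ^ k) (a : Q) := by
      intro k
      induction k with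
      | zero => simp
      | succ k ih =>
        intro a
        rw [pow_succ', pow_succ']
        simp only [MulAut.mul_apply]
        rw [← ih a]
        rfl
    have hβm : β ^ m = 1 := by
      apply MulEquiv.ext
      intro a
      apply Subtype.ext
      rw [hβpow, hα]
      rfl
    have hβ1 : β = 1 := by
      have h1 : orderOf β ∣ m := orderOf_dvd_of_pow_eq_one hβm
      have h2 : orderOf β ∣ Nat.card (MulAut A) := orderOf_dvd_natCard β
      rw [IsCyclic.card_mulAut] at h2
      have hAp : IsPGroup 2 A := IsPGroup.to_subgroup hQ A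
      obtain ⟨e, he⟩ := IsPGroup.iff_card.mp hAp
      have h3 : Nat.card A ≠ 1 := by omega
      have he0 : e ≠ 0 := by
        rintro rfl
        rw [pow_zero] at he
        exact h3 he
      rw [he, Nat.totient_prime_pow Nat.prime_two (Nat.pos_of_ne_zero he0)] at h2
      simp only [Nat.add_one_sub_one, mul_one] at h2
      obtain ⟨j, _, hj⟩ := (Nat.dvd_prime_pow Nat.prime_two).mp h2
      have hodd : Odd (orderOf β) := Odd.of_dvd_nat hm h1
      rw [hj] at hodd
      have hj0 : j = 0 := by
        by_contra hj0
        have : Even (2 ^ j) := (Nat.even_pow.mpr ⟨even_two, hj0⟩)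
        exact (Nat.not_even_iff_odd.mpr hodd) this
      rw [hj0, pow_zero] at hj
      exact orderOf_eq_one_iff.mp hj
    have hfixA : ∀ a ∈ A, α a = a := by
      intro a ha
      have h1 : β ⟨a, ha⟩ = ⟨a, ha⟩ := by rw [hβ1]; rfl
      exact congrArg Subtype.val h1
    apply MulEquiv.ext
    intro s
    simp only [MulAut.one_apply]
    by_cases hs : s ∈ A
    · exact hfixA s hs
    have hαs : α s ∉ A := by
      intro h
      apply hs
      have := hfixA _ h
      have h2 : α s = s := α.injective this
      rwa [h2] at h
    set w := s * α s with hw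
    have hwA : w ∈ A := hidx _ _ hs hαs
    have hss := hout s hs
    have hαsw : α s = s * w := by
      rw [hw, ← mul_assoc, hss, one_mul]
    have hαpow : ∀ k : ℕ, (α ^ k) s = s * w ^ k := by
      intro k
      induction k with
      | zero => simp
      | succ k ih =>
        rw [pow_succ']
        simp only [MulAut.mul_apply]
        rw [ih, map_mul, map_pow, hfixA w hwA, hαsw, pow_succ' w k, mul_assoc]
    have h1 := hαpow m
    rw [hα] at h1
    have h2 : w ^ m = 1 := by
      have h3 : s * w ^ m = s * 1 := by rw [← h1]; simp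
      exact mul_left_cancel h3
    have h3 : orderOf w ∣ m := orderOf_dvd_of_pow_eq_one h2
    obtain ⟨j, hj⟩ := IsPGroup.iff_orderOf.mp hQ w
    have hodd : Odd (orderOf w) := Odd.of_dvd_nat hm h3
    rw [hj] at hodd
    have hj0 : j = 0 := by
      by_contra hj0
      have : Even (2 ^ j) := (Nat.even_pow.mpr ⟨even_two, hj0⟩)
      exact (Nat.not_even_iff_odd.mpr hodd) this
    rw [hj0, pow_zero] at hj
    have hw1 : w = 1 := orderOf_eq_one_iff.mp hj
    rw [hαsw, hw1, mul_one]

end aut

section core

variable {X : Type*} [Group X] [Finite X]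

/-- stability for a `2`-subgroup containing `t` -/
private theorem stable_core (S : Sylow 2 X) (n : ℕ) (hn : 2 ≤ n) (hS : Nonempty ((S : Subgroup X) ≃* DihedralGroup n))
    {t : X} (ht : orderOf t = 2) (Q : Subgroup X) (hQ : IsPGroup 2 Q) (htQ : t ∈ Q) {g : X}
    (hgN : g ∈ Subgroup.normalizer (Q : Set X)) (hgt : g * t = t * g) (hgodd : Odd (orderOf g)) :
    g ∈ Subgroup.centralizer (Q : Set X) := by
  classical
  haveI : Fact (Nat.Prime 2) := ⟨Nat.prime_two⟩
  haveI : NeZero n := ⟨by omega⟩
  obtain ⟨φ⟩ := hS
  -- conjugate `Q` into `S`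
  obtain ⟨S', hS'⟩ := hQ.exists_le_sylow
  obtain ⟨a, rfl⟩ := MulAction.exists_smul_eq X S S'
  have hconjmem : ∀ x ∈ Q, a⁻¹ * x * a ∈ (S : Subgroup X) := by
    intro x hx
    have h2 : x ∈ ((a • S : Sylow 2 X) : Subgroup X) := hS' hx
    rw [Sylow.coe_subgroup_smul] at h2
    have h3 : x ∈ (MulAut.conj a • (S : Subgroup X)) := h2
    rw [Subgroup.mem_pointwise_smul_iff_inv_smul_mem] at h3
    simpa [MulAut.smul_def, map_inv, MulAut.conj_inv_apply] using h3
  -- the hom to the dihedral group
  let c : Q →* (S : Subgroup X) :=
    { toFun := fun x => ⟨a⁻¹ * x * a, hconjmem x x.2⟩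
      map_one' := by
        apply Subtype.ext
        simp
      map_mul' := by
        intro x y
        apply Subtype.ext
        simp only [Subgroup.coe_mul]
        group }
  have hc : Function.Injective c := by
    intro x y hxy
    have h1 : a⁻¹ * (x : X) * a = a⁻¹ * y * a := congrArg Subtype.val hxy
    apply Subtype.ext
    simpa using h1
  let ψ : Q →* DihedralGroup n := φ.toMonoidHom.comp c
  have hψ : Function.Injective ψ := φ.injective.comp hc
  let A : Subgroup Q := (Subgroup.zpowers (DihedralGroup.r (1 : ZMod n))).comap ψ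
  have hA : IsCyclic A := by
    let f : A →* Subgroup.zpowers (DihedralGroup.r (1 : ZMod n)) := (ψ.comp A.subtype).codRestrict _ (fun x => x.2)
    have hf : Function.Injective f := by
      intro x y hxy
      apply Subtype.ext
      apply hψ
      exact congrArg Subtype.val hxy
    exact isCyclic_of_injective f hf
  have hrot : ∀ w : DihedralGroup n, w ∉ Subgroup.zpowers (DihedralGroup.r (1 : ZMod n)) → ∃ i, w = DihedralGroup.sr i := by
    intro w hw
    rcases w with i | i
    · exfalso
      apply hw
      refine ⟨(i.val : ℤ), ?_⟩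
      simp only [DihedralGroup.r_one_zpow]
      congr 1
      simp
    · exact ⟨i, rfl⟩
  have hout : ∀ x, x ∉ A → x * x = 1 := by
    intro x hx
    obtain ⟨i, hi⟩ := hrot (ψ x) hx
    apply hψ
    rw [map_mul, hi, DihedralGroup.sr_mul_self, map_one]
  have hidx : ∀ x y, x ∉ A → y ∉ A → x * y ∈ A := by
    intro x y hx hy
    obtain ⟨i, hi⟩ := hrot (ψ x) hx
    obtain ⟨j, hj⟩ := hrot (ψ y) hy
    change ψ (x * y) ∈ Subgroup.zpowers (DihedralGroup.r (1 : ZMod n))
    rw [map_mul, hi, hj, DihedralGroup.sr_mul_sr]
    refine ⟨((j - i).val : ℤ), ?_⟩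
    simp only [DihedralGroup.r_one_zpow]
    congr 1
    simp
  -- conjugation by `g` on `Q`
  have hgQ : ∀ x ∈ Q, g * x * g⁻¹ ∈ Q := fun x hx => (Subgroup.mem_normalizer_iff.mp hgN x).mp hx
  have hginvQ : ∀ x ∈ Q, g⁻¹ * x * g ∈ Q := by
    intro x hx
    have := (Subgroup.mem_normalizer_iff.mp (Subgroup.inv_mem _ hgN) x).mp hx
    simpa using this
  let α : MulAut Q :=
    { toFun := fun x => ⟨g * x * g⁻¹, hgQ x x.2⟩
      invFun := fun x => ⟨g⁻¹ * x * g, hginvQ x x.2⟩
      left_inv := by
        intro x
        apply Subtype.ext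
        simp [mul_assoc]
      right_inv := by
        intro x
        apply Subtype.ext
        simp [mul_assoc]
      map_mul' := by
        intro x y
        apply Subtype.ext
        simp only [Subgroup.coe_mul]
        group }
  have hαpow : ∀ (k : ℕ) (x : Q), (((α ^ k) x : Q) : X) = g ^ k * x * (g ^ k)⁻¹ := by
    intro k
    induction k with
    | zero => simp
    | succ k ih =>
      intro x
      have h0 : (α ^ (k + 1)) x = α ((α ^ k) x) := by
        rw [pow_succ']
        rfl
      rw [h0]
      change g * (((α ^ k) x : Q) : X) * g⁻¹ = _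
      rw [ih x, pow_succ']
      group
  have hαm : α ^ (orderOf g) = 1 := by
    apply MulEquiv.ext
    intro x
    apply Subtype.ext
    rw [hαpow, pow_orderOf_eq_one]
    simp
  have hαz : α ⟨t, htQ⟩ = ⟨t, htQ⟩ := by
    apply Subtype.ext
    change g * t * g⁻¹ = t
    rw [hgt]
    group
  have hα1 := aut_trivial (IsPGroup.of_equiv hQ (MulEquiv.refl _)) A hA hout hidx α _ hgodd hαm ⟨t, htQ⟩
    (by rw [Subgroup.orderOf_mk]; exact ht) hαz
  rw [Subgroup.mem_centralizer_iff]
  intro x hx
  have h1 : α ⟨x, hx⟩ = ⟨x, hx⟩ := by rw [hα1]; rfl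
  have h2 : g * x * g⁻¹ = x := congrArg Subtype.val h1
  exact (mul_inv_eq_iff_eq_mul.mp h2).symm

end core

/-- In a finite group whose Sylow 2-subgroups are dihedral of order at least 4, the centralizer of any involution has a
normal subgroup of odd order whose index in the centralizer is a power of 2. -/
theorem result {X : Type*} [Group X] [Finite X]
    (S : Sylow 2 X) (n : ℕ) (hn : 2 ≤ n) (hS : Nonempty ((S : Subgroup X) ≃* DihedralGroup n)) (t : X)
    (ht : orderOf t = 2) :
    ∃ N : Subgroup (Subgroup.centralizer ({t} : Set X)), N.Normal ∧ Odd (Nat.card N) ∧ ∃ k : ℕ, N.index = 2 ^ k := by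
  classical
  haveI : Fact (Nat.Prime 2) := ⟨Nat.prime_two⟩
  set C := Subgroup.centralizer ({t} : Set X) with hC
  have htC : t ∈ C := by
    rw [hC, Subgroup.mem_centralizer_singleton_iff]
  have hcomm : ∀ g : C, (g : X) * t = t * g := by
    intro g
    have h : (g : X) ∈ Subgroup.centralizer ({t} : Set X) := g.2
    rw [Subgroup.mem_centralizer_singleton_iff] at h
    exact h
  let t₀ : C := ⟨t, htC⟩
  have ht₀ : orderOf t₀ = 2 := by
    rw [Subgroup.orderOf_mk]
    exact ht
  have hZn : (Subgroup.zpowers t₀).Normal := by
    constructor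
    intro a ha g
    obtain ⟨k, hk⟩ := ha
    simp only at hk
    subst hk
    refine ⟨k, ?_⟩
    simp only
    have h1 : g * t₀ * g⁻¹ = t₀ := by
      apply Subtype.ext
      have := hcomm g
      simp only [Subgroup.coe_mul, Subgroup.coe_inv]
      change (g : X) * t * (g : X)⁻¹ = t
      rw [this]
      group
    rw [← conj_zpow, h1]
  have hstable : Cfsg.Agent.Lib.Transfer.FrobeniusStable 2 C := by
    intro D hD g hgN hgc
    have hgodd : Odd (orderOf (g : X)) := by
      rw [Subgroup.orderOf_coe]
      exact Nat.Coprime.odd_of_right hgc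
    have htp : IsPGroup 2 (Subgroup.zpowers t₀) := by
      apply IsPGroup.of_card (n := 1)
      rw [Nat.card_zpowers, ht₀, pow_one]
    have hDp : IsPGroup 2 (D ⊔ Subgroup.zpowers t₀ : Subgroup C) := hD.to_sup_of_normal_right htp
    have hgD : g ∈ Subgroup.normalizer ((D ⊔ Subgroup.zpowers t₀ : Subgroup C) : Set C) := by
      rw [Subgroup.mem_normalizer_iff_map_conj_eq, Subgroup.map_sup]
      rw [Subgroup.mem_normalizer_iff_map_conj_eq] at hgN
      have h0 : g ∈ Subgroup.normalizer ((Subgroup.zpowers t₀ : Subgroup C) : Set C) := by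
        rw [Subgroup.normalizer_eq_top]
        trivial
      rw [Subgroup.mem_normalizer_iff_map_conj_eq] at h0
      rw [hgN, h0]
    have hgQ : (g : X) ∈ Subgroup.normalizer (((D ⊔ Subgroup.zpowers t₀ : Subgroup C).map C.subtype : Subgroup X) : Set X) :=
      Subgroup.le_normalizer_map C.subtype ⟨g, hgD, rfl⟩
    have h1 := stable_core S n hn hS ht _ (hDp.map C.subtype) ⟨t₀, Subgroup.mem_sup_right (Subgroup.mem_zpowers t₀), rfl⟩
      hgQ (hcomm g) hgodd
    rw [Subgroup.mem_centralizer_iff] at h1 ⊢
    intro d hd
    apply Subtype.ext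
    exact h1 d ⟨d, Subgroup.mem_sup_left hd, rfl⟩
  obtain ⟨N, hN, hNc, k, hk⟩ :=
    Cfsg.Agent.Lib.Transfer.exists_hall_of_hasNormalPComplement
      (Cfsg.Agent.Lib.Transfer.hasNormalPComplement_of_stable hstable)
  refine ⟨N, hN, ?_, k, hk⟩
  exact Nat.Coprime.odd_of_right hNc

end Cfsg.Agent.S0514
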