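import Cfsg.Statements.S0519
import Cfsg.Agent.Lib.Transfer.Rank
import Cfsg.Agent.Lib.Basic.Nilpotent
import Cfsg.Agent.Lib.TwoGroups.Present

set_option autoImplicit false
open Cfsg

namespace Cfsg.Agent.S0519

open Subgroup

variable {P : Type*} [Group P]

theorem exists_central_step [Finite P] {p : ℕ} [Fact p.Prime] (hP : IsPGroup p P) (A C : Subgroup P)
    [A.Normal] [C.Normal] (hAC : A < C) :
    ∃ x ∈ C, x ∉ A ∧ x ^ p ∈ A ∧ ∀ g : P, g * x * g⁻¹ * x⁻¹ ∈ A := by
  classical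
  have hp : p.Prime := Fact.out
  have hQ : IsPGroup p (P ⧸ A) := hP.to_quotient A
  haveI : Group.IsNilpotent (P ⧸ A) := hQ.isNilpotent
  let N : Subgroup (P ⧸ A) := C.map (QuotientGroup.mk' A)
  haveI : N.Normal := Subgroup.Normal.map inferInstance _ (QuotientGroup.mk'_surjective A)
  have hN : N ≠ ⊥ := by
    intro h
    obtain ⟨y, hyC, hyA⟩ := SetLike.exists_of_lt hAC
    have : (QuotientGroup.mk' A) y ∈ N := Subgroup.mem_map_of_mem _ hyC
    rw [h, Subgroup.mem_bot] at this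
    exact hyA ((QuotientGroup.eq_one_iff y).1 this)
  have h2 := Cfsg.Agent.Lib.Basic.normal_inf_center_ne_bot N hN
  obtain ⟨⟨t, ht⟩, ht1⟩ := (Subgroup.ne_bot_iff_exists_ne_one).1 h2
  have ht1' : t ≠ 1 := fun h => ht1 (Subtype.ext h)
  obtain ⟨k, hk⟩ := IsPGroup.iff_orderOf.1 hQ t
  have hk0 : k ≠ 0 := by
    rintro rfl
    rw [pow_zero, orderOf_eq_one_iff] at hk
    exact ht1' hk
  obtain ⟨k', rfl⟩ := Nat.exists_eq_succ_of_ne_zero hk0
  let t' := t ^ (p ^ k')
  have ht'1 : t' ≠ 1 := by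
    apply pow_ne_one_of_lt_orderOf
    · exact (pow_pos hp.pos _).ne'
    · rw [hk, pow_succ]
      exact lt_mul_of_one_lt_right (pow_pos hp.pos _) hp.one_lt
  have ht'p : t' ^ p = 1 := by
    show (t ^ (p ^ k')) ^ p = 1
    rw [← pow_mul, ← pow_succ, ← hk, pow_orderOf_eq_one]
  have ht'N : t' ∈ N := Subgroup.pow_mem _ ht.1 _
  have ht'Z : t' ∈ Subgroup.center (P ⧸ A) := Subgroup.pow_mem _ ht.2 _
  obtain ⟨x, hxC, hx⟩ := Subgroup.mem_map.1 ht'N
  refine ⟨x, hxC, ?_, ?_, ?_⟩
  · intro hxA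
    apply ht'1
    rw [← hx]
    exact (QuotientGroup.eq_one_iff x).2 hxA
  · rw [← QuotientGroup.eq_one_iff]
    have : ((x ^ p : P) : P ⧸ A) = t' ^ p := by
      rw [← hx]; rfl
    rw [this, ht'p]
  · intro g
    rw [← QuotientGroup.eq_one_iff]
    have hxt : (x : P ⧸ A) = t' := hx
    have hz := (Subgroup.mem_center_iff.1 ht'Z) (g : P ⧸ A)
    show ((g : P ⧸ A) * (x : P ⧸ A) * (g : P ⧸ A)⁻¹ * (x : P ⧸ A)⁻¹) = 1
    rw [hxt, hz]
    group

theorem no_klein (hn : ∀ A : Subgroup P, A.Normal → IsMulCommutative A → IsCyclic A)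
    (u z : P) (hu : u * u = 1) (hz : z * z = 1) (hz1 : z ≠ 1) (hu1 : u ≠ 1) (huz : u ≠ z)
    (hc : z * u = u * z) (hzc : ∀ g : P, g * z * g⁻¹ = z)
    (huc : ∀ g : P, g * u * g⁻¹ = u ∨ g * u * g⁻¹ = u * z) : False := by
  classical
  have hu' : ∀ w, u * (u * w) = w := fun w => by rw [← mul_assoc, hu, one_mul]
  have hz' : ∀ w, z * (z * w) = w := fun w => by rw [← mul_assoc, hz, one_mul]
  have hc' : ∀ w, z * (u * w) = u * (z * w) := fun w => by rw [← mul_assoc, hc, mul_assoc]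
  let V : Subgroup P :=
    { carrier := {1, z, u, u * z}
      one_mem' := by simp
      mul_mem' := by
        rintro a b (rfl | rfl | rfl | rfl) (rfl | rfl | rfl | rfl) <;>
        simp [mul_assoc, hu, hz, hc, hu', hz', hc']
      inv_mem' := by
        intro a ha
        have h : a⁻¹ = a := by
          apply inv_eq_of_mul_eq_one_left
          rcases ha with rfl | rfl | rfl | rfl <;> simp [mul_assoc, hu, hz, hc, hu', hz', hc']
        show a⁻¹ ∈ _
        rw [h]; exact ha }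
  have hmem : ∀ a : P, a ∈ V ↔ a = 1 ∨ a = z ∨ a = u ∨ a = u * z := fun a => Iff.rfl
  have hVn : V.Normal := by
    constructor
    intro a ha g
    rw [hmem] at ha ⊢
    rcases ha with rfl | rfl | rfl | rfl
    · simp
    · right; left; exact hzc g
    · rcases huc g with h | h
      · right; right; left; exact h
      · right; right; right; exact h
    · have e : g * (u * z) * g⁻¹ = (g * u * g⁻¹) * (g * z * g⁻¹) := by group
      rw [e, hzc g]
      rcases huc g with h | h
      · rw [h]; right; right; right; rfl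
      · rw [h]; right; right; left
        simp [mul_assoc, hz]
  have hVc : IsMulCommutative V := by
    refine ⟨⟨?_⟩⟩
    rintro ⟨a, ha⟩ ⟨b, hb⟩
    apply Subtype.ext
    show a * b = b * a
    rw [hmem] at ha hb
    rcases ha with rfl | rfl | rfl | rfl <;> rcases hb with rfl | rfl | rfl | rfl <;>
      simp [mul_assoc, hu, hz, hc, hu', hz', hc']
  haveI := hn V hVn hVc
  obtain ⟨⟨g, hg⟩, hgen⟩ := IsCyclic.exists_generator (α := V)
  have hgg : g * g = 1 := by
    rw [hmem] at hg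
    rcases hg with rfl | rfl | rfl | rfl <;> simp [mul_assoc, hu, hz, hc, hu', hz', hc']
  have key : ∀ y : V, (y : P) = 1 ∨ (y : P) = g := by
    intro y
    obtain ⟨k, hk⟩ := Subgroup.mem_zpowers_iff.1 (hgen y)
    have hk' : g ^ k = (y : P) := by
      have := congrArg Subtype.val hk
      simpa using this
    have hg2 : g ^ (2 : ℤ) = 1 := by
      rw [zpow_two, hgg]
    rcases Int.even_or_odd' k with ⟨l, rfl | rfl⟩
    · left
      rw [← hk', zpow_mul, hg2, one_zpow]
    · right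
      rw [← hk', zpow_add, zpow_mul, hg2, one_zpow, one_mul, zpow_one]
  have h1 := key ⟨z, (hmem z).2 (by simp)⟩
  have h2 := key ⟨u, (hmem u).2 (by simp)⟩
  simp only at h1 h2
  rcases h1 with h1 | h1
  · exact hz1 h1
  · rcases h2 with h2 | h2
    · exact hu1 h2
    · exact huz (h2.trans h1.symm)

theorem arith_one (n r : ℕ) (hn : 3 ≤ n) (h : 2 ^ n ∣ r * r - 1) (h4 : r % 4 = 1) : 2 ^ (n - 1) ∣ r - 1 := by
  obtain ⟨t, rfl⟩ : ∃ t, r = 4 * t + 1 := ⟨r / 4, by omega⟩
  obtain ⟨m, rfl⟩ : ∃ m, n = m + 3 := ⟨n - 3, by omega⟩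
  have e : (4 * t + 1) * (4 * t + 1) - 1 = 8 * (t * (2 * t + 1)) := by
    have : (4 * t + 1) * (4 * t + 1) = 8 * (t * (2 * t + 1)) + 1 := by ring
    omega
  rw [e, pow_add, mul_comm] at h
  have h2 : 2 ^ m ∣ t * (2 * t + 1) := by
    norm_num at h
    exact Nat.dvd_of_mul_dvd_mul_left (by norm_num) h
  have hco : Nat.Coprime (2 ^ m) (2 * t + 1) := by
    apply Nat.Coprime.pow_left
    simp
  have h3 : 2 ^ m ∣ t := hco.dvd_of_dvd_mul_right h2
  have e2 : m + 3 - 1 = m + 2 := by omega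
  have e3 : 4 * t + 1 - 1 = t * 4 := by omega
  rw [e2, pow_add, e3]
  exact Nat.mul_dvd_mul h3 (by norm_num)

theorem arith_three (n r : ℕ) (hn : 3 ≤ n) (h : 2 ^ n ∣ r * r - 1) (h4 : r % 4 = 3) : 2 ^ (n - 1) ∣ r + 1 := by
  obtain ⟨t, rfl⟩ : ∃ t, r = 4 * t + 3 := ⟨r / 4, by omega⟩
  obtain ⟨m, rfl⟩ : ∃ m, n = m + 3 := ⟨n - 3, by omega⟩
  have e : (4 * t + 3) * (4 * t + 3) - 1 = 8 * ((t + 1) * (2 * t + 1)) := by
    have : (4 * t + 3) * (4 * t + 3) = 8 * ((t + 1) * (2 * t + 1)) + 1 := by ring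
    omega
  rw [e, pow_add, mul_comm] at h
  have h2 : 2 ^ m ∣ (t + 1) * (2 * t + 1) := by
    norm_num at h
    exact Nat.dvd_of_mul_dvd_mul_left (by norm_num) h
  have hco : Nat.Coprime (2 ^ m) (2 * t + 1) := by
    apply Nat.Coprime.pow_left
    simp
  have h3 : 2 ^ m ∣ t + 1 := hco.dvd_of_dvd_mul_right h2
  have e2 : m + 3 - 1 = m + 2 := by omega
  have e3 : 4 * t + 3 + 1 = (t + 1) * 4 := by ring
  rw [e2, pow_add, e3]
  exact Nat.mul_dvd_mul h3 (by norm_num)

theorem conj_pow_exp {g a : P} {r : ℕ} (h : g * a * g⁻¹ = a ^ r) (k : ℕ) :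
    g * a ^ k * g⁻¹ = a ^ (r * k) := by
  rw [← conj_pow, h, pow_mul]

theorem v4_step [Finite P] {a x : P} {s m : ℕ} (hs : s = 2 ^ m) (ha : orderOf a = 8 * s)
    (hA : (zpowers a).Normal) (hx : x ∉ zpowers a) (hxx : x * x ∈ zpowers a)
    (hxa : x * a * x⁻¹ = a ^ (1 + 4 * s)) (hcent : ∀ g : P, g * x * g⁻¹ * x⁻¹ ∈ zpowers a)
    (hzc : ∀ g : P, g * a ^ (4 * s) * g⁻¹ = a ^ (4 * s))
    (hk : ∀ u z : P, u * u = 1 → z * z = 1 → z ≠ 1 → u ≠ 1 → u ≠ z → z * u = u * z →
      (∀ g : P, g * z * g⁻¹ = z) → (∀ g : P, g * u * g⁻¹ = u ∨ g * u * g⁻¹ = u * z) → False) : False := by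
  have hs1 : 1 ≤ s := by rw [hs]; exact Nat.one_le_two_pow
  have hapos : 0 < orderOf a := by rw [ha]; omega
  obtain ⟨j, hj⟩ : ∃ j : ℕ, x * x = a ^ j := by
    obtain ⟨j, hj⟩ := (mem_powers_iff_mem_zpowers).2 hxx
    exact ⟨j, hj.symm⟩
  -- j is even
  have hj2 : 2 ∣ j := by
    have h1 := conj_pow_exp hxa j
    rw [← hj] at h1
    have h2 : x * (x * x) * x⁻¹ = x * x := by group
    rw [h2, hj] at h1
    have h3 : a ^ j = a ^ ((1 + 4 * s) * j) := h1
    rw [pow_eq_pow_iff_modEq, ha] at h3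
    have h4 := (Nat.modEq_iff_dvd' (by nlinarith)).1 h3
    have h5 : (1 + 4 * s) * j - j = 4 * s * j := by
      have : (1 + 4 * s) * j = 4 * s * j + j := by ring
      omega
    rw [h5] at h4
    have h6 : 8 * s = 4 * s * 2 := by ring
    rw [h6] at h4
    exact Nat.dvd_of_mul_dvd_mul_left (by omega) h4
  obtain ⟨i, rfl⟩ := hj2
  obtain ⟨w, hw⟩ : ∃ w, 10 * s = w + 1 := ⟨10 * s - 1, by omega⟩
  let c := a ^ (i * w)
  let u := x * c
  have hua : u * a * u⁻¹ = a ^ (1 + 4 * s) := by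
    show x * c * a * (x * c)⁻¹ = _
    have h1 : c * a = a * c := by
      show a ^ (i * w) * a = a * a ^ (i * w)
      rw [← pow_succ, ← pow_succ']
    calc x * c * a * (x * c)⁻¹ = x * (c * a) * c⁻¹ * x⁻¹ := by group
      _ = x * (a * c) * c⁻¹ * x⁻¹ := by rw [h1]
      _ = x * a * x⁻¹ := by group
      _ = _ := hxa
  have huu : u * u = 1 := by
    show x * c * (x * c) = 1
    have h1 : x * c * x⁻¹ = a ^ ((1 + 4 * s) * (i * w)) := conj_pow_exp hxa _
    have h2 : x * c * (x * c) = (x * c * x⁻¹) * (x * x) * c := by group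
    rw [h2, h1, hj, ← pow_add, ← pow_add, ← orderOf_dvd_iff_pow_eq_one, ha]
    refine ⟨i * (2 + 5 * s), ?_⟩
    have hw' : (w : ℤ) = 10 * s - 1 := by
      have : ((10 * s : ℕ) : ℤ) = ((w + 1 : ℕ) : ℤ) := by rw [hw]
      push_cast at this
      linarith
    zify
    rw [hw']
    ring
  have hcA : c ∈ zpowers a := Subgroup.pow_mem _ (Subgroup.mem_zpowers a) _
  have hu1 : u ∉ zpowers a := by
    intro h
    apply hx
    have : x = u * c⁻¹ := by
      show x = x * c * c⁻¹
      group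
    rw [this]
    exact Subgroup.mul_mem _ h (Subgroup.inv_mem _ hcA)
  let z := a ^ (4 * s)
  have hzA : z ∈ zpowers a := Subgroup.pow_mem _ (Subgroup.mem_zpowers a) _
  have hzz : z * z = 1 := by
    show a ^ (4 * s) * a ^ (4 * s) = 1
    rw [← pow_add, ← orderOf_dvd_iff_pow_eq_one, ha]
    exact ⟨1, by ring⟩
  have hz1 : z ≠ 1 := by
    show a ^ (4 * s) ≠ 1
    apply pow_ne_one_of_lt_orderOf (by omega)
    rw [ha]; omega
  have hu_ne : u ≠ 1 := fun h => hu1 (h ▸ Subgroup.one_mem _)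
  have huz : u ≠ z := fun h => hu1 (h ▸ hzA)
  refine hk u z huu hzz hz1 hu_ne huz ?_ hzc ?_
  · have := hzc u
    calc z * u = (u * z * u⁻¹) * u := by rw [this]
      _ = u * z := by group
  · intro g
    -- `u⁻¹ * (g u g⁻¹)` lies in `⟨a⟩`
    have h1 : u⁻¹ * (g * u * g⁻¹) ∈ zpowers a := by
      have e : u⁻¹ * (g * u * g⁻¹) =
          c⁻¹ * (x⁻¹ * (g * x * g⁻¹ * x⁻¹) * x) * (g * c * g⁻¹) := by
        show (x * c)⁻¹ * (g * (x * c) * g⁻¹) = _
        group
      rw [e]
      refine Subgroup.mul_mem _ (Subgroup.mul_mem _ (Subgroup.inv_mem _ hcA) ?_) (hA.conj_mem _ hcA g)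
      have := hA.conj_mem _ (hcent g) x⁻¹
      simpa using this
    obtain ⟨k, hk'⟩ := (mem_powers_iff_mem_zpowers).2 h1
    have hk2 : g * u * g⁻¹ = u * a ^ k := by
      show g * u * g⁻¹ = u * a ^ k
      rw [show a ^ k = u⁻¹ * (g * u * g⁻¹) from hk']
      group
    have h2 : (g * u * g⁻¹) * (g * u * g⁻¹) = 1 := by
      have : (g * u * g⁻¹) * (g * u * g⁻¹) = g * (u * u) * g⁻¹ := by group
      rw [this, huu]; simp
    rw [hk2] at h2
    have h3 : u * a ^ k * u⁻¹ = a ^ ((1 + 4 * s) * k) := conj_pow_exp hua k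
    have huinv : u⁻¹ = u := inv_eq_of_mul_eq_one_left huu
    have h4 : u * a ^ k * (u * a ^ k) = a ^ ((1 + 4 * s) * k) * a ^ k := by
      rw [← h3, huinv]
      have : u * a ^ k * u * a ^ k = u * a ^ k * (u * a ^ k) := by group
      rw [this]
    rw [h4, ← pow_add, ← orderOf_dvd_iff_pow_eq_one, ha] at h2
    have h5 : (1 + 4 * s) * k + k = 2 * ((1 + 2 * s) * k) := by ring
    rw [h5] at h2
    have h6 : 8 * s = 2 * (4 * s) := by ring
    rw [h6] at h2
    have h7 : 4 * s ∣ (1 + 2 * s) * k := Nat.dvd_of_mul_dvd_mul_left (by norm_num) h2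
    have hco : Nat.Coprime (4 * s) (1 + 2 * s) := by
      have : 4 * s = 2 ^ (m + 2) := by rw [hs, pow_add]; ring
      rw [this]
      apply Nat.Coprime.pow_left
      simp
    obtain ⟨l, rfl⟩ := hco.dvd_of_dvd_mul_left h7
    rcases Nat.even_or_odd' l with ⟨l', rfl | rfl⟩
    · left
      rw [hk2]
      have : a ^ (4 * s * (2 * l')) = 1 := by
        rw [← orderOf_dvd_iff_pow_eq_one, ha]
        exact ⟨l', by ring⟩
      rw [this, mul_one]
    · right
      rw [hk2]
      congr 1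
      show a ^ (4 * s * (2 * l' + 1)) = a ^ (4 * s)
      rw [pow_eq_pow_iff_modEq, ha]
      have : 4 * s * (2 * l' + 1) = 8 * s * l' + 4 * s := by ring
      rw [this]
      simp [Nat.ModEq]


/-- Let P be a finite p-group in which every abelian normal subgroup is cyclic, but which has a non-cyclic abelian
subgroup. Then p = 2 and P is generalized quaternion, dihedral of order at least 16, or quasi-dihedral. -/
theorem result {P : Type*} [Group P] [Finite P] (p : ℕ) [Fact p.Prime]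
    (hP : IsPGroup p P) (hn : ∀ A : Subgroup P, A.Normal → IsMulCommutative A → IsCyclic A)
    (hm : ∃ B : Subgroup P, IsMulCommutative B ∧ ¬ IsCyclic B) :
    p = 2 ∧ ((∃ n : ℕ, Nonempty (P ≃* QuaternionGroup n)) ∨ (∃ n : ℕ, 8 ≤ n ∧ Nonempty (P ≃* DihedralGroup n)) ∨
      Cfsg.IsQuasiDihedral P) := by
  classical
  have hnc : ¬ IsCyclic P := by
    intro hc
    obtain ⟨B, _, hB⟩ := hm
    exact hB inferInstance
  have hp2 : p = 2 := by
    by_contra hp2
    obtain ⟨E, hEn, hEe, hEc⟩ := Cfsg.Agent.Lib.Transfer.exists_normal_elementary_sq hp2 hP hnc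
    have hEc' : IsMulCommutative E := hEe.1
    haveI := hn E hEn hEc'
    obtain ⟨⟨g, hg⟩, hgen⟩ := IsCyclic.exists_generator (α := E)
    have hpp : p.Prime := Fact.out
    have hord : orderOf (⟨g, hg⟩ : E) = Nat.card E := orderOf_eq_card_of_forall_mem_zpowers hgen
    have hgp : (⟨g, hg⟩ : E) ^ p = 1 := Subtype.ext (hEe.2 g hg)
    have := orderOf_le_of_pow_eq_one hpp.pos hgp
    rw [hord, hEc] at this
    have h2 := hpp.two_le
    nlinarith
  subst hp2
  refine ⟨rfl, ?_⟩
  have hk := fun u z hu hz hz1 hu1 huz hc hzc huc => no_klein hn u z hu hz hz1 hu1 huz hc hzc huc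
  obtain ⟨A, hAm⟩ := (Set.toFinite {A : Subgroup P | A.Normal ∧ IsMulCommutative A}).exists_maximal
    ⟨⊥, inferInstance, ⟨⟨fun x y => Subsingleton.elim _ _⟩⟩⟩
  obtain ⟨hAn, hAc⟩ := hAm.prop
  haveI := hAn
  haveI := hn A hAn hAc
  obtain ⟨a, rfl⟩ := (Subgroup.isCyclic_iff_exists_zpowers_eq_top A).1 inferInstance
  -- the cyclic subgroup is self-centralizing
  have hself : ∀ g : P, g * a = a * g → g ∈ zpowers a := by
    by_contra hcon
    push Not at hcon
    obtain ⟨g, hga, hgA⟩ := hcon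
    have hcomm : ∀ c ∈ zpowers a, ∀ d ∈ zpowers a, c * d = d * c := by
      intro c hc d hd
      obtain ⟨i, rfl⟩ := Subgroup.mem_zpowers_iff.1 hc
      obtain ⟨j, rfl⟩ := Subgroup.mem_zpowers_iff.1 hd
      exact (Commute.zpow_zpow_self a i j)
    let C := Subgroup.centralizer (zpowers a : Set P)
    haveI hCn : C.Normal := inferInstance
    have hmemC : ∀ y, y ∈ C ↔ ∀ c ∈ zpowers a, c * y = y * c := fun y => Subgroup.mem_centralizer_iff
    have hAC : zpowers a < C := by
      refine lt_of_le_of_ne ?_ ?_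
      · intro c hc
        rw [hmemC]
        intro d hd
        exact hcomm d hd c hc
      · intro h
        apply hgA
        rw [h, hmemC]
        intro c hc
        obtain ⟨i, rfl⟩ := Subgroup.mem_zpowers_iff.1 hc
        exact ((Commute.zpow_right (a := g) (b := a) hga i).symm)
    obtain ⟨x, hxC, hxA, _, hxc⟩ := exists_central_step hP (zpowers a) C hAC
    have hxc' : ∀ c ∈ zpowers a, Commute x c := fun c hc => ((hmemC x).1 hxC c hc).symm
    have hxcen : ∀ g : P ⧸ zpowers a, g * (x : P ⧸ zpowers a) = (x : P ⧸ zpowers a) * g := by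
      intro g
      obtain ⟨g, rfl⟩ := QuotientGroup.mk_surjective g
      have h1 := (QuotientGroup.eq_one_iff _).2 (hxc g)
      have h2 : ((g : P ⧸ zpowers a) * (x : P ⧸ zpowers a) * (g : P ⧸ zpowers a)⁻¹ * (x : P ⧸ zpowers a)⁻¹) = 1 := h1
      have h3 : (g : P ⧸ zpowers a) * (x : P ⧸ zpowers a) = (x : P ⧸ zpowers a) * (g : P ⧸ zpowers a) := by
        calc (g : P ⧸ zpowers a) * (x : P ⧸ zpowers a)
            = ((g : P ⧸ zpowers a) * (x : P ⧸ zpowers a) * (g : P ⧸ zpowers a)⁻¹ * (x : P ⧸ zpowers a)⁻¹)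
              * ((x : P ⧸ zpowers a) * (g : P ⧸ zpowers a)) := by group
          _ = _ := by rw [h2, one_mul]
      exact h3
    let M : Subgroup P := (zpowers (x : P ⧸ zpowers a)).comap (QuotientGroup.mk' (zpowers a))
    have hmemM : ∀ y, y ∈ M ↔ ∃ k : ℤ, (x : P ⧸ zpowers a) ^ k = (y : P ⧸ zpowers a) :=
      fun y => Subgroup.mem_zpowers_iff
    have hMn : M.Normal := by
      constructor
      intro y hy g
      rw [hmemM] at hy ⊢
      obtain ⟨k, hk'⟩ := hy
      refine ⟨k, ?_⟩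
      have h1 : Commute (g : P ⧸ zpowers a) ((x : P ⧸ zpowers a) ^ k) := (Commute.zpow_right (hxcen g) k)
      have h2 : ((g * y * g⁻¹ : P) : P ⧸ zpowers a) = (g : P ⧸ zpowers a) * (y : P ⧸ zpowers a) * (g : P ⧸ zpowers a)⁻¹ := rfl
      rw [h2, ← hk', h1.eq]
      group
    have hform : ∀ y ∈ M, ∃ (i : ℤ) (c : P), c ∈ zpowers a ∧ y = x ^ i * c := by
      intro y hy
      obtain ⟨k, hk'⟩ := (hmemM y).1 hy
      refine ⟨k, (x ^ k)⁻¹ * y, ?_, by group⟩
      have h1 : ((x ^ k : P) : P ⧸ zpowers a) = (y : P ⧸ zpowers a) := by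
        rw [← hk']; rfl
      exact QuotientGroup.eq.1 h1
    have hMc : IsMulCommutative M := by
      refine ⟨⟨?_⟩⟩
      rintro ⟨y, hy⟩ ⟨w, hw⟩
      apply Subtype.ext
      show y * w = w * y
      obtain ⟨i, c, hc, rfl⟩ := hform y hy
      obtain ⟨j, d, hd, rfl⟩ := hform w hw
      have h1 : Commute (x ^ i) (x ^ j) := Commute.zpow_zpow_self x i j
      have h2 : Commute (x ^ i) d := (hxc' d hd).zpow_left i
      have h3 : Commute c (x ^ j) := ((hxc' c hc).zpow_left j).symm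
      have h4 : Commute c d := hcomm c hc d hd
      exact ((h1.mul_right h2).mul_left (h3.mul_right h4))
    have hle : zpowers a ≤ M := by
      intro c hc
      rw [hmemM]
      refine ⟨0, ?_⟩
      rw [zpow_zero]
      exact ((QuotientGroup.eq_one_iff c).2 hc).symm
    have hxM : x ∈ M := by
      rw [hmemM]
      exact ⟨1, by simp⟩
    exact hxA (hAm.le_of_ge ⟨hMn, hMc⟩ hle hxM)
  have hAne : ∃ x, x ∉ zpowers a := by
    by_contra hcon
    push Not at hcon
    exact hnc ⟨⟨a, hcon⟩⟩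
  obtain ⟨n, hord⟩ := IsPGroup.iff_orderOf.1 hP a
  have hconj : ∀ g : P, ∃ r : ℕ, g * a * g⁻¹ = a ^ r := by
    intro g
    have : g * a * g⁻¹ ∈ zpowers a := hAn.conj_mem a (Subgroup.mem_zpowers a) g
    obtain ⟨r, hr⟩ := (mem_powers_iff_mem_zpowers).2 this
    exact ⟨r, hr.symm⟩
  have hn0 : n ≠ 0 := by
    rintro rfl
    rw [pow_zero, orderOf_eq_one_iff] at hord
    obtain ⟨x, hx⟩ := hAne
    exact hx (hself x (by simp [hord]))
  have hodd : ∀ (g : P) (r : ℕ), g * a * g⁻¹ = a ^ r → Odd r := by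
    intro g r h
    by_contra hev
    rw [Nat.not_odd_iff_even] at hev
    obtain ⟨l, rfl⟩ := hev
    obtain ⟨n', rfl⟩ := Nat.exists_eq_succ_of_ne_zero hn0
    have h1 := conj_pow_exp h (2 ^ n')
    have h2 : a ^ ((l + l) * 2 ^ n') = 1 := by
      rw [← orderOf_dvd_iff_pow_eq_one, hord]
      exact ⟨l, by rw [pow_succ]; ring⟩
    rw [h2] at h1
    have h3 : a ^ 2 ^ n' = 1 := by
      have := congrArg (fun t => g⁻¹ * t * g) h1
      simpa [mul_assoc] using this
    have h4 := orderOf_dvd_of_pow_eq_one h3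
    rw [hord] at h4
    have h5 := Nat.le_of_dvd (by positivity) h4
    rw [Nat.pow_le_pow_iff_right (by norm_num)] at h5
    omega
  have hn1 : n ≠ 1 := by
    rintro rfl
    obtain ⟨x, hx⟩ := hAne
    obtain ⟨r, hr⟩ := hconj x
    obtain ⟨l, rfl⟩ := hodd x r hr
    have ha2 : a ^ 2 = 1 := by rw [← orderOf_dvd_iff_pow_eq_one, hord]; simp
    have h1 : a ^ (2 * l + 1) = a := by
      rw [pow_succ, pow_mul, ha2, one_pow, one_mul]
    rw [h1] at hr
    apply hx
    apply hself
    calc x * a = (x * a * x⁻¹) * x := by group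
      _ = a * x := by rw [hr]
  obtain ⟨n3, rfl⟩ : ∃ n3, n = n3 + 2 := ⟨n - 2, by omega⟩
  have hodd' : ∀ (g : P) (r : ℕ), g * a * g⁻¹ = a ^ r → r % 4 = 1 ∨ r % 4 = 3 := by
    intro g r h
    obtain ⟨l, rfl⟩ := hodd g r h
    omega
  let t : ℕ := 2 ^ n3
  have ht1 : 1 ≤ t := Nat.one_le_two_pow
  have hordt : orderOf a = 4 * t := by rw [hord]; simp only [t]; rw [pow_add]; ring
  have hapos : 0 < orderOf a := by rw [hordt]; omega
  let b : P := a ^ t
  have hb4 : b ^ 4 = 1 := by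
    show (a ^ t) ^ 4 = 1
    rw [← pow_mul, ← orderOf_dvd_iff_pow_eq_one, hordt, mul_comm]
  have hbconj : ∀ (g : P) (r : ℕ), g * a * g⁻¹ = a ^ r → g * b * g⁻¹ = b ^ r := by
    intro g r h
    show g * a ^ t * g⁻¹ = (a ^ t) ^ r
    rw [conj_pow_exp h t, ← pow_mul, mul_comm]
  have hb_1 : ∀ r : ℕ, r % 4 = 1 → b ^ r = b := by
    intro r hr
    obtain ⟨q, rfl⟩ : ∃ q, r = 4 * q + 1 := ⟨r / 4, by omega⟩
    rw [pow_succ, pow_mul, hb4, one_pow, one_mul]
  have hb_3 : ∀ r : ℕ, r % 4 = 3 → b ^ r = b⁻¹ := by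
    intro r hr
    obtain ⟨q, rfl⟩ : ∃ q, r = 4 * q + 3 := ⟨r / 4, by omega⟩
    rw [pow_add, pow_mul, hb4, one_pow, one_mul]
    apply eq_inv_of_mul_eq_one_left
    rw [← pow_succ, hb4]
  have hbb : b ≠ b⁻¹ := by
    intro h
    have h1 : b * b = 1 := by
      nth_rw 1 [h]
      simp
    have h2 : a ^ (2 * t) = 1 := by
      rw [two_mul, pow_add]; exact h1
    have h3 := orderOf_dvd_of_pow_eq_one h2
    rw [hordt] at h3
    have := Nat.le_of_dvd (by omega) h3
    omega
  have hsign : ∀ g : P, g * b * g⁻¹ = b ∨ g * b * g⁻¹ = b⁻¹ := by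
    intro g
    obtain ⟨r, hr⟩ := hconj g
    rcases hodd' g r hr with h | h
    · left; rw [hbconj g r hr, hb_1 r h]
    · right; rw [hbconj g r hr, hb_3 r h]
  have hzc : ∀ g : P, g * a ^ (2 * t) * g⁻¹ = a ^ (2 * t) := by
    intro g
    obtain ⟨r, hr⟩ := hconj g
    obtain ⟨l, rfl⟩ := hodd g r hr
    rw [conj_pow_exp hr, pow_eq_pow_iff_modEq, hordt]
    have : (2 * l + 1) * (2 * t) = 4 * t * l + 2 * t := by ring
    rw [this]
    simp [Nat.ModEq]
  have hrr : ∀ (x : P) (r : ℕ), x * x ∈ zpowers a → x * a * x⁻¹ = a ^ r → orderOf a ∣ r * r - 1 := by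
    intro x r hxx hxa
    obtain ⟨j, hj⟩ := (mem_powers_iff_mem_zpowers).2 hxx
    have h1 : (x * x) * a * (x * x)⁻¹ = a := by
      rw [← hj]
      have c : Commute (a ^ j) a := (Commute.refl a).pow_left j
      rw [c.eq]
      group
    have h2 : (x * x) * a * (x * x)⁻¹ = x * (x * a * x⁻¹) * x⁻¹ := by group
    rw [h2, hxa, conj_pow_exp hxa] at h1
    have h3 : a ^ (r * r) = a ^ 1 := by rw [h1, pow_one]
    rw [pow_eq_pow_iff_modEq] at h3
    obtain ⟨l, rfl⟩ := hodd x r hxa
    exact (Nat.modEq_iff_dvd' (by nlinarith)).1 h3.symm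
  let D : Subgroup P := Subgroup.centralizer {b}
  have hmemD : ∀ y, y ∈ D ↔ y * b = b * y := by
    intro y
    rw [Subgroup.mem_centralizer_singleton_iff]
  haveI hDn : D.Normal := by
    constructor
    intro y hy g
    rw [hmemD] at hy ⊢
    have h1 : y * (g⁻¹ * b * g) = (g⁻¹ * b * g) * y := by
      have h2 := hsign g⁻¹
      rw [inv_inv] at h2
      rcases h2 with h2 | h2
      · rw [h2, hy]
      · rw [h2]
        have : y * b⁻¹ = b⁻¹ * y := by
          have := (Commute.inv_right (show Commute y b from hy))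
          exact this
        exact this
    calc g * y * g⁻¹ * b = g * (y * (g⁻¹ * b * g)) * g⁻¹ := by group
      _ = g * ((g⁻¹ * b * g) * y) * g⁻¹ := by rw [h1]
      _ = b * (g * y * g⁻¹) := by group
  have hAD : zpowers a ≤ D := by
    intro c hc
    rw [hmemD]
    obtain ⟨i, rfl⟩ := Subgroup.mem_zpowers_iff.1 hc
    show a ^ i * a ^ t = a ^ t * a ^ i
    have := (Commute.zpow_zpow_self a i (t : ℤ))
    simpa using this.eq
  have hDA : ∀ y : P, y * b = b * y → y ∈ zpowers a := by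
    by_contra hcon
    push Not at hcon
    obtain ⟨y, hy, hyA⟩ := hcon
    have hlt : zpowers a < D := lt_of_le_of_ne hAD (fun h => hyA (h ▸ (hmemD y).2 hy))
    obtain ⟨x, hxD, hxA, hxp, hxc⟩ := exists_central_step hP (zpowers a) D hlt
    have hxx : x * x ∈ zpowers a := by rwa [pow_two] at hxp
    obtain ⟨r, hr⟩ := hconj x
    have hxb : x * b * x⁻¹ = b := by
      rw [(hmemD x).1 hxD]; group
    have hr1 : r % 4 = 1 := by
      rcases hodd' x r hr with h | h
      · exact h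
      · exfalso
        rw [hbconj x r hr, hb_3 r h] at hxb
        exact hbb hxb.symm
    have hcomm : x * a * x⁻¹ ≠ a := by
      intro h
      apply hxA
      apply hself
      calc x * a = (x * a * x⁻¹) * x := by group
        _ = a * x := by rw [h]
    rcases Nat.eq_zero_or_pos n3 with rfl | hn3
    · apply hcomm
      rw [hr]
      nth_rw 2 [← pow_one a]
      rw [pow_eq_pow_iff_modEq, hord]
      simp only [Nat.ModEq]
      omega
    · obtain ⟨m, rfl⟩ : ∃ m, n3 = m + 1 := ⟨n3 - 1, by omega⟩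
      have h1 := hrr x r hxx hr
      rw [hord] at h1
      have h2 : 2 ^ (m + 3 - 1) ∣ r - 1 := arith_one (m + 3) r (by omega) (by
        have e : m + 3 = m + 1 + 2 := by ring
        rw [e]; exact h1) hr1
      have e4 : 2 ^ (m + 3 - 1) = 4 * 2 ^ m := by
        have : m + 3 - 1 = m + 2 := by omega
        rw [this, pow_add]; ring
      rw [e4] at h2
      obtain ⟨l, hl⟩ := h2
      have hrl : r = 1 + 4 * 2 ^ m * l := by omega
      have hord8 : orderOf a = 8 * 2 ^ m := by
        rw [hord]; rw [show m + 1 + 2 = m + 3 by ring, pow_add]; ring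
      rcases Nat.even_or_odd' l with ⟨l', rfl | rfl⟩
      · apply hcomm
        rw [hr]
        nth_rw 2 [← pow_one a]
        rw [pow_eq_pow_iff_modEq, hord8, hrl]
        have : 1 + 4 * 2 ^ m * (2 * l') = 1 + 8 * 2 ^ m * l' := by ring
        rw [this]
        simp [Nat.ModEq]
      · have hxa : x * a * x⁻¹ = a ^ (1 + 4 * 2 ^ m) := by
          rw [hr, pow_eq_pow_iff_modEq, hord8, hrl]
          have : 1 + 4 * 2 ^ m * (2 * l' + 1) = 1 + 4 * 2 ^ m + 8 * 2 ^ m * l' := by ring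
          rw [this]
          simp [Nat.ModEq]
        have hzc' : ∀ g : P, g * a ^ (4 * 2 ^ m) * g⁻¹ = a ^ (4 * 2 ^ m) := by
          intro g
          have := hzc g
          have e : 2 * t = 4 * 2 ^ m := by
            simp only [t]; rw [pow_succ]; ring
          rwa [e] at this
        exact v4_step (s := 2 ^ m) (m := m) rfl hord8 hAn hxA hxx hxa hxc hzc' hk
  obtain ⟨x, hx⟩ := hAne
  have hxb : x * b * x⁻¹ = b⁻¹ := by
    rcases hsign x with h | h
    · exfalso
      apply hx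
      apply hDA
      calc x * b = (x * b * x⁻¹) * x := by group
        _ = b * x := by rw [h]
    · exact h
  have hgx : ∀ g : P, g ∉ zpowers a → g * x ∈ zpowers a := by
    intro g hg
    have hgb : g * b * g⁻¹ = b⁻¹ := by
      rcases hsign g with h | h
      · exfalso
        apply hg
        apply hDA
        calc g * b = (g * b * g⁻¹) * g := by group
          _ = b * g := by rw [h]
      · exact h
    apply hDA
    have h1 : (g * x) * b * (g * x)⁻¹ = b := by
      have e : (g * x) * b * (g * x)⁻¹ = g * (x * b * x⁻¹) * g⁻¹ := by group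
      rw [e, hxb]
      have e2 : g * b⁻¹ * g⁻¹ = (g * b * g⁻¹)⁻¹ := by group
      rw [e2, hgb, inv_inv]
    calc (g * x) * b = ((g * x) * b * (g * x)⁻¹) * (g * x) := by group
      _ = b * (g * x) := by rw [h1]
  have hxx : x * x ∈ zpowers a := hgx x hx
  have hindex : (zpowers a).index = 2 := by
    rw [Subgroup.index_eq_two_iff]
    refine ⟨x, fun g => ?_⟩
    by_cases hg : g ∈ zpowers a
    · right
      refine ⟨hg, fun h => hx ?_⟩
      have : x = g⁻¹ * (g * x) := by group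
      rw [this]
      exact Subgroup.mul_mem _ (Subgroup.inv_mem _ hg) h
    · left
      exact ⟨hgx g hg, hg⟩
  have hcard : Nat.card P = 2 ^ (n3 + 2) * 2 := by
    rw [← Subgroup.card_mul_index (zpowers a), Nat.card_zpowers, hord, hindex]
  obtain ⟨r, hr⟩ := hconj x
  have hr3 : r % 4 = 3 := by
    rcases hodd' x r hr with h | h
    · exfalso
      rw [hbconj x r hr, hb_1 r h] at hxb
      exact hbb hxb
    · exact h
  have hdvd : 2 ^ (n3 + 1) ∣ r + 1 := by
    rcases Nat.eq_zero_or_pos n3 with rfl | hn3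
    · simp only [zero_add, pow_one]
      omega
    · obtain ⟨m, rfl⟩ : ∃ m, n3 = m + 1 := ⟨n3 - 1, by omega⟩
      have h1 := hrr x r hxx hr
      rw [hord] at h1
      exact arith_three (m + 1 + 2) r (by omega) h1 hr3
  obtain ⟨j, hj⟩ : ∃ j, x * x = a ^ j := by
    obtain ⟨j, hj⟩ := (mem_powers_iff_mem_zpowers).2 hxx
    exact ⟨j, hj.symm⟩
  have hjj : x * x = 1 ∨ x * x = a ^ (2 ^ (n3 + 1)) := by
    have h1 := conj_pow_exp hr j
    rw [← hj] at h1
    have h2 : x * (x * x) * x⁻¹ = x * x := by group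
    rw [h2, hj, pow_eq_pow_iff_modEq, hord] at h1
    have h3 := (h1.add_right j)
    have e1 : r * j + j = (r + 1) * j := by ring
    have e2 : j + j = 2 * j := by ring
    rw [e2, e1] at h3
    have hj2 : Even j := by
      have h4 : 4 ∣ 2 ^ (n3 + 2) := ⟨2 ^ n3, by rw [pow_add]; ring⟩
      have h5 : 2 * j ≡ (r + 1) * j [MOD 4] := (h3.of_dvd h4)
      have h6 : 4 ∣ (r + 1) * j := Dvd.dvd.mul_right (by omega) j
      have h7 : 4 ∣ 2 * j := (Nat.modEq_zero_iff_dvd.1 (h5.trans (Nat.modEq_zero_iff_dvd.2 h6)))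
      rw [Nat.even_iff]
      omega
    obtain ⟨i, rfl⟩ := hj2
    have h8 : 2 ^ (n3 + 2) ∣ (r + 1) * (i + i) := by
      obtain ⟨l, hl⟩ := hdvd
      rw [hl]
      exact ⟨l * i, by rw [pow_succ (n := n3 + 1)]; ring⟩
    have h9 : 2 ^ (n3 + 2) ∣ 2 * (i + i) := by
      exact (Nat.modEq_zero_iff_dvd.1 (h3.trans (Nat.modEq_zero_iff_dvd.2 h8)))
    have h10 : 2 ^ (n3 + 1) ∣ i + i := by
      rw [pow_succ (n := n3 + 1), mul_comm] at h9
      exact Nat.dvd_of_mul_dvd_mul_left (by norm_num) h9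
    obtain ⟨k, hk'⟩ := h10
    rw [hj, hk']
    rcases Nat.even_or_odd' k with ⟨k', rfl | rfl⟩
    · left
      rw [← orderOf_dvd_iff_pow_eq_one, hord]
      exact ⟨k', by rw [pow_succ (n := n3 + 1)]; ring⟩
    · right
      rw [pow_eq_pow_iff_modEq, hord]
      have : 2 ^ (n3 + 1) * (2 * k' + 1) = 2 ^ (n3 + 1) + 2 ^ (n3 + 2) * k' := by
        rw [pow_succ (n := n3 + 1)]; ring
      rw [this]
      simp [Nat.ModEq]
  obtain ⟨l, hl⟩ := hdvd
  rcases Nat.even_or_odd' l with ⟨l', rfl | rfl⟩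
  · -- inverting case
    have hxa : x * a * x⁻¹ = a⁻¹ := by
      rw [hr]
      apply eq_inv_of_mul_eq_one_left
      rw [← pow_succ, hl, ← orderOf_dvd_iff_pow_eq_one, hord]
      exact ⟨l', by rw [pow_succ (n := n3 + 1)]; ring⟩
    rcases hjj with h1 | h1
    · by_cases hn3 : n3 = 0
      · exfalso
        subst hn3
        have hord4 : orderOf a = 4 := by rw [hord]; norm_num
        have ha2 : a ^ 2 * a ^ 2 = 1 := by
          rw [← pow_add, ← orderOf_dvd_iff_pow_eq_one, hord4]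
        have hz1 : a ^ 2 ≠ 1 := pow_ne_one_of_lt_orderOf (by norm_num) (by omega)
        have hxinv : x⁻¹ = x := inv_eq_of_mul_eq_one_left h1
        have hzA : a ^ 2 ∈ zpowers a := Subgroup.pow_mem _ (Subgroup.mem_zpowers a) _
        have hzc2 : ∀ g : P, g * a ^ 2 * g⁻¹ = a ^ 2 := by
          intro g
          have := hzc g
          simpa [t] using this
        refine hk x (a ^ 2) h1 ha2 hz1 (fun h => hx (h ▸ Subgroup.one_mem _)) (fun h => hx (h ▸ hzA)) ?_ hzc2 ?_
        · have := hzc2 x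
          calc a ^ 2 * x = (x * a ^ 2 * x⁻¹) * x := by rw [this]
            _ = x * a ^ 2 := by group
        · have hcase : ∀ c ∈ zpowers a, c * x * c⁻¹ = x ∨ c * x * c⁻¹ = x * a ^ 2 := by
            intro c hc
            obtain ⟨k, hk'⟩ := (mem_powers_iff_mem_zpowers).2 (Subgroup.inv_mem _ hc)
            have hcinv : c⁻¹ = a ^ k := hk'.symm
            have hxc : x * c⁻¹ * x⁻¹ = c := by
              rw [hcinv, ← conj_pow, hxa, inv_pow, ← hcinv, inv_inv]
            have e : c * x * c⁻¹ = x * (c⁻¹ * c⁻¹) := by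
              nth_rw 1 [← hxc]
              rw [hxinv]
              have : x * c⁻¹ * x * x * c⁻¹ = x * c⁻¹ * (x * x) * c⁻¹ := by group
              rw [this, h1]
              group
            have e2 : c⁻¹ * c⁻¹ = (a ^ 2) ^ k := by
              rw [hcinv, ← pow_add, ← pow_mul]
              congr 1
              ring
            rw [e, e2]
            rcases Nat.even_or_odd' k with ⟨k', rfl | rfl⟩
            · left
              have : (a ^ 2) ^ (2 * k') = 1 := by
                rw [← pow_mul, show 2 * (2 * k') = 4 * k' by ring, pow_mul, ← hord4, pow_orderOf_eq_one, one_pow]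
              rw [this, mul_one]
            · right
              have : (a ^ 2) ^ (2 * k' + 1) = a ^ 2 := by
                rw [pow_succ, ← pow_mul, show 2 * (2 * k') = 4 * k' by ring, pow_mul, ← hord4, pow_orderOf_eq_one, one_pow, one_mul]
              rw [this]
          intro g
          by_cases hg : g ∈ zpowers a
          · exact hcase g hg
          · have h2 := hcase (g * x) (hgx g hg)
            have e : (g * x) * x * (g * x)⁻¹ = g * x * g⁻¹ := by
              have : (g * x) * x * (g * x)⁻¹ = g * (x * x) * x⁻¹ * g⁻¹ := by group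
              rw [this, h1, hxinv]; group
            rwa [e] at h2
      · right; left
        refine ⟨2 ^ (n3 + 2), ?_, ?_⟩
        · obtain ⟨m, rfl⟩ : ∃ m, n3 = m + 1 := ⟨n3 - 1, by omega⟩
          have e : 2 ^ (m + 1 + 2) = 8 * 2 ^ m := by
            rw [show m + 1 + 2 = m + 3 by ring, pow_add]; ring
          rw [e]
          have : 1 ≤ 2 ^ m := Nat.one_le_two_pow
          omega
        · exact Cfsg.Agent.Lib.TwoGroups.nonempty_mulEquiv_dihedral_of a x hord h1 hxa hx (by rw [hcard]; ring)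
    · left
      refine ⟨2 ^ (n3 + 1), ?_⟩
      exact Cfsg.Agent.Lib.TwoGroups.nonempty_mulEquiv_quaternion_of a x
        (by rw [hord, pow_succ (n := n3 + 1)]; ring) h1 hxa hx (by rw [hcard, pow_succ (n := n3 + 1)]; ring)
  · -- semidihedral case
    have hn3 : n3 ≠ 0 := by
      rintro rfl
      simp only [zero_add, pow_one] at hl
      omega
    have he1 : 1 ≤ 2 ^ (n3 + 1) := Nat.one_le_two_pow
    have hxa : x * a * x⁻¹ = a ^ (2 ^ (n3 + 1) - 1) := by
      rw [hr]
      apply mul_right_cancel (b := a)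
      rw [← pow_succ, ← pow_succ, Nat.sub_add_cancel he1, hl, pow_eq_pow_iff_modEq, hord]
      have : 2 ^ (n3 + 1) * (2 * l' + 1) = 2 ^ (n3 + 1) + 2 ^ (n3 + 2) * l' := by
        rw [pow_succ (n := n3 + 1)]; ring
      rw [this]
      simp [Nat.ModEq]
    right; right
    refine ⟨n3 + 2, by omega, by rw [hcard, pow_succ (n := n3 + 2)], ?_⟩
    rcases hjj with h1 | h1
    · refine ⟨a, x, hord, ?_, hxa⟩
      exact orderOf_eq_prime (by rw [pow_two, h1]) (fun h => hx (h ▸ Subgroup.one_mem _))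
    · refine ⟨a, x * a, hord, ?_, ?_⟩
      · apply orderOf_eq_prime
        · have e : (x * a) ^ 2 = (x * a * x⁻¹) * (x * x) * a := by
            rw [pow_two]; group
          rw [e, hxa, h1, ← pow_add, ← pow_succ, ← orderOf_dvd_iff_pow_eq_one, hord]
          refine ⟨1, ?_⟩
          have : 2 ^ (n3 + 1) - 1 + 2 ^ (n3 + 1) + 1 = 2 ^ (n3 + 1) + 2 ^ (n3 + 1) := by omega
          rw [this, pow_succ (n := n3 + 1)]; ring
        · intro h
          apply hx
          have : x = a⁻¹ := eq_inv_of_mul_eq_one_left h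
          rw [this]
          exact Subgroup.inv_mem _ (Subgroup.mem_zpowers a)
      · have e : (x * a) * a * (x * a)⁻¹ = x * a * x⁻¹ := by group
        rw [e]
        exact hxa

end Cfsg.Agent.S0519
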