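import Cfsg.Statements.S0520
import Mathlib
import Cfsg.Agent.Lib.Invol.Four
import Cfsg.Agent.Lib.Transfer.Frobenius

set_option autoImplicit false
open Cfsg

namespace Cfsg.Agent.S0520

open Cfsg.Agent.Lib.Invol Cfsg.Agent.Lib.Transfer
open scoped Pointwise

section aux

variable {G : Type*} [Group G] [Finite G]

private theorem klein_of_card_sq (U : Subgroup G) (h4 : Nat.card U = 4) (h : ∀ x ∈ U, x * x = 1) :
    IsKleinFour U := by
  haveI : Fact (Nat.Prime 2) := ⟨Nat.prime_two⟩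
  haveI : Nontrivial U := by
    rw [← Finite.one_lt_card_iff_nontrivial]
    omega
  refine ⟨h4, ?_⟩
  rw [Monoid.exponent_eq_prime_iff Nat.prime_two]
  rintro ⟨x, hx⟩ hx1
  rw [Subgroup.orderOf_mk]
  exact orderOf_eq_prime (by rw [sq]; exact h x hx) (fun h0 => hx1 (Subtype.ext h0))

private abbrev cn (x : G) (A : Subgroup G) : Subgroup G := A.map (MulAut.conj x).toMonoidHom

private theorem mem_smul_sylow' {p : ℕ} {g x : G} {P : Sylow p G} :
    x ∈ ((g • P : Sylow p G) : Subgroup G) ↔ g⁻¹ * x * g ∈ (P : Subgroup G) := mem_smul_sylow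

private theorem mem_cn {x y : G} {A : Subgroup G} : y ∈ cn x A ↔ x⁻¹ * y * x ∈ A := mem_map_conj

private theorem card_cn (x : G) (A : Subgroup G) : Nat.card (cn x A) = Nat.card A :=
  Nat.card_congr (Subgroup.equivMapOfInjective A (MulAut.conj x).toMonoidHom (MulAut.conj x).injective).toEquiv.symm

private theorem klein_cn {x : G} {A : Subgroup G} (hA : IsKleinFour A) : IsKleinFour (cn x A) := by
  refine klein_of_card_sq _ (by rw [card_cn]; exact hA.card_four) ?_
  rintro _ ⟨a, ha, rfl⟩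
  rw [← map_mul, klein_sq hA ha, map_one]

private abbrev RR : Subgroup G → Subgroup G → Prop :=
  fun A B : Subgroup G => IsKleinFour A ∧ IsKleinFour B ∧ ∀ a ∈ A, ∀ b ∈ B, a * b = b * a

private theorem RR_cn {x : G} {A B : Subgroup G} (h : RR A B) : RR (cn x A) (cn x B) := by
  refine ⟨klein_cn h.1, klein_cn h.2.1, ?_⟩
  rintro _ ⟨a, ha, rfl⟩ _ ⟨b, hb, rfl⟩
  rw [← map_mul, ← map_mul, h.2.2 a ha b hb]

private theorem path_cn {x : G} {A B : Subgroup G} (h : Relation.ReflTransGen RR A B) :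
    Relation.ReflTransGen RR (cn x A) (cn x B) :=
  Relation.ReflTransGen.lift (cn x) (fun _ _ h => RR_cn h) _ _ h

private theorem path_rev {A B : Subgroup G} (h : Relation.ReflTransGen RR A B) :
    Relation.ReflTransGen RR B A := by
  induction h with
  | refl => exact Relation.ReflTransGen.refl
  | tail _ hbc ih =>
    exact Relation.ReflTransGen.head ⟨hbc.2.1, hbc.1, fun a ha b hb => (hbc.2.2 b hb a ha).symm⟩ ih

private theorem exists_pair_of_not_rank {H : Type*} [Group H] [Finite H] (h : ¬ Cfsg.PRankLE 2 1 H) :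
    ∃ a b : H, a * a = 1 ∧ b * b = 1 ∧ a * b = b * a ∧ a ≠ 1 ∧ b ≠ 1 ∧ a ≠ b := by
  unfold Cfsg.PRankLE at h
  push Not at h
  obtain ⟨A, hc, he, hcard⟩ := h
  obtain ⟨x, hx, y, hy, hx1, hy1, hxy⟩ := exists_pair_of_two_lt_card A (by simpa using hcard)
  refine ⟨x, y, ?_, ?_, ?_, hx1, hy1, hxy⟩
  · rw [← sq]; exact he x hx
  · rw [← sq]; exact he y hy
  · exact congrArg Subtype.val (hc.is_comm.comm ⟨x, hx⟩ ⟨y, hy⟩)

private theorem not_rank_iff (Q : Subgroup G) :
    ¬ Cfsg.PRankLE 2 1 Q ↔ ∃ A : Subgroup G, IsKleinFour A ∧ A ≤ Q := by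
  constructor
  · intro h
    obtain ⟨a, b, ha, hb, hab, ha1, hb1, hne⟩ := exists_pair_of_not_rank h
    have ha' : (a : G) * a = 1 := congrArg Subtype.val ha
    have hb' : (b : G) * b = 1 := congrArg Subtype.val hb
    have hab' : (a : G) * b = b * a := congrArg Subtype.val hab
    refine ⟨kleinPair (a : G) (b : G) ha' hb' hab', isKleinFour_kleinPair
      (fun h => ha1 (Subtype.ext h)) (fun h => hb1 (Subtype.ext h)) (fun h => hne (Subtype.ext h)), ?_⟩
    rintro x (rfl | rfl | rfl | rfl)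
    · exact Q.one_mem
    · exact a.2
    · exact b.2
    · exact Q.mul_mem a.2 b.2
  · rintro ⟨A, hA, hAQ⟩ hrank
    have h1 := hrank (A.subgroupOf Q) ⟨⟨by
      rintro ⟨x, hx⟩ ⟨y, hy⟩
      apply Subtype.ext
      apply Subtype.ext
      exact klein_comm hA hx hy⟩⟩ (by
      intro a ha
      apply Subtype.ext
      rw [sq]
      exact klein_sq hA ha)
    rw [Nat.card_congr (Subgroup.subgroupOfEquivOfLe hAQ).toEquiv, hA.card_four] at h1
    omega

private theorem klein_isPGroup {U : Subgroup G} (hU : IsKleinFour U) : IsPGroup 2 U :=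
  IsPGroup.of_card (n := 2) (by rw [hU.card_four]; norm_num)

private theorem exists_conj_le (S : Sylow 2 G) {U : Subgroup G} (hU : IsPGroup 2 U) :
    ∃ x : G, cn x U ≤ S := by
  haveI : Fact (Nat.Prime 2) := ⟨Nat.prime_two⟩
  obtain ⟨S', hS'⟩ := hU.exists_le_sylow
  obtain ⟨y, rfl⟩ := MulAction.exists_smul_eq G S S'
  refine ⟨y⁻¹, ?_⟩
  rintro _ ⟨u, hu, rfl⟩
  have h1 : u ∈ ((y • S : Sylow 2 G) : Subgroup G) := hS' hu
  rw [mem_smul_sylow'] at h1
  change y⁻¹ * u * y⁻¹⁻¹ ∈ _
  rwa [inv_inv]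

/-- two Klein subgroups of `S` are connected -/
private theorem path_of_le (S : Sylow 2 G) (hS : Cfsg.IsFourConnected (S : Subgroup G))
    {U V : Subgroup G} (hU : IsKleinFour U) (hV : IsKleinFour V) (hUS : U ≤ S) (hVS : V ≤ S) :
    Relation.ReflTransGen RR U V := by
  have hk : ∀ A : Subgroup G, IsKleinFour A → A ≤ S → IsKleinFour (A.subgroupOf (S : Subgroup G)) := by
    intro A hA hAS
    refine klein_of_card_sq _ ?_ ?_
    · rw [Nat.card_congr (Subgroup.subgroupOfEquivOfLe hAS).toEquiv, hA.card_four]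
    · intro x hx
      apply Subtype.ext
      exact klein_sq hA hx
  have h1 := hS (U.subgroupOf (S : Subgroup G)) (V.subgroupOf (S : Subgroup G)) (hk U hU hUS) (hk V hV hVS)
  have h2 : Relation.ReflTransGen RR ((U.subgroupOf (S : Subgroup G)).map (S : Subgroup G).subtype)
      ((V.subgroupOf (S : Subgroup G)).map (S : Subgroup G).subtype) :=
    Relation.ReflTransGen.lift (p := RR) (fun A : Subgroup (S : Subgroup G) => A.map (S : Subgroup G).subtype) (by
    rintro A B ⟨hA, hB, hAB⟩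
    have hmapk : ∀ C : Subgroup (S : Subgroup G), IsKleinFour C → IsKleinFour (C.map (S : Subgroup G).subtype) := by
      intro C hC
      refine klein_of_card_sq _ ?_ ?_
      · rw [← Nat.card_congr (Subgroup.equivMapOfInjective C _ (S : Subgroup G).subtype_injective).toEquiv]
        exact hC.card_four
      · rintro _ ⟨c, hc, rfl⟩
        rw [← map_mul, klein_sq hC hc, map_one]
    refine ⟨hmapk A hA, hmapk B hB, ?_⟩
    rintro _ ⟨a, ha, rfl⟩ _ ⟨b, hb, rfl⟩
    rw [← map_mul, ← map_mul, hAB a ha b hb]) _ _ h1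
  simp only [Subgroup.subgroupOf_map_subtype, inf_eq_left.mpr hUS, inf_eq_left.mpr hVS] at h2
  exact h2

/-- Alperin style argument -/
private theorem alperin (S : Sylow 2 G) (M : Subgroup G)
    (hM : ∀ Q : Subgroup G, Q ≤ S → (∃ A : Subgroup G, IsKleinFour A ∧ A ≤ Q) →
      Subgroup.normalizer (Q : Set G) ≤ M) :
    ∀ (n : ℕ) (S' : Sylow 2 G), Nat.card (S : Subgroup G) - Nat.card ((S : Subgroup G) ⊓ (S' : Subgroup G) : Subgroup G) = n →
      (∃ A : Subgroup G, IsKleinFour A ∧ A ≤ (S : Subgroup G) ⊓ (S' : Subgroup G)) →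
      ∃ m ∈ M, m • S = S' := by
  haveI : Fact (Nat.Prime 2) := ⟨Nat.prime_two⟩
  intro n
  induction n using Nat.strong_induction_on with
  | _ n ih =>
  intro S' hn hA
  by_cases heq : S' = S
  · exact ⟨1, M.one_mem, by rw [heq, one_smul]⟩
  set D : Subgroup G := (S : Subgroup G) ⊓ (S' : Subgroup G) with hD
  have hcS : Nat.card (S' : Subgroup G) = Nat.card (S : Subgroup G) :=
    Nat.card_congr (Sylow.equiv S' S).toEquiv
  have hDS : D ≠ (S : Subgroup G) := by
    intro h
    apply heq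
    have h1 : (S : Subgroup G) ≤ S' := inf_eq_left.mp h
    exact (sylow_eq_of_le h1).symm
  have hDS' : D ≠ (S' : Subgroup G) := by
    intro h
    apply heq
    have h1 : (S' : Subgroup G) ≤ S := inf_eq_right.mp h
    exact sylow_eq_of_le h1
  have hNM : Subgroup.normalizer (D : Set G) ≤ M := hM D inf_le_left hA
  obtain ⟨y₁, hy₁S, hy₁N, hy₁D⟩ := exists_mem_normalizer_of_ne (S : Subgroup G) D S.2 inf_le_left hDS
  obtain ⟨y₂, hy₂S, hy₂N, hy₂D⟩ := exists_mem_normalizer_of_ne (S' : Subgroup G) D S'.2 inf_le_right hDS'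
  set N : Subgroup G := Subgroup.normalizer (D : Set G) with hNdef
  have hDN : D ≤ N := Subgroup.le_normalizer
  have hcDS : Nat.card D < Nat.card (S : Subgroup G) := by
    by_contra h
    rw [not_lt] at h
    exact hDS (Subgroup.eq_of_le_of_card_ge inf_le_left h)
  have hR₁ : IsPGroup 2 (((S : Subgroup G) ⊓ N : Subgroup G).subgroupOf N) :=
    (S.2.to_le inf_le_left).of_equiv (Subgroup.subgroupOfEquivOfLe inf_le_right).symm
  have hR₂ : IsPGroup 2 (((S' : Subgroup G) ⊓ N : Subgroup G).subgroupOf N) :=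
    (S'.2.to_le inf_le_left).of_equiv (Subgroup.subgroupOfEquivOfLe inf_le_right).symm
  obtain ⟨T₁, hT₁⟩ := hR₁.exists_le_sylow
  obtain ⟨T₂, hT₂⟩ := hR₂.exists_le_sylow
  obtain ⟨c, hc⟩ := MulAction.exists_smul_eq N T₁ T₂
  obtain ⟨S₁, hS₁⟩ := (T₁.2.map N.subtype).exists_le_sylow
  -- first step
  have hSS₁ : ∀ x ∈ (S : Subgroup G) ⊓ N, x ∈ (S : Subgroup G) ⊓ (S₁ : Subgroup G) := by
    intro x hx
    refine ⟨hx.1, hS₁ ⟨⟨x, hx.2⟩, hT₁ ?_, rfl⟩⟩
    rw [Subgroup.mem_subgroupOf]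
    exact hx
  have hDle₁ : D ≤ (S : Subgroup G) ⊓ (S₁ : Subgroup G) := fun x hx => hSS₁ x ⟨hx.1, hDN hx⟩
  have hcard₁ : Nat.card D < Nat.card ((S : Subgroup G) ⊓ (S₁ : Subgroup G) : Subgroup G) := by
    by_contra h
    rw [not_lt] at h
    have := Subgroup.eq_of_le_of_card_ge hDle₁ h
    apply hy₁D
    rw [this]
    exact hSS₁ _ ⟨hy₁S, hy₁N⟩
  obtain ⟨m₁, hm₁, hm₁S⟩ := ih (Nat.card (S : Subgroup G) - Nat.card ((S : Subgroup G) ⊓ (S₁ : Subgroup G) : Subgroup G))
    (by omega) S₁ rfl (by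
      obtain ⟨A, hA1, hA2⟩ := hA
      exact ⟨A, hA1, hA2.trans hDle₁⟩)
  -- second step
  set S₂ : Sylow 2 G := (c : G) • S₁ with hS₂
  have hT₂S₂ : ∀ x : N, x ∈ (T₂ : Subgroup N) → (x : G) ∈ (S₂ : Subgroup G) := by
    intro x hx
    rw [hS₂, mem_smul_sylow']
    rw [← hc, mem_smul_sylow'] at hx
    exact hS₁ ⟨_, hx, rfl⟩
  have hS'S₂ : ∀ x ∈ (S' : Subgroup G) ⊓ N, x ∈ (S' : Subgroup G) ⊓ (S₂ : Subgroup G) := by
    intro x hx
    refine ⟨hx.1, hT₂S₂ ⟨x, hx.2⟩ (hT₂ ?_)⟩
    rw [Subgroup.mem_subgroupOf]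
    exact hx
  have hDle₂ : D ≤ (S' : Subgroup G) ⊓ (S₂ : Subgroup G) := fun x hx => hS'S₂ x ⟨hx.2, hDN hx⟩
  have hcard₂ : Nat.card D < Nat.card ((S' : Subgroup G) ⊓ (S₂ : Subgroup G) : Subgroup G) := by
    by_contra h
    rw [not_lt] at h
    have := Subgroup.eq_of_le_of_card_ge hDle₂ h
    apply hy₂D
    rw [this]
    exact hS'S₂ _ ⟨hy₂S, hy₂N⟩
  have hS₂eq : ((c : G) * m₁) • S = S₂ := by
    rw [hS₂, ← hm₁S, mul_smul]
  -- conjugate
  set d : G := ((c : G) * m₁)⁻¹ with hd
  set S'' : Sylow 2 G := d • S' with hS''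
  have hmem : ∀ x : G, x ∈ (S : Subgroup G) ⊓ (S'' : Subgroup G) ↔ d⁻¹ * x * d ∈ (S' : Subgroup G) ⊓ (S₂ : Subgroup G) := by
    intro x
    rw [Subgroup.mem_inf, Subgroup.mem_inf, hS'', mem_smul_sylow', ← hS₂eq, mem_smul_sylow' (g := (c : G) * m₁), hd, inv_inv]
    constructor
    · rintro ⟨h1, h2⟩
      refine ⟨h2, ?_⟩
      simpa [mul_assoc] using h1
    · rintro ⟨h1, h2⟩
      refine ⟨?_, h1⟩
      simpa [mul_assoc] using h2
  have hinfeq : (S : Subgroup G) ⊓ (S'' : Subgroup G) = cn d ((S' : Subgroup G) ⊓ (S₂ : Subgroup G)) := by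
    ext x
    rw [hmem, mem_cn]
  have hcard₃ : Nat.card ((S : Subgroup G) ⊓ (S'' : Subgroup G) : Subgroup G) = Nat.card ((S' : Subgroup G) ⊓ (S₂ : Subgroup G) : Subgroup G) := by
    rw [hinfeq, card_cn]
  obtain ⟨m₃, hm₃, hm₃S⟩ := ih (Nat.card (S : Subgroup G) - Nat.card ((S : Subgroup G) ⊓ (S'' : Subgroup G) : Subgroup G))
    (by omega) S'' rfl (by
      obtain ⟨A, hA1, hA2⟩ := hA
      refine ⟨cn d A, klein_cn hA1, ?_⟩
      rw [hinfeq]
      exact Subgroup.map_mono (hA2.trans hDle₂))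
  refine ⟨(c : G) * m₁ * m₃, M.mul_mem (M.mul_mem (hNM c.2) hm₁) hm₃, ?_⟩
  rw [mul_smul, hm₃S, hS'', hd, smul_inv_smul]

end aux

/-- Let G be a finite group of 2-rank at least 2 and S a Sylow 2-subgroup whose commuting graph of Klein four-subgroups is
connected. Then the commuting graph of Klein four-subgroups of G is disconnected if and only if the 2-generated core — the
subgroup generated by the normalizers N_G(Q) of the subgroups Q of S that contain a Klein four-group — is a proper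
subgroup of G. -/
theorem result {G : Type*} [Group G] [Finite G] (h2 : ¬ Cfsg.PRankLE 2 1 G)
    (S : Sylow 2 G) (hS : Cfsg.IsFourConnected (S : Subgroup G)) :
    ¬ Cfsg.IsFourConnected G ↔
      (⨆ Q : {Q : Subgroup G // Q ≤ (S : Subgroup G) ∧ ¬ Cfsg.PRankLE 2 1 Q},
          Subgroup.normalizer ((Q : Subgroup G) : Set G)) ≠ ⊤ := by
  classical
  haveI : Fact (Nat.Prime 2) := ⟨Nat.prime_two⟩
  set M : Subgroup G := ⨆ Q : {Q : Subgroup G // Q ≤ (S : Subgroup G) ∧ ¬ Cfsg.PRankLE 2 1 Q},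
          Subgroup.normalizer ((Q : Subgroup G) : Set G) with hMdef
  have hM : ∀ Q : Subgroup G, Q ≤ S → (∃ A : Subgroup G, IsKleinFour A ∧ A ≤ Q) →
      Subgroup.normalizer (Q : Set G) ≤ M := by
    intro Q hQ hA
    exact le_iSup (fun Q : {Q : Subgroup G // Q ≤ (S : Subgroup G) ∧ ¬ Cfsg.PRankLE 2 1 Q} =>
      Subgroup.normalizer ((Q : Subgroup G) : Set G)) ⟨Q, hQ, (not_rank_iff Q).mpr hA⟩
  -- a Klein subgroup of `S`
  obtain ⟨A₀, hA₀, hA₀S⟩ : ∃ A₀ : Subgroup G, IsKleinFour A₀ ∧ A₀ ≤ S := by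
    obtain ⟨a, b, ha, hb, hab, ha1, hb1, hne⟩ := exists_pair_of_not_rank h2
    have hK := isKleinFour_kleinPair (ha := ha) (hb := hb) (hab := hab) ha1 hb1 hne
    obtain ⟨x, hx⟩ := exists_conj_le S (klein_isPGroup hK)
    exact ⟨_, klein_cn hK, hx⟩
  rw [not_iff_comm, not_not]
  constructor
  · -- `M = ⊤` implies connected
    intro htop
    have hstep : ∀ g : G, ∀ A : Subgroup G, Relation.ReflTransGen RR A₀ A → Relation.ReflTransGen RR A₀ (cn g A) := by
      intro g
      have hg : g ∈ M := by rw [htop]; trivial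
      rw [hMdef] at hg
      refine Subgroup.iSup_induction _ hg (C := fun g => ∀ A : Subgroup G, Relation.ReflTransGen RR A₀ A → Relation.ReflTransGen RR A₀ (cn g A)) ?_ ?_ ?_
      · rintro ⟨Q, hQS, hQr⟩ x hx A hpath
        obtain ⟨D, hD, hDQ⟩ := (not_rank_iff Q).mp hQr
        have h1 : Relation.ReflTransGen RR A₀ D := path_of_le S hS hA₀ hD hA₀S (hDQ.trans hQS)
        have h2 : Relation.ReflTransGen RR D A := (path_rev h1).trans hpath
        have h3 : Relation.ReflTransGen RR (cn x D) (cn x A) := path_cn h2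
        have hcnle : cn x D ≤ S := by
          rintro _ ⟨d, hd, rfl⟩
          apply hQS
          exact (Subgroup.mem_normalizer_iff.mp hx d).mp (hDQ hd)
        exact (path_of_le S hS hA₀ (klein_cn hD) hA₀S hcnle).trans h3
      · intro A h
        have : cn 1 A = A := by
          ext y
          rw [mem_cn]
          simp
        rwa [this]
      · intro x y hx hy A h
        have : cn (x * y) A = cn x (cn y A) := by
          ext z
          rw [mem_cn, mem_cn, mem_cn]
          have e : (x * y)⁻¹ * z * (x * y) = y⁻¹ * (x⁻¹ * z * x) * y := by group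
          rw [e]
        rw [this]
        exact hx _ (hy _ h)
    have hall : ∀ U : Subgroup G, IsKleinFour U → Relation.ReflTransGen RR A₀ U := by
      intro U hU
      obtain ⟨x, hx⟩ := exists_conj_le S (klein_isPGroup hU)
      have h1 := path_of_le S hS hA₀ (klein_cn (x := x) hU) hA₀S hx
      have h2 := hstep x⁻¹ _ h1
      have h3 : cn x⁻¹ (cn x U) = U := by
        ext z
        rw [mem_cn, mem_cn]
        have e : x⁻¹ * (x⁻¹⁻¹ * z * x⁻¹) * x = z := by group
        rw [e]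
      rwa [h3] at h2
    intro U V hU hV
    exact (path_rev (hall U hU)).trans (hall V hV)
  · -- connected implies `M = ⊤`
    intro hconn
    have hchain : ∀ B : Subgroup G, Relation.ReflTransGen RR A₀ B → ∃ m ∈ M, B ≤ (m • S : Sylow 2 G) := by
      intro B hB
      induction hB with
      | refl => exact ⟨1, M.one_mem, by rw [one_smul]; exact hA₀S⟩
      | @tail B C _ hBC ih =>
        obtain ⟨m, hm, hBm⟩ := ih
        obtain ⟨hB, hC, hcomm⟩ := hBC
        have hBnC : B ≤ Subgroup.normalizer (C : Set G) := by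
          intro b hb
          rw [Subgroup.mem_normalizer_iff]
          intro c
          have e : ∀ c' ∈ C, b * c' * b⁻¹ = c' := by
            intro c' hc'
            rw [hcomm b hb c' hc']
            group
          constructor
          · intro hc
            rw [e c hc]
            exact hc
          · intro hc
            have h1 := hcomm b hb _ hc
            have h3 : c = b * c * b⁻¹ := by
              calc c = b⁻¹ * ((b * c * b⁻¹) * b) := by group
                _ = b⁻¹ * (b * (b * c * b⁻¹)) := by rw [h1]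
                _ = b * c * b⁻¹ := by group
            rw [h3]
            exact hc
        have hsup : IsPGroup 2 (B ⊔ C : Subgroup G) :=
          (klein_isPGroup hB).to_sup_of_normal_right' (klein_isPGroup hC) hBnC
        obtain ⟨S'', hS''⟩ := hsup.exists_le_sylow
        set S₃ : Sylow 2 G := m⁻¹ • S'' with hS₃
        have hK : ∃ A : Subgroup G, IsKleinFour A ∧ A ≤ (S : Subgroup G) ⊓ (S₃ : Subgroup G) := by
          refine ⟨cn m⁻¹ B, klein_cn hB, ?_⟩
          intro z hz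
          rw [mem_cn, inv_inv] at hz
          refine ⟨?_, ?_⟩
          · have := hBm hz
            rw [mem_smul_sylow'] at this
            have h5 : z = m⁻¹ * (m * z * m⁻¹) * m := by group
            rw [h5]
            exact this
          · change z ∈ ((m⁻¹ • S'' : Sylow 2 G) : Subgroup G)
            rw [mem_smul_sylow', inv_inv]
            exact hS'' (Subgroup.mem_sup_left hz)
        obtain ⟨m', hm', hm'S⟩ := alperin S M hM _ S₃ rfl hK
        refine ⟨m * m', M.mul_mem hm hm', ?_⟩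
        rw [mul_smul, hm'S, hS₃, smul_inv_smul]
        exact le_sup_right.trans hS''
    rw [eq_top_iff]
    intro g _
    obtain ⟨m, hm, hle⟩ := hchain _ (hconn A₀ (cn g A₀) hA₀ (klein_cn hA₀))
    set S₃ : Sylow 2 G := g⁻¹ • (m • S) with hS₃
    have hK : ∃ A : Subgroup G, IsKleinFour A ∧ A ≤ (S : Subgroup G) ⊓ (S₃ : Subgroup G) := by
      refine ⟨A₀, hA₀, le_inf hA₀S ?_⟩
      intro a ha
      change a ∈ ((g⁻¹ • (m • S) : Sylow 2 G) : Subgroup G)
      rw [mem_smul_sylow', inv_inv]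
      exact hle ⟨a, ha, rfl⟩
    obtain ⟨m', hm', hm'S⟩ := alperin S M hM _ S₃ rfl hK
    have hw : m'⁻¹ * (g⁻¹ * m) ∈ Subgroup.normalizer (S : Set G) := by
      have e : g⁻¹ • (m • S) = m' • S := hS₃.symm.trans hm'S.symm
      rw [← Sylow.smul_eq_iff_mem_normalizer, mul_smul, mul_smul, e, inv_smul_smul]
    have hwM := hM (S : Subgroup G) le_rfl ⟨A₀, hA₀, hA₀S⟩ hw
    have hginv : g⁻¹ = m' * (m'⁻¹ * (g⁻¹ * m)) * m⁻¹ := by group
    have : g⁻¹ ∈ M := by
      rw [hginv]
      exact M.mul_mem (M.mul_mem hm' hwM) (M.inv_mem hm)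
    simpa using M.inv_mem this

end Cfsg.Agent.S0520
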