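import Cfsg.Statements.S0521
import Cfsg.Agent.Lib.FT.TT
import Cfsg.Agent.Lib.Basic.MinNormal
import Cfsg.Agent.Lib.OddLocal.PStable
import Cfsg.Agent.Lib.OddLocal.HallHigman
import Cfsg.Agent.Lib.OddLocal.NilParts

set_option autoImplicit false
open Cfsg

namespace Cfsg.Agent.S0521

open Subgroup Cfsg Cfsg.Agent.Lib.Basic
open scoped commutatorElement

universe u

/-- A normal subgroup with all `p`-subgroups in `M`, centralizing `M`, lies in `M`. -/
theorem le_of_central_aux {X : Type u} [Group X] [Finite X] [Group.IsSolvable X] {p : ℕ} [Fact p.Prime]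
    (hO : pPrimeCore p X = ⊥) {L M : Subgroup X} (hL : L.Normal) (hLM : L ≤ centralizer (M : Set X))
    (hp : ∀ T : Subgroup X, T ≤ L → IsPGroup p T → T ≤ M) : L ≤ M := by
  classical
  haveI : Group.IsSolvable L := inferInstance
  have hO₁ : pPrimeCore p ↥L = ⊥ := by
    set K : Subgroup X := (pPrimeCore p ↥L).map L.subtype with hK
    have hKn : K.Normal := by
      constructor
      intro n hn g
      have hg : g ∈ normalizer (L : Set X) := by
        apply Cfsg.Agent.Lib.Coprime.mem_normalizer_of_conj_le
        intro x hx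
        exact hL.conj_mem x hx g
      haveI : (pPrimeCore p ↥L).Characteristic := pPrimeCore_characteristic p
      exact (mem_normalizer_iff.mp (Cfsg.Agent.Lib.Coprime.mem_normalizer_map_of_characteristic L (pPrimeCore p ↥L) hg) n).mp hn
    have hKc : (Nat.card K).Coprime p := by
      have h1 : Nat.card K = Nat.card (pPrimeCore p ↥L) := Subgroup.card_map_of_injective L.subtype_injective
      rw [h1]
      exact pPrimeCore_coprime p
    have hKb : K ≤ ⊥ := hO ▸ le_pPrimeCore hKn hKc
    rw [eq_bot_iff]
    intro x hx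
    have h1 : (x : X) ∈ K := ⟨x, hx, rfl⟩
    have h2 := hKb h1
    rw [mem_bot] at h2
    rw [mem_bot]
    exact Subtype.ext h2
  have hcen := Cfsg.Agent.Lib.OddLocal.centralizer_pCore_le (G := ↥L) (p := p) hO₁
  have hTp : IsPGroup p ((pCore p ↥L).map L.subtype) := (pCore_isPGroup p).map _
  have hTM : (pCore p ↥L).map L.subtype ≤ M := hp _ (Subgroup.map_subtype_le _) hTp
  intro x hx
  have h1 : (⟨x, hx⟩ : L) ∈ centralizer ((pCore p ↥L : Subgroup ↥L) : Set ↥L) := by
    rw [mem_centralizer_iff]
    intro t ht
    apply Subtype.ext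
    have h2 : (t : X) ∈ M := hTM ⟨t, ht, rfl⟩
    exact (mem_centralizer_iff.mp (hLM hx) t h2)
  have h3 := hcen h1
  exact hTM ⟨_, h3, rfl⟩

set_option maxHeartbeats 1000000 in
theorem normal_sylow_aux : ∀ (n : ℕ) (X : Type u) [Group X] [Finite X] [Group.IsSolvable X],
    Nat.card X = n → Odd (Nat.card X) → ∀ (p : ℕ) [Fact p.Prime] (S : Sylow p X),
    IsCyclic ↥⁅(S : Subgroup X), (S : Subgroup X)⁆ → (pPrimeCore p X ⊔ (S : Subgroup X)).Normal := by
  intro n
  induction n using Nat.strong_induction_on with
  | _ n ih =>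
  intro X _ _ _ hn hodd p _ S hS
  classical
  have hpp : p.Prime := Fact.out
  -- quotients
  have hquot : ∀ (N : Subgroup X) [N.Normal], N ≠ ⊥ →
      (pPrimeCore p (X ⧸ N) ⊔ ((S.mapSurjective (QuotientGroup.mk'_surjective N) : Sylow p (X ⧸ N)) : Subgroup (X ⧸ N))).Normal := by
    intro N _ hN
    have hlt : Nat.card (X ⧸ N) < n := by
      have h1 : Nat.card (X ⧸ N) * Nat.card N = Nat.card X := by
        rw [← Subgroup.index_eq_card]
        exact Subgroup.index_mul_card N
      have h2 : 1 < Nat.card N := by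
        rw [Subgroup.one_lt_card_iff_ne_bot]
        exact hN
      have h3 : 0 < Nat.card (X ⧸ N) := Nat.card_pos
      rw [← hn, ← h1]
      nlinarith
    refine ih _ hlt (X ⧸ N) rfl ?_ p _ ?_
    · have h1 : Nat.card (X ⧸ N) * Nat.card N = Nat.card X := by
        rw [← Subgroup.index_eq_card]
        exact Subgroup.index_mul_card N
      exact Odd.of_dvd_nat hodd (Dvd.intro _ h1)
    · rw [Sylow.coe_mapSurjective, ← Subgroup.map_commutator]
      have hsurj : Function.Surjective ((QuotientGroup.mk' N).subgroupMap ⁅(S : Subgroup X), (S : Subgroup X)⁆) :=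
        (QuotientGroup.mk' N).subgroupMap_surjective _
      exact isCyclic_of_surjective _ hsurj
  set O := pPrimeCore p X with hOdef
  haveI hOn : O.Normal := pPrimeCore_normal p X
  by_cases hO : O = ⊥
  swap
  · have h1 := hquot O hO
    rw [Cfsg.Agent.Lib.OddLocal.pPrimeCore_quotient_eq_bot, bot_sup_eq, Sylow.coe_mapSurjective] at h1
    have h2 := h1.comap (QuotientGroup.mk' O)
    rw [Subgroup.comap_map_eq, QuotientGroup.ker_mk', sup_comm] at h2
    exact h2
  -- the core is trivial
  rw [hO, bot_sup_eq]
  set T := pCore p X with hT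
  haveI hTn : T.Normal := pCore_normal p X
  by_cases hTb : T = ⊥
  · have h1 := Cfsg.Agent.Lib.OddLocal.centralizer_pCore_le (G := X) (p := p) hO
    rw [← hT, hTb] at h1
    have h2 : (⊤ : Subgroup X) ≤ ⊥ := by
      intro x _
      apply h1
      rw [mem_centralizer_iff]
      intro h hh
      rw [SetLike.mem_coe, mem_bot] at hh
      rw [hh]; group
    constructor
    intro s _ g
    have h3 : g * s * g⁻¹ ∈ (⊥ : Subgroup X) := h2 (mem_top _)
    rw [mem_bot] at h3
    rw [h3]; exact one_mem _
  obtain ⟨M, hMmin, hMT⟩ := exists_isMinNormal_le hTn hTb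
  obtain ⟨hMn, hMne, hMm⟩ := id hMmin
  haveI : M.Normal := hMn
  have hMp : IsPGroup p M := (pCore_isPGroup p).to_le hMT
  have hMS : M ≤ (S : Subgroup X) := hMT.trans (pCore_le_sylow S)
  obtain ⟨hMc, r, hr, hMr⟩ := hMmin.elementary
  haveI : Fact r.Prime := ⟨hr⟩
  have hMexp : ∀ x ∈ M, x ^ p = 1 := by
    obtain ⟨y, hy⟩ := (Subgroup.ne_bot_iff_exists_ne_one.mp hMne)
    have hrp : r = p := by
      obtain ⟨k, hk⟩ := hMp y
      have h1 : (y : X) ^ r = 1 := hMr y y.2
      have h2 : orderOf (y : X) = r := by
        apply orderOf_eq_prime h1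
        intro h
        exact hy (Subtype.ext h)
      have h3 : orderOf (y : X) ∣ p ^ k := by
        apply orderOf_dvd_of_pow_eq_one
        have := congrArg Subtype.val hk
        simpa using this
      rw [h2] at h3
      exact (Nat.prime_dvd_prime_iff_eq hr hpp).mp (hr.dvd_of_dvd_pow h3)
    rw [← hrp]
    exact hMr
  have hpodd : p ≠ 2 := by
    rintro rfl
    have h1 : 2 ∣ Nat.card M := by
      obtain ⟨k, hk⟩ := IsPGroup.iff_card.mp hMp
      rw [hk]
      have hk0 : k ≠ 0 := by
        rintro rfl
        rw [pow_zero] at hk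
        exact hMne (Subgroup.card_eq_one.mp hk)
      exact dvd_pow_self 2 hk0
    have h2 := h1.trans (Subgroup.card_subgroup_dvd_card M)
    exact (Nat.not_even_iff_odd.mpr hodd) (even_iff_two_dvd.mpr h2)
  set Dd := ⁅(S : Subgroup X), (S : Subgroup X)⁆ with hDd
  -- `M ⊓ S'` is central in `S`
  set Cc := M ⊓ Dd with hCc
  haveI hSnil : Group.IsNilpotent (S : Subgroup X) := S.isPGroup'.isNilpotent
  have hSCc : (S : Subgroup X) ≤ normalizer (Cc : Set X) := by
    intro g hg
    apply Cfsg.Agent.Lib.Coprime.mem_normalizer_of_conj_le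
    intro x hx
    refine mem_inf.mpr ⟨hMn.conj_mem x (mem_inf.mp hx).1 g, ?_⟩
    have hDn : (S : Subgroup X) ≤ normalizer (Dd : Set X) := by
      intro g' hg'
      apply Cfsg.Agent.Lib.Coprime.mem_normalizer_of_conj_le
      have hle : Dd ≤ Dd.comap (MulAut.conj g').toMonoidHom := by
        rw [hDd, commutator_le]
        intro a ha b hb
        rw [mem_comap]
        have h1 : (MulAut.conj g').toMonoidHom ⁅a, b⁆ = ⁅g' * a * g'⁻¹, g' * b * g'⁻¹⁆ := by
          rw [map_commutatorElement]
          rfl
        rw [h1]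
        exact commutator_mem_commutator (mul_mem (mul_mem hg' ha) (inv_mem hg'))
          (mul_mem (mul_mem hg' hb) (inv_mem hg'))
      intro x hx
      exact hle hx
    exact (mem_normalizer_iff.mp (hDn hg) x).mp (mem_inf.mp hx).2
  have hCcentral : ∀ c ∈ Cc, ∀ z ∈ (S : Subgroup X), c * z = z * c := by
    intro c hc z hz
    by_cases hc1 : c = 1
    · rw [hc1]; group
    have hCne : Cc ≠ ⊥ := by
      intro h
      rw [h, mem_bot] at hc
      exact hc1 hc
    have hCS : Cc ≤ (S : Subgroup X) := inf_le_left.trans hMS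
    obtain ⟨u, hu, hu1, hucen⟩ := Cfsg.Agent.Lib.OddLocal.exists_central_of_normal hCS hCne hSnil hSCc
    have hup : u ^ p = 1 := hMexp u (mem_inf.mp hu).1
    have hucard : Nat.card (zpowers u) = p := by
      rw [Nat.card_zpowers]
      exact orderOf_eq_prime hup hu1
    haveI hCcyc : IsCyclic Cc := by
      have hle : Cc.subgroupOf Dd ≤ ⊤ := le_top
      have e : ↥(Cc.subgroupOf Dd) ≃* ↥Cc := Subgroup.subgroupOfEquivOfLe inf_le_right
      haveI : IsCyclic ↥Dd := hS
      haveI : IsCyclic ↥(Cc.subgroupOf Dd) := inferInstance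
      exact isCyclic_of_surjective e.toMonoidHom e.surjective
    have hCcard : Nat.card Cc ∣ p := by
      have h1 : Monoid.exponent Cc = Nat.card Cc := IsCyclic.exponent_eq_card
      rw [← h1]
      apply Monoid.exponent_dvd_of_forall_pow_eq_one
      intro g
      apply Subtype.ext
      exact hMexp g (mem_inf.mp g.2).1
    have hle : zpowers u ≤ Cc := (zpowers_le).mpr hu
    have heq : zpowers u = Cc := by
      apply Subgroup.eq_of_le_of_card_ge hle
      rw [hucard]
      exact Nat.le_of_dvd hpp.pos hCcard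
    rw [← heq] at hc
    obtain ⟨k, rfl⟩ := mem_zpowers_iff.mp hc
    exact (Commute.zpow_left (show Commute u z from hucen z hz) k).eq
  -- `S` centralizes `M`
  have hSM : (S : Subgroup X) ≤ centralizer (M : Set X) := by
    haveI hCMn : (centralizer (M : Set X)).Normal := inferInstance
    have hps := Cfsg.Agent.Lib.OddLocal.pstable_normal hpodd hodd M hMp (centralizer (M : Set X))
      (by
        intro g hg
        rw [mem_centralizer_iff]
        intro w hw
        exact (hg w hw).symm)
      (S : Subgroup X)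
      (by
        intro a ha w hw
        have h1 : ⁅w, a⁆ ∈ Cc := by
          refine mem_inf.mpr ⟨?_, commutator_mem_commutator (hMS hw) ha⟩
          have h0 : ⁅w, a⁆ = w * (a * w⁻¹ * a⁻¹) := by rw [commutatorElement_def]; group
          rw [h0]
          exact mul_mem hw ((hMn.conj_mem w⁻¹ (inv_mem hw) a))
        exact hCcentral _ h1 a ha)
      S.isPGroup'
    set C₁ := centralizer (M : Set X) with hC₁
    set Y := (pCore p (X ⧸ C₁)).comap (QuotientGroup.mk' C₁) with hY
    have hYn : Y.Normal := by
      haveI : (pCore p (X ⧸ C₁)).Normal := pCore_normal p _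
      exact inferInstance
    have hSY : (S : Subgroup X) ≤ Y := by
      intro s hs
      exact hps (mem_map_of_mem _ hs)
    have hC₁Y : C₁ ≤ Y := by
      intro c hc
      rw [hY, mem_comap]
      have : QuotientGroup.mk' C₁ c = 1 := by
        rw [← MonoidHom.mem_ker, QuotientGroup.ker_mk']
        exact hc
      rw [this]
      exact one_mem _
    -- `Y = C₁ S`
    have hYle : Y ≤ C₁ ⊔ (S : Subgroup X) := by
      have h1 : C₁.relIndex Y = Nat.card (Y.map (QuotientGroup.mk' C₁)) := by
        rw [← Subgroup.relIndex_ker Y (QuotientGroup.mk' C₁), QuotientGroup.ker_mk']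
      have h2 : IsPGroup p (Y.map (QuotientGroup.mk' C₁)) := by
        refine (pCore_isPGroup (G := X ⧸ C₁) p).to_le ?_
        rintro _ ⟨r, hr, rfl⟩
        exact hr
      obtain ⟨k, hk⟩ := IsPGroup.iff_card.mp h2
      have h3 : (C₁ ⊔ (S : Subgroup X)).relIndex Y ∣ C₁.relIndex Y :=
        Subgroup.relIndex_dvd_of_le_left Y le_sup_left
      have h4 : (C₁ ⊔ (S : Subgroup X)).relIndex Y ∣ (S : Subgroup X).relIndex Y :=
        Subgroup.relIndex_dvd_of_le_left Y le_sup_right
      rw [h1, hk] at h3
      have h5 : ¬ p ∣ (S : Subgroup X).relIndex Y := by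
        intro h
        exact S.not_dvd_index (h.trans (Subgroup.relIndex_dvd_index_of_le hSY))
      have hc : Nat.Coprime ((S : Subgroup X).relIndex Y) (p ^ k) :=
        Nat.Coprime.pow_right k ((Nat.Prime.coprime_iff_not_dvd hpp).mpr h5).symm
      have h6 := Nat.eq_one_of_dvd_coprimes hc h4 h3
      exact Subgroup.relIndex_eq_one.mp h6
    obtain ⟨e, heM, he1, hecen⟩ := Cfsg.Agent.Lib.OddLocal.exists_central_of_normal hMS hMne hSnil
      (fun s _ => Cfsg.Agent.Lib.Coprime.mem_normalizer_of_conj_le M s (fun x hx => hMn.conj_mem x hx s))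
    set M₁ := M ⊓ centralizer (Y : Set X) with hM₁
    have hM₁n : M₁.Normal := by
      haveI := hYn
      haveI hcn : (centralizer (Y : Set X)).Normal := inferInstance
      exact inferInstance
    have heM₁ : e ∈ M₁ := by
      refine mem_inf.mpr ⟨heM, ?_⟩
      have hle : Y ≤ centralizer ({e} : Set X) := by
        refine hYle.trans (sup_le ?_ ?_)
        · intro c hc
          rw [mem_centralizer_singleton_iff]
          exact (mem_centralizer_iff.mp hc e heM).symm
        · intro s hs
          rw [mem_centralizer_singleton_iff]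
          exact (hecen s hs).symm
      rw [mem_centralizer_iff]
      intro y hy
      exact (mem_centralizer_singleton_iff.mp (hle hy))
    rcases hMm M₁ hM₁n inf_le_left with h | h
    · rw [h, mem_bot] at heM₁
      exact absurd heM₁ he1
    · intro s hs
      rw [mem_centralizer_iff]
      intro m hm
      have hm' : m ∈ M₁ := by rw [h]; exact hm
      exact (mem_centralizer_iff.mp (mem_inf.mp hm').2 s (hSY hs)).symm
  -- the quotient by `M`
  have hIH := hquot M hMne
  rw [Sylow.coe_mapSurjective] at hIH
  set π := QuotientGroup.mk' M with hπ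
  have hker : π.ker = M := QuotientGroup.ker_mk' M
  set O' := pPrimeCore p (X ⧸ M) with hO'
  haveI hO'n : O'.Normal := pPrimeCore_normal p _
  set J := (O' ⊔ (S : Subgroup X).map π).comap π with hJ
  have hJn : J.Normal := by
    haveI := hIH
    exact inferInstance
  set C' := J ⊓ centralizer (M : Set X) with hC'
  have hC'n : C'.Normal := by
    haveI := hJn
    haveI hcn : (centralizer (M : Set X)).Normal := inferInstance
    exact inferInstance
  have hSJ : (S : Subgroup X) ≤ J := by
    intro s hs
    rw [hJ, mem_comap]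
    exact mem_sup_right (mem_map_of_mem _ hs)
  have hSC' : (S : Subgroup X) ≤ C' := le_inf hSJ hSM
  -- the `p'`-part
  set L₁ := O'.comap π ⊓ centralizer (M : Set X) with hL₁
  have hL₁n : L₁.Normal := by
    haveI hcn : (centralizer (M : Set X)).Normal := inferInstance
    exact inferInstance
  have hL₁M : L₁ ≤ M := by
    refine le_of_central_aux hO hL₁n inf_le_right ?_
    intro K hKL hKp
    intro t ht
    have h1 : π t ∈ O' := (mem_inf.mp (hKL ht)).1
    have h2 : O' ⊓ K.map π = ⊥ := by
      apply Subgroup.inf_eq_bot_of_coprime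
      have h3 : IsPGroup p (K.map π) := hKp.map π
      obtain ⟨k, hk⟩ := IsPGroup.iff_card.mp h3
      rw [hk]
      exact Nat.Coprime.pow_right k (pPrimeCore_coprime p)
    have h3 : π t ∈ O' ⊓ K.map π := mem_inf.mpr ⟨h1, mem_map_of_mem _ ht⟩
    rw [h2, mem_bot] at h3
    rw [← hker, MonoidHom.mem_ker]
    exact h3
  have hC'S : C' ≤ (S : Subgroup X) := by
    intro j hj
    obtain ⟨hj1, hj2⟩ := mem_inf.mp hj
    have hj3 : π j ∈ O' ⊔ (S : Subgroup X).map π := hj1
    have hO'norm : (S : Subgroup X).map π ≤ normalizer (O' : Set (X ⧸ M)) := fun y _ =>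
      Cfsg.Agent.Lib.Coprime.mem_normalizer_of_conj_le O' y (fun x hx => hO'n.conj_mem x hx y)
    obtain ⟨ob, hob, sb, hsb, hprod⟩ :=
      Cfsg.Agent.Lib.Components.exists_mul_of_mem_sup_of_le_normalizer hO'norm hj3
    obtain ⟨s, hs, rfl⟩ := hsb
    set l := j * s⁻¹ with hl
    have hl1 : π l = ob := by
      rw [hl, map_mul, map_inv, hprod]
      group
    have hlL : l ∈ L₁ := by
      refine mem_inf.mpr ⟨?_, ?_⟩
      · have : l ∈ O'.comap π := by
          show π l ∈ O'
          rw [hl1]
          exact hob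
        exact this
      · exact mul_mem hj2 (inv_mem (hSM hs))
    have hlS : l ∈ (S : Subgroup X) := hMS (hL₁M hlL)
    have h3 : j = l * s := by rw [hl]; group
    rw [h3]
    exact mul_mem hlS hs
  have hfinal : (S : Subgroup X) = C' := le_antisymm hSC' hC'S
  rw [hfinal]
  exact hC'n

/-- Let X be a finite solvable group of odd order, p a prime and S a Sylow p-subgroup of X whose commutator subgroup is
cyclic. Then the product of the largest normal subgroup of X of order prime to p with S is a normal subgroup of X. -/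
theorem result {X : Type*} [Group X] [Finite X] [Group.IsSolvable X]
    (hX : Odd (Nat.card X)) (p : ℕ) [Fact p.Prime] (S : Sylow p X) (hS : IsCyclic (commutator (S : Subgroup X))) :
    (Cfsg.pPrimeCore p X ⊔ (S : Subgroup X)).Normal := by
  have h1 := normal_sylow_aux _ X rfl hX p S (by
    have he : ↥(commutator (S : Subgroup X)) ≃* ↥⁅(S : Subgroup X), (S : Subgroup X)⁆ := by
      have h2 := Subgroup.map_subtype_commutator (S : Subgroup X)
      exact ((commutator (S : Subgroup X)).equivMapOfInjective _ (S : Subgroup X).subtype_injective).trans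
        (MulEquiv.subgroupCongr h2)
    exact isCyclic_of_surjective he.toMonoidHom he.surjective)
  exact h1

end Cfsg.Agent.S0521
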