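import Cfsg.Statements.S0522
import Cfsg.Agent.Lib.FT.TT
import Cfsg.Agent.Lib.Components.Local

set_option autoImplicit false
open Cfsg

namespace Cfsg.Agent.S0522

open Subgroup Cfsg Cfsg.Agent.Lib.Coprime in
theorem full_of_scn {X : Type*} [Group X] [Finite X] {p : ℕ} [Fact p.Prime] (P : Sylow p X) (B : Subgroup X)
    (hBn : (P : Subgroup X) ≤ normalizer (B : Set X)) (hBa : IsMulCommutative B)
    (hBc : (P : Subgroup X) ⊓ centralizer (B : Set X) = B) :
    ∀ x ∈ centralizer (B : Set X), IsPGroup p (zpowers x) → x ∈ B := by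
  classical
  intro x hx hxp
  have hpp : p.Prime := Fact.out
  set C := centralizer (B : Set X) with hC
  have hBC : B ≤ C := by
    rw [← hBc]; exact inf_le_right
  have hBP : B ≤ (P : Subgroup X) := by
    rw [← hBc]; exact inf_le_left
  have hPC : (P : Subgroup X) ≤ normalizer (C : Set X) := by
    intro g hg
    apply mem_normalizer_of_conj_le
    intro y hy
    rw [hC, mem_centralizer_iff] at hy ⊢
    intro b hb
    have h1 : g⁻¹ * b * g ∈ B := by
      have := (mem_normalizer_iff.mp (hBn (inv_mem hg)) b).mp hb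
      simpa using this
    have h2 := hy _ h1
    calc b * (g * y * g⁻¹) = g * ((g⁻¹ * b * g) * y) * g⁻¹ := by group
      _ = g * (y * (g⁻¹ * b * g)) * g⁻¹ := by rw [h2]
      _ = g * y * g⁻¹ * b := by group
  -- the index of `B` in `C` is prime to `p`
  set M := C ⊔ (P : Subgroup X) with hM
  have h1 : C.relIndex M = C.relIndex (P : Subgroup X) := by
    rw [hM]; exact relIndex_sup_of_le_normalizer C _ hPC
  have hCM : C ≤ M := le_sup_left
  have hPM : (P : Subgroup X) ≤ M := le_sup_right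
  have h2 : Nat.card C * C.relIndex M = Nat.card M := card_mul_relIndex hCM
  have h3 : Nat.card B * B.relIndex (P : Subgroup X) = Nat.card (P : Subgroup X) := card_mul_relIndex hBP
  have h4 : B.relIndex (P : Subgroup X) = C.relIndex (P : Subgroup X) := by
    have h40 : ((P : Subgroup X) ⊓ C).relIndex (P : Subgroup X) = C.relIndex (P : Subgroup X) :=
      Subgroup.inf_relIndex_left _ _
    rw [← h40, hBc]
  have h5 : Nat.card (P : Subgroup X) * (P : Subgroup X).relIndex M = Nat.card M := card_mul_relIndex hPM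
  have h6 : Nat.card B * B.relIndex C = Nat.card C := card_mul_relIndex hBC
  have h7 : B.relIndex C = (P : Subgroup X).relIndex M := by
    have hpos : 0 < Nat.card B * C.relIndex (P : Subgroup X) := by
      rw [← h4, h3]; exact Nat.card_pos
    apply Nat.eq_of_mul_eq_mul_left hpos
    calc Nat.card B * C.relIndex (P : Subgroup X) * B.relIndex C
        = (Nat.card B * B.relIndex C) * C.relIndex M := by rw [h1]; ring
      _ = Nat.card M := by rw [h6, h2]
      _ = Nat.card B * C.relIndex (P : Subgroup X) * (P : Subgroup X).relIndex M := by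
        rw [← h4, h3, h5]
  have h8 : ¬ p ∣ B.relIndex C := by
    rw [h7]
    intro h
    apply P.not_dvd_index
    exact h.trans (Subgroup.relIndex_dvd_index_of_le le_sup_right)
  -- a `p`-overgroup
  have hxn : zpowers x ≤ normalizer (B : Set X) := by
    rw [zpowers_le]
    apply mem_normalizer_of_conj_le
    intro b hb
    rw [← mem_centralizer_iff.mp hx b hb]
    simpa using hb
  have hp2 : IsPGroup p ↥(B ⊔ zpowers x) := by
    rw [sup_comm]
    have hBp : IsPGroup p B := P.isPGroup'.to_le hBP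
    exact IsPGroup.to_sup_of_normal_right' hxp hBp hxn
  have hxC : zpowers x ≤ C := (zpowers_le).mpr hx
  have h9 : B ⊔ zpowers x = B :=
    eq_of_isPGroup_of_not_dvd_relIndex le_sup_left (sup_le hBC hxC) hp2 h8
  have h10 : zpowers x ≤ B := sup_eq_left.mp h9
  exact h10 (mem_zpowers x)

/-- Transitivity Theorem (odd-order setting). Let X be a finite group of odd order in which the normalizer of every
nontrivial p-subgroup is solvable, P a Sylow p-subgroup, and B an abelian subgroup of P, normalized by P, with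
C_P(B) = B and containing an elementary abelian subgroup of order p^3. Then for every prime q ≠ p, any two q-subgroups
that are maximal among the q-subgroups normalized by B are conjugate by an element of the centralizer of B. -/
theorem result {X : Type*} [Group X] [Finite X] (hX : Odd (Nat.card X)) (p : ℕ)
    [Fact p.Prime] (hloc : ∀ T : Subgroup X, IsPGroup p T → T ≠ ⊥ → Group.IsSolvable (Subgroup.normalizer (T : Set X)))
    (P : Sylow p X) (B : Subgroup X) (hBP : B ≤ (P : Subgroup X))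
    (hBn : ∀ x ∈ (P : Subgroup X), ∀ b ∈ B, x * b * x⁻¹ ∈ B) (hBa : IsMulCommutative B)
    (hBc : (P : Subgroup X) ⊓ Subgroup.centralizer (B : Set X) = B)
    (hB3 : ∃ E : Subgroup X, E ≤ B ∧ (∀ e ∈ E, e ^ p = 1) ∧ p ^ 3 ≤ Nat.card E)
    (q : ℕ) [Fact q.Prime] (hqp : q ≠ p) (Q₁ Q₂ : Subgroup X)
    (h₁ : IsPGroup q Q₁ ∧ B ≤ Subgroup.normalizer (Q₁ : Set X) ∧
      ∀ R : Subgroup X, IsPGroup q R → B ≤ Subgroup.normalizer (R : Set X) → Q₁ ≤ R → R = Q₁)
    (h₂ : IsPGroup q Q₂ ∧ B ≤ Subgroup.normalizer (Q₂ : Set X) ∧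
      ∀ R : Subgroup X, IsPGroup q R → B ≤ Subgroup.normalizer (R : Set X) → Q₂ ≤ R → R = Q₂) :
    ∃ c ∈ Subgroup.centralizer (B : Set X), Q₂ = Q₁.map (MulAut.conj c).toMonoidHom := by
  classical
  have hpp : p.Prime := Fact.out
  have hqq : q.Prime := Fact.out
  have hBp : IsPGroup p B := P.isPGroup'.to_le hBP
  have hBn' : (P : Subgroup X) ≤ Subgroup.normalizer (B : Set X) := by
    intro g hg
    exact Cfsg.Agent.Lib.Coprime.mem_normalizer_of_conj_le B g (fun b hb => hBn g hg b hb)
  have hfull := full_of_scn P B hBn' hBa hBc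
  obtain ⟨E, hEB, hEe, hEc⟩ := hB3
  have hE3 : ¬ Cfsg.PRankLE p 2 B := by
    intro h
    have h1 := h (E.subgroupOf B) (by
      refine ⟨⟨?_⟩⟩
      intro u v
      apply Subtype.ext
      apply Subtype.ext
      exact congrArg Subtype.val (hBa.is_comm.comm (u : B) (v : B))) (by
      intro a ha
      apply Subtype.ext
      simpa using hEe _ ha)
    have h2 : Nat.card (E.subgroupOf B) = Nat.card E :=
      Nat.card_congr (Subgroup.subgroupOfEquivOfLe hEB).toEquiv
    rw [h2] at h1
    have h3 : p ^ 3 ≤ p ^ 2 := hEc.trans h1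
    have h4 := (Nat.pow_le_pow_iff_right hpp.one_lt).mp h3
    omega
  have h2 : p = 2 → ∀ S : Sylow p X, Group.IsNilpotent (S : Subgroup X) ∧
      Group.nilpotencyClass (S : Subgroup X) ≤ 2 := by
    intro hp S
    exfalso
    have h3 : p ∣ Nat.card E := by
      have hEp : IsPGroup p E := hBp.to_le hEB
      obtain ⟨k, hk⟩ := IsPGroup.iff_card.mp hEp
      rw [hk] at hEc ⊢
      have h4 : 3 ≤ k := (Nat.pow_le_pow_iff_right hpp.one_lt).mp hEc
      exact dvd_pow_self p (by omega)
    have h5 : p ∣ Nat.card X := h3.trans (Subgroup.card_subgroup_dvd_card E)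
    rw [hp] at h5
    exact (Nat.not_even_iff_odd.mpr hX) (even_iff_two_dvd.mpr h5)
  have hloc' : ∀ T : Subgroup X, IsPGroup p T → T ≠ ⊥ →
      Cfsg.IsPConstrained p ↥(Subgroup.normalizer (T : Set X)) := fun T hT hT1 =>
    Cfsg.Agent.Lib.Components.isPConstrained_of_solvable (hloc T hT hT1)
  have hmem : ∀ Q : Subgroup X, (IsPGroup q Q ∧ B ≤ Subgroup.normalizer (Q : Set X) ∧
      ∀ R : Subgroup X, IsPGroup q R → B ≤ Subgroup.normalizer (R : Set X) → Q ≤ R → R = Q) →
      Q ∈ Cfsg.maxInvSubgroups ⊤ B {q} := by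
    rintro Q ⟨hQ1, hQ2, hQ3⟩
    refine ⟨⟨le_top, (Cfsg.Agent.Lib.OddLocal.isPiSub_singleton_iff hqq).2 hQ1, hQ2⟩, ?_⟩
    rintro R ⟨-, hR2, hR3⟩ hle
    exact hQ3 R ((Cfsg.Agent.Lib.OddLocal.isPiSub_singleton_iff hqq).1 hR2) hR3 hle
  obtain ⟨k, hk, hkeq⟩ := Cfsg.Agent.Lib.FT.TT.thompson_transitivity hloc' h2 B hBp hBa hE3 hfull q hqp
    Q₁ (hmem Q₁ h₁) Q₂ (hmem Q₂ h₂)
  exact ⟨k, Cfsg.Agent.Lib.OddLocal.piCoreOf_le _ _ hk, hkeq⟩

end Cfsg.Agent.S0522
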