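import Cfsg.Statements.S0563
import Cfsg.Agent.Lib.Basic.KW5

set_option autoImplicit false
open Pointwise
open Cfsg

namespace Cfsg.Agent.S0563

/-- If a finite group G is the product AB of two nilpotent subgroups of coprime orders, then G is solvable, and for every Sylow p-subgroup P of A and Sylow q-subgroup Q of B the product set PQ is a subgroup. -/
theorem result {G : Type*} [Group G] [Finite G] (A B : Subgroup G) (hA : Group.IsNilpotent A) (hB : Group.IsNilpotent B) (hcop : (Nat.card A).Coprime (Nat.card B)) (hAB : ∀ g : G, ∃ a ∈ A, ∃ b ∈ B, g = a * b) : Group.IsSolvable G ∧ ∀ (p q : ℕ) [Fact p.Prime] [Fact q.Prime] (P : Sylow p A) (Q : Sylow q B), ∃ S : Subgroup G, (S : Set G) = (((P : Subgroup A).map A.subtype : Subgroup G) : Set G) * (((Q : Subgroup B).map B.subtype : Subgroup G) : Set G) := by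
  refine ⟨Cfsg.Agent.Lib.Basic.isSolvable_of_coprime_product A B hA hB hcop hAB, ?_⟩
  intro p q _ _ P Q
  have hdisj : A ⊓ B = ⊥ := (Subgroup.disjoint_of_coprime_natCard hcop).eq_bot
  have hcard := Cfsg.Agent.Lib.Basic.card_mul_card_inf_of_factorization hAB
  rw [hdisj, Subgroup.card_bot, mul_one] at hcard
  have hAi : A.index = Nat.card B := by
    have h1 := A.card_mul_index
    rw [hcard] at h1
    exact Nat.eq_of_mul_eq_mul_left Nat.card_pos h1
  have hBi : B.index = Nat.card A := by
    have h1 := B.card_mul_index
    rw [hcard, mul_comm] at h1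
    exact Nat.eq_of_mul_eq_mul_right Nat.card_pos h1
  haveI := hA
  haveI := hB
  haveI hs := Cfsg.Agent.Lib.Basic.isSolvable_of_coprime_product A B hA hB hcop hAB
  haveI hPn : (P : Subgroup A).Normal := inferInstance
  haveI hQn : (Q : Subgroup B).Normal := inferInstance
  have hP1 : ((P : Subgroup A).map A.subtype).subgroupOf A = (P : Subgroup A) :=
    Subgroup.comap_map_eq_self_of_injective A.subtype_injective _
  have hQ1 : ((Q : Subgroup B).map B.subtype).subgroupOf B = (Q : Subgroup B) :=
    Subgroup.comap_map_eq_self_of_injective B.subtype_injective _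
  have hPc : Nat.card ((P : Subgroup A).map A.subtype) = Nat.card (P : Subgroup A) :=
    Subgroup.card_map_of_injective A.subtype_injective
  have hQc : Nat.card ((Q : Subgroup B).map B.subtype) = Nat.card (Q : Subgroup B) :=
    Subgroup.card_map_of_injective B.subtype_injective
  obtain ⟨S, hS⟩ := Cfsg.Agent.Lib.Basic.exists_subgroup_conj_hall_product A B
    ((P : Subgroup A).map A.subtype) ((Q : Subgroup B).map B.subtype) hAB
    (Subgroup.map_subtype_le _) (by rw [hP1]; exact hPn)
    (Subgroup.map_subtype_le _) (by rw [hQ1]; exact hQn)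
    (by
      rw [Subgroup.index_map_subtype, hPc, hAi]
      exact Nat.Coprime.mul_right P.card_coprime_index
        (Nat.Coprime.coprime_dvd_left (Subgroup.card_subgroup_dvd_card _) hcop))
    (by
      rw [Subgroup.index_map_subtype, hQc, hBi]
      exact Nat.Coprime.mul_right Q.card_coprime_index
        (Nat.Coprime.coprime_dvd_left (Subgroup.card_subgroup_dvd_card _) hcop.symm)) 1 1
  rw [Cfsg.Agent.Lib.Basic.conj_smul_one, Cfsg.Agent.Lib.Basic.conj_smul_one] at hS
  exact ⟨S, hS⟩

end Cfsg.Agent.S0563
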