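import Cfsg.Statements.S0574
import Cfsg.Agent.Lib.Basic.KW6
import Cfsg.Agent.Lib.Basic.Factor

set_option autoImplicit false
open Cfsg

namespace Cfsg.Agent.S0574

section aux

open Subgroup Cfsg.Agent.Lib.Basic
open scoped commutatorElement

universe u

/-- the number of prime factors -/
private def omegaN (n : ℕ) : ℕ := n.primeFactorsList.length

private theorem omegaN_mul {a b : ℕ} (ha : a ≠ 0) (hb : b ≠ 0) : omegaN (a * b) = omegaN a + omegaN b := by
  have := ArithmeticFunction.cardFactors_mul ha hb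
  simpa [omegaN, ArithmeticFunction.cardFactors_apply] using this

private theorem omegaN_pos {a : ℕ} (ha : 1 < a) : 1 ≤ omegaN a := by
  unfold omegaN
  rw [Nat.succ_le_iff, List.length_pos_iff]
  intro h
  rw [Nat.primeFactorsList_eq_nil] at h
  omega

private theorem omegaN_one : omegaN 1 = 0 := by
  simp [omegaN]

/-- The key lemma. -/
private theorem lemma_H {G : Type u} [Group G] [Finite G] (A B : Subgroup G) {z : G}
    (hA : ∀ a ∈ A, ∀ a' ∈ A, a * a' = a' * a)
    (hzB : ∀ b ∈ B, z * b = b * z) (hAB : ∀ g : G, ∃ a ∈ A, ∃ b ∈ B, g = a * b)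
    (hz : z ∈ ⁅B ⊓ (A ⊔ normalClosure ({z} : Set G)), B ⊓ (A ⊔ normalClosure ({z} : Set G))⁆) :
    normalClosure ({z} : Set G) ≤ ⁅normalClosure ({z} : Set G), normalClosure ({z} : Set G)⁆ := by
  classical
  obtain ⟨E, hEdef⟩ : ∃ E, E = normalClosure ({z} : Set G) := ⟨_, rfl⟩
  rw [← hEdef] at hz ⊢
  haveI hEn : E.Normal := by rw [hEdef]; infer_instance
  have hzE : z ∈ E := by
    rw [hEdef]; exact Subgroup.subset_normalClosure (by simp)
  obtain ⟨K, hKdef⟩ : ∃ K, K = ⁅E, E⁆ := ⟨_, rfl⟩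
  rw [← hKdef]
  haveI hKn : K.Normal := by rw [hKdef]; exact Subgroup.commutator_normal E E
  let π : G →* G ⧸ K := QuotientGroup.mk' K
  have hπ1 : ∀ x, π x = 1 ↔ x ∈ K := fun x => QuotientGroup.eq_one_iff x
  -- conjugates of `z`
  have conjA : ∀ g : G, ∃ a ∈ A, g * z * g⁻¹ = a * z * a⁻¹ := by
    intro g
    obtain ⟨a, ha, b, hb, rfl⟩ := hAB g
    refine ⟨a, ha, ?_⟩
    calc a * b * z * (a * b)⁻¹ = a * (b * z) * b⁻¹ * a⁻¹ := by group
      _ = a * (z * b) * b⁻¹ * a⁻¹ := by rw [hzB b hb]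
      _ = a * z * a⁻¹ := by group
  -- `E` is generated by conjugates
  have hEgen : ∀ L : Subgroup G, (∀ a ∈ A, a * z * a⁻¹ ∈ L) → E ≤ L := by
    intro L hL
    rw [hEdef]
    refine (Subgroup.closure_le _).mpr ?_
    intro x hx
    obtain ⟨y, hy, hc⟩ := Group.mem_conjugatesOfSet_iff.mp hx
    have hy' : y = z := hy
    subst hy'
    obtain ⟨g, rfl⟩ := isConj_iff.mp hc
    obtain ⟨a, ha, e⟩ := conjA g
    rw [SetLike.mem_coe, e]
    exact hL a ha
  have F0 : ∀ e ∈ E, ∀ e' ∈ E, π e * π e' = π e' * π e := by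
    intro e he e' he'
    have h1 : ⁅e, e'⁆ ∈ K := by
      rw [hKdef]; exact Subgroup.commutator_mem_commutator he he'
    have h2 := (hπ1 _).mpr h1
    rw [map_commutatorElement, commutatorElement_eq_one_iff_mul_comm] at h2
    exact h2
  obtain ⟨G₁, hG₁⟩ : ∃ G₁, G₁ = A ⊔ E := ⟨_, rfl⟩
  rw [← hG₁] at hz
  have hAG : A ≤ G₁ := by rw [hG₁]; exact le_sup_left
  have hEG : E ≤ G₁ := by rw [hG₁]; exact le_sup_right
  -- elements of `G₁`
  have hform : ∀ x ∈ G₁, ∃ a ∈ A, ∃ e ∈ E, a * e = x := by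
    intro x hx
    rw [hG₁] at hx
    exact Subgroup.mem_sup_of_normal_right.mp hx
  have comm1 : ∀ x ∈ G₁, ∀ y ∈ G₁, ⁅x, y⁆ ∈ E := by
    intro x hx y hy
    obtain ⟨a, ha, e, he, rfl⟩ := hform x hx
    obtain ⟨a', ha', e', he', rfl⟩ := hform y hy
    let ρ : G →* G ⧸ E := QuotientGroup.mk' E
    have hρ : ∀ w ∈ E, ρ w = 1 := fun w hw => (QuotientGroup.eq_one_iff w).mpr hw
    have : ρ ⁅a * e, a' * e'⁆ = 1 := by
      rw [map_commutatorElement, map_mul, map_mul, hρ e he, hρ e' he', mul_one, mul_one,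
        commutatorElement_eq_one_iff_mul_comm, ← map_mul, ← map_mul, hA a ha a' ha']
    exact (QuotientGroup.eq_one_iff _).mp this
  -- `F2`
  have F2 : ∀ b ∈ B ⊓ G₁, ∀ e ∈ E, π b * π e = π e * π b := by
    intro b hb e he
    have hL : E ≤ (centralizer ({π b} : Set (G ⧸ K))).comap π := by
      apply hEgen
      intro a ha
      rw [Subgroup.mem_comap, Subgroup.mem_centralizer_iff]
      intro t ht
      have ht' : t = π b := ht
      rw [ht']
      obtain ⟨c, hc⟩ : ∃ c, c = ⁅b, a⁆ := ⟨_, rfl⟩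
      have hcE : c ∈ E := by
        rw [hc]; exact comm1 b hb.2 a (hAG ha)
      have hw : a * z * a⁻¹ ∈ E := hEn.conj_mem z hzE a
      have hba : b * a = c * a * b := by
        rw [hc, commutatorElement_def]; group
      have hconj : b * (a * z * a⁻¹) * b⁻¹ = c * (a * z * a⁻¹) * c⁻¹ := by
        calc b * (a * z * a⁻¹) * b⁻¹ = (b * a) * z * (b * a)⁻¹ := by group
          _ = (c * a * b) * z * (c * a * b)⁻¹ := by rw [hba]
          _ = c * a * (b * z) * b⁻¹ * a⁻¹ * c⁻¹ := by group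
          _ = c * a * (z * b) * b⁻¹ * a⁻¹ * c⁻¹ := by rw [(hzB b hb.1).symm]
          _ = c * (a * z * a⁻¹) * c⁻¹ := by group
      obtain ⟨w, hwdef⟩ : ∃ w, w = a * z * a⁻¹ := ⟨_, rfl⟩
      rw [← hwdef] at hconj hw ⊢
      have h0 := congrArg π hconj
      simp only [map_mul, map_inv] at h0
      have h1 : π b * π w * (π b)⁻¹ = π w := by
        rw [h0, F0 c hcE w hw, mul_assoc, mul_inv_cancel, mul_one]
      rw [mul_inv_eq_iff_eq_mul] at h1
      exact h1
    have := Subgroup.mem_centralizer_iff.mp (Subgroup.mem_comap.mp (hL he)) (π b) rfl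
    exact this
  -- `F3`
  have F3 : ∀ a ∈ A, π ⁅a, z⁆ = 1 := by
    intro a ha
    let B₁ := B ⊓ G₁
    let f : B₁ →* G ⧸ K := MonoidHom.mk' (fun b => π ⁅a, (b : G)⁆) (by
      intro x y
      have hy : ⁅a, (y : G)⁆ ∈ E := comm1 a (hAG ha) y y.2.2
      have h1 : ⁅a, (x : G) * y⁆ = ⁅a, (x : G)⁆ * ((x : G) * ⁅a, (y : G)⁆ * (x : G)⁻¹) := by
        simp only [commutatorElement_def]; group
      have h2 := F2 x x.2 _ hy
      show π ⁅a, ((x : G) * y)⁆ = π ⁅a, (x : G)⁆ * π ⁅a, (y : G)⁆
      rw [h1, map_mul]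
      congr 1
      rw [map_mul, map_mul, map_inv, h2, mul_assoc, mul_inv_cancel, mul_one])
    have hf : ∀ b : B₁, f b = π ⁅a, (b : G)⁆ := fun b => rfl
    have hL : ⁅B₁, B₁⁆ ≤ f.ker.map B₁.subtype := by
      rw [Subgroup.commutator_le]
      intro x hx y hy
      refine ⟨⁅(⟨x, hx⟩ : B₁), (⟨y, hy⟩ : B₁)⁆, ?_, ?_⟩
      · rw [SetLike.mem_coe, MonoidHom.mem_ker, map_commutatorElement, commutatorElement_eq_one_iff_mul_comm, hf, hf]
        exact F0 _ (comm1 a (hAG ha) x hx.2) _ (comm1 a (hAG ha) y hy.2)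
      · simp only [Subgroup.subtype_apply, commutatorElement_def, Subgroup.coe_mul, Subgroup.coe_inv]
    obtain ⟨z₁, hz₁, hz₁e⟩ := hL hz
    have h1 := MonoidHom.mem_ker.mp hz₁
    rw [hf] at h1
    rw [← hz₁e]
    exact h1
  have F4 : ∀ a ∈ A, Commute (π a) (π z) := by
    intro a ha
    have := F3 a ha
    rw [map_commutatorElement, commutatorElement_eq_one_iff_mul_comm] at this
    exact this
  have F4' : E ≤ (zpowers (π z)).comap π := by
    apply hEgen
    intro a ha
    rw [Subgroup.mem_comap, map_mul, map_mul, map_inv, (F4 a ha).eq, mul_assoc, mul_inv_cancel, mul_one]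
    exact Subgroup.mem_zpowers _
  have F5 : ∀ x ∈ G₁, ∀ y ∈ G₁, Commute (π x) (π y) := by
    intro x hx y hy
    obtain ⟨a, ha, e, he, rfl⟩ := hform x hx
    obtain ⟨a', ha', e', he', rfl⟩ := hform y hy
    obtain ⟨m, hm⟩ := Subgroup.mem_zpowers_iff.mp (Subgroup.mem_comap.mp (F4' he))
    obtain ⟨n, hn⟩ := Subgroup.mem_zpowers_iff.mp (Subgroup.mem_comap.mp (F4' he'))
    rw [map_mul, map_mul, ← hm, ← hn]
    have h₁ : Commute (π a) (π a') := by
      show π a * π a' = π a' * π a
      rw [← map_mul, ← map_mul, hA a ha a' ha']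
    have h₂ : Commute (π a) (π z ^ n) := (F4 a ha).zpow_right n
    have h₃ : Commute (π z ^ m) (π a') := ((F4 a' ha').zpow_right m).symm
    have h₄ : Commute (π z ^ m) (π z ^ n) := (Commute.refl _).zpow_zpow m n
    exact (h₁.mul_right h₂).mul_left (h₃.mul_right h₄)
  have F6 : ⁅B ⊓ G₁, B ⊓ G₁⁆ ≤ K := by
    rw [Subgroup.commutator_le]
    intro x hx y hy
    rw [← hπ1, map_commutatorElement, commutatorElement_eq_one_iff_mul_comm]
    exact (F5 x hx.2 y hy.2).eq
  have hzK : z ∈ K := F6 hz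
  apply hEgen
  intro a _
  exact hKn.conj_mem z hzK a

private theorem eq_bot_of_perfect {G : Type u} [Group G] (hs : Group.IsSolvable G) {E : Subgroup G}
    (h : E ≤ ⁅E, E⁆) : E = ⊥ := by
  obtain ⟨n, hn⟩ := hs.solvable
  have key : ∀ k, E ≤ derivedSeries G k := by
    intro k
    induction k with
    | zero => exact le_top
    | succ k ih =>
      rw [derivedSeries_succ]
      exact h.trans (Subgroup.commutator_mono ih ih)
  have := key n
  rw [hn] at this
  exact le_bot_iff.mp this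

/-- The main induction, in the ambient form. -/
private theorem der_bound (N : ℕ) : ∀ (G : Type u) [Group G] [Finite G] (A B : Subgroup G), Nat.card G ≤ N →
    (∀ a ∈ A, ∀ a' ∈ A, a * a' = a' * a) → (∀ x ∈ ⁅B, B⁆, ∀ b ∈ B, x * b = b * x) →
    (∀ g : G, ∃ a ∈ A, ∃ b ∈ B, g = a * b) → derivedSeries G (2 * (1 + omegaN (Nat.card (⁅B, B⁆ : Subgroup G)))) = ⊥ := by
  induction N with
  | zero =>
    intro G _ _ A B h
    have := Nat.card_pos (α := G)
    omega
  | succ N ih =>
    intro G _ _ A B hcard hA hB hAB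
    classical
    by_cases hP : ⁅B, B⁆ = ⊥
    · haveI : IsMulCommutative A := ⟨⟨fun x y => Subtype.ext (hA _ x.2 _ y.2)⟩⟩
      haveI : IsMulCommutative B := by
        have h1 : B ≤ centralizer (B : Set G) := Subgroup.commutator_eq_bot_iff_le_centralizer.mp hP
        refine ⟨⟨fun x y => Subtype.ext ?_⟩⟩
        exact (Subgroup.mem_centralizer_iff.mp (h1 x.2) _ y.2).symm
      have h2 := ito_metabelian A B hAB
      rw [hP]
      have h3 : Nat.card (⊥ : Subgroup G) = 1 := Subgroup.card_bot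
      rw [h3, omegaN_one]
      exact h2
    -- the nontrivial case
    obtain ⟨z, hzP, hz1⟩ : ∃ z ∈ ⁅B, B⁆, z ≠ 1 := by
      by_contra hcon
      push Not at hcon
      exact hP ((Subgroup.eq_bot_iff_forall _).mpr hcon)
    have hzB : ∀ b ∈ B, z * b = b * z := hB z hzP
    -- solvability
    have hAnil : Group.IsNilpotent A := by
      haveI : IsMulCommutative A := ⟨⟨fun x y => Subtype.ext (hA _ x.2 _ y.2)⟩⟩
      letI : CommGroup A := { (inferInstance : Group A) with mul_comm := fun x y => Subtype.ext (hA _ x.2 _ y.2) }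
      infer_instance
    have hBnil : Group.IsNilpotent B := by
      rw [Subgroup.nilpotent_iff_lowerCentralSeries]
      refine ⟨2, ?_⟩
      rw [show (2 : ℕ) = 1 + 1 from rfl, Subgroup.lowerCentralSeries_succ, Subgroup.commutator_eq_bot_iff_le_centralizer]
      intro x hx
      rw [Subgroup.mem_centralizer_iff]
      intro y _
      have hx' : (x : G) ∈ ⁅B, B⁆ := by
        have h2 : ((⊤ : Subgroup B).lowerCentralSeries 1).map B.subtype ≤ ⁅B, B⁆ := by
          rw [show (1 : ℕ) = 0 + 1 from rfl, Subgroup.lowerCentralSeries_succ, Subgroup.lowerCentralSeries_zero,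
            Subgroup.map_commutator, ← MonoidHom.range_eq_map, Subgroup.range_subtype]
        exact h2 ⟨x, hx, rfl⟩
      exact Subtype.ext (hB x hx' y y.2).symm
    have hsolv : Group.IsSolvable G := isSolvable_of_nilpotent_product A B hAnil hBnil hAB
    obtain ⟨E, hEdef⟩ : ∃ E, E = normalClosure ({z} : Set G) := ⟨_, rfl⟩
    haveI hEn : E.Normal := by rw [hEdef]; infer_instance
    have hzE : z ∈ E := by
      rw [hEdef]; exact Subgroup.subset_normalClosure (by simp)
    have hE1 : E ≠ ⊥ := by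
      intro h
      rw [h] at hzE
      exact hz1 (Subgroup.mem_bot.mp hzE)
    obtain ⟨G₁, hG₁⟩ : ∃ G₁, G₁ = A ⊔ E := ⟨_, rfl⟩
    have hAG : A ≤ G₁ := by rw [hG₁]; exact le_sup_left
    have hEG : E ≤ G₁ := by rw [hG₁]; exact le_sup_right
    -- `z` is not in the commutator subgroup of `B ⊓ G₁`
    have hzn : z ∉ ⁅B ⊓ G₁, B ⊓ G₁⁆ := by
      intro h
      rw [hG₁, hEdef] at h
      have := lemma_H A B hA hzB hAB h
      rw [← hEdef] at this
      exact hE1 (eq_bot_of_perfect hsolv this)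
    have hG₁top : G₁ ≠ ⊤ := by
      intro h
      rw [h, inf_top_eq] at hzn
      exact hzn hzP
    -- the two applications of the induction hypothesis
    -- first: `G ⧸ E`
    let ρ : G →* G ⧸ E := QuotientGroup.mk' E
    have hρs : Function.Surjective ρ := QuotientGroup.mk'_surjective E
    have hρker : ∀ w, ρ w = 1 ↔ w ∈ E := fun w => QuotientGroup.eq_one_iff w
    have hcardQ : Nat.card (G ⧸ E) ≤ N := by
      have h1 := Subgroup.card_eq_card_quotient_mul_card_subgroup E
      have h2 : 1 < Nat.card E := by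
        rw [Nat.one_lt_iff_ne_zero_and_ne_one]
        refine ⟨Nat.card_pos.ne', ?_⟩
        intro h
        exact hE1 (Subgroup.card_eq_one.mp h)
      have h3 : 0 < Nat.card (G ⧸ E) := Nat.card_pos
      nlinarith
    have hIH1 := ih (G ⧸ E) (A.map ρ) (B.map ρ) hcardQ
      (by
        rintro _ ⟨a, ha, rfl⟩ _ ⟨a', ha', rfl⟩
        rw [← map_mul, ← map_mul, hA a ha a' ha'])
      (by
        rw [← Subgroup.map_commutator]
        rintro _ ⟨x, hx, rfl⟩ _ ⟨b, hb, rfl⟩
        rw [← map_mul, ← map_mul, hB x hx b hb])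
      (by
        intro g
        obtain ⟨g', rfl⟩ := hρs g
        obtain ⟨a, ha, b, hb, rfl⟩ := hAB g'
        exact ⟨ρ a, ⟨a, ha, rfl⟩, ρ b, ⟨b, hb, rfl⟩, map_mul ρ a b⟩)
    -- second: `G₁`
    have hcardG₁ : Nat.card G₁ ≤ N := by
      have h1 := Subgroup.card_mul_index G₁
      have h2 : G₁.index ≠ 1 := fun h => hG₁top (Subgroup.index_eq_one.mp h)
      have h3 : G₁.index ≠ 0 := Subgroup.index_ne_zero_of_finite
      have h4 : 0 < Nat.card G₁ := Nat.card_pos
      have h5 : 2 ≤ G₁.index := by omega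
      nlinarith
    have hmap : ∀ X : Subgroup G, (X.subgroupOf G₁).map G₁.subtype = X ⊓ G₁ := fun X => Subgroup.subgroupOf_map_subtype X G₁
    have hIH2 := ih G₁ (A.subgroupOf G₁) (B.subgroupOf G₁) hcardG₁
      (by
        intro a ha a' ha'
        exact Subtype.ext (hA _ (Subgroup.mem_subgroupOf.mp ha) _ (Subgroup.mem_subgroupOf.mp ha')))
      (by
        intro x hx b hb
        apply Subtype.ext
        have h1 : (x : G) ∈ ⁅B, B⁆ := by
          have h2 : (⁅B.subgroupOf G₁, B.subgroupOf G₁⁆ : Subgroup G₁).map G₁.subtype ≤ ⁅B, B⁆ := by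
            rw [Subgroup.map_commutator, hmap]
            exact Subgroup.commutator_mono inf_le_left inf_le_left
          exact h2 ⟨x, hx, rfl⟩
        exact hB _ h1 _ (Subgroup.mem_subgroupOf.mp hb))
      (by
        intro g
        obtain ⟨a, ha, b, hb, e⟩ := hAB g
        have hbG : b ∈ G₁ := by
          have : b = a⁻¹ * g := by rw [e]; group
          rw [this]
          exact G₁.mul_mem (G₁.inv_mem (hAG ha)) g.2
        refine ⟨⟨a, hAG ha⟩, Subgroup.mem_subgroupOf.mpr ha, ⟨b, hbG⟩, Subgroup.mem_subgroupOf.mpr hb, Subtype.ext e⟩)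
    -- the arithmetic
    obtain ⟨P, hPdef⟩ : ∃ P, P = (⁅B, B⁆ : Subgroup G) := ⟨_, rfl⟩
    have hPbar : ⁅B.map ρ, B.map ρ⁆ = P.map ρ := by rw [hPdef, Subgroup.map_commutator]
    have hP1 : ⁅B.subgroupOf G₁, B.subgroupOf G₁⁆.map G₁.subtype = ⁅B ⊓ G₁, B ⊓ G₁⁆ := by
      rw [Subgroup.map_commutator, hmap]
    have hc1 : Nat.card (⁅B.subgroupOf G₁, B.subgroupOf G₁⁆ : Subgroup G₁) = Nat.card (⁅B ⊓ G₁, B ⊓ G₁⁆ : Subgroup G) := by
      rw [← hP1]
      exact Nat.card_congr (Subgroup.equivMapOfInjective _ _ G₁.subtype_injective).toEquiv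
    rw [hc1] at hIH2
    rw [hPbar] at hIH1
    rw [← hPdef]
    -- `|P| = |P̄| · |P ⊓ E|`
    have hcardP : Nat.card P = Nat.card (P.map ρ) * Nat.card ↥(P ⊓ E) := by
      let φ : P →* G ⧸ E := ρ.comp P.subtype
      have h1 := Subgroup.card_eq_card_quotient_mul_card_subgroup φ.ker
      have h2 : Nat.card (P ⧸ φ.ker) = Nat.card (P.map ρ) := by
        rw [Nat.card_congr (QuotientGroup.quotientKerEquivRange φ).toEquiv, MonoidHom.range_comp, Subgroup.range_subtype]
      have h3 : Nat.card φ.ker = Nat.card ↥(P ⊓ E) := by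
        have h4 : φ.ker.map P.subtype = P ⊓ E := by
          ext w
          constructor
          · rintro ⟨x, hx, rfl⟩
            exact ⟨x.2, (hρker _).mp (MonoidHom.mem_ker.mp hx)⟩
          · rintro ⟨h5, h6⟩
            exact ⟨⟨w, h5⟩, MonoidHom.mem_ker.mpr ((hρker _).mpr h6), rfl⟩
        rw [← h4]
        exact Nat.card_congr (Subgroup.equivMapOfInjective _ _ P.subtype_injective).toEquiv
      rw [h1, h2, h3]
    -- `B₁' < P ⊓ E`
    have hle : ⁅B ⊓ G₁, B ⊓ G₁⁆ ≤ P ⊓ E := by
      apply le_inf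
      · rw [hPdef]
        exact Subgroup.commutator_mono inf_le_left inf_le_left
      · rw [Subgroup.commutator_le]
        intro x hx y hy
        have hform : ∀ x ∈ G₁, ∃ a ∈ A, ∃ e ∈ E, a * e = x := by
          intro x hx
          rw [hG₁] at hx
          exact Subgroup.mem_sup_of_normal_right.mp hx
        obtain ⟨a, ha, e, he, hae⟩ := hform x hx.2
        obtain ⟨a', ha', e', he', hae'⟩ := hform y hy.2
        rw [← hρker, map_commutatorElement, ← hae, ← hae', map_mul, map_mul, (hρker e).mpr he, (hρker e').mpr he',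
          mul_one, mul_one, commutatorElement_eq_one_iff_mul_comm, ← map_mul, ← map_mul, hA a ha a' ha']
    have hd := Subgroup.card_dvd_of_le hle
    obtain ⟨t, ht⟩ := hd
    have ht1 : 1 < t := by
      have htne0 : t ≠ 0 := by
        rintro rfl
        rw [mul_zero] at ht
        exact Nat.card_pos.ne' ht
      have htne1 : t ≠ 1 := by
        rintro rfl
        rw [mul_one] at ht
        have : ⁅B ⊓ G₁, B ⊓ G₁⁆ = P ⊓ E := Subgroup.eq_of_le_of_card_ge hle ht.le
        apply hzn
        rw [this]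
        exact ⟨by rw [hPdef]; exact hzP, hzE⟩
      omega
    have hΩ : omegaN (Nat.card (P.map ρ)) + (omegaN (Nat.card (⁅B ⊓ G₁, B ⊓ G₁⁆ : Subgroup G)) + 1) ≤ omegaN (Nat.card P) := by
      rw [hcardP, omegaN_mul Nat.card_pos.ne' Nat.card_pos.ne', ht,
        omegaN_mul Nat.card_pos.ne' (by omega)]
      have := omegaN_pos ht1
      omega
    -- combining
    have h1 : derivedSeries G (2 * (1 + omegaN (Nat.card (P.map ρ)))) ≤ E := by
      have h2 := map_derivedSeries_eq hρs (2 * (1 + omegaN (Nat.card (P.map ρ))))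
      rw [hIH1] at h2
      intro x hx
      have h3 : ρ x ∈ Subgroup.map ρ (derivedSeries G (2 * (1 + omegaN (Nat.card (P.map ρ))))) := ⟨x, hx, rfl⟩
      rw [h2] at h3
      exact (hρker x).mp (Subgroup.mem_bot.mp h3)
    have h2 : ∀ k, derivedSeries G (2 * (1 + omegaN (Nat.card (P.map ρ))) + k) ≤ (derivedSeries G₁ k).map G₁.subtype := by
      intro k
      induction k with
      | zero =>
        rw [add_zero, derivedSeries_zero, ← MonoidHom.range_eq_map, Subgroup.range_subtype]
        exact h1.trans hEG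
      | succ k ih' =>
        rw [← add_assoc, derivedSeries_succ, derivedSeries_succ, Subgroup.map_commutator]
        exact Subgroup.commutator_mono ih' ih'
    have h3 := h2 (2 * (1 + omegaN (Nat.card (⁅B ⊓ G₁, B ⊓ G₁⁆ : Subgroup G))))
    rw [hIH2, Subgroup.map_bot, le_bot_iff] at h3
    have h4 : 2 * (1 + omegaN (Nat.card (P.map ρ))) + 2 * (1 + omegaN (Nat.card (⁅B ⊓ G₁, B ⊓ G₁⁆ : Subgroup G))) ≤
        2 * (1 + omegaN (Nat.card P)) := by omega
    have h5 := derivedSeries_antitone (G := G) h4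
    rw [h3] at h5
    exact le_bot_iff.mp h5

end aux


/-- Let the finite group G be the product AB of an abelian subgroup A and a subgroup B of nilpotency class at most two, and let Ω be the number of prime factors, with multiplicity, of the order of the commutator subgroup of B. Then the term of index 2(1 + Ω) of the derived series of G is trivial. -/
theorem result {G : Type*} [Group G] [Finite G] (A B : Subgroup G) [IsMulCommutative A] (hB : commutator ↥B ≤ Subgroup.center ↥B) (hAB : ∀ g : G, ∃ a ∈ A, ∃ b ∈ B, g = a * b) : derivedSeries G (2 * (1 + (Nat.card ↥(commutator ↥B)).primeFactorsList.length)) = ⊥ := by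
  have hA : ∀ a ∈ A, ∀ a' ∈ A, a * a' = a' * a := by
    intro a ha a' ha'
    have := (inferInstance : IsMulCommutative A).is_comm.comm (⟨a, ha⟩ : A) ⟨a', ha'⟩
    exact congrArg Subtype.val this
  have hmap : (commutator ↥B).map B.subtype = ⁅B, B⁆ := by
    rw [commutator_def, Subgroup.map_commutator, ← MonoidHom.range_eq_map, Subgroup.range_subtype]
  have hB' : ∀ x ∈ ⁅B, B⁆, ∀ b ∈ B, x * b = b * x := by
    intro x hx b hb
    rw [← hmap] at hx
    obtain ⟨y, hy, rfl⟩ := hx
    have h1 := hB hy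
    have h2 := Subgroup.mem_center_iff.mp h1 ⟨b, hb⟩
    exact (congrArg Subtype.val h2).symm
  have h := der_bound (Nat.card G) G A B le_rfl hA hB' hAB
  have hc : Nat.card ↥(commutator ↥B) = Nat.card (⁅B, B⁆ : Subgroup G) := by
    rw [← hmap]
    exact Nat.card_congr (Subgroup.equivMapOfInjective _ _ B.subtype_injective).toEquiv
  rw [hc]
  exact h

end Cfsg.Agent.S0574
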