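import Cfsg.Statements.S0609
import Mathlib
import Cfsg.Agent.Lib.PLocal.ThompsonMap

set_option autoImplicit false
open Cfsg

namespace Cfsg.Agent.S0609

/-- Thompson factorizability passes to and from the quotient by the largest normal subgroup of order prime to p. -/
theorem result {G : Type*} [Group G] [Finite G] {p : ℕ} [Fact p.Prime] : Cfsg.IsThompsonFactorizable p G ↔ Cfsg.IsThompsonFactorizable p (G ⧸ Cfsg.pPrimeCore p G) := by
  exact Cfsg.Agent.Lib.PLocal.thompsonFactorizable_iff_quotient

end Cfsg.Agent.S0609
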