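import Cfsg.Statements.S0627
import Mathlib
import Cfsg.Agent.Lib.PLocal.QuadThm2
import Cfsg.Agent.Lib.PLocal.WS2
import Cfsg.Agent.Lib.PLocal.ThompsonMap
import Cfsg.Agent.Lib.Components.PComp
import Cfsg.Agent.Lib.Char.PBlock
import Cfsg.Agent.Lib.Coprime.PSolvable
import Cfsg.Agent.Lib.Basic.Core

set_option autoImplicit false
open Cfsg

namespace Cfsg.Agent.S0627

/-- In a p-separable group with p at least 5, the normalizer of W(S) supplements the largest normal subgroup of order prime to p. -/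
theorem result {G : Type*} [Group G] [Finite G] {p : ℕ} [Fact p.Prime] (hp : 5 ≤ p) (hsep : Cfsg.IsPSolvable p G) (S : Sylow p G) : Cfsg.pPrimeCore p G ⊔ Subgroup.normalizer (((Cfsg.stableNormalClosure p ↥(S : Subgroup G)).map (S : Subgroup G).subtype) : Set G) = ⊤ := by
  classical
  have hp2 : p ≠ 2 := by omega
  set O := Cfsg.pPrimeCore p G with hOdef
  haveI hOn : O.Normal := Cfsg.Agent.Lib.Basic.pPrimeCore_normal p
  have hcop : (Nat.card O).Coprime p := Cfsg.Agent.Lib.Basic.pPrimeCore_coprime p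
  set π := QuotientGroup.mk' O with hπ
  have hs : Function.Surjective π := QuotientGroup.mk'_surjective _
  have hsep' : Cfsg.IsPSolvable p (G ⧸ O) := Cfsg.Agent.Lib.Coprime.isPSolvable_map π hs hsep
  have hcore : Cfsg.pPrimeCore p (G ⧸ O) = ⊥ := Cfsg.Agent.Lib.Components.pPrimeCore_quotient_eq_bot p
  have hc := Cfsg.Agent.Lib.Char.centralizer_pCore_le_of_isPSolvable hsep' hcore
  have hst : Cfsg.IsActionPStable p (G ⧸ O) :=
    Cfsg.Agent.Lib.PLocal.isActionPStable_of_class (Cfsg.Agent.Lib.PLocal.ps3Class hp2)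
      ⟨hsep', fun h3 => absurd h3 (by omega)⟩
  set S' : Sylow p (G ⧸ O) := S.mapSurjective hs with hS'
  have hS'c : (S' : Subgroup (G ⧸ O)) = (S : Subgroup G).map π := rfl
  have hN := Cfsg.Agent.Lib.PLocal.stableNormalClosure_normal hst hc S' _ rfl
  have hinj := Cfsg.Agent.Lib.PLocal.injOn_quotient_of_isPGroup O hcop S.isPGroup'
  let f : (S : Subgroup G) →* (S' : Subgroup (G ⧸ O)) := π.subgroupMap (S : Subgroup G)
  have hfinj : Function.Injective f := by
    refine (injective_iff_map_eq_one f).mpr fun x hx => ?_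
    have h1 : π (x : G) = 1 := congrArg Subtype.val hx
    exact Subtype.ext (hinj _ x.2 h1)
  have hfsurj : Function.Surjective f := π.subgroupMap_surjective (S : Subgroup G)
  let η : (S : Subgroup G) ≃* (S' : Subgroup (G ⧸ O)) := MulEquiv.ofBijective f ⟨hfinj, hfsurj⟩
  have hmap : (((Cfsg.stableNormalClosure p ↥(S : Subgroup G)).map (S : Subgroup G).subtype)).map π =
      (Cfsg.stableNormalClosure p ↥(S' : Subgroup (G ⧸ O))).map (S' : Subgroup (G ⧸ O)).subtype := by
    rw [← Cfsg.Agent.Lib.PLocal.stableNormalClosure_map η, Subgroup.map_map, Subgroup.map_map]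
    rfl
  rw [eq_top_iff]
  intro g _
  have hy : π g ∈ Subgroup.normalizer ((((((Cfsg.stableNormalClosure p ↥(S : Subgroup G)).map (S : Subgroup G).subtype)).map π : Subgroup _)) : Set (G ⧸ O)) := by
    rw [hmap]
    refine Subgroup.mem_normalizer_iff.mpr fun z => ?_
    constructor
    · intro hz
      exact hN.conj_mem z hz (π g)
    · intro hz
      have := hN.conj_mem _ hz (π g)⁻¹
      have h2 : (π g)⁻¹ * (π g * z * (π g)⁻¹) * (π g)⁻¹⁻¹ = z := by group
      rwa [h2] at this
  obtain ⟨k, hk, hk2⟩ := Cfsg.Agent.Lib.PLocal.exists_normalizer_lift O hcop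
    (S.isPGroup'.to_le (Subgroup.map_subtype_le _)) hy
  have : g = k * (k⁻¹ * g) := by group
  rw [this]
  exact Subgroup.mul_mem_sup hk hk2

end Cfsg.Agent.S0627
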