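import Cfsg.Statements.S0630
import Mathlib
import Cfsg.Agent.Lib.Components.PComp2
import Cfsg.Agent.Lib.Components.Core2

set_option autoImplicit false
open Cfsg

namespace Cfsg.Agent.S0630

/-- p-constraint passes to and from the quotient by the largest normal subgroup of order prime to p. -/
theorem result {G : Type*} [Group G] [Finite G] {p : ℕ} [Fact p.Prime] : Cfsg.IsPConstrained p G ↔ Cfsg.IsPConstrained p (G ⧸ Cfsg.pPrimeCore p G) := by
  classical
  have hbot : Cfsg.pPrimeCore p (G ⧸ Cfsg.pPrimeCore p G) = ⊥ :=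
    Cfsg.Agent.Lib.Components.pPrimeCore_quotient_eq_bot p
  rw [Cfsg.Agent.Lib.Components.isPConstrained_iff_quotient (G := G),
    Cfsg.Agent.Lib.Components.isPConstrained_iff_quotient (G := G ⧸ Cfsg.pPrimeCore p G)]
  set Y := G ⧸ Cfsg.pPrimeCore p G with hY
  let e : (Y ⧸ Cfsg.pPrimeCore p Y) ≃* Y :=
    (QuotientGroup.quotientMulEquivOfEq hbot).trans QuotientGroup.quotientBot
  have hmap := Cfsg.Agent.Lib.Components.map_pCore_equiv (p := p) e
  have hmem : ∀ x, e x ∈ Cfsg.pCore p Y ↔ x ∈ Cfsg.pCore p (Y ⧸ Cfsg.pPrimeCore p Y) := by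
    intro x
    rw [← hmap]
    constructor
    · rintro ⟨w, hw, hwx⟩
      have := e.injective hwx
      rwa [← this]
    · intro h
      exact ⟨x, h, rfl⟩
  constructor
  · intro h x hx
    rw [← hmem]
    apply h
    rw [Subgroup.mem_centralizer_iff] at hx ⊢
    intro y hy
    obtain ⟨w, rfl⟩ := e.surjective y
    have := hx w ((hmem w).mp hy)
    rw [← map_mul, ← map_mul, this]
  · intro h x hx
    obtain ⟨w, rfl⟩ := e.surjective x
    rw [hmem]
    apply h
    rw [Subgroup.mem_centralizer_iff] at hx ⊢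
    intro y hy
    have := hx (e y) ((hmem y).mpr hy)
    apply e.injective
    rw [map_mul, map_mul, this]

end Cfsg.Agent.S0630
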