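import Cfsg.Statements.S0643
import Cfsg.Agent.Lib.Struct.RegularP

set_option autoImplicit false
open Cfsg

namespace Cfsg.Agent.S0643

/-- Kemhadze's criterion: a finite p-group is regular exactly when (ab)^p = a^p b^p c^p always holds for some c in the derived subgroup of the subgroup generated by a and b. -/
theorem result {G : Type*} [Group G] [Finite G] {p : ℕ} [Fact p.Prime] (hG : IsPGroup p G) : Cfsg.IsRegularPGroup p G ↔ ∀ a b : G, ∃ c ∈ ⁅Subgroup.closure ({a, b} : Set G), Subgroup.closure ({a, b} : Set G)⁆, (a * b) ^ p = a ^ p * b ^ p * c ^ p := by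
  constructor
  · intro hreg a b
    have h1 := Cfsg.Agent.Lib.Struct.RegularP.regAt_of_regular hreg 1
    obtain ⟨c, hc, he⟩ := h1 a b
    obtain ⟨x, hx, rfl⟩ := (Cfsg.Agent.Lib.Struct.RegularP.mem_powerClosure_iff
      (Cfsg.Agent.Lib.Struct.RegularP.exists_mem_pow_eq hG h1 _) c).mp hc
    refine ⟨x, hx, ?_⟩
    simpa using he
  · intro hK
    exact Cfsg.Agent.Lib.Struct.RegularP.regular_of_regAt hG
      (Cfsg.Agent.Lib.Struct.RegularP.regAt_of_kemhadze hG hK)

end Cfsg.Agent.S0643
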