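import Cfsg.Statements.S0656
import Mathlib
import Cfsg.Agent.Lib.PLocal.QuadDickson

set_option autoImplicit false
open Cfsg

namespace Cfsg.Agent.S0656

/-- For odd p, a faithful group on an elementary abelian p-group with no nontrivial normal p-subgroup in which some nontrivial p-element acts quadratically has a section isomorphic to SL(2, p). -/
theorem result {G : Type*} [Group G] [Finite G] {p : ℕ} [Fact p.Prime] (hp : p ≠ 2) (V H : Subgroup G) (hV : Cfsg.IsElementaryAbelian p V) (hHV : H ≤ Subgroup.normalizer (V : Set G)) (hf : H ⊓ Subgroup.centralizer (V : Set G) = ⊥) (hO : Cfsg.pCore p ↥H = ⊥) (x : G) (hxH : x ∈ H) (hx1 : x ≠ 1) (hxp : ∃ k : ℕ, orderOf x = p ^ k) (hq : ⁅⁅V, Subgroup.zpowers x⁆, Subgroup.zpowers x⁆ = ⊥) : ∃ (K L : Subgroup G) (hL : (L.subgroupOf K).Normal), K ≤ H ∧ Nonempty ((K ⧸ L.subgroupOf K) ≃* Matrix.SpecialLinearGroup (Fin 2) (ZMod p)) := by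
  by_contra hne
  have hVp : IsPGroup p V := fun g =>
    ⟨1, Subtype.ext (by rw [pow_one]; exact hV.2 g g.2)⟩
  have hPr : Cfsg.Agent.Lib.PLocal.NoSL2p p H := fun h4 =>
    hne (Cfsg.Agent.Lib.PLocal.exists_section_of_hasSL2p H h4)
  have h := Cfsg.Agent.Lib.PLocal.mem_pCore_of_quadratic (Cfsg.Agent.Lib.PLocal.noSL2pClass hp) V H hVp hHV hf
    (Cfsg.Agent.Lib.PLocal.NoSL2p.sup_of hp V H hVp hHV hPr) x hxH hq
  rw [hO, Subgroup.map_bot, Subgroup.mem_bot] at h
  exact hx1 h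

end Cfsg.Agent.S0656
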