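import Cfsg.Statements.S0657
import Mathlib
import Cfsg.Agent.Lib.PLocal.QuadDickson

set_option autoImplicit false
open Cfsg

namespace Cfsg.Agent.S0657

/-- For odd p, a group that fails to be p-stable modulo its largest normal subgroup of order prime to p, and whose upper p-series does not stop there, has a section isomorphic to SL(2, p). -/
theorem result {G : Type*} [Group G] [Finite G] {p : ℕ} [Fact p.Prime] (hp : p ≠ 2) (hO : Cfsg.pPrimeCore p G < Cfsg.pPrimePCore p G) (hns : ¬ Cfsg.IsPStable p (G ⧸ Cfsg.pPrimeCore p G)) : ∃ (K L : Subgroup G) (hL : (L.subgroupOf K).Normal), K ≤ ⊤ ∧ Nonempty ((K ⧸ L.subgroupOf K) ≃* Matrix.SpecialLinearGroup (Fin 2) (ZMod p)) := by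
  by_contra hne
  have hpp : p.Prime := Fact.out
  have hPr : Cfsg.Agent.Lib.PLocal.NoSL2p p G := fun h4 =>
    hne (Cfsg.Agent.Lib.PLocal.exists_section_of_hasSL2p (⊤ : Subgroup G)
      (h4.of_surj (Subgroup.topEquiv : (⊤ : Subgroup G) ≃* G).toMonoidHom (MulEquiv.surjective _)))
  have hPr' : Cfsg.Agent.Lib.PLocal.NoSL2p p (G ⧸ Cfsg.pPrimeCore p G) :=
    (Cfsg.Agent.Lib.PLocal.noSL2pClass hp).surj (QuotientGroup.mk' _) (QuotientGroup.mk'_surjective _) hPr
  have hO' : Cfsg.pCore p (G ⧸ Cfsg.pPrimeCore p G) ≠ ⊥ := by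
    intro h0
    apply hO.ne
    have h1 : Cfsg.pPrimePCore p G = (Cfsg.pCore p (G ⧸ Cfsg.pPrimeCore p G)).comap (QuotientGroup.mk' (Cfsg.pPrimeCore p G)) := rfl
    rw [h1, h0, MonoidHom.comap_bot, QuotientGroup.ker_mk']
  exact hns (Cfsg.Agent.Lib.PLocal.isPStable_of_class (Cfsg.Agent.Lib.PLocal.noSL2pClass hp) hPr'
    (hpp.odd_of_ne_two hp) hO')

end Cfsg.Agent.S0657
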