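import Cfsg.Statements.S0662
import Cfsg.Agent.Lib.Transfer.MaxClass2

set_option autoImplicit false
open Cfsg

namespace Cfsg.Agent.S0662

lemma class_le_sub_one {X : Type*} [Group X] [Finite X] {p r : ℕ} [hpp : Fact p.Prime]
    (hX : Nat.card X = p ^ r) (hr : 2 ≤ r) : Group.nilpotencyClass X ≤ r - 1 := by
  have hp : p.Prime := hpp.out
  have hP : IsPGroup p X := IsPGroup.of_card hX
  haveI hnil : Group.IsNilpotent X := hP.isNilpotent
  by_contra hlt
  push Not at hlt
  have hc2 : 2 ≤ Group.nilpotencyClass X := by omega
  have h1 := Cfsg.Agent.Lib.Transfer.pow_le_card_commutator hP (by omega : 1 ≤ Group.nilpotencyClass X)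
  have h2 := Cfsg.Agent.Lib.Transfer.not_isCyclic_abelianization hP hc2
  have h3 : Nat.card (X ⧸ commutator X) * Nat.card (commutator X) = p ^ r :=
    (Subgroup.card_eq_card_quotient_mul_card_subgroup _).symm.trans hX
  obtain ⟨m, hm⟩ := IsPGroup.iff_card.1 (hP.to_quotient (commutator X))
  have hm2 : 2 ≤ m := by
    by_contra hm2
    apply h2
    have hm' : m = 0 ∨ m = 1 := by omega
    rcases hm' with rfl | rfl
    · rw [pow_zero] at hm
      have := (Nat.card_eq_one_iff_unique.1 hm).1
      infer_instance
    · rw [pow_one] at hm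
      haveI : Fact (Nat.card (X ⧸ commutator X)).Prime := ⟨by rw [hm]; exact hp⟩
      exact isCyclic_of_prime_card rfl
  have h4 : p ^ 2 * p ^ (Group.nilpotencyClass X - 1) ≤ p ^ r := by
    rw [← h3, hm]
    exact Nat.mul_le_mul (Nat.pow_le_pow_right hp.pos hm2) h1
  rw [← pow_add] at h4
  have h5 := (Nat.pow_le_pow_iff_right hp.one_lt).1 h4
  omega

lemma card_order_p_subgroups {X : Type*} [Group X] [Finite X] {p : ℕ} [hpp : Fact p.Prime]
    (hX : Nat.card X = p ^ 2) (hnc : ¬ IsCyclic X) :
    Nat.card {H : Subgroup X // Nat.card H = p} = p + 1 := by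
  classical
  have hp : p.Prime := hpp.out
  haveI : Fintype {H : Subgroup X // Nat.card H = p} := Fintype.ofFinite _
  have hord : ∀ x : X, x ≠ 1 → orderOf x = p := by
    intro x hx
    have h1 : orderOf x ∣ p ^ 2 := hX ▸ orderOf_dvd_natCard x
    obtain ⟨k, hk, hk2⟩ := (Nat.dvd_prime_pow hp).1 h1
    interval_cases k
    · simp at hk2
      exact absurd hk2 hx
    · simpa using hk2
    · exfalso
      apply hnc
      exact isCyclic_of_orderOf_eq_card x (by rw [hk2, hX])
  let f : {x : X // x ≠ 1} → {H : Subgroup X // Nat.card H = p} := fun x =>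
    ⟨Subgroup.zpowers x.1, by rw [Nat.card_zpowers]; exact hord _ x.2⟩
  have hfib : ∀ H : {H : Subgroup X // Nat.card H = p}, Nat.card {x // f x = H} = p - 1 := by
    rintro ⟨H, hH⟩
    have h1 : Nat.card {x // f x = ⟨H, hH⟩} = Nat.card {y : H // y ≠ 1} := by
      apply Nat.card_congr
      refine ⟨fun x => ⟨⟨x.1.1, ?_⟩, ?_⟩, fun y => ⟨⟨y.1.1, ?_⟩, ?_⟩, ?_, ?_⟩
      · have := congrArg Subtype.val x.2
        simp only [f] at this
        have h := Subgroup.mem_zpowers x.1.1
        rwa [this] at h
      · intro h
        exact x.1.2 (congrArg Subtype.val h)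
      · intro h
        exact y.2 (Subtype.ext h)
      · apply Subtype.ext
        simp only [f]
        -- zpowers y = H since H has prime order
        have hle : Subgroup.zpowers y.1.1 ≤ H := by
          rw [Subgroup.zpowers_le]; exact y.1.2
        have hy1 : y.1.1 ≠ 1 := fun h => y.2 (Subtype.ext h)
        exact Subgroup.eq_of_le_of_card_ge hle (by rw [hH, Nat.card_zpowers, hord _ hy1])
      · intro x; rfl
      · intro x; rfl
    rw [h1]
    have h2 : Nat.card {y : H // y ≠ 1} = Nat.card H - 1 := by
      have this : Nat.card {y : H // y = 1} + Nat.card {y : H // y ≠ 1} = Nat.card H := by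
        rw [← Nat.card_sum]; exact Nat.card_congr (Equiv.sumCompl _)
      have h3 : Nat.card {y : H // y = 1} = 1 := Nat.card_unique
      omega
    rw [h2, hH]
  have htotal : Nat.card {x : X // x ≠ 1} = p ^ 2 - 1 := by
    have this : Nat.card {y : X // y = 1} + Nat.card {y : X // y ≠ 1} = Nat.card X := by
      rw [← Nat.card_sum]; exact Nat.card_congr (Equiv.sumCompl _)
    rw [hX] at this
    have h3 : Nat.card {y : X // y = 1} = 1 := Nat.card_unique
    omega
  have hsum : Nat.card {x : X // x ≠ 1} = ∑ H : {H : Subgroup X // Nat.card H = p}, Nat.card {x // f x = H} := by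
    rw [← Nat.card_sigma]
    exact Nat.card_congr (Equiv.sigmaFiberEquiv f).symm
  rw [htotal, Finset.sum_congr rfl (fun H _ => hfib H), Finset.sum_const, Finset.card_univ, smul_eq_mul,
    ← Nat.card_eq_fintype_card] at hsum
  have hp1 : 0 < p - 1 := by have := hp.one_lt; omega
  have h6 : (p + 1) * (p - 1) = p ^ 2 - 1 := by
    obtain ⟨q, rfl⟩ : ∃ q, p = q + 1 := ⟨p - 1, by have := hp.one_lt; omega⟩
    simp only [Nat.add_sub_cancel]
    have : (q + 1) ^ 2 = (q + 1 + 1) * q + 1 := by ring
    omega
  rw [← h6] at hsum
  exact (Nat.eq_of_mul_eq_mul_right hp1 hsum).symm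


/-- In a p-group of maximal class of order at least p³ the normal subgroups of index at least p² are exactly the terms of the lower central series, and there are exactly p + 1 normal subgroups of index p. -/
theorem result {G : Type*} [Group G] [Finite G] {p : ℕ} [Fact p.Prime] (n : ℕ) (hG : Nat.card G = p ^ n) (hcl : Group.nilpotencyClass G = n - 1) (hn : 3 ≤ n) : (∀ (N : Subgroup G) [N.Normal] (r : ℕ), 2 ≤ r → N.index = p ^ r → N = (⊤ : Subgroup G).lowerCentralSeries (r - 1)) ∧ Nat.card {N : Subgroup G // N.Normal ∧ N.index = p} = p + 1 := by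
  classical
  have hp : p.Prime := Fact.out
  have hP : IsPGroup p G := IsPGroup.of_card hG
  haveI hnil : Group.IsNilpotent G := hP.isNilpotent
  have hc2 : 2 ≤ Group.nilpotencyClass G := by omega
  have hcn : Group.nilpotencyClass G + 1 = n := by omega
  -- lower bound on the terms of the lower central series
  have hstep : ∀ j, j ≤ Group.nilpotencyClass G →
      p ^ j ≤ Nat.card ((⊤ : Subgroup G).lowerCentralSeries (Group.nilpotencyClass G - j)) := by
    intro j
    induction j with
    | zero => intro _; simp [Nat.card_pos]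
    | succ j ih =>
      intro hj
      have h1 := ih (by omega)
      have h2 : Group.nilpotencyClass G - (j + 1) < Group.nilpotencyClass G := by omega
      have h3 := Cfsg.Agent.Lib.Transfer.lcs_lt_of_lt_class h2
      have h4 : Group.nilpotencyClass G - (j + 1) + 1 = Group.nilpotencyClass G - j := by omega
      rw [h4] at h3
      have h5 := Cfsg.Agent.Lib.Transfer.mul_card_le_of_lt hP h3
      calc p ^ (j + 1) = p * p ^ j := by ring
        _ ≤ p * Nat.card ((⊤ : Subgroup G).lowerCentralSeries (Group.nilpotencyClass G - j)) :=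
            Nat.mul_le_mul_left _ h1
        _ ≤ _ := h5
  have hcomm_card : Nat.card (G ⧸ commutator G) = p ^ 2 := by
    have h1 := Subgroup.card_eq_card_quotient_mul_card_subgroup (commutator G)
    rw [hG] at h1
    obtain ⟨m, hm⟩ := IsPGroup.iff_card.1 (hP.to_quotient (commutator G))
    have hnc := Cfsg.Agent.Lib.Transfer.not_isCyclic_abelianization hP hc2
    have hm2 : 2 ≤ m := by
      by_contra hm2
      apply hnc
      have hm' : m = 0 ∨ m = 1 := by omega
      rcases hm' with rfl | rfl
      · rw [pow_zero] at hm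
        have := (Nat.card_eq_one_iff_unique.1 hm).1
        infer_instance
      · rw [pow_one] at hm
        haveI : Fact (Nat.card (G ⧸ commutator G)).Prime := ⟨by rw [hm]; exact hp⟩
        exact isCyclic_of_prime_card rfl
    have h2 := hstep (Group.nilpotencyClass G - 1) (by omega)
    have h3 : Group.nilpotencyClass G - (Group.nilpotencyClass G - 1) = 1 := by omega
    rw [h3, Subgroup.top_lowerCentralSeries_one] at h2
    rw [hm] at h1 ⊢
    have h4 : p ^ m * p ^ (Group.nilpotencyClass G - 1) ≤ p ^ n := by
      rw [h1]; exact Nat.mul_le_mul_left _ h2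
    rw [← pow_add] at h4
    have h5 := (Nat.pow_le_pow_iff_right hp.one_lt).1 h4
    have : m = 2 := by omega
    rw [this]
  refine ⟨?_, ?_⟩
  · intro N hN r hr hi
    have hQc : Nat.card (G ⧸ N) = p ^ r := hi
    have hcl := class_le_sub_one hQc hr
    have hQP : IsPGroup p (G ⧸ N) := IsPGroup.of_card hQc
    haveI : Group.IsNilpotent (G ⧸ N) := hQP.isNilpotent
    have hbot := (Subgroup.lowerCentralSeries_eq_bot_iff_nilpotencyClass_le (G := G ⧸ N)).2 hcl
    have hle : (⊤ : Subgroup G).lowerCentralSeries (r - 1) ≤ N := by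
      have h1 := Subgroup.map_lowerCentralSeries (⊤ : Subgroup G) (QuotientGroup.mk' N) (r - 1)
      rw [← MonoidHom.range_eq_map, (QuotientGroup.range_mk' N), hbot] at h1
      intro x hx
      have h2 : QuotientGroup.mk' N x ∈ ((⊤ : Subgroup G).lowerCentralSeries (r - 1)).map (QuotientGroup.mk' N) :=
        ⟨x, hx, rfl⟩
      rw [h1, Subgroup.mem_bot] at h2
      rw [← QuotientGroup.ker_mk' N]
      exact h2
    have hrn : r ≤ n := by
      have h1 : Nat.card (G ⧸ N) * Nat.card N = p ^ n := by
        rw [← hG]; exact (Subgroup.card_eq_card_quotient_mul_card_subgroup N).symm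
      have h2 : p ^ r ∣ p ^ n := ⟨Nat.card N, by rw [← hQc, h1]⟩
      exact (Nat.pow_dvd_pow_iff_le_right hp.one_lt).1 h2
    have hNc : Nat.card N = p ^ (n - r) := by
      have h1 : Nat.card (G ⧸ N) * Nat.card N = p ^ n := by
        rw [← hG]; exact (Subgroup.card_eq_card_quotient_mul_card_subgroup N).symm
      rw [hQc] at h1
      have h2 : p ^ r * p ^ (n - r) = p ^ n := by rw [← pow_add]; congr 1; omega
      exact Nat.eq_of_mul_eq_mul_left (pow_pos hp.pos r) (h1.trans h2.symm)
    symm
    apply Subgroup.eq_of_le_of_card_ge hle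
    rw [hNc]
    have h1 := hstep (n - r) (by omega)
    have h3 : Group.nilpotencyClass G - (n - r) = r - 1 := by omega
    rwa [h3] at h1
  · -- the quotient by the commutator subgroup
    have hnc := Cfsg.Agent.Lib.Transfer.not_isCyclic_abelianization hP hc2
    rw [← card_order_p_subgroups hcomm_card hnc]
    apply Nat.card_congr
    let π := QuotientGroup.mk' (commutator G)
    have hπ : Function.Surjective π := QuotientGroup.mk'_surjective _
    have hker : π.ker = commutator G := QuotientGroup.ker_mk' _
    have hQcomm : ∀ a b : G ⧸ commutator G, a * b = b * a := by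
      intro a b
      have : IsMulCommutative (G ⧸ commutator G) :=
        (Subgroup.Normal.quotient_commutative_iff_commutator_le (N := commutator G)).2 le_rfl
      exact this.is_comm.comm a b
    have hmem : ∀ (N : Subgroup G), N.Normal → N.index = p → commutator G ≤ N := by
      intro N hN hi
      haveI := hN
      haveI : Fact (Nat.card (G ⧸ N)).Prime := ⟨by rw [show Nat.card (G ⧸ N) = N.index from rfl, hi]; exact hp⟩
      haveI : IsCyclic (G ⧸ N) := isCyclic_of_prime_card rfl
      haveI : IsMulCommutative (G ⧸ N) := IsCyclic.isMulCommutative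
      exact (Subgroup.Normal.quotient_commutative_iff_commutator_le (N := N)).1 inferInstance
    refine ⟨fun N => ⟨N.1.map π, ?_⟩, fun H => ⟨H.1.comap π, ?_, ?_⟩, ?_, ?_⟩
    · obtain ⟨N, hN, hi⟩ := N
      have hle := hmem N hN hi
      have h1 := Cfsg.Agent.Lib.Transfer.card_map_mk_mul (commutator G) N hle
      have h2 : Nat.card (G ⧸ N) * Nat.card N = p ^ n := by
        haveI := hN
        rw [← hG]; exact (Subgroup.card_eq_card_quotient_mul_card_subgroup N).symm
      have h3 : Nat.card (G ⧸ commutator G) * Nat.card (commutator G) = p ^ n := by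
        rw [← hG]; exact (Subgroup.card_eq_card_quotient_mul_card_subgroup _).symm
      have h4 : Nat.card (G ⧸ N) = p := hi
      rw [hcomm_card] at h3
      rw [h4] at h2
      have h5 : p * (Nat.card (N.map π) * Nat.card (commutator G)) = p * p * Nat.card (commutator G) := by
        rw [h1, h2, ← h3]; ring
      have h6 : 0 < Nat.card (commutator G) := Nat.card_pos
      have h7 : Nat.card (N.map π) * Nat.card (commutator G) = p * Nat.card (commutator G) :=
        Nat.eq_of_mul_eq_mul_left hp.pos (by rw [h5]; ring)
      exact Nat.eq_of_mul_eq_mul_right h6 h7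
    · haveI : H.1.Normal := ⟨fun x hx g => by rwa [hQcomm g x, mul_inv_cancel_right]⟩
      exact Subgroup.Normal.comap inferInstance π
    · rw [Subgroup.index_comap_of_surjective _ hπ]
      have h1 := Subgroup.card_mul_index H.1
      rw [H.2, hcomm_card] at h1
      have : p * H.1.index = p * p := by rw [h1]; ring
      exact Nat.eq_of_mul_eq_mul_left hp.pos this
    · rintro ⟨N, hN, hi⟩
      apply Subtype.ext
      show (N.map π).comap π = N
      rw [Subgroup.comap_map_eq, hker, sup_eq_left.2 (hmem N hN hi)]
    · rintro ⟨H, hH⟩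
      apply Subtype.ext
      show (H.comap π).map π = H
      exact Subgroup.map_comap_eq_self_of_surjective hπ H

end Cfsg.Agent.S0662
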