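import Cfsg.Statements.S0680
import Cfsg.Agent.Lib.Perm.Sharp2
import Mathlib

set_option autoImplicit false
open Cfsg

namespace Cfsg.Agent.S0680

/-- A finite sharply doubly transitive permutation group has degree a prime power `p ^ j`; a Sylow `p`-subgroup is normal, elementary abelian and regular, and consists of the identity together with the elements without fixed points. (Frobenius' Theorem is not needed.) -/
theorem result {α : Type*} [Fintype α] [DecidableEq α] (G : Subgroup (Equiv.Perm α)) [MulAction.IsMultiplyPretransitive G α 2] (hsharp : ∀ x : Fin 2 ↪ α, MulAction.stabilizer G x = ⊥) (h2 : 2 ≤ Fintype.card α) : ∃ p j : ℕ, p.Prime ∧ 1 ≤ j ∧ Fintype.card α = p ^ j ∧ ∀ (hp : Fact p.Prime) (P : Sylow p G), (P : Subgroup G).Normal ∧ IsMulCommutative (P : Subgroup G) ∧ (∀ x ∈ (P : Subgroup G), x ^ p = 1) ∧ MulAction.IsPretransitive (P : Subgroup G) α ∧ (∀ a : α, MulAction.stabilizer (P : Subgroup G) a = ⊥) ∧ ∀ g : G, g ∈ (P : Subgroup G) ↔ g = 1 ∨ ∀ a :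 α, g • a ≠ a := by
  classical
  obtain ⟨ht, hs⟩ := Cfsg.Agent.Lib.Perm.sharp2_of_emb (G := G) (Ω := α) inferInstance hsharp
  haveI : Nontrivial α := Fintype.one_lt_card_iff_nontrivial.mp h2
  obtain ⟨F, p, j, hp, hj, hcard, hFn, hcomm, hexp, hmem, htr, hG, hFc⟩ :=
    Cfsg.Agent.Lib.Perm.sharp2_structure (G := G) (Ω := α) ht hs
  refine ⟨p, j, hp, hj, hcard, fun hfact P => ?_⟩
  have hpg : IsPGroup p F := by
    intro x
    refine ⟨1, ?_⟩
    apply Subtype.ext
    simpa using hexp x x.2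
  have hle : F ≤ P := hpg.le_sylow_of_normal P
  have hPc : Nat.card P = p ^ j := by
    rw [P.card_eq_multiplicity, hG]
    have hne : p ^ j - 1 ≠ 0 := by
      have : 1 < p ^ j := Nat.one_lt_pow (by omega) hp.one_lt
      omega
    rw [Nat.factorization_mul (pow_ne_zero _ hp.ne_zero) hne, Finsupp.add_apply,
      Nat.Prime.factorization_pow hp, Finsupp.single_eq_same]
    have hnd : ¬ p ∣ p ^ j - 1 := by
      intro hd
      have h1 : p ∣ p ^ j := dvd_pow_self p (by omega)
      have h2 : p ∣ p ^ j - (p ^ j - 1) := Nat.dvd_sub h1 hd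
      have h3 : p ^ j - (p ^ j - 1) = 1 := by
        have : 1 ≤ p ^ j := Nat.one_le_pow _ _ hp.pos
        omega
      rw [h3] at h2
      exact hp.one_lt.ne' (Nat.dvd_one.mp h2)
    rw [Nat.factorization_eq_zero_of_not_dvd hnd, add_zero]
  have hPF : (P : Subgroup G) = F := by
    symm
    apply Subgroup.eq_of_le_of_card_ge hle
    rw [hPc, hFc]
  rw [hPF]
  refine ⟨hFn, ⟨⟨fun x y => Subtype.ext (hcomm x x.2 y y.2)⟩⟩, hexp, ?_, ?_, hmem⟩
  · refine ⟨fun a b => ?_⟩
    obtain ⟨t, ht1, ht2⟩ := htr a b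
    exact ⟨⟨t, ht1⟩, ht2⟩
  · intro a
    rw [eq_bot_iff]
    intro x hx
    rw [Subgroup.mem_bot]
    apply Subtype.ext
    rcases (hmem x).mp x.2 with h | h
    · exact h
    · exact absurd hx (h a)

end Cfsg.Agent.S0680
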