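import Cfsg.Statements.S0681
import Cfsg.Agent.Lib.Perm.NearField
import Mathlib

set_option autoImplicit false
open Cfsg

namespace Cfsg.Agent.S0681
open Cfsg.Agent.Perm.NearFieldLib

/-- The permutation `x ↦ x * a + b`. -/
noncomputable def affPerm {F : Type*} [Cfsg.NearField F] (a b : F) (ha : a ≠ 0) : Equiv.Perm F where
  toFun x := x * a + b
  invFun y := (y + -b) * nfInv a
  left_inv x := by
    simp only [add_neg_cancel_right, mul_assoc, mul_nfInv_cancel ha, mul_one]
  right_inv y := by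
    simp only [mul_assoc, nfInv_mul_cancel ha, mul_one, neg_add_cancel_right]

/-- The affine group. -/
noncomputable def affSub (F : Type*) [Cfsg.NearField F] : Subgroup (Equiv.Perm F) where
  carrier := {σ | ∃ a b : F, a ≠ 0 ∧ ∀ x : F, σ x = x * a + b}
  one_mem' := ⟨1, 0, nf_one_ne_zero, fun x => by simp⟩
  mul_mem' := by
    rintro σ τ ⟨a, b, ha, hσ⟩ ⟨c, d, hc, hτ⟩
    refine ⟨c * a, d * a + b, nf_mul_ne_zero hc ha, fun x => ?_⟩
    simp only [Equiv.Perm.coe_mul, Function.comp_apply, hτ, hσ, nf_add_mul, mul_assoc, add_assoc]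
  inv_mem' := by
    rintro σ ⟨a, b, ha, hσ⟩
    refine ⟨nfInv a, (-b) * nfInv a, nfInv_ne_zero ha, fun x => ?_⟩
    apply σ.injective
    rw [show σ (σ⁻¹ x) = x from σ.apply_symm_apply x, hσ, nf_add_mul]
    simp only [mul_assoc, nfInv_mul_cancel ha, mul_one, add_assoc, neg_add_cancel, add_zero]

/-- The affine maps `x ↦ x * a + b`, `a ≠ 0`, of a near-field form a sharply doubly transitive permutation group. -/
theorem result {F : Type*} [Cfsg.NearField F] : ∃ H : Subgroup (Equiv.Perm F), (∀ σ : Equiv.Perm F, σ ∈ H ↔ ∃ a b : F, a ≠ 0 ∧ ∀ x : F, σ x = x * a + b) ∧ MulAction.IsMultiplyPretransitive H F 2 ∧ ∀ x : Fin 2 ↪ F, MulAction.stabilizer H x = ⊥ := by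
  classical
  refine ⟨affSub F, fun σ => Iff.rfl, ?_, ?_⟩
  · refine ⟨fun x y => ?_⟩
    have hx : x 0 ≠ x 1 := fun h => by simpa using x.injective h
    have hy : y 0 ≠ y 1 := fun h => by simpa using y.injective h
    have hd : x 0 - x 1 ≠ 0 := sub_ne_zero.mpr hx
    have he : y 0 - y 1 ≠ 0 := sub_ne_zero.mpr hy
    set a : F := nfInv (x 0 - x 1) * (y 0 - y 1) with ha_def
    have ha : a ≠ 0 := nf_mul_ne_zero (nfInv_ne_zero hd) he
    have hda : (x 0 - x 1) * a = y 0 - y 1 := by
      rw [ha_def, ← mul_assoc, mul_nfInv_cancel hd, one_mul]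
    have hv : x 1 * a = (y 1 - y 0) + x 0 * a := by
      rw [nf_sub_mul] at hda
      have : x 1 * a = -(x 0 * a - x 1 * a) + x 0 * a := by
        rw [neg_sub, sub_add_cancel]
      rw [this, hda, neg_sub]
    refine ⟨⟨affPerm a (-(x 0 * a) + y 0) ha, a, -(x 0 * a) + y 0, ha, fun z => rfl⟩, ?_⟩
    ext i
    fin_cases i
    · change x 0 * a + (-(x 0 * a) + y 0) = y 0
      simp
    · change x 1 * a + (-(x 0 * a) + y 0) = y 1
      rw [hv]
      simp [add_assoc, sub_eq_add_neg]
  · intro x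
    rw [eq_bot_iff]
    rintro ⟨σ, a, b, ha, hσ⟩ hfix
    have hfix' : ∀ i, σ (x i) = x i := fun i => by
      have := congrArg (fun e : Fin 2 ↪ F => e i) (MulAction.mem_stabilizer_iff.mp hfix)
      exact this
    have hx : x 0 ≠ x 1 := fun h => by simpa using x.injective h
    have hd : x 0 - x 1 ≠ 0 := sub_ne_zero.mpr hx
    have h0 := hfix' 0
    have h1 := hfix' 1
    rw [hσ] at h0 h1
    have h2 : (x 0 - x 1) * a = (x 0 - x 1) * 1 := by
      rw [nf_sub_mul, mul_one]
      conv_rhs => rw [← h0, ← h1]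
      simp [sub_eq_add_neg, add_assoc]
    have ha1 : a = 1 := nf_mul_left_cancel hd h2
    have hb : b = 0 := by
      rw [ha1, mul_one] at h0
      simpa using h0
    rw [Subgroup.mem_bot]
    apply Subtype.ext
    ext z
    simp [hσ, ha1, hb]

end Cfsg.Agent.S0681
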