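import Cfsg.Statements.S0682
import Cfsg.Agent.Lib.Perm.NearField
import Mathlib

set_option autoImplicit false
open Cfsg

namespace Cfsg.Agent.S0682
open Cfsg.Agent.Perm.NearFieldLib

/-- A finite near-field has prime-power order; its additive group is commutative of prime exponent. -/
theorem result {F : Type*} [Cfsg.NearField F] [Finite F] : ∃ p j : ℕ, p.Prime ∧ 1 ≤ j ∧ Nat.card F = p ^ j ∧ (∀ x y : F, x + y = y + x) ∧ ∀ x : F, p • x = 0 := by
  classical
  have h10 : (1 : F) ≠ 0 := nf_one_ne_zero
  set n := addOrderOf (1 : F) with hn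
  have hnpos : 0 < n := addOrderOf_pos _
  have hn1 : n ≠ 1 := by
    intro h
    exact h10 (AddMonoid.addOrderOf_eq_one_iff.mp h)
  have horder : ∀ a : F, a ≠ 0 → addOrderOf a = n := by
    intro a ha
    have := AddEquiv.addOrderOf_eq (rmulEquiv a ha) (1 : F)
    simpa using this
  have hpp : n.Prime := by
    set p := n.minFac with hp
    have hppr : p.Prime := Nat.minFac_prime hn1
    have hpdvd : p ∣ n := Nat.minFac_dvd n
    obtain ⟨m, hm⟩ := hpdvd
    have hmpos : 0 < m := by
      rcases Nat.eq_zero_or_pos m with h | h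
      · rw [h, mul_zero] at hm; omega
      · exact h
    have hz : m • (1 : F) ≠ 0 := by
      intro h
      have := addOrderOf_dvd_of_nsmul_eq_zero h
      rw [← hn] at this
      have hle := Nat.le_of_dvd hmpos this
      have := hppr.two_le
      nlinarith
    have hz2 : p • (m • (1 : F)) = 0 := by
      rw [smul_smul, ← hm, hn]
      exact addOrderOf_nsmul_eq_zero _
    have hd : addOrderOf (m • (1 : F)) ∣ p := addOrderOf_dvd_of_nsmul_eq_zero hz2
    rw [horder _ hz] at hd
    have : n = p := Nat.le_antisymm (Nat.le_of_dvd hppr.pos hd) (Nat.minFac_le hnpos)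
    rw [this]
    exact hppr
  have : Fact n.Prime := ⟨hpp⟩
  have hexp : ∀ x : F, n • x = 0 := by
    intro x
    by_cases hx : x = 0
    · rw [hx, nsmul_zero]
    · rw [← horder x hx]
      exact addOrderOf_nsmul_eq_zero x
  have : Nontrivial F := ⟨⟨1, 0, h10⟩⟩
  have hpg : IsPGroup n (Multiplicative F) := by
    intro g
    refine ⟨1, ?_⟩
    rw [pow_one]
    exact congrArg Multiplicative.ofAdd (hexp (Multiplicative.toAdd g))
  obtain ⟨j, hj⟩ := IsPGroup.iff_card.mp hpg
  have hcard : Nat.card F = n ^ j := hj
  have hj1 : 1 ≤ j := by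
    rcases Nat.eq_zero_or_pos j with h | h
    · rw [h, pow_zero] at hcard
      have := Finite.one_lt_card (α := F)
      omega
    · exact h
  have hcomm : ∀ x y : F, x + y = y + x := by
    have := hpg.center_nontrivial
    obtain ⟨⟨z, hz⟩, hz1⟩ := exists_ne (1 : Subgroup.center (Multiplicative F))
    have hz0 : Multiplicative.toAdd z ≠ (0 : F) := by
      intro h
      apply hz1
      apply Subtype.ext
      exact congrArg Multiplicative.ofAdd h
    have hzc : ∀ w : F, Multiplicative.toAdd z + w = w + Multiplicative.toAdd z := by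
      intro w
      have := (Subgroup.mem_center_iff.mp hz) (Multiplicative.ofAdd w)
      exact this.symm
    set z' : F := Multiplicative.toAdd z with hz'
    intro y w
    by_cases hy : y = 0
    · rw [hy, zero_add, add_zero]
    set c : F := nfInv z' * y with hc
    have hc0 : c ≠ 0 := nf_mul_ne_zero (nfInv_ne_zero hz0) hy
    have hzcy : z' * c = y := by
      rw [hc, ← mul_assoc, mul_nfInv_cancel hz0, one_mul]
    have hw : (w * nfInv c) * c = w := by
      rw [mul_assoc, nfInv_mul_cancel hc0, mul_one]
    calc y + w = z' * c + (w * nfInv c) * c := by rw [hzcy, hw]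
      _ = (z' + w * nfInv c) * c := (nf_add_mul _ _ _).symm
      _ = (w * nfInv c + z') * c := by rw [hzc]
      _ = (w * nfInv c) * c + z' * c := nf_add_mul _ _ _
      _ = w + y := by rw [hzcy, hw]
  exact ⟨n, j, hpp, hj1, hcard, hcomm, hexp⟩

end Cfsg.Agent.S0682
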