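import Cfsg.Statements.S0683
import Cfsg.Agent.Lib.Perm.Sharp2
import Mathlib

set_option autoImplicit false
open Cfsg

namespace Cfsg.Agent.S0683

/-- A finite sharply doubly transitive permutation group is the affine group of a near-field: the permuted set carries a near-field structure for which the group consists exactly of the maps `x ↦ x * a + b` with `a ≠ 0`. -/
theorem result {α : Type*} [Fintype α] [DecidableEq α] (H : Subgroup (Equiv.Perm α)) [MulAction.IsMultiplyPretransitive H α 2] (hsharp : ∀ x : Fin 2 ↪ α, MulAction.stabilizer H x = ⊥) (h2 : 2 ≤ Fintype.card α) : ∃ _ : Cfsg.NearField α, ∀ σ : Equiv.Perm α, σ ∈ H ↔ ∃ a b : α, a ≠ 0 ∧ ∀ x : α, σ x = x * a + b := by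
  classical
  obtain ⟨ht, hs⟩ := Cfsg.Agent.Lib.Perm.sharp2_of_emb (G := H) (Ω := α) inferInstance hsharp
  haveI : Nontrivial α := Fintype.one_lt_card_iff_nontrivial.mp h2
  obtain ⟨F, p, j, hp, hj, hcard, hFn, hcomm, hexp, hmem, htr, hG, hFc⟩ :=
    Cfsg.Agent.Lib.Perm.sharp2_structure (G := H) (Ω := α) ht hs
  obtain ⟨o, e, hoe⟩ := exists_pair_ne α
  -- translations
  have hF1 : ∀ (u : H), u ∈ F → u • o = o → u = 1 := by
    intro u hu huo
    rcases (hmem u).mp hu with h | h
    · exact h
    · exact absurd huo (h o)
  have htex : ∀ x : α, ∃ u : H, u ∈ F ∧ u • o = x := htr o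
  choose t htF htx using htex
  have htu : ∀ (u : H) (x : α), u ∈ F → u • o = x → u = t x := by
    intro u x hu hux
    have h1 : (t x)⁻¹ * u = 1 := by
      apply hF1 _ (F.mul_mem (F.inv_mem (htF x)) hu)
      rw [mul_smul, hux]
      exact inv_smul_eq_iff.mpr (htx x).symm
    exact (inv_mul_eq_one.mp h1).symm
  have hmex : ∀ a : α, a ≠ o → ∃ g : H, g • o = o ∧ g • e = a := by
    intro a ha
    obtain ⟨g, hg1, hg2⟩ := ht o e o a hoe ha.symm
    exact ⟨g, hg1, hg2⟩
  choose! m hmo hme using hmex
  have hmu : ∀ (g : H) (a : α), a ≠ o → g • o = o → g • e = a → g = m a := by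
    intro g a ha hgo hge
    have h1 : (m a)⁻¹ * g = 1 := by
      apply hs _ o e hoe
      · rw [mul_smul, hgo, inv_smul_eq_iff, hmo a ha]
      · rw [mul_smul, hge, inv_smul_eq_iff, hme a ha]
    exact (inv_mul_eq_one.mp h1).symm
  have hmne : ∀ (a x : α), a ≠ o → x ≠ o → m a • x ≠ o := by
    intro a x ha hx h
    apply hx
    have := hmo a ha
    exact MulAction.injective (m a) (h.trans this.symm)
  let addf : α → α → α := fun x y => t y • x
  let negf : α → α := fun x => (t x)⁻¹ • o
  let mulf : α → α → α := fun x a => if a = o then o else m a • x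
  have hmulne : ∀ x a : α, a ≠ o → mulf x a = m a • x := fun x a ha => if_neg ha
  have hmuleq : ∀ x : α, mulf x o = o := fun x => if_pos rfl
  have htmul : ∀ x y : α, t (t y • x) = t y * t x := by
    intro x y
    symm
    apply htu _ _ (F.mul_mem (htF y) (htF x))
    rw [mul_smul, htx x]
  have ht0 : t o = 1 := by
    symm
    apply htu _ _ F.one_mem
    simp
  have hm1 : m e = 1 := by
    symm
    apply hmu _ _ hoe.symm <;> simp
  let inst : Cfsg.NearField α :=
    { add := addf
      add_assoc := by
        intro x y z
        change t z • t y • x = t (t z • y) • x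
        rw [htmul, mul_smul]
      zero := o
      zero_add := by
        intro y
        change t y • o = y
        exact htx y
      add_zero := by
        intro x
        change t o • x = x
        rw [ht0, one_smul]
      nsmul := @nsmulRec α ⟨o⟩ ⟨addf⟩
      zsmul := @zsmulRec α ⟨o⟩ ⟨addf⟩ ⟨negf⟩ (@nsmulRec α ⟨o⟩ ⟨addf⟩)
      neg := negf
      neg_add_cancel := by
        intro x
        change t x • (t x)⁻¹ • o = o
        rw [smul_inv_smul]
      mul := mulf
      mul_assoc := by
        intro x a b
        change mulf (mulf x a) b = mulf x (mulf a b)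
        by_cases hb : b = o
        · subst hb
          rw [hmuleq, hmuleq, hmuleq]
        by_cases ha : a = o
        · subst ha
          rw [hmuleq, hmulne _ _ hb, hmo b hb, hmuleq]
        have hab : m b • a ≠ o := hmne b a hb ha
        rw [hmulne _ _ ha, hmulne _ _ hb, hmulne _ _ hb, hmulne _ _ hab, ← mul_smul]
        congr 1
        apply hmu _ _ hab
        · rw [mul_smul, hmo a ha, hmo b hb]
        · rw [mul_smul, hme a ha]
      one := e
      one_mul := by
        intro a
        change mulf e a = a
        by_cases ha : a = o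
        · subst ha
          exact hmuleq _
        · rw [hmulne _ _ ha]
          exact hme a ha
      mul_one := by
        intro x
        change mulf x e = x
        rw [hmulne _ _ hoe.symm, hm1, one_smul]
      right_distrib := by
        intro a b c
        change mulf (t b • a) c = t (mulf b c) • mulf a c
        by_cases hc : c = o
        · subst hc
          rw [hmuleq, hmuleq, hmuleq, ht0, one_smul]
        · rw [hmulne _ _ hc, hmulne _ _ hc, hmulne _ _ hc]
          have h1 : m c * t b * (m c)⁻¹ = t (m c • b) := by
            apply htu _ _ (hFn.conj_mem _ (htF b) _)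
            rw [mul_smul, mul_smul, inv_smul_eq_iff.mpr (hmo c hc).symm, htx b]
          rw [← h1, mul_smul, mul_smul, inv_smul_smul]
      mul_zero := hmuleq
      zero_ne_one := hoe
      exists_inv := by
        intro a ha
        have ha' : a ≠ o := ha
        set b := (m a)⁻¹ • e with hb
        have hbne : b ≠ o := by
          intro h
          have h2 : e = m a • o := by
            rw [← h, hb, smul_inv_smul]
          rw [hmo a ha'] at h2
          exact hoe h2.symm
        have h1 : m a * m b = 1 := by
          apply hs _ o e hoe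
          · rw [mul_smul, hmo b hbne, hmo a ha']
          · rw [mul_smul, hme b hbne, hb, smul_inv_smul]
        have h2 : m b = (m a)⁻¹ := by
          exact eq_inv_of_mul_eq_one_right h1
        refine ⟨b, ?_, ?_⟩
        · change mulf a b = e
          rw [hmulne _ _ hbne, h2, inv_smul_eq_iff, hme a ha']
        · change mulf b a = e
          rw [hmulne _ _ ha', hb, smul_inv_smul] }
  refine ⟨inst, fun σ => ?_⟩
  have hform : ∀ x a b : α, x * a + b = t b • mulf x a := fun _ _ _ => rfl
  have hzero : (0 : α) = o := rfl
  constructor
  · intro hσ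
    set s : H := ⟨σ, hσ⟩ with hsdef
    have hsx : ∀ x, s • x = σ x := fun _ => rfl
    set b := s • o with hb
    set g : H := (t b)⁻¹ * s with hg
    have hgo : g • o = o := by
      rw [hg, mul_smul, inv_smul_eq_iff, htx b]
    set a := g • e with ha
    have hane : a ≠ o := by
      intro h
      apply hoe
      have : g • e = g • o := by rw [hgo]; exact h
      exact (MulAction.injective g this).symm
    have hgm : g = m a := hmu _ _ hane hgo rfl
    refine ⟨a, b, hane, fun x => ?_⟩
    rw [hform, hmulne _ _ hane, ← hgm, hg, ← mul_smul, mul_inv_cancel_left, hsx]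
  · rintro ⟨a, b, ha, hx⟩
    have ha' : a ≠ o := ha
    have hσ : σ = ((t b * m a : H) : Equiv.Perm α) := by
      ext x
      rw [hx x, hform, hmulne _ _ ha']
      rfl
    rw [hσ]
    exact (t b * m a).2

end Cfsg.Agent.S0683
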