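import Cfsg.Statements.S0691
import Cfsg.Agent.Lib.Perm.MatCheck
import Mathlib

set_option autoImplicit false
open Cfsg

namespace Cfsg.Agent.S0691


/-- Table of second columns. -/
def tblS : ℕ := 0xd081712010e091813030b061510020c07161104140a0f0500
/-- Table of distances. -/
def tblD : ℕ := 0x42994e349c6a369a2c0
/-- Second column, first coordinate. -/
def sxT (x y : ℕ) : ℕ := ((tblS >>> (8 * (x + 5 * y))) &&& 255) % 5
/-- Second column, second coordinate. -/
def syT (x y : ℕ) : ℕ := ((tblS >>> (8 * (x + 5 * y))) &&& 255) / 5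
/-- Distance to the base vector. -/
def dT (x y : ℕ) : ℕ := (tblD >>> (3 * (x + 5 * y))) &&& 7
/-- Nat form of the generators. -/
def gensT : List Cfsg.Agent.Perm.MatCheck.NatGen := [(2, 0, 0, 3), (0, 4, 1, 0), (1, 2, 1, 3)]

theorem chkT : Cfsg.Agent.Perm.MatCheck.chkAll 5 gensT sxT syT dT = true := by decide +kernel

/-- An exceptional sharply doubly transitive group of degree 5^2: the listed matrices generate a subgroup of GL(2,5) of order 24 acting regularly on the non-zero vectors. -/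
theorem result (A : Matrix.GeneralLinearGroup (Fin 2) (ZMod 5)) (B : Matrix.GeneralLinearGroup (Fin 2) (ZMod 5)) (C : Matrix.GeneralLinearGroup (Fin 2) (ZMod 5)) (hA : (A : Matrix (Fin 2) (Fin 2) (ZMod 5)) = !![2, 0; 0, -2]) (hB : (B : Matrix (Fin 2) (Fin 2) (ZMod 5)) = !![0, -1; 1, 0]) (hC : (C : Matrix (Fin 2) (Fin 2) (ZMod 5)) = !![1, 2; 1, -2]) : Nat.card (Subgroup.closure ({A, B, C} : Set (Matrix.GeneralLinearGroup (Fin 2) (ZMod 5)))) = 24 ∧ ∀ v w : Fin 2 → ZMod 5, v ≠ 0 → w ≠ 0 → ∃! h : Subgroup.closure ({A, B, C} : Set (Matrix.GeneralLinearGroup (Fin 2) (ZMod 5))), Matrix.mulVec ((h : Matrix.GeneralLinearGroup (Fin 2) (ZMod 5)) : Matrix (Fin 2) (Fin 2) (ZMod 5)) v = w := by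
  classical
  have : Fact (Nat.Prime 5) := ⟨by norm_num⟩
  have hA' : (A : Matrix (Fin 2) (Fin 2) (ZMod 5)) = Cfsg.Agent.Perm.MatCheck.natMat 5 (2, 0, 0, 3) := by
    rw [hA]
    decide +kernel
  have hB' : (B : Matrix (Fin 2) (Fin 2) (ZMod 5)) = Cfsg.Agent.Perm.MatCheck.natMat 5 (0, 4, 1, 0) := by
    rw [hB]
    decide +kernel
  have hC' : (C : Matrix (Fin 2) (Fin 2) (ZMod 5)) = Cfsg.Agent.Perm.MatCheck.natMat 5 (1, 2, 1, 3) := by
    rw [hC]
    decide +kernel
  have key := Cfsg.Agent.Perm.MatCheck.regular_of_check (p := 5) ({A, B, C} : Set (Matrix.GeneralLinearGroup (Fin 2) (ZMod 5))) gensT sxT syT dT ?_ ?_ chkT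
  · exact ⟨by rw [key.1]; norm_num, key.2⟩
  · intro g hg
    simp only [Set.mem_insert_iff, Set.mem_singleton_iff] at hg
    rcases hg with rfl | rfl | rfl
    · exact ⟨_, by simp [gensT], hA'⟩
    · exact ⟨_, by simp [gensT], hB'⟩
    · exact ⟨_, by simp [gensT], hC'⟩
  · intro n hn
    simp only [gensT, List.mem_cons, List.not_mem_nil, or_false] at hn
    rcases hn with rfl | rfl | rfl
    · exact ⟨_, by simp, hA'⟩
    · exact ⟨_, by simp, hB'⟩
    · exact ⟨_, by simp, hC'⟩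

end Cfsg.Agent.S0691
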