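import Cfsg.Statements.S0692
import Cfsg.Agent.Lib.Perm.MatCheck
import Mathlib

set_option autoImplicit false
open Cfsg

namespace Cfsg.Agent.S0692


/-- Table of second columns. -/
def tblS : ℕ := 0x6d281d584b40532c1570010c2a1f064c41765d6b5532044a34293c1e775f6c560f3e2b2033126354604203711b1023095e45573d7368351c11472d3f26026174694f08372430167251645946132e18250d66485b503a07752f19270e433805655a7852146f4d31443921675c170a6e3b4e621a6a2236490b00
/-- Table of distances. -/
def tblD : ℕ := 0x7418a9b75616ac4782b9388ba88a59b47b36ca5cb378a9b65497696785b678c784959c7cb45aa29b3c6acaa95b94696a886479c7863253258975aa700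
/-- Second column, first coordinate. -/
def sxT (x y : ℕ) : ℕ := ((tblS >>> (8 * (x + 11 * y))) &&& 255) % 11
/-- Second column, second coordinate. -/
def syT (x y : ℕ) : ℕ := ((tblS >>> (8 * (x + 11 * y))) &&& 255) / 11
/-- Distance to the base vector. -/
def dT (x y : ℕ) : ℕ := (tblD >>> (4 * (x + 11 * y))) &&& 15
/-- Nat form of the generators. -/
def gensT : List Cfsg.Agent.Perm.MatCheck.NatGen := [(0, 10, 1, 0), (2, 4, 1, 8)]

theorem chkT : Cfsg.Agent.Perm.MatCheck.chkAll 11 gensT sxT syT dT = true := by decide +kernel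

/-- An exceptional sharply doubly transitive group of degree 11^2: the listed matrices generate a subgroup of GL(2,11) of order 120 acting regularly on the non-zero vectors. -/
theorem result (A : Matrix.GeneralLinearGroup (Fin 2) (ZMod 11)) (B : Matrix.GeneralLinearGroup (Fin 2) (ZMod 11)) (hA : (A : Matrix (Fin 2) (Fin 2) (ZMod 11)) = !![0, -1; 1, 0]) (hB : (B : Matrix (Fin 2) (Fin 2) (ZMod 11)) = !![2, 4; 1, -3]) : Nat.card (Subgroup.closure ({A, B} : Set (Matrix.GeneralLinearGroup (Fin 2) (ZMod 11)))) = 120 ∧ ∀ v w : Fin 2 → ZMod 11, v ≠ 0 → w ≠ 0 → ∃! h : Subgroup.closure ({A, B} : Set (Matrix.GeneralLinearGroup (Fin 2) (ZMod 11))), Matrix.mulVec ((h : Matrix.GeneralLinearGroup (Fin 2) (ZMod 11)) : Matrix (Fin 2) (Fin 2) (ZMod 11)) v = w := by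
  classical
  have : Fact (Nat.Prime 11) := ⟨by norm_num⟩
  have hA' : (A : Matrix (Fin 2) (Fin 2) (ZMod 11)) = Cfsg.Agent.Perm.MatCheck.natMat 11 (0, 10, 1, 0) := by
    rw [hA]
    decide +kernel
  have hB' : (B : Matrix (Fin 2) (Fin 2) (ZMod 11)) = Cfsg.Agent.Perm.MatCheck.natMat 11 (2, 4, 1, 8) := by
    rw [hB]
    decide +kernel
  have key := Cfsg.Agent.Perm.MatCheck.regular_of_check (p := 11) ({A, B} : Set (Matrix.GeneralLinearGroup (Fin 2) (ZMod 11))) gensT sxT syT dT ?_ ?_ chkT
  · exact ⟨by rw [key.1]; norm_num, key.2⟩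
  · intro g hg
    simp only [Set.mem_insert_iff, Set.mem_singleton_iff] at hg
    rcases hg with rfl | rfl
    · exact ⟨_, by simp [gensT], hA'⟩
    · exact ⟨_, by simp [gensT], hB'⟩
  · intro n hn
    simp only [gensT, List.mem_cons, List.not_mem_nil, or_false] at hn
    rcases hn with rfl | rfl
    · exact ⟨_, by simp, hA'⟩
    · exact ⟨_, by simp, hB'⟩

end Cfsg.Agent.S0692
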