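import Cfsg.Statements.S0696
import Cfsg.Agent.Lib.Perm.Regular
import Mathlib

set_option autoImplicit false
open Cfsg

namespace Cfsg.Agent.S0696

/-- A triply primitive group of degree at least 3 having a regular normal subgroup has degree 3 or 4. -/
theorem result {G : Type*} [Group G] {X : Type*} [Fintype X] [MulAction G X] (hX : 3 ≤ Fintype.card X) (h3 : MulAction.IsMultiplyPreprimitive G X 3) (N : Subgroup G) [N.Normal] (htrans : MulAction.IsPretransitive N X) (hreg : ∀ x : X, MulAction.stabilizer N x = ⊥) : Fintype.card X = 3 ∨ Fintype.card X = 4 := by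
  classical
  have hne : Nonempty X := by
    rw [← Fintype.card_pos_iff]; omega
  obtain ⟨x₀⟩ := hne
  have hc : Nat.card X = Fintype.card X := Nat.card_eq_fintype_card
  have hcX : (3 : ℕ) ≤ ENat.card X := by
    rw [ENat.card_eq_coe_fintype_card]
    exact_mod_cast hX
  have h2 : MulAction.IsMultiplyPreprimitive G X 2 :=
    MulAction.isMultiplyPreprimitive_of_le G X h3 (by norm_num) hcX
  rcases Cfsg.Agent.Lib.Perm.regular_normal_of_two_primitive h2 N htrans hreg x₀ with h | hexp
  · left; rw [← hc, h]
  · right
    rw [← hc]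
    exact Cfsg.Agent.Lib.Perm.regular_normal_of_three_primitive h3 N htrans hreg hexp (by rw [hc]; exact hX)

end Cfsg.Agent.S0696
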