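import Cfsg.Statements.S0701
import Mathlib

set_option autoImplicit false
open Cfsg

namespace Cfsg.Agent.S0701

/-- The centraliser in the full symmetric group of a transitive permutation group `G` is semiregular, and it is transitive if and only if `G` is regular. -/
theorem result {α : Type*} (G : Subgroup (Equiv.Perm α)) [MulAction.IsPretransitive G α] : (∀ c ∈ Subgroup.centralizer (G : Set (Equiv.Perm α)), ∀ a : α, c a = a → c = 1) ∧ (MulAction.IsPretransitive (Subgroup.centralizer (G : Set (Equiv.Perm α))) α ↔ ∀ a : α, MulAction.stabilizer G a = ⊥) := by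
  have key : ∀ c ∈ Subgroup.centralizer (G : Set (Equiv.Perm α)), ∀ g ∈ G, ∀ x, c (g x) = g (c x) := by
    intro c hc g hg x
    have := Subgroup.mem_centralizer_iff.mp hc g hg
    have h2 := congrArg (fun f : Equiv.Perm α => f x) this
    simpa using h2.symm
  refine ⟨?_, ?_, ?_⟩
  · intro c hc a hca
    ext x
    obtain ⟨g, hg⟩ := MulAction.exists_smul_eq G a x
    have hg' : (g : Equiv.Perm α) a = x := hg
    rw [← hg', key c hc g g.2, hca]
    simp
  · intro htr a
    rw [eq_bot_iff]
    intro g hg
    rw [Subgroup.mem_bot]
    apply Subtype.ext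
    ext x
    obtain ⟨c, hc⟩ := MulAction.exists_smul_eq (Subgroup.centralizer (G : Set (Equiv.Perm α))) a x
    have hc' : (c : Equiv.Perm α) a = x := hc
    have hga : (g : Equiv.Perm α) a = a := hg
    rw [← hc', ← key c c.2 g g.2, hga]
    simp
  · intro hreg
    refine ⟨fun a b => ?_⟩
    -- define the centralising permutation `g a ↦ g b`
    have hinj : ∀ (z : α) (g g' : G), (g : Equiv.Perm α) z = (g' : Equiv.Perm α) z → g = g' := by
      intro z g g' h
      have : g'⁻¹ * g ∈ MulAction.stabilizer G z := by
        change (g'⁻¹ * g) • z = z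
        rw [mul_smul]
        change g'⁻¹ • ((g : Equiv.Perm α) z) = z
        rw [h]
        exact inv_smul_smul g' z
      rw [hreg z, Subgroup.mem_bot] at this
      exact (inv_mul_eq_one.mp this).symm
    have hex : ∀ z x, ∃ g : G, (g : Equiv.Perm α) z = x := fun z x => MulAction.exists_smul_eq G z x
    choose γ hγ using hex a
    choose δ hδ using hex b
    let c : Equiv.Perm α :=
      { toFun := fun x => (γ x : Equiv.Perm α) b
        invFun := fun x => (δ x : Equiv.Perm α) a
        left_inv := by
          intro x
          have : δ ((γ x : Equiv.Perm α) b) = γ x := hinj b _ _ (hδ _)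
          simp only [this]
          exact hγ x
        right_inv := by
          intro x
          have : γ ((δ x : Equiv.Perm α) a) = δ x := hinj a _ _ (hγ _)
          simp only [this]
          exact hδ x }
    have hcγ : ∀ (g : G), c ((g : Equiv.Perm α) a) = (g : Equiv.Perm α) b := by
      intro g
      have : γ ((g : Equiv.Perm α) a) = g := hinj a _ _ (hγ _)
      change (γ ((g : Equiv.Perm α) a) : Equiv.Perm α) b = _
      rw [this]
    have hc : c ∈ Subgroup.centralizer (G : Set (Equiv.Perm α)) := by
      rw [Subgroup.mem_centralizer_iff]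
      intro g hg
      ext x
      obtain ⟨h, rfl⟩ := hex a x
      have h2 := hcγ (⟨g, hg⟩ * h)
      have h3 := hcγ h
      simp only [Subgroup.coe_mul, Equiv.Perm.coe_mul, Function.comp_apply] at h2 ⊢
      rw [h2, h3]
    refine ⟨⟨c, hc⟩, ?_⟩
    have := hcγ 1
    simpa using this

end Cfsg.Agent.S0701
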