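import Cfsg.Statements.S0702
import Mathlib

set_option autoImplicit false
open Cfsg

namespace Cfsg.Agent.S0702

/-- For a transitive permutation group `G` on a finite set, the centraliser of `G` in the symmetric group is isomorphic to `N_G(G_ω)/G_ω`, and its orbit of `ω` is the set of fixed points of `G_ω`. -/
theorem result {α : Type*} [Finite α] (G : Subgroup (Equiv.Perm α)) [MulAction.IsPretransitive G α] (a : α) : Nonempty (Subgroup.centralizer (G : Set (Equiv.Perm α)) ≃* Subgroup.normalizer ((MulAction.stabilizer G a : Subgroup G) : Set G) ⧸ (MulAction.stabilizer G a).subgroupOf (Subgroup.normalizer ((MulAction.stabilizer G a : Subgroup G) : Set G))) ∧ MulAction.orbit (Subgroup.centralizer (G : Set (Equiv.Perm α))) a = MulAction.fixedPoints (MulAction.stabilizer G a) α := by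
  classical
  have : Finite (Equiv.Perm α) := inferInstance
  set S := MulAction.stabilizer G a with hS
  set N := Subgroup.normalizer (S : Set G) with hN
  have hfinG : Finite G := inferInstance
  have hcomm : ∀ c ∈ Subgroup.centralizer (G : Set (Equiv.Perm α)), ∀ (g : G) x, c (g • x) = g • c x := by
    intro c hc g x
    have := Subgroup.mem_centralizer_iff.mp hc g g.2
    have h2 := congrArg (fun f : Equiv.Perm α => f x) this
    exact h2.symm
  -- the key normaliser lemma
  have hnorm : ∀ h : G, h • a ∈ MulAction.fixedPoints S α → h ∈ N := by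
    intro h hfix
    have hle : ∀ s ∈ S, h⁻¹ * s * h ∈ S := by
      intro s hs
      rw [MulAction.mem_stabilizer_iff, mul_smul, mul_smul]
      have := hfix ⟨s, hs⟩
      change s • (h • a) = h • a at this
      rw [this, inv_smul_smul]
    have hinj : Function.Injective (fun s : S => (⟨h⁻¹ * s.1 * h, hle s.1 s.2⟩ : S)) := by
      intro x y hxy
      have := congrArg Subtype.val hxy
      simp only at this
      apply Subtype.ext
      exact mul_left_cancel (mul_right_cancel this)
    have hsurj := Finite.surjective_of_injective hinj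
    rw [hN, Subgroup.mem_normalizer_iff]
    intro g
    constructor
    · intro hg
      obtain ⟨s, hs⟩ := hsurj ⟨g, hg⟩
      have hs' : h⁻¹ * s.1 * h = g := congrArg Subtype.val hs
      have : h * g * h⁻¹ = s.1 := by rw [← hs']; group
      change h * g * h⁻¹ ∈ S
      rw [this]
      exact s.2
    · intro hg
      have h1 := hle _ hg
      have : h⁻¹ * (h * g * h⁻¹) * h = g := by group
      rwa [this] at h1
  -- the element taking `a` to a given point
  have hex : ∀ x : α, ∃ g : G, g • a = x := fun x => MulAction.exists_smul_eq G a x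
  choose γ hγ using hex
  -- the function attached to `n`
  let f : G → α → α := fun n x => γ x • (n⁻¹ • a)
  have hf : ∀ (n : N) (g : G), f n.1 (g • a) = g • (n.1⁻¹ • a) := by
    intro n g
    change γ (g • a) • ((n.1)⁻¹ • a) = _
    have hs : (γ (g • a))⁻¹ * g ∈ S := by
      rw [MulAction.mem_stabilizer_iff, mul_smul, inv_smul_eq_iff, hγ]
    have hn : n.1 * ((γ (g • a))⁻¹ * g) * n.1⁻¹ ∈ S :=
      (Subgroup.mem_normalizer_iff.mp n.2 _).mp hs
    have h1 := (MulAction.mem_stabilizer_iff.mp hn)
    rw [mul_smul, mul_smul] at h1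
    -- `γ⁻¹ g n⁻¹ a = n⁻¹ a`
    have h2 : ((γ (g • a))⁻¹ * g) • (n.1⁻¹ • a) = n.1⁻¹ • a := by
      rw [eq_inv_smul_iff]
      exact h1
    rw [mul_smul, inv_smul_eq_iff] at h2
    exact h2.symm
  have hf1 : ∀ x, f 1 x = x := by
    intro x
    change γ x • ((1 : G)⁻¹ • a) = x
    rw [inv_one, one_smul, hγ]
  have hfmul : ∀ (n m : N) x, f n.1 (f m.1 x) = f (n.1 * m.1) x := by
    intro n m x
    change f n.1 (γ x • (m.1⁻¹ • a)) = γ x • ((n.1 * m.1)⁻¹ • a)
    rw [← mul_smul, hf n, mul_smul, mul_inv_rev, mul_smul]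
  let φ₀ : N → Equiv.Perm α := fun n =>
    { toFun := f n.1
      invFun := f (n⁻¹ : N).1
      left_inv := fun x => by
        rw [hfmul]
        simp only [InvMemClass.coe_inv, inv_mul_cancel]
        exact hf1 x
      right_inv := fun x => by
        rw [hfmul]
        simp only [InvMemClass.coe_inv, mul_inv_cancel]
        exact hf1 x }
  have hφ₀ : ∀ (n : N) (g : G), φ₀ n (g • a) = g • (n.1⁻¹ • a) := hf
  have hφmem : ∀ n : N, φ₀ n ∈ Subgroup.centralizer (G : Set (Equiv.Perm α)) := by
    intro n
    rw [Subgroup.mem_centralizer_iff]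
    intro g hg
    ext x
    obtain ⟨h, rfl⟩ : ∃ h : G, h • a = x := ⟨γ x, hγ x⟩
    change g ((φ₀ n) (h • a)) = φ₀ n (g (h • a))
    have : g (h • a) = ((⟨g, hg⟩ : G) * h) • a := by
      rw [mul_smul]; rfl
    rw [this, hφ₀, hφ₀, mul_smul]
    rfl
  let φ : N →* Subgroup.centralizer (G : Set (Equiv.Perm α)) :=
    MonoidHom.mk' (fun n => ⟨φ₀ n, hφmem n⟩) (by
      intro n m
      apply Subtype.ext
      ext x
      change f (n * m).1 x = f n.1 (f m.1 x)
      rw [hfmul]
      rfl)
  have hφapply : ∀ (n : N) (g : G), ((φ n : Equiv.Perm α)) (g • a) = g • (n.1⁻¹ • a) := hφ₀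
  have hfixc : ∀ c ∈ Subgroup.centralizer (G : Set (Equiv.Perm α)), c a ∈ MulAction.fixedPoints S α := by
    intro c hc s
    have h1 := hcomm c hc (s : G) a
    have h2 : (s : G) • a = a := s.2
    rw [h2] at h1
    exact h1.symm
  have hsurj : Function.Surjective φ := by
    rintro ⟨c, hc⟩
    have h1 : γ (c a) • a ∈ MulAction.fixedPoints S α := by
      rw [hγ]
      exact hfixc c hc
    have h2 := hnorm _ h1
    refine ⟨⟨(γ (c a))⁻¹, N.inv_mem h2⟩, ?_⟩
    apply Subtype.ext
    ext x
    obtain ⟨h, rfl⟩ : ∃ h : G, h • a = x := ⟨γ x, hγ x⟩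
    rw [hφapply]
    simp only [inv_inv]
    rw [hγ, hcomm c hc]
  have hker : φ.ker = S.subgroupOf N := by
    ext n
    rw [MonoidHom.mem_ker, Subgroup.mem_subgroupOf]
    constructor
    · intro hn
      have h1 := hφapply n 1
      rw [hn] at h1
      simp only [OneMemClass.coe_one, Equiv.Perm.coe_one, id_eq, one_smul] at h1
      rw [hS, MulAction.mem_stabilizer_iff]
      rw [eq_comm, inv_smul_eq_iff] at h1
      exact h1.symm
    · intro hn
      apply Subtype.ext
      ext x
      obtain ⟨h, rfl⟩ : ∃ h : G, h • a = x := ⟨γ x, hγ x⟩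
      rw [hφapply]
      have h3 : (n.1)⁻¹ • a = a := by
        rw [inv_smul_eq_iff]
        exact (MulAction.mem_stabilizer_iff.mp hn).symm
      rw [h3]
      rfl
  refine ⟨⟨?_⟩, ?_⟩
  · exact ((QuotientGroup.quotientMulEquivOfEq hker).symm.trans (QuotientGroup.quotientKerEquivOfSurjective φ hsurj)).symm
  · ext x
    constructor
    · rintro ⟨c, rfl⟩
      exact hfixc c.1 c.2
    · intro hx
      have h1 : γ x • a ∈ MulAction.fixedPoints S α := by
        rw [hγ]; exact hx
      have h2 := hnorm _ h1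
      refine ⟨φ ⟨(γ x)⁻¹, N.inv_mem h2⟩, ?_⟩
      have h3 := hφapply ⟨(γ x)⁻¹, N.inv_mem h2⟩ 1
      rw [one_smul] at h3
      change ((φ ⟨(γ x)⁻¹, N.inv_mem h2⟩ : Equiv.Perm α)) a = x
      rw [h3]
      simp only [inv_inv, one_smul]
      exact hγ x

end Cfsg.Agent.S0702
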