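import Cfsg.Statements.S0703
import Cfsg.Agent.Lib.Perm.MinNormalPerm
import Mathlib

set_option autoImplicit false
open Cfsg

namespace Cfsg.Agent.S0703

/-- An abelian transitive minimal normal subgroup `M` of a permutation group on a finite set is self-centralising in the symmetric group, regular, elementary abelian, and is the unique minimal normal subgroup. -/
theorem result {α : Type*} [Finite α] (G : Subgroup (Equiv.Perm α)) (M : Subgroup G) [M.Normal] (hM : M ≠ ⊥) (hmin : ∀ L : Subgroup G, L.Normal → L ≤ M → L = ⊥ ∨ L = M) (hab : IsMulCommutative M) (htrans : MulAction.IsPretransitive M α) : Subgroup.centralizer ((M.map G.subtype : Subgroup (Equiv.Perm α)) : Set (Equiv.Perm α)) = M.map G.subtype ∧ (∀ a : α, MulAction.stabilizer M a = ⊥) ∧ (∃ p : ℕ, p.Prime ∧ ∀ m ∈ M, m ^ p = 1) ∧ ∀ L : Subgroup G, L.Normal → L ≠ ⊥ → (∀ L' : Subgroup G, L'.Normal → L' ≤ L → L' = ⊥ ∨ L' = L) → L = M := by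
  classical
  have hne : Nonempty α := by
    by_contra hem
    rw [not_nonempty_iff] at hem
    apply hM
    rw [eq_bot_iff]
    intro m _
    rw [Subgroup.mem_bot]
    apply Subtype.ext
    ext x
    exact (hem.false x).elim
  obtain ⟨a⟩ := hne
  have hMn : M.Normal := ‹_›
  set M' := M.map G.subtype with hM'
  have hM't := Cfsg.Agent.Lib.Perm.mn_map_transitive M htrans
  have hcomm' : ∀ x ∈ M', ∀ y ∈ M', Commute x y := by
    rintro _ ⟨m, hm, rfl⟩ _ ⟨n, hn, rfl⟩
    have := hab.is_comm.comm ⟨m, hm⟩ ⟨n, hn⟩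
    have h2 := congrArg (fun x : M => ((x : G) : Equiv.Perm α)) this
    exact h2
  have hc : Subgroup.centralizer ((M' : Subgroup (Equiv.Perm α)) : Set (Equiv.Perm α)) = M' := by
    apply le_antisymm
    · intro c hc
      rw [Subgroup.mem_centralizer_iff] at hc
      obtain ⟨n, hn⟩ := htrans.exists_smul_eq a (c a)
      have hn' : ((n : G) : Equiv.Perm α) a = c a := hn
      have := Cfsg.Agent.Lib.Perm.mn_eq_of_commute (T := M') hM't (c := c)
        (t := ((n : G) : Equiv.Perm α)) (a := a) hn'.symm
        (fun s hs => (hc s hs).symm)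
        (fun s hs => (hcomm' s hs _ ⟨n, n.2, rfl⟩).symm)
      rw [this]
      exact ⟨n, n.2, rfl⟩
    · intro y hy
      rw [Subgroup.mem_centralizer_iff]
      intro x hx
      exact (hcomm' x hx y hy).eq
  refine ⟨hc, ?_, ?_, ?_⟩
  · intro b
    rw [eq_bot_iff]
    intro m hm
    rw [Subgroup.mem_bot]
    have h1 : ((m : G) : Equiv.Perm α) = 1 :=
      Cfsg.Agent.Lib.Perm.mn_eq_one_of_commute (T := M') hM't (a := b) hm
        (fun s hs => hcomm' _ ⟨m, m.2, rfl⟩ s hs)
    exact Subtype.ext (Subtype.ext h1)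
  · have hcardne : Nat.card M ≠ 1 := by
      intro h
      apply hM
      rw [← Subgroup.card_le_one_iff_eq_bot]
      omega
    obtain ⟨p, hp, hpd⟩ := Nat.exists_prime_and_dvd hcardne
    refine ⟨p, hp, ?_⟩
    haveI : Fact p.Prime := ⟨hp⟩
    obtain ⟨x, hx⟩ := exists_prime_orderOf_dvd_card' p hpd
    let L : Subgroup G :=
      { carrier := {g | g ∈ M ∧ g ^ p = 1}
        one_mem' := ⟨M.one_mem, one_pow _⟩
        mul_mem' := by
          rintro g g' ⟨hg, hgp⟩ ⟨hg', hgp'⟩
          refine ⟨M.mul_mem hg hg', ?_⟩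
          have hcm : Commute g g' := by
            have := hab.is_comm.comm ⟨g, hg⟩ ⟨g', hg'⟩
            exact congrArg (fun x : M => (x : G)) this
          rw [hcm.mul_pow, hgp, hgp', one_mul]
        inv_mem' := by
          rintro g ⟨hg, hgp⟩
          exact ⟨M.inv_mem hg, by rw [inv_pow, hgp, inv_one]⟩ }
    have hLn : L.Normal := by
      constructor
      rintro g ⟨hg, hgp⟩ u
      refine ⟨hMn.conj_mem g hg u, ?_⟩
      rw [conj_pow, hgp]
      simp
    have hLM : L ≤ M := fun g hg => hg.1
    rcases hmin L hLn hLM with h | h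
    · exfalso
      have hx1 : (x : G) ∈ L := ⟨x.2, by
        have := pow_orderOf_eq_one x
        rw [hx] at this
        exact congrArg (fun y : M => (y : G)) this⟩
      rw [h, Subgroup.mem_bot] at hx1
      have hx2 : x = 1 := Subtype.ext hx1
      rw [hx2, orderOf_one] at hx
      exact hp.one_lt.ne hx
    · intro m hm
      rw [← h] at hm
      exact hm.2
  · intro L hLn hLne hLmin
    by_contra hLM
    have hinfL : L ⊓ M = ⊥ := by
      rcases hmin (L ⊓ M) (Subgroup.normal_inf_normal L M) inf_le_right with h | h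
      · exact h
      · exfalso
        have hle : M ≤ L := by rw [← h]; exact inf_le_left
        rcases hLmin M hMn hle with h2 | h2
        · exact hM h2
        · exact hLM h2.symm
    have hLN : L ≤ M := by
      intro l hl
      have h1 : (l : Equiv.Perm α) ∈ Subgroup.centralizer ((M' : Subgroup (Equiv.Perm α)) : Set (Equiv.Perm α)) := by
        rw [Subgroup.mem_centralizer_iff]
        rintro _ ⟨m, hm, rfl⟩
        have := Cfsg.Agent.Lib.Perm.mn_commute_of_inf hLn hMn hinfL hl hm
        exact (congrArg G.subtype this.eq).symm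
      rw [hc] at h1
      obtain ⟨n, hn, hnl⟩ := h1
      have : n = l := Subtype.ext hnl
      rwa [← this]
    rcases hmin L hLn hLN with h | h
    · exact hLne h
    · exact hLM h

end Cfsg.Agent.S0703
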