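import Cfsg.Statements.S0704
import Cfsg.Agent.Lib.Perm.MinNormalPerm
import Mathlib

set_option autoImplicit false
open Cfsg

namespace Cfsg.Agent.S0704

/-- Two distinct transitive minimal normal subgroups `M`, `N` of a permutation group are regular, non-abelian, isomorphic, each other's centraliser in the symmetric group, and the only minimal normal subgroups. -/
theorem result {α : Type*} (G : Subgroup (Equiv.Perm α)) (M N : Subgroup G) [M.Normal] [N.Normal] (hM : M ≠ ⊥) (hN : N ≠ ⊥) (hMmin : ∀ L : Subgroup G, L.Normal → L ≤ M → L = ⊥ ∨ L = M) (hNmin : ∀ L : Subgroup G, L.Normal → L ≤ N → L = ⊥ ∨ L = N) (hMN : M ≠ N) (hMt : MulAction.IsPretransitive M α) (hNt : MulAction.IsPretransitive N α) : (∀ a : α, MulAction.stabilizer M a = ⊥) ∧ (∀ a : α, MulAction.stabilizer N a = ⊥) ∧ ¬ IsMulCommutative M ∧ Nonempty (M ≃* N) ∧ Subgroup.centralizer ((M.map G.subtype : Subgroup (Equiv.Perm α)) : Set (Equiv.Perm α)) = N.map G.subtype ∧ Subgroup.centralizer ((N.map G.subtype : Subgroup (Equiv.Perm α)) : Set (Equiv.Perm α))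 = M.map G.subtype ∧ ∀ L : Subgroup G, L.Normal → L ≠ ⊥ → (∀ L' : Subgroup G, L'.Normal → L' ≤ L → L' = ⊥ ∨ L' = L) → L = M ∨ L = N := by
  classical
  have hne : Nonempty α := by
    by_contra hem
    rw [not_nonempty_iff] at hem
    apply hM
    rw [eq_bot_iff]
    intro m _
    rw [Subgroup.mem_bot]
    apply Subtype.ext
    ext x
    exact (hem.false x).elim
  obtain ⟨a⟩ := hne
  have hinf : M ⊓ N = ⊥ := by
    rcases hMmin (M ⊓ N) (Subgroup.normal_inf_normal M N) inf_le_left with h | h
    · exact h
    · exfalso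
      have hle : M ≤ N := by rw [← h]; exact inf_le_right
      rcases hNmin M ‹_› hle with h2 | h2
      · exact hM h2
      · exact hMN h2
  have hMNn : (M : Subgroup G).Normal := ‹_›
  have hNMn : (N : Subgroup G).Normal := ‹_›
  have hcomm : ∀ m ∈ M, ∀ n ∈ N, Commute m n := fun m hm n hn =>
    Cfsg.Agent.Lib.Perm.mn_commute_of_inf hMNn hNMn hinf hm hn
  set M' := M.map G.subtype with hM'
  set N' := N.map G.subtype with hN'
  have hM't := Cfsg.Agent.Lib.Perm.mn_map_transitive M hMt
  have hN't := Cfsg.Agent.Lib.Perm.mn_map_transitive N hNt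
  have hcomm' : ∀ x ∈ M', ∀ y ∈ N', Commute x y := by
    rintro _ ⟨m, hm, rfl⟩ _ ⟨n, hn, rfl⟩
    have := hcomm m hm n hn
    exact congrArg G.subtype this.eq
  -- centralizers
  have hcM : Subgroup.centralizer ((M' : Subgroup (Equiv.Perm α)) : Set (Equiv.Perm α)) = N' := by
    apply le_antisymm
    · intro c hc
      rw [Subgroup.mem_centralizer_iff] at hc
      obtain ⟨n, hn⟩ := hNt.exists_smul_eq a (c a)
      have hn' : ((n : G) : Equiv.Perm α) a = c a := hn
      have := Cfsg.Agent.Lib.Perm.mn_eq_of_commute (T := M') hM't (c := c)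
        (t := ((n : G) : Equiv.Perm α)) (a := a) hn'.symm
        (fun s hs => (hc s hs).symm)
        (fun s hs => (hcomm' s hs _ ⟨n, n.2, rfl⟩).symm)
      rw [this]
      exact ⟨n, n.2, rfl⟩
    · intro y hy
      rw [Subgroup.mem_centralizer_iff]
      intro x hx
      exact (hcomm' x hx y hy).eq
  have hcN : Subgroup.centralizer ((N' : Subgroup (Equiv.Perm α)) : Set (Equiv.Perm α)) = M' := by
    apply le_antisymm
    · intro c hc
      rw [Subgroup.mem_centralizer_iff] at hc
      obtain ⟨m, hm⟩ := hMt.exists_smul_eq a (c a)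
      have hm' : ((m : G) : Equiv.Perm α) a = c a := hm
      have := Cfsg.Agent.Lib.Perm.mn_eq_of_commute (T := N') hN't (c := c)
        (t := ((m : G) : Equiv.Perm α)) (a := a) hm'.symm
        (fun s hs => (hc s hs).symm)
        (fun s hs => (hcomm' _ ⟨m, m.2, rfl⟩ s hs))
      rw [this]
      exact ⟨m, m.2, rfl⟩
    · intro y hy
      rw [Subgroup.mem_centralizer_iff]
      intro x hx
      exact (hcomm' y hy x hx).eq.symm
  -- semiregularity
  have hstabM : ∀ a : α, MulAction.stabilizer M a = ⊥ := by
    intro a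
    rw [eq_bot_iff]
    intro m hm
    rw [Subgroup.mem_bot]
    have h1 : ((m : G) : Equiv.Perm α) = 1 :=
      Cfsg.Agent.Lib.Perm.mn_eq_one_of_commute (T := N') hN't (a := a) hm
        (fun s hs => hcomm' _ ⟨m, m.2, rfl⟩ s hs)
    exact Subtype.ext (Subtype.ext h1)
  have hstabN : ∀ a : α, MulAction.stabilizer N a = ⊥ := by
    intro a
    rw [eq_bot_iff]
    intro m hm
    rw [Subgroup.mem_bot]
    have h1 : ((m : G) : Equiv.Perm α) = 1 :=
      Cfsg.Agent.Lib.Perm.mn_eq_one_of_commute (T := M') hM't (a := a) hm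
        (fun s hs => (hcomm' s hs _ ⟨m, m.2, rfl⟩).symm)
    exact Subtype.ext (Subtype.ext h1)
  refine ⟨hstabM, hstabN, ?_, ?_, hcM, hcN, ?_⟩
  · intro hab
    -- M is its own centraliser
    have hMM : M' ≤ N' := by
      rw [← hcM]
      rintro _ ⟨m, hm, rfl⟩
      rw [Subgroup.mem_centralizer_iff]
      rintro _ ⟨m', hm', rfl⟩
      have := hab.is_comm.comm ⟨m', hm'⟩ ⟨m, hm⟩
      have h2 := congrArg (fun x : M => ((x : G) : Equiv.Perm α)) this
      exact h2
    have hMN' : M ≤ N := by
      intro m hm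
      obtain ⟨n, hn, hnm⟩ := hMM (Subgroup.mem_map_of_mem G.subtype hm)
      have : n = m := Subtype.ext hnm
      rwa [← this]
    rcases hNmin M ‹_› hMN' with h2 | h2
    · exact hM h2
    · exact hMN h2
  · -- the anti-isomorphism
    have hφ : ∀ m : M, ∃! n : N, n • a = m • a := by
      intro m
      obtain ⟨n, hn⟩ := hNt.exists_smul_eq a (m • a)
      refine ⟨n, hn, fun n' hn' => ?_⟩
      have h3 : (n⁻¹ * n') • a = a := by
        rw [mul_smul, hn', ← hn, inv_smul_smul]
      have h4 : n⁻¹ * n' ∈ MulAction.stabilizer N a := h3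
      rw [hstabN, Subgroup.mem_bot] at h4
      exact (inv_mul_eq_one.mp h4).symm
    have hφ' : ∀ n : N, ∃! m : M, m • a = n • a := by
      intro n
      obtain ⟨m, hm⟩ := hMt.exists_smul_eq a (n • a)
      refine ⟨m, hm, fun m' hm' => ?_⟩
      have h3 : (m⁻¹ * m') • a = a := by
        rw [mul_smul, hm', ← hm, inv_smul_smul]
      have h4 : m⁻¹ * m' ∈ MulAction.stabilizer M a := h3
      rw [hstabM, Subgroup.mem_bot] at h4
      exact (inv_mul_eq_one.mp h4).symm
    choose f hf hfu using hφ
    choose g hg hgu using hφ'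
    have hcs : ∀ (m : M) (n : N) (x : α), m • (n • x) = n • (m • x) := by
      intro m n x
      have := hcomm m m.2 n n.2
      have h2 : ((m : G) : Equiv.Perm α) * ((n : G) : Equiv.Perm α) =
          ((n : G) : Equiv.Perm α) * ((m : G) : Equiv.Perm α) := congrArg G.subtype this.eq
      exact congrArg (fun p : Equiv.Perm α => p x) h2
    have hmul : ∀ m m' : M, f (m * m') = f m' * f m := by
      intro m m'
      symm
      apply hfu
      rw [mul_smul, hf m, ← hcs, hf m', mul_smul]
    have hfg : ∀ n, f (g n) = n := fun n => (hfu (g n) n (hg n).symm).symm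
    have hgf : ∀ m, g (f m) = m := fun m => (hgu (f m) m (hf m).symm).symm
    refine ⟨{ toFun := fun m => (f m)⁻¹, invFun := fun n => g n⁻¹, left_inv := ?_, right_inv := ?_,
              map_mul' := ?_ }⟩
    · intro m
      simp [hgf]
    · intro n
      simp [hfg]
    · intro m m'
      simp [hmul]
  · intro L hLn hLne hLmin
    by_cases hLM : L = M
    · exact Or.inl hLM
    · right
      have hinfL : L ⊓ M = ⊥ := by
        rcases hMmin (L ⊓ M) (Subgroup.normal_inf_normal L M) inf_le_right with h | h
        · exact h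
        · exfalso
          have hle : M ≤ L := by rw [← h]; exact inf_le_left
          rcases hLmin M ‹_› hle with h2 | h2
          · exact hM h2
          · exact hLM h2.symm
      have hLN : L ≤ N := by
        intro l hl
        have h1 : (l : Equiv.Perm α) ∈ Subgroup.centralizer ((M' : Subgroup (Equiv.Perm α)) : Set (Equiv.Perm α)) := by
          rw [Subgroup.mem_centralizer_iff]
          rintro _ ⟨m, hm, rfl⟩
          have := Cfsg.Agent.Lib.Perm.mn_commute_of_inf hLn hMNn hinfL hl hm
          exact (congrArg G.subtype this.eq).symm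
        rw [hcM] at h1
        obtain ⟨n, hn, hnl⟩ := h1
        have : n = l := Subtype.ext hnl
        rwa [← this]
      rcases hNmin L hLn hLN with h | h
      · exact absurd h hLne
      · exact h

end Cfsg.Agent.S0704
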