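import Cfsg.Statements.S0705
import Cfsg.Agent.Lib.Perm.Tuples
import Mathlib

set_option autoImplicit false
open scoped Pointwise
open Cfsg

namespace Cfsg.Agent.S0705

open MulAction SubMulAction

/-- A generously `k`-transitive permutation group (every `(k+1)`-subset has its full symmetric group induced by the setwise stabiliser) of degree greater than `k` is `k`-transitive, and for a `k`-subset the setwise and pointwise stabilisers have the same orbits outside it. -/
theorem result {α : Type*} [Fintype α] [DecidableEq α] (G : Subgroup (Equiv.Perm α)) {k : ℕ} (hk : k < Fintype.card α) (hgen : ∀ s : Finset α, s.card = k + 1 → ∀ σ : Equiv.Perm ↥s, ∃ g ∈ G, ∀ x : ↥s, g (x : α) = σ x) : MulAction.IsMultiplyPretransitive G α k ∧ ∀ s : Finset α, s.card = k → ∀ a b : α, a ∉ s → b ∉ s → (∃ g ∈ G, g • s = s ∧ g a = b) → ∃ g ∈ G, (∀ x ∈ s, g x = x) ∧ g a = b := by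
  constructor
  · apply Cfsg.Agent.Lib.Perm.isMultiplyPretransitive_of_update (by rwa [Nat.card_eq_fintype_card])
    intro x i z hz
    -- the set `x(Fin k) ∪ {z}` has size `k + 1`
    let s : Finset α := insert z (Finset.univ.map x)
    have hzs : z ∉ Finset.univ.map x := by
      intro hh
      rw [Finset.mem_map] at hh
      obtain ⟨l, _, hl⟩ := hh
      exact hz ⟨l, hl⟩
    have hs : s.card = k + 1 := by
      rw [Finset.card_insert_of_notMem hzs, Finset.card_map, Finset.card_univ, Fintype.card_fin]
    have hxi : x i ∈ s := Finset.mem_insert_of_mem (Finset.mem_map_of_mem _ (Finset.mem_univ i))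
    have hzz : z ∈ s := Finset.mem_insert_self _ _
    obtain ⟨g, hg, hgs⟩ := hgen s hs (Equiv.swap ⟨x i, hxi⟩ ⟨z, hzz⟩)
    refine ⟨⟨g, hg⟩, ?_⟩
    ext j
    rw [Function.Embedding.smul_apply]
    have hxj : x j ∈ s := Finset.mem_insert_of_mem (Finset.mem_map_of_mem _ (Finset.mem_univ j))
    have h1 := hgs ⟨x j, hxj⟩
    change g (x j) = _
    rw [h1]
    by_cases hji : j = i
    · subst hji
      rw [Cfsg.Agent.Lib.Perm.updateEmb_same, Equiv.swap_apply_left]
    · rw [Cfsg.Agent.Lib.Perm.updateEmb_ne _ _ _ _ _ hji, Equiv.swap_apply_of_ne_of_ne]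
      · intro hh
        exact hji (x.injective (congrArg Subtype.val hh))
      · intro hh
        exact hz ⟨j, congrArg Subtype.val hh⟩
  · intro s hs a b ha hb ⟨g, hg, hgs, hgab⟩
    by_cases hab : a = b
    · exact ⟨1, G.one_mem, fun x _ => rfl, by simpa using hab⟩
    · -- the `(k+1)`-set `s ∪ {b}`
      let t : Finset α := insert b s
      have ht : t.card = k + 1 := by
        rw [Finset.card_insert_of_notMem hb, hs]
      -- `g⁻¹` maps `s` to `s`
      have hgs2 : ∀ x ∈ s, g.symm x ∈ s := by
        intro x hx
        have : x ∈ g • s := by rw [hgs]; exact hx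
        rw [Finset.mem_smul_finset] at this
        obtain ⟨y, hy, rfl⟩ := this
        have : g.symm (g • y) = y := by simp [Equiv.Perm.smul_def]
        rw [this]
        exact hy
      have hgs3 : ∀ x ∈ s, g x ∈ s := by
        intro x hx
        have : g • x ∈ g • s := Finset.smul_mem_smul_finset hx
        rwa [hgs] at this
      -- the permutation of `t` acting as `g⁻¹` on `s` and fixing `b`
      let σ : Equiv.Perm ↥t :=
        { toFun := fun x => if hx : (x : α) ∈ s then ⟨g.symm x, Finset.mem_insert_of_mem (hgs2 _ hx)⟩ else x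
          invFun := fun x => if hx : (x : α) ∈ s then ⟨g x, Finset.mem_insert_of_mem (hgs3 _ hx)⟩ else x
          left_inv := by
            intro x
            by_cases hx : (x : α) ∈ s
            · simp [hx, hgs2 _ hx]
            · simp [hx]
          right_inv := by
            intro x
            by_cases hx : (x : α) ∈ s
            · simp [hx, hgs3 _ hx]
            · simp [hx] }
      obtain ⟨h, hh, hσ⟩ := hgen t ht σ
      refine ⟨h * g, G.mul_mem hh hg, ?_, ?_⟩
      · intro x hx
        have h1 := hσ ⟨g x, Finset.mem_insert_of_mem (hgs3 x hx)⟩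
        simp only [Equiv.Perm.coe_mul, Function.comp_apply]
        rw [h1]
        simp [σ, hgs3 x hx]
      · have h1 := hσ ⟨b, Finset.mem_insert_self _ _⟩
        simp only [Equiv.Perm.coe_mul, Function.comp_apply]
        rw [hgab, h1]
        simp [σ, hb]

end Cfsg.Agent.S0705
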