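import Cfsg.Statements.S0707
import Mathlib

set_option autoImplicit false
open Cfsg

namespace Cfsg.Agent.S0707

/-- In a primitive permutation group, distinct points have distinct stabilisers unless the group is regular of prime degree. -/
theorem result {α : Type*} (G : Subgroup (Equiv.Perm α)) [MulAction.IsPreprimitive G α] (h : ¬ (Nat.card α).Prime ∨ ∃ a : α, MulAction.stabilizer G a ≠ ⊥) {a b : α} (hab : a ≠ b) : MulAction.stabilizer G a ≠ MulAction.stabilizer G b := by
  intro heq
  -- the set of points with the same stabiliser as `a` is a block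
  let B : Set α := {x | MulAction.stabilizer G x = MulAction.stabilizer G a}
  have hstab : ∀ (g : G) (x y : α), MulAction.stabilizer G x = MulAction.stabilizer G y →
      MulAction.stabilizer G (g • x) = MulAction.stabilizer G (g • y) := by
    intro g x y hxy
    ext u
    rw [MulAction.stabilizer_smul_eq_stabilizer_map_conj, MulAction.stabilizer_smul_eq_stabilizer_map_conj, hxy]
  have hB : MulAction.IsBlock G B := by
    rw [MulAction.isBlock_iff_smul_eq_smul_of_nonempty]
    rintro g₁ g₂ ⟨x, hx₁, hx₂⟩
    obtain ⟨y₁, hy₁, rfl⟩ := hx₁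
    obtain ⟨y₂, hy₂, hy⟩ := hx₂
    have key : MulAction.stabilizer G (g₁ • a) = MulAction.stabilizer G (g₂ • a) := by
      have e1 := hstab g₁ y₁ a hy₁
      have e2 := hstab g₂ y₂ a hy₂
      change g₂ • y₂ = g₁ • y₁ at hy
      rw [← e1, ← e2, hy]
    ext z
    constructor
    · rintro ⟨w, hw, rfl⟩
      refine ⟨g₂⁻¹ • g₁ • w, ?_, by simp⟩
      have e1 := hstab g₁ w a hw
      have : MulAction.stabilizer G (g₂⁻¹ • g₁ • w) = MulAction.stabilizer G (g₂⁻¹ • g₂ • a) :=
        hstab g₂⁻¹ _ _ (e1.trans key)
      rw [inv_smul_smul] at this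
      exact this
    · rintro ⟨w, hw, rfl⟩
      refine ⟨g₁⁻¹ • g₂ • w, ?_, by simp⟩
      have e1 := hstab g₂ w a hw
      have : MulAction.stabilizer G (g₁⁻¹ • g₂ • w) = MulAction.stabilizer G (g₁⁻¹ • g₁ • a) :=
        hstab g₁⁻¹ _ _ (e1.trans key.symm)
      rw [inv_smul_smul] at this
      exact this
  have htriv := MulAction.IsPreprimitive.isTrivialBlock_of_isBlock hB
  have huniv : B = Set.univ := by
    rcases htriv with hs | hu
    · exact absurd (hs (show a ∈ B from rfl) (show b ∈ B from heq.symm)) hab
    · exact hu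
  have hall : ∀ x : α, MulAction.stabilizer G x = MulAction.stabilizer G a := by
    intro x
    have : x ∈ B := huniv ▸ Set.mem_univ x
    exact this
  have hbot : MulAction.stabilizer G a = ⊥ := by
    rw [eq_bot_iff]
    intro g hg
    rw [Subgroup.mem_bot]
    apply Subtype.ext
    ext x
    have : g ∈ MulAction.stabilizer G x := by rw [hall x]; exact hg
    exact this
  have hbotall : ∀ x : α, MulAction.stabilizer G x = ⊥ := fun x => (hall x).trans hbot
  rcases h with h | ⟨z, hz⟩
  swap
  · exact hz (hbotall z)
  apply h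
  haveI : Nontrivial α := ⟨a, b, hab⟩
  have hco : IsCoatom (MulAction.stabilizer G a) :=
    (MulAction.isCoatom_stabilizer_iff_preprimitive G a).mpr inferInstance
  rw [hbot] at hco
  have hsub : ∀ K : Subgroup G, K = ⊥ ∨ K = ⊤ := by
    intro K
    by_cases hK : K = ⊤
    · exact Or.inr hK
    · left
      by_contra hK2
      exact hK (hco.2 K (bot_lt_iff_ne_bot.mpr hK2))
  -- `G` has no proper nontrivial subgroup
  have hcard : Nat.card α = Nat.card G := by
    have := MulAction.index_stabilizer_of_transitive G a
    rw [hbot, Subgroup.index_bot] at this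
    exact this.symm
  have hcomm : IsMulCommutative G := by
    have hnt : Nontrivial G := by
      by_contra hn
      rw [not_nontrivial_iff_subsingleton] at hn
      obtain ⟨g, hg⟩ := MulAction.exists_smul_eq G a b
      exact hab (by rw [← hg, Subsingleton.elim g 1, one_smul])
    obtain ⟨x, hx⟩ := exists_ne (1 : G)
    have : Subgroup.zpowers x = ⊤ := by
      rcases hsub (Subgroup.zpowers x) with h1 | h1
      · exact absurd (Subgroup.zpowers_eq_bot.mp h1) hx
      · exact h1
    have hcyc : IsCyclic G := ⟨⟨x, fun y => by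
      have : y ∈ Subgroup.zpowers x := by rw [this]; trivial
      exact this⟩⟩
    exact ⟨⟨fun u v => by
      have := hcyc.commGroup.mul_comm u v
      exact this⟩⟩
  have hsimple : IsSimpleGroup G := by
    have hnt : Nontrivial G := by
      by_contra hn
      rw [not_nontrivial_iff_subsingleton] at hn
      obtain ⟨g, hg⟩ := MulAction.exists_smul_eq G a b
      exact hab (by rw [← hg, Subsingleton.elim g 1, one_smul])
    exact ⟨fun K _ => hsub K⟩
  rw [hcard]
  exact Group.is_simple_iff_prime_card.mp hsimple

end Cfsg.Agent.S0707
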