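import Cfsg.Statements.S0710
import Cfsg.Agent.Lib.Perm.PGroupFix
import Mathlib

set_option autoImplicit false
open Cfsg

namespace Cfsg.Agent.S0710

/-- No transitive permutation group on 13 points has order `13 * 12 * 11 * 10 * 9 * 8`. -/
theorem result {α : Type*} [Fintype α] [DecidableEq α] (hα : Fintype.card α = 13) (G : Subgroup (Equiv.Perm α)) [MulAction.IsPretransitive G α] : Nat.card G ≠ 13 * 12 * 11 * 10 * 9 * 8 := by
  classical
  intro hG
  have : Fact (Nat.Prime 13) := ⟨by norm_num⟩
  obtain ⟨P⟩ : Nonempty (Sylow 13 G) := inferInstance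
  have hfact : (Nat.card G).factorization 13 = 1 := by
    rw [hG, show 13 * 12 * 11 * 10 * 9 * 8 = 13 * 95040 by norm_num,
      Nat.factorization_mul (by norm_num) (by norm_num), Finsupp.add_apply,
      Nat.Prime.factorization_self (by norm_num),
      Nat.factorization_eq_zero_of_not_dvd (by norm_num)]
  have hPcard : Nat.card P = 13 := by
    rw [P.card_eq_multiplicity, hfact, pow_one]
  have hcard' : Nat.card α = 13 ^ 1 := by rw [Nat.card_eq_fintype_card, hα, pow_one]
  have hPt : MulAction.IsPretransitive (P : Subgroup G) α :=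
    Cfsg.Agent.Perm.PGroupFix.sylow_isPretransitive hcard' P
  have hcyc : IsCyclic (P : Subgroup G) := isCyclic_of_prime_card (p := 13) hPcard
  have hidx := P.card_eq_index_normalizer
  have hmod := card_sylow_modEq_one 13 G
  set N := Subgroup.normalizer ((P : Subgroup G) : Set G) with hN
  set φ := (P : Subgroup G).normalizerMonoidHom with hφ
  have h1 : Nat.card N * N.index = Nat.card G := Subgroup.card_mul_index N
  have h2 : Nat.card φ.ker * φ.ker.index = Nat.card N := Subgroup.card_mul_index φ.ker
  rw [Subgroup.index_ker] at h2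
  have h3 : Nat.card φ.range ∣ 12 := by
    have := Subgroup.card_subgroup_dvd_card φ.range
    rw [hcyc.card_mulAut, show Nat.card (P : Subgroup G) = 13 from hPcard] at this
    simpa [Nat.totient_prime (show Nat.Prime 13 by norm_num)] using this
  have h4 : 13 ∣ Nat.card N := by
    have hle : (P : Subgroup G) ≤ N := Subgroup.le_normalizer
    have := Subgroup.card_dvd_of_le hle
    rwa [show Nat.card (P : Subgroup G) = 13 from hPcard] at this
  -- the kernel acts freely
  have hne : Nonempty α := by
    apply Fintype.card_pos_iff.mp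
    omega
  obtain ⟨a⟩ := hne
  have h5 : Nat.card φ.ker ≤ 13 := by
    have hinj : Function.Injective (fun k : φ.ker => (((k : N) : G) : Equiv.Perm α) a) := by
      rintro ⟨⟨⟨k₁, hk₁G⟩, hk₁N⟩, hk₁⟩ ⟨⟨⟨k₂, hk₂G⟩, hk₂N⟩, hk₂⟩ h
      simp only at h
      rw [Subgroup.normalizerMonoidHom_ker, Subgroup.mem_subgroupOf, Subgroup.mem_centralizer_iff]
        at hk₁ hk₂
      apply Subtype.ext
      apply Subtype.ext
      apply Subtype.ext
      ext x
      obtain ⟨p, hp⟩ := MulAction.exists_smul_eq (P : Subgroup G) a x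
      have hc₁ := congrArg (fun y : G => (y : Equiv.Perm α) a) (hk₁ (p : G) p.2)
      have hc₂ := congrArg (fun y : G => (y : Equiv.Perm α) a) (hk₂ (p : G) p.2)
      change (((p : G) : Equiv.Perm α) (k₁ a)) = k₁ (((p : G) : Equiv.Perm α) a) at hc₁
      change (((p : G) : Equiv.Perm α) (k₂ a)) = k₂ (((p : G) : Equiv.Perm α) a) at hc₂
      have hpa : ((p : G) : Equiv.Perm α) a = x := hp
      rw [hpa] at hc₁ hc₂
      change k₁ a = k₂ a at h
      change k₁ x = k₂ x
      rw [← hc₁, ← hc₂, h]
    have := Nat.card_le_card_of_injective _ hinj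
    rw [Nat.card_eq_fintype_card (α := α), hα] at this
    exact this
  have hkpos : 0 < Nat.card φ.ker := Nat.card_pos
  have hrpos : 0 < Nat.card φ.range := Nat.card_pos
  have hrle : Nat.card φ.range ≤ 12 := Nat.le_of_dvd (by norm_num) h3
  generalize Nat.card φ.range = m at *
  generalize Nat.card φ.ker = r at *
  have h6 : 13 ∣ r := by
    rw [← h2] at h4
    rcases (Nat.Prime.dvd_mul (by norm_num)).mp h4 with h | h
    · exact h
    · have := Nat.le_of_dvd hrpos h
      omega
  have hr13 : r = 13 := by
    obtain ⟨c, hc⟩ := h6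
    omega
  rw [hr13] at h2
  rw [← h2, hG, show N.index = Nat.card (Sylow 13 G) from hidx.symm] at h1
  have hmod' : Nat.card (Sylow 13 G) % 13 = 1 := hmod
  generalize Nat.card (Sylow 13 G) = n at *
  have hm12 : m = 1 ∨ m = 2 ∨ m = 3 ∨ m = 4 ∨ m = 6 ∨ m = 12 := by
    interval_cases m <;> omega
  rcases hm12 with rfl | rfl | rfl | rfl | rfl | rfl <;> omega

end Cfsg.Agent.S0710
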