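import Cfsg.Statements.S0711
import Cfsg.Agent.Lib.Perm.MinDegree
import Mathlib

set_option autoImplicit false
open Cfsg

namespace Cfsg.Agent.S0711

/-- A `k`-transitive permutation group (`k ≥ 3`) with a non-identity element of support smaller than `2k - 2` contains a non-identity element of support at most 3, and therefore contains the alternating group. -/
theorem result {α : Type*} [Fintype α] [DecidableEq α] (G : Subgroup (Equiv.Perm α)) {k : ℕ} (hk : 3 ≤ k) (hkn : k ≤ Fintype.card α) (hG : MulAction.IsMultiplyPretransitive G α k) (g : Equiv.Perm α) (hg : g ∈ G) (hg1 : g ≠ 1) (hsupp : g.support.card < 2 * k - 2) : (∃ h : Equiv.Perm α, h ∈ G ∧ h ≠ 1 ∧ h.support.card ≤ 3) ∧ alternatingGroup α ≤ G := by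
  classical
  obtain ⟨h, hhG, hh1, hh3⟩ := Cfsg.Agent.Lib.Perm.minDegree_core hk hkn hG g hg hg1 hsupp
  refine ⟨⟨h, hhG, hh1, hh3⟩, ?_⟩
  have h2 : MulAction.IsMultiplyPretransitive G α 2 :=
    MulAction.isMultiplyPretransitive_of_le (n := k) (by omega) (by rwa [Nat.card_eq_fintype_card])
  have hprim : MulAction.IsPreprimitive G α := MulAction.isPreprimitive_of_is_two_pretransitive h2
  have hne1 := Equiv.Perm.card_support_ne_one h
  have hle1 : ¬ h.support.card ≤ 1 := fun hc => hh1 (Equiv.Perm.card_support_le_one.mp hc)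
  have hcases : h.support.card = 2 ∨ h.support.card = 3 := by omega
  rcases hcases with h2' | h3'
  · have hsw := Equiv.Perm.card_support_eq_two.mp h2'
    have htop := Equiv.Perm.subgroup_eq_top_of_isPreprimitive_of_isSwap_mem hprim h hsw hhG
    rw [htop]
    exact le_top
  · have h3c : h.IsThreeCycle := card_support_eq_three_iff.mp h3'
    exact Equiv.Perm.alternatingGroup_le_of_isPreprimitive_of_isThreeCycle_mem hprim h3c hhG

end Cfsg.Agent.S0711
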