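import Cfsg.Statements.S0712
import Cfsg.Agent.Lib.Perm.Tuples
import Mathlib

set_option autoImplicit false
open Cfsg

namespace Cfsg.Agent.S0712

open MulAction SubMulAction

/-- Jordan: a primitive group in which the pointwise stabiliser of a set `s` is doubly transitive on the complement of `s` (which has at least 2 points) is `(|s| + 2)`-transitive. -/
theorem result {α : Type*} [Fintype α] [DecidableEq α] (G : Subgroup (Equiv.Perm α)) (hG : MulAction.IsPreprimitive G α) (s : Set α) {m : ℕ} (hsm : s.ncard = m) (hm : m + 2 ≤ Fintype.card α) (h2 : MulAction.IsMultiplyPretransitive (fixingSubgroup G s) (SubMulAction.ofFixingSubgroup G s) 2) : MulAction.IsMultiplyPretransitive G α (m + 2) := by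
  subst hsm
  have hcard : Nat.card α = Fintype.card α := Nat.card_eq_fintype_card
  rcases Nat.eq_zero_or_pos s.ncard with h0 | hpos
  · -- `s` is empty
    have hs : s = ∅ := (Set.ncard_eq_zero (Set.toFinite s)).mp h0
    subst hs
    rw [h0, zero_add]
    exact (IsPretransitive.of_embedding_congr
      of_fixingSubgroupEmpty_mapScalars_surjective
      ofFixingSubgroupEmpty_equivariantMap_bijective).mp h2
  · obtain ⟨n, hn⟩ := Nat.exists_eq_succ_of_ne_zero hpos.ne'
    have hprim : IsPreprimitive (fixingSubgroup G s) (ofFixingSubgroup G s) :=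
      isPreprimitive_of_is_two_pretransitive h2
    have hmp : IsMultiplyPreprimitive G α (n + 2) :=
      hG.isMultiplyPreprimitive hn (by rw [hcard]; omega) hprim
    have hmt : IsMultiplyPretransitive G α (n + 2) := hmp.isMultiplyPretransitive
    have hmt' : IsMultiplyPretransitive G α s.ncard :=
      isMultiplyPretransitive_of_le (n := n + 2) (by omega) (by rw [hcard]; omega)
    exact Cfsg.Agent.Lib.Perm.isMultiplyPretransitive_add_fixing s hmt' h2

end Cfsg.Agent.S0712
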