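import Cfsg.Statements.S0714
import Cfsg.Agent.Lib.Perm.PermModule
import Mathlib

set_option autoImplicit false
open Cfsg

namespace Cfsg.Agent.S0714

open Equiv Equiv.Perm

variable {α : Type*} [Fintype α] [DecidableEq α] {K : Type*} [Field K]

lemma swap2_mem {x y d e : α} (hxy : x ≠ y) (hde : d ≠ e) :
    swap x y * swap d e ∈ alternatingGroup α := by
  rw [Equiv.Perm.mem_alternatingGroup, Equiv.Perm.sign_mul, Equiv.Perm.sign_swap hxy,
    Equiv.Perm.sign_swap hde]
  rfl

lemma rep_apply (σ : Equiv.Perm α) (hσ : σ ∈ alternatingGroup α) (f : α → K) (w : α) :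
    Cfsg.permRep K (alternatingGroup α) α ⟨σ, hσ⟩ f w = f (σ⁻¹ w) := rfl

/-- The step with two different values. -/
lemma pair_step (W : Subrepresentation (Cfsg.permRep K (alternatingGroup α) α)) {u : α → K}
    {x y z d e : α} (hu : u ∈ W.toSubmodule) (hsupp : ∀ w, w ≠ x → w ≠ y → w ≠ z → u w = 0)
    (hval : u x ≠ u y) (hne : x ≠ y) (hdx : d ≠ x) (hdy : d ≠ y) (hdz : d ≠ z) (hex : e ≠ x)
    (hey : e ≠ y) (hez : e ≠ z) (hde : d ≠ e) :
    Cfsg.Agent.Perm.PermModule.delta K x - Cfsg.Agent.Perm.PermModule.delta K y ∈ W.toSubmodule := by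
  set τ := swap x y * swap d e with hτ
  have hτm : τ ∈ alternatingGroup α := swap2_mem hne hde
  have hv : u - Cfsg.permRep K (alternatingGroup α) α ⟨τ, hτm⟩ u ∈ W.toSubmodule :=
    W.toSubmodule.sub_mem hu (W.apply_mem_toSubmodule _ hu)
  have hτinv : τ⁻¹ = swap d e * swap x y := by
    rw [hτ, mul_inv_rev, swap_inv, swap_inv]
  have heq : u - Cfsg.permRep K (alternatingGroup α) α ⟨τ, hτm⟩ u =
      (u x - u y) • (Cfsg.Agent.Perm.PermModule.delta K x - Cfsg.Agent.Perm.PermModule.delta K y) := by
    ext w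
    rw [Pi.sub_apply, rep_apply, hτinv, Pi.smul_apply, Pi.sub_apply, smul_eq_mul]
    simp only [Cfsg.Agent.Perm.PermModule.delta, Equiv.Perm.coe_mul, Function.comp_apply]
    by_cases hwx : w = x
    · subst hwx
      rw [swap_apply_left, swap_apply_of_ne_of_ne (Ne.symm hdy) (Ne.symm hey)]
      simp [hne]
    by_cases hwy : w = y
    · subst hwy
      rw [swap_apply_right, swap_apply_of_ne_of_ne (Ne.symm hdx) (Ne.symm hex)]
      simp [Ne.symm hne]
    rw [swap_apply_of_ne_of_ne hwx hwy]
    by_cases hwd : w = d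
    · subst hwd
      rw [swap_apply_left, hsupp _ hdx hdy hdz, hsupp _ hex hey hez]
      simp [Pi.single_apply, hwx, hwy]
    by_cases hwe : w = e
    · subst hwe
      rw [swap_apply_right, hsupp _ hdx hdy hdz, hsupp _ hex hey hez]
      simp [Pi.single_apply, hwx, hwy]
    rw [swap_apply_of_ne_of_ne hwd hwe]
    simp [Pi.single_apply, hwx, hwy]
  rw [heq] at hv
  exact (W.toSubmodule.smul_mem_iff (sub_ne_zero.mpr hval)).mp hv

/-- The step with three equal values. -/
lemma triple_step (W : Subrepresentation (Cfsg.permRep K (alternatingGroup α) α)) {u : α → K}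
    {a b c d e : α} (hu : u ∈ W.toSubmodule) (hsupp : ∀ w, w ≠ a → w ≠ b → w ≠ c → u w = 0)
    (hab : u a = u b) (hac : u a = u c) (hne : u a ≠ 0) (hda : d ≠ a) (hdb : d ≠ b) (hdc : d ≠ c)
    (hea : e ≠ a) (heb : e ≠ b) (hec : e ≠ c) (hde : d ≠ e) :
    Cfsg.Agent.Perm.PermModule.delta K a - Cfsg.Agent.Perm.PermModule.delta K d ∈ W.toSubmodule := by
  set τ := swap a d * swap d e with hτ
  have hτm : τ ∈ alternatingGroup α := swap2_mem (Ne.symm hda) hde
  have hv : u - Cfsg.permRep K (alternatingGroup α) α ⟨τ, hτm⟩ u ∈ W.toSubmodule :=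
    W.toSubmodule.sub_mem hu (W.apply_mem_toSubmodule _ hu)
  have hτinv : τ⁻¹ = swap d e * swap a d := by
    rw [hτ, mul_inv_rev, swap_inv, swap_inv]
  have hud : u d = 0 := hsupp _ hda hdb hdc
  have hue : u e = 0 := hsupp _ hea heb hec
  have heq : u - Cfsg.permRep K (alternatingGroup α) α ⟨τ, hτm⟩ u =
      (u a) • (Cfsg.Agent.Perm.PermModule.delta K a - Cfsg.Agent.Perm.PermModule.delta K d) := by
    ext w
    rw [Pi.sub_apply, rep_apply, hτinv, Pi.smul_apply, Pi.sub_apply, smul_eq_mul]
    simp only [Cfsg.Agent.Perm.PermModule.delta, Equiv.Perm.coe_mul, Function.comp_apply]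
    by_cases hwa : w = a
    · subst hwa
      rw [swap_apply_left, swap_apply_left, hue]
      simp [Ne.symm hda]
    by_cases hwd : w = d
    · subst hwd
      rw [swap_apply_right, swap_apply_of_ne_of_ne (Ne.symm hda) (Ne.symm hea), hud]
      simp [hda]
    rw [swap_apply_of_ne_of_ne hwa hwd]
    by_cases hwe : w = e
    · subst hwe
      rw [swap_apply_right, hud, hue]
      simp [Pi.single_apply, hwa, hwd]
    rw [swap_apply_of_ne_of_ne hwd hwe]
    simp [Pi.single_apply, hwa, hwd]
  rw [heq] at hv
  exact (W.toSubmodule.smul_mem_iff hne).mp hv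

/-- Existence of a difference of delta functions. -/
lemma exists_delta (hα : 5 ≤ Fintype.card α)
    (W : Subrepresentation (Cfsg.permRep K (alternatingGroup α) α)) {f : α → K}
    (hf : f ∈ W.toSubmodule) {a b : α} (hab : a ≠ b) (hval : f a ≠ f b) :
    ∃ x y : α, x ≠ y ∧ Cfsg.Agent.Perm.PermModule.delta K x - Cfsg.Agent.Perm.PermModule.delta K y ∈ W.toSubmodule := by
  classical
  obtain ⟨c, hc⟩ : ∃ c, c ∉ ({a, b} : Finset α) := by
    by_contra hcon
    push Not at hcon
    have : (Finset.univ : Finset α) ⊆ {a, b} := fun x _ => hcon x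
    have h1 := Finset.card_le_card this
    have h2 : ({a, b} : Finset α).card ≤ 2 := Finset.card_le_two
    rw [Finset.card_univ] at h1
    omega
  obtain ⟨d, hd⟩ : ∃ d, d ∉ ({a, b, c} : Finset α) := by
    by_contra hcon
    push Not at hcon
    have : (Finset.univ : Finset α) ⊆ {a, b, c} := fun x _ => hcon x
    have h1 := Finset.card_le_card this
    have h2 : ({a, b, c} : Finset α).card ≤ 3 := Finset.card_le_three
    rw [Finset.card_univ] at h1
    omega
  obtain ⟨e, he⟩ : ∃ e, e ∉ ({a, b, c, d} : Finset α) := by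
    by_contra hcon
    push Not at hcon
    have : (Finset.univ : Finset α) ⊆ {a, b, c, d} := fun x _ => hcon x
    have h1 := Finset.card_le_card this
    have h2 : ({a, b, c, d} : Finset α).card ≤ 4 := Finset.card_le_four
    rw [Finset.card_univ] at h1
    omega
  simp only [Finset.mem_insert, Finset.mem_singleton, not_or] at hc hd he
  obtain ⟨hca, hcb⟩ := hc
  obtain ⟨hda, hdb, hdc⟩ := hd
  obtain ⟨hea, heb, hec, hed⟩ := he
  -- the 3-cycle
  set σ := swap a b * swap b c with hσ
  have hσm : σ ∈ alternatingGroup α := swap2_mem hab (Ne.symm hcb)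
  set u := f - Cfsg.permRep K (alternatingGroup α) α ⟨σ, hσm⟩ f with hu
  have huW : u ∈ W.toSubmodule := W.toSubmodule.sub_mem hf (W.apply_mem_toSubmodule _ hf)
  have hσinv : σ⁻¹ = swap b c * swap a b := by
    rw [hσ, mul_inv_rev, swap_inv, swap_inv]
  have hsupp : ∀ w, w ≠ a → w ≠ b → w ≠ c → u w = 0 := by
    intro w h1 h2 h3
    rw [hu, Pi.sub_apply, rep_apply, hσinv]
    simp only [Equiv.Perm.coe_mul, Function.comp_apply]
    rw [swap_apply_of_ne_of_ne h1 h2, swap_apply_of_ne_of_ne h2 h3, sub_self]
  have hub : u b ≠ 0 := by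
    rw [hu, Pi.sub_apply, rep_apply, hσinv]
    simp only [Equiv.Perm.coe_mul, Function.comp_apply]
    rw [swap_apply_right, swap_apply_of_ne_of_ne hab (Ne.symm hca)]
    exact sub_ne_zero.mpr (Ne.symm hval)
  by_cases h1 : u a = u b
  · by_cases h2 : u a = u c
    · exact ⟨a, d, Ne.symm hda, triple_step W huW hsupp h1 h2 (h1 ▸ hub) hda hdb hdc hea heb hec (Ne.symm hed)⟩
    · refine ⟨a, c, Ne.symm hca, pair_step W huW (z := b) (d := d) (e := e) ?_ h2 (Ne.symm hca) hda hdc hdb hea hec heb (Ne.symm hed)⟩
      intro w h3 h4 h5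
      exact hsupp w h3 h5 h4
  · exact ⟨a, b, hab, pair_step W huW (z := c) (d := d) (e := e) hsupp h1 hab hda hdb hdc hea heb hec (Ne.symm hed)⟩

/-- All differences of delta functions. -/
lemma all_delta (hα : 5 ≤ Fintype.card α)
    (W : Subrepresentation (Cfsg.permRep K (alternatingGroup α) α)) {x₀ y₀ : α} (hne : x₀ ≠ y₀)
    (h : Cfsg.Agent.Perm.PermModule.delta K x₀ - Cfsg.Agent.Perm.PermModule.delta K y₀ ∈ W.toSubmodule)
    {x y : α} (hxy : x ≠ y) :
    Cfsg.Agent.Perm.PermModule.delta K x - Cfsg.Agent.Perm.PermModule.delta K y ∈ W.toSubmodule := by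
  have h2 : MulAction.IsMultiplyPretransitive (alternatingGroup α) α 2 := by
    haveI := alternatingGroup.isMultiplyPretransitive α
    exact MulAction.isMultiplyPretransitive_of_le (n := Nat.card α - 2)
      (by rw [Nat.card_eq_fintype_card]; omega) (Nat.sub_le _ _)
  obtain ⟨g, hg1, hg2⟩ := MulAction.is_two_pretransitive_iff.mp h2 hne hxy
  have := W.apply_mem_toSubmodule g h
  rw [map_sub, Cfsg.Agent.Perm.PermModule.permRep_delta, Cfsg.Agent.Perm.PermModule.permRep_delta, hg1, hg2] at this
  exact this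

/-- Over any field, the permutation module of the alternating group of degree at least 5 has exactly four invariant subspaces: zero, the constant functions, the functions with coordinate sum zero, and everything. -/
theorem result {α : Type*} [Fintype α] [DecidableEq α] (hα : 5 ≤ Fintype.card α) {K : Type*} [Field K] (W : Subrepresentation (Cfsg.permRep K (alternatingGroup α) α)) : W.toSubmodule = ⊥ ∨ W = Cfsg.permConstants K (alternatingGroup α) α ∨ W = Cfsg.permSumZero K (alternatingGroup α) α ∨ W.toSubmodule = ⊤ := by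
  classical
  by_cases hc : W.toSubmodule ≤ (Cfsg.permConstants K (alternatingGroup α) α).toSubmodule
  · -- inside the constants
    by_cases hb : W.toSubmodule = ⊥
    · exact Or.inl hb
    · right; left
      apply Subrepresentation.toSubmodule_injective
      refine le_antisymm hc ?_
      obtain ⟨f, hf, hf0⟩ := Submodule.exists_mem_ne_zero_of_ne_bot hb
      have h1 := hc hf
      change f ∈ Submodule.span K {fun _ : α => (1 : K)} at h1
      rw [Submodule.mem_span_singleton] at h1
      obtain ⟨c, rfl⟩ := h1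
      have hc0 : c ≠ 0 := by
        rintro rfl
        simp at hf0
      have hone : (fun _ : α => (1 : K)) ∈ W.toSubmodule := (W.toSubmodule.smul_mem_iff hc0).mp hf
      change Submodule.span K {fun _ : α => (1 : K)} ≤ _
      rw [Submodule.span_singleton_le_iff_mem]
      exact hone
  · right; right
    obtain ⟨f, hf, hfc⟩ := SetLike.not_le_iff_exists.mp hc
    -- a nonconstant function
    have hnon : ∃ a b : α, a ≠ b ∧ f a ≠ f b := by
      by_contra hcon
      push Not at hcon
      apply hfc
      change f ∈ Submodule.span K {fun _ : α => (1 : K)}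
      rw [Submodule.mem_span_singleton]
      have hne : Nonempty α := Fintype.card_pos_iff.mp (by omega)
      obtain ⟨a⟩ := hne
      refine ⟨f a, funext fun x => ?_⟩
      by_cases hx : a = x
      · simp [hx]
      · simp [hcon a x hx]
    obtain ⟨a, b, hab, hval⟩ := hnon
    obtain ⟨x₀, y₀, hne, hd⟩ := exists_delta hα W hf hab hval
    have hall : ∀ x y : α, Cfsg.Agent.Perm.PermModule.delta K x - Cfsg.Agent.Perm.PermModule.delta K y ∈ W.toSubmodule := by
      intro x y
      by_cases hxy : x = y
      · subst hxy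
        simp
      · exact all_delta hα W hne hd hxy
    have hsz : (Cfsg.permSumZero K (alternatingGroup α) α).toSubmodule ≤ W.toSubmodule := by
      intro g hg
      have hg' : ∑ x, g x = 0 := hg
      have h1 : g = ∑ x, g x • (Cfsg.Agent.Perm.PermModule.delta K x - Cfsg.Agent.Perm.PermModule.delta K x₀) := by
        have h2 := Cfsg.Agent.Perm.PermModule.sum_delta (K := K) g
        simp only [smul_sub, Finset.sum_sub_distrib, ← Finset.sum_smul, hg', zero_smul, sub_zero]
        exact h2
      rw [h1]
      exact W.toSubmodule.sum_mem fun x _ => W.toSubmodule.smul_mem _ (hall x x₀)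
    by_cases hle : W.toSubmodule ≤ (Cfsg.permSumZero K (alternatingGroup α) α).toSubmodule
    · left
      exact Subrepresentation.toSubmodule_injective (le_antisymm hle hsz)
    · right
      obtain ⟨f₁, hf₁, hf₁s⟩ := SetLike.not_le_iff_exists.mp hle
      have hsum : ∑ x, f₁ x ≠ 0 := hf₁s
      rw [eq_top_iff]
      intro g _
      set r := (∑ x, g x) / ∑ x, f₁ x with hr
      have hdiff : g - r • f₁ ∈ W.toSubmodule := by
        apply hsz
        change ∑ x, (g - r • f₁) x = 0
        simp only [Pi.sub_apply, Pi.smul_apply, smul_eq_mul, Finset.sum_sub_distrib, ← Finset.mul_sum]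
        rw [hr]
        field_simp
        simp
      have := W.toSubmodule.add_mem hdiff (W.toSubmodule.smul_mem r hf₁)
      simpa using this

end Cfsg.Agent.S0714
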