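import Cfsg.Statements.S0720
import Cfsg.Agent.Lib.Perm.TwoPFinal
import Cfsg.Agent.Lib.Perm.Wielandt
import Mathlib

set_option autoImplicit false
open Cfsg

namespace Cfsg.Agent.S0720

open Cfsg.Agent.Lib.Perm in
/-- Labelling of the points by the two cycles of a fixed point free element of order `p`. -/
theorem exists_data {α : Type*} [Fintype α] [DecidableEq α] {p : ℕ} [hp : Fact p.Prime]
    {G : Subgroup (Equiv.Perm α)} {x : Equiv.Perm α} (hx : x ∈ G) (hord : orderOf x = p)
    (hfree : ∀ a, x a ≠ a) (hcard : Fintype.card α = 2 * p) (a₀ : α) :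
    ∃ D : TpData p G, D.pt (true, 0) = a₀ := by
  classical
  have hp1 := hp.out.one_lt
  have hfix : ∀ (k : ℕ) (a : α), (x ^ k) a = a → p ∣ k := by
    intro k a hk
    by_contra hnd
    have hcop : Nat.Coprime k p := ((Nat.Prime.coprime_iff_not_dvd hp.out).mpr hnd).symm
    obtain ⟨u, -, hu⟩ := Nat.exists_mul_mod_eq_one_of_coprime hcop hp1
    have h1 : ((x ^ k) ^ u) a = a := Equiv.Perm.pow_apply_eq_self_of_apply_eq_self hk u
    rw [← pow_mul] at h1
    have h2 : x ^ (k * u) = x := by
      rw [← pow_mod_orderOf, hord, hu, pow_one]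
    rw [h2] at h1
    exact hfree a h1
  have hpow : ∀ i : ZMod p, x * x ^ i.val = x ^ (i + 1).val := by
    intro i
    rw [← pow_succ']
    apply pow_eq_pow_iff_modEq.mpr
    rw [hord, ZMod.val_add, ZMod.val_one]
    exact (Nat.mod_modEq _ _).symm
  obtain ⟨a₂, ha₂⟩ : ∃ a₂, a₂ ∉ (Finset.univ.image fun i : ZMod p => (x ^ i.val) a₀) := by
    by_contra hcon
    push Not at hcon
    have h1 : (Finset.univ : Finset α) ⊆ Finset.univ.image fun i : ZMod p => (x ^ i.val) a₀ :=
      fun a _ => hcon a
    have h2 := Finset.card_le_card h1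
    have h3 := Finset.card_image_le (s := (Finset.univ : Finset (ZMod p)))
      (f := fun i : ZMod p => (x ^ i.val) a₀)
    simp only [Finset.card_univ, ZMod.card] at h3 h2
    rw [hcard] at h2
    omega
  have ha₂' : ∀ n : ℕ, (x ^ n) a₀ ≠ a₂ := by
    intro n h
    apply ha₂
    rw [← h]
    have h4 : x ^ n = x ^ ((n : ZMod p)).val := by
      apply pow_eq_pow_iff_modEq.mpr
      rw [hord, ZMod.val_natCast]
      exact (Nat.mod_modEq _ _).symm
    rw [h4]
    exact Finset.mem_image_of_mem _ (Finset.mem_univ _)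
  let f : Bool × ZMod p → α := fun q => (x ^ q.2.val) (if q.1 then a₀ else a₂)
  have hne : ∀ i j : ZMod p, (x ^ i.val) a₀ ≠ (x ^ j.val) a₂ := by
    intro i j h
    have hj := ZMod.val_lt j
    have h1 : (x ^ (p - j.val + i.val)) a₀ = a₂ := by
      rw [pow_add, Equiv.Perm.mul_apply, h, ← Equiv.Perm.mul_apply, ← pow_add,
        Nat.sub_add_cancel hj.le, ← hord, pow_orderOf_eq_one]
      rfl
    exact ha₂' _ h1
  have hsame' : ∀ (a : α) (i j : ZMod p), i.val ≤ j.val → (x ^ i.val) a = (x ^ j.val) a → i = j := by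
    intro a i j hij h
    have h1 : (x ^ (j.val - i.val)) a = a := by
      have h2 : x ^ j.val = x ^ i.val * x ^ (j.val - i.val) := by
        rw [← pow_add, Nat.add_sub_cancel' hij]
      rw [h2, Equiv.Perm.mul_apply] at h
      exact ((x ^ i.val).injective h).symm
    have h2 := hfix _ _ h1
    have hj := ZMod.val_lt j
    have h3 : j.val - i.val = 0 := Nat.eq_zero_of_dvd_of_lt h2 (by omega)
    apply ZMod.val_injective
    omega
  have hsame : ∀ (a : α) (i j : ZMod p), (x ^ i.val) a = (x ^ j.val) a → i = j := by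
    intro a i j h
    rcases le_total i.val j.val with hij | hij
    · exact hsame' a i j hij h
    · exact (hsame' a j i hij h.symm).symm
  have hinj : Function.Injective f := by
    rintro ⟨s, i⟩ ⟨t, j⟩ h
    simp only [f] at h
    cases s <;> cases t
    · simp only [Bool.false_eq_true, if_false] at h
      rw [hsame _ _ _ h]
    · simp only [Bool.false_eq_true, if_false, if_true] at h
      exact absurd h.symm (hne _ _)
    · simp only [Bool.false_eq_true, if_false, if_true] at h
      exact absurd h (hne _ _)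
    · simp only [if_true] at h
      rw [hsame _ _ _ h]
  have hbij : Function.Bijective f := by
    rw [Fintype.bijective_iff_injective_and_card]
    refine ⟨hinj, ?_⟩
    rw [Fintype.card_prod, Fintype.card_bool, ZMod.card, hcard]
  refine ⟨⟨Equiv.ofBijective f hbij, x, hx, ?_⟩, ?_⟩
  · rintro s i
    simp only [Equiv.ofBijective_apply, f]
    rw [← Equiv.Perm.mul_apply, hpow]
  · simp [f]

/-- Degree four. -/
theorem deg_four {α : Type*} [Fintype α] [DecidableEq α] (hα : Fintype.card α = 4)
    (G : Subgroup (Equiv.Perm α)) (hG : MulAction.IsPreprimitive G α) :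
    MulAction.IsMultiplyPretransitive G α 2 := by
  classical
  have hpre : MulAction.IsPretransitive G α := hG.toIsPretransitive
  apply Cfsg.Agent.Lib.Perm.tp_two_trans G hpre
  intro a₀ b v hb hv
  by_contra hcon
  push Not at hcon
  -- some point is fixed by the stabiliser
  have hbv : b ≠ v := by
    rintro rfl
    exact hcon 1 G.one_mem rfl rfl
  obtain ⟨c, hc, hcfix⟩ : ∃ c, c ≠ a₀ ∧ ∀ h ∈ MulAction.stabilizer G a₀, h • c = c := by
    by_contra hno
    push Not at hno
    obtain ⟨h₁, hh₁, hb₁⟩ := hno b hb.symm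
    obtain ⟨h₂, hh₂, hv₂⟩ := hno v hv.symm
    have hh₁' : (h₁ : Equiv.Perm α) a₀ = a₀ := hh₁
    have hh₂' : (h₂ : Equiv.Perm α) a₀ = a₀ := hh₂
    have hb₁' : (h₁ : Equiv.Perm α) b ≠ b := hb₁
    have hv₂' : (h₂ : Equiv.Perm α) v ≠ v := hv₂
    set S : Finset α := {a₀, b, v} with hS
    have hScard : S.card = 3 := by
      rw [hS, Finset.card_insert_of_notMem, Finset.card_insert_of_notMem, Finset.card_singleton]
      · simpa using hbv
      · simp [hb, hv]
    have hcompl : Sᶜ.card = 1 := by
      rw [Finset.card_compl, hScard, hα]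
    have hm1 : (h₁ : Equiv.Perm α) b ∈ Sᶜ := by
      simp only [hS, Finset.mem_compl, Finset.mem_insert, Finset.mem_singleton, not_or]
      refine ⟨?_, hb₁', hcon _ h₁.2 hh₁'⟩
      intro h
      rw [← hh₁'] at h
      exact hb ((h₁ : Equiv.Perm α).injective h).symm
    have hm2 : (h₂ : Equiv.Perm α) v ∈ Sᶜ := by
      simp only [hS, Finset.mem_compl, Finset.mem_insert, Finset.mem_singleton, not_or]
      refine ⟨?_, ?_, hv₂'⟩
      · intro h
        rw [← hh₂'] at h
        exact hv ((h₂ : Equiv.Perm α).injective h).symm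
      · intro h
        apply hcon (h₂ : Equiv.Perm α)⁻¹ (G.inv_mem h₂.2)
        · rw [Equiv.Perm.inv_eq_iff_eq]
          exact hh₂'.symm
        · rw [Equiv.Perm.inv_eq_iff_eq]
          exact h.symm
    have heq := Finset.card_le_one.mp hcompl.le _ hm1 _ hm2
    apply hcon ((h₂ : Equiv.Perm α)⁻¹ * h₁) (G.mul_mem (G.inv_mem h₂.2) h₁.2)
    · rw [Equiv.Perm.mul_apply, hh₁', Equiv.Perm.inv_eq_iff_eq]
      exact hh₂'.symm
    · rw [Equiv.Perm.mul_apply, heq]
      simp
  have hall := Cfsg.Agent.Lib.Perm.fixed_of_prim hG a₀ c hc hcfix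
  have htriv : ∀ g : G, g • a₀ = a₀ → g = 1 := by
    intro g hg
    apply Subtype.ext
    apply Equiv.ext
    intro z
    exact hall z g hg
  have h1 : Nat.card α ∣ Nat.card G := by
    rw [← MulAction.index_stabilizer_of_transitive G a₀]
    exact Subgroup.index_dvd_card _
  have h2 : 2 ∣ Nat.card G := by
    rw [Nat.card_eq_fintype_card, hα] at h1
    exact dvd_trans (by norm_num) h1
  haveI : Fact (Nat.Prime 2) := ⟨Nat.prime_two⟩
  obtain ⟨x, hx⟩ := exists_prime_orderOf_dvd_card' 2 h2
  have hx1 : x ≠ 1 := by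
    rintro rfl
    simp at hx
  have hxa : x • a₀ ≠ a₀ := fun h => hx1 (htriv x h)
  have hle : MulAction.stabilizer G a₀ ≤ Subgroup.zpowers x := by
    intro g hg
    rw [htriv g hg]
    exact Subgroup.one_mem _
  have hblock := MulAction.IsBlock.of_orbit (G := G) (H := Subgroup.zpowers x) (a := a₀) hle
  have hmem : x • a₀ ∈ MulAction.orbit (Subgroup.zpowers x) a₀ :=
    ⟨⟨x, Subgroup.mem_zpowers x⟩, rfl⟩
  have hmem0 : a₀ ∈ MulAction.orbit (Subgroup.zpowers x) a₀ := MulAction.mem_orbit_self a₀
  rcases hG.isTrivialBlock_of_isBlock hblock with h | h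
  · exact hxa (h hmem hmem0)
  · have h3 : Nat.card (MulAction.orbit (Subgroup.zpowers x) a₀) ≤ Nat.card (Subgroup.zpowers x) := by
      apply Nat.card_le_card_of_surjective (fun h : Subgroup.zpowers x =>
        (⟨h • a₀, MulAction.mem_orbit a₀ h⟩ : MulAction.orbit (Subgroup.zpowers x) a₀))
      rintro ⟨_, h, rfl⟩
      exact ⟨h, rfl⟩
    rw [Nat.card_zpowers, hx, h, Nat.card_coe_set_eq, Set.ncard_univ, Nat.card_eq_fintype_card, hα] at h3
    omega

/-- Wielandt's Theorem on primitive groups of degree `2p`: such a group is doubly transitive, or it has rank 3, `p = 2a² + 2a + 1`, and subdegrees `a(2a+1)` and `(a+1)(2a+1)`. -/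
theorem result {α : Type*} [Fintype α] [DecidableEq α] {p : ℕ} (hp : p.Prime) (hα : Fintype.card α = 2 * p) (G : Subgroup (Equiv.Perm α)) (hG : MulAction.IsPreprimitive G α) (a₀ : α) : MulAction.IsMultiplyPretransitive G α 2 ∨ (Nat.card (MulAction.orbitRel.Quotient (MulAction.stabilizer G a₀) α) = 3 ∧ ∃ a : ℕ, 0 < a ∧ p = 2 * a ^ 2 + 2 * a + 1 ∧ ∀ b : α, b ≠ a₀ → Nat.card (MulAction.orbit (MulAction.stabilizer G a₀) b) = a * (2 * a + 1) ∨ Nat.card (MulAction.orbit (MulAction.stabilizer G a₀) b) = (a + 1) * (2 * a + 1)) := by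
  classical
  haveI : Fact p.Prime := ⟨hp⟩
  rcases hp.eq_two_or_odd' with rfl | hodd
  · exact Or.inl (deg_four hα G hG)
  have hp3 : 3 ≤ p := by
    have := hp.two_le
    obtain ⟨k, hk⟩ := hodd
    omega
  haveI : Fintype G := Fintype.ofFinite G
  have hpre : MulAction.IsPretransitive G α := hG.toIsPretransitive
  have hdvd : p ∣ Nat.card G := by
    have h1 : Nat.card α ∣ Nat.card G := by
      rw [← MulAction.index_stabilizer_of_transitive G a₀]
      exact Subgroup.index_dvd_card _
    rw [Nat.card_eq_fintype_card, hα] at h1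
    exact dvd_trans (Dvd.intro_left 2 rfl) h1
  obtain ⟨x, hx⟩ := exists_prime_orderOf_dvd_card' p hdvd
  have hxp : orderOf (x : Equiv.Perm α) = p := by
    rw [Subgroup.orderOf_coe]
    exact hx
  by_cases hfree : ∀ a, (x : Equiv.Perm α) a ≠ a
  · obtain ⟨D, hD⟩ := exists_data x.2 hxp hfree hα a₀
    have := D.tp_final hG hα hp3
    rw [hD] at this
    exact this
  · left
    push Not at hfree
    obtain ⟨a, ha⟩ := hfree
    have hcyc : (x : Equiv.Perm α).IsCycle := by
      apply Equiv.Perm.isCycle_of_prime_order (by rw [hxp]; exact hp)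
      rw [hxp, ← hα]
      exact Finset.card_lt_univ_of_notMem (x := a) (by simpa using ha)
    have hsupp : (x : Equiv.Perm α).support.card = p := by
      rw [← hcyc.orderOf, hxp]
    have hA := Cfsg.Agent.Lib.Perm.jc_alternating_le hG hp (by omega) hcyc hsupp x.2
    have h2 := alternatingGroup.isMultiplyPretransitive α
    rw [Nat.card_eq_fintype_card, hα] at h2
    have h3 : MulAction.IsMultiplyPretransitive (alternatingGroup α) α 2 :=
      MulAction.isMultiplyPretransitive_of_le (n := 2 * p - 2) (by omega)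
        (by rw [Nat.card_eq_fintype_card, hα]; omega)
    rw [MulAction.is_two_pretransitive_iff] at h3 ⊢
    intro a b c d hab hcd
    obtain ⟨g, h4, h5⟩ := h3 hab hcd
    exact ⟨⟨g.1, hA g.2⟩, h4, h5⟩

end Cfsg.Agent.S0720
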