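import Cfsg.Statements.S0722
import Mathlib

set_option autoImplicit false
open Cfsg

namespace Cfsg.Agent.S0722

/-- In a primitive group `H`, with `N` a minimal normal subgroup and `K` a point stabiliser, `K ⊓ N` is maximal among proper `K`-invariant subgroups of `N`. -/
theorem result {α : Type*} [Finite α] (H : Subgroup (Equiv.Perm α)) [MulAction.IsPreprimitive H α] (N : Subgroup H) [N.Normal] (hN : N ≠ ⊥) (hmin : ∀ M : Subgroup H, M.Normal → M ≤ N → M = ⊥ ∨ M = N) (a : α) (X : Subgroup H) (hX : X ≤ N) (hKX : MulAction.stabilizer H a ⊓ N ≤ X) (hinv : MulAction.stabilizer H a ≤ Subgroup.normalizer (X : Set H)) : X = MulAction.stabilizer H a ⊓ N ∨ X = N := by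
  have hnt : Nontrivial α := by
    by_contra hn
    rw [not_nontrivial_iff_subsingleton] at hn
    apply hN
    rw [eq_bot_iff]
    intro g _
    rw [Subgroup.mem_bot]
    apply Subtype.ext
    ext x
    exact Subsingleton.elim _ _
  have hco : IsCoatom (MulAction.stabilizer H a) :=
    (MulAction.isCoatom_stabilizer_iff_preprimitive H a).mpr inferInstance
  -- the subgroup `K X`
  by_cases hXK : X ≤ MulAction.stabilizer H a
  · left
    exact le_antisymm (le_inf hXK hX) hKX
  · right
    have hlt : MulAction.stabilizer H a < MulAction.stabilizer H a ⊔ X :=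
      lt_of_le_of_ne le_sup_left (fun h => hXK (by rw [h]; exact le_sup_right))
    have htop : MulAction.stabilizer H a ⊔ X = ⊤ := hco.2 _ hlt
    have hnorm : X.Normal := by
      have : Subgroup.normalizer (X : Set H) = ⊤ := by
        rw [eq_top_iff, ← htop]
        exact sup_le hinv Subgroup.le_normalizer
      exact Subgroup.normalizer_eq_top_iff.mp this
    rcases hmin X hnorm hX with h | h
    · exfalso
      apply hXK
      rw [h]
      exact bot_le
    · exact h

end Cfsg.Agent.S0722
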