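import Cfsg.Statements.S0723
import Cfsg.Agent.Lib.Perm.ONanScottC
import Mathlib

set_option autoImplicit false
open Cfsg

namespace Cfsg.Agent.S0723

/-- The core of the O'Nan–Scott Theorem. Let `H` be a primitive permutation group on a finite set whose unique minimal normal subgroup `N` is non-abelian, and `K` a point stabiliser. Then there are a non-abelian simple group `T` and an isomorphism `N ≃* T^m` (`m ≥ 1`) under which `K ⊓ N` becomes either a product `∏ K_i` of proper subgroups `K_i < T`, or the set of functions constant on each block of a partition of the index set into blocks of one common size `k ≥ 2`. -/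
theorem result {α : Type*} [Finite α] (H : Subgroup (Equiv.Perm α)) [MulAction.IsPreprimitive H α] (N : Subgroup H) [N.Normal] (hN : N ≠ ⊥) (hmin : ∀ M : Subgroup H, M.Normal → M ≤ N → M = ⊥ ∨ M = N) (huniq : ∀ L : Subgroup H, L.Normal → L ≠ ⊥ → (∀ M : Subgroup H, M.Normal → M ≤ L → M = ⊥ ∨ M = L) → L = N) (hnab : ¬ IsMulCommutative N) (a : α) : ∃ (T : Type) (_ : Group T) (m : ℕ) (e : N ≃* (Fin m → T)), IsSimpleGroup T ∧ ¬ IsMulCommutative T ∧ 0 < m ∧ ((∃ K : Fin m → Subgroup T, (∀ i, K i ≠ ⊤) ∧ ∀ n : N, (n : H) ∈ MulAction.stabilizer H a ↔ ∀ i, e n i ∈ K i) ∨ (∃ (k : ℕ) (c : Fin m → Fin m), 2 ≤ k ∧ (∀ j : Fin m, Nat.card {i : Fin m // c i = j} = k ∨ Nat.card {i : Fin m // c i = j} = 0) ∧ ∀ n : N, (n : H) ∈ MulAction.stabilizer H a ↔ ∀ i j : Fin m, c i = c j → e n i = e n j)) := by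
  classical
  haveI : Finite H := inferInstance
  haveI : Finite N := inferInstance
  haveI : Nontrivial N := by
    rw [Subgroup.nontrivial_iff_ne_bot]
    exact hN
  -- the power structure
  obtain ⟨T, iT, m, hsT, hm, ⟨e₀⟩⟩ := Cfsg.Agent.Lib.Perm.exists_power_of_no_invariant
    (N := N) (H := H) (MulAut.conjNormal (G := H) (H := N)) (by
      intro L hL hLn hinv
      let M : Subgroup H := L.map N.subtype
      have hMn : M.Normal := by
        constructor
        rintro _ ⟨x, hx, rfl⟩ h
        refine ⟨MulAut.conjNormal h x, ?_, ?_⟩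
        · exact hinv h ⟨x, hx, rfl⟩
        · simp [MulAut.conjNormal_apply]
      rcases hmin M hMn (by rintro _ ⟨x, _, rfl⟩; exact x.2) with h | h
      · exfalso
        apply hL
        rw [eq_bot_iff]
        intro x hx
        have : (x : H) ∈ M := ⟨x, hx, rfl⟩
        rw [h, Subgroup.mem_bot] at this
        rw [Subgroup.mem_bot]
        exact Subtype.ext this
      · rw [eq_top_iff]
        intro x _
        have hx : (x : H) ∈ M := by rw [h]; exact x.2
        obtain ⟨y, hy, hyx⟩ := hx
        have : y = x := Subtype.ext hyx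
        rwa [← this])
  have hna : ∃ a b : T, a * b ≠ b * a := by
    by_contra hcon
    push Not at hcon
    apply hnab
    refine ⟨⟨fun x y => ?_⟩⟩
    apply e₀.injective
    rw [map_mul, map_mul]
    funext i
    exact hcon _ _
  have hT : ¬ IsMulCommutative T := by
    rintro ⟨⟨h⟩⟩
    obtain ⟨x, y, hxy⟩ := hna
    exact hxy (h x y)
  -- transitivity
  haveI hprim : MulAction.IsPreprimitive H α := inferInstance
  -- `N` acts non-trivially
  have hNtrans : MulAction.IsPretransitive N α := by
    have hqp : MulAction.IsQuasiPreprimitive H α := inferInstance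
    refine hqp.isPretransitive_of_normal ?_
    intro hfix
    apply hN
    rw [eq_bot_iff]
    intro x hx
    rw [Subgroup.mem_bot]
    apply Subtype.ext
    apply Equiv.ext
    intro b
    have h1 : b ∈ MulAction.fixedPoints N α := by rw [hfix]; trivial
    exact h1 ⟨x, hx⟩
  have hKcoatom : IsCoatom (MulAction.stabilizer H a) ∨ Subsingleton α := by
    by_cases hsub : Subsingleton α
    · right; exact hsub
    · left
      rw [not_subsingleton_iff_nontrivial] at hsub
      rw [MulAction.isCoatom_stabilizer_iff_preprimitive]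
      exact hprim
  have hNontα : ¬ Subsingleton α := by
    intro hs
    apply hN
    rw [eq_bot_iff]
    intro x hx
    rw [Subgroup.mem_bot]
    apply Subtype.ext
    apply Equiv.ext
    intro b
    exact Subsingleton.elim _ _
  have hKcoa : IsCoatom (MulAction.stabilizer H a) := hKcoatom.resolve_right hNontα
  have hKN : ∀ h : H, ∃ n ∈ N, ∃ k ∈ MulAction.stabilizer H a, h = n * k := by
    intro h
    obtain ⟨n, hn⟩ := hNtrans.exists_smul_eq a (h • a)
    refine ⟨n, n.2, (n : H)⁻¹ * h, ?_, by group⟩
    rw [MulAction.mem_stabilizer_iff, mul_smul]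
    have hn' : (n : H) • a = h • a := hn
    rw [← hn', inv_smul_smul]
  have hNK : ¬ N ≤ MulAction.stabilizer H a := by
    intro hle
    apply hNontα
    refine ⟨fun b b' => ?_⟩
    obtain ⟨n, hn⟩ := hNtrans.exists_smul_eq a b
    obtain ⟨n', hn'⟩ := hNtrans.exists_smul_eq a b'
    have h1 : (n : H) • a = a := hle n.2
    have h2 : (n' : H) • a = a := hle n'.2
    have h3 : (n : H) • a = b := hn
    have h4 : (n' : H) • a = b' := hn'
    rw [← h3, ← h4, h1, h2]
  have hK : ∀ K' : Subgroup H, MulAction.stabilizer H a ≤ K' →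
      K' = MulAction.stabilizer H a ∨ K' = ⊤ := by
    intro K' hK'
    by_cases h : K' = MulAction.stabilizer H a
    · left; exact h
    · right
      exact hKcoa.2 K' (lt_of_le_of_ne hK' (Ne.symm h))
  rcases Cfsg.Agent.Perm.ONS.abs_main (T := T) hna N (MulAction.stabilizer H a) hK hKN hNK hmin e₀ with
    ⟨L, hL, hchar⟩ | ⟨k, c, φ, hk, hfib, hchar⟩
  · exact ⟨T, iT, m, e₀, hsT, hT, hm, Or.inl ⟨L, hL, hchar⟩⟩
  · refine ⟨T, iT, m, e₀.trans (MulEquiv.piCongrRight fun i => (φ i).symm), hsT, hT, hm, Or.inr ⟨k, c, hk, hfib, ?_⟩⟩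
    intro n
    rw [hchar]
    rfl

end Cfsg.Agent.S0723
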