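import Cfsg.Statements.S0724
import Mathlib

set_option autoImplicit false
open Cfsg

namespace Cfsg.Agent.S0724

/-- Blichfeldt's Theorem: if a finite set `L` of natural numbers contains the number of fixed points of every non-identity element of a permutation group `G` of degree `n`, then the order of `G` divides `∏ (n - l)` over `l ∈ L`. -/
theorem result {α : Type*} [Fintype α] [DecidableEq α] (G : Subgroup (Equiv.Perm α)) (L : Finset ℕ) (hL : ∀ g ∈ G, g ≠ 1 → Nat.card (MulAction.fixedBy α g) ∈ L) : Nat.card G ∣ ∏ l ∈ L, (Fintype.card α - l) := by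
  classical
  -- Step 1: `|G|` divides `∑_g P(fix g)` for every integer polynomial `P`.
  have hsum : ∀ P : Polynomial ℤ, (Nat.card G : ℤ) ∣ ∑ g : G, P.eval (Nat.card (MulAction.fixedBy α g) : ℤ) := by
    intro P
    induction P using Polynomial.induction_on' with
    | add p q hp hq =>
      simp only [Polynomial.eval_add, Finset.sum_add_distrib]
      exact dvd_add hp hq
    | monomial n c =>
      simp only [Polynomial.eval_monomial]
      rw [← Finset.mul_sum]
      apply Dvd.dvd.mul_left
      -- Burnside on `Fin n → α`
      have hB := MulAction.sum_card_fixedBy_eq_card_orbits_mul_card_group G (Fin n → α)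
      have hfix : ∀ g : G, Nat.card (MulAction.fixedBy α g) ^ n = Fintype.card (MulAction.fixedBy (Fin n → α) g) := by
        intro g
        have e : MulAction.fixedBy (Fin n → α) g ≃ (Fin n → MulAction.fixedBy α g) :=
          { toFun := fun f i => ⟨f.1 i, by
              have := f.2
              rw [MulAction.mem_fixedBy] at this ⊢
              exact congrFun this i⟩
            invFun := fun f => ⟨fun i => (f i).1, by
              rw [MulAction.mem_fixedBy]
              funext i
              exact (f i).2⟩
            left_inv := fun f => rfl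
            right_inv := fun f => rfl }
        rw [Fintype.card_congr e, Nat.card_eq_fintype_card]
        simp
      have : (∑ g : G, ((Nat.card (MulAction.fixedBy α g) : ℤ)) ^ n) = ((∑ g : G, Fintype.card (MulAction.fixedBy (Fin n → α) g) : ℕ) : ℤ) := by
        push_cast
        apply Finset.sum_congr rfl
        intro g _
        rw [← hfix]
        push_cast
        rfl
      rw [this, hB]
      push_cast
      rw [Nat.card_eq_fintype_card]
      exact dvd_mul_left _ _
  -- Step 2
  by_cases hbig : ∃ l ∈ L, Fintype.card α ≤ l
  · obtain ⟨l, hl, hle⟩ := hbig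
    have : ∏ l ∈ L, (Fintype.card α - l) = 0 :=
      Finset.prod_eq_zero hl (Nat.sub_eq_zero_of_le hle)
    rw [this]
    exact dvd_zero _
  push Not at hbig
  let P : Polynomial ℤ := ∏ l ∈ L, (Polynomial.X - Polynomial.C (l : ℤ))
  have hP := hsum P
  have heval : ∀ x : ℤ, P.eval x = ∏ l ∈ L, (x - (l : ℤ)) := by
    intro x
    simp [P, Polynomial.eval_prod]
  have hzero : ∀ g : G, g ≠ 1 → P.eval (Nat.card (MulAction.fixedBy α g) : ℤ) = 0 := by
    intro g hg
    rw [heval]
    have hmem : Nat.card (MulAction.fixedBy α g) ∈ L := hL g g.2 (fun h => hg (Subtype.ext h))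
    exact Finset.prod_eq_zero hmem (sub_self _)
  have hone : Nat.card (MulAction.fixedBy α (1 : G)) = Fintype.card α := by
    have : MulAction.fixedBy α (1 : G) = Set.univ := by
      ext x
      simp
    rw [this]
    simp
  have hs : ∑ g : G, P.eval (Nat.card (MulAction.fixedBy α g) : ℤ) = P.eval (Fintype.card α : ℤ) := by
    rw [Finset.sum_eq_single (1 : G)]
    · rw [hone]
    · intro g _ hg
      exact hzero g hg
    · intro h
      exact absurd (Finset.mem_univ _) h
  rw [hs, heval] at hP
  have hcast : (((∏ l ∈ L, (Fintype.card α - l) : ℕ)) : ℤ) = ∏ l ∈ L, ((Fintype.card α : ℤ) - (l : ℤ)) := by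
    rw [Nat.cast_prod]
    apply Finset.prod_congr rfl
    intro l hl
    rw [Nat.cast_sub (hbig l hl).le]
  rw [← hcast] at hP
  exact_mod_cast hP

end Cfsg.Agent.S0724
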