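import Cfsg.Statements.S0726
import Mathlib

set_option autoImplicit false
open Cfsg

namespace Cfsg.Agent.S0726

/-- The left and right regular permutation representations of a group are each other's centralisers in the symmetric group: the centraliser of the left regular image is the right regular image, and a transitive subgroup centralising the left regular image is the whole right regular image. -/
theorem result {G : Type*} [Group G] : Subgroup.centralizer ((MulAction.toPermHom G G).range : Set (Equiv.Perm G)) = (MulAction.toPermHom Gᵐᵒᵖ G).range ∧ ∀ H : Subgroup (Equiv.Perm G), H ≤ Subgroup.centralizer ((MulAction.toPermHom G G).range : Set (Equiv.Perm G)) → MulAction.IsPretransitive H G → H = (MulAction.toPermHom Gᵐᵒᵖ G).range := by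
  have hcomm : ∀ c ∈ Subgroup.centralizer ((MulAction.toPermHom G G).range : Set (Equiv.Perm G)), ∀ g x : G, c (g * x) = g * c x := by
    intro c hc g x
    have := Subgroup.mem_centralizer_iff.mp hc (MulAction.toPermHom G G g) ⟨g, rfl⟩
    have h2 := congrArg (fun f : Equiv.Perm G => f x) this
    simp only [Equiv.Perm.coe_mul, Function.comp_apply, MulAction.toPermHom_apply, MulAction.toPerm_apply, smul_eq_mul] at h2
    exact h2.symm
  have hform : ∀ c ∈ Subgroup.centralizer ((MulAction.toPermHom G G).range : Set (Equiv.Perm G)), c = MulAction.toPermHom Gᵐᵒᵖ G (MulOpposite.op (c 1)) := by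
    intro c hc
    ext x
    have := hcomm c hc x 1
    simp only [mul_one] at this
    simp [this, MulOpposite.smul_eq_mul_unop]
  have hcent : Subgroup.centralizer ((MulAction.toPermHom G G).range : Set (Equiv.Perm G)) = (MulAction.toPermHom Gᵐᵒᵖ G).range := by
    apply le_antisymm
    · intro c hc
      exact ⟨MulOpposite.op (c 1), (hform c hc).symm⟩
    · rintro _ ⟨g, rfl⟩
      rw [Subgroup.mem_centralizer_iff]
      rintro _ ⟨h, rfl⟩
      ext x
      simp [mul_assoc, MulOpposite.smul_eq_mul_unop]
  refine ⟨hcent, ?_⟩
  intro H hH htr
  apply le_antisymm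
  · rw [← hcent]; exact hH
  · rintro _ ⟨g, rfl⟩
    obtain ⟨h, hh⟩ := MulAction.exists_smul_eq H (1 : G) (MulOpposite.unop g)
    have hh' : (h : Equiv.Perm G) 1 = MulOpposite.unop g := hh
    have h1 := hform h (hH h.2)
    rw [hh'] at h1
    simp only [MulOpposite.op_unop] at h1
    rw [← h1]
    exact h.2

end Cfsg.Agent.S0726
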