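import Cfsg.Statements.S0730
import Cfsg.Agent.Lib.Perm.ZFOddF
import Mathlib

set_option autoImplicit false
open Cfsg

namespace Cfsg.Agent.S0730

/-- A sharply triply transitive group of degree `p^f + 1`, `p` an odd prime and `f` odd, is isomorphic to the projective general linear group of degree 2 over the field with `p^f` elements (for even `f` there is a second, twisted, group). -/
theorem result {α : Type*} [Fintype α] [DecidableEq α] {p f : ℕ} (hp : p.Prime) (hp2 : p ≠ 2) (hfo : Odd f) (hα : Fintype.card α = p ^ f + 1) (G : Subgroup (Equiv.Perm α)) (h3 : MulAction.IsMultiplyPretransitive G α 3) (hsharp : ∀ x : Fin 3 ↪ α, MulAction.stabilizer G x = ⊥) : ∃ (F : Type) (_ : Field F) (_ : Fintype F), Fintype.card F = p ^ f ∧ Nonempty (G ≃* Matrix.ProjGenLinGroup (Fin 2) F) := by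
  classical
  have hS := Cfsg.Agent.Lib.Perm.sh3_of_subgroup h3 hsharp
  have hfaith : ∀ g : G, (∀ x : α, g • x = x) → g = 1 := by
    intro g hg
    apply Subtype.ext
    apply Equiv.ext
    intro x
    exact hg x
  have hp3 : 3 ≤ p := by
    have := hp.two_le
    omega
  have hqlarge : 3 ≤ p ^ f := by
    calc 3 ≤ p := hp3
      _ = p ^ 1 := (pow_one p).symm
      _ ≤ p ^ f := Nat.pow_le_pow_right hp.pos hfo.pos
  have hc3 : 2 < Fintype.card α := by omega
  obtain ⟨a, b, c, hab, hac, hbc⟩ := Fintype.two_lt_card_iff.mp hc3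
  obtain ⟨K, iF, iT, hK, hiso⟩ := Cfsg.Agent.Lib.Perm.sh3_odd_pgl hS hfaith
    (Cfsg.Agent.Lib.Perm.sh3_card h3 hsharp (Cfsg.Agent.Lib.Perm.mk3 a b c hab hac hbc)) hp hp2 hfo hα
  refine ⟨K, iF, iT, ?_, hiso⟩
  rw [Nat.card_eq_fintype_card, Nat.card_eq_fintype_card, hα] at hK
  omega

end Cfsg.Agent.S0730
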