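import Cfsg.Statements.S0733
import Mathlib

set_option autoImplicit false
open Cfsg

namespace Cfsg.Agent.S0733

open scoped Pointwise

/-- A permutation group of affine type — generated by the translations of a finite vector space `V` over `ZMod p` together with a group `G₀` of linear automorphisms — is primitive on `V` if and only if `G₀` is irreducible on `V`. -/
theorem result {p : ℕ} [Fact p.Prime] {V : Type*} [AddCommGroup V] [Module (ZMod p) V] [Finite V] [Nontrivial V] (G₀ : Subgroup (V ≃ₗ[ZMod p] V)) (G : Subgroup (Equiv.Perm V)) (hG : ∀ σ : Equiv.Perm V, σ ∈ G ↔ ∃ g ∈ G₀, ∃ b : V, ∀ x : V, σ x = (g : V ≃ₗ[ZMod p] V) x + b) : MulAction.IsPreprimitive G V ↔ ∀ W : Submodule (ZMod p) V, (∀ g ∈ G₀, ∀ v ∈ W, (g : V ≃ₗ[ZMod p] V) v ∈ W) → W = ⊥ ∨ W = ⊤ := by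
  classical
  have htrans_mem : ∀ b : V, ∃ σ : Equiv.Perm V, σ ∈ G ∧ ∀ x, σ x = x + b := by
    intro b
    refine ⟨Equiv.addRight b, ?_, fun x => rfl⟩
    rw [hG]
    exact ⟨1, G₀.one_mem, b, fun x => rfl⟩
  have hpre : MulAction.IsPretransitive G V := by
    refine ⟨fun a b => ?_⟩
    obtain ⟨σ, hσ, hσx⟩ := htrans_mem (b - a)
    refine ⟨⟨σ, hσ⟩, ?_⟩
    change σ a = b
    rw [hσx]
    abel
  constructor
  · intro hprim W hW
    -- `W` is a block
    have hB : MulAction.IsBlock G (W : Set V) := by
      rw [MulAction.isBlock_iff_smul_eq_or_disjoint]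
      intro g
      obtain ⟨γ, hγ, b, hgb⟩ := (hG g).mp g.2
      have hsm : ∀ x, g • x = γ x + b := hgb
      by_cases hb : b ∈ W
      · left
        ext x
        rw [Set.mem_smul_set]
        constructor
        · rintro ⟨y, hy, rfl⟩
          rw [hsm]
          exact W.add_mem (hW γ hγ y hy) hb
        · intro hx
          -- `x - b ∈ W`, and `γ⁻¹ (x - b) ∈ W`
          have h1 : x - b ∈ (W : Set V) := W.sub_mem hx hb
          have hinv := hW γ⁻¹ (G₀.inv_mem hγ) _ h1
          refine ⟨γ⁻¹ (x - b), hinv, ?_⟩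
          rw [hsm]
          have : γ (γ⁻¹ (x - b)) = x - b := by
            change (γ * γ⁻¹) (x - b) = x - b
            simp
          rw [this]
          abel
      · right
        rw [Set.disjoint_left]
        rintro x ⟨y, hy, rfl⟩ hx
        apply hb
        have hx' : γ y + b ∈ W := by
          rw [← hsm]
          exact hx
        have h2 : γ y ∈ W := hW γ hγ y hy
        have := W.sub_mem hx' h2
        simpa using this
    rcases MulAction.IsPreprimitive.isTrivialBlock_of_isBlock hB with h | h
    · left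
      rw [eq_bot_iff]
      intro x hx
      rw [Submodule.mem_bot]
      exact h hx W.zero_mem
    · right
      rw [eq_top_iff]
      intro x _
      have : x ∈ (W : Set V) := by rw [h]; trivial
      exact this
  · intro hirr
    refine MulAction.IsPreprimitive.of_isTrivialBlock_base (0 : V) ?_
    intro B h0 hB
    rw [MulAction.isBlock_iff_smul_eq_of_mem] at hB
    -- translations by elements of `B` preserve `B`
    have htr : ∀ b ∈ B, ∀ x ∈ B, x + b ∈ B := by
      intro b hb x hx
      obtain ⟨σ, hσ, hσx⟩ := htrans_mem b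
      have h0' : (⟨σ, hσ⟩ : G) • (0 : V) ∈ B := by
        change σ 0 ∈ B
        rw [hσx, zero_add]
        exact hb
      have heq := hB (g := ⟨σ, hσ⟩) h0 h0'
      rw [← heq]
      exact ⟨x, hx, hσx x⟩
    have hneg : ∀ b ∈ B, -b ∈ B := by
      intro b hb
      obtain ⟨σ, hσ, hσx⟩ := htrans_mem b
      have h0' : (⟨σ, hσ⟩ : G) • (0 : V) ∈ B := by
        change σ 0 ∈ B
        rw [hσx, zero_add]
        exact hb
      have heq := hB (g := ⟨σ, hσ⟩) h0 h0'
      have : (0 : V) ∈ (⟨σ, hσ⟩ : G) • B := by rw [heq]; exact h0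
      obtain ⟨y, hy, hy2⟩ := this
      have hy3 : y + b = 0 := by
        rw [← hσx]
        exact hy2
      have : -b = y := by
        rw [eq_comm, ← add_eq_zero_iff_eq_neg]
        exact hy3
      rw [this]
      exact hy
    let W0 : AddSubgroup V :=
      { carrier := B
        add_mem' := fun ha hb => htr _ hb _ ha
        zero_mem' := h0
        neg_mem' := fun ha => hneg _ ha }
    let W : Submodule (ZMod p) V := AddSubgroup.toZModSubmodule p W0
    have hWB : ∀ x, x ∈ W ↔ x ∈ B := fun x => Iff.rfl
    have hWinv : ∀ g ∈ G₀, ∀ v ∈ W, (g : V ≃ₗ[ZMod p] V) v ∈ W := by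
      intro g hg v hv
      rw [hWB] at hv ⊢
      have hσ : (g.toEquiv : Equiv.Perm V) ∈ G := by
        rw [hG]
        exact ⟨g, hg, 0, fun x => by simp⟩
      have h0' : (⟨_, hσ⟩ : G) • (0 : V) ∈ B := by
        change g 0 ∈ B
        rw [map_zero]
        exact h0
      have heq := hB (g := ⟨_, hσ⟩) h0 h0'
      rw [← heq]
      exact ⟨v, hv, rfl⟩
    rcases hirr W hWinv with h | h
    · left
      intro x hx y hy
      have hx' : x ∈ W := hx
      have hy' : y ∈ W := hy
      rw [h, Submodule.mem_bot] at hx' hy'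
      rw [hx', hy']
    · right
      ext x
      simp only [Set.top_eq_univ, Set.mem_univ, iff_true]
      have : x ∈ W := by rw [h]; trivial
      exact this

end Cfsg.Agent.S0733
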