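import Cfsg.Statements.S0734
import Mathlib

set_option autoImplicit false
open Cfsg

namespace Cfsg.Agent.S0734

open scoped Pointwise

/-- Higman's criterion for primitivity: a transitive action on a finite set is primitive if and only if every non-trivial orbital graph (edges = images of a fixed pair of distinct points) is connected. -/
theorem result {G : Type*} [Group G] {Ω : Type*} [Finite Ω] [MulAction G Ω] [MulAction.IsPretransitive G Ω] [Nontrivial Ω] : MulAction.IsPreprimitive G Ω ↔ ∀ a b : Ω, a ≠ b → (SimpleGraph.fromRel fun x y : Ω => ∃ g : G, g • a = x ∧ g • b = y).Connected := by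
  classical
  constructor
  · intro hprim a b hab
    -- the component of `a` is a block
    set Γ := SimpleGraph.fromRel fun x y : Ω => ∃ g : G, g • a = x ∧ g • b = y with hΓ
    have hadj : ∀ (h : G) {x y : Ω}, Γ.Adj x y → Γ.Adj (h • x) (h • y) := by
      intro h x y hxy
      rw [hΓ, SimpleGraph.fromRel_adj] at hxy ⊢
      obtain ⟨hne, hr⟩ := hxy
      refine ⟨fun e => hne (smul_left_cancel h e), ?_⟩
      rcases hr with ⟨g, rfl, rfl⟩ | ⟨g, rfl, rfl⟩
      · exact Or.inl ⟨h * g, by rw [mul_smul], by rw [mul_smul]⟩
      · exact Or.inr ⟨h * g, by rw [mul_smul], by rw [mul_smul]⟩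
    have hreach : ∀ (h : G) {x y : Ω}, Γ.Reachable x y → Γ.Reachable (h • x) (h • y) := by
      intro h x y hxy
      obtain ⟨w⟩ := hxy
      induction w with
      | nil => exact SimpleGraph.Reachable.refl _
      | cons hadj' _ ih => exact (hadj h hadj').reachable.trans ih
    let C : Set Ω := {x | Γ.Reachable a x}
    have hC : MulAction.IsBlock G C := by
      rw [MulAction.isBlock_iff_smul_eq_of_nonempty]
      rintro h ⟨y, ⟨z, hz, rfl⟩, hy⟩
      have ha : Γ.Reachable a (h • a) := by
        have h1 : Γ.Reachable (h • a) (h • z) := hreach h hz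
        have h2 : Γ.Reachable a (h • z) := hy
        exact h2.trans h1.symm
      ext w
      constructor
      · rintro ⟨v, hv, rfl⟩
        exact ha.trans (hreach h hv)
      · intro hw
        refine ⟨h⁻¹ • w, ?_, smul_inv_smul _ _⟩
        have h1 : Γ.Reachable (h⁻¹ • a) (h⁻¹ • w) := hreach h⁻¹ hw
        have h2 : Γ.Reachable (h⁻¹ • a) (h⁻¹ • h • a) := hreach h⁻¹ ha
        rw [inv_smul_smul] at h2
        exact h2.symm.trans h1
    have hab' : Γ.Adj a b := by
      rw [hΓ, SimpleGraph.fromRel_adj]
      exact ⟨hab, Or.inl ⟨1, by simp, by simp⟩⟩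
    have hall : C = Set.univ := by
      rcases MulAction.IsPreprimitive.isTrivialBlock_of_isBlock hC with h | h
      · exact absurd (h (show a ∈ C from SimpleGraph.Reachable.refl _) (show b ∈ C from hab'.reachable)) hab
      · exact h
    rw [SimpleGraph.connected_iff]
    refine ⟨?_, ⟨a⟩⟩
    intro x y
    have hx : x ∈ C := by rw [hall]; trivial
    have hy : y ∈ C := by rw [hall]; trivial
    exact SimpleGraph.Reachable.trans (SimpleGraph.Reachable.symm hx) hy
  · intro hconn
    refine MulAction.IsPreprimitive.mk ?_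
    intro B hB
    by_cases hsub : B.Subsingleton
    · exact Or.inl hsub
    · right
      rw [Set.not_subsingleton_iff] at hsub
      obtain ⟨a, ha, b, hb, hab⟩ := hsub
      have hc := hconn a b hab
      rw [MulAction.isBlock_iff_smul_eq_of_nonempty] at hB
      set Γ := SimpleGraph.fromRel fun x y : Ω => ∃ g : G, g • a = x ∧ g • b = y with hΓ
      have hstep : ∀ {x y : Ω}, Γ.Adj x y → x ∈ B → y ∈ B := by
        intro x y hxy hx
        rw [hΓ, SimpleGraph.fromRel_adj] at hxy
        obtain ⟨_, hr⟩ := hxy
        rcases hr with ⟨g, rfl, rfl⟩ | ⟨g, rfl, rfl⟩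
        · have := hB (g := g) ⟨g • a, ⟨a, ha, rfl⟩, hx⟩
          rw [← this]
          exact ⟨b, hb, rfl⟩
        · have := hB (g := g) ⟨g • b, ⟨b, hb, rfl⟩, hx⟩
          rw [← this]
          exact ⟨a, ha, rfl⟩
      have hwalk : ∀ {x y : Ω}, Γ.Walk x y → x ∈ B → y ∈ B := by
        intro x y w
        induction w with
        | nil => exact id
        | cons h _ ih => exact fun hx => ih (hstep h hx)
      ext x
      simp only [Set.mem_univ, iff_true]
      obtain ⟨w⟩ := hc.preconnected a x
      exact hwalk w ha

end Cfsg.Agent.S0734
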