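import Cfsg.Statements.S0735
import Mathlib

set_option autoImplicit false
open Cfsg

namespace Cfsg.Agent.S0735

open scoped Pointwise

/-- A 2-homogeneous permutation group (transitive on 2-subsets) of even order is doubly transitive; a non-trivial 2-homogeneous group is primitive. -/
theorem result {α : Type*} [Fintype α] [DecidableEq α] (G : Subgroup (Equiv.Perm α)) (h2 : MulAction.IsPretransitive G (Set.powersetCard α 2)) (hα : 3 ≤ Fintype.card α) : (Even (Nat.card G) → MulAction.IsMultiplyPretransitive G α 2) ∧ (G ≠ ⊥ → MulAction.IsPreprimitive G α) := by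
  classical
  -- unpacking homogeneity on pairs
  have hpair : ∀ {a b c d : α}, a ≠ b → c ≠ d → ∃ g : G, ((g : Equiv.Perm α) a = c ∧ (g : Equiv.Perm α) b = d) ∨ ((g : Equiv.Perm α) a = d ∧ (g : Equiv.Perm α) b = c) := by
    intro a b c d hab hcd
    have h1 : ({a, b} : Finset α) ∈ Set.powersetCard α 2 := by
      rw [Set.powersetCard.mem_iff]; exact Finset.card_pair hab
    have h2 : ({c, d} : Finset α) ∈ Set.powersetCard α 2 := by
      rw [Set.powersetCard.mem_iff]; exact Finset.card_pair hcd
    obtain ⟨g, hg⟩ := MulAction.exists_smul_eq G (⟨_, h1⟩ : Set.powersetCard α 2) ⟨_, h2⟩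
    refine ⟨g, ?_⟩
    have hg' : g • ({a, b} : Finset α) = {c, d} := congrArg Subtype.val hg
    have ha : (g : Equiv.Perm α) a ∈ ({c, d} : Finset α) := by
      rw [← hg']
      exact Finset.smul_mem_smul_finset (by simp)
    have hb : (g : Equiv.Perm α) b ∈ ({c, d} : Finset α) := by
      rw [← hg']
      exact Finset.smul_mem_smul_finset (by simp)
    have hne : (g : Equiv.Perm α) a ≠ (g : Equiv.Perm α) b := fun h => hab ((g : Equiv.Perm α).injective h)
    simp only [Finset.mem_insert, Finset.mem_singleton] at ha hb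
    rcases ha with ha | ha <;> rcases hb with hb | hb
    · exact absurd (ha.trans hb.symm) hne
    · exact Or.inl ⟨ha, hb⟩
    · exact Or.inr ⟨ha, hb⟩
    · exact absurd (ha.trans hb.symm) hne
  constructor
  · intro heven
    rw [MulAction.is_two_pretransitive_iff]
    have h2 : 2 ∣ Nat.card G := heven.two_dvd
    haveI : Fact (Nat.Prime 2) := ⟨Nat.prime_two⟩
    obtain ⟨t, ht⟩ := exists_prime_orderOf_dvd_card' 2 h2
    have ht2 : t * t = 1 := by
      rw [← pow_two, ← ht, pow_orderOf_eq_one]
    have ht1 : t ≠ 1 := by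
      intro h
      rw [h, orderOf_one] at ht
      omega
    have hmove : ∃ a : α, (t : Equiv.Perm α) a ≠ a := by
      by_contra hcon
      push Not at hcon
      apply ht1
      apply Subtype.ext
      ext x
      exact hcon x
    obtain ⟨a, ha⟩ := hmove
    set b := (t : Equiv.Perm α) a with hb
    have htb : (t : Equiv.Perm α) b = a := by
      have := congrArg (fun f : Equiv.Perm α => f a) (congrArg Subtype.val ht2)
      simpa using this
    intro c d e f hcd hef
    -- move `(a,b)` to `(c,d)` and to `(e,f)`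
    have hab : a ≠ b := ha.symm
    have main : ∀ {c d : α}, c ≠ d → ∃ g : G, (g : Equiv.Perm α) a = c ∧ (g : Equiv.Perm α) b = d := by
      intro c d hcd
      obtain ⟨g, hg | hg⟩ := hpair hab hcd
      · exact ⟨g, hg⟩
      · refine ⟨g * t, ?_, ?_⟩
        · simp only [Subgroup.coe_mul, Equiv.Perm.coe_mul, Function.comp_apply]
          rw [← hb]
          exact hg.2
        · simp only [Subgroup.coe_mul, Equiv.Perm.coe_mul, Function.comp_apply]
          rw [htb]
          exact hg.1
    obtain ⟨g₁, h1, h2'⟩ := main hcd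
    obtain ⟨g₂, h3, h4⟩ := main hef
    refine ⟨g₂ * g₁⁻¹, ?_, ?_⟩
    · change (g₂ : Equiv.Perm α) ((g₁⁻¹ : G) • c) = e
      rw [← h1]
      change (g₂ : Equiv.Perm α) ((g₁⁻¹ : G) • (g₁ • a)) = e
      rw [inv_smul_smul, h3]
    · change (g₂ : Equiv.Perm α) ((g₁⁻¹ : G) • d) = f
      rw [← h2']
      change (g₂ : Equiv.Perm α) ((g₁⁻¹ : G) • (g₁ • b)) = f
      rw [inv_smul_smul, h4]
  · intro hne
    have hmove : ∃ g : G, ∃ u : α, (g : Equiv.Perm α) u ≠ u := by
      by_contra hcon
      push Not at hcon
      apply hne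
      rw [eq_bot_iff]
      intro x hx
      rw [Subgroup.mem_bot]
      ext y
      exact hcon ⟨x, hx⟩ y
    obtain ⟨h, u, hu⟩ := hmove
    have hpre : MulAction.IsPretransitive G α := by
      refine ⟨fun a b => ?_⟩
      by_cases hab : a = b
      · exact ⟨1, by rw [one_smul, hab]⟩
      · obtain ⟨g, hg | hg⟩ := hpair hu.symm hab
        · refine ⟨g * h * g⁻¹, ?_⟩
          rw [mul_smul, mul_smul]
          have h1 : g⁻¹ • a = u := by
            rw [inv_smul_eq_iff]
            exact hg.1.symm
          rw [h1]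
          exact hg.2
        · refine ⟨g * h⁻¹ * g⁻¹, ?_⟩
          rw [mul_smul, mul_smul]
          have h1 : g⁻¹ • a = (h : Equiv.Perm α) u := by
            rw [inv_smul_eq_iff]
            exact hg.2.symm
          rw [h1]
          have h2 : h⁻¹ • ((h : Equiv.Perm α) u) = u := inv_smul_smul h u
          rw [h2]
          exact hg.1
    refine MulAction.IsPreprimitive.mk ?_
    intro B hB
    by_cases hsub : B.Subsingleton
    · exact Or.inl hsub
    · right
      rw [Set.not_subsingleton_iff] at hsub
      obtain ⟨a, ha, b, hb, hab⟩ := hsub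
      rw [MulAction.isBlock_iff_smul_eq_of_nonempty] at hB
      ext c
      simp only [Set.mem_univ, iff_true]
      by_cases hc : c = a
      · rw [hc]; exact ha
      · obtain ⟨g, hg | hg⟩ := hpair hab (Ne.symm hc)
        · have heq := hB (g := g) ⟨a, ⟨a, ha, hg.1⟩, ha⟩
          rw [← heq]
          exact ⟨b, hb, hg.2⟩
        · have heq := hB (g := g) ⟨a, ⟨b, hb, hg.2⟩, ha⟩
          rw [← heq]
          exact ⟨a, ha, hg.1⟩

end Cfsg.Agent.S0735
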