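import Cfsg.Statements.S0738
import Cfsg.Agent.Lib.Perm.TwoOrbit
import Cfsg.Agent.Lib.Char.Zassenhaus
import Mathlib

set_option autoImplicit false
open Cfsg

namespace Cfsg.Agent.S0738

/-- Let a finite Zassenhaus group of degree `n + 1` have two-point stabilisers of order `d` with `2d ≥ n - 1`. Then a normal subgroup of a point stabiliser acting regularly on the remaining points is elementary abelian, and the degree is a prime power plus one. -/
theorem result {G Ω : Type*} [Group G] [Finite G] [MulAction G Ω] [Fintype Ω] (hZ : Cfsg.IsZassenhausGroup G Ω) {a b : Ω} (hab : a ≠ b) (hd : Fintype.card Ω - 2 ≤ 2 * Nat.card ↥(MulAction.stabilizer G a ⊓ MulAction.stabilizer G b)) (F : Subgroup G) (hFle : F ≤ MulAction.stabilizer G a) (hFn : (F.subgroupOf (MulAction.stabilizer G a)).Normal) (hreg : ∀ y z : Ω, y ≠ a → z ≠ a → ∃! u : F, (u : G) • y = z) : IsMulCommutative F ∧ ∃ p f : ℕ, p.Prime ∧ (∀ u ∈ F, u ^ p = 1) ∧ Fintype.card Ω = p ^ f + 1 := by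
  classical
  set H : Subgroup G := MulAction.stabilizer G a ⊓ MulAction.stabilizer G b with hHdef
  have hHa : ∀ h : H, (h : G) ∈ MulAction.stabilizer G a := fun h => h.2.1
  have hnorm : ∀ h : H, ∀ u ∈ F, (h : G) * u * (h : G)⁻¹ ∈ F := by
    intro h u hu
    have h1 := hFn.conj_mem ⟨u, hFle hu⟩ hu ⟨h, hHa h⟩
    exact h1
  let Φ : H →* MulAut F :=
    { toFun := fun h =>
        { toFun := fun u => ⟨(h : G) * u * (h : G)⁻¹, hnorm h u u.2⟩
          invFun := fun u => ⟨(h : G)⁻¹ * u * h, by
            have := hnorm h⁻¹ u u.2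
            simpa using this⟩
          left_inv := fun u => Subtype.ext (by simp [mul_assoc])
          right_inv := fun u => Subtype.ext (by simp [mul_assoc])
          map_mul' := fun u v => Subtype.ext (by simp [mul_assoc]) }
      map_one' := by
        ext u
        simp
      map_mul' := fun g h => by
        ext u
        simp [mul_assoc] }
  have hΦ : ∀ (h : H) (u : F), ((Φ h u : F) : G) = (h : G) * u * (h : G)⁻¹ := fun _ _ => rfl
  have hua : ∀ u : F, (u : G) • a = a := fun u => hFle u.2
  have hfree : ∀ (h : H) (x : F), Φ h x = x → h = 1 ∨ x = 1 := by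
    intro h x hx
    by_cases hx1 : x = 1
    · exact Or.inr hx1
    left
    have hc : (h : G) * x * (h : G)⁻¹ = x := congrArg Subtype.val hx
    have hc' : (h : G) * x = x * h := by
      calc (h : G) * x = ((h : G) * x * (h : G)⁻¹) * h := by group
        _ = x * h := by rw [hc]
    have hb1 : (x : G) • b ≠ b := by
      intro hb
      obtain ⟨u, hu, huu⟩ := hreg b b hab.symm hab.symm
      have h1 := huu x hb
      have h2 := huu 1 (by simp)
      exact hx1 (h1.trans h2.symm)
    have hb2 : (x : G) • b ≠ a := by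
      intro hb
      have := hua x
      exact hab (smul_left_cancel (x : G) (hb.trans this.symm)).symm
    have hhb : (h : G) • b = b := h.2.2
    have hhx : (h : G) • ((x : G) • b) = (x : G) • b := by
      rw [← mul_smul, hc', mul_smul, hhb]
    have hh1 : (h : G) = 1 := hZ.2.2.1 h a b _ hab (Ne.symm hb1) (Ne.symm hb2) h.2.1 hhb hhx
    exact Subtype.ext hh1
  -- counting
  have hFcard : Nat.card F + 1 = Fintype.card Ω := by
    have hne : ∀ u : F, (u : G) • b ≠ a := by
      intro u hb
      exact hab (smul_left_cancel (u : G) (hb.trans (hua u).symm)).symm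
    let φ : F → {x : Ω // x ≠ a} := fun u => ⟨(u : G) • b, hne u⟩
    have hbij : Function.Bijective φ := by
      constructor
      · intro u v huv
        obtain ⟨w, -, hww⟩ := hreg b ((u : G) • b) hab.symm (hne u)
        rw [hww u rfl]
        exact (hww v (congrArg Subtype.val huv).symm).symm
      · rintro ⟨c, hc⟩
        obtain ⟨w, hw, -⟩ := hreg b c hab.symm hc
        exact ⟨w, Subtype.ext hw⟩
    have hc2 : Nat.card F = Nat.card {x : Ω // x ≠ a} := Nat.card_congr (Equiv.ofBijective φ hbij)
    rw [hc2, Nat.card_eq_fintype_card, Fintype.card_subtype_compl, Fintype.card_subtype_eq]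
    have : 0 < Fintype.card Ω := Fintype.card_pos_iff.mpr ⟨a⟩
    omega
  obtain ⟨c, hca, hcb⟩ := Cfsg.Agent.Lib.Char.Zass.exists_third hZ hab
  have hnt : Nontrivial F := by
    obtain ⟨w, hw, -⟩ := hreg b c hab.symm hca
    refine ⟨⟨w, 1, ?_⟩⟩
    intro h
    rw [h] at hw
    simp only [Subgroup.coe_one, one_smul] at hw
    exact hcb hw.symm
  have hcard : Nat.card F - 1 ≤ 2 * Nat.card H := by omega
  obtain ⟨hcomm, p, f, hp, hexp, hpf⟩ := Cfsg.Agent.Lib.Perm.to_elementary Φ hfree hcard
  refine ⟨⟨⟨fun x y => hcomm x y⟩⟩, p, f, hp, ?_, ?_⟩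
  · intro u hu
    have := hexp ⟨u, hu⟩
    exact congrArg Subtype.val this
  · omega

end Cfsg.Agent.S0738
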