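import Cfsg.Statements.S0740
import Cfsg.Agent.Lib.Perm.ZassInv
import Mathlib

set_option autoImplicit false
open Cfsg

namespace Cfsg.Agent.S0740

/-- In a finite Zassenhaus group any two points `a ≠ b` are swapped by an involution; every such involution has exactly one fixed point when the degree is odd and 0 or 2 fixed points when the degree is even; and if the two-point stabiliser has even order, some such involution has exactly 2 fixed points. -/
theorem result {G Ω : Type*} [Group G] [Finite G] [MulAction G Ω] [Fintype Ω] (hZ : Cfsg.IsZassenhausGroup G Ω) {a b : Ω} (hab : a ≠ b) : (∃ s : G, orderOf s = 2 ∧ s • a = b ∧ s • b = a) ∧ (∀ s : G, orderOf s = 2 → s • a = b → s • b = a → (Odd (Fintype.card Ω) → Nat.card (MulAction.fixedBy Ω s) = 1) ∧ (Even (Fintype.card Ω) → Nat.card (MulAction.fixedBy Ω s) = 0 ∨ Nat.card (MulAction.fixedBy Ω s) = 2)) ∧ (Even (Fintype.card Ω) → Even (Nat.card ↥(MulAction.stabilizer G a ⊓ MulAction.stabilizer G b)) → ∃ s : G, orderOf s = 2 ∧ s • a = b ∧ s • b = a ∧ Nat.card (MulAction.fixedBy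 Ω s) = 2) := by
  classical
  have hs1 : ∀ s : G, orderOf s = 2 → s ≠ 1 := by
    intro s hs h
    rw [h, orderOf_one] at hs
    omega
  refine ⟨Cfsg.Agent.Lib.Perm.zi_exists_swap hZ hab, ?_, ?_⟩
  · intro s hs _ _
    have h2 : s ^ 2 = 1 := by rw [← hs]; exact pow_orderOf_eq_one s
    have hpar := Cfsg.Agent.Lib.Perm.zi_parity (Ω := Ω) s h2
    have hle := Cfsg.Agent.Lib.Perm.zi_fix_le hZ (hs1 s hs)
    rw [Nat.card_eq_fintype_card] at hpar
    constructor
    · intro hodd
      obtain ⟨k, hk⟩ := hodd
      unfold Nat.ModEq at hpar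
      omega
    · intro heven
      obtain ⟨k, hk⟩ := heven
      unfold Nat.ModEq at hpar
      omega
  · intro _ heven
    exact Cfsg.Agent.Lib.Perm.zi_exists_two_fixed hZ hab heven

end Cfsg.Agent.S0740
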