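import Cfsg.Statements.S0742
import Cfsg.Agent.Lib.Perm.ZFEven
import Cfsg.Agent.S0738
import Mathlib

set_option autoImplicit false
open Cfsg

namespace Cfsg.Agent.S0742

/-- A finite Zassenhaus group of degree `n + 1` with two-point stabilisers of even order `d` satisfying `2d ≤ n - 1` has `n = p^f` for an odd prime `p` and is isomorphic to `PSL(2, p^f)`. -/
theorem result {G Ω : Type*} [Group G] [Finite G] [MulAction G Ω] [Fintype Ω] (hZ : Cfsg.IsZassenhausGroup G Ω) {a b : Ω} (hab : a ≠ b) (heven : Even (Nat.card ↥(MulAction.stabilizer G a ⊓ MulAction.stabilizer G b))) (hd : 2 * Nat.card ↥(MulAction.stabilizer G a ⊓ MulAction.stabilizer G b) ≤ Fintype.card Ω - 2) : ∃ (p f : ℕ) (K : Type) (_ : Field K) (_ : Fintype K), p.Prime ∧ p ≠ 2 ∧ Fintype.card K = p ^ f ∧ Fintype.card Ω = p ^ f + 1 ∧ Nonempty (G ≃* Matrix.ProjectiveSpecialLinearGroup (Fin 2) K) := by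
  classical
  have hge := Cfsg.Agent.Lib.Perm.zf_degree_bound hZ hab heven
  have hpos : 0 < Nat.card ↥(MulAction.stabilizer G a ⊓ MulAction.stabilizer G b) := Nat.card_pos
  have hd2 : 2 * Nat.card ↥(MulAction.stabilizer G a ⊓ MulAction.stabilizer G b) + 2 = Fintype.card Ω := by
    omega
  obtain ⟨K, iF, iT, hK, hiso⟩ := Cfsg.Agent.Lib.Perm.zq_even_psl hZ hab heven hd2
  obtain ⟨F, hcard, hFa, hFfix⟩ := Cfsg.Agent.Lib.Perm.zf_kernel hZ hab
  have hFn : (F.subgroupOf (MulAction.stabilizer G a)).Normal := by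
    constructor
    intro u hu g
    rw [Subgroup.mem_subgroupOf] at hu ⊢
    exact Cfsg.Agent.Lib.Char.Zass.conj_mem_kernel hZ hcard hFa hFfix g.2 hu
  have hreg : ∀ y z : Ω, y ≠ a → z ≠ a → ∃! u : F, (u : G) • y = z := by
    intro y z hy hz
    obtain ⟨u, hu, huy⟩ := Cfsg.Agent.Lib.Char.Zass.regular_of_kernel hcard hFa hFfix hy hz
    refine ⟨⟨u, hu⟩, huy, ?_⟩
    rintro ⟨v, hv⟩ hvy
    apply Subtype.ext
    change v = u
    by_contra hne
    have h1 : u⁻¹ * v ≠ 1 := fun h => hne (inv_mul_eq_one.mp h).symm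
    refine hy (hFfix _ (F.mul_mem (F.inv_mem hu) hv) h1 y ?_)
    rw [mul_smul, inv_smul_eq_iff]
    exact (show v • y = z from hvy).trans huy.symm
  obtain ⟨-, p, f, hp, -, hpf⟩ := Cfsg.Agent.S0738.result hZ hab (by omega) F hFa hFn hreg
  have hKc : Fintype.card K = p ^ f := by
    rw [← Nat.card_eq_fintype_card]
    omega
  have hp2 : p ≠ 2 := by
    rintro rfl
    -- a two-point stabiliser of even order forces the kernel to have odd order
    have hp2' : Fact (Nat.Prime 2) := ⟨Nat.prime_two⟩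
    obtain ⟨t', ht'⟩ := exists_prime_orderOf_dvd_card' (G := ↥(MulAction.stabilizer G a ⊓ MulAction.stabilizer G b)) 2
      heven.two_dvd
    have hto : orderOf (t' : G) = 2 := by rw [Subgroup.orderOf_coe]; exact ht'
    obtain ⟨-, -, hodd⟩ := Cfsg.Agent.Lib.Perm.zf_invert hZ hab hcard hFa hFfix t'.2.1 t'.2.2 hto
    have hF2 : Nat.card F = 2 ^ f := by omega
    rw [hF2] at hodd
    rcases Nat.eq_zero_or_pos f with rfl | hf
    · omega
    · obtain ⟨m, rfl⟩ : ∃ m, f = m + 1 := ⟨f - 1, by omega⟩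
      rw [pow_succ] at hodd
      obtain ⟨k, hk⟩ := hodd
      omega
  exact ⟨p, f, K, iF, iT, hp, hp2, hKc, hpf, hiso⟩

end Cfsg.Agent.S0742
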