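import Cfsg.Statements.S0743
import Mathlib

set_option autoImplicit false
open Cfsg

namespace Cfsg.Agent.S0743

open MulAction SubMulAction in
theorem gleason_aux {p : ℕ} [Fact p.Prime] (k : ℕ) : ∀ {G α : Type _} [Group G] [MulAction G α] [Finite α]
    (_ : 1 ≤ k) (_ : k < Nat.card α)
    (_ : ∀ s : Finset α, s.card = k → ∃ P : Subgroup G, IsPGroup p P ∧ MulAction.fixedPoints P α = (s : Set α)),
    MulAction.IsMultiplyPretransitive G α k := by
  induction k with
  | zero => intro G α _ _ _ h; omega
  | succ j ih =>
    intro G α _ _ _ hk hkn h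
    classical
    have : Fintype α := Fintype.ofFinite α
    -- transitivity
    have hpre : MulAction.IsPretransitive G α := by
      refine ⟨fun a b => ?_⟩
      by_contra hcon
      have hbO : b ∉ orbit G a := fun ⟨g, hg⟩ => hcon ⟨g, hg⟩
      have hab : a ≠ b := fun e => hbO (e ▸ mem_orbit_self a)
      -- a `k`-set containing `a` and not `b`
      obtain ⟨s, hs1, hs2, hs3⟩ := Finset.exists_subsuperset_card_eq
        (s := {a}) (t := Finset.univ.erase b) (n := j + 1)
        (by simpa using hab) (by simp) (by
          rw [Finset.card_erase_of_mem (Finset.mem_univ b), Finset.card_univ, ← Nat.card_eq_fintype_card]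
          omega)
      have has : a ∈ s := hs1 (Finset.mem_singleton_self a)
      have hbs : b ∉ s := fun hh => (Finset.mem_erase.mp (hs2 hh)).1 rfl
      let s' : Finset α := insert b (s.erase a)
      have hs' : s'.card = j + 1 := by
        rw [Finset.card_insert_of_notMem (fun hh => hbs (Finset.mem_of_mem_erase hh)),
          Finset.card_erase_of_mem has, hs3]
        simp
      obtain ⟨P, hP, hPs⟩ := h s hs3
      obtain ⟨P', hP', hPs'⟩ := h s' hs'
      -- counting mod `p`
      have hcount : ∀ (Q : Subgroup G) (_ : IsPGroup p Q) (t : Finset α),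
          MulAction.fixedPoints Q α = (t : Set α) →
          Nat.card (orbit G a) ≡ (t.filter (· ∈ orbit G a)).card [MOD p] := by
        intro Q hQ t htQ
        have h1 := hQ.card_modEq_card_fixedPoints (orbit G a)
        have h2 : Nat.card (fixedPoints Q (orbit G a)) = (t.filter (· ∈ orbit G a)).card := by
          rw [← Fintype.card_coe, ← Nat.card_eq_fintype_card]
          apply Nat.card_congr
          refine ⟨fun x => ⟨x.1.1, ?_⟩, fun y => ⟨⟨y.1, ?_⟩, ?_⟩, fun _ => rfl, fun _ => rfl⟩
          · rw [Finset.mem_filter]
            refine ⟨?_, x.1.2⟩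
            have : x.1.1 ∈ (t : Set α) := by
              rw [← htQ, mem_fixedPoints]
              intro q
              have := x.2 q
              exact congrArg Subtype.val this
            exact this
          · exact (Finset.mem_filter.mp y.2).2
          · rw [mem_fixedPoints]
            intro q
            apply Subtype.ext
            have h3 : y.1 ∈ (t : Set α) := (Finset.mem_filter.mp y.2).1
            rw [← htQ, mem_fixedPoints] at h3
            exact h3 q
        rwa [h2] at h1
      have h3 := hcount P hP s hPs
      have h4 := hcount P' hP' s' hPs'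
      have h5 : (s'.filter (· ∈ orbit G a)) = (s.filter (· ∈ orbit G a)).erase a := by
        ext x
        simp only [s', Finset.mem_filter, Finset.mem_insert, Finset.mem_erase]
        constructor
        · rintro ⟨rfl | ⟨h1, h2⟩, h3⟩
          · exact absurd h3 hbO
          · exact ⟨h1, h2, h3⟩
        · rintro ⟨h1, h2, h3⟩
          exact ⟨Or.inr ⟨h1, h2⟩, h3⟩
      rw [h5, Finset.card_erase_of_mem (Finset.mem_filter.mpr ⟨has, mem_orbit_self a⟩)] at h4
      have hpos : 0 < (s.filter (· ∈ orbit G a)).card :=
        Finset.card_pos.mpr ⟨a, Finset.mem_filter.mpr ⟨has, mem_orbit_self a⟩⟩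
      have h6 := h4.symm.trans h3
      set c := (s.filter (· ∈ orbit G a)).card with hc
      have h7 : p ∣ 1 := by
        have h8 := (Nat.modEq_iff_dvd' (show c - 1 ≤ c by omega)).mp h6
        have h9 : c - (c - 1) = 1 := by omega
        rwa [h9] at h8
      exact (Fact.out : p.Prime).one_lt.ne' (Nat.dvd_one.mp h7)
    rcases Nat.eq_zero_or_pos j with hj | hj
    · subst hj
      exact is_one_pretransitive_iff.mpr hpre
    have hne : Nonempty α := (Nat.card_pos_iff.mp (by omega)).1
    obtain ⟨a⟩ := hne
    rw [ofStabilizer.isMultiplyPretransitive (a := a)]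
    have hcardY : Nat.card (ofStabilizer G a) + 1 = Nat.card α := nat_card_ofStabilizer_add_one_eq G a
    apply ih hj (by omega)
    intro t ht
    let emb : ofStabilizer G a ↪ α := ⟨Subtype.val, Subtype.val_injective⟩
    let s : Finset α := insert a (t.map emb)
    have hat : a ∉ t.map emb := by
      intro hh
      obtain ⟨y, _, hy⟩ := Finset.mem_map.mp hh
      exact (mem_ofStabilizer_iff G a).mp y.2 hy
    have hs : s.card = j + 1 := by
      rw [Finset.card_insert_of_notMem hat, Finset.card_map, ht]
    obtain ⟨P, hP, hPs⟩ := h s hs
    have hPle : P ≤ stabilizer G a := by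
      intro q hq
      have : a ∈ (s : Set α) := Finset.mem_insert_self _ _
      rw [← hPs, mem_fixedPoints] at this
      exact this ⟨q, hq⟩
    refine ⟨P.subgroupOf (stabilizer G a), ?_, ?_⟩
    · intro g
      obtain ⟨n, hn⟩ := hP ⟨g.1.1, g.2⟩
      refine ⟨n, ?_⟩
      apply Subtype.ext
      apply Subtype.ext
      have := congrArg Subtype.val hn
      simpa using this
    · ext y
      rw [mem_fixedPoints]
      constructor
      · intro hy
        have h1 : (y : α) ∈ fixedPoints P α := by
          rw [mem_fixedPoints]
          intro q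
          have := hy ⟨⟨q.1, hPle q.2⟩, q.2⟩
          exact congrArg Subtype.val this
        rw [hPs] at h1
        rcases Finset.mem_insert.mp h1 with h2 | h2
        · exact absurd h2 ((mem_ofStabilizer_iff G a).mp y.2)
        · obtain ⟨z, hz, hzy⟩ := Finset.mem_map.mp h2
          have : z = y := Subtype.ext hzy
          rw [Finset.mem_coe, ← this]
          exact hz
      · intro hy q
        have h1 : (y : α) ∈ (s : Set α) := by
          rw [Finset.mem_coe]
          exact Finset.mem_insert_of_mem (Finset.mem_map_of_mem emb hy)
        rw [← hPs, mem_fixedPoints] at h1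
        apply Subtype.ext
        exact h1 ⟨q.1.1, q.2⟩

/-- Gleason's Lemma: let `p` be a prime and `1 ≤ k < n`; if every `k`-subset of the `n` points is exactly the fixed-point set of some `p`-subgroup of `G`, then `G` is `k`-transitive. -/
theorem result {α : Type*} [Fintype α] [DecidableEq α] (G : Subgroup (Equiv.Perm α)) {p k : ℕ} (hp : p.Prime) (hk : 1 ≤ k) (hkn : k < Fintype.card α) (h : ∀ s : Finset α, s.card = k → ∃ P : Subgroup G, IsPGroup p P ∧ MulAction.fixedPoints P α = (s : Set α)) : MulAction.IsMultiplyPretransitive G α k := by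
  haveI : Fact p.Prime := ⟨hp⟩
  exact gleason_aux (p := p) k hk (by rwa [Nat.card_eq_fintype_card]) h

end Cfsg.Agent.S0743
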