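import Cfsg.Statements.S0745
import Cfsg.Agent.Lib.Perm.LWSmall
import Mathlib

set_option autoImplicit false
open Cfsg

namespace Cfsg.Agent.S0745

theorem arith1 (e M w K K' : ℕ) (h1 : e * K' = 2) (h2 : e * M * K = 6) (h3 : M + 1 = w * e)
    (he : 2 ≤ e) (hM : 1 ≤ M) : (e = 2 ∧ M = 1 ∧ w = 1) ∨ (e = 2 ∧ M = 3 ∧ w = 2) := by
  have hle : e ≤ 2 := Nat.le_of_dvd (by norm_num) (Dvd.intro _ h1)
  have hM6 : M ∣ 6 := ⟨e * K, by rw [← h2]; ring⟩
  have hle2 : M ≤ 6 := Nat.le_of_dvd (by norm_num) hM6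
  interval_cases e <;> interval_cases M <;> omega

theorem arith2 (e M w K K' : ℕ) (h1 : e * K' = 6) (h2 : e * M * K = 24) (h3 : M + 1 = w * e)
    (he : 2 ≤ e) (hM : 1 ≤ M) :
    (e = 2 ∧ M = 1 ∧ w = 1) ∨ (e = 2 ∧ M = 3 ∧ w = 2) ∨ (e = 3 ∧ M = 2 ∧ w = 1) ∨
      (e = 3 ∧ M = 8 ∧ w = 3 ∧ K = 1) := by
  have hle : e ≤ 6 := Nat.le_of_dvd (by norm_num) (Dvd.intro _ h1)
  have hM6 : M ∣ 24 := ⟨e * K, by rw [← h2]; ring⟩
  have hle2 : M ≤ 24 := Nat.le_of_dvd (by norm_num) hM6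
  interval_cases e <;> first | omega | (interval_cases M <;> omega)

theorem arith3 (e M w K K' : ℕ) (h1 : e * K' = 24) (h2 : e * M * K = 120) (h3 : M + 1 = w * e)
    (he : 2 ≤ e) (hM : 1 ≤ M) :
    (e = 2 ∧ M = 1 ∧ w = 1) ∨ (e = 2 ∧ M = 3 ∧ w = 2) ∨ (e = 2 ∧ M = 5 ∧ w = 3) ∨
      (e = 2 ∧ M = 15 ∧ w = 8) ∨ (e = 3 ∧ M = 2 ∧ w = 1) ∨ (e = 3 ∧ M = 5 ∧ w = 2) ∨
      (e = 3 ∧ M = 8 ∧ w = 3 ∧ K = 5) ∨ (e = 3 ∧ M = 20 ∧ w = 7) ∨ (e = 4 ∧ M = 3 ∧ w = 1) ∨
      (e = 4 ∧ M = 15 ∧ w = 4 ∧ K = 2) ∨ (e = 6 ∧ M = 5 ∧ w = 1) ∨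
      (e = 8 ∧ M = 15 ∧ w = 2 ∧ K = 1) := by
  have key : ∀ e ∈ Finset.range 25, ∀ M ∈ Finset.range 121,
      (e ∣ 24 ∧ (e * M) ∣ 120 ∧ e ∣ (M + 1) ∧ 2 ≤ e ∧ 1 ≤ M) →
      (e, M) ∈ ([(2, 1), (2, 3), (2, 5), (2, 15), (3, 2), (3, 5), (3, 8), (3, 20), (4, 3), (4, 15),
        (6, 5), (8, 15)] : List (ℕ × ℕ)) := by decide +kernel
  have hle : e ≤ 24 := Nat.le_of_dvd (by norm_num) (Dvd.intro _ h1)
  have hM6 : M ∣ 120 := ⟨e * K, by rw [← h2]; ring⟩
  have hle2 : M ≤ 120 := Nat.le_of_dvd (by norm_num) hM6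
  have hm := key e (Finset.mem_range.mpr (by omega)) M (Finset.mem_range.mpr (by omega))
    ⟨Dvd.intro _ h1, Dvd.intro _ h2, Dvd.intro_left _ h3.symm, he, hM⟩
  simp only [List.mem_cons, Prod.mk.injEq, List.not_mem_nil, or_false] at hm
  rcases hm with ⟨rfl, rfl⟩ | ⟨rfl, rfl⟩ | ⟨rfl, rfl⟩ | ⟨rfl, rfl⟩ | ⟨rfl, rfl⟩ | ⟨rfl, rfl⟩ |
    ⟨rfl, rfl⟩ | ⟨rfl, rfl⟩ | ⟨rfl, rfl⟩ | ⟨rfl, rfl⟩ | ⟨rfl, rfl⟩ | ⟨rfl, rfl⟩
  · exact Or.inl ⟨rfl, rfl, by omega⟩
  · exact Or.inr (Or.inl ⟨rfl, rfl, by omega⟩)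
  · exact Or.inr (Or.inr (Or.inl ⟨rfl, rfl, by omega⟩))
  · exact Or.inr (Or.inr (Or.inr (Or.inl ⟨rfl, rfl, by omega⟩)))
  · exact Or.inr (Or.inr (Or.inr (Or.inr (Or.inl ⟨rfl, rfl, by omega⟩))))
  · exact Or.inr (Or.inr (Or.inr (Or.inr (Or.inr (Or.inl ⟨rfl, rfl, by omega⟩)))))
  · exact Or.inr (Or.inr (Or.inr (Or.inr (Or.inr (Or.inr (Or.inl ⟨rfl, rfl, by omega, by omega⟩))))))
  · exact Or.inr (Or.inr (Or.inr (Or.inr (Or.inr (Or.inr (Or.inr (Or.inl ⟨rfl, rfl, by omega⟩)))))))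
  · exact Or.inr (Or.inr (Or.inr (Or.inr (Or.inr (Or.inr (Or.inr (Or.inr (Or.inl ⟨rfl, rfl, by omega⟩))))))))
  · exact Or.inr (Or.inr (Or.inr (Or.inr (Or.inr (Or.inr (Or.inr (Or.inr (Or.inr (Or.inl ⟨rfl, rfl, by omega, by omega⟩)))))))))
  · exact Or.inr (Or.inr (Or.inr (Or.inr (Or.inr (Or.inr (Or.inr (Or.inr (Or.inr (Or.inr (Or.inl ⟨rfl, rfl, by omega⟩))))))))))
  · exact Or.inr (Or.inr (Or.inr (Or.inr (Or.inr (Or.inr (Or.inr (Or.inr (Or.inr (Or.inr (Or.inr (⟨rfl, rfl, by omega, by omega⟩)))))))))))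

theorem alt_of_card {α : Type*} [Fintype α] [DecidableEq α] (G : Subgroup (Equiv.Perm α)) {t : ℕ}
    (hn : Fintype.card α = t + 2) (hcard : Nat.card G = (Fintype.card α).descFactorial t * 1) :
    G = alternatingGroup α := by
  apply Equiv.Perm.eq_alternatingGroup_of_index_eq_two
  have h1 := Subgroup.card_mul_index G
  rw [Nat.card_eq_fintype_card (α := Equiv.Perm α), Fintype.card_perm, hcard, mul_one] at h1
  have h2 := Nat.factorial_mul_descFactorial (show t ≤ t + 2 by omega)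
  rw [hn] at h1
  have h3 : (t + 2 - t).factorial = 2 := by
    rw [show t + 2 - t = 2 by omega]; rfl
  rw [h3] at h2
  have hpos : 0 < (t + 2).descFactorial t := Nat.descFactorial_pos.mpr (by omega)
  apply Nat.eq_of_mul_eq_mul_left hpos
  rw [h1, ← h2]
  ring

theorem main {α : Type*} [Fintype α] [DecidableEq α] (G : Subgroup (Equiv.Perm α)) {t : ℕ}
    (ht1 : 1 ≤ t) (hkn : t + 2 ≤ Fintype.card α) (htt : MulAction.IsMultiplyPretransitive G α t)
    (hnt : ¬ MulAction.IsMultiplyPretransitive G α (t + 1))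
    (hh1 : MulAction.IsPretransitive G (Set.powersetCard α (t + 1)))
    (hh : MulAction.IsPretransitive G (Set.powersetCard α (t + 2))) :
    (t + 2 = Fintype.card α ∧ G = alternatingGroup α) ∨
      (Fintype.card α = 5 ∧ t + 2 = 4 ∧ Nat.card G = 20) ∨
      (Fintype.card α = 6 ∧ t + 2 = 5 ∧ Nat.card G = 120) ∨
      (Fintype.card α = 9 ∧ t + 2 = 5 ∧ (Nat.card G = 504 ∨ Nat.card G = 1512)) := by
  classical
  obtain ⟨w, hw0, C⟩ := Cfsg.Agent.Lib.Perm.lw_ctx G hkn htt hnt hh1 hh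
  have hhom := fun x y => Cfsg.Agent.Lib.Perm.lw_hom_tuple (H := G) hh1 x y
  have hcard := Cfsg.Agent.Lib.Perm.lw_card_tuple htt C (by omega)
  have hnt' : ¬ ∀ x y : Fin (t + 1) ↪ α, ∃ g : G, ∀ i, g • x i = y i := by
    intro h
    apply hnt
    refine ⟨fun x y => ?_⟩
    obtain ⟨g, hg⟩ := h x y
    exact ⟨g, by ext i; exact hg i⟩
  obtain ⟨Γ₀, -, hΓ₀⟩ := Finset.exists_subset_card_eq (s := (Finset.univ : Finset α)) (n := t)
    (by rw [Finset.card_univ]; omega)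
  have hdvd := C.dvd_compl hΓ₀
  rw [Finset.card_compl, hΓ₀] at hdvd
  have hne : Fintype.card α - t ≠ w := fun h => hnt' (C.trans_of_eq h)
  obtain ⟨e, he⟩ := hdvd
  have he2 : 2 ≤ e := by
    by_contra hlt
    push Not at hlt
    interval_cases e
    · omega
    · omega
  have hN2 : 2 * w ≤ Fintype.card α - t := by
    rw [he]
    nlinarith
  -- the stabilisers of subsets
  obtain ⟨s₁, -, hs₁⟩ := Finset.exists_subset_card_eq (s := (Finset.univ : Finset α)) (n := t + 1)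
    (by rw [Finset.card_univ]; omega)
  obtain ⟨s₂, -, hs₂⟩ := Finset.exists_subset_card_eq (s := (Finset.univ : Finset α)) (n := t + 2)
    (by rw [Finset.card_univ]; omega)
  set S₁ : Set.powersetCard α (t + 1) := ⟨s₁, hs₁⟩
  set S₂ : Set.powersetCard α (t + 2) := ⟨s₂, hs₂⟩
  set K' := Nat.card (MulAction.stabilizer G S₁) with hK'
  set K := Nat.card (MulAction.stabilizer G S₂) with hK
  have hK'c := Cfsg.Agent.Lib.Perm.lw_card_subset hh1 S₁
  have hKc := Cfsg.Agent.Lib.Perm.lw_card_subset hh S₂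
  obtain ⟨n1, n2⟩ := Cfsg.Agent.Lib.Perm.lw_numbers (Fintype.card α) t w K' K (Nat.card G) hkn
    hcard hK'c hKc
  have hKall : ∀ s : Set.powersetCard α (t + 2), Nat.card (MulAction.stabilizer G s) = K := by
    intro s
    have h1 := Cfsg.Agent.Lib.Perm.lw_card_subset hh s
    have hpos : 0 < (Fintype.card α).choose (t + 2) := Nat.choose_pos hkn
    exact Nat.eq_of_mul_eq_mul_left hpos (h1.symm.trans hKc)
  -- reduced equations
  set M := Fintype.card α - t - 1 with hM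
  have hNM : Fintype.card α - t = M + 1 := by omega
  have hM1 : 1 ≤ M := by omega
  have e1 : e * K' = (t + 1).factorial := by
    apply Nat.eq_of_mul_eq_mul_left hw0
    rw [n1, he]
    ring
  have e2 : e * M * K = (t + 2).factorial := by
    apply Nat.eq_of_mul_eq_mul_left hw0
    rw [n2, he]
    ring
  have e3 : M + 1 = w * e := by rw [← hNM, he]
  have halt : w = 1 → Fintype.card α = t + 2 → G = alternatingGroup α := by
    intro hw hn
    apply alt_of_card G hn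
    rw [hcard, hw]
  have he2' : Even w → Fintype.card α - t ≤ 2 * w → False := by
    intro hw hN
    apply hnt'
    exact C.e2 hw hw0 hN ht1 hkn hhom
  by_cases ht4 : 4 ≤ t
  · obtain ⟨h1, h2⟩ := C.lw_large ht4 hkn hN2 hw0 hhom hnt'
    exact Or.inl ⟨h2.symm, halt h1 h2⟩
  · have ht3 : t = 1 ∨ t = 2 ∨ t = 3 := by omega
    rcases ht3 with ht' | ht' | ht'
    · -- `t = 1`
      have e1' : e * K' = 2 := by rw [e1, ht']; rfl
      have e2' : e * M * K = 6 := by rw [e2, ht']; rfl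
      rcases arith1 e M w K K' e1' e2' e3 he2 hM1 with ⟨h1, h2, h3⟩ | ⟨h1, h2, h3⟩
      · exact Or.inl ⟨by omega, halt h3 (by omega)⟩
      · exact (he2' (by rw [h3]; decide) (by omega)).elim
    · -- `t = 2`
      have e1' : e * K' = 6 := by rw [e1, ht']; rfl
      have e2' : e * M * K = 24 := by rw [e2, ht']; rfl
      rcases arith2 e M w K K' e1' e2' e3 he2 hM1 with ⟨h1, h2, h3⟩ | ⟨h1, h2, h3⟩ |
        ⟨h1, h2, h3⟩ | ⟨h1, h2, h3, h4⟩
      · exact Or.inl ⟨by omega, halt h3 (by omega)⟩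
      · exact (he2' (by rw [h3]; decide) (by omega)).elim
      · right; left
        have hn : Fintype.card α = 5 := by omega
        refine ⟨hn, by omega, ?_⟩
        rw [hcard, hn, h3, ht']; rfl
      · exfalso
        have := C.orbit_dvd (by omega) (by omega) (by omega) K hKall
        rw [h3, h4] at this
        omega
    · -- `t = 3`
      have e1' : e * K' = 24 := by rw [e1, ht']; rfl
      have e2' : e * M * K = 120 := by rw [e2, ht']; rfl
      rcases arith3 e M w K K' e1' e2' e3 he2 hM1 with ⟨h1, h2, h3⟩ | ⟨h1, h2, h3⟩ |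
        ⟨h1, h2, h3⟩ | ⟨h1, h2, h3⟩ | ⟨h1, h2, h3⟩ | ⟨h1, h2, h3⟩ | ⟨h1, h2, h3, h4⟩ |
        ⟨h1, h2, h3⟩ | ⟨h1, h2, h3⟩ | ⟨h1, h2, h3, h4⟩ | ⟨h1, h2, h3⟩ | ⟨h1, h2, h3, h4⟩
      · exact Or.inl ⟨by omega, halt h3 (by omega)⟩
      · exact (he2' (by rw [h3]; decide) (by omega)).elim
      · right; right; right
        have hn : Fintype.card α = 9 := by omega
        refine ⟨hn, by omega, Or.inr ?_⟩
        rw [hcard, hn, h3, ht']; rfl
      · exact (he2' (by rw [h3]; decide) (by omega)).elim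
      · right; right; left
        have hn : Fintype.card α = 6 := by omega
        refine ⟨hn, by omega, ?_⟩
        rw [hcard, hn, h3, ht']; rfl
      · exfalso
        have hn : Fintype.card α = 9 := by omega
        have C' : Cfsg.Agent.Lib.Perm.LWCtx G α 3 2 := ht' ▸ h3 ▸ C
        exact C'.sp2 hn (by rw [hcard, hn, h3, ht']; rfl)
      · exfalso
        have := C.orbit_dvd (by omega) (by omega) (by omega) K hKall
        rw [h3, h4] at this
        omega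
      · exfalso
        have C' : Cfsg.Agent.Lib.Perm.LWCtx G α 3 7 := ht' ▸ h3 ▸ C
        have htt' : MulAction.IsMultiplyPretransitive G α 3 := ht' ▸ htt
        exact C'.sp3 htt' (by omega)
      · exfalso
        have C' : Cfsg.Agent.Lib.Perm.LWCtx G α 3 1 := ht' ▸ h3 ▸ C
        have htt' : MulAction.IsMultiplyPretransitive G α 3 := ht' ▸ htt
        exact C'.sp1 htt' (by omega)
      · exfalso
        have := C.orbit_dvd (by omega) (by omega) (by omega) K hKall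
        rw [h3, h4] at this
        omega
      · right; right; right
        have hn : Fintype.card α = 9 := by omega
        refine ⟨hn, by omega, Or.inl ?_⟩
        rw [hcard, hn, h3, ht']; rfl
      · exfalso
        have := C.orbit_dvd (by omega) (by omega) (by omega) K hKall
        rw [h3, h4] at this
        omega

/-- Let `G` have degree `n` and `3 ≤ k ≤ n`; suppose `G` is `(k-2)`-transitive but not `(k-1)`-transitive, and is `(k-1)`-homogeneous and `k`-homogeneous. Then `k = n` and `G` is the alternating group, or `n = 5, k = 4, |G| = 20`, or `n = 6, k = 5, |G| = 120`, or `n = 9, k = 5, |G| ∈ {504, 1512}`. -/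
theorem result {α : Type*} [Fintype α] [DecidableEq α] (G : Subgroup (Equiv.Perm α)) {k : ℕ} (hk : 3 ≤ k) (hkn : k ≤ Fintype.card α) (ht : MulAction.IsMultiplyPretransitive G α (k - 2)) (hnt : ¬ MulAction.IsMultiplyPretransitive G α (k - 1)) (hh1 : MulAction.IsPretransitive G (Set.powersetCard α (k - 1))) (hh : MulAction.IsPretransitive G (Set.powersetCard α k)) : (k = Fintype.card α ∧ G = alternatingGroup α) ∨ (Fintype.card α = 5 ∧ k = 4 ∧ Nat.card G = 20) ∨ (Fintype.card α = 6 ∧ k = 5 ∧ Nat.card G = 120) ∨ (Fintype.card α = 9 ∧ k = 5 ∧ (Nat.card G = 504 ∨ Nat.card G = 1512)) := by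
  obtain ⟨t, rfl⟩ : ∃ t, k = t + 2 := ⟨k - 2, by omega⟩
  exact main G (by omega) hkn ht hnt hh1 hh

end Cfsg.Agent.S0745
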