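import Cfsg.Statements.S0746
import Cfsg.Agent.S0745
import Cfsg.Agent.Lib.Perm.Homog
import Mathlib

set_option autoImplicit false
open Cfsg

namespace Cfsg.Agent.S0746

open scoped Pointwise in
theorem aux {α : Type*} [Fintype α] [DecidableEq α] (G : Subgroup (Equiv.Perm α)) (m : ℕ) :
    2 * (m + 2) ≤ Fintype.card α → MulAction.IsPretransitive G (Set.powersetCard α (m + 2)) →
      MulAction.IsMultiplyPretransitive G α (m + 1) := by
  classical
  induction m with
  | zero =>
    intro hn hh
    have h1 : MulAction.IsPretransitive G (Set.powersetCard α 1) := by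
      refine Cfsg.Agent.Lib.Perm.homog_down G (k := 2) (by norm_num) hh ?_
      intro q _ hq
      have := Nat.le_of_dvd (by norm_num) hq
      omega
    refine ⟨fun x y => ?_⟩
    have hx : ({x 0} : Finset α).card = 1 := Finset.card_singleton _
    have hy : ({y 0} : Finset α).card = 1 := Finset.card_singleton _
    obtain ⟨g, hg⟩ := h1.exists_smul_eq (⟨{x 0}, hx⟩ : Set.powersetCard α 1) ⟨{y 0}, hy⟩
    have h2 : ((g • (⟨{x 0}, hx⟩ : Set.powersetCard α 1) : Set.powersetCard α 1) : Finset α)
        = g • ({x 0} : Finset α) := Set.powersetCard.coe_smul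
    rw [hg] at h2
    have h3 : ({y 0} : Finset α) = g • ({x 0} : Finset α) := h2
    rw [Finset.smul_finset_singleton, Finset.singleton_inj] at h3
    refine ⟨g, ?_⟩
    ext i
    have hi : i = 0 := Fin.ext (by omega)
    rw [hi]
    exact h3.symm
  | succ m ih =>
    intro hn hh
    have h1 : MulAction.IsPretransitive G (Set.powersetCard α (m + 2)) := by
      refine Cfsg.Agent.Lib.Perm.homog_down G (k := m + 3) (by omega) hh ?_
      intro q _ hq
      have := Nat.le_of_dvd (by omega) hq
      omega
    have h2 := ih (by omega) h1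
    by_contra hnt
    have h3 := Cfsg.Agent.S0745.result G (k := m + 3) (by omega) (by omega) h2 hnt h1 hh
    omega

/-- The Livingstone–Wagner Theorem, first form: a `k`-homogeneous group of degree `n` with `4 ≤ 2k ≤ n` is `(k-1)`-transitive. -/
theorem result {α : Type*} [Fintype α] [DecidableEq α] (G : Subgroup (Equiv.Perm α)) {k : ℕ} (hk : 2 ≤ k) (hkn : 2 * k ≤ Fintype.card α) (hh : MulAction.IsPretransitive G (Set.powersetCard α k)) : MulAction.IsMultiplyPretransitive G α (k - 1) := by
  obtain ⟨m, rfl⟩ : ∃ m, k = m + 2 := ⟨k - 2, by omega⟩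
  exact aux G m hkn hh

end Cfsg.Agent.S0746
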