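import Cfsg.Statements.S0757
import Mathlib


set_option autoImplicit false
open Cfsg

namespace Cfsg.Agent.S0757

/-- The two diagonal forms Σ x_i^2 and Σ_(i<n) x_i^2 + α x_n^2 on F^(n+1), with α a non-square and 2 ≠ 0 in F, are inequivalent quadratic forms (so over a finite field of odd order there are exactly two classes of non-singular symmetric bilinear forms in each dimension). -/
theorem result {F : Type*} [Field F] (h2 : (2 : F) ≠ 0) (n : ℕ) (α : F) (hα : ¬ IsSquare α) : ¬ (QuadraticMap.weightedSumSquares F (fun _ : Fin (n + 1) => (1 : F))).Equivalent (QuadraticMap.weightedSumSquares F (fun i : Fin (n + 1) => if i = Fin.last n then α else (1 : F))) := by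
  classical
  rintro ⟨e⟩
  set w2 : Fin (n + 1) → F := fun i => if i = Fin.last n then α else (1 : F) with hw2
  let A : Matrix (Fin (n + 1)) (Fin (n + 1)) F := LinearMap.toMatrix' (e.toLinearEquiv : (Fin (n + 1) → F) →ₗ[F] (Fin (n + 1) → F))
  have hA : ∀ v, A.mulVec v = e v := by
    intro v
    simp only [A, LinearMap.toMatrix'_mulVec]
    rfl
  have hpol : ∀ (w : Fin (n + 1) → F) (x y : Fin (n + 1) → F),
      QuadraticMap.polar (QuadraticMap.weightedSumSquares F w) x y = 2 * ∑ i, w i * (x i * y i) := by
    intro w x y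
    simp only [QuadraticMap.polar, QuadraticMap.weightedSumSquares_apply, smul_eq_mul, Finset.mul_sum, Pi.add_apply]
    rw [← Finset.sum_sub_distrib, ← Finset.sum_sub_distrib]
    apply Finset.sum_congr rfl
    intro i _
    ring
  have hiso : ∀ x y : Fin (n + 1) → F, ∑ i, w2 i * ((A.mulVec x) i * (A.mulVec y) i) = ∑ i, (1 : F) * (x i * y i) := by
    intro x y
    apply mul_left_cancel₀ h2
    rw [← hpol, ← hpol, hA, hA]
    simp only [QuadraticMap.polar]
    rw [← map_add, e.map_app, e.map_app, e.map_app]
  have hmat : A.transpose * Matrix.diagonal w2 * A = 1 := by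
    ext i j
    have h := hiso (Pi.single i 1) (Pi.single j 1)
    simp only [Matrix.mulVec_single_one, Matrix.col_apply] at h
    simp only [Matrix.mul_apply, Matrix.transpose_apply, Matrix.diagonal_apply, Matrix.one_apply]
    have e1 : ∑ i_1, (∑ j_1, A j_1 i * if j_1 = i_1 then w2 j_1 else 0) * A i_1 j = ∑ k, w2 k * (A k i * A k j) := by
      apply Finset.sum_congr rfl
      intro k _
      simp only [mul_ite, mul_zero, Finset.sum_ite_eq', Finset.mem_univ, if_true]
      ring
    rw [e1, h]
    simp [Pi.single_apply, eq_comm]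
  have hdet := congrArg Matrix.det hmat
  rw [Matrix.det_mul, Matrix.det_mul, Matrix.det_transpose, Matrix.det_diagonal, Matrix.det_one] at hdet
  have hprod : ∏ i, w2 i = α := by
    rw [Fin.prod_univ_castSucc]
    simp [hw2, Fin.castSucc_ne_last]
  rw [hprod] at hdet
  have hd0 : A.det ≠ 0 := by
    intro h0
    rw [h0] at hdet
    simp at hdet
  apply hα
  refine ⟨(A.det)⁻¹, ?_⟩
  field_simp
  linear_combination hdet

end Cfsg.Agent.S0757
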