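import Cfsg.Statements.S0758
import Mathlib


set_option autoImplicit false
open Cfsg

namespace Cfsg.Agent.S0758

/-- For a finite field F of odd order q and a non-square α: the form x² + y² is isotropic iff q ≡ 1 mod 4, and the form x² + α y² is isotropic iff q ≡ 3 mod 4. -/
theorem result {F : Type*} [Field F] [Fintype F] (h2 : (2 : F) ≠ 0) (α : F) (hα : ¬ IsSquare α) : ((∃ x y : F, (x ≠ 0 ∨ y ≠ 0) ∧ x ^ 2 + y ^ 2 = 0) ↔ Fintype.card F % 4 = 1) ∧ ((∃ x y : F, (x ≠ 0 ∨ y ≠ 0) ∧ x ^ 2 + α * y ^ 2 = 0) ↔ Fintype.card F % 4 = 3) := by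
  classical
  have hodd : ringChar F ≠ 2 := by
    intro h
    apply h2
    have : CharP F 2 := by rw [← h]; exact ringChar.charP F
    exact CharTwo.two_eq_zero
  have hcard : Fintype.card F % 2 = 1 := FiniteField.odd_card_of_char_ne_two hodd
  have hneg : IsSquare (-1 : F) ↔ Fintype.card F % 4 ≠ 3 := FiniteField.isSquare_neg_one_iff
  have h4 : Fintype.card F % 4 = 1 ∨ Fintype.card F % 4 = 3 := by omega
  have hα0 : α ≠ 0 := by
    rintro rfl
    exact hα (IsSquare.zero)
  have hiso : ∀ a : F, a ≠ 0 → ((∃ x y : F, (x ≠ 0 ∨ y ≠ 0) ∧ x ^ 2 + a * y ^ 2 = 0) ↔ IsSquare (-a)) := by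
    intro a ha
    constructor
    · rintro ⟨x, y, hxy, h⟩
      have hy : y ≠ 0 := by
        rintro rfl
        rcases hxy with hx | hx
        · apply hx
          simpa using h
        · exact hx rfl
      refine ⟨x / y, ?_⟩
      field_simp
      linear_combination - h
    · rintro ⟨r, hr⟩
      refine ⟨r, 1, Or.inr one_ne_zero, ?_⟩
      have : a = - (r * r) := by rw [← hr]; ring
      rw [this]; ring
  constructor
  · have := hiso 1 one_ne_zero
    simp only [one_mul] at this
    rw [this]
    simp only [hneg]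
    omega
  · rw [hiso α hα0]
    have hχα : quadraticChar F α = -1 := by
      rw [quadraticChar_neg_one_iff_not_isSquare]
      exact hα
    have hiff : IsSquare (-α) ↔ ¬ IsSquare (-1 : F) := by
      have hne : (-α) ≠ 0 := neg_ne_zero.2 hα0
      have hm : quadraticChar F (-α) = quadraticChar F (-1) * quadraticChar F α := by
        rw [← map_mul]; simp
      have hn1 : (-1 : F) ≠ 0 := by simp
      have := quadraticChar_sq_one' (F := F) hn1
      rw [quadraticChar_one_iff_isSquare hne |>.symm, hm, hχα]
      rw [← not_iff_not, not_not, ← quadraticChar_one_iff_isSquare hn1]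
      rcases quadraticChar_dichotomy hn1 with h | h
      · rw [h]; simp
      · rw [h]; simp
    rw [hiff, hneg]
    omega

end Cfsg.Agent.S0758
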