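import Cfsg.Statements.S0759
import Mathlib
import Cfsg.Agent.Lib.Classical.SymDisc

set_option autoImplicit false
open Cfsg

namespace Cfsg.Agent.S0759

/-- Type of the orthonormal form: over a finite field of odd order q and for m ≥ 1, the quadratic form Σ_(i<2m) x_i² on F^(2m) admits an m-dimensional subspace on which it vanishes identically if and only if it is not the case that q ≡ 3 (mod 4) and m is odd. -/
theorem result {F : Type*} [Field F] [Fintype F] (h2 : (2 : F) ≠ 0) (m : ℕ) (hm : 1 ≤ m) : (∃ W : Submodule F (Fin (2 * m) → F), Module.finrank F W = m ∧ ∀ w ∈ W, ∑ i, w i ^ 2 = 0) ↔ ¬ (Fintype.card F % 4 = 3 ∧ Odd m) := by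
  classical
  let B : LinearMap.BilinForm F (Fin (2 * m) → F) := Matrix.toBilin' (1 : Matrix (Fin (2 * m)) (Fin (2 * m)) F)
  have hB : ∀ x y, B x y = ∑ i, x i * y i := by
    intro x y
    simp [B, Matrix.toBilin'_apply', dotProduct]
  have hS : B.IsSymm := ⟨fun x y => by
    simp only [hB, RingHom.id_apply]
    exact Finset.sum_congr rfl (fun i _ => mul_comm _ _)⟩
  have hG : LinearMap.BilinForm.toMatrix (Pi.basisFun F (Fin (2 * m))) B = 1 := by
    ext i j
    simp [LinearMap.BilinForm.toMatrix_apply, hB, Pi.single_apply, Matrix.one_apply]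
    by_cases hij : i = j <;> simp [hij, eq_comm]
  have hnd : B.Nondegenerate := by
    rw [LinearMap.BilinForm.nondegenerate_iff_det_ne_zero (Pi.basisFun F (Fin (2 * m))), hG]
    simp
  have hV : Module.finrank F (Fin (2 * m) → F) = 2 * m := by simp
  have hsq : IsSquare ((-1 : F) ^ m * (LinearMap.BilinForm.toMatrix (Pi.basisFun F (Fin (2 * m))) B).det) ↔ ¬ (Fintype.card F % 4 = 3 ∧ Odd m) := by
    rw [hG, Matrix.det_one, mul_one]
    constructor
    · rintro h ⟨h3, hm⟩
      rw [hm.neg_one_pow] at h
      have := FiniteField.isSquare_neg_one_iff.1 h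
      exact this h3
    · intro h
      rcases Nat.even_or_odd m with hm | hm
      · rw [hm.neg_one_pow]
        exact IsSquare.one
      · rw [hm.neg_one_pow]
        apply FiniteField.isSquare_neg_one_iff.2
        intro h3
        exact h ⟨h3, hm⟩
  rw [← hsq]
  constructor
  · rintro ⟨W, hW, hti⟩
    apply Cfsg.Agent.Lib.Classical.ti_imp_disc B hS m hV W hW
    intro x hx y hy
    have h1 := hti (x + y) (W.add_mem hx hy)
    have h3 := hti x hx
    have h4 := hti y hy
    have h5 : ∑ i, (x + y) i ^ 2 = ∑ i, x i ^ 2 + ∑ i, y i ^ 2 + 2 * ∑ i, x i * y i := by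
      rw [Finset.mul_sum, ← Finset.sum_add_distrib, ← Finset.sum_add_distrib]
      apply Finset.sum_congr rfl
      intro i _
      simp only [Pi.add_apply]
      ring
    rw [h5, h3, h4] at h1
    rw [hB]
    have h6 : 2 * ∑ i, x i * y i = 0 := by linear_combination h1
    exact (mul_eq_zero.1 h6).resolve_left h2
  · intro h
    obtain ⟨W, hW, hti⟩ := Cfsg.Agent.Lib.Classical.disc_imp_ti h2 B hS hnd m hV _ h
    refine ⟨W, hW, ?_⟩
    intro w hw
    have := hti w hw w hw
    rw [hB] at this
    rw [← this]
    exact Finset.sum_congr rfl (fun i _ => by ring)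

end Cfsg.Agent.S0759
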