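import Cfsg.Statements.S0760
import Mathlib
import Cfsg.Agent.Lib.Classical.QuadWitt

set_option autoImplicit false
open Cfsg

namespace Cfsg.Agent.S0760

/-- Witt index is well defined: if Q is a quadratic form on a finite-dimensional space V over a finite field with non-degenerate polar form, and W₁, W₂ are subspaces on which Q vanishes that are maximal with this property, then W₁ and W₂ have the same dimension, and twice this dimension is at most dim V. -/
theorem result {F V : Type*} [Field F] [Finite F] [AddCommGroup V] [Module F V] [FiniteDimensional F V] (Q : QuadraticForm F V) (hQ : (QuadraticMap.polarBilin Q).Nondegenerate) (W₁ W₂ : Submodule F V) (h₁ : ∀ w ∈ W₁, Q w = 0) (h₂ : ∀ w ∈ W₂, Q w = 0) (hmax₁ : ∀ W : Submodule F V, W₁ ≤ W → (∀ w ∈ W, Q w = 0) → W = W₁) (hmax₂ : ∀ W : Submodule F V, W₂ ≤ W → (∀ w ∈ W, Q w = 0) → W = W₂) : Module.finrank F W₁ = Module.finrank F W₂ ∧ 2 * Module.finrank F W₁ ≤ Module.finrank F V := by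
  classical
  have hsub : ∀ (A : Submodule F V) (k : ℕ), k ≤ Module.finrank F A → ∃ A' : Submodule F V, A' ≤ A ∧ Module.finrank F A' = k := by
    intro A k h
    let a := Module.finBasis F A
    let fam : Fin k → V := fun i => (a (Fin.castLE h i) : V)
    have hli : LinearIndependent F fam :=
      (a.linearIndependent.comp _ (Fin.castLE_injective h)).map' A.subtype (Submodule.ker_subtype A)
    refine ⟨Submodule.span F (Set.range fam), ?_, ?_⟩
    · rw [Submodule.span_le]
      rintro _ ⟨i, rfl⟩
      exact (a (Fin.castLE h i)).2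
    · rw [finrank_span_eq_card hli, Fintype.card_fin]
  have key : ∀ A B : Submodule F V, (∀ w ∈ A, Q w = 0) → (∀ w ∈ B, Q w = 0) →
      (∀ W : Submodule F V, B ≤ W → (∀ w ∈ W, Q w = 0) → W = B) →
      Module.finrank F B ≤ Module.finrank F A → Module.finrank F A ≤ Module.finrank F B := by
    intro A B hA hB hmaxB hle
    obtain ⟨A', hA'A, hA'⟩ := hsub A _ hle
    let φ : B ≃ₗ[F] A' := LinearEquiv.ofFinrankEq B A' hA'.symm
    obtain ⟨g, hg, hgx⟩ := Cfsg.Agent.Lib.Classical.witt_quad Q hQ B A' φ (by
      intro x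
      rw [hB _ x.2, hA _ (hA'A (φ x).2)])
    have hC : (A.map (g.symm : V →ₗ[F] V)) = B := by
      apply hmaxB
      · intro b hb
        refine ⟨g b, ?_, ?_⟩
        · have := hgx ⟨b, hb⟩
          simp only at this
          rw [SetLike.mem_coe, this]
          exact hA'A (φ ⟨b, hb⟩).2
        · simp
      · rintro _ ⟨a, ha, rfl⟩
        have h1 := hg (g.symm a)
        simp only [LinearEquiv.apply_symm_apply] at h1
        rw [LinearEquiv.coe_coe, ← h1]
        exact hA a ha
    have hfin : Module.finrank F (A.map (g.symm : V →ₗ[F] V)) = Module.finrank F A :=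
      LinearEquiv.finrank_map_eq g.symm A
    rw [← hfin, hC]
  refine ⟨?_, ?_⟩
  · rcases le_total (Module.finrank F W₁) (Module.finrank F W₂) with h | h
    · exact le_antisymm h (key W₂ W₁ h₂ h₁ hmax₁ h)
    · exact le_antisymm (key W₁ W₂ h₁ h₂ hmax₂ h) h
  · have hle : W₁ ≤ LinearMap.BilinForm.orthogonal (QuadraticMap.polarBilin Q) W₁ := by
      intro x hx y hy
      change QuadraticMap.polar Q y x = 0
      simp only [QuadraticMap.polar]
      rw [h₁ _ (add_mem hy hx), h₁ _ hy, h₁ _ hx]
      simp
    have h1 := Submodule.finrank_mono hle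
    rw [LinearMap.BilinForm.finrank_orthogonal hQ] at h1
    have h2 := Submodule.finrank_le W₁
    omega

end Cfsg.Agent.S0760
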