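import Cfsg.Statements.S0761
import Mathlib
import Cfsg.Agent.Lib.Classical.QuadWitt

set_option autoImplicit false
open Cfsg

namespace Cfsg.Agent.S0761

/-- Hyperbolic partners: let B be a non-degenerate bilinear form on a finite-dimensional space, either alternating, or symmetric with 2 ≠ 0. If Z is a subspace on which B vanishes, x ∉ Z is isotropic and orthogonal to Z, then there is an isotropic y with B x y = 1 which is orthogonal to Z. -/
theorem result {F V : Type*} [Field F] [AddCommGroup V] [Module F V] [FiniteDimensional F V] (B : LinearMap.BilinForm F V) (hB : B.Nondegenerate) (hform : B.IsAlt ∨ (B.IsSymm ∧ (2 : F) ≠ 0)) (x : V) (Z : Submodule F V) (hxZ : x ∉ Z) (hx : B x x = 0) (hxz : ∀ z ∈ Z, B x z = 0) (hZ : ∀ z ∈ Z, ∀ z' ∈ Z, B z z' = 0) : ∃ y : V, B y y = 0 ∧ B x y = 1 ∧ ∀ z ∈ Z, B z y = 0 := by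
  classical
  obtain ⟨y0, hy0Z, hy0x⟩ := Cfsg.Agent.Lib.Classical.exists_partner_of_sepRight B hB.2 Z x hxZ
  rcases hform with hA | ⟨hS, h2⟩
  · exact ⟨y0, hA y0, hy0x, hy0Z⟩
  · have hsym : ∀ a b, B a b = B b a := fun a b => hS.eq a b
    refine ⟨y0 + (-(B y0 y0) / 2) • x, ?_, ?_, ?_⟩
    · simp only [map_add, map_smul, LinearMap.add_apply, LinearMap.smul_apply, smul_eq_mul, hx]
      rw [hsym y0 x, hy0x]
      field_simp
      ring
    · simp only [map_add, map_smul, smul_eq_mul, hx, hy0x]
      simp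
    · intro z hz
      simp only [map_add, map_smul, smul_eq_mul]
      rw [hy0Z z hz, hsym z x, hxz z hz]
      simp

end Cfsg.Agent.S0761
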