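import Cfsg.Statements.S0762
import Mathlib


set_option autoImplicit false
open Cfsg

namespace Cfsg.Agent.S0762

/-- In characteristic two over a finite field, a quadratic form on a space of dimension at least 3 vanishes on some non-zero vector. -/
theorem result {F V : Type*} [Field F] [Finite F] [CharP F 2] [AddCommGroup V] [Module F V] [FiniteDimensional F V] (Q : QuadraticForm F V) (h3 : 3 ≤ Module.finrank F V) : ∃ v : V, v ≠ 0 ∧ Q v = 0 := by
  classical
  set n := Module.finrank F V with hn
  let b : Module.Basis (Fin n) F V := Module.finBasis F V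
  let i1 : Fin n := ⟨0, by omega⟩
  let i2 : Fin n := ⟨1, by omega⟩
  let i3 : Fin n := ⟨2, by omega⟩
  have h12 : i1 ≠ i2 := by simp [i1, i2, Fin.ext_iff]
  have h13 : i1 ≠ i3 := by simp [i1, i3, Fin.ext_iff]
  have h23 : i2 ≠ i3 := by simp [i2, i3, Fin.ext_iff]
  have hchar : ∀ a : F, a + a = 0 := CharTwo.add_self_eq_zero
  have hcoord : ∀ i j, b.coord i (b j) = if j = i then 1 else 0 := by
    intro i j
    simp [Module.Basis.coord_apply, Finsupp.single_apply]
  have hne : ∀ i, b i ≠ 0 := fun i => b.ne_zero i
  -- reduction to a pair with polar zero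
  have main : ∀ r w : V, r ≠ 0 → (∀ c : F, w + c • r ≠ 0) → QuadraticMap.polar Q r w = 0 → ∃ v : V, v ≠ 0 ∧ Q v = 0 := by
    intro r w hr hw hp
    by_cases hQ : Q r = 0
    · exact ⟨r, hr, hQ⟩
    · obtain ⟨s, hs⟩ : IsSquare (Q w / Q r) := FiniteField.isSquare_of_char_two (by rw [ringChar.eq F 2]) _
      refine ⟨w + s • r, hw s, ?_⟩
      have hpol : Q (w + s • r) = Q w + Q (s • r) + QuadraticMap.polar Q w (s • r) := by
        simp [QuadraticMap.polar]
      rw [hpol, QuadraticMap.map_smul, QuadraticMap.polar_smul_right, QuadraticMap.polar_comm, hp]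
      have : (s * s) * Q r = Q w := by
        rw [← hs]
        field_simp
      simp only [smul_eq_mul]
      rw [this, mul_zero, add_zero]
      exact hchar _
  by_cases hp : QuadraticMap.polar Q (b i1) (b i2) = 0
  · refine main (b i1) (b i2) (hne i1) ?_ hp
    intro c h
    have h2 := congrArg (b.coord i2) h
    simp only [map_add, map_smul, hcoord, h12, map_zero] at h2
    simpa using h2
  · set p12 := QuadraticMap.polar Q (b i1) (b i2) with hp12
    set p13 := QuadraticMap.polar Q (b i1) (b i3) with hp13
    refine main (b i1) (b i3 + (p13 / p12) • b i2) (hne i1) ?_ ?_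
    · intro c h
      have h2 := congrArg (b.coord i3) h
      simp only [map_add, map_smul, hcoord, h12, h13, h23, map_zero] at h2
      simpa using h2
    · rw [QuadraticMap.polar_add_right, QuadraticMap.polar_smul_right, ← hp12, ← hp13]
      simp only [smul_eq_mul]
      field_simp
      have : (1 + 1 : F) = 0 := hchar 1
      rw [this, mul_zero]

end Cfsg.Agent.S0762
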