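import Cfsg.Statements.S0763
import Mathlib


set_option autoImplicit false
open Cfsg

namespace Cfsg.Agent.S0763

/-- Binary quadratic forms in characteristic two over a finite field: if Q is a quadratic form on a 2-dimensional space whose polar form is non-degenerate, then either there are vectors v, w with Q v = Q w = 0 and polar value 1 (Q is xy in these coordinates), or there are v, w and μ with Q v = 1, Q w = μ, polar value 1 and x² + x + μ without roots in F (Q is x² + xy + μy²). -/
theorem result {F V : Type*} [Field F] [Finite F] [CharP F 2] [AddCommGroup V] [Module F V] (Q : QuadraticForm F V) (h2 : Module.finrank F V = 2) (hQ : (QuadraticMap.polarBilin Q).Nondegenerate) : (∃ v w : V, LinearIndependent F ![v, w] ∧ Q v = 0 ∧ Q w = 0 ∧ QuadraticMap.polar Q v w = 1) ∨ (∃ (v w : V) (μ : F), LinearIndependent F ![v, w] ∧ (∀ x : F, x ^ 2 + x + μ ≠ 0) ∧ Q v = 1 ∧ Q w = μ ∧ QuadraticMap.polar Q v w = 1) := by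
  classical
  have hchar : ∀ a : F, a + a = 0 := CharTwo.add_self_eq_zero
  have hneg : ∀ a : F, -a = a := fun a => neg_eq_of_add_eq_zero_left (hchar a)
  have hpolself : ∀ v, QuadraticMap.polar Q v v = 0 := by
    intro v
    have : QuadraticMap.polar Q v v = 2 * Q v := by
      have h := QuadraticMap.polar_self Q v
      simpa [nsmul_eq_mul] using h
    rw [this, two_mul, hchar]
  -- partners
  have hpartner : ∀ v : V, v ≠ 0 → ∃ w, QuadraticMap.polar Q v w = 1 := by
    intro v hv
    by_contra hcon
    push Not at hcon
    apply hv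
    apply hQ.1 v
    intro w
    by_contra hw
    have hw' : QuadraticMap.polarBilin Q v w ≠ 0 := hw
    apply hcon ((QuadraticMap.polarBilin Q v w)⁻¹ • w)
    have e : QuadraticMap.polar Q v ((QuadraticMap.polarBilin Q v w)⁻¹ • w) = (QuadraticMap.polarBilin Q v) ((QuadraticMap.polarBilin Q v w)⁻¹ • w) := rfl
    rw [e, map_smul, smul_eq_mul, inv_mul_cancel₀ hw']
  have hli : ∀ v w, QuadraticMap.polar Q v w = 1 → LinearIndependent F ![v, w] := by
    intro v w hvw
    rw [LinearIndependent.pair_iff]
    intro s t hst
    have h1 := congrArg (fun x => QuadraticMap.polarBilin Q v x) hst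
    have h2 := congrArg (fun x => QuadraticMap.polarBilin Q w x) hst
    simp only [map_add, map_smul, smul_eq_mul, map_zero] at h1 h2
    have hvw' : QuadraticMap.polarBilin Q v w = 1 := hvw
    have hwv : QuadraticMap.polarBilin Q w v = 1 := by
      have : QuadraticMap.polar Q w v = 1 := by rw [QuadraticMap.polar_comm]; exact hvw
      exact this
    have hvv : QuadraticMap.polarBilin Q v v = 0 := hpolself v
    have hww : QuadraticMap.polarBilin Q w w = 0 := hpolself w
    rw [hvw', hvv] at h1
    rw [hwv, hww] at h2
    constructor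
    · simpa using h2
    · simpa using h1
  have hQadd : ∀ (c : F) (v w : V), Q (c • v + w) = c * c * Q v + Q w + c * QuadraticMap.polar Q v w := by
    intro c v w
    have h : Q (c • v + w) = Q (c • v) + Q w + QuadraticMap.polar Q (c • v) w := by
      simp [QuadraticMap.polar]
    rw [h, QuadraticMap.map_smul, QuadraticMap.polar_smul_left]
    simp [smul_eq_mul, mul_assoc]
  have hV : Nontrivial V := by
    apply Module.nontrivial_of_finrank_pos (R := F)
    omega
  by_cases hiso : ∃ v : V, v ≠ 0 ∧ Q v = 0
  · left
    obtain ⟨v, hv, hQv⟩ := hiso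
    obtain ⟨w, hw⟩ := hpartner v hv
    refine ⟨v, (Q w) • v + w, ?_, hQv, ?_, ?_⟩
    · apply hli
      rw [QuadraticMap.polar_add_right, QuadraticMap.polar_smul_right, hpolself, hw]
      simp
    · rw [hQadd, hQv, hw]
      simp [hchar]
    · rw [QuadraticMap.polar_add_right, QuadraticMap.polar_smul_right, hpolself, hw]
      simp
  · right
    push Not at hiso
    obtain ⟨v0, hv0⟩ := exists_ne (0 : V)
    have hQ0 : Q v0 ≠ 0 := hiso v0 hv0
    obtain ⟨s, hs⟩ : IsSquare ((Q v0)⁻¹) := FiniteField.isSquare_of_char_two (by rw [ringChar.eq F 2]) _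
    have hs0 : s ≠ 0 := by
      rintro rfl
      simp at hs
      exact hQ0 hs
    set v := s • v0 with hv
    have hv1 : Q v = 1 := by
      rw [hv, QuadraticMap.map_smul]
      simp only [smul_eq_mul]
      rw [← hs, inv_mul_cancel₀ hQ0]
    have hvne : v ≠ 0 := by
      intro h
      rw [h] at hv1
      simp at hv1
    obtain ⟨w, hw⟩ := hpartner v hvne
    refine ⟨v, w, Q w, hli v w hw, ?_, hv1, rfl, hw⟩
    intro x hx
    have hne : x • v + w ≠ 0 := by
      intro h0
      have h1 := congrArg (fun y => QuadraticMap.polarBilin Q v y) h0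
      simp only [map_add, map_smul, smul_eq_mul, map_zero] at h1
      have hvw' : QuadraticMap.polarBilin Q v w = 1 := hw
      have hvv : QuadraticMap.polarBilin Q v v = 0 := hpolself v
      rw [hvw', hvv] at h1
      simp at h1
    apply hiso _ hne
    rw [hQadd, hv1, hw]
    linear_combination hx

end Cfsg.Agent.S0763
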