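import Cfsg.Statements.S0769
import Mathlib
import Cfsg.Agent.Lib.Classical.HermCount

set_option autoImplicit false
open Cfsg

namespace Cfsg.Agent.S0769

/-- Order of the Borel subgroup of GL_n(q): the invertible lower-triangular n × n matrices over a field with q elements number q^(n(n-1)/2) (q-1)^n (unitriangular part times the diagonal torus). -/
theorem result {F : Type*} [Field F] [Fintype F] {q : ℕ} (hF : Fintype.card F = q) (n : ℕ) : Nat.card {g : Matrix.GeneralLinearGroup (Fin n) F // ∀ i j : Fin n, i < j → (g : Matrix (Fin n) (Fin n) F) i j = 0} = q ^ (n * (n - 1) / 2) * (q - 1) ^ n := by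
  classical
  -- the matrices
  have hdet : ∀ M : Matrix (Fin n) (Fin n) F, (∀ i j : Fin n, i < j → M i j = 0) → M.det = ∏ i, M i i := by
    intro M hM
    apply Matrix.det_of_isLowerTriangular
    intro i j hij
    exact hM i j hij
  have hdiag : ∀ (g : {g : Matrix.GeneralLinearGroup (Fin n) F // ∀ i j : Fin n, i < j → (g : Matrix (Fin n) (Fin n) F) i j = 0}) (i : Fin n),
      (g.1 : Matrix (Fin n) (Fin n) F) i i ≠ 0 := by
    intro g i
    have h1 : IsUnit (g.1 : Matrix (Fin n) (Fin n) F).det := (Matrix.isUnit_iff_isUnit_det _).1 g.1.isUnit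
    rw [hdet _ g.2] at h1
    exact Finset.prod_ne_zero_iff.1 h1.ne_zero i (Finset.mem_univ i)
  let mk : (Fin n → Fˣ) × ({p : Fin n × Fin n // p.2 < p.1} → F) → Matrix (Fin n) (Fin n) F := fun x =>
    Matrix.of fun i j => if h : j < i then x.2 ⟨(i, j), h⟩ else if i = j then (x.1 i : F) else 0
  have hmk : ∀ x, ∀ i j : Fin n, i < j → mk x i j = 0 := by
    intro x i j hij
    simp [mk, not_lt.2 hij.le, hij.ne]
  have hmkd : ∀ x, ∀ i : Fin n, mk x i i = (x.1 i : F) := by
    intro x i
    simp [mk]
  have hmkdet : ∀ x, (mk x).det ≠ 0 := by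
    intro x
    rw [hdet _ (hmk x)]
    apply Finset.prod_ne_zero_iff.2
    intro i _
    rw [hmkd]
    exact (x.1 i).ne_zero
  let E : {g : Matrix.GeneralLinearGroup (Fin n) F // ∀ i j : Fin n, i < j → (g : Matrix (Fin n) (Fin n) F) i j = 0} ≃
      (Fin n → Fˣ) × ({p : Fin n × Fin n // p.2 < p.1} → F) :=
    { toFun := fun g => (fun i => Units.mk0 _ (hdiag g i), fun p => (g.1 : Matrix (Fin n) (Fin n) F) p.1.1 p.1.2)
      invFun := fun x => ⟨Matrix.GeneralLinearGroup.mkOfDetNeZero (mk x) (hmkdet x), hmk x⟩
      left_inv := by
        intro g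
        apply Subtype.ext
        apply Units.ext
        ext i j
        change mk _ i j = _
        simp only [mk, Matrix.of_apply]
        split_ifs with h1 h2
        · rfl
        · subst h2
          simp
        · have hij : i < j := by
            rcases lt_trichotomy i j with h | h | h
            · exact h
            · exact absurd h h2
            · exact absurd h h1
          exact (g.2 i j hij).symm
      right_inv := by
        intro x
        apply Prod.ext
        · funext i
          apply Units.ext
          change mk x i i = _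
          exact hmkd x i
        · funext p
          change mk x p.1.1 p.1.2 = _
          simp [mk, p.2] }
  rw [Nat.card_congr E, Nat.card_prod, Nat.card_fun, Nat.card_fun]
  have h1 : Nat.card Fˣ = q - 1 := by
    rw [Nat.card_eq_fintype_card, Fintype.card_units, hF]
  have h2 : Nat.card {p : Fin n × Fin n // p.2 < p.1} = n * (n - 1) / 2 := by
    have h3 := Cfsg.Agent.Lib.Classical.card_pair_subtype (fun (i j : Fin n) => j < i)
    rw [h3]
    have h4 : ∀ i : Fin n, Nat.card {j : Fin n // j < i} = (i : ℕ) := by
      intro i
      rw [Nat.card_eq_fintype_card, Fintype.card_subtype]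
      have : (Finset.univ.filter (fun j : Fin n => j < i)) = Finset.Iio i := by
        ext j
        simp
      rw [this, Fin.card_Iio]
    rw [Finset.sum_congr rfl (fun i _ => h4 i), Fin.sum_univ_eq_sum_range (fun i => i) n, Finset.sum_range_id]
  rw [h1, h2, Nat.card_fin, Nat.card_eq_fintype_card, hF, mul_comm]

end Cfsg.Agent.S0769
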