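import Cfsg.Statements.S0770
import Mathlib


set_option autoImplicit false
open Cfsg

namespace Cfsg.Agent.S0770

/-- For a field with at least 3 elements, an invertible matrix normalises the subgroup of invertible diagonal matrices of GL_n if and only if it is monomial (exactly one non-zero entry in each row). -/
theorem result {F : Type*} [Field F] (hF : ∃ a : F, a ≠ 0 ∧ a ≠ 1) (n : ℕ) (g : Matrix.GeneralLinearGroup (Fin n) F) : g ∈ Subgroup.normalizer ((Units.map (Matrix.diagonalRingHom (Fin n) F).toMonoidHom).range : Subgroup (Matrix.GeneralLinearGroup (Fin n) F)) ↔ ∀ i : Fin n, ∃! j : Fin n, (g : Matrix (Fin n) (Fin n) F) i j ≠ 0 := by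
  classical
  set D := ((Units.map (Matrix.diagonalRingHom (Fin n) F).toMonoidHom).range : Subgroup (Matrix.GeneralLinearGroup (Fin n) F)) with hD
  have memD : ∀ h : Matrix.GeneralLinearGroup (Fin n) F, h ∈ D ↔ ∃ v : Fin n → F, (∀ i, v i ≠ 0) ∧ (h : Matrix (Fin n) (Fin n) F) = Matrix.diagonal v := by
    intro h
    constructor
    · rintro ⟨u, rfl⟩
      refine ⟨(u : Fin n → F), ?_, rfl⟩
      intro i h0
      have h1 := congrFun u.val_inv i
      simp only [Pi.mul_apply, Pi.one_apply, h0, zero_mul] at h1
      exact zero_ne_one h1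
    · rintro ⟨v, hv, hh⟩
      let u : (Fin n → F)ˣ :=
        { val := v
          inv := fun i => (v i)⁻¹
          val_inv := by
            funext i
            simp [hv i]
          inv_val := by
            funext i
            simp [hv i] }
      refine ⟨u, ?_⟩
      apply Units.ext
      rw [hh]
      rfl
  constructor
  · intro hg i
    have hex : ∃ j, (g : Matrix (Fin n) (Fin n) F) i j ≠ 0 := by
      by_contra hcon
      push Not at hcon
      have h1 : (g : Matrix (Fin n) (Fin n) F).det = 0 := Matrix.det_eq_zero_of_row_eq_zero i hcon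
      have h2 : IsUnit (g : Matrix (Fin n) (Fin n) F).det := (Matrix.isUnit_iff_isUnit_det _).1 g.isUnit
      rw [h1] at h2
      exact not_isUnit_zero h2
    obtain ⟨j, hj⟩ := hex
    refine ⟨j, hj, ?_⟩
    intro j' hj'
    by_contra hne
    obtain ⟨a, ha0, ha1⟩ := hF
    let x : Fin n → F := fun k => if k = j then a else 1
    have hx : ∀ k, x k ≠ 0 := by
      intro k
      simp only [x]
      split_ifs
      · exact ha0
      · exact one_ne_zero
    let d : Matrix.GeneralLinearGroup (Fin n) F :=
      Matrix.GeneralLinearGroup.mkOfDetNeZero (Matrix.diagonal x) (by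
        rw [Matrix.det_diagonal]
        exact Finset.prod_ne_zero_iff.2 (fun k _ => hx k))
    have hd : d ∈ D := (memD d).2 ⟨x, hx, rfl⟩
    have hconj := (Subgroup.mem_normalizer_iff.1 hg d).1 hd
    obtain ⟨v, hv, hgd⟩ := (memD _).1 hconj
    have hgd' : (g : Matrix (Fin n) (Fin n) F) * Matrix.diagonal x = Matrix.diagonal v * (g : Matrix (Fin n) (Fin n) F) := by
      rw [← hgd]
      have : ((g * d * g⁻¹ * g : Matrix.GeneralLinearGroup (Fin n) F) : Matrix (Fin n) (Fin n) F) = ((g * d : Matrix.GeneralLinearGroup (Fin n) F) : Matrix (Fin n) (Fin n) F) := by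
        rw [inv_mul_cancel_right]
      exact this.symm
    have e1 := congrFun (congrFun hgd' i) j
    have e2 := congrFun (congrFun hgd' i) j'
    simp only [Matrix.mul_diagonal, Matrix.diagonal_mul, x, if_true, if_neg hne] at e1 e2
    have h1 : v i = a := by
      have : (v i - a) * (g : Matrix (Fin n) (Fin n) F) i j = 0 := by linear_combination -e1
      exact sub_eq_zero.1 ((mul_eq_zero.1 this).resolve_right hj)
    have h2 : v i = 1 := by
      have : (v i - 1) * (g : Matrix (Fin n) (Fin n) F) i j' = 0 := by linear_combination -e2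
      exact sub_eq_zero.1 ((mul_eq_zero.1 this).resolve_right hj')
    exact ha1 (h1.symm.trans h2)
  · intro hg
    choose π hπ hπu using hg
    have hsurj : Function.Surjective π := by
      intro j
      by_contra hcon
      push Not at hcon
      have h1 : (g : Matrix (Fin n) (Fin n) F).det = 0 := by
        apply Matrix.det_eq_zero_of_column_eq_zero j
        intro i
        by_contra hij
        exact hcon i (hπu i j hij).symm
      have h2 : IsUnit (g : Matrix (Fin n) (Fin n) F).det := (Matrix.isUnit_iff_isUnit_det _).1 g.isUnit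
      rw [h1] at h2
      exact not_isUnit_zero h2
    have hbij : Function.Bijective π := ⟨Finite.injective_iff_surjective.2 hsurj, hsurj⟩
    let e : Equiv.Perm (Fin n) := Equiv.ofBijective π hbij
    have hcomm : ∀ x : Fin n → F, (g : Matrix (Fin n) (Fin n) F) * Matrix.diagonal x = Matrix.diagonal (x ∘ π) * (g : Matrix (Fin n) (Fin n) F) := by
      intro x
      ext r s
      simp only [Matrix.mul_diagonal, Matrix.diagonal_mul, Function.comp]
      by_cases h0 : (g : Matrix (Fin n) (Fin n) F) r s = 0
      · simp [h0]
      · rw [← hπu r s h0]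
        ring
    have hconjmat : ∀ (h : Matrix.GeneralLinearGroup (Fin n) F) (x : Fin n → F), (h : Matrix (Fin n) (Fin n) F) = Matrix.diagonal x →
        ((g * h * g⁻¹ : Matrix.GeneralLinearGroup (Fin n) F) : Matrix (Fin n) (Fin n) F) = Matrix.diagonal (x ∘ π) := by
      intro h x hh
      have e1 : ((g * h * g⁻¹ : Matrix.GeneralLinearGroup (Fin n) F) : Matrix (Fin n) (Fin n) F) = (g : Matrix (Fin n) (Fin n) F) * (h : Matrix (Fin n) (Fin n) F) * ((g⁻¹ : Matrix.GeneralLinearGroup (Fin n) F) : Matrix (Fin n) (Fin n) F) := rfl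
      rw [e1, hh, hcomm, mul_assoc]
      have e2 : (g : Matrix (Fin n) (Fin n) F) * ((g⁻¹ : Matrix.GeneralLinearGroup (Fin n) F) : Matrix (Fin n) (Fin n) F) = 1 := g.val_inv
      rw [e2, mul_one]
    rw [Subgroup.mem_normalizer_iff]
    intro h
    constructor
    · intro hh
      obtain ⟨x, hx, hxh⟩ := (memD h).1 hh
      exact (memD _).2 ⟨x ∘ π, fun i => hx _, hconjmat h x hxh⟩
    · intro hh
      obtain ⟨y, hy, hyh⟩ := (memD _).1 hh
      let x : Fin n → F := y ∘ e.symm
      have hx : ∀ i, x i ≠ 0 := fun i => hy _
      let d : Matrix.GeneralLinearGroup (Fin n) F :=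
        Matrix.GeneralLinearGroup.mkOfDetNeZero (Matrix.diagonal x) (by
          rw [Matrix.det_diagonal]
          exact Finset.prod_ne_zero_iff.2 (fun k _ => hx k))
      have hxe : x ∘ π = y := by
        funext i
        simp only [x, Function.comp]
        have : e.symm (π i) = i := e.symm_apply_apply i
        rw [this]
      have h1 := hconjmat d x rfl
      rw [hxe] at h1
      have h2 : g * d * g⁻¹ = g * h * g⁻¹ := Units.ext (h1.trans hyh.symm)
      have h3 : d = h := by
        have := mul_right_cancel h2
        exact mul_left_cancel this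
      rw [← h3]
      exact (memD d).2 ⟨x, hx, rfl⟩

end Cfsg.Agent.S0770
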