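import Cfsg.Statements.S0778
import Mathlib
import Cfsg.Agent.Lib.Classical.Symp

set_option autoImplicit false
open Cfsg

namespace Cfsg.Agent.S0778

/-- The elements of Sp_2m(F) stabilising both W = ⟨e_1..e_m⟩ and U = ⟨f_1..f_m⟩ form a subgroup isomorphic to GL_m(F) (block-diagonal matrices diag(X, X^(−ᵀ)) up to the sign convention of J), for m ≥ 1 or m = 0 alike. -/
theorem result {F : Type*} [Field F] (m : ℕ) : Nonempty (↥(Cfsg.stabilizing (Cfsg.spToMat m F) {v : Fin m ⊕ Fin m → F | ∀ i : Fin m, v (Sum.inr i) = 0} ⊓ Cfsg.stabilizing (Cfsg.spToMat m F) {v : Fin m ⊕ Fin m → F | ∀ i : Fin m, v (Sum.inl i) = 0}) ≃* Matrix.GeneralLinearGroup (Fin m) F) := by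
  classical
  have hdiagmem : ∀ X : Matrix.GeneralLinearGroup (Fin m) F,
      Matrix.fromBlocks (X : Matrix (Fin m) (Fin m) F) 0 0 ((X⁻¹ : Matrix.GeneralLinearGroup (Fin m) F) : Matrix (Fin m) (Fin m) F).transpose ∈ Matrix.symplecticGroup (Fin m) F := by
    intro X
    rw [SymplecticGroup.mem_iff]
    have h1 : (X : Matrix (Fin m) (Fin m) F) * ((X⁻¹ : Matrix.GeneralLinearGroup (Fin m) F) : Matrix (Fin m) (Fin m) F) = 1 := X.val_inv
    have h2 : (((X⁻¹ : Matrix.GeneralLinearGroup (Fin m) F) : Matrix (Fin m) (Fin m) F).transpose) * (X : Matrix (Fin m) (Fin m) F).transpose = 1 := by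
      rw [← Matrix.transpose_mul, h1, Matrix.transpose_one]
    rw [Matrix.J, Matrix.fromBlocks_transpose, Matrix.fromBlocks_multiply, Matrix.fromBlocks_multiply]
    simp [h1, h2, -Matrix.coe_units_inv]
  have hdetne : ∀ X : Matrix.GeneralLinearGroup (Fin m) F, ∀ z : Fin m → F, Matrix.mulVec (X : Matrix (Fin m) (Fin m) F) z = 0 → z = 0 := by
    intro X z hz
    apply Matrix.eq_zero_of_mulVec_eq_zero _ hz
    exact ((Matrix.isUnit_iff_isUnit_det _).1 X.isUnit).ne_zero
  have hdetne' : ∀ X : Matrix.GeneralLinearGroup (Fin m) F, ∀ z : Fin m → F, Matrix.mulVec (X : Matrix (Fin m) (Fin m) F).transpose z = 0 → z = 0 := by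
    intro X z hz
    apply Matrix.eq_zero_of_mulVec_eq_zero _ hz
    rw [Matrix.det_transpose]
    exact ((Matrix.isUnit_iff_isUnit_det _).1 X.isUnit).ne_zero
  have hstab1 : ∀ X : Matrix.GeneralLinearGroup (Fin m) F, (⟨_, hdiagmem X⟩ : Matrix.symplecticGroup (Fin m) F) ∈
      Cfsg.stabilizing (Cfsg.spToMat m F) {v : Fin m ⊕ Fin m → F | ∀ i : Fin m, v (Sum.inr i) = 0} := by
    intro X v
    change (∀ i, v (Sum.inr i) = 0) ↔ ∀ i, (Matrix.mulVec (Matrix.fromBlocks _ 0 0 _) v) (Sum.inr i) = 0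
    simp only [Matrix.fromBlocks_mulVec, Sum.elim_inr, Matrix.zero_mulVec, zero_add]
    constructor
    · intro h i
      have : (v ∘ Sum.inr) = 0 := funext h
      rw [this, Matrix.mulVec_zero]
      rfl
    · intro h i
      have h1 := hdetne' X⁻¹ (v ∘ Sum.inr) (funext h)
      exact congrFun h1 i
  have hstab2 : ∀ X : Matrix.GeneralLinearGroup (Fin m) F, (⟨_, hdiagmem X⟩ : Matrix.symplecticGroup (Fin m) F) ∈
      Cfsg.stabilizing (Cfsg.spToMat m F) {v : Fin m ⊕ Fin m → F | ∀ i : Fin m, v (Sum.inl i) = 0} := by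
    intro X v
    change (∀ i, v (Sum.inl i) = 0) ↔ ∀ i, (Matrix.mulVec (Matrix.fromBlocks _ 0 0 _) v) (Sum.inl i) = 0
    simp only [Matrix.fromBlocks_mulVec, Sum.elim_inl, Matrix.zero_mulVec, add_zero]
    constructor
    · intro h i
      have : (v ∘ Sum.inl) = 0 := funext h
      rw [this, Matrix.mulVec_zero]
      rfl
    · intro h i
      have h1 := hdetne X (v ∘ Sum.inl) (funext h)
      exact congrFun h1 i
  let φ : Matrix.GeneralLinearGroup (Fin m) F →* ↥(Cfsg.stabilizing (Cfsg.spToMat m F) {v : Fin m ⊕ Fin m → F | ∀ i : Fin m, v (Sum.inr i) = 0} ⊓ Cfsg.stabilizing (Cfsg.spToMat m F) {v : Fin m ⊕ Fin m → F | ∀ i : Fin m, v (Sum.inl i) = 0}) :=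
    MonoidHom.mk' (fun X => ⟨⟨_, hdiagmem X⟩, hstab1 X, hstab2 X⟩) (by
      intro X Y
      apply Subtype.ext
      apply Subtype.ext
      change Matrix.fromBlocks _ 0 0 _ = Matrix.fromBlocks _ 0 0 _ * Matrix.fromBlocks _ 0 0 _
      rw [Matrix.fromBlocks_multiply]
      simp only [mul_zero, zero_mul, add_zero, zero_add]
      congr 1
      rw [← Matrix.transpose_mul, mul_inv_rev]
      rfl)
  have hinj : Function.Injective φ := by
    intro X Y hXY
    have h1 := congrArg (fun a => a.1.1) hXY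
    apply Units.ext
    exact (Matrix.fromBlocks_inj.1 h1).1
  have hsurj : Function.Surjective φ := by
    rintro ⟨A, hA1, hA2⟩
    have hB : (A.1).toBlocks₁₂ = 0 := by
      ext r j
      have h := (hA2 (Pi.single (Sum.inr j) 1)).1 (by
        intro i
        simp)
      have h3 := h r
      have h4 : A.1 (Sum.inl r) (Sum.inr j) = 0 := by simpa [Cfsg.spToMat, Matrix.mulVec_single_one] using h3
      exact h4
    have hC : (A.1).toBlocks₂₁ = 0 := by
      ext r j
      have h := (hA1 (Pi.single (Sum.inl j) 1)).1 (by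
        intro i
        simp)
      have h3 := h r
      have h4 : A.1 (Sum.inr r) (Sum.inl j) = 0 := by simpa [Cfsg.spToMat, Matrix.mulVec_single_one] using h3
      exact h4
    have hfb : A.1 = Matrix.fromBlocks (A.1).toBlocks₁₁ 0 0 (A.1).toBlocks₂₂ := by
      conv_lhs => rw [← Matrix.fromBlocks_toBlocks A.1, hB, hC]
    have hsym := SymplecticGroup.mem_iff.1 A.2
    rw [hfb, Matrix.J, Matrix.fromBlocks_transpose, Matrix.fromBlocks_multiply, Matrix.fromBlocks_multiply] at hsym
    simp only [mul_zero, zero_mul, add_zero, zero_add, Matrix.transpose_zero, mul_neg, mul_one, neg_mul] at hsym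
    have hXY := (Matrix.fromBlocks_inj.1 hsym).2.1
    have hXY' : (A.1).toBlocks₁₁ * ((A.1).toBlocks₂₂).transpose = 1 := neg_injective hXY
    let X : Matrix.GeneralLinearGroup (Fin m) F :=
      { val := (A.1).toBlocks₁₁
        inv := ((A.1).toBlocks₂₂).transpose
        val_inv := hXY'
        inv_val := mul_eq_one_comm.1 hXY' }
    refine ⟨X, ?_⟩
    apply Subtype.ext
    apply Subtype.ext
    change Matrix.fromBlocks (A.1).toBlocks₁₁ 0 0 (((A.1).toBlocks₂₂).transpose).transpose = A.1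
    rw [Matrix.transpose_transpose]
    exact hfb.symm
  exact ⟨(MulEquiv.ofBijective φ ⟨hinj, hsurj⟩).symm⟩

end Cfsg.Agent.S0778
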