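import Cfsg.Statements.S0779
import Mathlib
import Cfsg.Agent.Lib.Classical.Herm

set_option autoImplicit false
open Cfsg

namespace Cfsg.Agent.S0779

/-- Unitary transvections: let |F| = q², h the standard Hermitian form Σ x_i y_i^q and v ≠ 0 with h(v, v) = 0. The linear map x ↦ x + c h(x, v) v is an isometry of h if and only if c = 0 or c^(q−1) = −1. -/
theorem result {F : Type*} [Field F] [Fintype F] {q : ℕ} (hF : Fintype.card F = q ^ 2) (n : ℕ) (v : Fin n → F) (hv : v ≠ 0) (hv0 : Cfsg.hermForm n F q v v = 0) (c : F) : (∀ x y : Fin n → F, Cfsg.hermForm n F q ((Cfsg.unitaryTransvection n q v c).mulVec x) ((Cfsg.unitaryTransvection n q v c).mulVec y) = Cfsg.hermForm n F q x y) ↔ (c = 0 ∨ c ^ (q - 1) = -1) := by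
  have hq2 := Cfsg.Agent.Lib.Classical.two_le_q hF
  have hform := Cfsg.Agent.Lib.Classical.unitaryT_form hF v hv0 c
  constructor
  · intro h
    obtain ⟨y, hy⟩ : ∃ y, Cfsg.hermForm n F q v y ≠ 0 := by
      by_contra hcon
      push Not at hcon
      exact hv (Cfsg.Agent.Lib.Classical.herm_nondeg_right hF hcon)
    have hx : Cfsg.hermForm n F q y v ≠ 0 := by
      rw [Cfsg.Agent.Lib.Classical.herm_conj hF v y]
      exact pow_ne_zero _ hy
    have h1 := hform y y
    rw [h y y] at h1
    have h2 : (c + c ^ q) * (Cfsg.hermForm n F q y v * Cfsg.hermForm n F q v y) = 0 := by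
      linear_combination -h1
    have h3 : c + c ^ q = 0 := by
      rcases mul_eq_zero.1 h2 with h3 | h3
      · exact h3
      · exact absurd h3 (mul_ne_zero hx hy)
    by_cases hc : c = 0
    · exact Or.inl hc
    · right
      have h4 : c ^ q = c * c ^ (q - 1) := by
        rw [← pow_succ']
        congr 1
        omega
      rw [h4] at h3
      have h5 : c * (1 + c ^ (q - 1)) = 0 := by linear_combination h3
      rcases mul_eq_zero.1 h5 with h6 | h6
      · exact absurd h6 hc
      · linear_combination h6
  · intro h x y
    rw [hform]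
    have h3 : c + c ^ q = 0 := by
      rcases h with rfl | h
      · simp
        omega
      · have h4 : c ^ q = c * c ^ (q - 1) := by
          rw [← pow_succ']
          congr 1
          omega
        rw [h4, h]
        ring
    rw [h3]
    ring

end Cfsg.Agent.S0779
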