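import Cfsg.Statements.S0785
import Mathlib
import Cfsg.Agent.Lib.Classical.Reflect

set_option autoImplicit false
open Cfsg

namespace Cfsg.Agent.S0785

/-- det(I) = {±1}: for a quadratic form on F^n whose polar form is non-degenerate, every element of the isometry group has determinant 1 or −1, and as soon as Q takes a non-zero value some isometry has determinant −1. -/
theorem result {F : Type*} [Field F] {n : ℕ} (Q : QuadraticForm F (Fin n → F)) (hQ : (QuadraticMap.polarBilin Q).Nondegenerate) : (∀ g : ↥(Cfsg.isometryGroup F ⇑Q), ((g : Matrix.GeneralLinearGroup (Fin n) F) : Matrix (Fin n) (Fin n) F).det = 1 ∨ ((g : Matrix.GeneralLinearGroup (Fin n) F) : Matrix (Fin n) (Fin n) F).det = -1) ∧ ((∃ v, Q v ≠ 0) → ∃ g : ↥(Cfsg.isometryGroup F ⇑Q), ((g : Matrix.GeneralLinearGroup (Fin n) F) : Matrix (Fin n) (Fin n) F).det = -1) := by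
  constructor
  · intro g
    have h := Cfsg.Agent.Lib.Classical.det_sq_of_isometry Q hQ ((g : Matrix.GeneralLinearGroup (Fin n) F) : Matrix (Fin n) (Fin n) F) (fun x => g.2 x 0)
    exact mul_self_eq_one_iff.1 h
  · rintro ⟨v, hv⟩
    exact ⟨Cfsg.Agent.Lib.Classical.reflectionIso Q v hv, Cfsg.Agent.Lib.Classical.reflection_det Q v hv⟩

end Cfsg.Agent.S0785
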