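import Cfsg.Statements.S0792
import Mathlib
import Cfsg.Agent.Lib.Spinor.Cor

set_option autoImplicit false
open Cfsg

namespace Cfsg.Agent.S0792

open Cfsg.Agent.Lib.Spinor Cfsg.Agent.Lib.Classical


/-- For q odd and Q with non-degenerate polar form on F^n, the determinant-one isometries form the subgroup generated by all products r_u r_v of two reflections (Q(u), Q(v) ≠ 0). -/
theorem result {F : Type*} [Field F] [Fintype F] (h2 : (2 : F) ≠ 0) {n : ℕ} (Q : QuadraticForm F (Fin n → F)) (hQ : (QuadraticMap.polarBilin Q).Nondegenerate) : Cfsg.specialIsometryGroup F ⇑Q = Subgroup.closure {g : ↥(Cfsg.isometryGroup F ⇑Q) | ∃ u v : Fin n → F, Q u ≠ 0 ∧ Q v ≠ 0 ∧ ((g : Matrix.GeneralLinearGroup (Fin n) F) : Matrix (Fin n) (Fin n) F) = Cfsg.reflectionMatrix ⇑Q u * Cfsg.reflectionMatrix ⇑Q v} := by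
  have hq : Fintype.card F ≠ 2 ∨ Fintype.card (Fin n) ≠ 4 := Or.inl (fun h => h2 (by
    have := FiniteField.cast_card_eq_zero F
    rw [h] at this
    exact_mod_cast this))
  have hne : (-1 : F) ≠ 1 := by
    intro h
    apply h2
    linear_combination -h
  apply le_antisymm
  · intro g hg
    obtain ⟨vs, hv, rfl⟩ := exists_lp hQ hq g
    apply lp_even_mem_closure hv
    have h1 : (OG.mat (lp Q vs)).det = 1 := by
      have : Matrix.GeneralLinearGroup.det.comp (Cfsg.isometryGroup F ⇑Q).subtype (lp Q vs) = 1 := hg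
      have h3 := congrArg Units.val this
      simpa using h3
    rw [lp_mat hv, det_list_prod vs hv] at h1
    exact (neg_one_pow_eq_one_iff_even hne).1 h1
  · rw [Subgroup.closure_le]
    rintro g ⟨u, v, hu, hv, e⟩
    show Matrix.GeneralLinearGroup.det.comp (Cfsg.isometryGroup F ⇑Q).subtype g = 1
    apply Units.ext
    show (OG.mat g).det = 1
    have e' : OG.mat g = _ := e
    rw [e', Matrix.det_mul, reflection_det Q u hu, reflection_det Q v hv]
    ring

end Cfsg.Agent.S0792
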