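import Cfsg.Statements.S0794
import Mathlib
import Cfsg.Agent.Lib.Spinor.Cor

set_option autoImplicit false
open Cfsg

namespace Cfsg.Agent.S0794

open Cfsg.Agent.Lib.Spinor Cfsg.Agent.Lib.ClassMax.OmegaCore Matrix
open scoped commutatorElement

/-- The Siegel element as an isometry. -/
theorem exists_sg_og {F : Type*} [Field F] [Fintype F] {n : ℕ} {Q : QuadraticForm F (Fin n → F)} (hQ : (QuadraticMap.polarBilin Q).Nondegenerate)
    {u x : Fin n → F} (hu : Q u = 0) (hx : QuadraticMap.polar ⇑Q u x = 0) :
    ∃ E : OG Q, ∀ v, OG.mat E *ᵥ v = sgF Q u x v := by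
  obtain ⟨E, hE⟩ := exists_sg (ndf hQ) hu hx
  refine ⟨⟨E, (mem_iso_iff _).2 ?_⟩, ?_⟩
  · intro v
    rw [hE]
    exact sgF_Q hu hx v
  · intro v
    exact hE v


/-- For q odd, n ≥ 5 and Q with non-degenerate polar form: an isometry whose matrix is a Siegel transformation T_(u,v)(c) (u, v singular and orthogonal) is a commutator in the isometry group, so lies in Ω. -/
theorem result {F : Type*} [Field F] [Fintype F] (h2 : (2 : F) ≠ 0) {n : ℕ} (hn : 5 ≤ n) (Q : QuadraticForm F (Fin n → F)) (hQ : (QuadraticMap.polarBilin Q).Nondegenerate) (u v : Fin n → F) (hu : Q u = 0) (hv : Q v = 0) (huv : QuadraticMap.polar ⇑Q u v = 0) (c : F) (g : ↥(Cfsg.isometryGroup F ⇑Q)) (hg : ((g : Matrix.GeneralLinearGroup (Fin n) F) : Matrix (Fin n) (Fin n) F) = Cfsg.siegelMatrix ⇑Q u v c) : g ∈ commutatorSet ↥(Cfsg.isometryGroup F ⇑Q) ∧ g ∈ Cfsg.Omega F ⇑Q := by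
  have hmem : g ∈ commutatorSet ↥(Cfsg.isometryGroup F ⇑Q) := by
    by_cases hdep : ∃ t w : F, (t ≠ 0 ∨ w ≠ 0) ∧ t • u + w • v = 0
    · -- dependent vectors give the identity
      have h1 : g = 1 := by
        apply OG.ext'
        rw [show OG.mat g = _ from hg]
        show Cfsg.siegelMatrix ⇑Q u v c = 1
        apply matrix_ext
        intro x
        rw [Cfsg.Agent.Lib.Classical.siegel_mulVec, one_mulVec]
        obtain ⟨t, w, htw, h0⟩ := hdep
        rcases htw with ht | hw
        · have e : u = (-(w / t)) • v := by
            have h3 : t • u = (-w) • v := by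
              rw [neg_smul]
              exact eq_neg_of_add_eq_zero_left h0
            calc u = t⁻¹ • (t • u) := by rw [smul_smul, inv_mul_cancel₀ ht, one_smul]
              _ = _ := by
                rw [h3, smul_smul]
                congr 1
                field_simp
          rw [e, QuadraticMap.polar_smul_left]
          simp only [smul_eq_mul, smul_smul]
          have e2 : c * (-(w / t) * QuadraticMap.polar (⇑Q) v x) = c * QuadraticMap.polar (⇑Q) v x * -(w / t) := by ring
          rw [e2]
          abel
        · have e : v = (-(t / w)) • u := by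
            have h3 : w • v = (-t) • u := by
              rw [neg_smul]
              exact eq_neg_of_add_eq_zero_right h0
            calc v = w⁻¹ • (w • v) := by rw [smul_smul, inv_mul_cancel₀ hw, one_smul]
              _ = _ := by
                rw [h3, smul_smul]
                congr 1
                field_simp
          rw [e, QuadraticMap.polar_smul_left]
          simp only [smul_eq_mul, smul_smul]
          have e2 : c * (-(t / w) * QuadraticMap.polar (⇑Q) u x) = c * QuadraticMap.polar (⇑Q) u x * -(t / w) := by ring
          rw [e2]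
          abel
      rw [h1]
      exact ⟨1, 1, by simp⟩
    · -- a non-singular vector orthogonal to both
      push Not at hdep
      obtain ⟨z, hz0, hzu, hzv⟩ : ∃ z, Q z ≠ 0 ∧ QuadraticMap.polar ⇑Q u z = 0 ∧ QuadraticMap.polar ⇑Q v z = 0 := by
        by_contra hcon
        push Not at hcon
        let P : Submodule F (Fin n → F) := LinearMap.ker (QuadraticMap.polarBilin Q u) ⊓ LinearMap.ker (QuadraticMap.polarBilin Q v)
        have hmemP : ∀ w, w ∈ P ↔ QuadraticMap.polar (⇑Q) u w = 0 ∧ QuadraticMap.polar (⇑Q) v w = 0 := by
          intro w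
          simp only [P, Submodule.mem_inf, LinearMap.mem_ker]
          rfl
        have hts : Cfsg.Geo.IsTotallySingularQuad (⇑Q) P := by
          intro w hw
          by_contra h0
          exact hcon w h0 ((hmemP w).1 hw).1 ((hmemP w).1 hw).2
        have h2' := two_finrank_le (ndf hQ) hts
        let L : (Fin n → F) →ₗ[F] F × F := (QuadraticMap.polarBilin Q u).prod (QuadraticMap.polarBilin Q v)
        have hker : LinearMap.ker L = P := by
          rw [LinearMap.ker_prod]
        have h3 := LinearMap.finrank_range_add_finrank_ker L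
        rw [hker] at h3
        have h4 : Module.finrank F (LinearMap.range L) ≤ 2 := by
          have := Submodule.finrank_le (LinearMap.range L)
          simpa [Module.finrank_prod] using this
        have h5 : Module.finrank F (Fin n → F) = n := by simp
        simp only [Fintype.card_fin] at h2'
        omega
      have hz2 : QuadraticMap.polar ⇑Q z z ≠ 0 := by
        rw [Cfsg.Agent.Lib.Classical.polar_self_eq]
        exact mul_ne_zero h2 hz0
      -- the two Siegel elements
      set a := (c / QuadraticMap.polar ⇑Q z z) • z with ha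
      have hua : QuadraticMap.polar ⇑Q u a = 0 := by
        rw [ha, QuadraticMap.polar_smul_right, hzu, smul_zero]
      have hva : QuadraticMap.polar ⇑Q v a = 0 := by
        rw [ha, QuadraticMap.polar_smul_right, hzv, smul_zero]
      have hab : QuadraticMap.polar ⇑Q a z = c := by
        rw [ha, QuadraticMap.polar_smul_left, smul_eq_mul]
        field_simp
      have huu : QuadraticMap.polar ⇑Q u u = 0 := polar_self_zero hu
      have hvv : QuadraticMap.polar ⇑Q v v = 0 := polar_self_zero hv
      have hvu : QuadraticMap.polar ⇑Q v u = 0 := by rw [QuadraticMap.polar_comm]; exact huv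
      have hzv' : QuadraticMap.polar ⇑Q z v = 0 := by rw [QuadraticMap.polar_comm]; exact hzv
      have hzu' : QuadraticMap.polar ⇑Q z u = 0 := by rw [QuadraticMap.polar_comm]; exact hzu
      have hav : QuadraticMap.polar ⇑Q a v = 0 := by rw [QuadraticMap.polar_comm]; exact hva
      have hau : QuadraticMap.polar ⇑Q a u = 0 := by rw [QuadraticMap.polar_comm]; exact hua
      obtain ⟨E₁, hE₁⟩ := exists_sg_og hQ hu hua
      obtain ⟨E₂, hE₂⟩ := exists_sg_og hQ hv hzv
      refine ⟨E₁, E₂, ?_⟩
      -- compute the commutator on vectors: `E₁ E₂ = g E₂ E₁`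
      have hcomm : E₁ * E₂ = g * (E₂ * E₁) := by
        apply OG.ext'
        apply matrix_ext
        intro x
        show (OG.mat E₁ * OG.mat E₂) *ᵥ x = (OG.mat g * (OG.mat E₂ * OG.mat E₁)) *ᵥ x
        rw [← mulVec_mulVec, ← mulVec_mulVec, ← mulVec_mulVec, hE₁, hE₂, hE₁, hE₂, show OG.mat g = _ from hg,
          Cfsg.Agent.Lib.Classical.siegel_mulVec]
        simp only [sgF, QuadraticMap.polar_sub_left, QuadraticMap.polar_add_left, QuadraticMap.polar_smul_left, QuadraticMap.polar_sub_right, QuadraticMap.polar_add_right,
          QuadraticMap.polar_smul_right, huu, hvv, huv, hvu, hua, hva, hzu, hzv, hzu', hzv', hav, hau, hab, smul_eq_mul, mul_zero, sub_zero, add_zero, zero_add, zero_sub]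
        have e1 : QuadraticMap.polar ⇑Q u x = QuadraticMap.polar ⇑Q x u := QuadraticMap.polar_comm _ _ _
        have e2 : QuadraticMap.polar ⇑Q v x = QuadraticMap.polar ⇑Q x v := QuadraticMap.polar_comm _ _ _
        have e3 : QuadraticMap.polar ⇑Q z a = c := by rw [QuadraticMap.polar_comm]; exact hab
        simp only [e1, e2, e3]
        module
      rw [commutatorElement_def, hcomm]
      group
  refine ⟨hmem, ?_⟩
  obtain ⟨p, q', e⟩ := hmem
  rw [← e]
  exact Subgroup.commutator_mem_commutator (Subgroup.mem_top _) (Subgroup.mem_top _)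

end Cfsg.Agent.S0794
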