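import Cfsg.Statements.S0795
import Mathlib
import Cfsg.Agent.Lib.Spinor.Cor
import Cfsg.Agent.S0794

set_option autoImplicit false
open Cfsg

namespace Cfsg.Agent.S0795

open Cfsg.Agent.Lib.Spinor Cfsg.Agent.Lib.ClassMax.OmegaCore Matrix Cfsg.Agent.Lib.Classical
open scoped commutatorElement

variable {F : Type*} [Field F] [Fintype F] {n : ℕ} {Q : QuadraticForm F (Fin n → F)}

/-- The generating set. -/
def TS (Q : QuadraticForm F (Fin n → F)) : Set (OG Q) :=
  {g | ∃ (u v : Fin n → F) (c : F), Q u = 0 ∧ Q v = 0 ∧ QuadraticMap.polar ⇑Q u v = 0 ∧ OG.mat g = Cfsg.siegelMatrix ⇑Q u v c}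

theorem conj_TS (g t : OG Q) (ht : t ∈ TS Q) : g * t * g⁻¹ ∈ TS Q := by
  obtain ⟨u, v, c, hu, hv, huv, e⟩ := ht
  refine ⟨OG.mat g *ᵥ u, OG.mat g *ᵥ v, c, by rw [OG.iso, hu], by rw [OG.iso, hv], by rw [polar_iso (OG.iso g), huv], ?_⟩
  apply matrix_ext
  intro x
  have h1 : OG.mat g *ᵥ (OG.mat g⁻¹ *ᵥ x) = x := by
    rw [mulVec_mulVec]
    show OG.mat (g * g⁻¹) *ᵥ x = x
    rw [mul_inv_cancel]
    exact one_mulVec x
  show (OG.mat g * OG.mat t * OG.mat g⁻¹) *ᵥ x = _
  rw [← mulVec_mulVec, ← mulVec_mulVec, e, siegel_mulVec, siegel_mulVec, mulVec_sub, mulVec_add, mulVec_smul, mulVec_smul, h1]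
  have h2 : ∀ w, QuadraticMap.polar (⇑Q) (OG.mat g *ᵥ w) x = QuadraticMap.polar (⇑Q) w (OG.mat g⁻¹ *ᵥ x) := by
    intro w
    rw [← polar_iso (OG.iso g) w, h1]
  rw [h2, h2]

theorem closure_normal : (Subgroup.closure (TS Q)).Normal := by
  constructor
  intro n hn g
  induction hn using Subgroup.closure_induction with
  | mem x hx => exact Subgroup.subset_closure (conj_TS g x hx)
  | one => simp
  | mul x y _ _ hx hy =>
    have : g * (x * y) * g⁻¹ = (g * x * g⁻¹) * (g * y * g⁻¹) := by group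
    rw [this]
    exact Subgroup.mul_mem _ hx hy
  | inv x _ hx =>
    have : g * x⁻¹ * g⁻¹ = (g * x * g⁻¹)⁻¹ := by group
    rw [this]
    exact Subgroup.inv_mem _ hx

theorem rO_conj (g : OG Q) {a : Fin n → F} (ha : Q a ≠ 0) : g * rO Q a * g⁻¹ = rO Q (OG.mat g *ᵥ a) := by
  have h1 : Q (OG.mat g *ᵥ a) ≠ 0 := by rw [OG.iso]; exact ha
  apply OG.ext'
  apply matrix_ext
  intro x
  have h3 : OG.mat g *ᵥ (OG.mat g⁻¹ *ᵥ x) = x := by
    rw [mulVec_mulVec]
    show OG.mat (g * g⁻¹) *ᵥ x = x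
    rw [mul_inv_cancel]
    exact one_mulVec x
  show (OG.mat g * OG.mat (rO Q a) * OG.mat g⁻¹) *ᵥ x = _
  rw [rO_mat h1, rO_mat ha, ← mulVec_mulVec, ← mulVec_mulVec, rr, reflection_mulVec, rr, reflection_mulVec, mulVec_sub, mulVec_smul, h3]
  rw [← polar_iso (OG.iso g) a, h3, OG.iso]

section Main

variable (hnd : (QuadraticMap.polarBilin Q).Nondegenerate) (h2 : (2 : F) ≠ 0) (hn : 5 ≤ n)
include hnd h2 hn

/-- A subspace with small radical and large dimension represents everything. -/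
theorem exists_val_of_rad {W : Submodule F (Fin n → F)}
    (hW : 2 + Module.finrank F (W ⊓ LinearMap.BilinForm.orthogonal (QuadraticMap.polarBilin Q) W : Submodule F (Fin n → F)) ≤ Module.finrank F W) {C : F} (hC : C ≠ 0) :
    ∃ y ∈ W, Q y = C := by
  obtain ⟨Y, hY⟩ := Submodule.exists_isCompl ((W ⊓ LinearMap.BilinForm.orthogonal (QuadraticMap.polarBilin Q) W : Submodule F (Fin n → F)).comap W.subtype)
  have h1 := Submodule.finrank_add_eq_of_isCompl hY
  have h3 : Module.finrank F ↥((W ⊓ LinearMap.BilinForm.orthogonal (QuadraticMap.polarBilin Q) W : Submodule F (Fin n → F)).comap W.subtype) =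
      Module.finrank F ↥(W ⊓ LinearMap.BilinForm.orthogonal (QuadraticMap.polarBilin Q) W : Submodule F (Fin n → F)) :=
    (Submodule.comapSubtypeEquivOfLe inf_le_left).finrank_eq
  have h4 : Module.finrank F (Y.map W.subtype) = Module.finrank F Y := Submodule.finrank_map_subtype_eq W Y
  obtain ⟨y, hy, hQy⟩ := exists_val_sub (Q := Q) (Y := Y.map W.subtype) (by
    rintro _ ⟨y, hy, rfl⟩ hz
    have hy2 : (y : Fin n → F) ∈ LinearMap.BilinForm.orthogonal (QuadraticMap.polarBilin Q) W := by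
      rw [LinearMap.BilinForm.mem_orthogonal_iff]
      intro w hw
      have hmem : (⟨w, hw⟩ : W) ∈ Y ⊔ (W ⊓ LinearMap.BilinForm.orthogonal (QuadraticMap.polarBilin Q) W : Submodule F (Fin n → F)).comap W.subtype := by
        rw [hY.symm.sup_eq_top]
        exact Submodule.mem_top
      obtain ⟨a, ha, b, hb, e⟩ := Submodule.mem_sup.1 hmem
      have e' : w = (a : Fin n → F) + (b : Fin n → F) := by
        have := congrArg Subtype.val e
        simpa using this.symm
      show QuadraticMap.polar (⇑Q) w y = 0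
      have h0 : QuadraticMap.polar (⇑Q) a y = 0 := hz a ⟨a, ha, rfl⟩
      rw [e', QuadraticMap.polar_add_left, h0]
      have h5 : (b : Fin n → F) ∈ LinearMap.BilinForm.orthogonal (QuadraticMap.polarBilin Q) W := hb.2
      have h6 := (LinearMap.BilinForm.mem_orthogonal_iff.1 h5) y y.2
      have h7 : QuadraticMap.polar (⇑Q) y b = 0 := h6
      rw [QuadraticMap.polar_comm, h7, zero_add]
    have hy3 : y ∈ (W ⊓ LinearMap.BilinForm.orthogonal (QuadraticMap.polarBilin Q) W : Submodule F (Fin n → F)).comap W.subtype := ⟨y.2, hy2⟩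
    have hy4 : y ∈ Y ⊓ (W ⊓ LinearMap.BilinForm.orthogonal (QuadraticMap.polarBilin Q) W : Submodule F (Fin n → F)).comap W.subtype := ⟨hy, hy3⟩
    rw [hY.symm.inf_eq_bot] at hy4
    have := (Submodule.mem_bot F).1 hy4
    rw [this]
    rfl) (by omega) hC
  obtain ⟨y', -, rfl⟩ := hy
  exact ⟨y'.1, y'.2, hQy⟩

/-- The orthogonal complement of two vectors of equal non-zero norm represents everything. -/
theorem exists_perp_val {a b : Fin n → F} (ha : Q a ≠ 0) {C : F} (hC : C ≠ 0) :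
    ∃ z, QuadraticMap.polar (⇑Q) a z = 0 ∧ QuadraticMap.polar (⇑Q) b z = 0 ∧ Q z = C := by
  let P : Submodule F (Fin n → F) := Submodule.span F (Set.range ![a, b])
  let B := QuadraticMap.polarBilin Q
  have hrefl : B.IsRefl := by
    intro x y hxy
    have : QuadraticMap.polar (⇑Q) y x = QuadraticMap.polar (⇑Q) x y := QuadraticMap.polar_comm _ _ _
    show QuadraticMap.polar (⇑Q) y x = 0
    rw [this]
    exact hxy
  let W := LinearMap.BilinForm.orthogonal B P
  have hP2 : Module.finrank F P ≤ 2 := by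
    have := finrank_range_le_card (R := F) ![a, b]
    simpa [Set.finrank] using this
  have haP : a ∈ P := Submodule.subset_span ⟨0, rfl⟩
  have hbP : b ∈ P := Submodule.subset_span ⟨1, rfl⟩
  have hdimW : Module.finrank F W = n - Module.finrank F P := by
    have h3 := LinearMap.BilinForm.finrank_orthogonal hnd P
    simpa using h3
  have hR : (W ⊓ LinearMap.BilinForm.orthogonal B W : Submodule F (Fin n → F)) ≤ P := by
    rw [show LinearMap.BilinForm.orthogonal B W = P from LinearMap.BilinForm.orthogonal_orthogonal hnd hrefl P]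
    exact inf_le_right
  have hlt : (W ⊓ LinearMap.BilinForm.orthogonal B W : Submodule F (Fin n → F)) < P := by
    refine lt_of_le_of_ne hR (fun h => ?_)
    have h3 : a ∈ (W ⊓ LinearMap.BilinForm.orthogonal B W : Submodule F (Fin n → F)) := by
      rw [h]
      exact haP
    have h4 := (LinearMap.BilinForm.mem_orthogonal_iff.1 h3.1) a haP
    have h5 : QuadraticMap.polar (⇑Q) a a = 0 := h4
    rw [polar_self_eq] at h5
    exact mul_ne_zero h2 ha h5
  have h6 := Submodule.finrank_lt_finrank_of_lt hlt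
  obtain ⟨y, hy, hQy⟩ := exists_val_of_rad hnd h2 hn (W := W) (by
    show 2 + Module.finrank F (W ⊓ LinearMap.BilinForm.orthogonal B W : Submodule F (Fin n → F)) ≤ _
    rw [hdimW]
    omega) hC
  exact ⟨y, (LinearMap.BilinForm.mem_orthogonal_iff.1 hy) a haP, (LinearMap.BilinForm.mem_orthogonal_iff.1 hy) b hbP, hQy⟩

/-- A single Siegel step between vectors of equal norm. -/
theorem siegel_step {a b : Fin n → F} (ha : Q a ≠ 0) (hab : Q a = Q b) (hE : QuadraticMap.polar (⇑Q) a b ≠ - (2 * Q a)) :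
    ∃ (u x : Fin n → F), Q u = 0 ∧ QuadraticMap.polar (⇑Q) u x = 0 ∧ sgF Q u x a = b := by
  set A := Q a with hA
  set E := QuadraticMap.polar (⇑Q) a b with hEdef
  have hκ : 2 * A + E ≠ 0 := by
    intro h
    apply hE
    linear_combination h
  obtain ⟨z, hz1, hz2, hz3⟩ := exists_perp_val hnd h2 hn (b := b) ha (C := -(2 * A + E)) (neg_ne_zero.2 hκ)
  have hb2 : QuadraticMap.polar (⇑Q) b b = 2 * A := by rw [polar_self_eq, hab]
  have ha2 : QuadraticMap.polar (⇑Q) a a = 2 * A := by rw [polar_self_eq]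
  have hba : QuadraticMap.polar (⇑Q) b a = E := by rw [QuadraticMap.polar_comm]
  have hQab : Q (a + b) = 2 * A + E := by
    rw [Cfsg.Agent.Lib.Spinor.Q_add, ← hab]
    ring
  have hu0 : Q ((a + b) + z) = 0 := by
    rw [Cfsg.Agent.Lib.Spinor.Q_add, hQab, hz3, QuadraticMap.polar_add_left, hz1, hz2]
    ring
  have hau : QuadraticMap.polar (⇑Q) a ((a + b) + z) = 2 * A + E := by
    rw [QuadraticMap.polar_add_right, QuadraticMap.polar_add_right, ha2, hz1]
    ring
  have hbu : QuadraticMap.polar (⇑Q) b ((a + b) + z) = 2 * A + E := by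
    rw [QuadraticMap.polar_add_right, QuadraticMap.polar_add_right, hb2, hz2, hba]
    ring
  obtain ⟨u, hu⟩ : ∃ u, u = (2 * A + E)⁻¹ • ((a + b) + z) := ⟨_, rfl⟩
  have hQu : Q u = 0 := by
    rw [hu, QuadraticMap.map_smul, hu0, smul_zero]
  have hau' : QuadraticMap.polar (⇑Q) a u = 1 := by
    rw [hu, QuadraticMap.polar_smul_right, hau, smul_eq_mul, inv_mul_cancel₀ hκ]
  have hbu' : QuadraticMap.polar (⇑Q) b u = 1 := by
    rw [hu, QuadraticMap.polar_smul_right, hbu, smul_eq_mul, inv_mul_cancel₀ hκ]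
  refine ⟨u, a - b, hQu, ?_, ?_⟩
  · rw [QuadraticMap.polar_sub_right, QuadraticMap.polar_comm, hau', QuadraticMap.polar_comm, hbu']
    simp
  · rw [sgF, QuadraticMap.polar_sub_right, ha2, hau', Cfsg.Agent.Lib.Spinor.Q_sub, ← hab, ← hA, ← hEdef]
    have : (2 * A - E) = A + A - E := by ring
    rw [this]
    simp only [one_mul, one_smul]
    module

/-- All Siegel maps lie in the closure. -/
theorem sg_mem_closure {u x : Fin n → F} (hu : Q u = 0) (hx : QuadraticMap.polar (⇑Q) u x = 0) :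
    ∃ E ∈ Subgroup.closure (TS Q), ∀ v, OG.mat E *ᵥ v = sgF Q u x v := by
  have sing : ∀ {x : Fin n → F}, QuadraticMap.polar (⇑Q) u x = 0 → Q x = 0 → ∃ E ∈ Subgroup.closure (TS Q), ∀ v, OG.mat E *ᵥ v = sgF Q u x v := by
    intro x hx hQx
    obtain ⟨E, hE⟩ := Cfsg.Agent.S0794.exists_sg_og hnd hu hx
    refine ⟨E, Subgroup.subset_closure ⟨x, u, 1, hQx, hu, by rw [QuadraticMap.polar_comm]; exact hx, ?_⟩, hE⟩
    apply matrix_ext
    intro v
    rw [hE, siegel_mulVec, sgF, hQx, zero_mul, zero_smul, sub_zero, one_mul, one_mul, QuadraticMap.polar_comm (⇑Q) x v, QuadraticMap.polar_comm (⇑Q) u v]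
  by_cases hQx : Q x = 0
  · exact sing hx hQx
  obtain ⟨z, hz1, hz2, hz3⟩ := exists_perp_val hnd h2 hn (b := u) hQx (C := -Q x) (neg_ne_zero.2 hQx)
  have hx2 : QuadraticMap.polar (⇑Q) x x = 2 * Q x := polar_self_eq Q x
  have hx2' : QuadraticMap.polar (⇑Q) x x ≠ 0 := by
    rw [hx2]
    exact mul_ne_zero h2 hQx
  obtain ⟨w, hw1, hw2, hw3⟩ : ∃ w, Q w = 0 ∧ QuadraticMap.polar (⇑Q) u w = 0 ∧ QuadraticMap.polar (⇑Q) x w = Q x := by
    refine ⟨(Q x / QuadraticMap.polar (⇑Q) x x) • (x + z), ?_, ?_, ?_⟩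
    · rw [QuadraticMap.map_smul, Cfsg.Agent.Lib.Spinor.Q_add, hz3, hz1]
      simp
    · rw [QuadraticMap.polar_smul_right, QuadraticMap.polar_add_right, hx, hz2]
      simp
    · rw [QuadraticMap.polar_smul_right, QuadraticMap.polar_add_right, hz1, add_zero, smul_eq_mul]
      field_simp
  have hw4 : QuadraticMap.polar (⇑Q) u (x - w) = 0 := by
    rw [QuadraticMap.polar_sub_right, hx, hw2, sub_zero]
  have hw5 : Q (x - w) = 0 := by
    rw [Cfsg.Agent.Lib.Spinor.Q_sub, hw1, hw3]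
    ring
  obtain ⟨E₁, hE₁, h₁⟩ := sing hw4 hw5
  obtain ⟨E₂, hE₂, h₂⟩ := sing hw2 hw1
  refine ⟨E₁ * E₂, Subgroup.mul_mem _ hE₁ hE₂, fun v => ?_⟩
  show (OG.mat E₁ * OG.mat E₂) *ᵥ v = _
  rw [← mulVec_mulVec, h₂, h₁, sgF_comp hu hw4 hw2, sub_add_cancel]

/-- Transitivity on vectors of a given non-zero norm. -/
theorem exists_trans {a b : Fin n → F} (ha : Q a ≠ 0) (hab : Q a = Q b) :
    ∃ h ∈ Subgroup.closure (TS Q), OG.mat h *ᵥ a = b := by
  have one : ∀ {a b : Fin n → F}, Q a ≠ 0 → Q a = Q b → QuadraticMap.polar (⇑Q) a b ≠ - (2 * Q a) → ∃ h ∈ Subgroup.closure (TS Q), OG.mat h *ᵥ a = b := by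
    intro a b ha hab hE
    obtain ⟨u, x, hu, hx, e⟩ := siegel_step hnd h2 hn ha hab hE
    obtain ⟨E, hE, hE'⟩ := sg_mem_closure hnd h2 hn hu hx
    exact ⟨E, hE, by rw [hE', e]⟩
  by_cases hE : QuadraticMap.polar (⇑Q) a b = - (2 * Q a)
  · obtain ⟨y, hy1, hy2, hy3⟩ := exists_perp_val hnd h2 hn (b := b) ha (C := Q a) ha
    have hm : (2 : F) * Q a ≠ 0 := mul_ne_zero h2 ha
    obtain ⟨h₁, m₁, e₁⟩ := one ha hy3.symm (by
      rw [hy1]
      exact (neg_ne_zero.2 hm).symm)
    obtain ⟨h₂, m₂, e₂⟩ := one (a := y) (b := b) (by rw [hy3]; exact ha) (by rw [hy3]; exact hab) (by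
      rw [QuadraticMap.polar_comm, hy2, hy3]
      exact (neg_ne_zero.2 hm).symm)
    refine ⟨h₂ * h₁, Subgroup.mul_mem _ m₂ m₁, ?_⟩
    show (OG.mat h₂ * OG.mat h₁) *ᵥ a = b
    rw [← mulVec_mulVec, e₁, e₂]
  · exact one ha hab hE

theorem rO_mul_mem {a b : Fin n → F} (ha : Q a ≠ 0) (hab : Q a = Q b) : rO Q a * rO Q b ∈ Subgroup.closure (TS Q) := by
  obtain ⟨h, hh, e⟩ := exists_trans hnd h2 hn ha hab
  have e2 : rO Q b = h * rO Q a * h⁻¹ := by
    rw [rO_conj h ha, e]
  have e3 : rO Q a * rO Q b = (rO Q a * h * (rO Q a)⁻¹) * h⁻¹ := by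
    rw [e2, rO_inv]
    group
  rw [e3]
  have hN := closure_normal (Q := Q)
  exact Subgroup.mul_mem _ (hN.conj_mem h hh _) (Subgroup.inv_mem _ hh)

end Main


/-- Generation of Ω by root elements: for q odd, n ≥ 5 and Q with non-degenerate polar form on F^n, the commutator subgroup of the isometry group equals the subgroup generated by the isometries whose matrices are Siegel transformations T_(u,v)(c) with u, v singular and orthogonal. -/
theorem result {F : Type*} [Field F] [Fintype F] (h2 : (2 : F) ≠ 0) {n : ℕ} (hn : 5 ≤ n) (Q : QuadraticForm F (Fin n → F)) (hQ : (QuadraticMap.polarBilin Q).Nondegenerate) : Cfsg.Omega F ⇑Q = Subgroup.closure {g : ↥(Cfsg.isometryGroup F ⇑Q) | ∃ (u v : Fin n → F) (c : F), Q u = 0 ∧ Q v = 0 ∧ QuadraticMap.polar ⇑Q u v = 0 ∧ ((g : Matrix.GeneralLinearGroup (Fin n) F) : Matrix (Fin n) (Fin n) F) = Cfsg.siegelMatrix ⇑Q u v c} := by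
  have hq : Fintype.card F ≠ 2 ∨ Fintype.card (Fin n) ≠ 4 := Or.inl (fun h => h2 (by
    have := FiniteField.cast_card_eq_zero F
    rw [h] at this
    exact_mod_cast this))
  apply le_antisymm
  · -- `Ω` is contained in the closure
    have hN := closure_normal (Q := Q)
    rw [Cfsg.Omega, commutator_def, Subgroup.commutator_le]
    suffices key : ∀ a b : OG Q, ⁅a, b⁆ ∈ Subgroup.closure (TS Q) from fun a _ b _ => key a b
    intro a b
    obtain ⟨l₁, h₁, rfl⟩ := exists_lp hQ hq a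
    obtain ⟨l₂, h₂, rfl⟩ := exists_lp hQ hq b
    let π := QuotientGroup.mk' (Subgroup.closure (TS Q))
    have hc : ∀ v w : Fin n → F, Commute (π (rO Q v)) (π (rO Q w)) := by
      intro v w
      by_cases hv : Q v = 0
      · rw [rO_singular hv, map_one]
        exact Commute.one_left _
      by_cases hw : Q w = 0
      · rw [rO_singular hw, map_one]
        exact Commute.one_right _
      have h3 : rO Q v * (rO Q w * rO Q v * (rO Q w)⁻¹) ∈ Subgroup.closure (TS Q) := by
        rw [rO_conj (rO Q w) hv]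
        exact rO_mul_mem hQ h2 hn hv (by rw [OG.iso])
      have h4 : π (rO Q v) * (π (rO Q w) * π (rO Q v) * (π (rO Q w))⁻¹) = 1 := by
        have := (QuotientGroup.eq_one_iff _).2 h3
        simpa [π] using this
      have h5 : ∀ x : Fin n → F, π (rO Q x) * π (rO Q x) = 1 := fun x => by
        rw [← map_mul, rO_mul_self, map_one]
      have h6 : ∀ x : Fin n → F, (π (rO Q x))⁻¹ = π (rO Q x) := fun x => by
        rw [inv_eq_iff_mul_eq_one, h5]
      rw [h6] at h4
      show π (rO Q v) * π (rO Q w) = π (rO Q w) * π (rO Q v)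
      have h7 : π (rO Q v) * π (rO Q w) = π (rO Q w) * π (rO Q v) := by
        calc π (rO Q v) * π (rO Q w) = (π (rO Q v) * (π (rO Q w) * π (rO Q v) * π (rO Q w))) * (π (rO Q w) * π (rO Q v)) := by
              simp only [mul_assoc, h5]
              simp only [← mul_assoc, h5, one_mul]
              simp only [mul_assoc, h5, mul_one]
          _ = _ := by rw [h4, one_mul]
      exact h7
    have hc2 : Commute (π (lp Q l₁)) (π (lp Q l₂)) := by
      have hb : ∀ v, Commute (π (rO Q v)) (π (lp Q l₂)) := by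
        intro v
        induction l₂ with
        | nil => simp [lp_nil]
        | cons w l ih =>
          rw [lp_cons, map_mul]
          exact (hc v w).mul_right (ih (fun u hu => h₂ u (List.mem_cons_of_mem _ hu)))
      induction l₁ with
      | nil => simp [lp_nil]
      | cons w l ih =>
        rw [lp_cons, map_mul]
        exact (hb w).mul_left (ih (fun u hu => h₁ u (List.mem_cons_of_mem _ hu)))
    have h8 : π ⁅lp Q l₁, lp Q l₂⁆ = 1 := by
      rw [map_commutatorElement, commutatorElement_eq_one_iff_mul_comm]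
      exact hc2
    exact (QuotientGroup.eq_one_iff _).1 h8
  · rw [Subgroup.closure_le]
    rintro g ⟨u, v, c, hu, hv, huv, e⟩
    exact (Cfsg.Agent.S0794.result h2 hn Q hQ u v hu hv huv c g e).2

end Cfsg.Agent.S0795
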