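import Cfsg.Statements.S0796
import Mathlib


set_option autoImplicit false
open Cfsg

namespace Cfsg.Agent.S0796

/-- If G is finite and acts faithfully and primitively on X, H is the stabiliser of a point, A is a normal subgroup of H whose normal closure in G is G, then for every non-trivial normal subgroup K of G the quotient G ⧸ K is isomorphic to A ⧸ B for some normal subgroup B of A. -/
theorem result {G X : Type*} [Group G] [Finite G] [MulAction G X] [FaithfulSMul G X] (hprim : MulAction.IsPreprimitive G X) (x : X) (A : Subgroup G) (hA : A ≤ MulAction.stabilizer G x) (hAn : (A.subgroupOf (MulAction.stabilizer G x)).Normal) (hgen : Subgroup.normalClosure (A : Set G) = ⊤) (K : Subgroup G) [K.Normal] (hK : K ≠ ⊥) : ∃ (B : Subgroup A) (_ : B.Normal), Nonempty (G ⧸ K ≃* A ⧸ B) := by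
  classical
  have hfix : MulAction.fixedPoints K X ≠ Set.univ := by
    intro h
    apply hK
    rw [Subgroup.eq_bot_iff_forall]
    intro k hk
    apply FaithfulSMul.eq_of_smul_eq_smul (α := X)
    intro y
    rw [one_smul]
    have : y ∈ MulAction.fixedPoints K X := by rw [h]; trivial
    exact this ⟨k, hk⟩
  have hpretrans : MulAction.IsPretransitive K X := MulAction.IsQuasiPreprimitive.isPretransitive_of_normal hfix
  have hdecomp : ∀ g : G, ∃ k ∈ K, ∃ h ∈ MulAction.stabilizer G x, g = k * h := by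
    intro g
    obtain ⟨k, hk⟩ := MulAction.exists_smul_eq K x (g • x)
    refine ⟨k, k.2, (k : G)⁻¹ * g, ?_, by group⟩
    rw [MulAction.mem_stabilizer_iff, mul_smul, inv_smul_eq_iff]
    exact hk.symm
  have hsupn : (K ⊔ A).Normal := by
    constructor
    intro n hn g
    obtain ⟨k, hk, h, hh, rfl⟩ := hdecomp g
    have hn' : n ∈ ((K ⊔ A : Subgroup G) : Set G) := hn
    rw [Subgroup.normal_mul] at hn'
    obtain ⟨y, hy, a, ha, rfl⟩ := Set.mem_mul.1 hn'
    have h1 : (k * h) * y * (k * h)⁻¹ ∈ K := Subgroup.Normal.conj_mem inferInstance y hy _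
    have h2 : h * a * h⁻¹ ∈ A := by
      have := hAn.conj_mem ⟨a, hA ha⟩ (by simpa [Subgroup.mem_subgroupOf] using ha) ⟨h, hh⟩
      simpa [Subgroup.mem_subgroupOf] using this
    set a' := h * a * h⁻¹ with ha'
    have h3 : k * a' * k⁻¹ * a'⁻¹ ∈ K := by
      have : k * a' * k⁻¹ * a'⁻¹ = k * (a' * k⁻¹ * a'⁻¹) := by group
      rw [this]
      exact mul_mem hk (Subgroup.Normal.conj_mem inferInstance _ (inv_mem hk) _)
    have e : (k * h) * (y * a) * (k * h)⁻¹ = ((k * h) * y * (k * h)⁻¹) * ((k * a' * k⁻¹ * a'⁻¹) * a') := by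
      simp only [ha']
      group
    rw [e]
    exact mul_mem (Subgroup.mem_sup_left h1) (mul_mem (Subgroup.mem_sup_left h3) (Subgroup.mem_sup_right h2))
  have htop : K ⊔ A = ⊤ := by
    rw [eq_top_iff, ← hgen]
    exact Subgroup.normalClosure_le_normal (fun a ha => Subgroup.mem_sup_right ha)
  let φ : A →* G ⧸ K := (QuotientGroup.mk' K).comp A.subtype
  have hφ : Function.Surjective φ := by
    intro y
    obtain ⟨g, rfl⟩ := QuotientGroup.mk_surjective y
    have hg : g ∈ K ⊔ A := by rw [htop]; trivial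
    have hg' : g ∈ ((K ⊔ A : Subgroup G) : Set G) := hg
    rw [Subgroup.normal_mul] at hg'
    obtain ⟨k, hk, a, ha, rfl⟩ := Set.mem_mul.1 hg'
    refine ⟨⟨a, ha⟩, ?_⟩
    change (QuotientGroup.mk a : G ⧸ K) = QuotientGroup.mk (k * a)
    rw [QuotientGroup.eq]
    have : a⁻¹ * (k * a) = a⁻¹ * k * a := by group
    rw [this]
    have := Subgroup.Normal.conj_mem (inferInstance : K.Normal) k hk a⁻¹
    simpa using this
  exact ⟨φ.ker, inferInstance, ⟨(QuotientGroup.quotientKerEquivOfSurjective φ hφ).symm⟩⟩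

end Cfsg.Agent.S0796
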