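import Cfsg.Statements.S0799
import Mathlib
import Cfsg.Agent.Lib.Classical.DMain

set_option autoImplicit false
open Cfsg Cfsg.Agent.Lib.Classical

namespace Cfsg.Agent.S0799

/-- Dickson's classification of the subgroups of PSL_2(q), q a power of the prime p, d = gcd(2, q − 1): every subgroup H is (a) cyclic or dihedral with k dividing (q+1)/d or (q−1)/d (cyclic of order k, or dihedral of order 2k), (b) isomorphic to a subgroup of the normaliser of a Sylow p-subgroup, (c) isomorphic to A_4, S_4 or A_5, or (d) isomorphic to PSL_2(K) or PGL_2(K) for a finite field K with |K|^m = q. -/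
theorem result {F : Type*} [Field F] [Fintype F] {q : ℕ} (hF : Fintype.card F = q) (p : ℕ) [Fact p.Prime] [CharP F p] (H : Subgroup (Matrix.ProjectiveSpecialLinearGroup (Fin 2) F)) : (∃ k : ℕ, (k ∣ (q + 1) / Nat.gcd 2 (q - 1) ∨ k ∣ (q - 1) / Nat.gcd 2 (q - 1)) ∧ ((IsCyclic H ∧ Nat.card H = k) ∨ Nonempty (H ≃* DihedralGroup k))) ∨ (∃ (P : Sylow p (Matrix.ProjectiveSpecialLinearGroup (Fin 2) F)) (K : Subgroup (Matrix.ProjectiveSpecialLinearGroup (Fin 2) F)), K ≤ Subgroup.normalizer ((P : Subgroup (Matrix.ProjectiveSpecialLinearGroup (Fin 2) F)) : Set (Matrix.ProjectiveSpecialLinearGroup (Fin 2) F)) ∧ Nonempty (H ≃* K)) ∨ Nonempty (H ≃* alternatingGroup (Fin 4)) ∨ Nonempty (H ≃* Equiv.Perm (Fin 4)) ∨ Nonempty (H ≃* alternatingGroup (Fin 5)) ∨ (∃ (K : Type) (_ : Field K) (_ : Fintype K) (m : ℕ), Fintype.card K ^ m = q ∧ (Nonempty (H ≃* Matrix.ProjectiveSpecialLinearGroup (Fin 2) K) ∨ Nonempty (H ≃* Matrix.ProjGenLinGroup (Fin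 2) K))) := by
  have hss : ∀ g : H, g ^ p ≠ 1 → (orderOf g ∣ (q + 1) / Nat.gcd 2 (q - 1) ∨ orderOf g ∣ (q - 1) / Nat.gcd 2 (q - 1)) := by
    intro g hg
    have := ss_order p hF (g : Pe F) (fun h => hg (Subtype.ext (by simpa using h)))
    rwa [Subgroup.orderOf_coe] at this
  rcases dickson_master p H with ⟨h1, h2⟩ | ⟨⟨c, ρ, hc, hρ, hρp, ⟨h3⟩⟩, h2⟩ | ⟨⟨h1⟩, -⟩ | ⟨⟨h1⟩, -⟩ | ⟨⟨h1⟩, -⟩ | ⟨P, -, hP⟩ | ⟨K₀, P, hK⟩
  · left
    obtain ⟨g, hg⟩ := IsCyclic.exists_generator (α := H)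
    refine ⟨Nat.card H, ?_, Or.inl ⟨h1, rfl⟩⟩
    have hord : orderOf g = Nat.card H := orderOf_eq_card_of_forall_mem_zpowers hg
    by_cases hg1 : g = 1
    · have : Nat.card H = 1 := by rw [← hord, hg1, orderOf_one]
      rw [this]
      left
      exact one_dvd _
    · rw [← hord]
      exact hss g (h2 g hg1)
  · left
    refine ⟨c, ?_, Or.inr ⟨h3⟩⟩
    rw [← hρ]
    exact hss ρ hρp
  · right; right; left
    exact ⟨h1⟩
  · right; right; right; left
    exact ⟨h1⟩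
  · right; right; right; right; left
    exact ⟨h1⟩
  · right; left
    refine ⟨Q0Sylow hF p, conjSub P H, ?_, ⟨conjSubEquiv P H⟩⟩
    have e : ((Q0Sylow hF p : Sylow p (Pe F)) : Subgroup (Pe F)) = Q0 F := IsPGroup.toSylow_coe _ _
    rw [e]
    exact le_normalizer_Q0 (conjSub P H) hP
  · right; right; right; right; right
    obtain ⟨K, i1, i2, m, hm, ⟨e⟩⟩ := exists_type_field hF p K₀
    refine ⟨K, i1, i2, m, hm, ?_⟩
    rcases hK with hK | ⟨hsq, hK⟩
    · left
      exact ⟨(conjSubEquiv P H).trans ((MulEquiv.subgroupCongr hK).trans ((MonoidHom.ofInjective (pslEmbed_injective K₀.subtype)).symm.trans (pslCongr e)))⟩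
    · right
      exact ⟨(conjSubEquiv P H).trans ((MulEquiv.subgroupCongr hK).trans ((MonoidHom.ofInjective (pglEmbed_injective K₀.subtype hsq)).symm.trans (pglCongr e)))⟩

end Cfsg.Agent.S0799
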