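import Cfsg.Statements.S0802
import Mathlib
import Cfsg.Agent.Lib.Classical.PslApps

set_option autoImplicit false
open Cfsg Cfsg.Agent.Lib.Classical

namespace Cfsg.Agent.S0802

/-- PSL_2(p^n) has a subgroup isomorphic to A_4 if and only if it is not the case that p = 2 and n is odd. -/
theorem result {F : Type*} [Field F] [Fintype F] (p n : ℕ) [Fact p.Prime] [CharP F p] (hF : Fintype.card F = p ^ n) : (∃ H : Subgroup (Matrix.ProjectiveSpecialLinearGroup (Fin 2) F), Nonempty (H ≃* alternatingGroup (Fin 4))) ↔ ¬ (p = 2 ∧ Odd n) := by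
  classical
  have hq0 : n ≠ 0 := by
    rintro rfl
    have h1 : Fintype.card F = 1 := by simpa using hF
    have := Fintype.one_lt_card (α := F)
    omega
  have hc0 := CharP.cast_eq_zero F p
  constructor
  · rintro ⟨H, ⟨e⟩⟩ ⟨rfl, hn⟩
    have h2 : (2 : F) = 0 := by exact_mod_cast hc0
    let f : alternatingGroup (Fin 4) →* Matrix.ProjectiveSpecialLinearGroup (Fin 2) F := H.subtype.comp e.symm.toMonoidHom
    have hf : Function.Injective f := fun x y h => e.symm.injective (Subtype.ext h)
    have h3 := three_dvd_of_a4 h2 (a4DataAlt4.map f hf)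
    rw [hF] at h3
    obtain ⟨k, rfl⟩ := hn
    have h4 : 2 ^ (2 * k + 1) % 3 = 2 := by
      rw [pow_succ, pow_mul, Nat.mul_mod, Nat.pow_mod]
      norm_num
    generalize 2 ^ (2 * k + 1) = x at h3 h4
    omega
  · intro h
    by_cases hp : p = 2
    · subst hp
      have hn : Even n := by
        rw [← Nat.not_odd_iff_even]
        exact fun h' => h ⟨rfl, h'⟩
      obtain ⟨k, rfl⟩ := hn
      obtain ⟨H, ⟨e⟩⟩ := exists_a5_of_four (F := F) k (by omega) (by
        rw [hF, ← two_mul, pow_mul]
        norm_num)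
      exact a4_of_a5 e
    · have hodd : Fintype.card F % 2 = 1 := by
        rw [hF]
        have hp' : Odd p := (Fact.out : p.Prime).odd_of_ne_two hp
        exact Nat.odd_iff.1 (hp'.pow)
      obtain ⟨S⟩ := QSplit.nonempty_of_odd hodd
      exact ⟨_, S.a4.T_equiv⟩

end Cfsg.Agent.S0802
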