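import Cfsg.Statements.S0803
import Mathlib
import Cfsg.Agent.Lib.Classical.PslApps

set_option autoImplicit false
open Cfsg Cfsg.Agent.Lib.Classical

namespace Cfsg.Agent.S0803

/-- PSL_2(q) has a subgroup isomorphic to S_4 iff q² ≡ 1 (mod 16). -/
theorem result {F : Type*} [Field F] [Fintype F] {q : ℕ} (hF : Fintype.card F = q) : (∃ H : Subgroup (Matrix.ProjectiveSpecialLinearGroup (Fin 2) F), Nonempty (H ≃* Equiv.Perm (Fin 4))) ↔ q ^ 2 % 16 = 1 := by
  classical
  have hq2 : 2 ≤ q := by
    rw [← hF]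
    exact Fintype.one_lt_card
  constructor
  · rintro ⟨H, ⟨e⟩⟩
    have hcard : 24 ∣ Nat.card (Matrix.ProjectiveSpecialLinearGroup (Fin 2) F) := by
      have h1 := Subgroup.card_subgroup_dvd_card H
      rwa [Nat.card_congr e.toEquiv, Nat.card_perm, Nat.card_fin] at h1
    rcases Nat.even_or_odd q with hq | hq
    · exfalso
      exact no_s4_char_two (two_eq_zero_of_even (by rw [hF]; exact hq)) e
    · have h1 := card_psl2_odd hF hq
      have h2 : 16 ∣ q * (q ^ 2 - 1) := by
        rw [← h1]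
        obtain ⟨c, hc⟩ := hcard
        rw [hc]
        exact ⟨3 * c, by ring⟩
      have h3 : Nat.Coprime 16 q := by
        have : Nat.Coprime 2 q := (Nat.coprime_two_left).2 hq
        exact Nat.Coprime.pow_left 4 this
      have h4 : 16 ∣ q ^ 2 - 1 := h3.dvd_of_dvd_mul_left h2
      have h5 : 1 ≤ q ^ 2 := Nat.one_le_pow _ _ (by omega)
      omega
  · intro h
    have hodd : Fintype.card F % 2 = 1 := by
      rw [hF]
      exact odd_of_sq_mod_sixteen h
    obtain ⟨S⟩ := QSplit.nonempty_of_odd hodd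
    have h2 : ringChar F ≠ 2 := by
      intro h3
      have h4 := ringChar.Nat.cast_ringChar (R := F)
      rw [h3] at h4
      have h5 := two_ne_zero_of_odd (F := F) (Nat.odd_iff.2 hodd)
      exact h5 (by exact_mod_cast h4)
    have hsq : IsSquare (2 : F) := by
      rw [FiniteField.isSquare_two_iff, hF]
      have h3 : q ^ 2 % 16 = (q % 16) ^ 2 % 16 := Nat.pow_mod _ _ _
      have h4 : q % 16 < 16 := Nat.mod_lt _ (by norm_num)
      rw [h] at h3
      have h5 : q % 8 = (q % 16) % 8 := (Nat.mod_mod_of_dvd q (by norm_num)).symm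
      rw [h5]
      exact sq_mod_sixteen_aux _ h4 h3.symm
    obtain ⟨s, hs⟩ := hsq
    exact ⟨_, (S.s4 s (by rw [pow_two, ← hs])).S_equiv⟩

end Cfsg.Agent.S0803
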