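import Cfsg.Statements.S0806
import Mathlib
import Cfsg.Agent.Lib.Classical.DApps
import Cfsg.Agent.Lib.Classical.DNum
import Cfsg.Agent.Lib.Classical.PslApps

set_option autoImplicit false
open Cfsg Cfsg.Agent.Lib.Classical Projectivization
open scoped LinearAlgebra.Projectivization MatrixGroups

namespace Cfsg.Agent.S0806

/-- Minimal index (Galois): if q ∉ {2, 3, 5, 7, 9, 11} then every proper subgroup of PSL_2(q) has index ≥ q + 1, and some subgroup has index exactly q + 1. -/
theorem result {F : Type*} [Field F] [Fintype F] {q : ℕ} (hF : Fintype.card F = q) (hq : q ∉ ({2, 3, 5, 7, 9, 11} : Finset ℕ)) : (∀ H : Subgroup (Matrix.ProjectiveSpecialLinearGroup (Fin 2) F), H ≠ ⊤ → q + 1 ≤ H.index) ∧ ∃ H : Subgroup (Matrix.ProjectiveSpecialLinearGroup (Fin 2) F), H.index = q + 1 := by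
  classical
  obtain ⟨p, hpc⟩ := CharP.exists F
  haveI : Fact p.Prime := ⟨CharP.char_is_prime F p⟩
  have hstab : ∀ a : ℙ F (Fin 2 → F), (MulAction.stabilizer (Pe F) a).index = q + 1 := by
    intro a
    rw [MulAction.index_stabilizer, MulAction.orbit_eq_univ, Set.ncard_univ, card_proj_line, Nat.card_eq_fintype_card, hF]
  refine ⟨?_, ⟨_, hstab (mk F (![1, 0] : Fin 2 → F) e0_ne)⟩⟩
  intro H hH
  by_contra hlt
  have hi : H.index ≤ q := by omega
  have hq2 : 2 ≤ q := by
    rw [← hF]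
    exact Fintype.one_lt_card
  simp only [Finset.mem_insert, Finset.mem_singleton, not_or] at hq
  obtain ⟨h2, h3, h5, h7, h9, h11⟩ := hq
  have hq4 : 4 ≤ q := by omega
  have hcard := Subgroup.card_mul_index H
  set d := Nat.gcd 2 (q - 1) with hd
  have hG : d * Nat.card (Pe F) = q * (q ^ 2 - 1) := by
    rcases Nat.even_or_odd q with he | ho
    · have h1 : Odd (q - 1) := Nat.Even.sub_odd (by omega) he odd_one
      have h2 : d = 1 := Nat.coprime_two_left.2 h1
      rw [h2, one_mul]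
      exact card_psl2_even hF he
    · have h1 : Even (q - 1) := Nat.Odd.sub_odd ho odd_one
      have h2 : d = 2 := Nat.gcd_eq_left (even_iff_two_dvd.1 h1)
      rw [h2]
      exact card_psl2_odd hF ho
  have hd12 : d = 1 ∨ d = 2 := (Nat.dvd_prime Nat.prime_two).1 (Nat.gcd_dvd_left _ _)
  have hdq : d ∣ q - 1 := Nat.gcd_dvd_right _ _
  have hdq1 : d ∣ q + 1 := by
    have : q + 1 = (q - 1) + 2 := by omega
    rw [this]
    exact Nat.dvd_add hdq (Nat.gcd_dvd_left _ _)
  have hx : q ^ 2 - 1 ≤ d * Nat.card H := by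
    have e1 : q * (q ^ 2 - 1) = (d * Nat.card H) * H.index := by
      rw [← hG, ← hcard]
      ring
    have e2 : q * (q ^ 2 - 1) ≤ q * (d * Nat.card H) := by
      rw [e1, mul_comm q]
      exact Nat.mul_le_mul_left _ hi
    exact Nat.le_of_mul_le_mul_left e2 (by omega)
  have hbd : ∀ k : ℕ, (k ∣ (q + 1) / d ∨ k ∣ (q - 1) / d) → d * k ≤ q + 1 := by
    intro k hk
    have hd0 : 0 < d := by omega
    rcases hk with hk | hk
    · have h1 : 0 < (q + 1) / d := Nat.div_pos (Nat.le_of_dvd (by omega) hdq1) hd0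
      have h2 := Nat.le_of_dvd h1 hk
      calc d * k ≤ d * ((q + 1) / d) := Nat.mul_le_mul_left _ h2
        _ ≤ q + 1 := Nat.mul_div_le _ _
    · have h1 : 0 < (q - 1) / d := Nat.div_pos (Nat.le_of_dvd (by omega) hdq) hd0
      have h2 := Nat.le_of_dvd h1 hk
      calc d * k ≤ d * ((q - 1) / d) := Nat.mul_le_mul_left _ h2
        _ ≤ q - 1 := Nat.mul_div_le _ _
        _ ≤ q + 1 := by omega
  have hsq : q ^ 2 = (q ^ 2 - 1) + 1 := by
    have : 1 ≤ q ^ 2 := Nat.one_le_pow _ _ (by omega)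
    omega
  have hHtop : H.index = 1 → False := fun h => hH (Subgroup.index_eq_one.1 h)
  rcases dickson_num hF p H with ⟨-, h1⟩ | ⟨c, -, h1, ⟨e⟩⟩ | ⟨⟨e⟩⟩ | ⟨⟨e⟩⟩ | ⟨⟨e⟩⟩ | ⟨P, hP⟩ | ⟨K₀, P, m, hm, hm1, hcH, htop, -, -⟩
  · have h2 := hbd _ h1
    nlinarith
  · have h2 := hbd _ h1
    have h3 : Nat.card H = 2 * c := by
      rw [Nat.card_congr e.toEquiv, DihedralGroup.nat_card]
    rw [h3] at hx
    nlinarith
  · have h3 : Nat.card H = 12 := by
      rw [Nat.card_congr e.toEquiv]
      exact card_alt_four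
    rw [h3] at hcard
    exact num_A (Or.inl rfl) hq4 h5 h7 h9 h11 hG hcard (fun h => hHtop h) hi
  · have h3 : Nat.card H = 24 := by
      rw [Nat.card_congr e.toEquiv, Nat.card_eq_fintype_card, Fintype.card_perm, Fintype.card_fin]
      rfl
    rw [h3] at hcard
    exact num_A (Or.inr (Or.inl rfl)) hq4 h5 h7 h9 h11 hG hcard (fun h => hHtop h) hi
  · have h3 : Nat.card H = 60 := by
      rw [Nat.card_congr e.toEquiv]
      exact card_alt_five
    rw [h3] at hcard
    exact num_A (Or.inr (Or.inr rfl)) hq4 h5 h7 h9 h11 hG hcard (fun h => hHtop h) hi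
  · have hle : conjSub P H ≤ MulAction.stabilizer (Pe F) (mk F (![1, 0] : Fin 2 → F) e0_ne) := by
      intro x hx
      obtain ⟨A, rfl⟩ := mkP_surj x
      rw [MulAction.mem_stabilizer_iff, mkP_fix_iff]
      refine ⟨A.1 0 0, ?_⟩
      ext i
      fin_cases i <;> simp [Matrix.mulVec, dotProduct, Fin.sum_univ_two, hP A hx]
    have h1 := Subgroup.index_dvd_of_le hle
    rw [hstab] at h1
    have h2 : (conjSub P H).index = H.index := by
      have e1 := Subgroup.card_mul_index (conjSub P H)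
      have e2 : Nat.card (conjSub P H) = Nat.card H := (Nat.card_congr (conjSubEquiv P H).toEquiv).symm
      rw [e2, ← hcard] at e1
      exact Nat.eq_of_mul_eq_mul_left Nat.card_pos e1
    rw [h2] at h1
    have := Nat.le_of_dvd (Nat.pos_of_ne_zero Subgroup.index_ne_zero_of_finite) h1
    omega
  · by_cases hm2 : m = 1
    · exact hH (htop hm2)
    · have hm3 : 2 ≤ m := by omega
      have hr2 : 2 ≤ Nat.card K₀ := Finite.one_lt_card
      have h1 : (Nat.card K₀) ^ 2 ≤ q := by
        rw [← hm]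
        exact Nat.pow_le_pow_right (by omega) hm3
      refine num_sub hr2 h1 (hx.trans ?_)
      exact Nat.mul_le_mul (by omega) hcH

end Cfsg.Agent.S0806
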