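import Cfsg.Statements.S0807
import Mathlib
import Cfsg.Agent.Lib.Classical.SL2Klein

set_option autoImplicit false
open Cfsg

namespace Cfsg.Agent.S0807

/-- For q odd, twelve times the number of Klein four-subgroups of PSL_2(q) equals the order of PSL_2(q). -/
theorem result {F : Type*} [Field F] [Fintype F] {q : ℕ} (hF : Fintype.card F = q) (hodd : Odd q) : 12 * Nat.card {V : Subgroup (Matrix.ProjectiveSpecialLinearGroup (Fin 2) F) // IsKleinFour V} = Nat.card (Matrix.ProjectiveSpecialLinearGroup (Fin 2) F) := by
  subst hF
  exact Cfsg.Agent.Lib.Classical.card_klein_psl2 hodd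

end Cfsg.Agent.S0807
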