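import Cfsg.Statements.S0809
import Mathlib
import Cfsg.Agent.Lib.Classical.SL2Four2

set_option autoImplicit false
open Cfsg Cfsg.Agent.Lib.Classical

namespace Cfsg.Agent.S0809

/-- In SL_2(q), q odd: any two subgroups of order 4 are conjugate, and the normaliser of a subgroup of order 4 has order 2(q − 1) if q ≡ 1 (mod 4) and 2(q + 1) if q ≡ 3 (mod 4); consequently all involutions of PSL_2(q) are conjugate. -/
theorem result {F : Type*} [Field F] [Fintype F] {q : ℕ} (hF : Fintype.card F = q) (hodd : Odd q) (A : Subgroup (Matrix.SpecialLinearGroup (Fin 2) F)) (hA : Nat.card A = 4) : (∀ B : Subgroup (Matrix.SpecialLinearGroup (Fin 2) F), Nat.card B = 4 → ∃ g : Matrix.SpecialLinearGroup (Fin 2) F, B = A.map (MulAut.conj g).toMonoidHom) ∧ (q % 4 = 1 → Nat.card ↥(Subgroup.normalizer (A : Set (Matrix.SpecialLinearGroup (Fin 2) F))) = 2 * (q - 1)) ∧ (q % 4 = 3 → Nat.card ↥(Subgroup.normalizer (A : Set (Matrix.SpecialLinearGroup (Fin 2) F))) = 2 * (q + 1)) ∧ (∀ x y : Matrix.ProjectiveSpecialLinearGroup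 (Fin 2) F, orderOf x = 2 → orderOf y = 2 → IsConj x y) := by
  subst hF
  have h2 := two_ne_zero_of_odd hodd
  obtain ⟨a, ha, hA'⟩ := exists_gen_of_card_four hodd A hA
  refine ⟨fun B hB => card_four_conj hodd A B hA hB, ?_, ?_, psl2_involutions_conj hodd⟩
  · intro hq
    have hs : IsSquare (-1 : F) := FiniteField.isSquare_neg_one_iff.2 (by omega)
    obtain ⟨i, hi⟩ := hs
    rw [hA', card_normalizer_zpowers hodd ha, card_centralizer_trZero hodd ha,
      card_circle_of_square h2 (i := i) (by rw [pow_two]; exact hi.symm)]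
  · intro hq
    have hs : ¬ IsSquare (-1 : F) := by
      rw [FiniteField.isSquare_neg_one_iff]
      omega
    rw [hA', card_normalizer_zpowers hodd ha, card_centralizer_trZero hodd ha,
      card_circle_of_not_square h2 (fun m hm => hs ⟨m, by rw [← hm, pow_two]⟩)]

end Cfsg.Agent.S0809
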