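import Cfsg.Statements.S0810
import Mathlib
import Cfsg.Agent.Lib.Classical.DSolv
import Cfsg.Agent.Lib.Classical.DNum
import Cfsg.Agent.Lib.Classical.PslApps
import Cfsg.Agent.Lib.Classical.PSL2Simple
import Cfsg.Agent.S0804

set_option autoImplicit false
open Cfsg Cfsg.Agent.Lib.Classical Projectivization
open scoped LinearAlgebra.Projectivization MatrixGroups

namespace Cfsg.Agent.S0810

/-- PSL_2(q) is minimal simple iff q is 2^r (r prime), 3^r (r an odd prime), a prime greater than 5 congruent to 2 or 3 mod 5, or 5. -/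
theorem result {F : Type*} [Field F] [Fintype F] {q : ℕ} (hF : Fintype.card F = q) : Cfsg.IsMinimalSimple (Matrix.ProjectiveSpecialLinearGroup (Fin 2) F) ↔ ((∃ r : ℕ, r.Prime ∧ q = 2 ^ r) ∨ (∃ r : ℕ, r.Prime ∧ r ≠ 2 ∧ q = 3 ^ r) ∨ (q.Prime ∧ 5 < q ∧ (q % 5 = 2 ∨ q % 5 = 3)) ∨ q = 5) := by
  classical
  obtain ⟨p, hpc⟩ := CharP.exists F
  haveI : Fact p.Prime := ⟨CharP.char_is_prime F p⟩
  have hpp : p.Prime := Fact.out
  obtain ⟨n, -, hqn⟩ := FiniteField.card F p
  rw [hF] at hqn
  have hq2 : 2 ≤ q := by
    rw [← hF]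
    exact Fintype.one_lt_card
  have hcF : Nat.card F = q := by rw [Nat.card_eq_fintype_card, hF]
  have hG := card_gcd_mul hF (F := F)
  have hd12 : Nat.gcd 2 (q - 1) ≤ 2 := Nat.le_of_dvd (by norm_num) (Nat.gcd_dvd_left _ _)
  have hd0 : 0 < Nat.gcd 2 (q - 1) := Nat.gcd_pos_of_pos_left _ (by norm_num)
  have hA5ns : ¬ Group.IsSolvable (alternatingGroup (Fin 5)) := by
    intro hs
    have h1 := (IsSimpleGroup.comm_iff_isSolvable (G := alternatingGroup (Fin 5))).2 hs
    have h2 := a4DataAlt5.h1
    rw [h1 a4DataAlt5.w a4DataAlt5.a, mul_inv_cancel_right] at h2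
    have h3 : a4DataAlt5.b = 1 := by
      have := h2
      exact (mul_eq_left.1 h2.symm)
    exact a4DataAlt5.hb1 h3
  constructor
  · rintro ⟨hs, hnc, hsol⟩
    have hq4 : 4 ≤ q := by
      by_contra hlt
      apply hnc
      have h1 : Group.IsSolvable (Pe F) := psl_solvable_of_card_le (by omega)
      exact isMulCommutative_iff.2 (IsSimpleGroup.comm_iff_isSolvable.2 h1)
    have no_sub : ∀ e : ℕ, 1 ≤ e → e ∣ n → e < n → 4 ≤ p ^ e → False := by
      intro e he hen hen2 hpe
      obtain ⟨m, hm⟩ := hen
      haveI : Fintype (GaloisField p e) := Fintype.ofFinite _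
      have hcK : Fintype.card (GaloisField p e) = p ^ e := by
        rw [← Nat.card_eq_fintype_card, GaloisField.card p e (by omega)]
      have hm2 : 2 ≤ m := by
        by_contra h
        have hm1 : m ≤ 1 := by omega
        have : (n : ℕ) ≤ e := by
          rw [hm]
          nlinarith
        omega
      have hrm : Fintype.card (GaloisField p e) ^ m = Fintype.card F := by
        rw [hcK, ← pow_mul, ← hm, hF, hqn]
      obtain ⟨ι⟩ := exists_ringHom_of_card_pow (by omega : 1 ≤ m) hrm
      have hne : (pslEmbed ι).range ≠ ⊤ := by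
        intro htop
        have hr2 : 2 ≤ p ^ e := by omega
        have e1 : Nat.card (Pe F) = Nat.card (Pe (GaloisField p e)) := by
          have := Nat.card_congr (MonoidHom.ofInjective (pslEmbed_injective ι)).toEquiv
          rw [this, htop]
          simp
        have e2 : Nat.card (Pe F) ≤ p ^ e * ((p ^ e) ^ 2 - 1) := by
          rw [e1]
          have := card_psl_le (F := GaloisField p e)
          rwa [Nat.card_eq_fintype_card (α := GaloisField p e), hcK] at this
        have e3 : (p ^ e) ^ 2 ≤ q := by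
          rw [hqn, ← pow_mul, hm]
          exact Nat.pow_le_pow_right hpp.pos (by nlinarith)
        refine num_sub hr2 e3 ?_
        have e4 : q * (q ^ 2 - 1) ≤ 2 * (p ^ e * ((p ^ e) ^ 2 - 1)) := by
          rw [← hG]
          exact Nat.mul_le_mul hd12 e2
        have e5 : q ^ 2 - 1 ≤ q * (q ^ 2 - 1) := Nat.le_mul_of_pos_left _ (by omega)
        omega
      have h1 := hsol _ hne
      have h2 : Group.IsSolvable (Pe (GaloisField p e)) :=
        isSolvable_of_equiv (MonoidHom.ofInjective (pslEmbed_injective ι)) h1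
      have h4 : 4 ≤ Nat.card (GaloisField p e) := by
        rw [Nat.card_eq_fintype_card, hcK]
        exact hpe
      haveI : IsSimpleGroup (Pe (GaloisField p e)) := psl_isSimpleGroup_of_four_le h4
      exact psl_not_comm (isMulCommutative_iff.2 (IsSimpleGroup.comm_iff_isSolvable.2 h2))
    have a5_sub : 5 ∣ q * (q ^ 2 - 1) → 120 < q * (q ^ 2 - 1) → False := by
      intro h5 h120
      obtain ⟨H, ⟨e⟩⟩ := (Cfsg.Agent.S0804.result hF).2 h5
      have hne : H ≠ ⊤ := by
        rintro rfl
        have e1 : Nat.card (Pe F) = 60 := by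
          have := Nat.card_congr e.toEquiv
          rw [card_alt_five] at this
          rw [← this]
          simp
        rw [e1] at hG
        have e2 : Nat.gcd 2 (q - 1) * 60 ≤ 2 * 60 := Nat.mul_le_mul_right _ hd12
        omega
      exact hA5ns (isSolvable_of_equiv e.symm (hsol H hne))
    have hn_prime : (n : ℕ) ≠ 1 → (n : ℕ).Prime := by
      intro hn1
      by_contra hnp
      obtain ⟨e, hen, he2, hen2⟩ := Nat.exists_dvd_of_not_prime2 (by have := n.pos; omega) hnp
      apply no_sub e (by omega) hen hen2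
      calc 4 = 2 ^ 2 := by norm_num
        _ ≤ p ^ 2 := Nat.pow_le_pow_left hpp.two_le 2
        _ ≤ p ^ e := Nat.pow_le_pow_right hpp.pos he2
    have hn_big : 4 ≤ p → (n : ℕ) = 1 := by
      intro hp4
      by_contra hn1
      have hn2 : 1 < (n : ℕ) := by have := n.pos; omega
      apply no_sub 1 le_rfl (one_dvd _) hn2
      rw [pow_one]
      exact hp4
    have hpc : p = 2 ∨ p = 3 ∨ p = 5 ∨ 7 ≤ p := by
      by_contra hcon
      push Not at hcon
      obtain ⟨h1, h2, h3, h4⟩ := hcon
      have h5 := hpp.two_le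
      have h6 : p = 4 ∨ p = 6 := by omega
      rcases h6 with h6 | h6 <;> rw [h6] at hpp <;> norm_num at hpp
    rcases hpc with rfl | rfl | rfl | hp7
    · left
      refine ⟨n, hn_prime ?_, hqn⟩
      intro h1
      rw [h1] at hqn
      omega
    · right; left
      have hn1 : (n : ℕ) ≠ 1 := by
        intro h1
        rw [h1] at hqn
        omega
      refine ⟨n, hn_prime hn1, ?_, hqn⟩
      intro h2
      rw [h2] at hqn
      subst hqn
      exact a5_sub (by norm_num) (by norm_num)
    · right; right; right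
      have := hn_big (by norm_num)
      rw [this] at hqn
      simpa using hqn
    · right; right; left
      have h1 := hn_big (by omega)
      rw [h1, pow_one] at hqn
      subst hqn
      refine ⟨hpp, by omega, ?_⟩
      have h5 : q % 5 ≠ 0 := by
        intro h
        have h6 : 5 ∣ q := Nat.dvd_of_mod_eq_zero h
        have := (Nat.prime_dvd_prime_iff_eq (by norm_num) hpp).1 h6
        omega
      by_contra hcon
      push Not at hcon
      have h6 : q % 5 = 1 ∨ q % 5 = 4 := by omega
      refine a5_sub (five_dvd_of_mod h6) ?_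
      have h7 : 48 ≤ q ^ 2 - 1 := by
        have : 49 ≤ q ^ 2 := by nlinarith
        omega
      nlinarith
  · intro hN
    have hq4 : 4 ≤ q := by
      rcases hN with ⟨r, hr, rfl⟩ | ⟨r, hr, hr2, rfl⟩ | ⟨-, h5, -⟩ | rfl
      · calc 4 = 2 ^ 2 := by norm_num
          _ ≤ 2 ^ r := Nat.pow_le_pow_right (by norm_num) hr.two_le
      · calc 4 ≤ 3 ^ 2 := by norm_num
          _ ≤ 3 ^ r := Nat.pow_le_pow_right (by norm_num) hr.two_le
      · omega
      · omega
    refine ⟨psl_isSimpleGroup_of_four_le (by omega), psl_not_comm, ?_⟩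
    intro H hH
    have hcH : Nat.card H ≤ Nat.card (Pe F) := Subgroup.card_le_card_group H
    have htop : Nat.card (Pe F) ≤ Nat.card H → H = ⊤ := by
      intro h
      apply Subgroup.eq_top_of_card_eq
      exact le_antisymm hcH h
    rcases dickson_num hF p H with ⟨h1, -⟩ | ⟨c, -, -, ⟨e⟩⟩ | ⟨⟨e⟩⟩ | ⟨⟨e⟩⟩ | ⟨⟨e⟩⟩ | ⟨P, hP⟩ | ⟨K₀, P, m, hm, hm1, -, htop', -, he⟩
    · apply Group.isSolvable_of_comm
      intro a b
      letI := IsCyclic.commGroup (α := H)
      exact mul_comm a b
    · exact isSolvable_of_equiv e (isSolvable_dihedral c)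
    · haveI := Cfsg.Agent.Lib.Struct.isSolvable_perm_fin_four
      exact isSolvable_of_equiv e inferInstance
    · exact isSolvable_of_equiv e Cfsg.Agent.Lib.Struct.isSolvable_perm_fin_four
    · exfalso
      have h60 : Nat.card H = 60 := by
        rw [Nat.card_congr e.toEquiv]
        exact card_alt_five
      have hdvd : 60 ∣ Nat.card (Pe F) := by
        rw [← h60]
        exact Subgroup.card_subgroup_dvd_card H
      have h5 : 5 ∣ q * (q ^ 2 - 1) := by
        rw [← hG]
        exact Dvd.dvd.mul_left (Dvd.dvd.trans (by norm_num) hdvd) _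
      rcases hN with ⟨r, hr, rfl⟩ | ⟨r, hr, hr2, rfl⟩ | ⟨-, -, h6⟩ | rfl
      · by_cases hr2 : r = 2
        · subst hr2
          have e0 : Nat.gcd 2 (2 ^ 2 - 1) = 1 := by norm_num
          rw [e0] at hG
          have h61 : 1 * Nat.card (Pe F) = 60 := by
            rw [hG]
            norm_num
          exact hH (htop (by omega))
        · obtain ⟨k, rfl⟩ := hr.odd_of_ne_two hr2
          exact not_five_dvd (mod5_two_pow k) h5
      · obtain ⟨k, rfl⟩ := hr.odd_of_ne_two hr2
        exact not_five_dvd (mod5_three_pow k) h5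
      · exact not_five_dvd h6 h5
      · have e0 : Nat.gcd 2 (5 - 1) = 2 := by norm_num
        rw [e0] at hG
        have h61 : 2 * Nat.card (Pe F) = 120 := by
          rw [hG]
          norm_num
        exact hH (htop (by omega))
    · exact isSolvable_of_equiv (conjSubEquiv P H) (borel_solvable _ hP)
    · have hm2 : 2 ≤ m := by
        by_contra h
        exact hH (htop' (by omega))
      have hr2 : 2 ≤ Nat.card K₀ := Finite.one_lt_card
      have hr3 : Nat.card K₀ ≤ 3 := by
        rcases hN with ⟨r, hr, rfl⟩ | ⟨r, hr, -, rfl⟩ | ⟨h1, -, -⟩ | rfl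
        · rw [num_root Nat.prime_two hr hm hm2 hr2]
          norm_num
        · rw [num_root Nat.prime_three hr hm hm2 hr2]
        · exfalso
          have := ((Nat.Prime.pow_eq_iff h1).1 hm).2
          omega
        · exfalso
          have := ((Nat.Prime.pow_eq_iff (by norm_num)).1 hm).2
          omega
      rcases he with ⟨⟨e⟩⟩ | ⟨⟨e⟩⟩
      · exact isSolvable_of_equiv e (psl_solvable_of_card_le hr3)
      · exact isSolvable_of_equiv e (pgl_solvable_of_card_le hr3)

end Cfsg.Agent.S0810
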