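import Cfsg.Statements.S0811
import Mathlib
import Cfsg.Agent.Lib.Classical.DDih
import Cfsg.Agent.Lib.Basic.Index2

set_option autoImplicit false
open Cfsg Cfsg.Agent.Lib.Classical

namespace Cfsg.Agent.S0811

/-- For q ∉ {2, 7, 9}, PSL_2(q) has a maximal subgroup isomorphic to the dihedral group of order 2(q + 1)/d, d = gcd(2, q − 1). -/
theorem result {F : Type*} [Field F] [Fintype F] {q : ℕ} (hF : Fintype.card F = q) (hq : q ∉ ({2, 7, 9} : Finset ℕ)) : ∃ H : Subgroup (Matrix.ProjectiveSpecialLinearGroup (Fin 2) F), IsCoatom H ∧ Nonempty (H ≃* DihedralGroup ((q + 1) / Nat.gcd 2 (q - 1))) := by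
  classical
  obtain ⟨p, hpc⟩ := CharP.exists F
  haveI : Fact p.Prime := ⟨CharP.char_is_prime F p⟩
  have hpp : p.Prime := Fact.out
  have hq2 : 2 ≤ q := by
    rw [← hF]
    exact Fintype.one_lt_card
  simp only [Finset.mem_insert, Finset.mem_singleton, not_or] at hq
  obtain ⟨h2, h7, h9⟩ := hq
  have hq3 : 3 ≤ q := by omega
  obtain ⟨n, -, hqn⟩ := FiniteField.card F p
  rw [hF] at hqn
  have hpq : p ∣ q := by
    rw [hqn]
    exact dvd_pow_self _ n.ne_zero
  obtain ⟨ρ, σ, hord, hσσ, hc, hn⟩ := exists_dih_data hF p (q + 1) (Or.inr rfl) (by omega)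
  obtain ⟨H₀, hρ, hσ, hcard, he⟩ := exists_dih_sub ρ σ hord hσσ hc hn
  refine ⟨H₀, ?_, he⟩
  have hG := card_gcd_mul hF (F := F)
  have hdk := div_gcd_mul_add q (by omega)
  by_cases h3 : q = 3
  · subst h3
    apply Cfsg.Agent.Lib.Basic.isCoatom_of_index_prime
    have e1 : Nat.gcd 2 (3 - 1) = 2 := by norm_num
    rw [e1] at hG hcard
    have e3 := Subgroup.card_mul_index H₀
    have e4 : Nat.card H₀ = 4 := by
      rw [hcard]
    have e5 : 2 * Nat.card (Pe F) = 24 := by
      rw [hG]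
      norm_num
    have e6 : H₀.index = 3 := by
      rw [e4] at e3
      have e7 : Nat.card (Pe F) = 12 := by omega
      rw [e7] at e3
      omega
    rw [e6]
    exact Nat.prime_three
  · have hq4 : 4 ≤ q := by omega
    apply dih_coatom hF p ρ σ _ hord (num811_bound hq4) hσσ hc H₀ hρ hσ hcard ?_ ?_ ?_ ?_ ?_ ?_
    · intro h
      have h1 : p ∣ q + 1 := h.trans (Dvd.intro_left _ hdk)
      have h5 : p ∣ 1 := (Nat.dvd_add_right hpq).1 h1
      exact hpp.one_lt.ne' (Nat.dvd_one.1 h5)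
    · rintro rfl
      rw [Subgroup.card_top] at hcard
      rw [hcard] at hG
      apply num_top hq4
      rw [← hG, ← mul_assoc, mul_comm (Nat.gcd 2 (q - 1)) 2, mul_assoc, hdk]
    · rw [hdk]
      omega
    · exact fun hk => num811_S4 hq4 h7 hG hk
    · exact fun hk h60 => num811_A5 hq4 h9 hG hk h60
    · exact fun r m hrm hm hr hk _ => num811_K hq4 hrm hm hr hk

end Cfsg.Agent.S0811
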