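import Cfsg.Statements.S0812
import Mathlib
import Cfsg.Agent.Lib.Classical.DDih

set_option autoImplicit false
open Cfsg Cfsg.Agent.Lib.Classical

namespace Cfsg.Agent.S0812

/-- For q ∉ {2, 3, 5, 7, 9, 11}, PSL_2(q) has a maximal subgroup isomorphic to the dihedral group of order 2(q − 1)/d, d = gcd(2, q − 1). -/
theorem result {F : Type*} [Field F] [Fintype F] {q : ℕ} (hF : Fintype.card F = q) (hq : q ∉ ({2, 3, 5, 7, 9, 11} : Finset ℕ)) : ∃ H : Subgroup (Matrix.ProjectiveSpecialLinearGroup (Fin 2) F), IsCoatom H ∧ Nonempty (H ≃* DihedralGroup ((q - 1) / Nat.gcd 2 (q - 1))) := by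
  classical
  obtain ⟨p, hpc⟩ := CharP.exists F
  haveI : Fact p.Prime := ⟨CharP.char_is_prime F p⟩
  have hpp : p.Prime := Fact.out
  have hq2 : 2 ≤ q := by
    rw [← hF]
    exact Fintype.one_lt_card
  simp only [Finset.mem_insert, Finset.mem_singleton, not_or] at hq
  obtain ⟨h2, h3, h5, h7, h9, h11⟩ := hq
  have hq4 : 4 ≤ q := by omega
  obtain ⟨n, -, hqn⟩ := FiniteField.card F p
  rw [hF] at hqn
  have hpq : p ∣ q := by
    rw [hqn]
    exact dvd_pow_self _ n.ne_zero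
  obtain ⟨ρ, σ, hord, hσσ, hc, hn⟩ := exists_dih_data hF p (q - 1) (Or.inl rfl) (by omega)
  obtain ⟨H₀, hρ, hσ, hcard, he⟩ := exists_dih_sub ρ σ hord hσσ hc hn
  refine ⟨H₀, ?_, he⟩
  have hG := card_gcd_mul hF (F := F)
  have hdk := div_gcd_mul_sub q
  apply dih_coatom hF p ρ σ _ hord (num812_bound hq4 h5 h7) hσσ hc H₀ hρ hσ hcard ?_ ?_ ?_ ?_ ?_ ?_
  · intro h
    have h1 : p ∣ q - 1 := h.trans (Dvd.intro_left _ hdk)
    have e : q = (q - 1) + 1 := by omega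
    rw [e] at hpq
    have h6 : p ∣ 1 := (Nat.dvd_add_right h1).1 hpq
    exact hpp.one_lt.ne' (Nat.dvd_one.1 h6)
  · rintro rfl
    rw [Subgroup.card_top] at hcard
    rw [hcard] at hG
    apply num_top2 hq4
    rw [← hG, ← mul_assoc, mul_comm (Nat.gcd 2 (q - 1)) 2, mul_assoc, hdk]
  · rw [hdk]
    omega
  · exact fun hk => num812_S4 hq4 h5 h7 h9 hG hk
  · exact fun hk h60 => num812_A5 hq4 h5 h7 h9 h11 hG hk h60
  · exact fun r m hrm hm hr hk hk4 => num812_K hq4 h9 hrm hm hr hk hk4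

end Cfsg.Agent.S0812
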