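import Cfsg.Statements.S0813
import Mathlib
import Cfsg.Agent.Lib.AutPSL.OutHom
import Cfsg.Agent.Lib.Classical.Card2

set_option autoImplicit false
open Cfsg Cfsg.Agent.Lib.Classical

namespace Cfsg.Agent.S0813

/-- |Aut(PSL_n(q))|, q = p^f: for n ≥ 3 it is 2 f |PGL_n(q)|, and for n = 2 (q ≥ 4) it is f |PGL_2(q)|. -/
theorem result {F : Type*} [Field F] [Fintype F] (p f : ℕ) [Fact p.Prime] (hf : 1 ≤ f) (hF : Fintype.card F = p ^ f) (n : ℕ) (hn : 2 ≤ n) (h2 : n = 2 → 4 ≤ p ^ f) : Nat.card (MulAut (Matrix.ProjectiveSpecialLinearGroup (Fin n) F)) = (if n = 2 then 1 else 2) * f * Nat.card (Matrix.ProjGenLinGroup (Fin n) F) := by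
  classical
  have hp : p ≠ 0 := (Fact.out : p.Prime).ne_zero
  haveI : NeZero f := ⟨by omega⟩
  have hq : Nat.card F = p ^ f := by rw [Nat.card_eq_fintype_card, hF]
  have hcent : Function.Injective (MulAut.conj : Matrix.ProjectiveSpecialLinearGroup (Fin n) F →* MulAut _) := by
    haveI : Nontrivial (Fin n) := Fin.nontrivial_iff_two_le.2 hn
    rw [injective_iff_map_eq_one]
    intro x hx
    obtain ⟨s, rfl⟩ := Cfsg.Agent.Lib.AutPSL.pr_surj x
    rw [Cfsg.Agent.Lib.AutPSL.conj_eq_semiAut] at hx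
    obtain ⟨-, c, hc0, hg⟩ := Cfsg.Agent.Lib.AutPSL.semiAut_eq_one hx
    have hg' : s.1 = c • (1 : Matrix (Fin n) (Fin n) F) := hg
    rw [← Cfsg.Agent.Lib.AutPSL.pr_one, Cfsg.Agent.Lib.AutPSL.pr_eq_iff]
    refine ⟨c⁻¹, ?_⟩
    rw [hg', smul_smul, inv_mul_cancel₀ hc0, one_smul]
    rfl
  have hInn : Nat.card (Cfsg.Inn (Matrix.ProjectiveSpecialLinearGroup (Fin n) F)) = Nat.card (Matrix.ProjectiveSpecialLinearGroup (Fin n) F) :=
    Nat.card_congr (MonoidHom.ofInjective hcent).toEquiv.symm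
  have hAut := Subgroup.card_eq_card_quotient_mul_card_subgroup (Cfsg.Inn (Matrix.ProjectiveSpecialLinearGroup (Fin n) F))
  rw [hInn] at hAut
  have hPGL : Nat.card (Matrix.ProjGenLinGroup (Fin n) F) = Nat.gcd n (p ^ f - 1) * Nat.card (Matrix.ProjectiveSpecialLinearGroup (Fin n) F) := by
    rw [card_PGL_eq_card_SL]
    have h1 := Subgroup.card_eq_card_quotient_mul_card_subgroup (Subgroup.center (Matrix.SpecialLinearGroup (Fin n) F))
    rw [card_center_SL n (by omega), hq] at h1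
    rw [h1, mul_comm]
  rw [hAut, hPGL]
  have hOut : Nat.card (Cfsg.Out (Matrix.ProjectiveSpecialLinearGroup (Fin n) F)) = (if n = 2 then 1 else 2) * f * Nat.gcd n (p ^ f - 1) := by
    by_cases hn2 : n = 2
    · subst hn2
      obtain ⟨φ, hsurj, -, hker⟩ := Cfsg.Agent.Lib.AutPSL.out_two hf hF
      have h1 := Subgroup.card_eq_card_quotient_mul_card_subgroup φ.ker
      have h2 : Nat.card (Cfsg.Out (Matrix.ProjectiveSpecialLinearGroup (Fin 2) F) ⧸ φ.ker) = f := by
        rw [Nat.card_congr (QuotientGroup.quotientKerEquivOfSurjective φ hsurj).toEquiv]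
        simp
      rw [h1, h2, hker]
      simp
    · have hn3 : 3 ≤ n := by omega
      obtain ⟨φ, hsurj, -, hker⟩ := Cfsg.Agent.Lib.AutPSL.out_three hf hF hn3
      have h1 := Subgroup.card_eq_card_quotient_mul_card_subgroup φ.ker
      have h2 : Nat.card (Cfsg.Out (Matrix.ProjectiveSpecialLinearGroup (Fin n) F) ⧸ φ.ker) = f * 2 := by
        rw [Nat.card_congr (QuotientGroup.quotientKerEquivOfSurjective φ hsurj).toEquiv]
        simp [Nat.card_prod]
      rw [h1, h2, hker]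
      rw [if_neg hn2]
      ring
  rw [hOut]
  ring

end Cfsg.Agent.S0813
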