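import Cfsg.Statements.S0816
import Mathlib
import Cfsg.Agent.Lib.Classical.APOCount
import Cfsg.Agent.S0292
import Cfsg.Agent.Lib.AutPSL.OutHom

set_option autoImplicit false
open Cfsg Cfsg.Agent.Lib.Classical Cfsg.Agent.Lib.APOCount

namespace Cfsg.Agent.S0816

/-- |Aut(PΩ_(2m+1)(q))| = 2 f · |PΩ_(2m+1)(q)| for q = p^f odd and m ≥ 3 (for the form quadFormOdd). -/
theorem result {F : Type*} [Field F] [Fintype F] (p f : ℕ) [Fact p.Prime] (hf : 1 ≤ f) (hF : Fintype.card F = p ^ f) (hodd : Odd p) (m : ℕ) (hm : 3 ≤ m) : Nat.card (MulAut (Cfsg.POmega F (Cfsg.quadFormOdd m F))) = 2 * f * Nat.card (Cfsg.POmega F (Cfsg.quadFormOdd m F)) := by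
  classical
  haveI : CharP F p := Cfsg.Agent.Lib.AutPSL.charP_of_card hf hF
  have hpp : p.Prime := Fact.out
  have hoddq : Odd (p ^ f) := hodd.pow
  have hodd' : Odd (Fintype.card F) := by rwa [hF]
  have h2 : (2 : F) ≠ 0 := two_ne_zero_of_odd hodd'
  have hcard : Fintype.card (Unit ⊕ (Fin m ⊕ Fin m)) = 2 * m + 1 := by
    simp only [Fintype.card_sum, Fintype.card_unit, Fintype.card_fin]
    omega
  have hex : ∀ σ : F ≃+* F, ∃ M : GL (Unit ⊕ (Fin m ⊕ Fin m)) F, Cfsg.IsSemisimilarityPair (Cfsg.quadFormOdd m F) M σ := by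
    intro σ
    refine ⟨1, 1, fun v => ?_⟩
    simp [Cfsg.quadFormOdd, map_sum, map_add, map_mul, map_pow]
  have h1 := aut_count_odd (ndq_odd h2 m) (by rw [hcard]; omega) (fun Q hQ hnd W hW h3 => by rw [hcard] at h3; omega) hex
    (by rw [hcard]; exact ⟨m, rfl⟩) h2
  rw [(Cfsg.Agent.Lib.AutPSL.card_gal hf hF).2, card_isometry_odd hF h2 m] at h1
  have h3 := Cfsg.Agent.S0292.result hF hoddq m hm
  rw [mul_assoc 2, ← h3] at h1
  have h4 : 2 * Nat.card (MulAut (Cfsg.POmega F (Cfsg.quadFormOdd m F))) = 2 * (2 * f * Nat.card (Cfsg.POmega F (Cfsg.quadFormOdd m F))) := by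
    rw [h1]
    ring
  exact Nat.eq_of_mul_eq_mul_left (by norm_num) h4

end Cfsg.Agent.S0816
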