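import Cfsg.Statements.S0818
import Mathlib
import Cfsg.Agent.Lib.Classical.APOMinus
import Cfsg.Agent.S0294
import Cfsg.Agent.Lib.AutPSL.OutHom
import Cfsg.Agent.Lib.Quad.Witt

set_option autoImplicit false
open Cfsg Cfsg.Agent.Lib.Classical Cfsg.Agent.Lib.APOCount

namespace Cfsg.Agent.S0818

/-- |Aut(PΩ⁻_2m(q))| for q = p^f, m ≥ 4 (form quadFormMinus (m−1) with anisotropic binary part): |PΩ⁻_2m(q)| times f, times 2 if p = 2, and times 4 or 8 if p is odd according as m(q−1)/2 is even or odd. -/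
theorem result {F : Type*} [Field F] [Fintype F] (p f : ℕ) [Fact p.Prime] (hf : 1 ≤ f) (hF : Fintype.card F = p ^ f) (m : ℕ) (hm : 4 ≤ m) (a b : F) (hab : ∀ z₁ z₂ : F, z₁ ^ 2 + a * z₁ * z₂ + b * z₂ ^ 2 = 0 → z₁ = 0 ∧ z₂ = 0) : Nat.card (MulAut (Cfsg.POmega F (Cfsg.quadFormMinus (m - 1) F a b))) = (if p = 2 then 2 else (if Even (m * (p ^ f - 1) / 2) then 4 else 8)) * f * Nat.card (Cfsg.POmega F (Cfsg.quadFormMinus (m - 1) F a b)) := by
  classical
  haveI : CharP F p := Cfsg.Agent.Lib.AutPSL.charP_of_card hf hF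
  have hpp : p.Prime := Fact.out
  have hm1 : m - 1 + 1 = m := by omega
  have hcard : Fintype.card ((Fin (m - 1) ⊕ Fin (m - 1)) ⊕ Fin 2) = 2 * m := by
    simp only [Fintype.card_sum, Fintype.card_fin]
    omega
  have h1 := aut_count_even (ndq_minus a b hab (m - 1)) (by rw [hcard]; omega) (fun Q hQ hnd W hW h2 => by
      rw [hcard] at h2
      have h3 := Cfsg.Agent.Lib.Quad.finrank_le_of_minus_singular hab W (fun u hu => by
        rw [← hQ]
        exact hW u hu)
      omega) (hex_minus a b hab) (m := m) (by omega) hcard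
  rw [(Cfsg.Agent.Lib.AutPSL.card_gal hf hF).2, card_isometry_minus hF m (by omega) a b hab] at h1
  have h3 := Cfsg.Agent.S0294.result hF m hm a b hab
  rw [h1, mul_assoc 2 _ _, mul_assoc 2 _ _, ← h3]
  have key : 2 * Nat.gcd 4 ((p ^ f) ^ m + 1) = if p = 2 then 2 else if Even (m * (p ^ f - 1) / 2) then 4 else 8 := by
    by_cases hp2 : p = 2
    · subst hp2
      rw [if_pos rfl]
      have h5 : Even ((2 ^ f) ^ m) := by
        apply Even.pow_of_ne_zero _ (by omega)
        exact Even.pow_of_ne_zero even_two (by omega)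
      have h6 : Nat.Coprime 2 ((2 ^ f) ^ m + 1) := Nat.coprime_two_left.2 h5.add_one
      have h7 : Nat.gcd 4 ((2 ^ f) ^ m + 1) = 1 := Nat.Coprime.pow_left 2 h6
      rw [h7]
    · rw [if_neg hp2]
      have hoddp : Odd p := hpp.odd_of_ne_two hp2
      have hoddq : Odd (p ^ f) := hoddp.pow
      have h4 := even_iff_mod4 (p ^ f) m hoddq
      have h5 := Nat.odd_iff.1 (hoddq.pow (n := m))
      by_cases h6 : Even (m * (p ^ f - 1) / 2)
      · rw [if_pos h6, gcd_two_of_mod4 (by have := h4.1 h6; omega)]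
      · rw [if_neg h6, gcd_four_of_mod4 (by
          have h7 : (p ^ f) ^ m % 4 ≠ 1 := fun h => h6 (h4.2 h)
          omega)]
  rw [← key]
  ring

end Cfsg.Agent.S0818
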