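import Cfsg.Statements.S0819
import Mathlib
import Cfsg.Agent.Lib.Psl34.Order3

set_option autoImplicit false
open Cfsg Cfsg.Agent.Lib.Psl34

namespace Cfsg.Agent.S0819

/-- No element of PSL_3(4) has order 15. -/
theorem result {F : Type*} [Field F] [Fintype F] (hF : Fintype.card F = 4) (g : Matrix.ProjectiveSpecialLinearGroup (Fin 3) F) : orderOf g ≠ 15 := by
  classical
  intro h15
  have hcard : 2 < Fintype.card F := by omega
  obtain ⟨ω, hω0, hω1⟩ : ∃ ω : F, ω ≠ 0 ∧ ω ≠ 1 := by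
    obtain ⟨ω, hω⟩ := Finset.exists_mem_notMem_of_card_lt_card (s := ({0, 1} : Finset F)) (t := Finset.univ) (by
      rw [Finset.card_univ]
      exact lt_of_le_of_lt (Finset.card_le_two) hcard)
    simp only [Finset.mem_insert, Finset.mem_singleton, not_or] at hω
    exact ⟨ω, hω.2.1, hω.2.2⟩
  have hω3 : ω ^ 3 = 1 := pow_three_eq_one hF hω0
  have hω21 : ω ^ 2 ≠ 1 := by
    intro h
    apply hω1
    have : ω ^ 3 = ω ^ 2 * ω := by ring
    rw [hω3, h, one_mul] at this
    exact this.symm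
  have hω2 : ω ^ 2 ≠ ω := by
    intro h
    apply hω1
    have h1 : ω * (ω - 1) = 0 := by linear_combination h
    rcases mul_eq_zero.1 h1 with h2 | h2
    · exact absurd h2 hω0
    · exact sub_eq_zero.1 h2
  let D : Matrix.SpecialLinearGroup (Fin 3) F := ⟨Matrix.diagonal ![1, ω, ω ^ 2], by
    simp [Matrix.det_diagonal, Fin.prod_univ_three]
    linear_combination hω3⟩
  have hx : orderOf (g ^ 5) = 3 := by
    rw [orderOf_pow' g (by norm_num), h15]
    norm_num
  obtain ⟨t, ht⟩ := exists_conj_std hF hω0 hω1 D rfl (g ^ 5) hx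
  set g' := t⁻¹ * g * t with hg'
  have hcomm : g' * (QuotientGroup.mk D : Matrix.ProjectiveSpecialLinearGroup (Fin 3) F) = QuotientGroup.mk D * g' := by
    have h1 : (QuotientGroup.mk D : Matrix.ProjectiveSpecialLinearGroup (Fin 3) F) = t⁻¹ * g ^ 5 * t := by
      rw [ht]
      group
    rw [h1, hg']
    have h2 : g * g ^ 5 = g ^ 5 * g := by
      rw [← pow_succ, ← pow_succ']
    calc t⁻¹ * g * t * (t⁻¹ * g ^ 5 * t) = t⁻¹ * (g * g ^ 5) * t := by group
      _ = t⁻¹ * (g ^ 5 * g) * t := by rw [h2]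
      _ = _ := by group
  obtain ⟨Y, hY⟩ := QuotientGroup.mk_surjective g'
  rw [← hY] at hcomm
  have hc : Y * D * Y⁻¹ * D⁻¹ ∈ Subgroup.center (Matrix.SpecialLinearGroup (Fin 3) F) := by
    apply (QuotientGroup.eq_one_iff _).1
    rw [QuotientGroup.mk_mul, QuotientGroup.mk_mul, QuotientGroup.mk_mul, QuotientGroup.mk_inv, QuotientGroup.mk_inv, hcomm]
    group
  obtain ⟨z, hz3, hz⟩ := Matrix.SpecialLinearGroup.mem_center_iff.1 hc
  have hz3' : z ^ 3 = 1 := by simpa using hz3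
  have hYD : Y.1 * D.1 = z • (D.1 * Y.1) := by
    have h1 : Y * D = (Y * D * Y⁻¹ * D⁻¹) * (D * Y) := by group
    have h2 := congrArg (fun A : Matrix.SpecialLinearGroup (Fin 3) F => (A : Matrix (Fin 3) (Fin 3) F)) h1
    simp only [Matrix.SpecialLinearGroup.coe_mul] at h2
    rw [h2]
    have h3 : (Y * D * Y⁻¹ * D⁻¹ : Matrix.SpecialLinearGroup (Fin 3) F).1 = z • 1 := by
      rw [← hz]
      ext i j
      simp [Matrix.one_apply, Matrix.scalar_apply, Matrix.diagonal_apply]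
    change (Y * D * Y⁻¹ * D⁻¹ : Matrix.SpecialLinearGroup (Fin 3) F).1 * _ = _
    rw [h3, Matrix.smul_mul, Matrix.one_mul]
  have hY3D : (Y ^ 3).1 * D.1 = D.1 * (Y ^ 3).1 := by
    have e1 : (Y ^ 3).1 = Y.1 * Y.1 * Y.1 := by
      rw [pow_succ, pow_two]
      rfl
    have h2 : Y.1 * (Y.1 * D.1) = z • z • (D.1 * (Y.1 * Y.1)) := by
      rw [hYD, Matrix.mul_smul, ← Matrix.mul_assoc, hYD, Matrix.smul_mul, Matrix.mul_assoc]
    have h3 : Y.1 * (Y.1 * (Y.1 * D.1)) = z • z • z • (D.1 * (Y.1 * (Y.1 * Y.1))) := by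
      rw [h2, Matrix.mul_smul, Matrix.mul_smul, ← Matrix.mul_assoc, hYD, Matrix.smul_mul, Matrix.mul_assoc]
    have h4 : z • z • z • (D.1 * (Y.1 * (Y.1 * Y.1))) = D.1 * (Y.1 * (Y.1 * Y.1)) := by
      rw [smul_smul, smul_smul, show z * z * z = z ^ 3 by ring, hz3', one_smul]
    rw [e1]
    calc Y.1 * Y.1 * Y.1 * D.1 = Y.1 * (Y.1 * (Y.1 * D.1)) := by simp only [Matrix.mul_assoc]
      _ = D.1 * (Y.1 * (Y.1 * Y.1)) := by rw [h3, h4]
      _ = _ := by simp only [Matrix.mul_assoc]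
  set M : Matrix (Fin 3) (Fin 3) F := (Y ^ 3).1 with hM
  have hdM : M.det = 1 := (Y ^ 3).2
  have hoff : ∀ i j, i ≠ j → M i j = 0 := by
    have hd : ∀ i j : Fin 3, i ≠ j → (![1, ω, ω ^ 2] : Fin 3 → F) i ≠ ![1, ω, ω ^ 2] j := by
      intro i j hij h
      fin_cases i <;> fin_cases j
      · exact hij rfl
      · exact hω1 h.symm
      · exact hω21 h.symm
      · exact hω1 h
      · exact hij rfl
      · exact hω2 h.symm
      · exact hω21 h
      · exact hω2 h
      · exact hij rfl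
    intro i j hij
    have h1 := congrFun (congrFun hY3D i) j
    change (M * Matrix.diagonal ![1, ω, ω ^ 2]) i j = (Matrix.diagonal ![1, ω, ω ^ 2] * M) i j at h1
    rw [Matrix.mul_diagonal, Matrix.diagonal_mul] at h1
    have h2 : (![1, ω, ω ^ 2] j - ![1, ω, ω ^ 2] i) * M i j = 0 := by linear_combination h1
    rcases mul_eq_zero.1 h2 with h3 | h3
    · exact absurd (sub_eq_zero.1 h3).symm (hd i j hij)
    · exact h3
  have hMd : M = Matrix.diagonal ![M 0 0, M 1 1, M 2 2] := by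
    ext i j
    by_cases hij : i = j
    · subst hij
      fin_cases i <;> simp
    · rw [hoff i j hij, Matrix.diagonal_apply_ne _ hij]
  have hdet : M 0 0 * M 1 1 * M 2 2 = 1 := by
    rw [hMd] at hdM
    simpa [Matrix.det_diagonal, Fin.prod_univ_three] using hdM
  have hcube : ∀ a : F, a ≠ 0 → a ^ 3 = 1 := fun a ha => pow_three_eq_one hF ha
  have h00 : M 0 0 ≠ 0 := by
    intro h
    rw [h] at hdet
    simp at hdet
  have h11 : M 1 1 ≠ 0 := by
    intro h
    rw [h] at hdet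
    simp at hdet
  have h22 : M 2 2 ≠ 0 := by
    intro h
    rw [h] at hdet
    simp at hdet
  have hM3 : M ^ 3 = 1 := by
    rw [hMd, Matrix.diagonal_pow, ← Matrix.diagonal_one]
    congr 1
    ext i
    fin_cases i
    · simpa using hcube _ h00
    · simpa using hcube _ h11
    · simpa using hcube _ h22
  have hY9 : Y ^ 9 = 1 := by
    apply Subtype.ext
    have : (Y ^ 9).1 = M ^ 3 := by
      rw [hM, show (9 : ℕ) = 3 * 3 by rfl, pow_mul]
      rfl
    rw [this, hM3]
    rfl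
  have hg9 : g' ^ 9 = 1 := by
    rw [← hY, ← QuotientGroup.mk_pow, hY9]
    rfl
  have hg : g = t * g' * t⁻¹ := by
    rw [hg']
    group
  have h9 : g ^ 9 = 1 := by
    rw [hg, conj_pow, hg9]
    group
  have := orderOf_dvd_of_pow_eq_one h9
  rw [h15] at this
  omega

end Cfsg.Agent.S0819
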