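import Cfsg.Statements.S0820
import Mathlib
import Cfsg.Agent.Lib.Psl34.Basic
import Cfsg.Agent.Lib.Classical.Reflect


set_option autoImplicit false
open Cfsg Cfsg.Agent.Lib.Psl34 Cfsg.Agent.Lib.Classical
open Matrix

namespace Cfsg.Agent.S0820

section aux

variable {F : Type*} [Field F]

/-- The standard transvection. -/
def stdT3 (F : Type*) [Field F] : Matrix.SpecialLinearGroup (Fin 3) F :=
  ⟨!![1, 0, 1; 0, 1, 0; 0, 0, 1], by simp [Matrix.det_fin_three]⟩

theorem sl3_transvection_conj (A : Matrix.SpecialLinearGroup (Fin 3) F) (h0 : A ≠ 1)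
    (hN : (A.1 - 1) * (A.1 - 1) = 0) : ∃ P : Matrix.SpecialLinearGroup (Fin 3) F, A = P * stdT3 F * P⁻¹ := by
  classical
  set N : Matrix (Fin 3) (Fin 3) F := A.1 - 1 with hNdef
  have hN0 : N ≠ 0 := by
    intro h
    apply h0
    apply Subtype.ext
    exact sub_eq_zero.1 h
  obtain ⟨w, hw⟩ : ∃ w, N *ᵥ w ≠ 0 := by
    by_contra hcon
    push Not at hcon
    apply hN0
    have : N = 0 := by
      apply mat_ext_mulVec'
      intro x
      rw [hcon, Matrix.zero_mulVec]
    exact this
  set u := N *ᵥ w with hu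
  have hNu : N *ᵥ u = 0 := by
    rw [hu, Matrix.mulVec_mulVec, hN, Matrix.zero_mulVec]
  let T := Matrix.toLin' N
  have hT : ∀ v, T v = N *ᵥ v := fun v => rfl
  have hrk := LinearMap.finrank_range_add_finrank_ker T
  have hle : LinearMap.range T ≤ LinearMap.ker T := by
    rintro _ ⟨v, rfl⟩
    rw [LinearMap.mem_ker, hT, hT, Matrix.mulVec_mulVec, hN, Matrix.zero_mulVec]
  have hle' := Submodule.finrank_mono hle
  have hr : 0 < Module.finrank F (LinearMap.range T) := by
    rw [Module.finrank_pos_iff]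
    haveI : Nontrivial (LinearMap.range T) := ⟨⟨⟨u, w, rfl⟩, 0, by
      intro h
      exact hw (congrArg Subtype.val h)⟩⟩
    infer_instance
  simp only [Module.finrank_fintype_fun_eq_card, Fintype.card_fin] at hrk
  have huker : u ∈ LinearMap.ker T := by
    rw [LinearMap.mem_ker, hT, hNu]
  have hlt : Submodule.span F {u} < LinearMap.ker T := by
    apply lt_of_le_of_ne
    · rw [Submodule.span_singleton_le_iff_mem]
      exact huker
    · intro h
      have h1 := finrank_span_singleton (K := F) hw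
      rw [h] at h1
      omega
  obtain ⟨t, ht, htu⟩ := SetLike.exists_of_lt hlt
  have hNt : N *ᵥ t = 0 := ht
  let Q : Matrix (Fin 3) (Fin 3) F := Matrix.of fun i j => ![u i, t i, w i] j
  have hQ : ∀ c : Fin 3 → F, Q *ᵥ c = c 0 • u + c 1 • t + c 2 • w := by
    intro c
    ext i
    simp [Q, Matrix.mulVec, dotProduct, Fin.sum_univ_three]
    ring
  have hdet : Q.det ≠ 0 := by
    intro h
    obtain ⟨c, hc, hc0⟩ := Matrix.exists_mulVec_eq_zero_iff.2 h
    rw [hQ] at hc0
    have h1 := congrArg (fun v => N *ᵥ v) hc0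
    simp only [Matrix.mulVec_add, Matrix.mulVec_smul, hNu, hNt, smul_zero, zero_add, Matrix.mulVec_zero] at h1
    have h2 : c 2 = 0 := by
      rcases smul_eq_zero.1 h1 with h | h
      · exact h
      · exact absurd h hw
    rw [h2, zero_smul, add_zero] at hc0
    have h3 : c 1 = 0 := by
      by_contra h3
      apply htu
      have : t = (- (c 1)⁻¹ * c 0) • u := by
        have h4 : c 1 • t = - (c 0 • u) := by
          rw [eq_neg_iff_add_eq_zero, add_comm]
          exact hc0
        calc t = (c 1)⁻¹ • (c 1 • t) := by rw [smul_smul, inv_mul_cancel₀ h3, one_smul]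
          _ = _ := by
            rw [h4, smul_neg, smul_smul, neg_mul, neg_smul]
      rw [this]
      exact Submodule.smul_mem _ _ (Submodule.mem_span_singleton_self _)
    rw [h3, zero_smul, add_zero] at hc0
    have h4 : c 0 = 0 := by
      rcases smul_eq_zero.1 hc0 with h | h
      · exact h
      · exact absurd h hw
    apply hc
    ext i
    fin_cases i
    · exact h4
    · exact h3
    · exact h2
  let s := (Q.det)⁻¹
  let Q' : Matrix (Fin 3) (Fin 3) F := Matrix.of fun i j => ![u i, s * t i, w i] j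
  have hdet' : Q'.det = 1 := by
    have : Q'.det = s * Q.det := by
      simp [Q', Q, Matrix.det_fin_three]
      ring
    rw [this]
    exact inv_mul_cancel₀ hdet
  let P : Matrix.SpecialLinearGroup (Fin 3) F := ⟨Q', hdet'⟩
  refine ⟨P, ?_⟩
  have hcomm : N * Q' = Q' * !![0, 0, 1; 0, 0, 0; 0, 0, 0] := by
    ext i j
    have h1 := congrFun hNu i
    have h2 := congrFun hNt i
    have h3 : (N *ᵥ w) i = u i := rfl
    simp only [Matrix.mulVec, dotProduct, Fin.sum_univ_three, Pi.zero_apply] at h1 h2 h3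
    fin_cases j
    · simp [Q', Matrix.mul_apply, Fin.sum_univ_three]
      exact h1
    · simp [Q', Matrix.mul_apply, Fin.sum_univ_three]
      linear_combination s * h2
    · simp [Q', Matrix.mul_apply, Fin.sum_univ_three]
      exact h3
  have hA : A.1 = 1 + N := by
    rw [hNdef]
    abel
  have hstd : (stdT3 F).1 = 1 + !![0, 0, 1; 0, 0, 0; 0, 0, 0] := by
    ext i j
    fin_cases i <;> fin_cases j <;> simp [stdT3]
  have h5 : A.1 * Q' = Q' * (stdT3 F).1 := by
    rw [hA, hstd, Matrix.add_mul, Matrix.one_mul, Matrix.mul_add, Matrix.mul_one, hcomm]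
  have h6 : A * P = P * stdT3 F := Subtype.ext h5
  rw [← h6]
  group

theorem exists_lift_sq [Fintype F] (hF : Fintype.card F = 4) (z : Matrix.ProjectiveSpecialLinearGroup (Fin 3) F) (hz : orderOf z = 2) :
    ∃ A : { A : Matrix.SpecialLinearGroup (Fin 3) F // True },
      QuotientGroup.mk A.1 = z ∧ A.1 ≠ 1 ∧ (A.1.1 - 1) * (A.1.1 - 1) = 0 := by
  classical
  obtain ⟨g, rfl⟩ := QuotientGroup.mk_surjective z
  have h2 := two_eq_zero hF
  have hz1 : (QuotientGroup.mk g : Matrix.ProjectiveSpecialLinearGroup (Fin 3) F) ^ 2 = 1 := by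
    rw [← hz]
    exact pow_orderOf_eq_one _
  have hc : g ^ 2 ∈ Subgroup.center (Matrix.SpecialLinearGroup (Fin 3) F) := by
    apply (QuotientGroup.eq_one_iff _).1
    rw [QuotientGroup.mk_pow]
    exact hz1
  obtain ⟨c, hc3, hc'⟩ := Matrix.SpecialLinearGroup.mem_center_iff.1 hc
  have hc3' : c ^ 3 = 1 := by simpa using hc3
  have hcS : ∀ X : Matrix (Fin 3) (Fin 3) F, Matrix.scalar (Fin 3) c * X = c • X := by
    intro X
    ext i j
    simp [Matrix.scalar_apply, Matrix.diagonal_mul]
  let C : Matrix.SpecialLinearGroup (Fin 3) F := ⟨Matrix.scalar (Fin 3) c, by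
    simp [Matrix.det_diagonal, Matrix.scalar_apply, hc3']⟩
  have hCc : C ∈ Subgroup.center (Matrix.SpecialLinearGroup (Fin 3) F) := by
    rw [Matrix.SpecialLinearGroup.mem_center_iff]
    exact ⟨c, by simpa using hc3', rfl⟩
  refine ⟨⟨C * g, trivial⟩, ?_, ?_, ?_⟩
  · rw [QuotientGroup.mk_mul, (QuotientGroup.eq_one_iff C).2 hCc, one_mul]
  · intro h
    have h1 : (QuotientGroup.mk g : Matrix.ProjectiveSpecialLinearGroup (Fin 3) F) = 1 := by
      have : QuotientGroup.mk (C * g) = (1 : Matrix.ProjectiveSpecialLinearGroup (Fin 3) F) := by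
        change (C * g) = 1 at h
        rw [h]
        rfl
      rwa [QuotientGroup.mk_mul, (QuotientGroup.eq_one_iff C).2 hCc, one_mul] at this
    rw [h1, orderOf_one] at hz
    omega
  · have hsq : (C * g).1 * (C * g).1 = 1 := by
      have e1 : (C * g).1 = c • g.1 := hcS _
      have e2 : g.1 * g.1 = c • 1 := by
        have : (g ^ 2).1 = Matrix.scalar (Fin 3) c := hc'.symm
        rw [pow_two] at this
        change g.1 * g.1 = _ at this
        rw [this, ← hcS, Matrix.mul_one]
      rw [e1, Matrix.smul_mul, Matrix.mul_smul, e2, smul_smul, smul_smul, show c * c * c = c ^ 3 by ring, hc3', one_smul]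
    change ((C * g).1 - 1) * ((C * g).1 - 1) = 0
    set B := (C * g).1
    have h3 : (B - 1) * (B - 1) = B * B - B - B + 1 := by
      noncomm_ring
    rw [h3, hsq]
    ext i j
    simp only [Matrix.add_apply, Matrix.sub_apply, Matrix.zero_apply]
    linear_combination ((1 : Matrix (Fin 3) (Fin 3) F) i j - B i j) * h2

end aux


/-- Any two elements of order 2 of PSL_3(4) are conjugate. -/
theorem result {F : Type*} [Field F] [Fintype F] (hF : Fintype.card F = 4) (x y : Matrix.ProjectiveSpecialLinearGroup (Fin 3) F) (hx : orderOf x = 2) (hy : orderOf y = 2) : IsConj x y := by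
  classical
  have key : ∀ z : Matrix.ProjectiveSpecialLinearGroup (Fin 3) F, orderOf z = 2 →
      ∃ P : Matrix.SpecialLinearGroup (Fin 3) F, z = QuotientGroup.mk P * QuotientGroup.mk (stdT3 F) * (QuotientGroup.mk P)⁻¹ := by
    intro z hz
    obtain ⟨A, hA⟩ := exists_lift_sq hF z hz
    obtain ⟨P, hP⟩ := sl3_transvection_conj A.1 hA.2.1 hA.2.2
    refine ⟨P, ?_⟩
    rw [← hA.1, hP]
    rfl
  obtain ⟨P, hP⟩ := key x hx
  obtain ⟨R, hR⟩ := key y hy
  rw [isConj_iff]
  refine ⟨QuotientGroup.mk R * (QuotientGroup.mk P)⁻¹, ?_⟩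
  rw [hP, hR]
  group

end Cfsg.Agent.S0820
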