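import Cfsg.Statements.S0821
import Mathlib
import Cfsg.Agent.Lib.Classical.SpInvol2
import Cfsg.Agent.Lib.Classical.OrthInvol
import Cfsg.Agent.Lib.Classical.OrthOrder
import Cfsg.Agent.Lib.Classical.SL2Local

set_option autoImplicit false
open Cfsg Cfsg.Agent.Lib.Classical

namespace Cfsg.Agent.S0821

/-- PSp_2m(q) ≇ PΩ_(2m+1)(q) for q odd and m ≥ 3 (they have the same order). -/
theorem result {F : Type*} [Field F] [Fintype F] (hodd : Odd (Fintype.card F)) (m : ℕ) (hm : 3 ≤ m) : IsEmpty (Cfsg.PSp m F ≃* Cfsg.POmega F (Cfsg.quadFormOdd m F)) := by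
  classical
  have h2 : (2 : F) ≠ 0 := two_ne_zero_of_odd hodd
  obtain ⟨Q', hQ', hnd⟩ := ndq_odd h2 m
  rw [← hQ']
  refine ⟨fun e => ?_⟩
  have hcard : Fintype.card (Unit ⊕ (Fin m ⊕ Fin m)) = 2 * m + 1 := by
    simp only [Fintype.card_sum, Fintype.card_unit, Fintype.card_fin]
    omega
  obtain ⟨z, hz, hconj⟩ := omega_invol_family h2 hnd hm hcard
  let x : Fin m → Cfsg.PSp m F := fun k => e.symm (z k)
  have hx : ∀ k, x k * x k = 1 ∧ x k ≠ 1 := by
    intro k
    constructor
    · simp only [x]
      rw [← map_mul, (hz k).1, map_one]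
    · intro h
      apply (hz k).2
      apply e.symm.injective
      rw [map_one]
      exact h
  have hJ : ∀ k, ∃ j, j ≤ m / 2 ∧ InvolData (x k) j := fun k =>
    invol_data_exists (by omega) h2 (hx k).1 (hx k).2
  choose J hJle hJd using hJ
  obtain ⟨k, l, hkl, hJkl⟩ : ∃ k l, k ≠ l ∧ J k = J l := by
    by_contra hcon
    push Not at hcon
    have hinj : Function.Injective J := by
      intro k l h
      by_contra hne
      exact hcon k l hne h
    have h3 : Function.Injective (fun k => (⟨J k, Nat.lt_succ_of_le (hJle k)⟩ : Fin (m / 2 + 1))) := by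
      intro k l h
      exact hinj (congrArg Fin.val h)
    have h4 := Fintype.card_le_of_injective _ h3
    simp only [Fintype.card_fin] at h4
    omega
  apply hkl
  apply hconj
  have h5 : IsConj (x k) (x l) := invol_data_conj h2 (hJd k) (by rw [hJkl]; exact hJd l)
  have h6 := e.toMonoidHom.map_isConj h5
  simpa [x] using h6

end Cfsg.Agent.S0821
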