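import Cfsg.Statements.S0823
import Mathlib
import Cfsg.Agent.Lib.Classical.PermModel3

set_option autoImplicit false
open Cfsg

namespace Cfsg.Agent.S0823

/-- SO_3(3) ≅ S_4: the determinant-one isometries of the form x_0² + x_1y_1 over the field with 3 elements form a group isomorphic to the symmetric group on 4 letters. -/
theorem result {F : Type*} [Field F] [Fintype F] (hF : Fintype.card F = 3) : Nonempty (↥(Cfsg.specialIsometryGroup F (Cfsg.quadFormOdd 1 F)) ≃* Equiv.Perm (Fin 4)) := by
  exact Cfsg.Agent.Lib.Classical.so3_equiv hF

end Cfsg.Agent.S0823
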