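import Cfsg.Statements.S0827
import Mathlib
import Cfsg.Agent.Lib.Psl34.Basic
import Cfsg.Agent.Lib.Classical.PSU32
import Cfsg.Agent.Lib.Classical.SU2
import Cfsg.Agent.S0282


set_option autoImplicit false
open Cfsg Cfsg.Agent.Lib.Classical
open Matrix


namespace Cfsg.Agent.S0827

section aux

variable {F : Type*} [Field F] [Fintype F]

theorem herm_of_matrix {q n : ℕ} (hF : Fintype.card F = q ^ 2) (A : Matrix (Fin n) (Fin n) F)
    (h : Aᵀ * A.map (fun x => x ^ q) = 1) (u v : Fin n → F) :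
    Cfsg.hermForm n F q (A *ᵥ u) (A *ᵥ v) = Cfsg.hermForm n F q u v := by
  have hfr : ∀ w : Fin n → F, (fun i => (A *ᵥ w) i ^ q) = A.map (fun x => x ^ q) *ᵥ (fun i => w i ^ q) := by
    intro w
    ext i
    have := (RingHom.map_mulVec (frobQ hF) A w) i
    simp only [frobQ_apply] at this
    have e1 : A.map (frobQ hF) = A.map (fun x => x ^ q) := by
      ext a b
      simp [frobQ_apply]
    have e2 : (frobQ hF) ∘ w = fun i => w i ^ q := by
      ext a
      simp [frobQ_apply]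
    rw [this, e1, e2]
  have e : ∀ x y : Fin n → F, Cfsg.hermForm n F q x y = x ⬝ᵥ (fun i => y i ^ q) := fun x y => rfl
  rw [e, e, hfr, dotProduct_comm, Matrix.dotProduct_mulVec, dotProduct_comm, ← Matrix.mulVec_transpose, Matrix.mulVec_mulVec, h, Matrix.one_mulVec]

/-- An element of `SU₃(2)` from a matrix. -/
def mkSU3 (hF : Fintype.card F = 2 ^ 2) (A : Matrix (Fin 3) (Fin 3) F) (hdet : A.det = 1)
    (hU : Aᵀ * A.map (fun x => x ^ 2) = 1) : Cfsg.SU 3 F 2 :=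
  ⟨⟨A, hdet⟩, fun u v => herm_of_matrix hF A hU u v⟩

theorem mkSU3_coe (hF : Fintype.card F = 2 ^ 2) (A : Matrix (Fin 3) (Fin 3) F) (hdet : A.det = 1)
    (hU : Aᵀ * A.map (fun x => x ^ 2) = 1) : (mkSU3 hF A hdet hU).1.1 = A := rfl

theorem psu_mk_eq_of_scalar (hF : Fintype.card F = 2 ^ 2) {X Y : Cfsg.SU 3 F 2} {z : F} (hz : z ^ 3 = 1)
    (h : X.1.1 = z • Y.1.1) : (QuotientGroup.mk X : Cfsg.PSU 3 F 2) = QuotientGroup.mk Y := by
  classical
  apply Eq.symm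
  rw [QuotientGroup.eq]
  have hz0 : z ≠ 0 := by
    rintro rfl
    simp at hz
  have hmat : (Y⁻¹ * X).1.1 = z • 1 := by
    have hY : (Y⁻¹).1.1 * Y.1.1 = 1 := congrArg (fun g : Cfsg.SU 3 F 2 => g.1.1) (inv_mul_cancel Y)
    change (Y⁻¹).1.1 * X.1.1 = _
    rw [h, Matrix.mul_smul, hY]
  rw [Subgroup.mem_center_iff]
  intro g
  apply Subtype.ext
  apply Subtype.ext
  change g.1.1 * (Y⁻¹ * X).1.1 = (Y⁻¹ * X).1.1 * g.1.1
  rw [hmat, Matrix.mul_smul, Matrix.smul_mul, Matrix.mul_one, Matrix.one_mul]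

theorem psu_scalar_of_mk_eq (hF : Fintype.card F = 2 ^ 2) {X Y : Cfsg.SU 3 F 2}
    (h : (QuotientGroup.mk X : Cfsg.PSU 3 F 2) = QuotientGroup.mk Y) : ∃ z : F, X.1.1 = z • Y.1.1 := by
  classical
  rw [QuotientGroup.eq] at h
  obtain ⟨a, ha⟩ := su_center_scalar hF (by norm_num) ⟨_, h⟩
  refine ⟨a⁻¹, ?_⟩
  have hX : X⁻¹.1.1 * X.1.1 = 1 := congrArg (fun g : Cfsg.SU 3 F 2 => g.1.1) (inv_mul_cancel X)
  have hX' : X.1.1 * X⁻¹.1.1 = 1 := congrArg (fun g : Cfsg.SU 3 F 2 => g.1.1) (mul_inv_cancel X)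
  change X⁻¹.1.1 * Y.1.1 = _ at ha
  have hdet : a ≠ 0 := by
    rintro rfl
    have h1 : X⁻¹.1.1 * Y.1.1 = 0 := by
      rw [ha]
      ext i j
      by_cases hij : i = j <;> simp [hij]
    have h2 : Y.1.1 = X.1.1 * (X⁻¹.1.1 * Y.1.1) := by
      rw [← Matrix.mul_assoc, hX', Matrix.one_mul]
    rw [h1, Matrix.mul_zero] at h2
    have h3 : Y.1.1.det = 1 := Y.1.2
    rw [h2] at h3
    simp at h3
  have h4 : Y.1.1 = a • X.1.1 := by
    have h2 : Y.1.1 = X.1.1 * (X⁻¹.1.1 * Y.1.1) := by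
      rw [← Matrix.mul_assoc, hX', Matrix.one_mul]
    rw [ha] at h2
    rw [h2]
    ext i j
    simp [Matrix.mul_apply, Matrix.diagonal_apply, mul_comm]
  rw [h4, smul_smul, inv_mul_cancel₀ hdet, one_smul]

variable (ω : F)

/-- Diagonal. -/
def Dm : Matrix (Fin 3) (Fin 3) F := !![1, 0, 0; 0, ω, 0; 0, 0, ω + 1]
/-- Cyclic. -/
def Cm : Matrix (Fin 3) (Fin 3) F := !![0, 1, 0; 0, 0, 1; 1, 0, 0]
/-- Fourier. -/
def Im : Matrix (Fin 3) (Fin 3) F := !![1, 1, 1; 1, ω, ω + 1; 1, ω + 1, ω]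
/-- The other generator. -/
def Jm : Matrix (Fin 3) (Fin 3) F := !![1, ω, ω; ω + 1, ω, ω + 1; ω + 1, ω + 1, ω]

variable {ω} (h2 : (2 : F) = 0) (hω : ω ^ 2 = ω + 1)

include h2 hω in
theorem det_Dm : (Dm ω).det = 1 := by
  simp [Dm, Matrix.det_fin_three] <;> grind

include h2 hω in
theorem unit_Dm : (Dm ω)ᵀ * (Dm ω).map (fun x => x ^ 2) = 1 := by
  ext i j
  fin_cases i <;> fin_cases j <;> simp [Dm, Matrix.mul_apply, Fin.sum_univ_three, Matrix.one_apply, Matrix.smul_apply] <;> grind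

include h2 hω in
theorem det_Cm : ((Cm : Matrix (Fin 3) (Fin 3) F)).det = 1 := by
  simp [Cm, Matrix.det_fin_three] <;> grind

include h2 hω in
theorem unit_Cm : ((Cm : Matrix (Fin 3) (Fin 3) F))ᵀ * ((Cm : Matrix (Fin 3) (Fin 3) F)).map (fun x => x ^ 2) = 1 := by
  ext i j
  fin_cases i <;> fin_cases j <;> simp [Cm, Matrix.mul_apply, Fin.sum_univ_three, Matrix.one_apply, Matrix.smul_apply] <;> grind

include h2 hω in
theorem det_Im : (Im ω).det = 1 := by
  simp [Im, Matrix.det_fin_three] <;> grind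

include h2 hω in
theorem unit_Im : (Im ω)ᵀ * (Im ω).map (fun x => x ^ 2) = 1 := by
  ext i j
  fin_cases i <;> fin_cases j <;> simp [Im, Matrix.mul_apply, Fin.sum_univ_three, Matrix.one_apply, Matrix.smul_apply] <;> grind

include h2 hω in
theorem det_Jm : (Jm ω).det = 1 := by
  simp [Jm, Matrix.det_fin_three] <;> grind

include h2 hω in
theorem unit_Jm : (Jm ω)ᵀ * (Jm ω).map (fun x => x ^ 2) = 1 := by
  ext i j
  fin_cases i <;> fin_cases j <;> simp [Jm, Matrix.mul_apply, Fin.sum_univ_three, Matrix.one_apply, Matrix.smul_apply] <;> grind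

include h2 hω in
theorem rel_d3 : Dm ω * Dm ω * Dm ω = 1 := by
  ext i j
  fin_cases i <;> fin_cases j <;> simp [Dm, Cm, Im, Jm, Matrix.mul_apply, Fin.sum_univ_three, Matrix.one_apply, Matrix.smul_apply] <;> grind

include h2 hω in
theorem rel_c3 : (Cm : Matrix (Fin 3) (Fin 3) F) * (Cm : Matrix (Fin 3) (Fin 3) F) * (Cm : Matrix (Fin 3) (Fin 3) F) = 1 := by
  ext i j
  fin_cases i <;> fin_cases j <;> simp [Dm, Cm, Im, Jm, Matrix.mul_apply, Fin.sum_univ_three, Matrix.one_apply, Matrix.smul_apply] <;> grind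

include h2 hω in
theorem rel_dc : Dm ω * (Cm : Matrix (Fin 3) (Fin 3) F) = (ω + 1) • ((Cm : Matrix (Fin 3) (Fin 3) F) * Dm ω) := by
  ext i j
  fin_cases i <;> fin_cases j <;> simp [Dm, Cm, Im, Jm, Matrix.mul_apply, Fin.sum_univ_three, Matrix.one_apply, Matrix.smul_apply] <;> grind

include h2 hω in
theorem rel_i4 : Im ω * Im ω * (Im ω * Im ω) = 1 := by
  ext i j
  fin_cases i <;> fin_cases j <;> simp [Dm, Cm, Im, Jm, Matrix.mul_apply, Fin.sum_univ_three, Matrix.one_apply, Matrix.smul_apply] <;> grind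

include h2 hω in
theorem rel_j2 : Jm ω * Jm ω = Im ω * Im ω := by
  ext i j
  fin_cases i <;> fin_cases j <;> simp [Dm, Cm, Im, Jm, Matrix.mul_apply, Fin.sum_univ_three, Matrix.one_apply, Matrix.smul_apply] <;> grind

include h2 hω in
theorem rel_iji : Im ω * (Jm ω * Im ω) = Jm ω := by
  ext i j
  fin_cases i <;> fin_cases j <;> simp [Dm, Cm, Im, Jm, Matrix.mul_apply, Fin.sum_univ_three, Matrix.one_apply, Matrix.smul_apply] <;> grind

include h2 hω in
theorem rel_h1 : Im ω * Dm ω = (Cm : Matrix (Fin 3) (Fin 3) F) * Im ω := by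
  ext i j
  fin_cases i <;> fin_cases j <;> simp [Dm, Cm, Im, Jm, Matrix.mul_apply, Fin.sum_univ_three, Matrix.one_apply, Matrix.smul_apply] <;> grind

include h2 hω in
theorem rel_h2 : Im ω * (Cm : Matrix (Fin 3) (Fin 3) F) = Dm ω * Dm ω * Im ω := by
  ext i j
  fin_cases i <;> fin_cases j <;> simp [Dm, Cm, Im, Jm, Matrix.mul_apply, Fin.sum_univ_three, Matrix.one_apply, Matrix.smul_apply] <;> grind

include h2 hω in
theorem rel_h3 : Jm ω * Dm ω = ω • (Dm ω * Dm ω * (Cm : Matrix (Fin 3) (Fin 3) F) * Jm ω) := by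
  ext i j
  fin_cases i <;> fin_cases j <;> simp [Dm, Cm, Im, Jm, Matrix.mul_apply, Fin.sum_univ_three, Matrix.one_apply, Matrix.smul_apply] <;> grind

include h2 hω in
theorem rel_h4 : Jm ω * (Cm : Matrix (Fin 3) (Fin 3) F) = (ω + 1) • (Dm ω * (Cm : Matrix (Fin 3) (Fin 3) F) * Jm ω) := by
  ext i j
  fin_cases i <;> fin_cases j <;> simp [Dm, Cm, Im, Jm, Matrix.mul_apply, Fin.sum_univ_three, Matrix.one_apply, Matrix.smul_apply] <;> grind

include h2 hω in
theorem rel_i2 : Im ω * Im ω = !![1, 0, 0; 0, 0, 1; 0, 1, 0] := by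
  ext i j
  fin_cases i <;> fin_cases j <;> simp [Dm, Cm, Im, Jm, Matrix.mul_apply, Fin.sum_univ_three, Matrix.one_apply, Matrix.smul_apply] <;> grind

end aux

/-- U_3(2) ≅ 3².Q_8: PSU_3(2) (form over the field with 4 elements) has a normal subgroup N which is elementary abelian of order 9 such that the quotient by N is isomorphic to the quaternion group of order 8. -/
theorem result {F : Type*} [Field F] [Fintype F] (hF : Fintype.card F = 4) : ∃ (N : Subgroup (Cfsg.PSU 3 F 2)) (_ : N.Normal), Nat.card N = 9 ∧ (∀ x ∈ N, x ^ 3 = 1) ∧ Nonempty (Cfsg.PSU 3 F 2 ⧸ N ≃* QuaternionGroup 2) := by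
  classical
  have hcard : 2 < Fintype.card F := by omega
  obtain ⟨ω, hω0, hω1⟩ : ∃ ω : F, ω ≠ 0 ∧ ω ≠ 1 := by
    obtain ⟨ω, hω⟩ := Finset.exists_mem_notMem_of_card_lt_card (s := ({0, 1} : Finset F)) (t := Finset.univ) (by
      rw [Finset.card_univ]
      exact lt_of_le_of_lt (Finset.card_le_two) hcard)
    simp only [Finset.mem_insert, Finset.mem_singleton, not_or] at hω
    exact ⟨ω, hω.2.1, hω.2.2⟩
  have h2 : (2 : F) = 0 := Cfsg.Agent.Lib.Psl34.two_eq_zero hF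
  have hω3 : ω ^ 3 = 1 := Cfsg.Agent.Lib.Psl34.pow_three_eq_one hF hω0
  have hω : ω ^ 2 = ω + 1 := by
    have h1 : (ω - 1) * (ω ^ 2 + ω + 1) = 0 := by linear_combination hω3
    rcases mul_eq_zero.1 h1 with h | h
    · exact absurd (sub_eq_zero.1 h) hω1
    · linear_combination h - (ω + 1) * h2
  have hF' : Fintype.card F = 2 ^ 2 := by rw [hF]; norm_num
  have hG : Nat.card (Cfsg.PSU 3 F 2) = 72 := (Cfsg.Agent.S0282.result hF).1
  let D := mkSU3 hF' (Dm ω) (det_Dm h2 hω) (unit_Dm h2 hω)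
  let C := mkSU3 hF' Cm (det_Cm h2 hω) (unit_Cm h2 hω)
  let I := mkSU3 hF' (Im ω) (det_Im h2 hω) (unit_Im h2 hω)
  let J := mkSU3 hF' (Jm ω) (det_Jm h2 hω) (unit_Jm h2 hω)
  let π : Cfsg.SU 3 F 2 →* Cfsg.PSU 3 F 2 := QuotientGroup.mk' _
  have hπ : ∀ X, π X = QuotientGroup.mk X := fun X => rfl
  have hS : ∀ (X Y : Cfsg.SU 3 F 2) (z : F), z ^ 3 = 1 → X.1.1 = z • Y.1.1 → π X = π Y :=
    fun X Y z hz h => psu_mk_eq_of_scalar hF' hz h
  have hE : ∀ X Y : Cfsg.SU 3 F 2, X.1.1 = Y.1.1 → X = Y := fun X Y h => Subtype.ext (Subtype.ext h)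
  have hωp : (ω + 1) ^ 3 = 1 := by grind
  have hd3 : (π D) ^ 3 = 1 := by
    have : D * D * D = 1 := hE _ _ (rel_d3 h2 hω)
    rw [pow_succ, pow_two, ← map_mul, ← map_mul, this, map_one]
  have hc3 : (π C) ^ 3 = 1 := by
    have : C * C * C = 1 := hE _ _ (rel_c3 h2 hω)
    rw [pow_succ, pow_two, ← map_mul, ← map_mul, this, map_one]
  have hdc : π D * π C = π C * π D := by
    rw [← map_mul, ← map_mul]
    exact hS _ _ (ω + 1) hωp (rel_dc h2 hω)
  have hd1 : π D ≠ 1 := by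
    intro h
    have h1 : (QuotientGroup.mk D : Cfsg.PSU 3 F 2) = QuotientGroup.mk (1 : Cfsg.SU 3 F 2) := h
    obtain ⟨z, hz⟩ := psu_scalar_of_mk_eq hF' h1
    change Dm ω = z • (1 : Matrix (Fin 3) (Fin 3) F) at hz
    have e1 := congrFun (congrFun hz 0) 0
    have e2 := congrFun (congrFun hz 1) 1
    simp [Dm] at e1 e2
    exact hω1 (e2.trans e1.symm)
  have hcd : π C ∉ Subgroup.zpowers (π D) := by
    intro h
    obtain ⟨n, hn⟩ := Submonoid.mem_powers_iff _ _ |>.1 (mem_powers_iff_mem_zpowers.2 h)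
    have h3 : ∀ n : ℕ, (D ^ n).1.1 0 1 = 0 := by
      intro n
      induction n with
      | zero => simp
      | succ n ih =>
        rw [pow_succ]
        change ((D ^ n).1.1 * Dm ω) 0 1 = 0
        have a : Dm ω 0 1 = 0 := by simp [Dm]
        have b : Dm ω 2 1 = 0 := by simp [Dm]
        rw [Matrix.mul_apply, Fin.sum_univ_three, a, b, ih]
        simp
    have h1 : (QuotientGroup.mk C : Cfsg.PSU 3 F 2) = QuotientGroup.mk (D ^ n) := by
      rw [← hπ, ← hπ, ← hn, map_pow]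
    obtain ⟨z, hz⟩ := psu_scalar_of_mk_eq hF' h1
    have e1 := congrFun (congrFun hz 0) 1
    rw [Matrix.smul_apply, h3, smul_zero] at e1
    change (Cm : Matrix (Fin 3) (Fin 3) F) 0 1 = 0 at e1
    simp [Cm] at e1
  have hi2 : (π I) ^ 2 ≠ 1 := by
    intro h
    have h1 : (QuotientGroup.mk (I * I) : Cfsg.PSU 3 F 2) = QuotientGroup.mk (1 : Cfsg.SU 3 F 2) := by
      rw [← hπ, map_mul, ← pow_two, h]
      rfl
    obtain ⟨z, hz⟩ := psu_scalar_of_mk_eq hF' h1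
    change Im ω * Im ω = z • (1 : Matrix (Fin 3) (Fin 3) F) at hz
    rw [rel_i2 h2 hω] at hz
    have e1 := congrFun (congrFun hz 0) 0
    have e2 := congrFun (congrFun hz 1) 1
    simp at e1 e2
    rw [← e2] at e1
    exact one_ne_zero e1
  have hi4 : orderOf (π I) = 4 := by
    have := orderOf_eq_prime_pow (p := 2) (n := 1) (x := π I) (by simpa using hi2) (by
      have h3 : I * I * (I * I) = 1 := hE _ _ (rel_i4 h2 hω)
      rw [show 2 ^ (1 + 1) = 4 by norm_num, show (π I) ^ 4 = π (I * I * (I * I)) by simp [pow_succ, mul_assoc], h3, map_one])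
    simpa using this
  have hj2 : π J * π J = (π I) ^ 2 := by
    rw [pow_two, ← map_mul, ← map_mul, hE (J * J) (I * I) (rel_j2 h2 hω)]
  have hji : π J * π I * (π J)⁻¹ = (π I)⁻¹ := by
    have h3 : π I * (π J * π I) = π J := by
      rw [← map_mul, ← map_mul, hE (I * (J * I)) J (rel_iji h2 hω)]
    apply eq_inv_of_mul_eq_one_right
    rw [← mul_assoc, ← mul_assoc, mul_assoc (π I), h3, mul_inv_cancel]
  have h1 : π I * π D * (π I)⁻¹ = π C := by
    rw [mul_inv_eq_iff_eq_mul, ← map_mul, ← map_mul, hE (I * D) (C * I) (rel_h1 h2 hω)]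
  have h2' : π I * π C * (π I)⁻¹ = (π D) ^ 2 := by
    rw [mul_inv_eq_iff_eq_mul, pow_two, ← map_mul, ← map_mul, ← map_mul, hE (I * C) (D * D * I) (rel_h2 h2 hω)]
  have h3 : π J * π D * (π J)⁻¹ = (π D) ^ 2 * π C := by
    rw [mul_inv_eq_iff_eq_mul, pow_two, ← map_mul, ← map_mul, ← map_mul, ← map_mul]
    exact hS _ _ ω hω3 (rel_h3 h2 hω)
  have h4 : π J * π C * (π J)⁻¹ = π D * π C := by
    rw [mul_inv_eq_iff_eq_mul, ← map_mul, ← map_mul, ← map_mul]
    exact hS _ _ (ω + 1) hωp (rel_h4 h2 hω)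
  exact psu32_abstract hG (π D) (π C) (π I) (π J) hd3 hc3 hdc hd1 hcd hi4 hj2 hji h1 h2' h3 h4

end Cfsg.Agent.S0827
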