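import Cfsg.Statements.S0831
import Mathlib
import Cfsg.Agent.Lib.Classical.MaxTSPlus

set_option autoImplicit false
open Cfsg

namespace Cfsg.Agent.S0831

/-- The two families of maximal totally singular subspaces of the hyperbolic quadric: for the form Σ x_i y_i on F^(2m), m ≥ 1, and m-dimensional subspaces U, W, X on which it vanishes, the parities of m − dim(U ∩ W), m − dim(W ∩ X) and m − dim(U ∩ X) sum to an even number (so 'even codimension of the intersection' is an equivalence relation), and there exist two such subspaces meeting in codimension 1 (so there are exactly two classes). -/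
theorem result {F : Type*} [Field F] (m : ℕ) (hm : 1 ≤ m) : (∀ U W X : Submodule F (Fin m ⊕ Fin m → F), (Module.finrank F U = m ∧ ∀ w ∈ U, Cfsg.quadFormPlus m F w = 0) → (Module.finrank F W = m ∧ ∀ w ∈ W, Cfsg.quadFormPlus m F w = 0) → (Module.finrank F X = m ∧ ∀ w ∈ X, Cfsg.quadFormPlus m F w = 0) → Even ((m - Module.finrank F ↥(U ⊓ W)) + (m - Module.finrank F ↥(W ⊓ X)) + (m - Module.finrank F ↥(U ⊓ X)))) ∧ ∃ U W : Submodule F (Fin m ⊕ Fin m → F), (Module.finrank F U = m ∧ ∀ w ∈ U, Cfsg.quadFormPlus m F w = 0) ∧ (Module.finrank F W = m ∧ ∀ w ∈ W, Cfsg.quadFormPlus m F w = 0) ∧ Module.finrank F ↥(U ⊓ W) + 1 = m := by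
  classical
  have H := Cfsg.Agent.Lib.Classical.plusPol_qsp (F := F) m
  refine ⟨?_, ?_⟩
  · rintro U W X ⟨hUd, hU⟩ ⟨hWd, hW⟩ ⟨hXd, hX⟩
    exact H.parity_three hU hUd hW hWd hX hXd
  · obtain ⟨U, hUd, hU⟩ := Cfsg.Agent.Lib.Classical.exists_hyperplane (F := F) m hm
    obtain ⟨W₀, W₁, -, h0, h0d, -, h1, h1d, -, hi, -⟩ :=
      H.exactly_two hU hUd (Cfsg.Agent.Lib.Classical.plusX_singular m) (Cfsg.Agent.Lib.Classical.plusX_finrank m)
    exact ⟨W₀, W₁, ⟨h0d, h0⟩, ⟨h1d, h1⟩, hi⟩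

end Cfsg.Agent.S0831
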