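import Cfsg.Statements.S0832
import Mathlib
import Cfsg.Agent.Lib.Classical.MaxTSPlus

set_option autoImplicit false
open Cfsg

namespace Cfsg.Agent.S0832

/-- For the form Σ x_i y_i on F^(2m) over a finite field, m ≥ 1: an (m−1)-dimensional subspace on which the form vanishes is contained in exactly two m-dimensional subspaces on which it vanishes. -/
theorem result {F : Type*} [Field F] [Finite F] (m : ℕ) (hm : 1 ≤ m) (U : Submodule F (Fin m ⊕ Fin m → F)) (hU : Module.finrank F U + 1 = m ∧ ∀ u ∈ U, Cfsg.quadFormPlus m F u = 0) : Nat.card {W : Submodule F (Fin m ⊕ Fin m → F) // Module.finrank F W = m ∧ (∀ w ∈ W, Cfsg.quadFormPlus m F w = 0) ∧ U ≤ W} = 2 := by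
  classical
  have H := Cfsg.Agent.Lib.Classical.plusPol_qsp (F := F) m
  obtain ⟨hUd, hU⟩ := hU
  obtain ⟨W₀, W₁, hne, h0, h0d, hU0, h1, h1d, hU1, -, hall⟩ :=
    H.exactly_two hU hUd (Cfsg.Agent.Lib.Classical.plusX_singular m) (Cfsg.Agent.Lib.Classical.plusX_finrank m)
  rw [Nat.card_eq_two_iff]
  refine ⟨⟨W₀, h0d, h0, hU0⟩, ⟨W₁, h1d, h1, hU1⟩, ?_, ?_⟩
  · intro h
    exact hne (congrArg Subtype.val h)
  · ext ⟨W, hWd, hW, hUW⟩
    simp only [Set.mem_insert_iff, Set.mem_singleton_iff, Set.mem_univ, iff_true, Subtype.mk.injEq]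
    exact hall W hW hWd hUW

end Cfsg.Agent.S0832
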