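import Cfsg.Statements.S0836
import Mathlib
import Cfsg.Agent.Lib.Classical.SL

set_option autoImplicit false
open Cfsg

namespace Cfsg.Agent.S0836

/-- For i ≠ j and any scalar c, the elementary transvection 1 + c E_ij is a commutator ⁅g, h⁆ of two elements of SL_n(F) provided n ≥ 3, or n = 2 and F contains x ≠ 0 with x² ≠ 1. -/
theorem result {F : Type*} [Field F] (n : ℕ) (hn : 3 ≤ n ∨ (n = 2 ∧ ∃ x : F, x ≠ 0 ∧ x ^ 2 ≠ 1)) (i j : Fin n) (hij : i ≠ j) (c : F) (t : Matrix.SpecialLinearGroup (Fin n) F) (ht : (t : Matrix (Fin n) (Fin n) F) = Matrix.transvection i j c) : t ∈ commutatorSet (Matrix.SpecialLinearGroup (Fin n) F) := by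
  classical
  have ht' : t = Matrix.SpecialLinearGroup.transvection hij c := by
    apply Subtype.ext
    rw [ht]
    rfl
  rw [ht']
  rcases hn with hn | ⟨rfl, x, hx, hx2⟩
  · obtain ⟨k, hik, hkj⟩ := Cfsg.Agent.Lib.Classical.exists_third_index (by simpa using hn) i j
    exact Cfsg.Agent.Lib.Classical.transvection_mem_commutatorSet_of_third hij hik hkj c
  · -- n = 2
    have hsub : x ^ 2 - 1 ≠ 0 := sub_ne_zero.2 hx2
    have hc : c = c / (x ^ 2 - 1) * (x ^ 2 - 1) := by field_simp
    fin_cases i <;> fin_cases j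
    · exact absurd rfl hij
    · exact ⟨_, _, Matrix.commutator_diag2_transvection x hx (c / (x ^ 2 - 1)) c hc⟩
    · open scoped commutatorElement in
      have hthis (b c' : F) (hc : c' = b * (x ^ 2 - 1)) :
          ⁅Matrix.SpecialLinearGroup.diag2 x⁻¹ (inv_ne_zero hx), Matrix.SpecialLinearGroup.transvection (one_ne_zero : (1 : Fin 2) ≠ 0) b⁆ =
          (Matrix.SpecialLinearGroup.transvection (one_ne_zero : (1 : Fin 2) ≠ 0) c' : Matrix.SpecialLinearGroup (Fin 2) F) := by
        rw [commutatorElement_def, Matrix.SpecialLinearGroup.diag2_inv x⁻¹ (inv_ne_zero hx),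
          Matrix.SpecialLinearGroup.transvection_inv one_ne_zero b]
        refine Subtype.ext <| Matrix.ext fun i j ↦ ?_
        fin_cases i <;> fin_cases j <;>
        simp [hc, Matrix.SpecialLinearGroup.transvection_coe, Matrix.SpecialLinearGroup.diag2_coe, inv_inv, mul_add, add_mul,
          mul_inv_cancel₀ hx, inv_mul_cancel₀ hx, mul_comm x b, mul_assoc b x x, ← pow_two,
          mul_sub_one, ← sub_eq_add_neg]
      exact ⟨_, _, hthis (c / (x ^ 2 - 1)) c hc⟩
    · exact absurd rfl hij

end Cfsg.Agent.S0836
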