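import Cfsg.Statements.S0838
import Mathlib
import Cfsg.Agent.S2623

set_option autoImplicit false
open Cfsg

namespace Cfsg.Agent.S0838

/-- Over a finite field with 2 ≠ 0 and n odd: two quadratic forms Q₁, Q₂ on F^n with non-degenerate polar forms are similar — there are an invertible linear map g and a scalar c ≠ 0 with Q₂ (g v) = c · Q₁ v for all v. -/
theorem result {F : Type*} [Field F] [Fintype F] (h2 : (2 : F) ≠ 0) {n : ℕ} (hn : Odd n) (Q₁ Q₂ : QuadraticForm F (Fin n → F)) (h₁ : (QuadraticMap.polarBilin Q₁).Nondegenerate) (h₂ : (QuadraticMap.polarBilin Q₂).Nondegenerate) : ∃ (g : (Fin n → F) ≃ₗ[F] (Fin n → F)) (c : F), c ≠ 0 ∧ ∀ v, Q₂ (g v) = c * Q₁ v := by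
  classical
  let G : QuadraticForm F (Fin n → F) → Matrix (Fin n) (Fin n) F := fun Q =>
    Matrix.of (fun i j : Fin n => QuadraticMap.polar ⇑Q (Pi.single i 1) (Pi.single j 1))
  have hG : ∀ Q : QuadraticForm F (Fin n → F), G Q = LinearMap.BilinForm.toMatrix (Pi.basisFun F (Fin n)) (QuadraticMap.polarBilin Q) := by
    intro Q
    ext i j
    simp [G, LinearMap.BilinForm.toMatrix_apply]
  have hd : ∀ Q : QuadraticForm F (Fin n → F), (QuadraticMap.polarBilin Q).Nondegenerate → (G Q).det ≠ 0 := by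
    intro Q hQ
    rw [hG]
    exact (LinearMap.BilinForm.nondegenerate_iff_det_ne_zero (Pi.basisFun F (Fin n))).1 hQ
  set d₁ := (G Q₁).det with hd₁
  set d₂ := (G Q₂).det with hd₂
  have hd₁0 : d₁ ≠ 0 := hd Q₁ h₁
  have hd₂0 : d₂ ≠ 0 := hd Q₂ h₂
  set c := d₁ * d₂ with hc
  have hc0 : c ≠ 0 := mul_ne_zero hd₁0 hd₂0
  let Q₃ : QuadraticForm F (Fin n → F) := c • Q₁
  have hQ₃ : ∀ v, Q₃ v = c * Q₁ v := fun v => rfl
  have hpol : ∀ u v, QuadraticMap.polar ⇑Q₃ u v = c * QuadraticMap.polar ⇑Q₁ u v := by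
    intro u v
    simp only [QuadraticMap.polar, hQ₃]
    ring
  have hnd₃ : (QuadraticMap.polarBilin Q₃).Nondegenerate := by
    constructor
    · intro x hx
      apply h₁.1
      intro y
      have := hx y
      change QuadraticMap.polar ⇑Q₃ x y = 0 at this
      rw [hpol] at this
      exact (mul_eq_zero.1 this).resolve_left hc0
    · intro x hx
      apply h₁.2
      intro y
      have := hx y
      change QuadraticMap.polar ⇑Q₃ y x = 0 at this
      rw [hpol] at this
      exact (mul_eq_zero.1 this).resolve_left hc0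
  have hG₃ : G Q₃ = c • G Q₁ := by
    ext i j
    simp only [G, Matrix.of_apply, hpol, Matrix.smul_apply, smul_eq_mul]
  have hsq : IsSquare ((G Q₃).det * (G Q₂).det) := by
    rw [hG₃, Matrix.det_smul]
    simp only [Fintype.card_fin]
    obtain ⟨k, rfl⟩ := hn
    refine ⟨c ^ (k + 1), ?_⟩
    rw [← hd₁, ← hd₂]
    have : c ^ (2 * k + 1) * d₁ * d₂ = c ^ (2 * k + 1) * c := by rw [hc]; ring
    rw [this]
    ring
  obtain ⟨g, hg⟩ := (Cfsg.Agent.S2623.result h2 Q₃ Q₂ hnd₃ h₂).2 hsq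
  exact ⟨g, c, hc0, fun v => (hg v).trans (hQ₃ v)⟩

end Cfsg.Agent.S0838
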