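import Cfsg.Statements.S0839
import Mathlib
import Cfsg.Agent.Lib.Classical.SLVec

set_option autoImplicit false
open Cfsg

namespace Cfsg.Agent.S0839

/-- Every transvection t ∈ SL_(n+2)(F) (rank(t − 1) = 1, (t − 1)² = 0) is conjugate in SL_(n+2)(F) to 1 + v·e_0ᵀ for some column vector v with v_0 = 0 (the group A of matrices that are the identity except in the first column below the diagonal); the dimension is written n + 2 ≥ 2. -/
theorem result {F : Type*} [Field F] (n : ℕ) (t : Matrix.SpecialLinearGroup (Fin (n + 2)) F) (ht : Cfsg.IsTransvection (t : Matrix (Fin (n + 2)) (Fin (n + 2)) F)) : ∃ (g : Matrix.SpecialLinearGroup (Fin (n + 2)) F) (v : Fin (n + 2) → F), v 0 = 0 ∧ ((g⁻¹ * t * g : Matrix.SpecialLinearGroup (Fin (n + 2)) F) : Matrix (Fin (n + 2)) (Fin (n + 2)) F) = 1 + Matrix.vecMulVec v (Pi.single 0 1) := by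
  classical
  obtain ⟨hr, hs⟩ := ht
  obtain ⟨a, b, ha, hb, hM⟩ := Cfsg.Agent.Lib.Classical.exists_vecMulVec_of_rank_one hr
  have hba : b ⬝ᵥ a = 0 := by
    rw [hM, Matrix.vecMulVec_mul_vecMulVec, Matrix.vecMulVec_eq_zero] at hs
    rcases hs with hs | hs
    · exact absurd hs ha
    · rcases smul_eq_zero.1 hs with h1 | h1
      · simpa [MulOpposite.op_eq_zero_iff] using h1
      · exact absurd h1 hb
  obtain ⟨h, hh⟩ := Cfsg.Agent.Lib.Classical.exists_SL_mulVec_single b hb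
  let g' : Matrix.SpecialLinearGroup (Fin (n + 2)) F := h.transpose
  have hg'1 : g'.1 = h.1.transpose := rfl
  have ht1 : t.1 = 1 + Matrix.vecMulVec a b := by
    rw [← hM]
    abel
  have hbG : Matrix.vecMul b (g'⁻¹).1 = Pi.single 0 1 := by
    have e1 : g'.1 * (g'⁻¹).1 = 1 := congrArg Subtype.val (mul_inv_cancel g')
    rw [← hh, ← Matrix.vecMul_transpose, Matrix.vecMul_vecMul, ← hg'1, e1, Matrix.vecMul_one]
  refine ⟨g'⁻¹, Matrix.mulVec g'.1 a, ?_, ?_⟩
  · have e1 : (Matrix.mulVec g'.1 a) 0 = (Pi.single 0 1 : Fin (n + 2) → F) ⬝ᵥ (Matrix.mulVec g'.1 a) := by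
      rw [single_one_dotProduct]
    rw [e1, Matrix.dotProduct_mulVec, hg'1, Matrix.vecMul_transpose, hh, hba]
  · change ((g'⁻¹)⁻¹).1 * t.1 * (g'⁻¹).1 = _
    rw [inv_inv, ht1, mul_add, add_mul, mul_one]
    have e1 : g'.1 * (g'⁻¹).1 = 1 := congrArg Subtype.val (mul_inv_cancel g')
    rw [e1, Matrix.mul_vecMulVec, Matrix.vecMulVec_mul, hbG]

end Cfsg.Agent.S0839
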