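import Cfsg.Statements.S0849
import Cfsg.Agent.Lib.Char.Ind
import Mathlib.Tactic.Group
-- import your own Cfsg.Agent.* helpers here

set_option autoImplicit false
open Cfsg

namespace Cfsg.Agent.S0849

/-- Let H be a subgroup of a finite group G and S a subset of H that is mapped to itself under conjugation by H, is disjoint from its conjugate by any element outside H, and is closed under inverses. Let φ be a class function of H vanishing on H away from S, and let u, v be involutions of G. Then the sum of the induced function of φ over all products a * b with a conjugate to u and b conjugate to v equals the index of H times the sum of φ (a * b) over such pairs with a and b in H. -/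
theorem result {G : Type*} [Group G] [Fintype G] (H : Subgroup G) (S : Set G) (hSH : S ⊆ H) (hHS : ∀ h ∈ H, ∀ s ∈ S, h * s * h⁻¹ ∈ S) (hTI : ∀ g : G, g ∉ H → ∀ s ∈ S, g * s * g⁻¹ ∉ S) (hinv : ∀ s ∈ S, s⁻¹ ∈ S) (φ : H → ℂ) (hφ : Cfsg.IsClassFunction H φ) (hφS : ∀ x : H, (x : G) ∉ S → φ x = 0) (u v : G) (hu : orderOf u = 2) (hv : orderOf v = 2) : ∑ᶠ p ∈ {p : G × G | IsConj u p.1 ∧ IsConj v p.2}, Cfsg.indFun H φ (p.1 * p.2) = (H.index : ℂ) * ∑ᶠ p ∈ {p : H × H | IsConj u (p.1 : G) ∧ IsConj v (p.2 : G)}, φ (p.1 * p.2) := by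
  classical
  haveI : Fintype H := Fintype.ofFinite H
  let P : Finset (G × G) := Finset.univ.filter (fun p => IsConj u p.1 ∧ IsConj v p.2)
  let Q : Finset (H × H) := Finset.univ.filter (fun p => IsConj u (p.1 : G) ∧ IsConj v (p.2 : G))
  have hP : {p : G × G | IsConj u p.1 ∧ IsConj v p.2} = (P : Set (G × G)) := by
    ext p; simp [P]
  have hQ : {p : H × H | IsConj u (p.1 : G) ∧ IsConj v (p.2 : G)} = (Q : Set (H × H)) := by
    ext p; simp [Q]
  rw [hP, hQ, finsum_mem_coe_finset, finsum_mem_coe_finset]
  -- step 1 : conjugation invariance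
  have hconj : ∀ (x : G), ∑ p ∈ P, Cfsg.extendByZero H φ (x⁻¹ * (p.1 * p.2) * x) =
      ∑ p ∈ P, Cfsg.extendByZero H φ (p.1 * p.2) := by
    intro x
    let e : G × G ≃ G × G := (MulAut.conj x⁻¹).toEquiv.prodCongr (MulAut.conj x⁻¹).toEquiv
    refine Finset.sum_equiv e ?_ ?_
    · intro p
      simp only [P, Finset.mem_filter, Finset.mem_univ, true_and, e, Equiv.prodCongr_apply, Prod.map_fst, Prod.map_snd]
      have h1 : ∀ (a b : G), IsConj a ((MulAut.conj x⁻¹).toEquiv b) ↔ IsConj a b := by
        intro a b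
        have : IsConj b ((MulAut.conj x⁻¹).toEquiv b) := by
          rw [isConj_comm]
          refine isConj_iff.mpr ⟨x, ?_⟩
          simp
          group
        exact ⟨fun h => h.trans this.symm, fun h => h.trans this⟩
      rw [h1, h1]
    · intro p _
      congr 1
      simp only [e, Equiv.prodCongr_apply, Prod.map_fst, Prod.map_snd, MulEquiv.toEquiv_eq_coe,
        EquivLike.coe_coe, MulAut.conj_apply, inv_inv]
      group
  have hstep1 : ∑ p ∈ P, Cfsg.indFun H φ (p.1 * p.2) =
      (H.index : ℂ) * ∑ p ∈ P, Cfsg.extendByZero H φ (p.1 * p.2) := by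
    simp only [Cfsg.Agent.Lib.Char.indFun_apply]
    rw [← Finset.mul_sum, Finset.sum_comm]
    simp only [hconj, Finset.sum_const, Finset.card_univ, nsmul_eq_mul]
    rw [← mul_assoc]
    congr 1
    have hi : (Nat.card H * H.index : ℕ) = Nat.card G := Subgroup.card_mul_index H
    have hne : ((Nat.card H : ℕ) : ℂ) ≠ 0 := by exact_mod_cast Nat.card_pos.ne'
    rw [← Nat.card_eq_fintype_card, ← hi]
    push_cast
    field_simp
  -- step 2 : only pairs inside H contribute
  let emb : H × H ↪ G × G := ⟨fun p => ((p.1 : G), (p.2 : G)), by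
    rintro ⟨a, b⟩ ⟨c, d⟩ h
    simp only [Prod.mk.injEq] at h
    exact Prod.ext (Subtype.ext h.1) (Subtype.ext h.2)⟩
  have hstep2 : ∑ p ∈ P, Cfsg.extendByZero H φ (p.1 * p.2) = ∑ p ∈ Q, φ (p.1 * p.2) := by
    have hsub : Q.map emb ⊆ P := by
      intro p hp
      obtain ⟨q, hq, rfl⟩ := Finset.mem_map.mp hp
      simp only [Q, Finset.mem_filter, Finset.mem_univ, true_and] at hq
      simp only [P, Finset.mem_filter, Finset.mem_univ, true_and]
      exact hq
    rw [← Finset.sum_subset hsub, Finset.sum_map]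
    · refine Finset.sum_congr rfl fun q _ => ?_
      have : ((emb q).1 * (emb q).2) = ((q.1 * q.2 : H) : G) := rfl
      rw [this, Cfsg.Agent.Lib.Char.extendByZero_coe]
    · intro p hp hnp
      by_contra hne
      apply hnp
      have hpH : p.1 * p.2 ∈ H := by
        by_contra h
        exact hne (Cfsg.Agent.Lib.Char.extendByZero_of_notMem _ _ h)
      have hpS : p.1 * p.2 ∈ S := by
        by_contra h
        apply hne
        rw [Cfsg.Agent.Lib.Char.extendByZero_of_mem _ _ hpH]
        exact hφS _ h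
      simp only [P, Finset.mem_filter, Finset.mem_univ, true_and] at hp
      have hsq : ∀ {a b : G}, orderOf a = 2 → IsConj a b → b * b = 1 := by
        intro a b ha hab
        obtain ⟨c, rfl⟩ := isConj_iff.mp hab
        have h2 : a * a = 1 := by rw [← pow_two, ← ha]; exact pow_orderOf_eq_one a
        calc c * a * c⁻¹ * (c * a * c⁻¹) = c * (a * a) * c⁻¹ := by group
          _ = 1 := by rw [h2]; group
      have hp1 := hsq hu hp.1
      have hp2 := hsq hv hp.2
      have hinvS : (p.1 * p.2)⁻¹ ∈ S := hinv _ hpS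
      have hinveq : (p.1 * p.2)⁻¹ = p.2 * p.1 := by
        rw [mul_inv_rev, inv_eq_of_mul_eq_one_left hp1, inv_eq_of_mul_eq_one_left hp2]
      rw [hinveq] at hinvS
      have h1H : p.1 ∈ H := by
        by_contra h
        apply hTI p.1 h _ hpS
        have : p.1 * (p.1 * p.2) * p.1⁻¹ = p.2 * p.1 := by
          rw [inv_eq_of_mul_eq_one_left hp1, ← mul_assoc, hp1, one_mul]
        rw [this]
        exact hinvS
      have h2H : p.2 ∈ H := by
        by_contra h
        apply hTI p.2 h _ hpS
        have : p.2 * (p.1 * p.2) * p.2⁻¹ = p.2 * p.1 := by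
          group
        rw [this]
        exact hinvS
      refine Finset.mem_map.mpr ⟨(⟨p.1, h1H⟩, ⟨p.2, h2H⟩), ?_, rfl⟩
      simpa [Q] using hp
  rw [hstep1, hstep2]

end Cfsg.Agent.S0849
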