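import Cfsg.Statements.S0850
import Cfsg.Agent.Lib.Char.TI
-- import your own Cfsg.Agent.* helpers here

set_option autoImplicit false
open Cfsg

namespace Cfsg.Agent.S0850

/-- Let K be a subgroup of the finite group G that meets each conjugate by an element outside its normalizer N trivially, is properly contained in N, and contains the centralizer of each of its non-identity elements (a T.I. subgroup with Frobenius normalizer). Then no element of N outside K is conjugate in G to an element of K, and for every class function ϑ of N that vanishes on N away from K and at the identity, the function induced from ϑ to G agrees with ϑ on all of N. -/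
theorem result {G : Type*} [Group G] [Fintype G] (K : Subgroup G) (hTI : ∀ g : G, g ∉ Subgroup.normalizer (K : Set G) → ∀ k ∈ K, g * k * g⁻¹ ∈ K → k = 1) (hlt : K < Subgroup.normalizer (K : Set G)) (hC : ∀ k ∈ K, k ≠ 1 → Subgroup.centralizer ({k} : Set G) ≤ K) : (∀ x ∈ Subgroup.normalizer (K : Set G), x ∉ K → ∀ g : G, g * x * g⁻¹ ∉ K) ∧ ∀ (ϑ : Subgroup.normalizer (K : Set G) → ℂ), Cfsg.IsClassFunction (Subgroup.normalizer (K : Set G)) ϑ → (∀ x : Subgroup.normalizer (K : Set G), (x : G) ∉ K → ϑ x = 0) → ϑ 1 = 0 → ∀ x : Subgroup.normalizer (K : Set G), Cfsg.indFun (Subgroup.normalizer (K : Set G)) ϑ x = ϑ x := by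
  classical
  have ha : ∀ x ∈ Subgroup.normalizer (K : Set G), x ∉ K → ∀ g : G, g * x * g⁻¹ ∉ K :=
    Cfsg.Agent.Lib.Char.conj_notMem_of_TI K hTI hC
  refine ⟨ha, ?_⟩
  intro ϑ hϑ hϑK hϑ1 x
  by_cases hxK : (x : G) ∈ K
  · by_cases hx1 : x = 1
    · subst hx1
      haveI : Fintype (Subgroup.normalizer (K : Set G)) := Fintype.ofFinite _
      rw [Subgroup.coe_one, Cfsg.Agent.Lib.Char.indFun_one, hϑ1, mul_zero]
    · exact Cfsg.Agent.Lib.Char.indFun_eq_of_TI _ (K : Set G) hTI ϑ hϑ hϑK x hxK hx1
  · rw [hϑK x hxK, Cfsg.Agent.Lib.Char.indFun_apply]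
    have : ∀ y : G, Cfsg.extendByZero (Subgroup.normalizer (K : Set G)) ϑ (y⁻¹ * x * y) = 0 := by
      intro y
      by_cases hy : y⁻¹ * x * y ∈ Subgroup.normalizer (K : Set G)
      · rw [Cfsg.Agent.Lib.Char.extendByZero_of_mem _ _ hy]
        apply hϑK
        have := ha x x.2 hxK y⁻¹
        simpa using this
      · exact Cfsg.Agent.Lib.Char.extendByZero_of_notMem _ _ hy
    simp [this]

end Cfsg.Agent.S0850
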