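import Cfsg.Statements.S0851
import Cfsg.Agent.Lib.Char.FrobChar
import Cfsg.Agent.S0170
-- import your own Cfsg.Agent.* helpers here

set_option autoImplicit false
open Cfsg

namespace Cfsg.Agent.S0851

/-- Let K be a subgroup of the finite group G that meets each conjugate by an element outside its normalizer N trivially, is properly contained in N, and contains the centralizer of each of its non-identity elements (a T.I. subgroup with Frobenius normalizer). Suppose K is abelian, let e be the index of K in N, and call an irreducible character of N relevant when it takes at some element of K a value different from its degree. Then either there is exactly one relevant character and K is an elementary abelian p-group of order e + 1 for some prime p, or there are a sign ε and an injective map f from the relevant characters to the irreducible characters of G such that inducing χ - ξ to G gives ε (f χ - f ξ) for all relevant χ and ξ. -/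
theorem result {G : Type*} [Group G] [Fintype G] (K : Subgroup G) (hTI : ∀ g : G, g ∉ Subgroup.normalizer (K : Set G) → ∀ k ∈ K, g * k * g⁻¹ ∈ K → k = 1) (hlt : K < Subgroup.normalizer (K : Set G)) (hC : ∀ k ∈ K, k ≠ 1 → Subgroup.centralizer ({k} : Set G) ≤ K) (hab : ∀ a ∈ K, ∀ b ∈ K, a * b = b * a) : (Nat.card {χ : Cfsg.IrrCharacter (Subgroup.normalizer (K : Set G)) // ∃ k : Subgroup.normalizer (K : Set G), (k : G) ∈ K ∧ (χ : ↥(Subgroup.normalizer (K : Set G)) → ℂ) k ≠ (χ : ↥(Subgroup.normalizer (K : Set G)) → ℂ) 1} = 1 ∧ ∃ p : ℕ, p.Prime ∧ Cfsg.IsElementaryAbelian p K ∧ Nat.card K = (K.subgroupOf (Subgroup.normalizer (K : Set G))).index + 1) ∨ ∃ (ε : ℂ) (f : {χ : Cfsg.IrrCharacter (Subgroup.normalizer (K : Set G)) // ∃ k : Subgroup.normalizer (K : Set G), (k : G) ∈ K ∧ (χ : ↥(Subgroup.normalizer (K : Set G)) → ℂ) k ≠ (χ : ↥(Subgroup.normalizer (K : Set G)) → ℂ) 1} → Cfsg.IrrCharacter G), (ε = 1 ∨ ε = -1) ∧ Function.Injective f ∧ ∀ χ ξ, Cfsg.indFun (Subgroup.normalizer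 (K : Set G)) ((χ.1 : ↥(Subgroup.normalizer (K : Set G)) → ℂ) - (ξ.1 : ↥(Subgroup.normalizer (K : Set G)) → ℂ)) = ε • ((f χ : G → ℂ) - (f ξ : G → ℂ)) := by
  classical
  set N : Subgroup G := Subgroup.normalizer (K : Set G) with hNdef
  let _ : Fintype N := Fintype.ofFinite N
  let K' : Subgroup N := K.subgroupOf N
  let _ : Fintype K' := Fintype.ofFinite K'
  have hK'n : K'.Normal := by
    constructor
    intro n hn g
    rw [Subgroup.mem_subgroupOf] at hn ⊢
    exact (Subgroup.mem_normalizer_iff.mp g.2 n).1 hn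
  haveI := hK'n
  have hfpf : ∀ x : N, x ∉ K' → ∀ k ∈ K', x * k = k * x → k = 1 := by
    intro x hx k hk hcomm
    by_contra hk1
    apply hx
    rw [Subgroup.mem_subgroupOf]
    have hkK : (k : G) ∈ K := Subgroup.mem_subgroupOf.mp hk
    have hk1' : (k : G) ≠ 1 := fun h => hk1 (Subtype.ext h)
    apply hC k hkK hk1'
    rw [Subgroup.mem_centralizer_iff]
    intro y hy
    have hy' : y = k := by simpa using hy
    rw [hy']
    exact (congrArg Subtype.val hcomm).symm
  have hab' : ∀ a b : K', a * b = b * a := by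
    intro a b
    apply Subtype.ext
    apply Subtype.ext
    exact hab _ (Subgroup.mem_subgroupOf.mp a.2) _ (Subgroup.mem_subgroupOf.mp b.2)
  have hdeg1 := (Cfsg.Agent.Lib.Char.comm_iff_irr_degree_one (G := K')).mp hab'
  -- relevant characters are induced
  have hinduced : ∀ χ : N → ℂ, Cfsg.IsIrrCharacter N χ → (∃ k : N, (k : G) ∈ K ∧ χ k ≠ χ 1) →
      ∃ θ : K' → ℂ, Cfsg.IsIrrCharacter K' θ ∧ χ = Cfsg.indFun K' θ := by
    intro χ hχ hrel
    obtain ⟨k, hk, hne⟩ := hrel
    obtain ⟨θ, hθ, hθ1, hov⟩ := Cfsg.Agent.Lib.Char.exists_constituent_ne_one K' hχ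
      ⟨k, Subgroup.mem_subgroupOf.mpr hk, hne⟩
    exact ⟨θ, hθ, Cfsg.Agent.Lib.Char.eq_indFun_of_fpf K' hfpf hχ hθ hθ1 hov⟩
  by_cases h1 : Nat.card {χ : Cfsg.IrrCharacter N // ∃ k : N, (k : G) ∈ K ∧ (χ : N → ℂ) k ≠ (χ : N → ℂ) 1} = 1
  · left
    refine ⟨h1, ?_⟩
    obtain ⟨hsub, ⟨⟨χ₀, hχ₀⟩⟩⟩ := Nat.card_eq_one_iff_unique.mp h1
    have hindex : K'.index = (K.subgroupOf N).index := rfl
    have hcardK : Nat.card K' = Nat.card K := by
      exact Nat.card_congr (Subgroup.subgroupOfEquivOfLe (Subgroup.le_normalizer (H := K))).toEquiv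
    have hKs : ∀ k : N, k ∈ K' ↔ (k : G) ∈ K := fun k => Subgroup.mem_subgroupOf
    obtain ⟨hc, p, hp, hpow⟩ := Cfsg.Agent.Lib.Char.unique_relevant_aux K' hab' hfpf
      (by
        intro χ ξ hχ hξ hχr hξr
        obtain ⟨k, hk, hne⟩ := hχr
        obtain ⟨k', hk', hne'⟩ := hξr
        have := hsub.elim (⟨⟨χ, hχ⟩, ⟨k, (hKs k).mp hk, hne⟩⟩ :
          {χ : Cfsg.IrrCharacter N // ∃ k : N, (k : G) ∈ K ∧ (χ : N → ℂ) k ≠ (χ : N → ℂ) 1})
          ⟨⟨ξ, hξ⟩, ⟨k', (hKs k').mp hk', hne'⟩⟩
        exact congrArg (fun r : {χ : Cfsg.IrrCharacter N // ∃ k : N, (k : G) ∈ K ∧ (χ : N → ℂ) k ≠ (χ : N → ℂ) 1} => ((r : Cfsg.IrrCharacter N) : N → ℂ)) this)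
      (by
        obtain ⟨k, hk, hne⟩ := hχ₀
        exact ⟨χ₀, χ₀.2, k, (hKs k).mpr hk, hne⟩)
    refine ⟨p, hp, ⟨?_, ?_⟩, ?_⟩
    · apply IsMulCommutative.of_comm
      intro a b
      apply Subtype.ext
      exact hab _ a.2 _ b.2
    · intro a ha
      have := hpow ⟨a, Subgroup.le_normalizer (H := K) ha⟩ ((hKs _).mpr ha)
      exact congrArg Subtype.val this
    · rw [← hcardK, hc]
  · right
    by_cases h0 : IsEmpty {χ : Cfsg.IrrCharacter N // ∃ k : N, (k : G) ∈ K ∧ (χ : N → ℂ) k ≠ (χ : N → ℂ) 1}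
    · refine ⟨1, fun r => (h0.false r).elim, Or.inl rfl, fun a => (h0.false a).elim, fun a => (h0.false a).elim⟩
    · -- at least two relevant characters
      let R := {χ : Cfsg.IrrCharacter N // ∃ k : N, (k : G) ∈ K ∧ (χ : N → ℂ) k ≠ (χ : N → ℂ) 1}
      have hne : Nonempty R := not_isEmpty_iff.mp h0
      have hn : 2 ≤ Nat.card R := by
        have h2 : 0 < Nat.card R := Nat.card_pos
        have h3 : Nat.card R ≠ 1 := h1
        omega
      let e : R ≃ Fin (Nat.card R) := Finite.equivFin R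
      have hvan : ∀ r : R, ∀ x : N, (x : G) ∉ (K : Set G) → ((r.1 : N → ℂ)) x = 0 := by
        intro r x hx
        obtain ⟨θ, hθ, hχ⟩ := hinduced r.1 r.1.2 r.2
        rw [hχ]
        exact Cfsg.Agent.Lib.Char.indFun_eq_zero_of_notMem K' θ
          (fun h => hx (Subgroup.mem_subgroupOf.mp h))
      have hdeg : ∀ r s : R, ((r.1 : N → ℂ)) 1 = ((s.1 : N → ℂ)) 1 := by
        have h1 : ∀ r : R, ((r.1 : N → ℂ)) 1 = (K'.index : ℂ) := by
          intro r
          obtain ⟨θ, hθ, hχ⟩ := hinduced r.1 r.1.2 r.2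
          have h4 : θ 1 = 1 := hdeg1 ⟨θ, hθ⟩
          rw [hχ, Cfsg.Agent.Lib.Char.indFun_one, h4, mul_one]
        intro r s
        rw [h1, h1]
      obtain ⟨ε, hε, θ, hθ, hθinj, hθeq⟩ := Cfsg.Agent.S0170.result (K : Set G)
        (fun k hk => Subgroup.le_normalizer (H := K) hk) hTI (Nat.card R) hn
        (fun i => ((e.symm i).1 : N → ℂ)) (fun i => (e.symm i).1.2)
        (by
          intro i j hij
          apply e.symm.injective
          apply Subtype.ext
          apply Subtype.ext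
          exact hij)
        (fun i x hx => hvan _ x hx)
        (fun i j => hdeg _ _)
      refine ⟨ε, fun r => ⟨θ (e r), hθ (e r)⟩, hε, ?_, ?_⟩
      · intro r s hrs
        apply e.injective
        apply hθinj
        exact congrArg Subtype.val hrs
      · intro χ ξ
        have := hθeq (e χ) (e ξ)
        simp only [Equiv.symm_apply_apply] at this
        rw [Cfsg.Agent.Lib.Char.indFun_sub]
        exact this

end Cfsg.Agent.S0851
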