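import Cfsg.Statements.S0852
import Cfsg.Agent.Lib.Char.Coherent
-- import your own Cfsg.Agent.* helpers here

set_option autoImplicit false
open Cfsg

namespace Cfsg.Agent.S0852

/-- Let K be a subgroup of the finite group G that meets each conjugate by an element outside its normalizer N trivially, is properly contained in N, and contains the centralizer of each of its non-identity elements (a T.I. subgroup with Frobenius normalizer). Let S be the set of irreducible characters of N taking at some element of K a value different from their degree, suppose S has at least two members, and let star be a linear isometry on the integer span of S into the generalized characters of G that agrees with induction on the members vanishing at the identity (so S is coherent, with star as the extending isometry). Then an irreducible character ψ of G is of the form star χ or -star χ for some χ in S if and only if ψ is not constant on the non-identity elements of K. -/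
theorem result {G : Type*} [Group G] [Fintype G] (K : Subgroup G) (hTI : ∀ g : G, g ∉ Subgroup.normalizer (K : Set G) → ∀ k ∈ K, g * k * g⁻¹ ∈ K → k = 1) (hlt : K < Subgroup.normalizer (K : Set G)) (hC : ∀ k ∈ K, k ≠ 1 → Subgroup.centralizer ({k} : Set G) ≤ K) [Fintype ↥(Subgroup.normalizer (K : Set G))] (S : Set (↥(Subgroup.normalizer (K : Set G)) → ℂ)) (hS : S = {χ : ↥(Subgroup.normalizer (K : Set G)) → ℂ | Cfsg.IsIrrCharacter ↥(Subgroup.normalizer (K : Set G)) χ ∧ ∃ k : ↥(Subgroup.normalizer (K : Set G)), (k : G) ∈ K ∧ χ k ≠ χ 1}) (htwo : ∃ χ ∈ S, ∃ ξ ∈ S, χ ≠ ξ) (star : (↥(Subgroup.normalizer (K : Set G)) → ℂ) → (G → ℂ)) (hstar : Cfsg.IsLinearIsometryOn (Cfsg.zspan S) star) (hext : ∀ α ∈ Cfsg.zspanOn S ({1}ᶜ : Set ↥(Subgroup.normalizer (K : Set G))), star α = Cfsg.indFun (Subgroup.normalizer (K : Set G)) α) (ψ : G → ℂ) (hψ : Cfsg.IsIrrCharacter G ψ) : (∃ χ ∈ S, ψ = star χ ∨ ψ = -star χ) ↔ ∃ a ∈ K, ∃ b ∈ K, a ≠ 1 ∧ b ≠ 1 ∧ ψ a ≠ ψ b := by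
  classical
  let K' : Subgroup (Subgroup.normalizer (K : Set G)) := K.subgroupOf (Subgroup.normalizer (K : Set G))
  let _ : Fintype K' := Fintype.ofFinite K'
  haveI : K'.Normal := Cfsg.Agent.Lib.Char.ti_subgroupOf_normal K
  have hSeq : S = Cfsg.Agent.Lib.Char.relChars K' := by rw [hS]; rfl
  rw [hSeq] at hstar hext htwo
  rw [hSeq]
  have := Cfsg.Agent.Lib.Char.coh_irr_iff _ K' star hstar hext (Cfsg.Agent.Lib.Char.ti_fpf K hC) htwo hψ
  rw [this]
  constructor
  · rintro ⟨a, b, ha, hb, ha1, hb1, hne⟩
    refine ⟨a, Subgroup.mem_subgroupOf.mp ha, b, Subgroup.mem_subgroupOf.mp hb, ?_, ?_, hne⟩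
    · exact fun h => ha1 (Subtype.ext h)
    · exact fun h => hb1 (Subtype.ext h)
  · rintro ⟨a, ha, b, hb, ha1, hb1, hne⟩
    have hle : K ≤ Subgroup.normalizer (K : Set G) := Subgroup.le_normalizer (H := K)
    refine ⟨⟨a, hle ha⟩, ⟨b, hle hb⟩, Subgroup.mem_subgroupOf.mpr ha, Subgroup.mem_subgroupOf.mpr hb, ?_, ?_, hne⟩
    · exact fun h => ha1 (congrArg Subtype.val h)
    · exact fun h => hb1 (congrArg Subtype.val h)

end Cfsg.Agent.S0852
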