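import Cfsg.Statements.S0861
import Cfsg.Agent.Lib.Char.Ito
import Cfsg.Agent.Lib.Char.Galois
import Cfsg.Agent.Lib.H8Group.CharVal
import Mathlib.GroupTheory.Sylow
-- import your own Cfsg.Agent.* helpers here

set_option autoImplicit false
open Cfsg

namespace Cfsg.Agent.S0861

/-- Let P be a normal abelian Sylow p-subgroup of the finite group G and suppose some element g of P has centralizer exactly P. Then the number of irreducible characters of G is at most the order of P, and if equality holds then G / P is abelian (the commutator subgroup lies in P). -/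
theorem result {G : Type*} [Group G] [Finite G] (p : ℕ) [Fact p.Prime] (P : Sylow p G) [(P : Subgroup G).Normal] (hab : ∀ a ∈ P, ∀ b ∈ P, a * b = b * a) (g : G) (hg : g ∈ P) (hC : Subgroup.centralizer ({g} : Set G) = P) : Nat.card (Cfsg.IrrCharacter G) ≤ Nat.card P ∧ (Nat.card (Cfsg.IrrCharacter G) = Nat.card P → commutator G ≤ P) := by
  classical
  let _ : Fintype G := Fintype.ofFinite G
  haveI : NeZero (Nat.card G) := ⟨Nat.card_pos.ne'⟩
  have hp : p.Prime := Fact.out
  have hPfin : ¬ p ∣ (P : Subgroup G).index := P.not_dvd_index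
  -- the power-stable set of generators of `⟨g⟩`
  let S : Finset G := Finset.univ.filter (fun x => ∃ k : ℕ, k.Coprime (Nat.card G) ∧ x = g ^ k)
  have hgS : g ∈ S := by
    simp only [S, Finset.mem_filter, Finset.mem_univ, true_and]
    exact ⟨1, by simp, by simp⟩
  have hS : ∀ k : ℕ, k.Coprime (Nat.card G) → ∀ x ∈ S, x ^ k ∈ S := by
    intro k hk x hx
    simp only [S, Finset.mem_filter, Finset.mem_univ, true_and] at hx ⊢
    obtain ⟨j, hj, rfl⟩ := hx
    exact ⟨j * k, Nat.Coprime.mul_left hj hk, (pow_mul g j k).symm⟩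
  have hSP : ∀ x ∈ S, x ∈ (P : Subgroup G) := by
    intro x hx
    simp only [S, Finset.mem_filter, Finset.mem_univ, true_and] at hx
    obtain ⟨j, -, rfl⟩ := hx
    exact Subgroup.pow_mem _ hg _
  have hScard : 0 < S.card := Finset.card_pos.mpr ⟨g, hgS⟩
  -- centralizers
  have hCx : ∀ x ∈ S, Nat.card (Subgroup.centralizer ({x} : Set G)) = Nat.card P := by
    intro x hx
    simp only [S, Finset.mem_filter, Finset.mem_univ, true_and] at hx
    obtain ⟨k, hk, rfl⟩ := hx
    have : Subgroup.centralizer ({g ^ k} : Set G) = Subgroup.centralizer ({g} : Set G) := by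
      apply le_antisymm
      · intro y hy
        rw [Subgroup.mem_centralizer_singleton_iff] at hy ⊢
        have h1 : (y * g * y⁻¹) ^ k = g ^ k := by
          rw [conj_pow, hy]
          simp
        have h2 := (Cfsg.Agent.Lib.Char.pow_bijective_of_coprime hk).1 h1
        calc y * g = y * g * y⁻¹ * y := by simp
          _ = g * y := by rw [h2]
      · intro y hy
        rw [Subgroup.mem_centralizer_singleton_iff] at hy ⊢
        exact ((show Commute y g from hy).pow_right k)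
    rw [this, hC]
  -- nonvanishing
  have hnv : ∀ (χ : Cfsg.IrrCharacter G), ∀ x ∈ S, (χ : G → ℂ) x ≠ 0 := by
    intro χ x hx h0
    have hxp : ∃ j : ℕ, x ^ (p ^ j) = 1 := by
      have hPp : IsPGroup p P := P.isPGroup'
      obtain ⟨j, hj⟩ := hPp ⟨x, hSP x hx⟩
      refine ⟨j, ?_⟩
      exact congrArg Subtype.val hj
    obtain ⟨j, hj⟩ := hxp
    have h1 := Cfsg.Agent.Lib.H8Group.dvd_charDegree_of_apply_eq_zero (Cfsg.Agent.Lib.Char.IsIrrCharacter.isCharacter χ.2) hj h0
    have h2 := Cfsg.Agent.Lib.Char.charDegree_dvd_index_of_abelian_normal χ.2 (P : Subgroup G) hab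
    exact hPfin (h1.trans h2)
  have hAM : ∀ χ : Cfsg.IrrCharacter G, (S.card : ℝ) ≤ ∑ x ∈ S, ‖(χ : G → ℂ) x‖ ^ 2 := fun χ =>
    Cfsg.Agent.Lib.Char.card_le_sum_norm_sq (Cfsg.Agent.Lib.Char.IsIrrCharacter.isCharacter χ.2) S hS (hnv χ)
  -- second orthogonality
  have hortho : ∀ x ∈ S, ∑ χ : Cfsg.IrrCharacter G, ‖(χ : G → ℂ) x‖ ^ 2 = (Nat.card P : ℝ) := by
    intro x hx
    have h1 := Cfsg.Agent.Lib.Char.sum_irr_mul_conj_of_isConj (IsConj.refl x)
    rw [hCx x hx] at h1
    have h4 : ∀ χ : Cfsg.IrrCharacter G, (χ : G → ℂ) x * (starRingEnd ℂ) ((χ : G → ℂ) x) = ((‖(χ : G → ℂ) x‖ ^ 2 : ℝ) : ℂ) := by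
      intro χ
      rw [Complex.mul_conj, Complex.normSq_eq_norm_sq]
    simp only [h4] at h1
    exact_mod_cast h1
  have hdouble : ∑ χ : Cfsg.IrrCharacter G, ∑ x ∈ S, ‖(χ : G → ℂ) x‖ ^ 2 = (S.card : ℝ) * (Nat.card P : ℝ) := by
    rw [Finset.sum_comm, Finset.sum_congr rfl hortho, Finset.sum_const, nsmul_eq_mul]
  have hcardIrr : ((Nat.card (Cfsg.IrrCharacter G) : ℕ) : ℝ) = ∑ _χ : Cfsg.IrrCharacter G, (1 : ℝ) := by
    simp [Nat.card_eq_fintype_card]
  have hScardR : (0 : ℝ) < S.card := by exact_mod_cast hScard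
  have hle : ∑ χ : Cfsg.IrrCharacter G, (S.card : ℝ) ≤ ∑ χ : Cfsg.IrrCharacter G, ∑ x ∈ S, ‖(χ : G → ℂ) x‖ ^ 2 :=
    Finset.sum_le_sum fun χ _ => hAM χ
  rw [hdouble, Finset.sum_const, nsmul_eq_mul, Finset.card_univ, ← Nat.card_eq_fintype_card] at hle
  constructor
  · have h1 : (Nat.card (Cfsg.IrrCharacter G) : ℝ) ≤ (Nat.card P : ℝ) := by
      have : (Nat.card (Cfsg.IrrCharacter G) : ℝ) * S.card ≤ (Nat.card P : ℝ) * S.card := by
        linarith
      exact le_of_mul_le_mul_right this hScardR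
    exact_mod_cast h1
  · intro heq
    -- every term is an equality
    have hterm : ∀ χ : Cfsg.IrrCharacter G, ∑ x ∈ S, ‖(χ : G → ℂ) x‖ ^ 2 = (S.card : ℝ) := by
      have h0 : ∑ χ : Cfsg.IrrCharacter G, (∑ x ∈ S, ‖(χ : G → ℂ) x‖ ^ 2 - (S.card : ℝ)) = 0 := by
        rw [Finset.sum_sub_distrib, hdouble, Finset.sum_const, nsmul_eq_mul, Finset.card_univ,
          ← Nat.card_eq_fintype_card, heq]
        ring
      have h2 := (Finset.sum_eq_zero_iff_of_nonneg (fun χ _ => sub_nonneg.mpr (hAM χ))).mp h0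
      intro χ
      linarith [h2 χ (Finset.mem_univ _)]
    haveI : (P : Subgroup G).Normal := inferInstance
    let _ : Fintype P := Fintype.ofFinite _
    let _ : Fintype (G ⧸ (P : Subgroup G)) := Fintype.ofFinite _
    have hquot : ∀ β : Cfsg.IrrCharacter (G ⧸ (P : Subgroup G)), (β : G ⧸ (P : Subgroup G) → ℂ) 1 = 1 := by
      intro β
      have hinfl := Cfsg.Agent.Lib.Char.isIrrCharacter_inflate (P : Subgroup G) β.2
      have h1 := hterm ⟨_, hinfl⟩
      have h2 : ∀ x ∈ S, ‖(Cfsg.Agent.Lib.Char.inflate (P : Subgroup G) (β : G ⧸ (P : Subgroup G) → ℂ)) x‖ ^ 2 = ‖(β : G ⧸ (P : Subgroup G) → ℂ) 1‖ ^ 2 := by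
        intro x hx
        have : ((x : G) : G ⧸ (P : Subgroup G)) = 1 := (QuotientGroup.eq_one_iff x).mpr (hSP x hx)
        simp only [Cfsg.Agent.Lib.Char.inflate, this]
      simp only at h1
      rw [Finset.sum_congr rfl h2, Finset.sum_const, nsmul_eq_mul] at h1
      have h3 : ‖(β : G ⧸ (P : Subgroup G) → ℂ) 1‖ ^ 2 = 1 := by
        have := mul_left_cancel₀ hScardR.ne' (h1.trans (mul_one _).symm)
        exact this
      obtain ⟨n, hn, hn'⟩ := Cfsg.Agent.Lib.Char.IsIrrCharacter.apply_one β.2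
      rw [hn'] at h3 ⊢
      simp only [Complex.norm_natCast] at h3
      have h4 : n ^ 2 = 1 := by exact_mod_cast h3
      have h5 : n = 1 := by nlinarith
      rw [h5]
      simp
    have hcomm := (Cfsg.Agent.Lib.Char.comm_iff_irr_degree_one (G := G ⧸ (P : Subgroup G))).mpr hquot
    rw [commutator_def, Subgroup.commutator_le]
    intro a _ b _
    rw [← QuotientGroup.eq_one_iff, commutatorElement_def]
    have h1 := hcomm (a : G ⧸ (P : Subgroup G)) (b : G ⧸ (P : Subgroup G))
    simp only [QuotientGroup.mk_mul, QuotientGroup.mk_inv]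
    rw [h1]
    group

end Cfsg.Agent.S0861
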