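import Cfsg.Statements.S0862
import Cfsg.Agent.Lib.H8Group.Extension

set_option autoImplicit false

open Cfsg

namespace Cfsg.Agent.S0862

open Cfsg.Agent.Lib.Char Cfsg.Agent.Lib.H8Group

/-- Let N be a normal subgroup of the finite group G and ϑ an irreducible character of N of degree d coprime to the index of N, which is the restriction of some irreducible character of G. Let μ be a character of G of degree 1 whose restriction to N is the determinantal character of ϑ. Then there is exactly one irreducible character χ of G restricting to ϑ whose determinantal character is μ. -/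
theorem result {G : Type*} [Group G] [Finite G] (N : Subgroup G) [N.Normal] (ϑ : N → ℂ) (hϑ : Cfsg.IsIrrCharacter N ϑ) (d : ℕ) (hd : ϑ 1 = d) (hcop : Nat.Coprime N.index d) (hext : ∃ η : G → ℂ, Cfsg.IsIrrCharacter G η ∧ (∀ n : N, η n = ϑ n)) (μ : G → ℂ) (hμ : Cfsg.IsCharacter G μ ∧ μ 1 = 1) (hμN : ∀ n : N, μ n = Cfsg.detChar ϑ n) : ∃! χ : G → ℂ, Cfsg.IsIrrCharacter G χ ∧ (∀ n : N, χ n = ϑ n) ∧ Cfsg.detChar χ = μ := by
  classical
  let _ : Fintype G := Fintype.ofFinite G
  let _ : Fintype N := Fintype.ofFinite N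
  obtain ⟨η, hη, hηN⟩ := hext
  obtain ⟨lam, rfl⟩ := IsCharacter.exists_monoidHom hμ.1 hμ.2
  have hηr : resFun N η = ϑ := funext hηN
  have hd' : η 1 = d := by rw [← hd]; exact hηN 1
  have hdetη : ∀ n : N, detChar η n = detChar ϑ n := by
    intro n
    have h1 := congrFun (detChar_comp N.subtype (IsIrrCharacter.isCharacter hη)) n
    have h2 : (fun h : N => η (N.subtype h)) = ϑ := hηr
    rw [h2] at h1
    exact h1.symm
  obtain ⟨χ, hχ, hχr, hχd⟩ := adjust_det N hη hd' hcop lam (fun n => by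
    rw [hdetη]; exact hμN n)
  rw [hηr] at hχr
  refine ⟨χ, ⟨hχ, fun n => congrFun hχr n, funext hχd⟩, ?_⟩
  rintro χ' ⟨hχ', hχ'N, hχ'd⟩
  apply ext_unique_of_det N hχ hχ' (d := d) (m := 1) ?_ ?_ ?_ ?_ ?_
  · rw [hχr]; exact funext hχ'N
  · rw [hχr]; exact hϑ
  · rw [← hd]
    exact congrFun hχr 1
  · simpa using hcop
  · intro g
    rw [hχ'd, pow_one, pow_one, hχd]

end Cfsg.Agent.S0862
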