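import Cfsg.Statements.S0863
import Cfsg.Agent.Lib.H8Group.Extension

set_option autoImplicit false

open Cfsg

namespace Cfsg.Agent.S0863

open Cfsg.Agent.Lib.Char Cfsg.Agent.Lib.H8Group

/-- Let N be a normal subgroup of the finite group G with G / N solvable, and ϑ an irreducible character of N, invariant under conjugation by G, of degree d coprime to the index of N. Then ϑ is the restriction of an irreducible character of G if and only if the determinantal character of ϑ is the restriction of a character of G of degree 1. -/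
theorem result {G : Type*} [Group G] [Finite G] (N : Subgroup G) [hN : N.Normal] (hsolv : Group.IsSolvable (G ⧸ N)) (ϑ : N → ℂ) (hϑ : Cfsg.IsIrrCharacter N ϑ) (hinv : ∀ (g : G) (n : N), ϑ ⟨g * n * g⁻¹, hN.conj_mem (n : G) n.2 g⟩ = ϑ n) (d : ℕ) (hd : ϑ 1 = d) (hcop : Nat.Coprime N.index d) : (∃ χ : G → ℂ, Cfsg.IsIrrCharacter G χ ∧ (∀ n : N, χ n = ϑ n)) ↔ ∃ μ : G → ℂ, Cfsg.IsCharacter G μ ∧ μ 1 = 1 ∧ ∀ n : N, μ n = Cfsg.detChar ϑ n := by
  classical
  let _ : Fintype G := Fintype.ofFinite G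
  let _ : Fintype N := Fintype.ofFinite N
  constructor
  · rintro ⟨χ, hχ, hχN⟩
    obtain ⟨δ, hδ⟩ := exists_detHom (IsIrrCharacter.isCharacter hχ)
    refine ⟨fun g => ((δ g : ℂˣ) : ℂ), IsIrrCharacter.isCharacter (isIrrCharacter_of_monoidHom δ),
      by simp, fun n => ?_⟩
    have h1 := congrFun (detChar_comp N.subtype (IsIrrCharacter.isCharacter hχ)) n
    have h2 : (fun h : N => χ (N.subtype h)) = ϑ := funext hχN
    rw [h2] at h1
    rw [h1, hδ]
    rfl
  · rintro ⟨μ, hμ, hμ1, hμN⟩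
    obtain ⟨lam, rfl⟩ := IsCharacter.exists_monoidHom hμ hμ1
    have hinv' : ∀ g : G, conjFun N g ϑ = ϑ := by
      intro g
      funext n
      have h1 := hinv g⁻¹ n
      simp only [inv_inv] at h1
      exact h1
    obtain ⟨χ, hχ, hχN, -⟩ := exists_ext_det_of_solvable _ G N ϑ hϑ hinv' d hd hcop lam hμN rfl
    exact ⟨χ, hχ, hχN⟩

end Cfsg.Agent.S0863
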