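import Cfsg.Statements.S0864
import Cfsg.Agent.Lib.H8Group.LinearExt

set_option autoImplicit false

open Cfsg

namespace Cfsg.Agent.S0864

open Cfsg.Agent.Lib.Char Cfsg.Agent.Lib.H8Group

/-- Let N be a normal subgroup of the finite group G and λ a character of N of degree 1 invariant under conjugation by G. Suppose that for every prime p dividing the order of λ (in the group of functions under pointwise multiplication) there is a subgroup H containing N, of index prime to p and with the index of N in H a power of p, together with a character of H of degree 1 restricting to λ. Then λ is the restriction of a character of G of degree 1. -/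
theorem result {G : Type*} [Group G] [Finite G] (N : Subgroup G) [hN : N.Normal] (lam : N → ℂ) (hlam : Cfsg.IsCharacter N lam ∧ lam 1 = 1) (hinv : ∀ (g : G) (n : N), lam ⟨g * n * g⁻¹, hN.conj_mem (n : G) n.2 g⟩ = lam n) (hsyl : ∀ p : ℕ, p.Prime → p ∣ orderOf lam → ∃ (H : Subgroup G) (hNH : N ≤ H) (ν : H → ℂ), Nat.Coprime H.index p ∧ (∃ k : ℕ, N.relIndex H = p ^ k) ∧ Cfsg.IsCharacter H ν ∧ ν 1 = 1 ∧ ∀ n : N, ν ⟨(n : G), hNH n.2⟩ = lam n) : ∃ μ : G → ℂ, Cfsg.IsCharacter G μ ∧ μ 1 = 1 ∧ ∀ n : N, μ n = lam n := by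
  classical
  obtain ⟨lam₀, rfl⟩ := IsCharacter.exists_monoidHom hlam.1 hlam.2
  set l : N → ℂ := fun g => ((lam₀ g : ℂˣ) : ℂ) with hl
  have hpow : ∀ k : ℕ, (l ^ k = 1) ↔ ∀ x, lam₀ x ^ k = 1 := by
    intro k
    constructor
    · intro h x
      have := congrFun h x
      apply Units.ext
      simpa [hl] using this
    · intro h
      funext x
      have := congrArg Units.val (h x)
      simpa [hl] using this
  have hcard : l ^ Nat.card N = 1 := by
    rw [hpow]
    intro x
    rw [← map_pow, pow_card_eq_one', map_one]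
  have hm0 : orderOf l ≠ 0 := by
    have : IsOfFinOrder l := isOfFinOrder_iff_pow_eq_one.mpr ⟨_, Nat.card_pos, hcard⟩
    exact this.orderOf_pos.ne'
  have hm : ∀ x, lam₀ x ^ orderOf l = 1 := (hpow _).mp (pow_orderOf_eq_one l)
  obtain ⟨μ, hμ⟩ := exists_ext_linear_of_local N lam₀
    (fun g n hn => Units.ext (hinv g ⟨n, hn⟩)) hm0 hm (fun p hp hpm => by
      obtain ⟨H, hNH, ν, hc, -, hνc, hν1, hν⟩ := hsyl p hp hpm
      obtain ⟨ν₀, rfl⟩ := IsCharacter.exists_monoidHom hνc hν1
      exact ⟨H, hNH, ν₀, hc, fun n => Units.ext (hν n)⟩)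
  refine ⟨fun g => ((μ g : ℂˣ) : ℂ), IsIrrCharacter.isCharacter (isIrrCharacter_of_monoidHom μ),
    by simp, fun n => ?_⟩
  simp only [hμ, hl]

end Cfsg.Agent.S0864
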