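import Cfsg.Statements.S0865
import Cfsg.Agent.Lib.H8Group.LinearExt

set_option autoImplicit false

open Cfsg

namespace Cfsg.Agent.S0865

open Cfsg.Agent.Lib.Char Cfsg.Agent.Lib.H8Group

theorem hom_pow_iff {X : Type*} [Monoid X] (f : X →* ℂˣ) (k : ℕ) :
    ((fun g => ((f g : ℂˣ) : ℂ)) ^ k = 1) ↔ ∀ x, f x ^ k = 1 := by
  constructor
  · intro h x
    have := congrFun h x
    apply Units.ext
    simpa using this
  · intro h
    funext x
    have := congrArg Units.val (h x)
    simpa using this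

/-- Let N be a normal subgroup of the finite group G and λ a character of N of degree 1, invariant under conjugation by G, whose order (under pointwise multiplication) is coprime to the index of N. Then there is a character μ of G of degree 1 restricting to λ with the same order as λ, and μ is the only degree-1 character of G restricting to λ whose order is coprime to the index of N. -/
theorem result {G : Type*} [Group G] [Finite G] (N : Subgroup G) [hN : N.Normal] (lam : N → ℂ) (hlam : Cfsg.IsCharacter N lam ∧ lam 1 = 1) (hinv : ∀ (g : G) (n : N), lam ⟨g * n * g⁻¹, hN.conj_mem (n : G) n.2 g⟩ = lam n) (hcop : Nat.Coprime N.index (orderOf lam)) : ∃ μ : G → ℂ, (Cfsg.IsCharacter G μ ∧ μ 1 = 1 ∧ (∀ n : N, μ n = lam n) ∧ orderOf μ = orderOf lam) ∧ ∀ μ' : G → ℂ, Cfsg.IsCharacter G μ' ∧ μ' 1 = 1 → (∀ n : N, μ' n = lam n) → Nat.Coprime N.index (orderOf μ') → μ' = μ := by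
  classical
  obtain ⟨lam₀, rfl⟩ := IsCharacter.exists_monoidHom hlam.1 hlam.2
  set l : N → ℂ := fun g => ((lam₀ g : ℂˣ) : ℂ) with hl
  have hm : ∀ x, lam₀ x ^ orderOf l = 1 := (hom_pow_iff lam₀ _).mp (pow_orderOf_eq_one l)
  obtain ⟨μ, hμ, hμm⟩ := exists_ext_linear N lam₀
    (fun g n hn => Units.ext (hinv g ⟨n, hn⟩)) hm hcop
  refine ⟨fun g => ((μ g : ℂˣ) : ℂ), ⟨IsIrrCharacter.isCharacter (isIrrCharacter_of_monoidHom μ),
    by simp, fun n => ?_, ?_⟩, ?_⟩
  · simp only [hμ, hl]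
  · apply Nat.dvd_antisymm
    · exact orderOf_dvd_of_pow_eq_one ((hom_pow_iff μ _).mpr hμm)
    · apply orderOf_dvd_of_pow_eq_one
      rw [hom_pow_iff]
      intro x
      have h1 := (hom_pow_iff μ _).mp (pow_orderOf_eq_one (fun g => ((μ g : ℂˣ) : ℂ))) x
      rwa [hμ] at h1
  · rintro μ' ⟨hc, h1⟩ hext hcop'
    obtain ⟨μ₀, rfl⟩ := IsCharacter.exists_monoidHom hc h1
    have h2 : ∀ g, μ₀ g ^ orderOf (fun g => ((μ₀ g : ℂˣ) : ℂ)) = 1 :=
      (hom_pow_iff μ₀ _).mp (pow_orderOf_eq_one _)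
    have h3 := linear_ext_unique N μ μ₀ (fun n => Units.ext (by rw [hμ]; exact (hext n).symm))
      hμm h2 hcop hcop'
    rw [h3]

end Cfsg.Agent.S0865
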