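import Cfsg.Statements.S0866
import Cfsg.Agent.S0863
import Cfsg.Agent.Lib.Char.Triple
import Cfsg.Agent.Lib.H8Group.Extension

set_option autoImplicit false
open Cfsg

namespace Cfsg.Agent.S0866

open Cfsg.Agent.Lib.Char Cfsg.Agent.Lib.H8Group

/-- Let N be a normal subgroup of the finite group G and ϑ an irreducible character of N, invariant under conjugation by G, of degree d coprime to the index of N. Then ϑ is the restriction of an irreducible character of G if and only if the determinantal character of ϑ is the restriction of a character of G of degree 1. -/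
theorem result {G : Type*} [Group G] [Finite G] (N : Subgroup G) [hN : N.Normal] (ϑ : N → ℂ) (hϑ : Cfsg.IsIrrCharacter N ϑ) (hinv : ∀ (g : G) (n : N), ϑ ⟨g * n * g⁻¹, hN.conj_mem (n : G) n.2 g⟩ = ϑ n) (d : ℕ) (hd : ϑ 1 = d) (hcop : Nat.Coprime N.index d) : (∃ χ : G → ℂ, Cfsg.IsIrrCharacter G χ ∧ (∀ n : N, χ n = ϑ n)) ↔ ∃ μ : G → ℂ, Cfsg.IsCharacter G μ ∧ μ 1 = 1 ∧ ∀ n : N, μ n = Cfsg.detChar ϑ n := by
  classical
  let _ : Fintype G := Fintype.ofFinite G
  let _ : Fintype N := Fintype.ofFinite N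
  constructor
  · rintro ⟨χ, hχ, hχN⟩
    obtain ⟨δ, hδ⟩ := exists_detHom (IsIrrCharacter.isCharacter hχ)
    refine ⟨fun g => ((δ g : ℂˣ) : ℂ), IsIrrCharacter.isCharacter (isIrrCharacter_of_monoidHom δ),
      by simp, fun n => ?_⟩
    have h1 := congrFun (detChar_comp N.subtype (IsIrrCharacter.isCharacter hχ)) n
    have h2 : (fun h : N => χ (N.subtype h)) = ϑ := funext hχN
    rw [h2] at h1
    rw [h1, hδ]
    rfl
  · rintro ⟨μ, hμ, hμ1, hμN⟩
    obtain ⟨lam, rfl⟩ := IsCharacter.exists_monoidHom hμ hμ1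
    obtain ⟨n₀, ρ, hirr, rfl⟩ := hϑ
    haveI := hirr
    have hinv' : ∀ (g : G) (n : N), ρ.character (Triple.cn N g n) = ρ.character n := fun g n => hinv g n
    refine Triple.exists_irr_of_local N ρ hinv' (fun p hp => ?_)
    haveI : Fact p.Prime := ⟨hp⟩
    obtain ⟨Q⟩ : Nonempty (Sylow p (G ⧸ N)) := inferInstance
    let P : Subgroup G := (Q : Subgroup (G ⧸ N)).comap (QuotientGroup.mk' N)
    have hNP : N ≤ P := fun x hx => by
      show (x : G ⧸ N) ∈ (Q : Subgroup (G ⧸ N))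
      rw [(QuotientGroup.eq_one_iff x).mpr hx]
      exact one_mem _
    have hidx : Nat.Coprime P.index p := by
      have h1 : P.index = (Q : Subgroup (G ⧸ N)).index :=
        Subgroup.index_comap_of_surjective _ (QuotientGroup.mk'_surjective N)
      rw [h1]
      exact ((Nat.Prime.coprime_iff_not_dvd hp).mpr Q.not_dvd_index).symm
    let N₁ : Subgroup P := N.subgroupOf P
    haveI hN₁ : N₁.Normal := Subgroup.normal_subgroupOf
    let θ₁ : N₁ → ℂ := fun x => ρ.character ⟨x.1.1, x.2⟩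
    have hθ₁ : IsIrrCharacter N₁ θ₁ := isIrr_subgroupOf_le hNP ⟨n₀, ρ, hirr, rfl⟩
    have hinv₁ : ∀ (g : P) (n : N₁), θ₁ ⟨g * n * g⁻¹, hN₁.conj_mem (n : P) n.2 g⟩ = θ₁ n :=
      fun g n => hinv g ⟨n.1.1, n.2⟩
    have hd₁ : θ₁ 1 = d := hd
    have hcop₁ : Nat.Coprime N₁.index d :=
      Nat.Coprime.coprime_dvd_left (Subgroup.relIndex_dvd_index_of_normal N P) hcop
    have hsolv : Group.IsSolvable (P ⧸ N₁) := by
      have hpg : IsPGroup p (P ⧸ N₁) := by
        intro y
        obtain ⟨x, rfl⟩ := QuotientGroup.mk_surjective y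
        obtain ⟨k, hk⟩ := Q.isPGroup' ⟨((x : G) : G ⧸ N), x.2⟩
        refine ⟨k, ?_⟩
        have h1 : ((x : G) : G ⧸ N) ^ p ^ k = 1 := congrArg Subtype.val hk
        have h2 : (x : G) ^ p ^ k ∈ N := by
          rw [← QuotientGroup.eq_one_iff]
          simpa using h1
        have h3 : x ^ p ^ k ∈ N₁ := by
          rw [Subgroup.mem_subgroupOf]
          simpa using h2
        rw [← QuotientGroup.mk_pow]
        exact (QuotientGroup.eq_one_iff _).mpr h3
      haveI := hpg.isNilpotent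
      exact IsNilpotent.to_isSolvable
    have hμ₁ : ∃ μ : P → ℂ, IsCharacter P μ ∧ μ 1 = 1 ∧ ∀ n : N₁, μ n = detChar θ₁ n := by
      refine ⟨fun x => ((lam (x : G) : ℂˣ) : ℂ),
        by
          have := IsIrrCharacter.isCharacter (isIrrCharacter_of_monoidHom (lam.comp P.subtype))
          exact this,
        by simp, fun n => ?_⟩
      let f : N₁ →* N := (Subgroup.subgroupOfEquivOfLe hNP).toMonoidHom
      have h1 := congrFun (detChar_comp f (χ := ρ.character) ⟨n₀, ρ, rfl⟩) n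
      exact (hμN (f n)).trans h1.symm
    obtain ⟨η, hη, hηN⟩ := (Cfsg.Agent.S0863.result N₁ hsolv θ₁ hθ₁ hinv₁ d hd₁ hcop₁).mpr hμ₁
    exact ⟨P, hNP, η, IsIrrCharacter.isCharacter hη, hidx, fun n => hηN ⟨⟨n, hNP n.2⟩, n.2⟩⟩

end Cfsg.Agent.S0866
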