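import Cfsg.Statements.S0867
import Cfsg.Agent.S0866
import Cfsg.Agent.Lib.H8Group.LinearExt

set_option autoImplicit false
open Cfsg

namespace Cfsg.Agent.S0867

open Cfsg.Agent.Lib.Char Cfsg.Agent.Lib.H8Group

/-- Let N be a normal subgroup of the finite group G and ϑ an irreducible character of N of degree d, invariant under conjugation by G, such that the index of N is coprime to the product of d and the determinantal order of ϑ. Then there is an irreducible character χ of G restricting to ϑ whose determinantal order equals that of ϑ, and χ is the only irreducible character of G restricting to ϑ whose determinantal order is coprime to the index of N. -/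
theorem result {G : Type*} [Group G] [Finite G] (N : Subgroup G) [hN : N.Normal] (ϑ : N → ℂ) (hϑ : Cfsg.IsIrrCharacter N ϑ) (hinv : ∀ (g : G) (n : N), ϑ ⟨g * n * g⁻¹, hN.conj_mem (n : G) n.2 g⟩ = ϑ n) (d : ℕ) (hd : ϑ 1 = d) (hcop : Nat.Coprime N.index (Cfsg.detOrder ϑ * d)) : ∃ χ : G → ℂ, (Cfsg.IsIrrCharacter G χ ∧ (∀ n : N, χ n = ϑ n) ∧ Cfsg.detOrder χ = Cfsg.detOrder ϑ) ∧ ∀ χ' : G → ℂ, Cfsg.IsIrrCharacter G χ' → (∀ n : N, χ' n = ϑ n) → Nat.Coprime N.index (Cfsg.detOrder χ') → χ' = χ := by
  classical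
  let _ : Fintype G := Fintype.ofFinite G
  let _ : Fintype N := Fintype.ofFinite N
  have hϑc : IsCharacter N ϑ := IsIrrCharacter.isCharacter hϑ
  set m := detOrder ϑ with hm
  have hcopd : Nat.Coprime N.index d := Nat.Coprime.coprime_dvd_right (Dvd.intro_left m rfl) hcop
  have hcopm : Nat.Coprime N.index m := Nat.Coprime.coprime_dvd_right (Dvd.intro _ rfl) hcop
  obtain ⟨δ, hδ⟩ := exists_detHom hϑc
  have hδinv : ∀ (g n : G) (hn : n ∈ N),
      δ ⟨g * n * g⁻¹, hN.conj_mem n hn g⟩ = δ ⟨n, hn⟩ := by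
    intro g n hn
    let f : N →* N := (MulAut.conjNormal g).toMonoidHom
    have h1 := congrFun (detChar_comp f hϑc) ⟨n, hn⟩
    have h2 : (fun h : N => ϑ (f h)) = ϑ := by
      funext h
      exact hinv g h
    rw [h2] at h1
    apply Units.ext
    rw [← hδ, ← hδ]
    exact h1.symm
  have hδm : ∀ x, δ x ^ m = 1 := by
    intro x
    have h1 : (detChar ϑ) ^ m = 1 := pow_orderOf_eq_one _
    have h2 := congrFun h1 x
    apply Units.ext
    simp only [Pi.pow_apply, Pi.one_apply] at h2
    rw [Units.val_pow_eq_pow_val, ← hδ, h2, Units.val_one]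
  obtain ⟨μ, hμN, hμm⟩ := exists_ext_linear N δ hδinv hδm hcopm
  -- an extension exists
  have hdetN : ∀ n : N, ((μ n : ℂˣ) : ℂ) = detChar ϑ n := by
    intro n
    rw [hμN, hδ]
  obtain ⟨χ₀, hχ₀, hχ₀N⟩ := (Cfsg.Agent.S0866.result N ϑ hϑ hinv d hd hcopd).mpr
    ⟨fun g => ((μ g : ℂˣ) : ℂ), IsIrrCharacter.isCharacter (isIrrCharacter_of_monoidHom μ), by simp,
      hdetN⟩
  have hres₀ : resFun N χ₀ = ϑ := funext hχ₀N
  have hd₀ : χ₀ 1 = d := by
    have := hχ₀N 1
    rw [hd] at this
    simpa using this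
  have hdetχ₀ : ∀ n : N, detChar χ₀ n = detChar ϑ n := by
    intro n
    have h1 := congrFun (detChar_comp N.subtype (IsIrrCharacter.isCharacter hχ₀)) n
    have h2 : (fun h : N => χ₀ (N.subtype h)) = ϑ := funext hχ₀N
    rw [h2] at h1
    exact h1.symm
  obtain ⟨χ, hχ, hχres, hχdet⟩ := adjust_det N hχ₀ hd₀ hcopd μ (fun n => by rw [hdetN, hdetχ₀])
  have hres : resFun N χ = ϑ := hχres.trans hres₀
  have hχN : ∀ n : N, χ n = ϑ n := fun n => congrFun hres n
  have hd₁ : χ 1 = d := by
    have := hχN 1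
    rw [hd] at this
    simpa using this
  have hθres : IsIrrCharacter N (resFun N χ) := by rw [hres]; exact hϑ
  have hdetres : ∀ n : N, detChar χ n = detChar ϑ n := by
    intro n
    rw [hχdet, hdetN]
  have hχm : (detChar χ) ^ m = 1 := by
    funext g
    simp only [Pi.pow_apply, Pi.one_apply]
    rw [hχdet, ← Units.val_pow_eq_pow_val, hμm, Units.val_one]
  refine ⟨χ, ⟨hχ, hχN, ?_⟩, ?_⟩
  · apply Nat.dvd_antisymm
    · exact orderOf_dvd_of_pow_eq_one hχm
    · apply orderOf_dvd_of_pow_eq_one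
      have h1 : (detChar χ) ^ (detOrder χ) = 1 := pow_orderOf_eq_one _
      funext n
      have h2 := congrFun h1 (n : G)
      simp only [Pi.pow_apply, Pi.one_apply] at h2 ⊢
      rw [← hdetres, h2]
  · intro χ' hχ' hχ'N hc'
    have hres' : resFun N χ' = resFun N χ := by
      funext n
      show χ' n = χ n
      rw [hχ'N, hχN]
    have hfin : Nat.Coprime N.index (d * (m * detOrder χ')) := by
      apply Nat.Coprime.mul_right hcopd
      exact Nat.Coprime.mul_right hcopm hc'
    apply ext_unique_of_det N hχ hχ' hres' hθres hd₁ hfin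
    intro g
    have h1 : detChar χ' g ^ detOrder χ' = 1 := by
      have h2 : (detChar χ') ^ (detOrder χ') = 1 := pow_orderOf_eq_one _
      have h3 := congrFun h2 g
      simpa using h3
    have h4 : detChar χ g ^ m = 1 := by
      have h3 := congrFun hχm g
      simpa using h3
    rw [mul_comm m, pow_mul, h1, mul_comm, pow_mul, h4]
    simp

end Cfsg.Agent.S0867
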