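import Cfsg.Statements.S0868
import Cfsg.Agent.Lib.Char.Gallagher
-- import your own Cfsg.Agent.* helpers here

set_option autoImplicit false
open scoped ComplexConjugate
open Cfsg

namespace Cfsg.Agent.S0868

/-- Let N be a normal subgroup of the finite group G, χ an irreducible character of G whose restriction ϑ to N is irreducible, and ψ an irreducible character of G. Define η on G by η g = (1 / order of N) * Σ over n in N of ψ (n * g) * conj (χ (n * g)). Then: if the restriction of ψ to N has nonzero inner product with ϑ, η is an irreducible character of G; if that inner product is zero, η vanishes identically; and if ψ = χ then η is identically 1. -/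
theorem result {G : Type*} [Group G] [Fintype G] (N : Subgroup G) [N.Normal] [Fintype N] (χ : G → ℂ) (hχ : Cfsg.IsIrrCharacter G χ) (hχN : Cfsg.IsIrrCharacter N (fun n : N => χ n)) (ψ : G → ℂ) (hψ : Cfsg.IsIrrCharacter G ψ) (η : G → ℂ) (hη : η = fun g => (Nat.card N : ℂ)⁻¹ * ∑ n : N, ψ ((n : G) * g) * conj (χ ((n : G) * g))) : (Cfsg.classInner (fun n : N => ψ n) (fun n : N => χ n) ≠ 0 → Cfsg.IsIrrCharacter G η) ∧ (Cfsg.classInner (fun n : N => ψ n) (fun n : N => χ n) = 0 → η = 0) ∧ (ψ = χ → η = fun _ => 1) := by
  classical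
  let _ : Fintype (G ⧸ N) := Fintype.ofFinite _
  have hχc := Cfsg.Agent.Lib.Char.IsIrrCharacter.isCharacter hχ
  have hψc := Cfsg.Agent.Lib.Char.IsIrrCharacter.isCharacter hψ
  have hNc : (Nat.card N : ℂ) ≠ 0 := by exact_mod_cast Nat.card_pos.ne'
  have hχN' : Cfsg.IsIrrCharacter N (Cfsg.Agent.Lib.Char.resFun N χ) := hχN
  refine ⟨?_, ?_, ?_⟩
  · -- over `ϑ`: Gallagher
    intro hne
    obtain ⟨β, hβ, hψβ⟩ := Cfsg.Agent.Lib.Char.exists_gallagher N hχc hχN' hψ hne
    have hηβ : η = Cfsg.Agent.Lib.Char.inflate N β := by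
      rw [hη]
      funext g
      have h1 := Cfsg.Agent.Lib.Char.gallagher_norm N hχc hχN' g
      have h2 : ∀ n : N, ψ ((n : G) * g) * conj (χ ((n : G) * g)) =
          β (g : G ⧸ N) * (χ ((n : G) * g) * conj (χ ((n : G) * g))) := by
        intro n
        rw [hψβ]
        have h3 : (((n : G) * g : G) : G ⧸ N) = (g : G ⧸ N) := by
          rw [QuotientGroup.mk_mul, (QuotientGroup.eq_one_iff (n : G)).mpr n.2, one_mul]
        simp only [Cfsg.Agent.Lib.Char.inflate, h3]
        ring
      simp only [h2]
      rw [← Finset.mul_sum, h1]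
      simp only [Cfsg.Agent.Lib.Char.inflate]
      field_simp
    rw [hηβ]
    exact Cfsg.Agent.Lib.Char.isIrrCharacter_inflate N hβ
  · -- not over: orthogonality on the quotient
    intro hzero
    -- coset invariance
    have hcoset : ∀ (m : N) (x : G), η ((m : G) * x) = η x := by
      intro m x
      rw [hη]
      simp only
      congr 1
      refine Fintype.sum_equiv (Equiv.mulRight m) _ _ fun n => ?_
      simp only [Equiv.coe_mulRight, Subgroup.coe_mul]
      rw [mul_assoc]
    have hcl : Cfsg.IsClassFunction G η := by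
      intro g h
      rw [hη]
      simp only
      congr 1
      refine Fintype.sum_equiv (MulAut.conjNormal h⁻¹).toEquiv _ _ fun n => ?_
      have h1 : (n : G) * (h * g * h⁻¹) = h * (((MulAut.conjNormal h⁻¹).toEquiv n : N) * g) * h⁻¹ := by
        simp
        group
      rw [h1, Cfsg.Agent.Lib.Char.IsCharacter.isClassFunction hψc,
        Cfsg.Agent.Lib.Char.IsCharacter.isClassFunction hχc]
    let ηbar : G ⧸ N → ℂ := fun x => η x.out
    have hηbar : ∀ g : G, ηbar (g : G ⧸ N) = η g := by
      intro g
      have h1 : ((g : G ⧸ N).out)⁻¹ * g ∈ N := by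
        rw [← QuotientGroup.eq]
        simp
      have h2 := hcoset ⟨_, (inferInstance : N.Normal).conj_mem _ h1 (g : G ⧸ N).out⟩ (g : G ⧸ N).out
      simp only at h2
      change η (g : G ⧸ N).out = η g
      rw [← h2]
      congr 1
      group
    have hclbar : Cfsg.IsClassFunction (G ⧸ N) ηbar := by
      intro x y
      obtain ⟨x, rfl⟩ := QuotientGroup.mk_surjective x
      obtain ⟨y, rfl⟩ := QuotientGroup.mk_surjective y
      rw [← QuotientGroup.mk_inv, ← QuotientGroup.mk_mul, ← QuotientGroup.mk_mul, hηbar, hηbar]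
      exact hcl x y
    have hzero' : ηbar = 0 := by
      apply Cfsg.Agent.Lib.Char.classFunction_eq_zero_of_orthogonal ηbar hclbar
      intro β hβ
      -- `β̂ χ` is irreducible and different from `ψ`
      have hirr := Cfsg.Agent.Lib.Char.isIrrCharacter_gallagher N hχc hχN' hβ
      have hne : ψ ≠ fun g => Cfsg.Agent.Lib.Char.inflate N β g * χ g := by
        intro h
        have h1 : Cfsg.classInner (fun n : N => ψ n) (fun n : N => χ n) ≠ 0 := by
          rw [h]
          have h2 := Cfsg.Agent.Lib.Char.resFun_gallagher N (χ₀ := χ) β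
          have h3 : (fun n : N => (fun g => Cfsg.Agent.Lib.Char.inflate N β g * χ g) (n : G)) = fun n : N => β 1 * (fun n : N => χ n) n := h2
          rw [h3]
          have h4 : (fun n : N => β 1 * (fun n : N => χ n) n) = (β 1) • (fun n : N => χ n) := rfl
          rw [h4, Cfsg.Agent.Lib.Char.classInner_smul_left, Cfsg.Agent.Lib.Char.classInner_irr_self hχN, mul_one]
          exact Cfsg.Agent.Lib.Char.IsIrrCharacter.apply_one_ne_zero hβ
        exact h1 hzero
      have horth := Cfsg.Agent.Lib.Char.classInner_irr_of_ne hψ hirr hne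
      -- compute
      have hGc : (Nat.card G : ℂ) ≠ 0 := by exact_mod_cast Nat.card_pos.ne'
      have hsum : ∑ g : G, ψ g * conj (Cfsg.Agent.Lib.Char.inflate N β g * χ g) = 0 := by
        simp only [Cfsg.classInner] at horth
        exact (mul_eq_zero.mp horth).resolve_left (inv_ne_zero hGc)
      have hsum2 : ∑ g : G, η g * conj (Cfsg.Agent.Lib.Char.inflate N β g) = 0 := by
        rw [hη]
        simp only
        simp only [Finset.mul_sum, Finset.sum_mul]
        rw [Finset.sum_comm]
        have : ∀ n : N, ∑ g : G, (Nat.card N : ℂ)⁻¹ * (ψ ((n : G) * g) * conj (χ ((n : G) * g))) * conj (Cfsg.Agent.Lib.Char.inflate N β g) =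
            (Nat.card N : ℂ)⁻¹ * ∑ g : G, ψ g * conj (Cfsg.Agent.Lib.Char.inflate N β g * χ g) := by
          intro n
          rw [Finset.mul_sum]
          refine Fintype.sum_equiv (Equiv.mulLeft (n : G)) _ _ fun g => ?_
          simp only [Equiv.coe_mulLeft, Cfsg.Agent.Lib.Char.inflate, map_mul]
          have h3 : (((n : G) * g : G) : G ⧸ N) = (g : G ⧸ N) := by
            rw [QuotientGroup.mk_mul, (QuotientGroup.eq_one_iff (n : G)).mpr n.2, one_mul]
          rw [h3]
          ring
        simp only [this, hsum, mul_zero, Finset.sum_const_zero]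
      have hsum3 := Cfsg.Agent.Lib.Char.sum_comp_mk N (fun x : G ⧸ N => ηbar x * conj (β x))
      simp only [hηbar] at hsum3
      have hsum4 : ∑ x : G ⧸ N, ηbar x * conj (β x) = 0 := by
        have h5 : ∑ g : G, η g * conj (β (g : G ⧸ N)) = 0 := hsum2
        rw [h5] at hsum3
        exact (mul_eq_zero.mp hsum3.symm).resolve_left hNc
      simp only [Cfsg.classInner]
      rw [hsum4, mul_zero]
    funext g
    rw [← hηbar g, hzero']
    rfl
  · intro hψχ
    rw [hη, hψχ]
    funext g
    rw [Cfsg.Agent.Lib.Char.gallagher_norm N hχc hχN' g]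
    field_simp

end Cfsg.Agent.S0868
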