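import Cfsg.Statements.S0869
import Mathlib
-- import your own Cfsg.Agent.* helpers here

set_option autoImplicit false
open Cfsg

namespace Cfsg.Agent.S0869

/-- Let S be a nonempty finite type and R an additive subgroup of the integer-valued functions on S that is closed under pointwise multiplication. If the constant function 1 is not in R, then there exist a point x of S and a prime p such that p divides f x for every f in R. -/
theorem result {S : Type*} [Finite S] [Nonempty S] (R : AddSubgroup (S → ℤ)) (hmul : ∀ f ∈ R, ∀ g ∈ R, f * g ∈ R) (h1 : (1 : S → ℤ) ∉ R) : ∃ (x : S) (p : ℕ), p.Prime ∧ ∀ f ∈ R, (p : ℤ) ∣ f x := by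
  classical
  by_contra hcon
  push Not at hcon
  -- every point has a function with value one
  have hval : ∀ x : S, ∃ f ∈ R, f x = 1 := by
    intro x
    -- the ideal of values at x
    let I : AddSubgroup ℤ := R.map (Pi.evalAddMonoidHom (fun _ : S => ℤ) x)
    obtain ⟨d, hd⟩ : ∃ d : ℤ, I = AddSubgroup.zmultiples d := by
      obtain ⟨d, hd⟩ := Int.subgroup_cyclic I
      exact ⟨d, by rw [hd, AddSubgroup.zmultiples_eq_closure]⟩
    have hmem : ∀ f ∈ R, d ∣ f x := by
      intro f hf
      have : f x ∈ I := ⟨f, hf, rfl⟩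
      rw [hd, Int.mem_zmultiples_iff] at this
      exact this
    have hdmem : d ∈ I := by rw [hd]; exact AddSubgroup.mem_zmultiples d
    obtain ⟨f, hf, hfd⟩ := hdmem
    have hfd' : f x = d := hfd
    have hdone : d.natAbs = 1 := by
      by_contra hne
      obtain ⟨p, hp, hdvd⟩ := Nat.exists_prime_and_dvd hne
      obtain ⟨g, hg, hgn⟩ := hcon x p hp
      apply hgn
      have h1 : (p : ℤ) ∣ d := Int.natCast_dvd.mpr hdvd
      exact h1.trans (hmem g hg)
    rcases Int.natAbs_eq d with h | h
    · rw [hdone] at h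
      exact ⟨f, hf, by rw [hfd', h]; rfl⟩
    · rw [hdone] at h
      refine ⟨-f, R.neg_mem hf, ?_⟩
      simp only [Pi.neg_apply]
      rw [hfd', h]; rfl
  choose F hFR hF1 using hval
  let _ : Fintype S := Fintype.ofFinite S
  have hT : ∀ s : Finset S, (1 : S → ℤ) - ∏ x ∈ s, (1 - F x) ∈ R := by
    intro s
    induction s using Finset.induction_on with
    | empty => simp
    | insert a s ha ih =>
      rw [Finset.prod_insert ha]
      have key : (1 : S → ℤ) - (1 - F a) * ∏ x ∈ s, (1 - F x)
          = ((1 : S → ℤ) - ∏ x ∈ s, (1 - F x)) + (F a - F a * ((1 : S → ℤ) - ∏ x ∈ s, (1 - F x))) := by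
        ring
      rw [key]
      exact R.add_mem ih (R.sub_mem (hFR a) (hmul _ (hFR a) _ ih))
  apply h1
  have hzero : ∏ x ∈ Finset.univ, ((1 : S → ℤ) - F x) = 0 := by
    funext y
    rw [Finset.prod_apply]
    apply Finset.prod_eq_zero (Finset.mem_univ y)
    simp [hF1 y]
  have := hT Finset.univ
  rwa [hzero, sub_zero] at this

end Cfsg.Agent.S0869
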