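import Cfsg.Statements.S0878
import Cfsg.Agent.Lib.Char.Zassenhaus
-- import your own Cfsg.Agent.* helpers here

set_option autoImplicit false
open Cfsg

namespace Cfsg.Agent.S0878

/-- Let G be a Zassenhaus group on the finite set Ω, a a point, and let H be the subgroup of the stabilizer of a consisting of the identity and the elements fixing no point other than a (given here as a subgroup of the stabilizer of order one less than the number of points whose non-identity elements fix only a; it is the Frobenius kernel of the stabilizer). Then an element outside the stabilizer of a conjugates no non-identity element of H into H, and the normalizer of H is exactly the stabilizer of a. -/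
theorem result {G Ω : Type*} [Group G] [Finite G] [MulAction G Ω] [Fintype Ω] (hZ : Cfsg.IsZassenhausGroup G Ω) (a : Ω) (H : Subgroup G) (hHa : H ≤ MulAction.stabilizer G a) (hHcard : Nat.card H + 1 = Fintype.card Ω) (hHfix : ∀ u ∈ H, u ≠ 1 → ∀ c : Ω, u • c = c → c = a) : (∀ g : G, g ∉ MulAction.stabilizer G a → ∀ u ∈ H, g * u * g⁻¹ ∈ H → u = 1) ∧ Subgroup.normalizer (H : Set G) = MulAction.stabilizer G a := by
  classical
  have hH : ∀ u ∈ H, u • a = a := fun u hu => hHa hu
  have h1 : ∀ g : G, g ∉ MulAction.stabilizer G a → ∀ u ∈ H, g * u * g⁻¹ ∈ H → u = 1 := by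
    intro g hg u hu hconj
    by_contra hu1
    have hne : g * u * g⁻¹ ≠ 1 := by
      intro h
      apply hu1
      have : u = g⁻¹ * (g * u * g⁻¹) * g := by group
      rw [this, h]; group
    have hfix : (g * u * g⁻¹) • (g • a) = g • a := by
      rw [mul_smul, mul_smul, inv_smul_smul, hH u hu]
    exact hg (hHfix _ hconj hne _ hfix)
  refine ⟨h1, ?_⟩
  apply le_antisymm
  · intro g hg
    by_contra hga
    -- H is trivial
    have hbot : ∀ u ∈ H, u = 1 := by
      intro u hu
      apply h1 g hga u hu
      exact (Subgroup.mem_normalizer_iff.mp hg u).mp hu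
    have hcard : Nat.card H = 1 := by
      have : H = ⊥ := (Subgroup.eq_bot_iff_forall H).mpr hbot
      rw [this]; simp
    have hn : Fintype.card Ω = 2 := by omega
    -- two points only
    have : ∃ b : Ω, b ≠ a := by
      have h2 : 1 < Fintype.card Ω := by omega
      haveI := Fintype.one_lt_card_iff_nontrivial.mp h2
      exact exists_ne a
    obtain ⟨b, hb⟩ := this
    obtain ⟨c, hca, hcb⟩ := Cfsg.Agent.Lib.Char.Zass.exists_third hZ hb.symm
    have h3 : 3 ≤ Fintype.card Ω := by
      have : ({a, b, c} : Finset Ω).card = 3 := by
        rw [Finset.card_eq_three]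
        exact ⟨a, b, c, hb.symm, hca.symm, hcb.symm, rfl⟩
      rw [← this]
      exact Finset.card_le_univ _
    omega
  · intro g hg
    rw [Subgroup.mem_normalizer_iff]
    intro u
    have hg' : g • a = a := hg
    have hginv : g⁻¹ • a = a := inv_smul_eq_iff.mpr hg'.symm
    constructor
    · intro hu
      exact Cfsg.Agent.Lib.Char.Zass.conj_mem_kernel hZ hHcard hHa hHfix hg' hu
    · intro hu
      have := Cfsg.Agent.Lib.Char.Zass.conj_mem_kernel hZ hHcard hHa hHfix hginv hu
      have e : g⁻¹ * (g * u * g⁻¹) * g⁻¹⁻¹ = u := by group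
      rwa [e] at this

end Cfsg.Agent.S0878
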