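import Cfsg.Statements.S0879
import Cfsg.Agent.Lib.Char.Zassenhaus
-- import your own Cfsg.Agent.* helpers here

set_option autoImplicit false
open Cfsg

namespace Cfsg.Agent.S0879

/-- Let G be a Zassenhaus group on the finite set Ω and E the stabilizer of two distinct points a, b. Then an element outside the normalizer of E conjugates no non-identity element of E into E, and E has index 2 in its normalizer. -/
theorem result {G Ω : Type*} [Group G] [Finite G] [MulAction G Ω] [Fintype Ω] (hZ : Cfsg.IsZassenhausGroup G Ω) {a b : Ω} (hab : a ≠ b) : (∀ g : G, g ∉ Subgroup.normalizer ((MulAction.stabilizer G a ⊓ MulAction.stabilizer G b : Subgroup G) : Set G) → ∀ x ∈ (MulAction.stabilizer G a ⊓ MulAction.stabilizer G b : Subgroup G), g * x * g⁻¹ ∈ (MulAction.stabilizer G a ⊓ MulAction.stabilizer G b : Subgroup G) → x = 1) ∧ ((MulAction.stabilizer G a ⊓ MulAction.stabilizer G b : Subgroup G).subgroupOf (Subgroup.normalizer ((MulAction.stabilizer G a ⊓ MulAction.stabilizer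 G b : Subgroup G) : Set G))).index = 2 := by
  classical
  set E : Subgroup G := MulAction.stabilizer G a ⊓ MulAction.stabilizer G b with hE
  have hmemE : ∀ x : G, x ∈ E ↔ x • a = a ∧ x • b = b := by
    intro x
    rfl
  -- key: if x ≠ 1 in E and g x g⁻¹ ∈ E then g permutes {a,b}
  have key : ∀ g : G, ∀ x ∈ E, x ≠ 1 → g * x * g⁻¹ ∈ E →
      (g • a = a ∧ g • b = b) ∨ (g • a = b ∧ g • b = a) := by
    intro g x hx hx1 hconj
    obtain ⟨hxa, hxb⟩ := (hmemE x).mp hx
    obtain ⟨hca, hcb⟩ := (hmemE _).mp hconj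
    have hne : g * x * g⁻¹ ≠ 1 := by
      intro h
      apply hx1
      have : x = g⁻¹ * (g * x * g⁻¹) * g := by group
      rw [this, h]; group
    have hfa : (g * x * g⁻¹) • (g • a) = g • a := by
      rw [mul_smul, mul_smul, inv_smul_smul, hxa]
    have hfb : (g * x * g⁻¹) • (g • b) = g • b := by
      rw [mul_smul, mul_smul, inv_smul_smul, hxb]
    have hgab : g • a ≠ g • b := fun h => hab (smul_left_cancel _ h)
    have cases_of : ∀ c : Ω, (g * x * g⁻¹) • c = c → c = a ∨ c = b := by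
      intro c hc
      by_contra hcon
      push Not at hcon
      exact hne (Cfsg.Agent.Lib.Char.Zass.eq_one_of_three hZ hab hcon.2.symm hcon.1.symm hca hcb hc)
    rcases cases_of _ hfa with h1 | h1 <;> rcases cases_of _ hfb with h2 | h2
    · exact absurd (h1.trans h2.symm) hgab
    · exact Or.inl ⟨h1, h2⟩
    · exact Or.inr ⟨h1, h2⟩
    · exact absurd (h1.trans h2.symm) hgab
  have hperm_norm : ∀ g : G, ((g • a = a ∧ g • b = b) ∨ (g • a = b ∧ g • b = a)) →
      g ∈ Subgroup.normalizer (E : Set G) := by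
    intro g hg
    rw [Subgroup.mem_normalizer_iff]
    intro x
    rw [hmemE, hmemE]
    constructor
    · rintro ⟨hxa, hxb⟩
      rcases hg with ⟨h1, h2⟩ | ⟨h1, h2⟩
      · have h3 : g⁻¹ • a = a := inv_smul_eq_iff.mpr h1.symm
        have h4 : g⁻¹ • b = b := inv_smul_eq_iff.mpr h2.symm
        constructor
        · rw [mul_smul, mul_smul, h3, hxa, h1]
        · rw [mul_smul, mul_smul, h4, hxb, h2]
      · have h3 : g⁻¹ • b = a := inv_smul_eq_iff.mpr h1.symm
        have h4 : g⁻¹ • a = b := inv_smul_eq_iff.mpr h2.symm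
        constructor
        · rw [mul_smul, mul_smul, h4, hxb, h2]
        · rw [mul_smul, mul_smul, h3, hxa, h1]
    · rintro ⟨hxa, hxb⟩
      rcases hg with ⟨h1, h2⟩ | ⟨h1, h2⟩
      · have h3 : (g * x * g⁻¹) • (g • a) = g • a := by rw [h1]; exact hxa
        have h4 : (g * x * g⁻¹) • (g • b) = g • b := by rw [h2]; exact hxb
        rw [mul_smul, mul_smul, inv_smul_smul] at h3 h4
        exact ⟨smul_left_cancel _ h3, smul_left_cancel _ h4⟩
      · have h3 : (g * x * g⁻¹) • (g • a) = g • a := by rw [h1]; exact hxb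
        have h4 : (g * x * g⁻¹) • (g • b) = g • b := by rw [h2]; exact hxa
        rw [mul_smul, mul_smul, inv_smul_smul] at h3 h4
        exact ⟨smul_left_cancel _ h3, smul_left_cancel _ h4⟩
  constructor
  · intro g hg x hx hconj
    by_contra hx1
    exact hg (hperm_norm g (key g x hx hx1 hconj))
  · -- index two
    obtain ⟨x₀, hx₀, hx₀a, hx₀b⟩ := Cfsg.Agent.Lib.Char.Zass.exists_ne_one_fix hZ hab
    have hx₀E : x₀ ∈ E := (hmemE x₀).mpr ⟨hx₀a, hx₀b⟩
    obtain ⟨w, hwa, hwb⟩ := Cfsg.Agent.Lib.Char.Zass.two_trans hZ hab hab.symm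
    have hwN : w ∈ Subgroup.normalizer (E : Set G) := hperm_norm w (Or.inr ⟨hwa, hwb⟩)
    rw [Subgroup.index_eq_two_iff]
    refine ⟨⟨w, hwN⟩, ?_⟩
    rintro ⟨g, hg⟩
    rw [Subgroup.mem_subgroupOf, Subgroup.mem_subgroupOf]
    show Xor (g * w ∈ E) (g ∈ E)
    rw [hmemE, hmemE]
    -- g permutes {a,b}
    have hgperm : (g • a = a ∧ g • b = b) ∨ (g • a = b ∧ g • b = a) := by
      have := (Subgroup.mem_normalizer_iff.mp hg x₀).mp hx₀E
      exact key g x₀ hx₀E hx₀ this
    rcases hgperm with ⟨h1, h2⟩ | ⟨h1, h2⟩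
    · right
      refine ⟨⟨h1, h2⟩, ?_⟩
      rintro ⟨h3, -⟩
      rw [mul_smul, hwa, h2] at h3
      exact hab h3.symm
    · left
      refine ⟨⟨?_, ?_⟩, ?_⟩
      · rw [mul_smul, hwa, h2]
      · rw [mul_smul, hwb, h1]
      · rintro ⟨h3, -⟩
        rw [h1] at h3
        exact hab h3.symm

end Cfsg.Agent.S0879
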