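import Cfsg.Statements.S0882
import Cfsg.Agent.Lib.Char.ZassProd
-- import your own Cfsg.Agent.* helpers here

set_option autoImplicit false
open Cfsg

namespace Cfsg.Agent.S0882

/-- Let G be a finite simple Zassenhaus group on Ω with n = h + 1 points whose two-point stabilizer E has odd order e with 2e < h - 1. Then any two involutions of G are conjugate, and the number of involutions is e * (h + 1) if h is even and e * h if h is odd. -/
theorem result {G Ω : Type*} [Group G] [Finite G] [MulAction G Ω] [Fintype Ω] (hZ : Cfsg.IsZassenhausGroup G Ω) {a b : Ω} (hab : a ≠ b) [IsSimpleGroup G] (h e : ℕ) (hh : Fintype.card Ω = h + 1) (he : Nat.card ↥(MulAction.stabilizer G a ⊓ MulAction.stabilizer G b : Subgroup G) = e) (hodd : Odd e) (hlt : 2 * e < h - 1) : (∀ x y : G, orderOf x = 2 → orderOf y = 2 → IsConj x y) ∧ Nat.card {x : G // orderOf x = 2} = (if Even h then e * (h + 1) else e * h) := by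
  classical
  letI : Fintype G := Fintype.ofFinite G
  subst he
  obtain ⟨t, hta, htb, ht3⟩ := Cfsg.Agent.Lib.Char.Zass.exists_swap_inv hZ hab hodd
  obtain ⟨H, hHcard, hHa, hHfix⟩ := Cfsg.Agent.Lib.Char.Zass.exists_kernel hZ hab
  let D : Cfsg.Agent.Lib.Char.Zass.KData G Ω :=
    ⟨hZ, a, b, hab, hodd, t, ht3, hta, htb, H, hHcard, hHa, hHfix⟩
  refine ⟨fun x y hx hy => ?_, Cfsg.Agent.Lib.Char.Zass.card_inv hZ hab hodd ht3 hta htb D.hfree hh rfl⟩
  have hxx : x * x = 1 := by
    rw [← pow_two, ← hx]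
    exact pow_orderOf_eq_one x
  have hyy : y * y = 1 := by
    rw [← pow_two, ← hy]
    exact pow_orderOf_eq_one y
  have hx1 : x ≠ 1 := by
    rintro rfl
    simp at hx
  have hy1 : y ≠ 1 := by
    rintro rfl
    simp at hy
  exact (Cfsg.Agent.Lib.Char.Zass.inv_isConj hZ hab hodd ht3 hta htb hxx hx1).trans
    (Cfsg.Agent.Lib.Char.Zass.inv_isConj hZ hab hodd ht3 hta htb hyy hy1).symm

end Cfsg.Agent.S0882
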