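import Cfsg.Statements.S0892
import Cfsg.Agent.Lib.AltMult.Main

set_option autoImplicit false
open Cfsg

namespace Cfsg.Agent.S0892

/-- Let n ≥ 4 with n ≠ 6 and n ≠ 7, and let Γ be a finite group with a subgroup Z contained in both the centre and the commutator subgroup of Γ such that Γ / Z is isomorphic to the alternating group on n letters. Then Z has order at most 2. -/
theorem result (n : ℕ) (hn : 4 ≤ n) (h6 : n ≠ 6) (h7 : n ≠ 7) {Γ : Type*} [Group Γ] [Finite Γ] (Z : Subgroup Γ) [Z.Normal] (hZc : Z ≤ Subgroup.center Γ) (hZd : Z ≤ commutator Γ) (e : Γ ⧸ Z ≃* alternatingGroup (Fin n)) : Nat.card Z ≤ 2 := by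
  classical
  rcases (by omega : n = 4 ∨ n = 5 ∨ 8 ≤ n) with rfl | rfl | h8
  · have hcard : Nat.card (Γ ⧸ Z) = 12 := by
      rw [Nat.card_congr e.toEquiv, nat_card_alternatingGroup]
      simp [Nat.factorial]
    refine Cfsg.Agent.Lib.AltMult.card_le_two_of_small Z hZc hZd ?_ (by rw [hcard]; norm_num)
    intro p hp hp2 hdvd
    rw [hcard] at hdvd
    have h1 : p ^ 2 ≤ 12 := Nat.le_of_dvd (by norm_num) hdvd
    have h2 : p ≤ 3 := by nlinarith
    have h3 := hp.two_le
    interval_cases p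
    · exact hp2 rfl
    · norm_num at hdvd
  · have hcard : Nat.card (Γ ⧸ Z) = 60 := by
      rw [Nat.card_congr e.toEquiv, nat_card_alternatingGroup]
      simp [Nat.factorial]
    refine Cfsg.Agent.Lib.AltMult.card_le_two_of_small Z hZc hZd ?_ (by rw [hcard]; norm_num)
    intro p hp hp2 hdvd
    rw [hcard] at hdvd
    have h1 : p ^ 2 ≤ 60 := Nat.le_of_dvd (by norm_num) hdvd
    have h2 : p ≤ 7 := by nlinarith
    have h3 := hp.two_le
    interval_cases p <;> first | exact hp2 rfl | (norm_num at hdvd) | (norm_num at hp)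
  · let f : Γ →* Equiv.Perm (Fin n) :=
      (alternatingGroup (Fin n)).subtype.comp (e.toMonoidHom.comp (QuotientGroup.mk' Z))
    have hfk : ∀ u, f u = 1 ↔ u ∈ Z := by
      intro u
      have h1 : f u = ((e (u : Γ ⧸ Z) : alternatingGroup (Fin n)) : Equiv.Perm (Fin n)) := rfl
      rw [h1, ← QuotientGroup.eq_one_iff u]
      constructor
      · intro h2
        have h3 : e (u : Γ ⧸ Z) = 1 := Subtype.ext h2
        exact e.map_eq_one_iff.mp h3
      · intro h2
        rw [h2, map_one]; rfl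
    have hker : f.ker = Z := by
      ext u
      exact hfk u
    have hsurj : ∀ ρ ∈ alternatingGroup (Fin n), ∃ σ, f σ = ρ := by
      intro ρ hρ
      obtain ⟨σ, hσ⟩ := QuotientGroup.mk'_surjective Z (e.symm ⟨ρ, hρ⟩)
      refine ⟨σ, ?_⟩
      have h1 : f σ = ((e ((QuotientGroup.mk' Z) σ) : alternatingGroup (Fin n)) : Equiv.Perm (Fin n)) := rfl
      rw [h1, hσ]
      simp
    have hcen : ∀ u, f u = 1 → ∀ g, g * u = u * g := by
      intro u hu g
      exact Subgroup.mem_center_iff.mp (hZc ((hfk u).mp hu)) g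
    have hrange : ∀ σ, f σ ∈ alternatingGroup (Fin n) := fun σ => (e ((QuotientGroup.mk' Z) σ)).2
    have h4 : ∀ i : ℕ, i ≤ 3 → i < n := fun i hi => by omega
    have := Cfsg.Agent.Lib.AltMult.card_ker_le_two f hsurj hcen hrange (by simpa using h8)
      (e0 := ⟨0, by omega⟩) (e1 := ⟨1, by omega⟩) (e2 := ⟨2, by omega⟩) (e3 := ⟨3, by omega⟩)
      (by simp [Fin.ext_iff]) (by simp [Fin.ext_iff]) (by simp [Fin.ext_iff])
      (by simp [Fin.ext_iff]) (by simp [Fin.ext_iff]) (by simp [Fin.ext_iff])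
      (by rw [hker]; exact hZd)
    rwa [hker] at this

end Cfsg.Agent.S0892
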