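import Cfsg.Statements.S0899
import Cfsg.Agent.Lib.Char.FTSylow
-- import your own Cfsg.Agent.* helpers here

set_option autoImplicit false
open Cfsg

namespace Cfsg.Agent.S0899

/-- Let G be a finite group with a faithful complex representation of degree n (on Fin n → ℂ) and p a prime. Suppose either that (n + 1) ^ 2 ≤ p, or that n + 1 < p and every subgroup of G whose order is not divisible by p ^ 2 has a normal Sylow p-subgroup. Then every Sylow p-subgroup of G is normal. -/
theorem result {G : Type*} [Group G] [Finite G] (n : ℕ) (ρ : Representation ℂ G (Fin n → ℂ)) (hρ : Function.Injective ρ) (p : ℕ) [Fact p.Prime] (h : (n + 1) ^ 2 ≤ p ∨ (n + 1 < p ∧ ∀ K : Subgroup G, ¬ p ^ 2 ∣ Nat.card K → ∀ Q : Sylow p K, (Q : Subgroup K).Normal)) (P : Sylow p G) : (P : Subgroup G).Normal := by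
  have hn : n + 1 < p := by
    rcases h with h | h
    · have hp : 2 ≤ p := Nat.Prime.two_le Fact.out
      rcases Nat.eq_zero_or_pos n with rfl | hn
      · omega
      · nlinarith
    · exact h.1
  have h1 : ρ.character 1 = (n : ℂ) := by
    rw [Representation.char_one]
    simp
  have hfaith : ∀ g, ρ.character g = ρ.character 1 → g = 1 := by
    intro g hg
    rw [Representation.char_one] at hg
    have h2 := (Cfsg.Agent.Lib.Char.character_eq_finrank_iff ρ g).mp hg
    apply hρ
    rw [h2, map_one]
    rfl
  refine Cfsg.Agent.Lib.Char.FT.sylow_normal_main hn _ G ρ.character rfl ⟨n, ρ, rfl⟩ hfaith h1 ?_ P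
  rcases h with h | h
  · exact Or.inl h
  · exact Or.inr h.2

end Cfsg.Agent.S0899
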