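import Cfsg.Statements.S0900
import Cfsg.Agent.Lib.Char.CliffordCorr
import Cfsg.Agent.Lib.Char.Gallagher
-- import your own Cfsg.Agent.* helpers here

set_option autoImplicit false
open Cfsg

namespace Cfsg.Agent.S0900

/-- Let N be a normal subgroup of the finite group G, χ an irreducible character of G and ϑ an irreducible character of N having nonzero inner product with the restriction of χ. Consider: (a) the restriction of χ to N is e • ϑ for a natural number e with e ^ 2 equal to the index of N; (b) χ vanishes outside N and ϑ is invariant under conjugation by G; (c) ϑ is invariant and every irreducible character of G having nonzero inner product with the function induced from ϑ equals χ. Then (a) ↔ (b) and (a) ↔ (c). -/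
theorem result {G : Type*} [Group G] [Fintype G] (N : Subgroup G) [hN : N.Normal] [Fintype N] (χ : G → ℂ) (hχ : Cfsg.IsIrrCharacter G χ) (ϑ : N → ℂ) (hϑ : Cfsg.IsIrrCharacter N ϑ) (hcon : Cfsg.classInner (fun n : N => χ n) ϑ ≠ 0) : ((∃ e : ℕ, (fun n : N => χ n) = (e : ℂ) • ϑ ∧ e ^ 2 = N.index) ↔ ((∀ g : G, g ∉ N → χ g = 0) ∧ ∀ (g : G) (n : N), ϑ ⟨g * n * g⁻¹, hN.conj_mem (n : G) n.2 g⟩ = ϑ n)) ∧ ((∃ e : ℕ, (fun n : N => χ n) = (e : ℂ) • ϑ ∧ e ^ 2 = N.index) ↔ (∀ (g : G) (n : N), ϑ ⟨g * n * g⁻¹, hN.conj_mem (n : G) n.2 g⟩ = ϑ n ∧ ∀ ψ : G → ℂ, Cfsg.IsIrrCharacter G ψ → Cfsg.classInner (Cfsg.indFun N ϑ) ψ ≠ 0 → ψ = χ)) := by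
  classical
  have hχc := Cfsg.Agent.Lib.Char.IsIrrCharacter.isCharacter hχ
  have hχcl := Cfsg.Agent.Lib.Char.IsCharacter.isClassFunction hχc
  have hϑc := Cfsg.Agent.Lib.Char.IsIrrCharacter.isCharacter hϑ
  have hidx : (N.index : ℂ) ≠ 0 := by exact_mod_cast Subgroup.index_ne_zero_of_finite
  have hNc : (Nat.card N : ℂ) ≠ 0 := by exact_mod_cast Nat.card_pos.ne'
  have hGc : (Nat.card G : ℂ) ≠ 0 := by exact_mod_cast Nat.card_pos.ne'
  have hcard : (Nat.card G : ℂ) = (N.index : ℂ) * (Nat.card N : ℂ) := by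
    rw [← Nat.cast_mul, Subgroup.index_mul_card]
  -- invariance, in the form of conjFun
  have hinvconj : (∀ (g : G) (n : N), ϑ ⟨g * n * g⁻¹, hN.conj_mem (n : G) n.2 g⟩ = ϑ n) →
      ∀ g, Cfsg.Agent.Lib.Char.conjFun N g ϑ = ϑ := by
    intro h g
    funext n
    simp only [Cfsg.Agent.Lib.Char.conjFun_apply]
    have := h g⁻¹ n
    rw [← this]
    congr 2
    simp
  -- the multiplicity is a natural number
  obtain ⟨f, hf⟩ := Cfsg.Agent.Lib.Char.IsCharacter.classInner_irr_eq_nat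
    (Cfsg.Agent.Lib.Char.isCharacter_resFun N hχc) hϑ
  have hf' : Cfsg.classInner (fun n : N => χ n) ϑ = f := hf
  have hf0 : (f : ℂ) ≠ 0 := by rw [← hf']; exact hcon
  -- ⟨χ,χ⟩ in terms of values
  have hχχ := Cfsg.Agent.Lib.Char.classInner_irr_self hχ
  -- (A → B)
  have hAB : (∃ e : ℕ, (fun n : N => χ n) = (e : ℂ) • ϑ ∧ e ^ 2 = N.index) →
      ((∀ g : G, g ∉ N → χ g = 0) ∧ ∀ (g : G) (n : N), ϑ ⟨g * n * g⁻¹, hN.conj_mem (n : G) n.2 g⟩ = ϑ n) := by
    rintro ⟨e, he, he2⟩
    have he0 : (e : ℂ) ≠ 0 := by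
      intro h
      have h1 : e = 0 := by exact_mod_cast h
      rw [h1] at he2
      apply hidx
      rw [← he2]
      simp
    constructor
    · -- sum of squares off N vanishes
      have hsumN : ∑ n : N, χ n * (starRingEnd ℂ) (χ n) = (e : ℂ) ^ 2 * (Nat.card N : ℂ) := by
        have h1 : Cfsg.classInner ϑ ϑ = 1 := Cfsg.Agent.Lib.Char.classInner_irr_self hϑ
        simp only [Cfsg.classInner] at h1
        have h2 : ∑ n : N, ϑ n * (starRingEnd ℂ) (ϑ n) = (Nat.card N : ℂ) := by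
          field_simp at h1
          exact h1
        have h3 : ∀ n : N, χ n * (starRingEnd ℂ) (χ n) = (e : ℂ) ^ 2 * (ϑ n * (starRingEnd ℂ) (ϑ n)) := by
          intro n
          have := congrFun he n
          simp only [Pi.smul_apply, smul_eq_mul] at this
          rw [this, map_mul, Complex.conj_natCast]
          ring
        simp only [h3]
        rw [← Finset.mul_sum, h2]
      have htotal : ∑ g : G, χ g * (starRingEnd ℂ) (χ g) = (Nat.card G : ℂ) := by
        simp only [Cfsg.classInner] at hχχ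
        field_simp at hχχ
        exact hχχ
      have hsplit : ∑ g : G, χ g * (starRingEnd ℂ) (χ g) = ∑ n : N, χ n * (starRingEnd ℂ) (χ n) +
          ∑ g ∈ Finset.univ.filter (fun g : G => g ∉ N), χ g * (starRingEnd ℂ) (χ g) := by
        rw [← Finset.sum_filter_add_sum_filter_not Finset.univ (fun g : G => g ∈ N)]
        congr 1
        exact Finset.sum_subtype _ (by simp) _
      have hoff : ∑ g ∈ Finset.univ.filter (fun g : G => g ∉ N), χ g * (starRingEnd ℂ) (χ g) = 0 := by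
        rw [hsplit, hsumN, hcard] at htotal
        have h4 : ((e : ℂ)) ^ 2 = (N.index : ℂ) := by exact_mod_cast he2
        rw [h4] at htotal
        linear_combination htotal
      -- take real parts
      have hre : ∑ g ∈ Finset.univ.filter (fun g : G => g ∉ N), ‖χ g‖ ^ 2 = 0 := by
        have h5 : ∀ g : G, χ g * (starRingEnd ℂ) (χ g) = ((‖χ g‖ ^ 2 : ℝ) : ℂ) := by
          intro g
          rw [Complex.mul_conj, Complex.normSq_eq_norm_sq]
        simp only [h5] at hoff
        exact_mod_cast hoff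
      intro g hg
      have := (Finset.sum_eq_zero_iff_of_nonneg (fun g _ => by positivity)).mp hre g (by simpa using hg)
      have h6 : ‖χ g‖ = 0 := by simpa using this
      exact norm_eq_zero.mp h6
    · intro g n
      have h1 := hχcl n g
      have h2 := congrFun he n
      have h3 := congrFun he ⟨g * n * g⁻¹, hN.conj_mem (n : G) n.2 g⟩
      simp only [Pi.smul_apply, smul_eq_mul] at h2 h3
      apply mul_left_cancel₀ he0
      rw [← h3, ← h2]
      exact h1
  -- (B → A)
  have hBA : ((∀ g : G, g ∉ N → χ g = 0) ∧ ∀ (g : G) (n : N), ϑ ⟨g * n * g⁻¹, hN.conj_mem (n : G) n.2 g⟩ = ϑ n) →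
      (∃ e : ℕ, (fun n : N => χ n) = (e : ℂ) • ϑ ∧ e ^ 2 = N.index) := by
    rintro ⟨hoff, hinv⟩
    have hres := Cfsg.Agent.Lib.Char.res_eq_smul_of_invariant N hχ hϑ (hinvconj hinv) hcon
    have hres' : (fun n : N => χ n) = (f : ℂ) • ϑ := by
      have : Cfsg.Agent.Lib.Char.resFun N χ = (fun n : N => χ n) := rfl
      rw [← hf', ← this]
      exact hres
    refine ⟨f, hres', ?_⟩
    have h1 := Cfsg.Agent.Lib.Char.classInner_eq_of_vanish_off N χ χ hoff
    rw [hχχ] at h1
    have h2 : Cfsg.classInner (Cfsg.Agent.Lib.Char.resFun N χ) (Cfsg.Agent.Lib.Char.resFun N χ) = (f : ℂ) ^ 2 := by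
      have : Cfsg.Agent.Lib.Char.resFun N χ = (f : ℂ) • ϑ := hres'
      rw [this, Cfsg.Agent.Lib.Char.classInner_smul_left, Cfsg.Agent.Lib.Char.classInner_smul_right,
        Cfsg.Agent.Lib.Char.classInner_irr_self hϑ, Complex.conj_natCast]
      ring
    rw [h2] at h1
    have h3 : (N.index : ℂ) = (f : ℂ) ^ 2 := by
      field_simp at h1
      exact h1
    exact_mod_cast h3.symm
  -- (A → C)
  have hAC : (∃ e : ℕ, (fun n : N => χ n) = (e : ℂ) • ϑ ∧ e ^ 2 = N.index) →
      (∀ (g : G) (n : N), ϑ ⟨g * n * g⁻¹, hN.conj_mem (n : G) n.2 g⟩ = ϑ n ∧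
        ∀ ψ : G → ℂ, Cfsg.IsIrrCharacter G ψ → Cfsg.classInner (Cfsg.indFun N ϑ) ψ ≠ 0 → ψ = χ) := by
    intro hA g n
    have hB := hAB hA
    refine ⟨hB.2 g n, ?_⟩
    intro ψ hψ hne
    obtain ⟨e, he, he2⟩ := hA
    have hind : Cfsg.indFun N ϑ = (e : ℂ) • χ := by
      funext x
      by_cases hx : x ∈ N
      · have h1 := Cfsg.Agent.Lib.Char.indFun_coe_normal N ϑ ⟨x, hx⟩
        simp only [hinvconj hB.2, Finset.sum_const, Finset.card_univ, nsmul_eq_mul] at h1
        rw [h1, Pi.smul_apply, smul_eq_mul, ← Nat.card_eq_fintype_card, hcard]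
        have h2 := congrFun he ⟨x, hx⟩
        simp only [Pi.smul_apply, smul_eq_mul] at h2
        rw [h2]
        have h4 : ((e : ℂ)) ^ 2 = (N.index : ℂ) := by exact_mod_cast he2
        rw [← h4]
        field_simp
      · rw [Pi.smul_apply, hB.1 x hx, smul_zero, Cfsg.Agent.Lib.Char.indFun_apply]
        have : ∀ y : G, Cfsg.extendByZero N ϑ (y⁻¹ * x * y) = 0 := by
          intro y
          apply Cfsg.Agent.Lib.Char.extendByZero_of_notMem
          intro h
          apply hx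
          have := hN.conj_mem _ h y
          simpa [mul_assoc] using this
        simp [this]
    rw [hind, Cfsg.Agent.Lib.Char.classInner_smul_left] at hne
    by_contra hψχ
    exact right_ne_zero_of_mul hne (Cfsg.Agent.Lib.Char.classInner_irr_of_ne hχ hψ (Ne.symm hψχ))
  -- (C → A)
  have hCA : (∀ (g : G) (n : N), ϑ ⟨g * n * g⁻¹, hN.conj_mem (n : G) n.2 g⟩ = ϑ n ∧
        ∀ ψ : G → ℂ, Cfsg.IsIrrCharacter G ψ → Cfsg.classInner (Cfsg.indFun N ϑ) ψ ≠ 0 → ψ = χ) →
      (∃ e : ℕ, (fun n : N => χ n) = (e : ℂ) • ϑ ∧ e ^ 2 = N.index) := by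
    intro hC
    have hinv : ∀ (g : G) (n : N), ϑ ⟨g * n * g⁻¹, hN.conj_mem (n : G) n.2 g⟩ = ϑ n := fun g n => (hC g n).1
    have honly := (hC 1 1).2
    have hres := Cfsg.Agent.Lib.Char.res_eq_smul_of_invariant N hχ hϑ (hinvconj hinv) hcon
    have hres' : (fun n : N => χ n) = (f : ℂ) • ϑ := by
      have : Cfsg.Agent.Lib.Char.resFun N χ = (fun n : N => χ n) := rfl
      rw [← hf', ← this]
      exact hres
    refine ⟨f, hres', ?_⟩
    -- ϑ^G = f χ
    have hind := Cfsg.Agent.Lib.Char.classFunction_eq_sum (Cfsg.indFun N ϑ) (Cfsg.Agent.Lib.Char.isClassFunction_indFun N ϑ)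
    have hcoef : Cfsg.classInner (Cfsg.indFun N ϑ) χ = (f : ℂ) := by
      rw [Cfsg.Agent.Lib.Char.classInner_indFun_left N ϑ χ hχcl, Cfsg.Agent.Lib.Char.classInner_conj_symm]
      have : Cfsg.classInner (fun n : N => χ n) ϑ = f := hf'
      rw [this, Complex.conj_natCast]
    have hind2 : Cfsg.indFun N ϑ = (f : ℂ) • χ := by
      rw [hind, Finset.sum_eq_single (⟨χ, hχ⟩ : Cfsg.IrrCharacter G)]
      · rw [hcoef]
      · intro ψ _ hψ
        have : Cfsg.classInner (Cfsg.indFun N ϑ) (ψ : G → ℂ) = 0 := by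
          by_contra h
          exact hψ (Subtype.ext (honly ψ ψ.2 h))
        rw [this, zero_smul]
      · intro h
        exact absurd (Finset.mem_univ _) h
    have h1 := congrFun hind2 1
    rw [Cfsg.Agent.Lib.Char.indFun_one, Pi.smul_apply, smul_eq_mul] at h1
    have h2 := congrFun hres' 1
    simp only [Pi.smul_apply, smul_eq_mul] at h2
    have h2' : χ 1 = (f : ℂ) * ϑ 1 := h2
    rw [h2'] at h1
    have hϑ1 := Cfsg.Agent.Lib.Char.IsIrrCharacter.apply_one_ne_zero hϑ
    have h3 : (N.index : ℂ) = (f : ℂ) ^ 2 := by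
      apply mul_right_cancel₀ hϑ1
      rw [h1]
      ring
    exact_mod_cast h3.symm
  exact ⟨⟨hAB, hBA⟩, ⟨hAC, hCA⟩⟩

end Cfsg.Agent.S0900
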