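import Cfsg.Statements.S0901
import Cfsg.Agent.Lib.Blocks.Local

set_option autoImplicit false
open Cfsg

namespace Cfsg.Agent.S0901

theorem geom_aux {R : Type*} [CommRing R] [IsDomain R] (M : Ideal R) [hMm : M.IsMaximal] {ε₁ ε₂ : R} {N : ℕ}
    (h1 : ε₁ ^ N = 1) (h2 : ε₂ ^ N = 1) (hN : 0 < N) (hN' : (N : R) ∉ M) (h : ε₁ - ε₂ ∈ M) : ε₁ = ε₂ := by
  classical
  by_contra hne
  have hG : (∑ i ∈ Finset.range N, ε₁ ^ i * ε₂ ^ (N - 1 - i)) = 0 := by
    have := geom_sum₂_mul ε₁ ε₂ N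
    rw [h1, h2, sub_self] at this
    exact (mul_eq_zero.mp this).resolve_right (sub_ne_zero.mpr hne)
  have hq : (Ideal.Quotient.mk M) ε₁ = (Ideal.Quotient.mk M) ε₂ := Ideal.Quotient.eq.mpr h
  have h3 : (Ideal.Quotient.mk M) (∑ i ∈ Finset.range N, ε₁ ^ i * ε₂ ^ (N - 1 - i)) =
      (N : R ⧸ M) * (Ideal.Quotient.mk M) ε₂ ^ (N - 1) := by
    rw [map_sum]
    have : ∀ i ∈ Finset.range N, (Ideal.Quotient.mk M) (ε₁ ^ i * ε₂ ^ (N - 1 - i)) =
        (Ideal.Quotient.mk M) ε₂ ^ (N - 1) := by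
      intro i hi
      rw [map_mul, map_pow, map_pow, hq, ← pow_add]
      congr 1
      have := Finset.mem_range.mp hi
      omega
    rw [Finset.sum_congr rfl this, Finset.sum_const, Finset.card_range, nsmul_eq_mul]
  rw [hG, map_zero] at h3
  have h4 : (Ideal.Quotient.mk M) ε₂ ^ N = 1 := by rw [← map_pow, h2, map_one]
  have hk : (Ideal.Quotient.mk M) ε₂ ^ (N - 1) ≠ 0 := by
    intro h0
    rw [show N = N - 1 + 1 by omega, pow_succ, h0, zero_mul] at h4
    exact zero_ne_one h4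
  have h5 : (N : R ⧸ M) = 0 := by
    rcases mul_eq_zero.mp h3.symm with h6 | h6
    · exact h6
    · exact absurd h6 hk
  apply hN'
  rw [← Ideal.Quotient.eq_zero_iff_mem]
  simpa using h5

/-- Let M be a maximal ideal of the ring of algebraic integers containing the prime p, and let U be the set of complex roots of unity of order prime to p. Then reduction modulo M is injective on U, and every algebraic integer not in M is congruent modulo M to an element of U (so U maps bijectively onto the nonzero residues). -/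
theorem result (p : ℕ) [Fact p.Prime] (M : Ideal Cfsg.AlgInt) (hM : Cfsg.IsPModular p M) : (∀ ε₁ ε₂ : Cfsg.AlgInt, (∃ m : ℕ, ¬ p ∣ m ∧ (ε₁ : ℂ) ^ m = 1) → (∃ m : ℕ, ¬ p ∣ m ∧ (ε₂ : ℂ) ^ m = 1) → ε₁ - ε₂ ∈ M → ε₁ = ε₂) ∧ (∀ a : Cfsg.AlgInt, a ∉ M → ∃ ε : Cfsg.AlgInt, (∃ m : ℕ, ¬ p ∣ m ∧ (ε : ℂ) ^ m = 1) ∧ a - ε ∈ M) := by

  classical
  have hpp : p.Prime := Fact.out
  haveI hMm : M.IsMaximal := hM.2.1
  have hcop : ∀ N : ℕ, ¬ p ∣ N → (N : Cfsg.AlgInt) ∉ M := by
    intro N hN hmem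
    have h1 : Nat.Coprime p N := (Nat.Prime.coprime_iff_not_dvd hpp).mpr hN
    obtain ⟨a, b, hab⟩ := (Nat.isCoprime_iff_coprime.mpr h1)
    have h2 : ((a * p + b * N : ℤ) : Cfsg.AlgInt) = 1 := by
      rw [hab]; simp
    have h3 : (1 : Cfsg.AlgInt) ∈ M := by
      rw [← h2]
      push_cast
      exact M.add_mem (M.mul_mem_left _ hM.2.2) (M.mul_mem_left _ hmem)
    exact hMm.ne_top ((Ideal.eq_top_iff_one M).mpr h3)
  constructor
  · rintro ε₁ ε₂ ⟨m, hm, h1⟩ ⟨n, hn, h2⟩ h
    have hm0 : 0 < m := Nat.pos_of_ne_zero (fun h0 => hm (h0 ▸ dvd_zero p))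
    have hn0 : 0 < n := Nat.pos_of_ne_zero (fun h0 => hn (h0 ▸ dvd_zero p))
    have h1' : ε₁ ^ (m * n) = 1 := by
      apply Subtype.ext
      push_cast
      rw [pow_mul, h1, one_pow]
    have h2' : ε₂ ^ (m * n) = 1 := by
      apply Subtype.ext
      push_cast
      rw [mul_comm, pow_mul, h2, one_pow]
    exact geom_aux M h1' h2' (Nat.mul_pos hm0 hn0)
      (hcop _ (fun hd => ((Nat.Prime.dvd_mul hpp).mp hd).elim hm hn)) h
  · intro a ha
    letI : Field (Cfsg.AlgInt ⧸ M) := Ideal.Quotient.field M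
    have hchar : CharP (Cfsg.AlgInt ⧸ M) p := by
      rw [CharP.charP_iff_prime_eq_zero hpp]
      have := (Ideal.Quotient.eq_zero_iff_mem (I := M)).mpr hM.2.2
      simpa using this
    letI : Algebra (ZMod p) (Cfsg.AlgInt ⧸ M) := ZMod.algebra _ p
    set A : Cfsg.AlgInt ⧸ M := Ideal.Quotient.mk M a with hA
    have hA0 : A ≠ 0 := fun h0 => ha ((Ideal.Quotient.eq_zero_iff_mem).mp h0)
    have hint : IsIntegral (ZMod p) A := by
      obtain ⟨f, hf, hf0⟩ := a.2
      refine ⟨f.map (Int.castRingHom (ZMod p)), hf.map _, ?_⟩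
      rw [Polynomial.eval₂_map]
      have h1 : (algebraMap (ZMod p) (Cfsg.AlgInt ⧸ M)).comp (Int.castRingHom (ZMod p)) =
          (Ideal.Quotient.mk M).comp (Int.castRingHom Cfsg.AlgInt) := RingHom.ext_int _ _
      rw [h1, ← Polynomial.hom_eval₂]
      have h2 : Polynomial.eval₂ (Int.castRingHom Cfsg.AlgInt) a f = 0 := by
        apply Subtype.ext
        have h3 := hf0
        have h4 : ((Polynomial.eval₂ (Int.castRingHom Cfsg.AlgInt) a f : Cfsg.AlgInt) : ℂ) =
            Polynomial.eval₂ (algebraMap ℤ ℂ) (a : ℂ) f := by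
          rw [Polynomial.eval₂_eq_sum_range, Polynomial.eval₂_eq_sum_range]
          push_cast
          simp
        rw [h4]
        exact h3
      rw [h2, map_zero]
    -- the finite field generated by `A`
    haveI : FiniteDimensional (ZMod p) (IntermediateField.adjoin (ZMod p) {A}) :=
      IntermediateField.adjoin.finiteDimensional hint
    haveI : Finite (IntermediateField.adjoin (ZMod p) {A}) :=
      Module.finite_of_finite (ZMod p)
    letI : Fintype (IntermediateField.adjoin (ZMod p) {A}) := Fintype.ofFinite _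
    set L := IntermediateField.adjoin (ZMod p) {A} with hL
    let AL : L := ⟨A, IntermediateField.mem_adjoin_simple_self _ _⟩
    have hAL : AL ≠ 0 := fun h0 => hA0 (congrArg Subtype.val h0)
    have h5 : AL ^ (Fintype.card L - 1) = 1 := FiniteField.pow_card_sub_one_eq_one AL hAL
    haveI : CharP L p := charP_of_injective_algebraMap (algebraMap (ZMod p) L).injective p
    obtain ⟨f, -, hf⟩ := FiniteField.card L p
    have hn'' : ¬ p ∣ (Fintype.card L - 1) := by
      intro hd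
      rw [hf] at hd
      have h6 : p ∣ p ^ (f : ℕ) := dvd_pow_self p f.ne_zero
      have h7 : 1 ≤ p ^ (f : ℕ) := Nat.one_le_pow _ _ hpp.pos
      have h8 : p ∣ 1 := by
        have := (Nat.dvd_sub h6 hd)
        rwa [Nat.sub_sub_self h7] at this
      exact hpp.one_lt.ne' (Nat.dvd_one.mp h8)
    set n' := Fintype.card L - 1 with hn'
    have hn0 : 0 < n' := Nat.pos_of_ne_zero (fun h0 => hn'' (h0 ▸ dvd_zero p))
    have h6 : A ^ n' = 1 := congrArg Subtype.val h5
    have h7 : a ^ n' - 1 ∈ M := by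
      rw [← Ideal.Quotient.eq_zero_iff_mem, map_sub, map_pow, map_one, ← hA, h6, sub_self]
    -- the roots of unity
    have hne0 : n' ≠ 0 := hn0.ne'
    have hζ := Complex.isPrimitiveRoot_exp n' hne0
    set ζ := Complex.exp (2 * Real.pi * Complex.I / n') with hζd
    have hζi : IsIntegral ℤ ζ := by
      apply IsIntegral.of_pow hn0
      rw [hζ.pow_eq_one]
      exact isIntegral_one
    let z : Cfsg.AlgInt := ⟨ζ, hζi⟩
    have hz : IsPrimitiveRoot z n' := by
      exact IsPrimitiveRoot.of_map_of_injective (f := (Cfsg.AlgInt).val.toRingHom) hζ Subtype.val_injective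
    have h8 := Polynomial.X_pow_sub_one_eq_prod hn0 hz
    have h9 := congrArg (Polynomial.eval a) h8
    simp only [Polynomial.eval_sub, Polynomial.eval_pow, Polynomial.eval_X, Polynomial.eval_one,
      Polynomial.eval_prod, Polynomial.eval_C] at h9
    rw [h9] at h7
    obtain ⟨ε, hε, hm⟩ := (Ideal.IsPrime.prod_mem_iff (p := M)).mp h7
    refine ⟨ε, ⟨n', hn'', ?_⟩, hm⟩
    have h10 := (Polynomial.mem_nthRootsFinset hn0 (1 : Cfsg.AlgInt)).mp hε
    have := congrArg (Subtype.val) h10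
    simpa using this

end Cfsg.Agent.S0901
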