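import Cfsg.Statements.S0903
import Cfsg.Agent.Lib.Blocks.Nil

set_option autoImplicit false
open Cfsg

namespace Cfsg.Agent.S0903

/-- Let P be a p-subgroup of the finite group G, let c centralize P and let g, h ∈ G. The number of pairs (x, y) with x conjugate to g, y conjugate to h and x * y = c is congruent modulo p to the number of such pairs in which x and y both centralize P. (This is why the Brauer map on class sums is multiplicative.) -/
theorem result {G : Type*} [Group G] [Finite G] (p : ℕ) [Fact p.Prime] (P : Subgroup G) (hP : IsPGroup p P) (c : G) (hc : c ∈ Subgroup.centralizer (P : Set G)) (g h : G) : Nat.card {xy : G × G // IsConj g xy.1 ∧ IsConj h xy.2 ∧ xy.1 * xy.2 = c} ≡ Nat.card {xy : G × G // IsConj g xy.1 ∧ IsConj h xy.2 ∧ xy.1 * xy.2 = c ∧ xy.1 ∈ Subgroup.centralizer (P : Set G) ∧ xy.2 ∈ Subgroup.centralizer (P : Set G)} [MOD p] := by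
  classical
  haveI := Fintype.ofFinite G
  -- the two counts as sums over `x`
  have hcount1 : Nat.card {xy : G × G // IsConj g xy.1 ∧ IsConj h xy.2 ∧ xy.1 * xy.2 = c} =
      (Finset.univ.filter (fun x : G => IsConj g x ∧ IsConj h (x⁻¹ * c))).card := by
    rw [Nat.card_eq_fintype_card, ← Fintype.card_subtype]
    refine Fintype.card_congr ⟨fun q => ⟨q.1.1, q.2.1, ?_⟩, fun q => ⟨(q.1, q.1⁻¹ * c), q.2.1, q.2.2, by simp⟩, ?_, ?_⟩
    · have := q.2.2.2
      have h2 : q.1.1⁻¹ * c = q.1.2 := inv_mul_eq_of_eq_mul this.symm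
      rw [h2]
      exact q.2.2.1
    · intro q
      apply Subtype.ext
      have := q.2.2.2
      have h2 : q.1.1⁻¹ * c = q.1.2 := inv_mul_eq_of_eq_mul this.symm
      exact Prod.ext rfl h2
    · intro q
      rfl
  have hcount2 : Nat.card {xy : G × G // IsConj g xy.1 ∧ IsConj h xy.2 ∧ xy.1 * xy.2 = c ∧ xy.1 ∈ Subgroup.centralizer (P : Set G) ∧ xy.2 ∈ Subgroup.centralizer (P : Set G)} =
      (Finset.univ.filter (fun x : G => x ∈ Subgroup.centralizer (P : Set G) ∧ IsConj g x ∧ IsConj h (x⁻¹ * c))).card := by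
    rw [Nat.card_eq_fintype_card, ← Fintype.card_subtype]
    refine Fintype.card_congr ⟨fun q => ⟨q.1.1, q.2.2.2.2.1, q.2.1, ?_⟩, fun q => ⟨(q.1, q.1⁻¹ * c), q.2.2.1, q.2.2.2, by simp, q.2.1, Subgroup.mul_mem _ (Subgroup.inv_mem _ q.2.1) hc⟩, ?_, ?_⟩
    · have := q.2.2.2.1
      have h2 : q.1.1⁻¹ * c = q.1.2 := inv_mul_eq_of_eq_mul this.symm
      rw [h2]
      exact q.2.2.1
    · intro q
      apply Subtype.ext
      have := q.2.2.2.1
      have h2 : q.1.1⁻¹ * c = q.1.2 := inv_mul_eq_of_eq_mul this.symm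
      exact Prod.ext rfl h2
    · intro q
      rfl
  rw [hcount1, hcount2]
  -- apply the orbit count with values in `ℤ`
  let F : G → ℤ := fun x => if IsConj g x ∧ IsConj h (x⁻¹ * c) then 1 else 0
  obtain ⟨r, hr⟩ := Cfsg.Agent.Lib.Blocks.exists_sum_sub_fixed hP (Cfsg.Agent.Lib.Blocks.conjPerm P) F (by
    intro s x
    simp only [F, Cfsg.Agent.Lib.Blocks.conjPerm_apply]
    have h1 : IsConj g ((s : G) * x * (s : G)⁻¹) ↔ IsConj g x := by
      have hx : IsConj x ((s : G) * x * (s : G)⁻¹) := isConj_iff.mpr ⟨s, rfl⟩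
      exact ⟨fun h => h.trans hx.symm, fun h => h.trans hx⟩
    have h2 : IsConj h (((s : G) * x * (s : G)⁻¹)⁻¹ * c) ↔ IsConj h (x⁻¹ * c) := by
      have hts : (s : G) * c = c * s := (Subgroup.mem_centralizer_iff.mp hc) s s.2
      have h3 : ((s : G) * x * (s : G)⁻¹)⁻¹ * c = (s : G) * (x⁻¹ * c) * (s : G)⁻¹ := by
        have : c = (s : G) * c * (s : G)⁻¹ := by rw [hts]; group
        calc ((s : G) * x * (s : G)⁻¹)⁻¹ * c
            = ((s : G) * x * (s : G)⁻¹)⁻¹ * ((s : G) * c * (s : G)⁻¹) := by rw [← this]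
          _ = (s : G) * (x⁻¹ * c) * (s : G)⁻¹ := by group
      rw [h3]
      have hx : IsConj (x⁻¹ * c) ((s : G) * (x⁻¹ * c) * (s : G)⁻¹) := isConj_iff.mpr ⟨s, rfl⟩
      exact ⟨fun h => h.trans hx.symm, fun h => h.trans hx⟩
    simp only [h1, h2])
  have h1 : ∑ x : G, F x = ((Finset.univ.filter (fun x : G => IsConj g x ∧ IsConj h (x⁻¹ * c))).card : ℤ) := by
    simp only [F]
    rw [Finset.sum_boole]
  have h2 : ∑ x ∈ Finset.univ.filter (fun x : G => ∀ γ : P, Cfsg.Agent.Lib.Blocks.conjPerm P γ x = x), F x =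
      ((Finset.univ.filter (fun x : G => x ∈ Subgroup.centralizer (P : Set G) ∧ IsConj g x ∧ IsConj h (x⁻¹ * c))).card : ℤ) := by
    simp only [F]
    rw [Finset.sum_boole, Finset.filter_filter]
    congr 2
    ext x
    simp only [Finset.mem_filter, Finset.mem_univ, true_and, Cfsg.Agent.Lib.Blocks.conjPerm_fixed_iff]
  have h3 : ((Finset.univ.filter (fun x : G => IsConj g x ∧ IsConj h (x⁻¹ * c))).card : ℤ) = ((Finset.univ.filter (fun x : G => x ∈ Subgroup.centralizer (P : Set G) ∧ IsConj g x ∧ IsConj h (x⁻¹ * c))).card : ℤ) + p • r := by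
    rw [← h1, hr, ← h2]
    congr!
  have h4 : ((Finset.univ.filter (fun x : G => IsConj g x ∧ IsConj h (x⁻¹ * c))).card : ℤ) ≡ ((Finset.univ.filter (fun x : G => x ∈ Subgroup.centralizer (P : Set G) ∧ IsConj g x ∧ IsConj h (x⁻¹ * c))).card : ℤ) [ZMOD p] := by
    rw [h3]
    simp [Int.ModEq]
  exact (Int.natCast_modEq_iff).mp h4

end Cfsg.Agent.S0903
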