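import Cfsg.Statements.S0904
import Mathlib
import Cfsg.Agent.Lib.Small.PrimeDegree

set_option autoImplicit false
open Cfsg

namespace Cfsg.Agent.S0904

/-- Let G be a finite simple group of order p ^ a * q ^ b * r with p, q, r distinct primes. Then every Sylow r-subgroup S of G satisfies C_G(S) = S. -/
theorem result {G : Type*} [Group G] [Finite G] [IsSimpleGroup G] (p q r a b : ℕ) (hp : p.Prime) (hq : q.Prime) [Fact r.Prime] (hpq : p ≠ q) (hpr : p ≠ r) (hqr : q ≠ r) (hcard : Nat.card G = p ^ a * q ^ b * r) (S : Sylow r G) : Subgroup.centralizer (S : Set G) = (S : Subgroup G) := by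
  classical
  haveI := Fintype.ofFinite G
  have hr := Fact.out (p := r.Prime)
  have hcop : ¬ r ∣ p ^ a * q ^ b := by
    intro h
    rcases (hr.dvd_mul).mp h with h1 | h1
    · exact hpr ((Nat.prime_dvd_prime_iff_eq hr hp).mp (hr.dvd_of_dvd_pow h1)).symm
    · exact hqr ((Nat.prime_dvd_prime_iff_eq hr hq).mp (hr.dvd_of_dvd_pow h1)).symm
  have hS : Nat.card (S : Subgroup G) = r ^ 1 :=
    Cfsg.Agent.Lib.SmallSimple.sylow_card_of_eq (a := 1) (m := p ^ a * q ^ b) S (by rw [hcard]; ring) hcop
  rw [pow_one] at hS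
  have hnt : Nontrivial (S : Subgroup G) := by
    apply Finite.one_lt_card_iff_nontrivial.mp
    rw [hS]
    exact hr.one_lt
  obtain ⟨y, hy⟩ := exists_ne (1 : (S : Subgroup G))
  have hy1 : (y : G) ≠ 1 := fun e => hy (Subtype.ext e)
  have hyo : orderOf (y : G) = r := by
    have h2 : orderOf (y : G) ∣ r := by
      have h3 := orderOf_dvd_natCard y
      rwa [← Subgroup.orderOf_coe, hS] at h3
    rcases (Nat.dvd_prime hr).mp h2 with h3 | h3
    · exact (hy1 (orderOf_eq_one_iff.mp h3)).elim
    · exact h3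
  have h1 := Cfsg.Agent.Lib.Small.BD.centralizer_eq_zpowers_of_card hp hq hr hpq hpr hqr hcard hyo
  have h2 := Cfsg.Agent.Lib.Small.BD.centralizer_singleton_eq (p := r) (S : Subgroup G) hS y.2 hy1
  change Subgroup.centralizer (((S : Subgroup G)) : Set G) = (S : Subgroup G)
  rw [← h2, h1]
  apply Subgroup.eq_of_le_of_card_ge
  · rw [Subgroup.zpowers_le]
    exact y.2
  · rw [Nat.card_zpowers, hyo, hS]

end Cfsg.Agent.S0904
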