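import Cfsg.Statements.S0905
import Cfsg.Agent.Lib.Blocks.Nil
import Cfsg.Agent.Lib.Basic.Core

set_option autoImplicit false
open Cfsg

namespace Cfsg.Agent.S0905

/-- Let F be a field of characteristic p and let g be an element of the finite group G no conjugate of which centralizes O_p(G). Then the class sum of g is a nilpotent element of the group algebra F[G]. -/
theorem result {G : Type*} [Group G] [Finite G] (p : ℕ) [Fact p.Prime] (F : Type*) [Field F] [CharP F p] (g : G) (hg : ∀ x : G, IsConj g x → x ∉ Subgroup.centralizer (Cfsg.pCore p G : Set G)) : IsNilpotent (∑ᶠ x ∈ ConjClasses.carrier (ConjClasses.mk g), MonoidAlgebra.single x (1 : F) : MonoidAlgebra F G) := by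
  classical
  haveI := Fintype.ofFinite G
  have h1 : (∑ᶠ x ∈ ConjClasses.carrier (ConjClasses.mk g), MonoidAlgebra.single x (1 : F) : MonoidAlgebra F G)
      = Cfsg.Agent.Lib.Blocks.classSum F g := by
    rw [finsum_mem_def, finsum_eq_sum_of_fintype, Cfsg.Agent.Lib.Blocks.classSum]
    refine Finset.sum_congr rfl fun x _ => ?_
    by_cases hx : IsConj g x
    · rw [if_pos hx, Set.indicator_of_mem]
      rw [ConjClasses.mem_carrier_iff_mk_eq, ConjClasses.mk_eq_mk_iff_isConj]
      exact hx.symm
    · rw [if_neg hx, Set.indicator_of_notMem]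
      rw [ConjClasses.mem_carrier_iff_mk_eq, ConjClasses.mk_eq_mk_iff_isConj]
      exact fun h => hx h.symm
  rw [h1]
  exact Cfsg.Agent.Lib.Blocks.classSum_isNilpotent (p := p) (F := F) (Cfsg.pCore p G)
    (Cfsg.Agent.Lib.Basic.pCore_isPGroup p) g hg

end Cfsg.Agent.S0905
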