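import Cfsg.Statements.S0931
import Cfsg.Agent.Lib.Blocks.NormalDefect

set_option autoImplicit false
open Cfsg

namespace Cfsg.Agent.S0931

/-- Let H be a subgroup of the finite group G and fix a maximal ideal M of the algebraic integers containing the prime p. If the block b of H induces the block B of G, then b has defect 0 if and only if B has defect 0. -/
theorem result {G : Type*} [Group G] [Finite G] (p : ℕ) [Fact p.Prime] (M : Ideal Cfsg.AlgInt) (hM : Cfsg.IsPModular p M) (H : Subgroup G) (b : Set (Cfsg.IrrCharacter H)) (B : Set (Cfsg.IrrCharacter G)) (hind : Cfsg.IsInducedBlock M H b B) : Cfsg.blockDefect p b = 0 ↔ Cfsg.blockDefect p B = 0 := by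
  classical
  letI := Fintype.ofFinite G
  letI : Fintype H := Fintype.ofFinite H
  exact Cfsg.Agent.Lib.Blocks.blockDefect_eq_zero_iff_of_induced hM H hind

end Cfsg.Agent.S0931
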