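import Cfsg.Statements.S0935
import Cfsg.Agent.Lib.Blocks.RegGamma

set_option autoImplicit false
open Cfsg

namespace Cfsg.Agent.S0935

/-- Let H be a subgroup of the finite group G and χ an irreducible character of G whose restriction to H is irreducible; fix a maximal ideal M of the algebraic integers containing the prime p and suppose χ and its restriction have height zero in their blocks B and b. If e is a block of H whose induced block is defined, then e induces B if and only if e = b. -/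
theorem result {G : Type*} [Group G] [Finite G] (p : ℕ) [Fact p.Prime] (M : Ideal Cfsg.AlgInt) (hM : Cfsg.IsPModular p M) (H : Subgroup G) (χ : Cfsg.IrrCharacter G) (hres : Cfsg.IsIrrCharacter H (fun h : H => (χ : G → ℂ) h)) (hχ0 : Cfsg.blockHeight p (Cfsg.blockOf M (χ : G → ℂ)) (χ : G → ℂ) = 0) (hψ0 : Cfsg.blockHeight p (Cfsg.blockOf M (fun h : H => (χ : G → ℂ) h)) (fun h : H => (χ : G → ℂ) h) = 0) (e : Set (Cfsg.IrrCharacter H)) (he : Cfsg.InducedBlockDefined M H e) : Cfsg.IsInducedBlock M H e (Cfsg.blockOf M (χ : G → ℂ)) ↔ e = Cfsg.blockOf M (fun h : H => (χ : G → ℂ) h) := by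
  classical
  letI : Fintype G := Fintype.ofFinite G
  letI : Fintype H := Fintype.ofFinite H
  have hMp := Cfsg.Agent.Lib.Blocks.isPrime_of_modular hM
  set ψ : Cfsg.IrrCharacter H := ⟨fun h : H => (χ : G → ℂ) h, hres⟩ with hψ
  constructor
  · intro hind
    obtain ⟨ξ, hξ, -, n, hn, hnp⟩ := Cfsg.Agent.Lib.Blocks.exists_height_zero_constituent hM hind
      (Cfsg.Agent.Lib.Blocks.self_mem_blockOf χ) hχ0
    have h1 : (fun h : H => (χ : G → ℂ) h) = (ξ : H → ℂ) := by
      by_contra hne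
      rw [Cfsg.Agent.Lib.Char.classInner_irr hres ξ.2, if_neg hne] at hn
      have h2 : n = 0 := by exact_mod_cast hn.symm
      exact hnp (by rw [h2]; exact dvd_zero _)
    rw [h1]
    exact Cfsg.Agent.Lib.Blocks.blockOf_eq_of_mem hind.1 hξ
  · rintro rfl
    obtain ⟨B', hB'⟩ := he
    obtain ⟨β, hβ⟩ := Cfsg.Agent.Lib.Blocks.IsPBlock.nonempty hB'.2.1
    have hψe : ψ ∈ Cfsg.blockOf M (fun h : H => (χ : G → ℂ) h) :=
      Cfsg.Agent.Lib.Blocks.self_mem_blockOf ψ
    have hkey := Cfsg.Agent.Lib.Blocks.gam_sub_congr (p := p) (α := (χ : G → ℂ))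
      (Cfsg.Agent.Lib.Blocks.irr_isClassFunction χ) (Cfsg.Agent.Lib.Blocks.irr_isIntegral χ) ψ β
      (hB'.2.2 ψ hψe β hβ)
    have hself : ¬ Cfsg.MemLocalIdeal M (Cfsg.Agent.Lib.Blocks.gam p (ψ : H → ℂ) ψ) :=
      Cfsg.Agent.Lib.Blocks.gam_self_not_mem hM hB'.1 hψe hψ0
    have hne : ¬ Cfsg.MemLocalIdeal M (Cfsg.Agent.Lib.Blocks.gam p (χ : G → ℂ) β) := by
      intro h1
      apply hself
      have h2 := Cfsg.Agent.Lib.Blocks.MemLocalIdeal.add hkey h1
      simpa using h2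
    have hsb : Cfsg.SameBlock M (χ : G → ℂ) (β : G → ℂ) := by
      by_contra hsb
      apply hne
      rw [Cfsg.Agent.Lib.Blocks.gam_eq_zero hM hsb]
      exact Cfsg.Agent.Lib.Blocks.memLocalIdeal_zero
    have h1 : B' = Cfsg.blockOf M (β : G → ℂ) :=
      Cfsg.Agent.Lib.Blocks.blockOf_eq_of_mem hB'.2.1 hβ
    have h2 : Cfsg.blockOf M (χ : G → ℂ) = Cfsg.blockOf M (β : G → ℂ) :=
      Cfsg.Agent.Lib.Blocks.blockOf_eq_of_mem (Cfsg.Agent.Lib.Blocks.isPBlock_blockOf χ) hsb
    rw [h2, ← h1]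
    exact hB'

end Cfsg.Agent.S0935
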