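import Cfsg.Statements.S0940
import Cfsg.Agent.Lib.Blocks.Kulshammer

set_option autoImplicit false
open Cfsg

namespace Cfsg.Agent.S0940

/-- Let G be a finite group and M a maximal ideal of the algebraic integers containing the prime p. For every p-regular g, the idempotent coefficient of the principal block at g (the inverse of the group order times the sum over χ in the principal block of χ 1 * conj (χ g)) is congruent modulo the local ideal at M to N / R, where N is the number of pairs (x, y) with x of p-power order, y of order prime to p and x * y = g, and R is the number of elements of G of order prime to p. -/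
theorem result {G : Type*} [Group G] [Finite G] (p : ℕ) [Fact p.Prime] (M : Ideal Cfsg.AlgInt) (hM : Cfsg.IsPModular p M) (g : G) (hg : ¬ p ∣ orderOf g) : Cfsg.MemLocalIdeal M (Cfsg.blockCoeff (Cfsg.principalBlock M G) g - (Nat.card {xy : G × G // (∃ k : ℕ, orderOf xy.1 = p ^ k) ∧ ¬ p ∣ orderOf xy.2 ∧ xy.1 * xy.2 = g} : ℂ) / (Nat.card {y : G // ¬ p ∣ orderOf y} : ℂ)) := by
  classical
  letI := Fintype.ofFinite G
  have h1 : Nat.card {y : G // ¬ p ∣ orderOf y} = Cfsg.Agent.Lib.Blocks.regCount p G := by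
    rw [Nat.card_eq_fintype_card, Fintype.card_subtype, Cfsg.Agent.Lib.Blocks.regCount]
  have h2 : Nat.card {xy : G × G // (∃ k : ℕ, orderOf xy.1 = p ^ k) ∧ ¬ p ∣ orderOf xy.2 ∧ xy.1 * xy.2 = g} =
      Cfsg.Agent.Lib.Blocks.kulCount p g := by
    rw [Cfsg.Agent.Lib.Blocks.kulCount, ← Fintype.card_subtype, ← Nat.card_eq_fintype_card]
    apply Nat.card_congr
    refine
      { toFun := fun w => ⟨w.1.2, w.2.2.1, ?_⟩
        invFun := fun w => ⟨(g * w.1⁻¹, w.1), ?_, w.2.1, by simp⟩
        left_inv := ?_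
        right_inv := ?_ }
    · obtain ⟨⟨x, y⟩, ⟨k, hk⟩, hy, hxy⟩ := w
      refine ⟨k, ?_⟩
      simp only at hk hxy ⊢
      rw [← hxy, mul_inv_rev, mul_inv_cancel_left, orderOf_inv, hk]
    · obtain ⟨y, hy, k, hk⟩ := w
      refine ⟨k, ?_⟩
      simp only
      have : g * y⁻¹ = (y * g⁻¹)⁻¹ := by group
      rw [this, orderOf_inv, hk]
    · rintro ⟨⟨x, y⟩, hk, hy, hxy⟩
      apply Subtype.ext
      simp only at hxy ⊢
      rw [← hxy]
      simp
    · rintro ⟨y, hy, hk⟩
      rfl
  rw [h1, h2]
  exact Cfsg.Agent.Lib.Blocks.kulshammer hM hg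

end Cfsg.Agent.S0940
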