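import Cfsg.Statements.S0944
import Cfsg.Agent.Lib.Char.Degree

set_option autoImplicit false
open Cfsg

namespace Cfsg.Agent.S0944

theorem sum_pm_one {ι : Type*} (s : Finset ι) (μ : ι → ℂ) (h : ∀ i ∈ s, μ i = 1 ∨ μ i = -1) :
    ∃ n : ℤ, ∑ i ∈ s, μ i = (n : ℂ) ∧ (2 : ℤ) ∣ (s.card : ℤ) - n := by
  classical
  induction s using Finset.induction_on with
  | empty => exact ⟨0, by simp, by simp⟩
  | insert a s ha ih =>
    obtain ⟨n, hn, hd⟩ := ih (fun i hi => h i (Finset.mem_insert_of_mem hi))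
    rw [Finset.sum_insert ha, Finset.card_insert_of_notMem ha, hn]
    rcases h a (Finset.mem_insert_self a s) with h1 | h1
    · refine ⟨n + 1, by rw [h1]; push_cast; ring, ?_⟩
      push_cast
      have : ((s.card : ℤ) + 1 - (n + 1)) = (s.card : ℤ) - n := by ring
      rwa [this]
    · refine ⟨n - 1, by rw [h1]; push_cast; ring, ?_⟩
      push_cast
      have : ((s.card : ℤ) + 1 - (n - 1)) = ((s.card : ℤ) - n) + 2 := by ring
      rw [this]
      exact dvd_add hd (dvd_refl _)

/-- Let χ be an irreducible character of the finite group G and u an involution. Then χ u is a rational integer n with n ≡ χ 1 (mod 2). -/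
theorem result {G : Type*} [Group G] [Finite G] (χ : Cfsg.IrrCharacter G) (u : G) (hu : orderOf u = 2) : ∃ n : ℤ, (χ : G → ℂ) u = (n : ℂ) ∧ (2 : ℤ) ∣ (Cfsg.charDegree (χ : G → ℂ) : ℤ) - n := by

  classical
  obtain ⟨χ, k, ρ, hρ, rfl⟩ := χ
  obtain ⟨μ, hμ1, hμ2, -⟩ := Cfsg.Agent.Lib.Char.character_eq_sum_eigen ρ u
  have hpm : ∀ i ∈ Finset.univ, μ i = 1 ∨ μ i = -1 := by
    intro i _
    have h2 := hμ2 i
    rw [hu] at h2
    have h3 : μ i * μ i = 1 := by rw [← sq]; exact h2
    exact mul_self_eq_one_iff.mp h3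
  obtain ⟨n, hn, hd⟩ := sum_pm_one Finset.univ μ hpm
  refine ⟨n, by simp only [hμ1, hn], ?_⟩
  have h3 : Cfsg.charDegree (ρ.character) = k := by
    apply Cfsg.Agent.Lib.Char.charDegree_eq
    simp [Representation.character]
  simp only [Finset.card_univ, Fintype.card_fin] at hd
  rw [h3]
  simpa using hd

end Cfsg.Agent.S0944
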