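import Cfsg.Statements.S0947
import Cfsg.Agent.Lib.Blocks.PrincipalSum
import Cfsg.Agent.Lib.Basic.Core

set_option autoImplicit false
open Cfsg

namespace Cfsg.Agent.S0947

/-- Let z ≠ 1 be a p-element of the finite group G with centralizer H, and fix a maximal ideal M of the algebraic integers containing p. (i) For every y ∈ H of order prime to p, the sum over ζ in the principal block of G of |ζ (z * y)|² equals the sum over χ in the principal block of H of |χ y|². (ii) If moreover H has a normal p-complement (its largest normal subgroup of order prime to p has p-power index), that common value is the largest power of p dividing the order of H. -/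
theorem result {G : Type*} [Group G] [Finite G] (p : ℕ) [Fact p.Prime] (M : Ideal Cfsg.AlgInt) (hM : Cfsg.IsPModular p M) (z : G) (hz : ∃ k : ℕ, orderOf z = p ^ k) (hz1 : z ≠ 1) (y : Subgroup.centralizer ({z} : Set G)) (hy : ¬ p ∣ orderOf y) : (∑ᶠ ζ ∈ Cfsg.principalBlock M G, ‖(ζ : G → ℂ) (z * (y : G))‖ ^ 2 = ∑ᶠ χ ∈ Cfsg.principalBlock M (Subgroup.centralizer ({z} : Set G)), ‖(χ : Subgroup.centralizer ({z} : Set G) → ℂ) y‖ ^ 2) ∧ ((∃ k : ℕ, (Cfsg.pPrimeCore p (Subgroup.centralizer ({z} : Set G))).index = p ^ k) → ∑ᶠ ζ ∈ Cfsg.principalBlock M G, ‖(ζ : G → ℂ) (z * (y : G))‖ ^ 2 = ((p ^ (Nat.card (Subgroup.centralizer ({z} : Set G))).factorization p : ℕ) : ℝ)) := by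
  classical
  letI := Fintype.ofFinite G
  letI : Fintype (Subgroup.centralizer ({z} : Set G)) := Fintype.ofFinite _
  have h1 := Cfsg.Agent.Lib.Blocks.sum_principal_section_norm (p := p) hM hz hy
  refine ⟨h1, ?_⟩
  rintro ⟨k, hk⟩
  rw [h1]
  haveI := Cfsg.Agent.Lib.Basic.pPrimeCore_characteristic (G := Subgroup.centralizer ({z} : Set G)) p
  haveI hN : (Cfsg.pPrimeCore p (Subgroup.centralizer ({z} : Set G))).Normal := Subgroup.normal_of_characteristic _
  have hcop := Cfsg.Agent.Lib.Basic.pPrimeCore_coprime (G := Subgroup.centralizer ({z} : Set G)) p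
  have hpp : p.Prime := Fact.out
  have hnd : ¬ p ∣ Nat.card (Cfsg.pPrimeCore p (Subgroup.centralizer ({z} : Set G))) := by
    intro h
    exact hpp.one_lt.ne' (Nat.Coprime.eq_one_of_dvd hcop.symm h)
  rw [Cfsg.Agent.Lib.Blocks.sum_principal_norm_of_normal_complement hM hnd hk hy]
  have h2 := Subgroup.index_mul_card (Cfsg.pPrimeCore p (Subgroup.centralizer ({z} : Set G)))
  rw [hk] at h2
  have h3 : (Nat.card (Subgroup.centralizer ({z} : Set G))).factorization p = k := by
    rw [← h2, Nat.factorization_mul (pow_ne_zero _ hpp.ne_zero) Nat.card_pos.ne',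
      Nat.factorization_pow, Finsupp.add_apply, Finsupp.smul_apply, hpp.factorization_self,
      Nat.factorization_eq_zero_of_not_dvd hnd]
    simp
  rw [h3]

end Cfsg.Agent.S0947
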