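import Cfsg.Statements.S0953
import Cfsg.Agent.Lib.Blocks.NormalCount

set_option autoImplicit false
open Cfsg

namespace Cfsg.Agent.S0953

/-- Let P be a Sylow p-subgroup of the finite group G with normalizer N, and fix a maximal ideal M of the algebraic integers containing p. The number of blocks of G having P as a defect group equals the number of conjugacy classes of N consisting of elements of order prime to p that centralize P. -/
theorem result {G : Type*} [Group G] [Finite G] (p : ℕ) [Fact p.Prime] (M : Ideal Cfsg.AlgInt) (hM : Cfsg.IsPModular p M) (P : Sylow p G) : Nat.card {B : Set (Cfsg.IrrCharacter G) // Cfsg.IsPBlock M B ∧ Cfsg.IsDefectGroup p M B (P : Subgroup G)} = Nat.card {C : ConjClasses (Subgroup.normalizer ((P : Subgroup G) : Set G)) // ∀ n : Subgroup.normalizer ((P : Subgroup G) : Set G), ConjClasses.mk n = C → ¬ p ∣ orderOf n ∧ (n : G) ∈ Subgroup.centralizer ((P : Subgroup G) : Set G)} := by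
  classical
  letI : Fintype G := Fintype.ofFinite G
  have hMp := Cfsg.Agent.Lib.Blocks.isPrime_of_modular hM
  set D : Subgroup G := (P : Subgroup G) with hD
  have hDp : IsPGroup p D := P.isPGroup'
  letI : Fintype (Subgroup.normalizer (D : Set G)) := Fintype.ofFinite _
  have hle : (P : Subgroup G) ≤ Subgroup.normalizer (D : Set G) := Subgroup.le_normalizer
  let Q : Subgroup (Subgroup.normalizer (D : Set G)) := D.subgroupOf (Subgroup.normalizer (D : Set G))
  haveI hQn : Q.Normal := Subgroup.normal_in_normalizer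
  have hQp : IsPGroup p Q := Cfsg.Agent.Lib.Blocks.isPGroup_subgroupOf hDp _
  have hQS : ((P.subtype hle : Sylow p (Subgroup.normalizer (D : Set G))) : Subgroup (Subgroup.normalizer (D : Set G))) = Q :=
    Sylow.coe_subtype P hle
  have hQi : ¬ p ∣ Q.index := by
    rw [← hQS]
    exact (P.subtype hle).not_dvd_index
  obtain ⟨X, hXn, hXc, hXm⟩ := Cfsg.Agent.Lib.Blocks.NormalCount.exists_regular_subgroup Q hQi hQp
  have hreg : ∀ g : Subgroup.normalizer (D : Set G), ¬ p ∣ orderOf g → g ∉ X →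
      ∀ χ : Cfsg.IrrCharacter (Subgroup.normalizer (D : Set G)),
        Cfsg.MemLocalIdeal M (Cfsg.centralChar (χ : Subgroup.normalizer (D : Set G) → ℂ) g) := by
    intro g hg hgX χ
    have hgC : g ∉ Subgroup.centralizer (Q : Set (Subgroup.normalizer (D : Set G))) :=
      fun h => hgX ((hXm g).mpr ⟨hg, h⟩)
    refine Cfsg.Agent.Lib.Blocks.centralChar_memLocalIdeal_of_normal hM Q hQp g ?_ χ
    intro x hx hxC
    exact hgC (Cfsg.Agent.Lib.Blocks.NormalCount.isConj_mem_centralizer Q hx hxC)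
  have hcount := Cfsg.Agent.Lib.Blocks.NormalCount.card_blocks_eq hM hXc hreg
  have hdefect : ∀ b : Set (Cfsg.IrrCharacter (Subgroup.normalizer (D : Set G))), Cfsg.IsPBlock M b →
      Cfsg.IsDefectGroup p M b (D.subgroupOf (Subgroup.normalizer (D : Set G))) := by
    intro b hb
    obtain ⟨D', hD'⟩ := Cfsg.Agent.Lib.Blocks.IsPBlock.exists_isDefectGroup hM hb
    have h1 := Cfsg.Agent.Lib.Blocks.IsDefectGroup.pCore_le hM hb hD'
    have h2 : Q ≤ Cfsg.pCore p (Subgroup.normalizer (D : Set G)) :=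
      Cfsg.Agent.Lib.Basic.le_pCore hQn hQp
    have h3 : IsPGroup p D' := Cfsg.Agent.Lib.Blocks.IsDefectGroup.isPGroup hD'
    obtain ⟨S, hS⟩ := IsPGroup.exists_le_sylow h3
    have h4 : (S : Subgroup (Subgroup.normalizer (D : Set G))) ≤ Q := by
      have h5 : Q ≤ (S : Subgroup (Subgroup.normalizer (D : Set G))) := hQp.le_sylow_of_normal S
      have h7 := (P.subtype hle).is_maximal' S.isPGroup' (by rw [hQS]; exact h5)
      rw [h7, hQS]
    have h6 : D' = Q := le_antisymm (hS.trans h4) (h2.trans h1)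
    show Cfsg.IsDefectGroup p M b Q
    rw [← h6]
    exact hD'
  have hfm_i := fun (b : {b : Set (Cfsg.IrrCharacter (Subgroup.normalizer (D : Set G))) // Cfsg.IsPBlock M b}) =>
    Cfsg.Agent.Lib.Blocks.first_main_i hM hDp b.2 (hdefect b.1 b.2)
  choose F hF1 hF2 hF3 using hfm_i
  let Φ : {b : Set (Cfsg.IrrCharacter (Subgroup.normalizer (D : Set G))) // Cfsg.IsPBlock M b} →
      {B : Set (Cfsg.IrrCharacter G) // Cfsg.IsPBlock M B ∧ Cfsg.IsDefectGroup p M B D} :=
    fun b => ⟨F b, hF1 b, hF2 b⟩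
  have hΦ : Function.Bijective Φ := by
    constructor
    · intro b b' hbb
      have h1 : F b = F b' := congrArg Subtype.val hbb
      obtain ⟨b₀, -, hu⟩ := Cfsg.Agent.Lib.Blocks.first_main_ii hM hDp (hF1 b) (hF2 b)
      have h2 := hu b.1 ⟨b.2, hdefect b.1 b.2, hF3 b⟩
      have h3 := hu b'.1 ⟨b'.2, hdefect b'.1 b'.2, by rw [h1]; exact hF3 b'⟩
      exact Subtype.ext (h2.trans h3.symm)
    · rintro ⟨B, hB, hBD⟩
      obtain ⟨b₀, ⟨hb₀, hb₀D, hind⟩, -⟩ := Cfsg.Agent.Lib.Blocks.first_main_ii hM hDp hB hBD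
      refine ⟨⟨b₀, hb₀⟩, Subtype.ext ?_⟩
      exact Cfsg.Agent.Lib.Blocks.NormalCount.induced_unique hM (hF3 ⟨b₀, hb₀⟩) hind
  rw [← Nat.card_congr (Equiv.ofBijective Φ hΦ), hcount]
  apply Nat.card_congr
  apply Equiv.subtypeEquivRight
  intro C
  constructor
  · intro h n hn
    have h1 := (hXm n).mp (h n hn)
    refine ⟨h1.1, ?_⟩
    exact (Cfsg.Agent.Lib.Blocks.mem_centralizer_subgroupOf D hle n).mp h1.2
  · intro h n hn
    have h1 := h n hn
    exact (hXm n).mpr ⟨h1.1, (Cfsg.Agent.Lib.Blocks.mem_centralizer_subgroupOf D hle n).mpr h1.2⟩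

end Cfsg.Agent.S0953
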