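import Cfsg.Statements.S0957
import Cfsg.Agent.Lib.Blocks.Defect

set_option autoImplicit false
open Cfsg

namespace Cfsg.Agent.S0957

/-- Let P be a Sylow p-subgroup of the finite group G, let g, h ∈ G and let p ^ d be the order of a Sylow p-subgroup of the centralizer of g. Then the number of pairs (y, z) with y conjugate to g, z conjugate to h and z * y⁻¹ ∈ P is divisible by the order of P divided by p ^ d. -/
theorem result {G : Type*} [Group G] [Finite G] (p : ℕ) [Fact p.Prime] (P : Sylow p G) (g h : G) (S : Sylow p (Subgroup.centralizer ({g} : Set G))) : Nat.card P / Nat.card S ∣ Nat.card {yz : G × G // IsConj g yz.1 ∧ IsConj h yz.2 ∧ yz.2 * yz.1⁻¹ ∈ (P : Subgroup G)} := by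
  classical
  haveI := Fintype.ofFinite G
  let φ : (P : Subgroup G) →* Equiv.Perm (G × G) :=
    { toFun := fun s => (MulAut.toPerm G ((MulAut.conj (s : G)))).prodCongr (MulAut.toPerm G ((MulAut.conj (s : G))))
      map_one' := by
        ext q <;> simp
      map_mul' := by
        intro a b
        ext q <;> simp }
  have hφ : ∀ (s : (P : Subgroup G)) (q : G × G), φ s q = ((s : G) * q.1 * (s : G)⁻¹, (s : G) * q.2 * (s : G)⁻¹) := by
    intro s q
    rfl
  let F : G × G → ℤ := fun q => if IsConj g q.1 ∧ IsConj h q.2 ∧ q.2 * q.1⁻¹ ∈ (P : Subgroup G) then 1 else 0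
  -- sizes
  have hPp := P.isPGroup'
  obtain ⟨n, hn⟩ := IsPGroup.iff_card.mp hPp
  have hSp : IsPGroup p S := S.isPGroup'
  obtain ⟨s, hs⟩ := IsPGroup.iff_card.mp hSp
  have hpp : 1 < p := (Fact.out : p.Prime).one_lt
  have hSle : s ≤ n := by
    have hmap : IsPGroup p ((S : Subgroup (Subgroup.centralizer ({g} : Set G))).map (Subgroup.centralizer ({g} : Set G)).subtype) := S.isPGroup'.map _
    obtain ⟨Q, hQ⟩ := hmap.exists_le_sylow
    have h1 := Subgroup.card_le_of_le hQ
    rw [Subgroup.card_map_of_injective (Subgroup.subtype_injective _), hs, Nat.card_congr (Sylow.equiv Q P).toEquiv, hn] at h1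
    exact (Nat.pow_le_pow_iff_right hpp).mp h1
  have hdiv : Nat.card (P : Subgroup G) / Nat.card (S : Subgroup (Subgroup.centralizer ({g} : Set G))) = p ^ (n - s) := by
    rw [hn, hs]
    exact Nat.pow_div hSle (by omega)
  have hF : ∀ (γ : (P : Subgroup G)) (q : G × G), F (φ γ q) = F q := by
    intro γ q
    simp only [F, hφ]
    have h1 : IsConj g ((γ : G) * q.1 * (γ : G)⁻¹) ↔ IsConj g q.1 := by
      have hx : IsConj q.1 ((γ : G) * q.1 * (γ : G)⁻¹) := isConj_iff.mpr ⟨γ, rfl⟩
      exact ⟨fun h => h.trans hx.symm, fun h => h.trans hx⟩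
    have h2 : IsConj h ((γ : G) * q.2 * (γ : G)⁻¹) ↔ IsConj h q.2 := by
      have hx : IsConj q.2 ((γ : G) * q.2 * (γ : G)⁻¹) := isConj_iff.mpr ⟨γ, rfl⟩
      exact ⟨fun h => h.trans hx.symm, fun h => h.trans hx⟩
    have h3 : (γ : G) * q.2 * (γ : G)⁻¹ * ((γ : G) * q.1 * (γ : G)⁻¹)⁻¹ ∈ (P : Subgroup G) ↔ q.2 * q.1⁻¹ ∈ (P : Subgroup G) := by
      have h4 : (γ : G) * q.2 * (γ : G)⁻¹ * ((γ : G) * q.1 * (γ : G)⁻¹)⁻¹ = (γ : G) * (q.2 * q.1⁻¹) * (γ : G)⁻¹ := by group
      rw [h4]
      constructor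
      · intro h5
        have h6 := (P : Subgroup G).mul_mem ((P : Subgroup G).mul_mem ((P : Subgroup G).inv_mem γ.2) h5) γ.2
        simpa [mul_assoc] using h6
      · intro h5
        exact (P : Subgroup G).mul_mem ((P : Subgroup G).mul_mem γ.2 h5) ((P : Subgroup G).inv_mem γ.2)
    simp only [h1, h2, h3]
  have hq : ∀ q, F q ≠ 0 → p ^ (n - s) ∣ Nat.card (Cfsg.Agent.Lib.Blocks.permOrbit φ q) := by
    intro q hq
    have hq1 : IsConj g q.1 := by
      by_contra hne
      apply hq
      simp only [F]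
      exact if_neg (fun h => hne h.1)
    letI := MulAction.compHom (G × G) φ
    rw [Cfsg.Agent.Lib.Blocks.permOrbit_eq_orbit, Nat.card_coe_set_eq, ← MulAction.index_stabilizer]
    let St : Subgroup (P : Subgroup G) := MulAction.stabilizer (P : Subgroup G) q
    let T : Subgroup G := St.map (P : Subgroup G).subtype
    have hTp : IsPGroup p T := (hPp.to_subgroup St).map _
    have hTC : T ≤ Subgroup.centralizer ({q.1} : Set G) := by
      rintro _ ⟨w, hw, rfl⟩
      rw [Subgroup.mem_centralizer_singleton_iff]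
      have h1 : φ w q = q := hw
      rw [hφ] at h1
      have h2 := congrArg Prod.fst h1
      simp only [Subgroup.coe_subtype] at h2 ⊢
      rw [mul_inv_eq_iff_eq_mul] at h2
      exact h2
    obtain ⟨x, hx⟩ := isConj_iff.mp hq1
    have hTC2 : x * g * x⁻¹ ∈ Subgroup.centralizer (T : Set G) := by
      rw [hx]
      exact Cfsg.Agent.Lib.Blocks.mem_centralizer_iff_le.mpr hTC
    have h1 := Cfsg.Agent.Lib.Blocks.conjS_le_centralizer hTC2
    obtain ⟨E, hE, hTE⟩ := Cfsg.Agent.Lib.Blocks.exists_isSylowIn_ge (Cfsg.Agent.Lib.Blocks.isPGroup_conjS (x := x⁻¹) hTp) h1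
    have h2 : Nat.card St ≤ p ^ s := by
      have h3 := Subgroup.card_le_of_le hTE
      have h4 : Nat.card T = Nat.card St := Subgroup.card_map_of_injective (Subgroup.subtype_injective _)
      have h5 : Nat.card ((S : Subgroup (Subgroup.centralizer ({g} : Set G))).map (Subgroup.centralizer ({g} : Set G)).subtype) = Nat.card S := Subgroup.card_map_of_injective (Subgroup.subtype_injective _)
      rw [Cfsg.Agent.Lib.Blocks.card_conjS, hE.card_eq (Cfsg.Agent.Lib.Blocks.isSylowIn_map _ S), h4, h5, hs] at h3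
      exact h3
    obtain ⟨k, hk⟩ := IsPGroup.iff_card.mp (hPp.to_subgroup St)
    have hks : k ≤ s := by
      rw [hk] at h2
      exact (Nat.pow_le_pow_iff_right hpp).mp h2
    have h5 := St.index_mul_card
    rw [hn, hk] at h5
    have hkn : k ≤ n := hks.trans hSle
    have h6 : St.index = p ^ (n - k) := by
      have h7 : p ^ n = p ^ (n - k) * p ^ k := by rw [← pow_add]; congr 1; omega
      rw [h7] at h5
      exact Nat.eq_of_mul_eq_mul_right (by positivity) h5
    change p ^ (n - s) ∣ St.index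
    rw [h6]
    exact pow_dvd_pow p (by omega)
  obtain ⟨r, hr⟩ := Cfsg.Agent.Lib.Blocks.orbit_sum_eq_smul φ F hF (p ^ (n - s)) hq
  rw [hdiv]
  have hcount : (Nat.card {yz : G × G // IsConj g yz.1 ∧ IsConj h yz.2 ∧ yz.2 * yz.1⁻¹ ∈ (P : Subgroup G)} : ℤ) = ∑ q, F q := by
    simp only [F]
    rw [Finset.sum_boole, Nat.card_eq_fintype_card, Fintype.card_subtype]
  have h8 : ((p ^ (n - s) : ℕ) : ℤ) ∣ (Nat.card {yz : G × G // IsConj g yz.1 ∧ IsConj h yz.2 ∧ yz.2 * yz.1⁻¹ ∈ (P : Subgroup G)} : ℤ) := by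
    rw [hcount, hr]
    simp
  exact Int.natCast_dvd_natCast.mp h8

end Cfsg.Agent.S0957
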