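import Cfsg.Statements.S0967
import Cfsg.Agent.Lib.Char.PBlock
import Cfsg.Agent.Lib.Blocks.Third

set_option autoImplicit false
open Cfsg

namespace Cfsg.Agent.S0967

/-- Let N be a normal subgroup of the finite group G of order prime to p and fix a maximal ideal M of the algebraic integers containing p. If χ is an irreducible character of G ⧸ N and ψ lies in the block of its inflation χ ∘ (quotient map), then ψ is itself inflated from an irreducible character ψ' of G ⧸ N lying in the block of χ. (Over a normal p'-subgroup, blocks of the quotient are whole blocks of G.) -/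
theorem result {G : Type*} [Group G] [Finite G] (p : ℕ) [Fact p.Prime] (M : Ideal Cfsg.AlgInt) (hM : Cfsg.IsPModular p M) (N : Subgroup G) [N.Normal] (hN : ¬ p ∣ Nat.card N) (χ : Cfsg.IrrCharacter (G ⧸ N)) (ψ : Cfsg.IrrCharacter G) (hψ : ψ ∈ Cfsg.blockOf M ((χ : G ⧸ N → ℂ) ∘ QuotientGroup.mk)) : ∃ ψ' : Cfsg.IrrCharacter (G ⧸ N), (ψ : G → ℂ) = (ψ' : G ⧸ N → ℂ) ∘ QuotientGroup.mk ∧ Cfsg.SameBlock M (χ : G ⧸ N → ℂ) (ψ' : G ⧸ N → ℂ) := by
  classical
  letI := Fintype.ofFinite G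
  letI : Fintype N := Fintype.ofFinite N
  letI : Fintype (G ⧸ N) := Fintype.ofFinite _
  haveI := Cfsg.Agent.Lib.Blocks.isPrime_of_modular hM
  set χ₀ : Cfsg.IrrCharacter G := Cfsg.Agent.Lib.Char.irrInflate N χ with hχ₀
  have h₀ : (χ₀ : G → ℂ) = (χ : G ⧸ N → ℂ) ∘ QuotientGroup.mk := rfl
  rw [← h₀] at hψ
  have hB := Cfsg.Agent.Lib.Blocks.isPBlock_blockOf (M := M) χ₀
  have hle : N ≤ Cfsg.Agent.Lib.Char.charKer (χ₀ : G → ℂ) :=
    Cfsg.Agent.Lib.Char.le_charKer_inflate N (Cfsg.Agent.Lib.Char.IsIrrCharacter.isCharacter χ.2)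
  have hle' := Cfsg.Agent.Lib.Blocks.le_charKer_of_block hM hN hB
    (Cfsg.Agent.Lib.Blocks.self_mem_blockOf χ₀) hψ hle
  obtain ⟨β, hβ, hβe⟩ := Cfsg.Agent.Lib.Char.exists_deflate N ψ.2 hle'
  refine ⟨⟨β, hβ⟩, hβe, ?_⟩
  refine Cfsg.Agent.Lib.Char.sameBlock_of_inflate N hM hN (β := χ) (β' := ⟨β, hβ⟩) ?_
  have h1 := Cfsg.Agent.Lib.Blocks.sameBlock_of_mem hB (Cfsg.Agent.Lib.Blocks.self_mem_blockOf χ₀) hψ
  rw [hβe] at h1
  exact h1

end Cfsg.Agent.S0967
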