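import Cfsg.Statements.S0969
import Cfsg.Agent.Lib.Blocks.Laradji

set_option autoImplicit false
open Cfsg

namespace Cfsg.Agent.S0969

/-- Let D be a central p-subgroup of the finite group G and χ an irreducible character with the exponent of p in χ(1) equal to the exponent of p in the index of D; fix a maximal ideal M of the algebraic integers containing p. Then D is a defect group of the block of χ, and χ g = 0 whenever the p-part of g does not lie in D. -/
theorem result {G : Type*} [Group G] [Finite G] (p : ℕ) [Fact p.Prime] (M : Ideal Cfsg.AlgInt) (hM : Cfsg.IsPModular p M) (D : Subgroup G) (hD : IsPGroup p D) (hDZ : D ≤ Subgroup.center G) (χ : Cfsg.IrrCharacter G) (hdeg : (Cfsg.charDegree (χ : G → ℂ)).factorization p = D.index.factorization p) : Cfsg.IsDefectGroup p M (Cfsg.blockOf M (χ : G → ℂ)) D ∧ ∀ g x : G, Cfsg.IsPPart p g x → x ∉ D → (χ : G → ℂ) g = 0 := by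
  classical
  letI := Fintype.ofFinite G
  have hDZ' : ∀ d ∈ D, ∀ w : G, Commute w d := fun d hd w => by
    have := Subgroup.mem_center_iff.mp (hDZ hd) w
    exact this
  refine ⟨Cfsg.Agent.Lib.Blocks.central_defect hM hD hDZ' hdeg.ge, ?_⟩
  intro g x hx hxD
  have := Cfsg.Agent.Lib.Blocks.isPrime_of_modular hM
  have hidx0 : D.index ≠ 0 := Subgroup.index_ne_zero_of_finite
  have hc0 := Cfsg.Agent.Lib.Blocks.natCast_div_memLocalRing (M := M) hM hidx0 hdeg.ge
  refine Cfsg.Agent.Lib.Blocks.irr_eq_zero_of_pPart_notMem_central hM hDZ' ?_ hx hxD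
  have hcard : (Nat.card D : ℂ) * (D.index : ℂ) = Nat.card G := by
    exact_mod_cast Subgroup.card_mul_index D
  have h1 := Cfsg.Agent.Lib.Char.apply_one_eq_charDegree (Cfsg.Agent.Lib.Blocks.irr_isCharacter χ)
  have hcardC : (Nat.card D : ℂ) ≠ 0 := by exact_mod_cast Nat.card_pos.ne'
  have hidxC : (D.index : ℂ) ≠ 0 := by exact_mod_cast hidx0
  have : (Nat.card D : ℂ) * ((χ : G → ℂ) 1 / (Nat.card G : ℂ)) = (Cfsg.charDegree (χ : G → ℂ) : ℂ) / (D.index : ℂ) := by
    rw [← hcard, h1]
    field_simp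
  rw [this]
  exact hc0

end Cfsg.Agent.S0969
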