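import Cfsg.Statements.S0971
import Cfsg.Agent.Lib.Blocks.CoverApps

set_option autoImplicit false
open Cfsg

namespace Cfsg.Agent.S0971

/-- Let Q be a normal p-subgroup of the finite group G, let N = Q ⊔ C_G(Q) (a normal subgroup) and let b be a block of N relative to a maximal ideal M of the algebraic integers containing p. Then b induces some block of G, and every block B of G containing a character whose restriction to N has a constituent in b is induced by b. -/
theorem result {G : Type*} [Group G] [Fintype G] (p : ℕ) [Fact p.Prime] (M : Ideal Cfsg.AlgInt) (hM : Cfsg.IsPModular p M) (Q : Subgroup G) [Q.Normal] (hQ : IsPGroup p Q) [Fintype ↥(Q ⊔ Subgroup.centralizer (Q : Set G))] (b : Set (Cfsg.IrrCharacter ↥(Q ⊔ Subgroup.centralizer (Q : Set G)))) (hb : Cfsg.IsPBlock M b) : Cfsg.InducedBlockDefined M (Q ⊔ Subgroup.centralizer (Q : Set G)) b ∧ ∀ B : Set (Cfsg.IrrCharacter G), Cfsg.IsPBlock M B → (∃ χ ∈ B, ∃ θ ∈ b, Cfsg.classInner (fun n : ↥(Q ⊔ Subgroup.centralizer (Q : Set G)) => (χ : G → ℂ) n)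 (θ : ↥(Q ⊔ Subgroup.centralizer (Q : Set G)) → ℂ) ≠ 0) → Cfsg.IsInducedBlock M (Q ⊔ Subgroup.centralizer (Q : Set G)) b B := by
  classical
  haveI := Cfsg.Agent.Lib.Blocks.isPrime_of_modular hM
  haveI : (Q ⊔ Subgroup.centralizer (Q : Set G)).Normal := inferInstance
  constructor
  · refine Cfsg.Agent.Lib.Blocks.exists_isInducedBlock _ hM hQ le_sup_left le_sup_right ?_ hb
    rw [Subgroup.normalizer_eq_top_iff.mpr inferInstance]
    exact le_top
  · intro B hB h
    exact Cfsg.Agent.Lib.Blocks.isInducedBlock_of_covering _ hM hQ le_sup_right hb hB h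

end Cfsg.Agent.S0971
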