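import Cfsg.Statements.S0986
import Mathlib
import Cfsg.Agent.Lib.Small.Order3

set_option autoImplicit false
open Cfsg

namespace Cfsg.Agent.S0986

section aux

variable {G : Type*} [Group G] [Finite G] {p : ℕ} [Fact p.Prime]

/-- image of `D` in its normalizer is normal. -/
private theorem d_le_map (D : Subgroup G) (hD : IsPGroup p D)
    (S : Sylow p ↥(Subgroup.normalizer ((D : Subgroup G) : Set G))) :
    D ≤ (S : Subgroup _).map (Subgroup.normalizer ((D : Subgroup G) : Set G)).subtype := by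
  have hle : D ≤ Subgroup.normalizer ((D : Subgroup G) : Set G) := Subgroup.le_normalizer
  haveI hN : (D.subgroupOf (Subgroup.normalizer ((D : Subgroup G) : Set G))).Normal :=
    Subgroup.normal_in_normalizer
  have hP : IsPGroup p (D.subgroupOf (Subgroup.normalizer ((D : Subgroup G) : Set G))) :=
    IsPGroup.of_equiv hD (Subgroup.subgroupOfEquivOfLe hle).symm
  have h1 := hP.le_sylow_of_normal S
  intro d hd
  refine ⟨⟨d, hle hd⟩, h1 ?_, rfl⟩
  rw [Subgroup.mem_subgroupOf]
  exact hd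

/-- In a Sylow `A` strictly containing `D`, there's an element of `A \ D` normalizing `D`. -/
private theorem exists_mem_normalizer (D : Subgroup G) (A : Subgroup G) (hA : IsPGroup p A) (hDA : D ≤ A)
    (hne : D ≠ A) : ∃ x ∈ A, x ∉ D ∧ x ∈ Subgroup.normalizer ((D : Subgroup G) : Set G) := by
  haveI hnil : Group.IsNilpotent A := hA.isNilpotent
  have hgrow := Group.normalizerCondition_of_isNilpotent (G := A)
  have hlt : D.subgroupOf A < ⊤ := by
    rw [lt_top_iff_ne_top]
    intro h
    apply hne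
    apply le_antisymm hDA
    intro w hw
    have : (⟨w, hw⟩ : A) ∈ D.subgroupOf A := by rw [h]; trivial
    exact this
  obtain ⟨⟨w, hwA⟩, hw1, hw2⟩ := SetLike.exists_of_lt (hgrow (D.subgroupOf A) hlt)
  refine ⟨w, hwA, hw2, ?_⟩
  rw [Subgroup.mem_normalizer_iff]
  intro d
  constructor
  · intro hd
    have h1 := (Subgroup.mem_normalizer_iff.mp hw1 ⟨d, hDA hd⟩).mp hd
    exact h1
  · intro hd
    -- finite order argument: conjugation by w maps D into D injectively, hence onto
    have hmap : ∀ y ∈ D, w * y * w⁻¹ ∈ D := fun y hy => (Subgroup.mem_normalizer_iff.mp hw1 ⟨y, hDA hy⟩).mp hy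
    have hd2 : w⁻¹ ∈ Subgroup.normalizer ((D : Subgroup G) : Set G) ∨ True := Or.inr trivial
    have hdA : d ∈ A := by
      have h3 : w * d * w⁻¹ ∈ A := hDA hd
      have h4 : d = w⁻¹ * (w * d * w⁻¹) * w := by group
      rw [h4]
      exact A.mul_mem (A.mul_mem (A.inv_mem hwA) h3) hwA
    exact (Subgroup.mem_normalizer_iff.mp hw1 ⟨d, hdA⟩).mpr hd

end aux

/-- Let P and Q be distinct Sylow p-subgroups of a finite group G chosen so that the order of P ∩ Q is as large as possible among intersections of two distinct Sylow p-subgroups, and let N be the normalizer of P ∩ Q. Then N has more than one Sylow p-subgroup, any two distinct Sylow p-subgroups of N intersect exactly in P ∩ Q, and each Sylow p-subgroup of N lies in exactly one Sylow p-subgroup of G. -/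
theorem result {G : Type*} [Group G] [Finite G] (p : ℕ) [Fact p.Prime] (P Q : Sylow p G) (hPQ : P ≠ Q) (hmax : ∀ P' Q' : Sylow p G, P' ≠ Q' → Nat.card ↥((P' : Subgroup G) ⊓ (Q' : Subgroup G)) ≤ Nat.card ↥((P : Subgroup G) ⊓ (Q : Subgroup G))) : 1 < Nat.card (Sylow p ↥(Subgroup.normalizer (((P : Subgroup G) ⊓ (Q : Subgroup G) : Subgroup G) : Set G))) ∧ (∀ S T : Sylow p ↥(Subgroup.normalizer (((P : Subgroup G) ⊓ (Q : Subgroup G) : Subgroup G) : Set G)), S ≠ T → (S : Subgroup _) ⊓ (T : Subgroup _) = ((P : Subgroup G) ⊓ (Q : Subgroup G)).subgroupOf (Subgroup.normalizer (((P : Subgroup G) ⊓ (Q : Subgroup G) : Subgroup G) : Set G))) ∧ ∀ S : Sylow p ↥(Subgroup.normalizer (((P : Subgroup G) ⊓ (Q : Subgroup G) : Subgroup G) : Set G)), ∃! T : Sylow p G, (S : Subgroup _).map (Subgroup.normalizer (((P : Subgroup G) ⊓ (Q : Subgroup G) : Subgroup G) : Set G)).subtype ≤ (T : Subgroup G) := by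
  classical
  set D : Subgroup G := (P : Subgroup G) ⊓ (Q : Subgroup G) with hDdef
  have hDp : IsPGroup p D := P.isPGroup'.to_le inf_le_left
  set N := Subgroup.normalizer ((D : Subgroup G) : Set G) with hN
  have hDP : D ≠ (P : Subgroup G) := by
    intro h
    apply hPQ
    have h1 : (P : Subgroup G) ≤ Q := inf_eq_left.mp h
    exact Sylow.ext (P.is_maximal' Q.isPGroup' h1).symm
  have hDQ : D ≠ (Q : Subgroup G) := by
    intro h
    apply hPQ
    have h1 : (Q : Subgroup G) ≤ P := inf_eq_right.mp h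
    exact Sylow.ext (Q.is_maximal' P.isPGroup' h1)
  -- maximality consequence
  have hmax' : ∀ A B : Sylow p G, A ≠ B → Nat.card ↥((A : Subgroup G) ⊓ (B : Subgroup G)) ≤ Nat.card D := hmax
  -- a key lemma: p-subgroup strictly above D lies in at most one Sylow
  have huniq : ∀ (U : Subgroup G), D ≤ U → D ≠ U → ∀ A B : Sylow p G, U ≤ A → U ≤ B → A = B := by
    intro U hDU hne A B hA hB
    by_contra hAB
    have h1 := hmax' A B hAB
    have hle : U ≤ (A : Subgroup G) ⊓ (B : Subgroup G) := le_inf hA hB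
    have h2 : Nat.card U ≤ Nat.card ↥((A : Subgroup G) ⊓ (B : Subgroup G)) := Subgroup.card_le_of_le hle
    have h3 : U = D := (Subgroup.eq_of_le_of_card_ge hDU (h2.trans h1)).symm
    exact hne h3.symm
  obtain ⟨x₁, hx₁P, hx₁D, hx₁N⟩ := exists_mem_normalizer D P P.isPGroup' inf_le_left hDP
  obtain ⟨x₂, hx₂Q, hx₂D, hx₂N⟩ := exists_mem_normalizer D Q Q.isPGroup' inf_le_right hDQ
  -- P ⊓ N is a p-subgroup of N strictly above D
  let U₁ : Subgroup N := ((P : Subgroup G) ⊓ N).subgroupOf N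
  let U₂ : Subgroup N := ((Q : Subgroup G) ⊓ N).subgroupOf N
  have hU₁ : IsPGroup p U₁ := by
    have : IsPGroup p ((P : Subgroup G) ⊓ N : Subgroup G) := P.isPGroup'.to_le inf_le_left
    exact this.of_equiv (Subgroup.subgroupOfEquivOfLe inf_le_right).symm
  have hU₂ : IsPGroup p U₂ := by
    have : IsPGroup p ((Q : Subgroup G) ⊓ N : Subgroup G) := Q.isPGroup'.to_le inf_le_left
    exact this.of_equiv (Subgroup.subgroupOfEquivOfLe inf_le_right).symm
  obtain ⟨S₁, hS₁⟩ := hU₁.exists_le_sylow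
  obtain ⟨S₂, hS₂⟩ := hU₂.exists_le_sylow
  -- images
  let im : Sylow p N → Subgroup G := fun S => (S : Subgroup N).map N.subtype
  have himp : ∀ S : Sylow p N, IsPGroup p (im S) := fun S => S.isPGroup'.map N.subtype
  have himD : ∀ S : Sylow p N, D ≤ im S := fun S => d_le_map D hDp S
  have himle : ∀ S : Sylow p N, im S ≤ N := fun S => by
    rintro _ ⟨s, _, rfl⟩
    exact s.2
  have hx₁S : x₁ ∈ im S₁ := ⟨⟨x₁, hx₁N⟩, hS₁ (by
    rw [Subgroup.mem_subgroupOf]
    exact ⟨hx₁P, hx₁N⟩), rfl⟩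
  have hx₂S : x₂ ∈ im S₂ := ⟨⟨x₂, hx₂N⟩, hS₂ (by
    rw [Subgroup.mem_subgroupOf]
    exact ⟨hx₂Q, hx₂N⟩), rfl⟩
  -- all Sylows of N have the same order so D ≠ im S for all S
  have hcard : ∀ S T : Sylow p N, Nat.card (im S) = Nat.card (im T) := by
    intro S T
    have h1 : Nat.card (im S) = Nat.card (S : Subgroup N) :=
      Nat.card_congr ((S : Subgroup N).equivMapOfInjective N.subtype N.subtype_injective).toEquiv.symm
    have h2 : Nat.card (im T) = Nat.card (T : Subgroup N) :=
      Nat.card_congr ((T : Subgroup N).equivMapOfInjective N.subtype N.subtype_injective).toEquiv.symm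
    rw [h1, h2]
    exact Nat.card_congr (Sylow.equiv S T).toEquiv
  have hDS₁ : D ≠ im S₁ := fun h => hx₁D (by rw [h]; exact hx₁S)
  have hstrict : ∀ S : Sylow p N, D ≠ im S := by
    intro S h
    have h1 : Nat.card (im S₁) ≤ Nat.card D := by rw [hcard S₁ S, ← h]
    exact hDS₁ (Subgroup.eq_of_le_of_card_ge (himD S₁) h1)
  have hP₁ : ∀ A : Sylow p G, im S₁ ≤ A → A = P := by
    intro A hA
    have hU : (P : Subgroup G) ⊓ N ≤ im S₁ := by
      intro w hw
      refine ⟨⟨w, hw.2⟩, hS₁ ?_, rfl⟩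
      rw [Subgroup.mem_subgroupOf]
      exact hw
    refine huniq ((P : Subgroup G) ⊓ N) (le_inf inf_le_left (Subgroup.le_normalizer)) ?_ A P (hU.trans hA) inf_le_left
    intro h
    exact hx₁D (by rw [h]; exact ⟨hx₁P, hx₁N⟩)
  have hQ₂ : ∀ A : Sylow p G, im S₂ ≤ A → A = Q := by
    intro A hA
    have hU : (Q : Subgroup G) ⊓ N ≤ im S₂ := by
      intro w hw
      refine ⟨⟨w, hw.2⟩, hS₂ ?_, rfl⟩
      rw [Subgroup.mem_subgroupOf]
      exact hw
    refine huniq ((Q : Subgroup G) ⊓ N) (le_inf inf_le_right (Subgroup.le_normalizer)) ?_ A Q (hU.trans hA) inf_le_left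
    intro h
    exact hx₂D (by rw [h]; exact ⟨hx₂Q, hx₂N⟩)
  refine ⟨?_, ?_, ?_⟩
  · by_contra hcontra
    have hone : Nat.card (Sylow p N) = 1 := by
      have hpos : 0 < Nat.card (Sylow p N) := Nat.card_pos
      omega
    haveI : Subsingleton (Sylow p N) := (Nat.card_eq_one_iff_unique.mp hone).1
    have hS12 : S₁ = S₂ := Subsingleton.elim _ _
    obtain ⟨A, hA⟩ := (himp S₁).exists_le_sylow
    have h1 := hP₁ A hA
    have h2 := hQ₂ A (by rw [← hS12]; exact hA)
    exact hPQ (h1.symm.trans h2)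
  · intro S T hST
    obtain ⟨A, hA⟩ := (himp S).exists_le_sylow
    obtain ⟨B, hB⟩ := (himp T).exists_le_sylow
    have hAB : A ≠ B := by
      intro h
      subst h
      have hpA : IsPGroup p (((A : Subgroup G) ⊓ N : Subgroup G).subgroupOf N) := by
        have : IsPGroup p ((A : Subgroup G) ⊓ N : Subgroup G) := A.isPGroup'.to_le inf_le_left
        exact this.of_equiv (Subgroup.subgroupOfEquivOfLe inf_le_right).symm
      have hSle : (S : Subgroup N) ≤ ((A : Subgroup G) ⊓ N : Subgroup G).subgroupOf N := by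
        intro w hw
        rw [Subgroup.mem_subgroupOf]
        exact ⟨hA ⟨w, hw, rfl⟩, w.2⟩
      have hTle : (T : Subgroup N) ≤ ((A : Subgroup G) ⊓ N : Subgroup G).subgroupOf N := by
        intro w hw
        rw [Subgroup.mem_subgroupOf]
        exact ⟨hB ⟨w, hw, rfl⟩, w.2⟩
      have e1 := S.is_maximal' hpA hSle
      have e2 := T.is_maximal' hpA hTle
      exact hST (Sylow.ext (e1.symm.trans e2))
    have hDAB : D ≤ (A : Subgroup G) ⊓ (B : Subgroup G) :=
      le_inf ((himD S).trans hA) ((himD T).trans hB)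
    have hABD : (A : Subgroup G) ⊓ (B : Subgroup G) = D :=
      (Subgroup.eq_of_le_of_card_ge hDAB (hmax' A B hAB)).symm
    apply le_antisymm
    · intro w hw
      rw [Subgroup.mem_subgroupOf]
      have : (w : G) ∈ (A : Subgroup G) ⊓ (B : Subgroup G) :=
        ⟨hA ⟨w, hw.1, rfl⟩, hB ⟨w, hw.2, rfl⟩⟩
      rw [hABD] at this
      exact this
    · intro w hw
      rw [Subgroup.mem_subgroupOf] at hw
      have hS' := himD S hw
      have hT' := himD T hw
      obtain ⟨w1, hw1, e1⟩ := hS'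
      obtain ⟨w2, hw2, e2⟩ := hT'
      have e1' : w1 = w := Subtype.ext e1
      have e2' : w2 = w := Subtype.ext e2
      exact ⟨e1' ▸ hw1, e2' ▸ hw2⟩
  · intro S
    obtain ⟨A, hA⟩ := (himp S).exists_le_sylow
    refine ⟨A, hA, ?_⟩
    intro B hB
    exact huniq (im S) (himD S) (hstrict S) B A hB hA

end Cfsg.Agent.S0986
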