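import Cfsg.Statements.S0987
import Mathlib
import Cfsg.Agent.Lib.SmallSimple.Count

set_option autoImplicit false
open Cfsg

namespace Cfsg.Agent.S0987

open Cfsg.Agent.Lib.SmallSimple in
/-- If `A` is a normal subgroup of prime order `s < r`, then `A` normalizes every Sylow `r`-subgroup. -/
theorem normal_le_normalizer {G : Type*} [Group G] [Finite G] {r s : ℕ} [hr : Fact r.Prime] (hs : s.Prime) (hsr : s < r)
    (A : Subgroup G) [hA : A.Normal] (hcA : Nat.card A = s) (R : Sylow r G) :
    A ≤ Subgroup.normalizer ((R : Subgroup G) : Set G) := by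
  -- R acts trivially on A
  have hcomm : ∀ x ∈ (R : Subgroup G), ∀ a ∈ A, x * a = a * x := by
    intro x hx a ha
    have : Fact s.Prime := ⟨hs⟩
    have hAc : IsCyclic A := isCyclic_of_prime_card hcA
    let φ : G →* MulAut A := MulAut.conjNormal
    have hord : orderOf (φ x) ∣ Nat.card (MulAut A) := orderOf_dvd_natCard _
    rw [IsCyclic.card_mulAut, hcA, Nat.totient_prime hs] at hord
    obtain ⟨n, hn⟩ := IsPGroup.iff_card.mp R.isPGroup'
    have hxr : orderOf (φ x) ∣ r ^ n := by
      have h2 : orderOf (⟨x, hx⟩ : (R : Subgroup G)) ∣ r ^ n :=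
        (orderOf_dvd_natCard (⟨x, hx⟩ : (R : Subgroup G))).trans (dvd_of_eq hn)
      have h3 : orderOf (⟨x, hx⟩ : (R : Subgroup G)) = orderOf x := Subgroup.orderOf_mk x hx
      rw [h3] at h2
      exact (orderOf_map_dvd φ x).trans h2
    obtain ⟨k, _, hk⟩ := (Nat.dvd_prime_pow hr.out).mp hxr
    have h1 : orderOf (φ x) = 1 := by
      rcases k.eq_zero_or_pos with h0 | h0
      · rw [hk, h0, pow_zero]
      · exfalso
        have hdvd : r ∣ s - 1 := by
          rw [hk] at hord
          exact (dvd_pow_self r h0.ne').trans hord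
        have hle := Nat.le_of_dvd (by have := hs.one_lt; omega) hdvd
        omega
    have h2 : φ x = 1 := orderOf_eq_one_iff.mp h1
    have h3 : φ x ⟨a, ha⟩ = ⟨a, ha⟩ := by rw [h2]; rfl
    have h4 : x * a * x⁻¹ = a := congrArg Subtype.val h3
    exact mul_inv_eq_iff_eq_mul.mp h4
  intro a ha
  rw [Subgroup.mem_normalizer_iff]
  intro y
  constructor
  · intro hy
    have : a * y * a⁻¹ = y := by
      rw [← hcomm y hy a ha]
      group
    rw [this]
    exact hy
  · intro hy
    have h1 := hcomm _ hy a ha
    have h2 : a * y * a⁻¹ * a = a * (a * y * a⁻¹) := h1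
    have h3 : y = a * y * a⁻¹ := by
      have : a * y = a * (a * y * a⁻¹) := by
        calc a * y = a * y * a⁻¹ * a := by group
          _ = _ := h2
      exact mul_left_cancel this
    rw [h3]
    exact hy


/-- If a finite group has order pqr for primes p < q < r, then its Sylow r-subgroups are normal. -/
theorem result {G : Type*} [Group G] [Finite G] (p q r : ℕ) (hp : p.Prime) (hq : q.Prime) [Fact r.Prime] (hpq : p < q) (hqr : q < r) (hG : Nat.card G = p * q * r) (R : Sylow r G) : (R : Subgroup G).Normal := by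
  classical
  open Cfsg.Agent.Lib.SmallSimple in
  by_contra hnot
  have hrp : r.Prime := Fact.out
  have hp1 := hp.one_lt
  have hq1 := hq.one_lt
  have hr1 := hrp.one_lt
  have hqnr : q ≠ r := by omega
  have hcr : Nat.card G = r ^ 1 * (p * q) := by rw [hG]; ring
  have hcq : Nat.card G = q ^ 1 * (p * r) := by rw [hG]; ring
  have hcp : Nat.card G = p ^ 1 * (q * r) := by rw [hG]; ring
  have : Fact q.Prime := ⟨hq⟩
  have : Fact p.Prime := ⟨hp⟩
  have ndr : ¬ r ∣ p * q := by
    intro h
    rcases (Nat.Prime.dvd_mul hrp).mp h with h | h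
    · have := Nat.le_of_dvd hp.pos h; omega
    · have := Nat.le_of_dvd hq.pos h; omega
  have ndq : ¬ q ∣ p * r := by
    intro h
    rcases (Nat.Prime.dvd_mul hq).mp h with h | h
    · have := Nat.le_of_dvd hp.pos h; omega
    · exact hqnr ((Nat.prime_dvd_prime_iff_eq hq hrp).mp h)
  have ndp : ¬ p ∣ q * r := by
    intro h
    rcases (Nat.Prime.dvd_mul hp).mp h with h | h
    · have := (Nat.prime_dvd_prime_iff_eq hp hq).mp h; omega
    · have := (Nat.prime_dvd_prime_iff_eq hp hrp).mp h; omega
  have cR : ∀ P : Sylow r G, Nat.card (P : Subgroup G) = r := fun P => by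
    simpa using sylow_card_of_eq P hcr ndr
  have cQ : ∀ P : Sylow q G, Nat.card (P : Subgroup G) = q := fun P => by
    simpa using sylow_card_of_eq P hcq ndq
  have cP : ∀ P : Sylow p G, Nat.card (P : Subgroup G) = p := fun P => by
    simpa using sylow_card_of_eq P hcp ndp
  -- number of Sylow r-subgroups
  have nr1 : Nat.card (Sylow r G) % r = 1 := by
    have h2 : Nat.card (Sylow r G) % r = 1 % r := card_sylow_modEq_one r G
    rwa [Nat.mod_eq_of_lt hr1] at h2
  have nrd : Nat.card (Sylow r G) ∣ p * q := by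
    have := Sylow.card_dvd_index R
    rwa [sylow_index_of_eq R hcr ndr] at this
  have nrne : Nat.card (Sylow r G) ≠ 1 := by
    intro h
    apply hnot
    rw [← Subgroup.normalizer_eq_top_iff, ← Subgroup.index_eq_one]
    exact (Sylow.card_eq_index_normalizer R).symm.trans h
  have nreq : Nat.card (Sylow r G) = p * q := by
    generalize hn : Nat.card (Sylow r G) = n at *
    have h1 : n ∣ p * q := nrd
    rcases (Nat.dvd_mul).mp h1 with ⟨a, b, ha, hb, hab⟩
    rcases (Nat.dvd_prime hp).mp ha with rfl | rfl <;> rcases (Nat.dvd_prime hq).mp hb with rfl | rfl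
    · simp at hab; omega
    · simp at hab; subst hab; rw [Nat.mod_eq_of_lt (by omega)] at nr1; omega
    · simp at hab; subst hab; rw [Nat.mod_eq_of_lt (by omega)] at nr1; omega
    · exact hab.symm
  have hNR : Nat.card (Subgroup.normalizer ((R : Subgroup G) : Set G)) * (p * q) = p * q * r := by
    have := card_normalizer_mul_card_sylow r R
    rwa [nreq, hG] at this
  have hNRc : Nat.card (Subgroup.normalizer ((R : Subgroup G) : Set G)) = r := by
    have : 0 < p * q := Nat.mul_pos hp.pos hq.pos
    apply Nat.eq_of_mul_eq_mul_right this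
    rw [hNR]; ring
  -- a normal subgroup of order s (s < r, s ≠ r) gives a contradiction
  have key : ∀ (s : ℕ), s.Prime → s < r → ∀ A : Subgroup G, A.Normal → Nat.card A = s → False := by
    intro s hs hsr A hA hcA
    have hle := normal_le_normalizer hs hsr A hcA R
    have h1 : s ∣ Nat.card (Subgroup.normalizer ((R : Subgroup G) : Set G)) := by
      rw [← hcA]; exact Subgroup.card_dvd_of_le hle
    rw [hNRc] at h1
    have := Nat.le_of_dvd hrp.pos h1
    have h2 := (Nat.prime_dvd_prime_iff_eq hs hrp).mp h1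
    omega
  -- number of Sylow q-subgroups
  have nq : r ≤ Nat.card (Sylow q G) := by
    obtain ⟨Q⟩ : Nonempty (Sylow q G) := inferInstance
    have nq1 : Nat.card (Sylow q G) % q = 1 := by
      have h2 : Nat.card (Sylow q G) % q = 1 % q := card_sylow_modEq_one q G
      rwa [Nat.mod_eq_of_lt hq1] at h2
    have nqd : Nat.card (Sylow q G) ∣ p * r := by
      have := Sylow.card_dvd_index Q
      rwa [sylow_index_of_eq Q hcq ndq] at this
    have nqne : Nat.card (Sylow q G) ≠ 1 := by
      intro h
      have hn : (Q : Subgroup G).Normal := by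
        rw [← Subgroup.normalizer_eq_top_iff, ← Subgroup.index_eq_one]
        exact (Sylow.card_eq_index_normalizer Q).symm.trans h
      exact key q hq hqr Q hn (cQ Q)
    generalize Nat.card (Sylow q G) = n at *
    rcases (Nat.dvd_mul).mp nqd with ⟨a, b, ha, hb, hab⟩
    rcases (Nat.dvd_prime hp).mp ha with rfl | rfl <;> rcases (Nat.dvd_prime hrp).mp hb with rfl | rfl
    · simp at hab; omega
    · simp at hab; omega
    · simp at hab; subst hab; rw [Nat.mod_eq_of_lt hpq] at nq1; omega
    · rw [← hab]; exact Nat.le_mul_of_pos_left _ hp.pos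
  -- number of Sylow p-subgroups
  have np : q ≤ Nat.card (Sylow p G) := by
    obtain ⟨Q⟩ : Nonempty (Sylow p G) := inferInstance
    have npd : Nat.card (Sylow p G) ∣ q * r := by
      have := Sylow.card_dvd_index Q
      rwa [sylow_index_of_eq Q hcp ndp] at this
    have npne : Nat.card (Sylow p G) ≠ 1 := by
      intro h
      have hn : (Q : Subgroup G).Normal := by
        rw [← Subgroup.normalizer_eq_top_iff, ← Subgroup.index_eq_one]
        exact (Sylow.card_eq_index_normalizer Q).symm.trans h
      exact key p hp (by omega) Q hn (cP Q)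
    generalize Nat.card (Sylow p G) = n at *
    rcases (Nat.dvd_mul).mp npd with ⟨a, b, ha, hb, hab⟩
    rcases (Nat.dvd_prime hq).mp ha with rfl | rfl <;> rcases (Nat.dvd_prime hrp).mp hb with rfl | rfl
    · simp at hab; omega
    · simp at hab; omega
    · simp at hab; omega
    · rw [← hab]; exact Nat.le_mul_of_pos_right _ hrp.pos
  -- counting
  have hsum := sum_card_orderOf_le (G := G) {1, p, q, r}
  have h1p : 1 ∉ ({p, q, r} : Finset ℕ) := by
    simp only [Finset.mem_insert, Finset.mem_singleton, not_or]; omega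
  have h2p : p ∉ ({q, r} : Finset ℕ) := by
    simp only [Finset.mem_insert, Finset.mem_singleton, not_or]; omega
  have h3p : q ∉ ({r} : Finset ℕ) := by
    simp only [Finset.mem_singleton]; omega
  rw [Finset.sum_insert h1p, Finset.sum_insert h2p, Finset.sum_insert h3p, Finset.sum_singleton,
    card_orderOf_one, card_orderOf_eq_prime cP, card_orderOf_eq_prime cQ, card_orderOf_eq_prime cR, nreq, hG] at hsum
  obtain ⟨p', rfl⟩ : ∃ p', p = p' + 1 := ⟨p - 1, by omega⟩
  obtain ⟨q', rfl⟩ : ∃ q', q = q' + 1 := ⟨q - 1, by omega⟩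
  obtain ⟨r', rfl⟩ : ∃ r', r = r' + 1 := ⟨r - 1, by omega⟩
  simp only [Nat.add_sub_cancel] at hsum
  have h5 : (r' + 1) * q' ≤ Nat.card (Sylow (q' + 1) G) * q' := Nat.mul_le_mul_right _ nq
  have h6 : (q' + 1) * p' ≤ Nat.card (Sylow (p' + 1) G) * p' := Nat.mul_le_mul_right _ np
  have hq0 : 1 ≤ q' := by omega
  have hr0 : 1 ≤ r' := by omega
  nlinarith [Nat.mul_le_mul hq0 hr0]

end Cfsg.Agent.S0987
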