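import Cfsg.Statements.S0988
import Cfsg.Agent.Lib.SmallSimple.Count
import Cfsg.Agent.Lib.SmallSimple.Basic
import Cfsg.Agent.Lib.SmallSimple.Sylow
import Cfsg.Agent.S0144

set_option autoImplicit false
open Cfsg

namespace Cfsg.Agent.S0988

open Cfsg.Agent.Lib.SmallSimple Subgroup

theorem false_of_two_primes {G : Type*} [Group G] [Finite G] [IsSimpleGroup G] (p q a b : ℕ) (hp : p.Prime)
    (hq : q.Prime) (hcard : Nat.card G = p ^ a * q ^ b) (hnp : ¬ (Nat.card G).Prime) : False := by
  have hs := Cfsg.Agent.S0144.result (G := G) p q a b hp hq hcard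
  have hc := IsSimpleGroup.comm_iff_isSolvable (G := G) |>.mpr hs
  exact not_comm_of_not_prime hnp ⟨⟨hc⟩⟩

/-- A prime dividing the order exactly once is not the smallest one. -/
theorem minFac_ne {G : Type*} [Group G] [Finite G] [IsSimpleGroup G] (s m : ℕ) (hs : s.Prime) (hcard : Nat.card G = s ^ 1 * m)
    (hm : ¬ s ∣ m) (hnc : ¬ IsPGroup s G) : (Nat.card G).minFac ≠ s := by
  intro hmin
  haveI : Fact s.Prime := ⟨hs⟩
  obtain ⟨P⟩ : Nonempty (Sylow s G) := inferInstance
  have hc : IsCyclic P := isCyclic_sylow_of_eq P hcard hm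
  have hd : s ∣ Nat.card G := by rw [hcard]; exact ⟨m, by ring⟩
  exact normalizer_not_le_centralizer hd hnc P (IsCyclic.normalizer_le_centralizer hmin hc)

/-- The key arithmetic. -/
theorem core {G : Type*} [Group G] [Finite G] [IsSimpleGroup G] (p q r : ℕ) (hp : p.Prime) (hq : q.Prime) (hr : r.Prime)
    (hpq : p ≠ q) (hpr : p ≠ r) (hqr : q ≠ r) (hG : Nat.card G = p ^ 2 * q * r) : p = 2 ∧ (q = 3 ∨ r = 3) := by
  haveI : Fact p.Prime := ⟨hp⟩
  have hnprime : ¬ (Nat.card G).Prime := by
    rw [hG, mul_assoc]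
    apply Nat.not_prime_mul (by have := hp.two_le; exact (one_lt_pow₀ (by omega) (by norm_num)).ne') (by have := hq.two_le; have := hr.two_le; nlinarith)
  have hnc : ¬ IsMulCommutative G := not_comm_of_not_prime hnprime
  have hcG : Nat.card G ≠ 1 := fun h => by
    rw [hG] at h
    exact hr.one_lt.ne' (Nat.eq_one_of_mul_eq_one_left h)
  have hdp : p ∣ Nat.card G := by rw [hG]; exact ⟨p * q * r, by ring⟩
  have hdq : q ∣ Nat.card G := by rw [hG]; exact ⟨p ^ 2 * r, by ring⟩
  have hdr : r ∣ Nat.card G := by rw [hG]; exact ⟨p ^ 2 * q, by ring⟩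
  have hnpp : ¬ IsPGroup p G := not_isPGroup_of_dvd hp hq hpq.symm hdq
  have hnpq : ¬ IsPGroup q G := not_isPGroup_of_dvd hq hp hpq hdp
  have hnpr : ¬ IsPGroup r G := not_isPGroup_of_dvd hr hp hpr hdp
  have hqm : ¬ q ∣ p ^ 2 * r := by
    intro h
    rcases (Nat.Prime.dvd_mul hq).mp h with h | h
    · exact hpq ((Nat.prime_dvd_prime_iff_eq hq hp).mp (hq.dvd_of_dvd_pow h)).symm
    · exact hqr ((Nat.prime_dvd_prime_iff_eq hq hr).mp h)
  have hrm : ¬ r ∣ p ^ 2 * q := by
    intro h
    rcases (Nat.Prime.dvd_mul hr).mp h with h | h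
    · exact hpr ((Nat.prime_dvd_prime_iff_eq hr hp).mp (hr.dvd_of_dvd_pow h)).symm
    · exact hqr ((Nat.prime_dvd_prime_iff_eq hr hq).mp h).symm
  have hpm : ¬ p ∣ q * r := by
    intro h
    rcases (Nat.Prime.dvd_mul hp).mp h with h | h
    · exact hpq ((Nat.prime_dvd_prime_iff_eq hp hq).mp h)
    · exact hpr ((Nat.prime_dvd_prime_iff_eq hp hr).mp h)
  have hm1 := minFac_ne (G := G) q (p ^ 2 * r) hq (by rw [hG]; ring) hqm hnpq
  have hm2 := minFac_ne (G := G) r (p ^ 2 * q) hr (by rw [hG]; ring) hrm hnpr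
  have hmf : (Nat.card G).minFac = p := by
    have hmp : (Nat.card G).minFac.Prime := Nat.minFac_prime hcG
    have hmd : (Nat.card G).minFac ∣ p ^ 2 * q * r := by rw [← hG]; exact Nat.minFac_dvd _
    rcases (Nat.Prime.dvd_mul hmp).mp hmd with h | h
    · rcases (Nat.Prime.dvd_mul hmp).mp h with h | h
      · exact (Nat.prime_dvd_prime_iff_eq hmp hp).mp (hmp.dvd_of_dvd_pow h)
      · exact absurd ((Nat.prime_dvd_prime_iff_eq hmp hq).mp h) hm1
    · exact absurd ((Nat.prime_dvd_prime_iff_eq hmp hr).mp h) hm2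
  have hpltq : p < q := lt_of_le_of_ne (hmf ▸ Nat.minFac_le_of_dvd hq.two_le hdq) hpq
  have hpltr : p < r := lt_of_le_of_ne (hmf ▸ Nat.minFac_le_of_dvd hr.two_le hdr) hpr
  obtain ⟨T⟩ : Nonempty (Sylow p G) := inferInstance
  have hTcard : Nat.card (T : Subgroup G) = p ^ 2 :=
    sylow_card_of_eq T (m := q * r) (by rw [hG]; ring) hpm
  have hncyc : ¬ IsCyclic T := fun hc =>
    normalizer_not_le_centralizer hdp hnpp T (IsCyclic.normalizer_le_centralizer hmf hc)
  have hTcomm : ∀ a b : (T : Subgroup G), a * b = b * a := (IsPGroup.isMulCommutative_of_card_eq_prime_sq hTcard).is_comm.comm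
  set H : Subgroup G := (T : Subgroup G) with hH
  have hnn := normalizer_not_le_centralizer hdp hnpp T
  obtain ⟨y, hyN, hyC⟩ := Set.not_subset.mp hnn
  let f := H.normalizerMonoidHom
  have hHN : H ≤ normalizer (H : Set G) := le_normalizer
  have hfy : f ⟨y, hyN⟩ ≠ 1 := by
    intro h
    apply hyC
    show y ∈ centralizer _
    rw [mem_centralizer_iff]
    intro x hx
    have h2 := congrArg (fun φ : MulAut H => ((φ ⟨x, hx⟩ : H) : G)) h
    have h3 : y * x * y⁻¹ = x := h2
    calc x * y = (y * x * y⁻¹) * y := by rw [h3]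
      _ = y * x := by group
  have hRne : f.range ≠ ⊥ := by
    intro h
    apply hfy
    have : f ⟨y, hyN⟩ ∈ f.range := ⟨_, rfl⟩
    rw [h] at this
    exact this
  -- the order of the range
  have hker : Nat.card H ∣ Nat.card f.ker := by
    have h1 : H.subgroupOf (normalizer (H : Set G)) ≤ f.ker := by
      intro x hx
      rw [MonoidHom.mem_ker]
      ext z
      have hx' : (x : G) ∈ H := hx
      have := hTcomm ⟨x, hx'⟩ z
      have h3 := congrArg Subtype.val this
      show (x : G) * (z : G) * (x : G)⁻¹ = z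
      have h4 : (x : G) * (z : G) = (z : G) * (x : G) := h3
      rw [h4]
      group
    have h2 := Subgroup.card_dvd_of_le h1
    rwa [Nat.card_congr (Subgroup.subgroupOfEquivOfLe hHN).toEquiv] at h2
  have hRcard : Nat.card f.range ∣ q * r := by
    have h1 := Subgroup.card_mul_index f.ker
    rw [Subgroup.index_ker] at h1
    have h2 : Nat.card (normalizer (H : Set G)) ∣ Nat.card G := Subgroup.card_subgroup_dvd_card _
    rw [← h1, hG] at h2
    obtain ⟨k, hk⟩ := hker
    rw [hTcard] at hk
    rw [hk] at h2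
    have hp2 : 0 < p ^ 2 := pow_pos hp.pos 2
    rw [show p ^ 2 * q * r = p ^ 2 * (q * r) by ring, mul_assoc] at h2
    have h3 := Nat.dvd_of_mul_dvd_mul_left hp2 h2
    exact (Dvd.intro_left _ rfl).trans h3
  have hRne1 : Nat.card f.range ≠ 1 := by
    intro h
    apply hRne
    exact Subgroup.eq_bot_of_card_eq _ h
  set t := (Nat.card f.range).minFac with ht
  have htp : t.Prime := Nat.minFac_prime hRne1
  haveI : Fact t.Prime := ⟨htp⟩
  have htd : t ∣ Nat.card f.range := Nat.minFac_dvd _
  have htqr : t = q ∨ t = r := by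
    rcases (Nat.Prime.dvd_mul htp).mp (htd.trans hRcard) with h | h
    · exact Or.inl ((Nat.prime_dvd_prime_iff_eq htp hq).mp h)
    · exact Or.inr ((Nat.prime_dvd_prime_iff_eq htp hr).mp h)
  have hptlt : p < t := by rcases htqr with h | h <;> rw [h] <;> assumption
  obtain ⟨α, hα⟩ := exists_prime_orderOf_dvd_card' t htd
  have hαo : orderOf (α : MulAut H) = t := by rw [Subgroup.orderOf_coe]; exact hα
  set a : MulAut H := (α : MulAut H) with ha
  have ha1 : a ≠ 1 := by
    intro h
    rw [h, orderOf_one] at hαo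
    exact htp.one_lt.ne hαo
  -- fixed points
  let F : Subgroup H :=
    { carrier := {x | a x = x}
      mul_mem' := by
        intro x y hx hy
        show a (x * y) = x * y
        rw [map_mul, show a x = x from hx, show a y = y from hy]
      one_mem' := by
        show a 1 = 1
        rw [map_one]
      inv_mem' := by
        intro x hx
        show a x⁻¹ = x⁻¹
        rw [map_inv, show a x = x from hx] }
  have hpg : IsPGroup t (zpowers a) := by
    apply IsPGroup.of_card (n := 1)
    rw [Nat.card_zpowers, hαo, pow_one]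
  have hmod := hpg.card_modEq_card_fixedPoints H
  have hfixcard : Nat.card (MulAction.fixedPoints (zpowers a) H) = Nat.card F := by
    refine Nat.card_congr ?_
    refine
      { toFun := fun x => ⟨x.1, ?_⟩
        invFun := fun x => ⟨x.1, ?_⟩
        left_inv := fun x => rfl
        right_inv := fun x => rfl }
    · have h1 := x.2 ⟨a, mem_zpowers a⟩
      exact h1
    · intro g
      have hx : a x.1 = x.1 := x.2
      have hst : a ∈ MulAction.stabilizer (MulAut H) x.1 := hx
      have h2 := (Subgroup.zpowers_le.mpr hst) g.2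
      exact h2
  rw [hfixcard, hTcard] at hmod
  obtain ⟨k, hk, hFk⟩ := (Nat.dvd_prime_pow hp).mp ((Subgroup.card_subgroup_dvd_card F).trans (by rw [hTcard]))
  have hk2 : k ≠ 2 := by
    rintro rfl
    have hFtop : F = ⊤ := Subgroup.eq_top_of_card_eq F (by rw [hFk, hTcard])
    apply ha1
    ext x
    have h2 : x ∈ F := by rw [hFtop]; trivial
    have h3 : a x = x := h2
    rw [h3]
    rfl
  have hp1 : 0 < p - 1 := by have := hp.two_le; omega
  have hnotd : ¬ t ∣ p - 1 := by
    intro h
    have := Nat.le_of_dvd hp1 h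
    omega
  have hnotp : ¬ t ∣ p := by
    intro h
    have := Nat.le_of_dvd hp.pos h
    omega
  rw [hFk] at hmod
  have hkc : k = 0 ∨ k = 1 := by omega
  rcases hkc with rfl | rfl
  · have h1 : t ∣ p ^ 2 - 1 := by
      have h3 := (Nat.modEq_iff_dvd' (by simpa using Nat.one_le_pow 2 p hp.pos)).mp hmod.symm
      simpa using h3
    have h2 : p ^ 2 - 1 = (p - 1) * (p + 1) := by
      obtain ⟨m, rfl⟩ : ∃ m, p = m + 1 := ⟨p - 1, by omega⟩
      simp only [Nat.add_sub_cancel]
      have : (m + 1) ^ 2 = m * (m + 1 + 1) + 1 := by ring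
      omega
    rw [h2] at h1
    have h3 : t ∣ p + 1 := ((Nat.Prime.dvd_mul htp).mp h1).resolve_left hnotd
    have h4 := Nat.le_of_dvd (by omega) h3
    have h5 : t = p + 1 := by omega
    have hp2 : p = 2 := by
      by_contra hne
      have hodd : Odd p := hp.odd_of_ne_two hne
      have hev : Even t := by rw [h5]; exact hodd.add_one
      have ht2 : t = 2 := (hev.two_dvd |> fun h => ((Nat.prime_dvd_prime_iff_eq Nat.prime_two htp).mp h).symm)
      have := hp.two_le
      omega
    subst hp2
    have ht3 : t = 3 := h5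
    refine ⟨rfl, ?_⟩
    rcases htqr with h | h
    · left; rw [← h, ht3]
    · right; rw [← h, ht3]
  · exfalso
    have h1 : t ∣ p ^ 2 - p := by
      have h3 := (Nat.modEq_iff_dvd' (by rw [pow_one]; nlinarith [hp.pos])).mp hmod.symm
      simpa using h3
    have h2 : p ^ 2 - p = p * (p - 1) := by
      rw [Nat.mul_sub, mul_one, pow_two]
    rw [h2] at h1
    rcases (Nat.Prime.dvd_mul htp).mp h1 with h | h
    · exact hnotp h
    · exact hnotd h

theorem order_twelve {G : Type*} [Group G] [Finite G] [IsSimpleGroup G] (r : ℕ) (hr : r.Prime) (h2 : r ≠ 2) (h3 : r ≠ 3)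
    (hG : Nat.card G = 12 * r) : r = 5 := by
  have hr5 : 5 ≤ r := by
    have := hr.two_le
    by_contra hlt
    have hr4 : r ≠ 4 := by
      rintro rfl
      revert hr
      norm_num
    omega
  have hnprime : ¬ (Nat.card G).Prime := by
    rw [hG]
    exact Nat.not_prime_mul (by norm_num) hr.one_lt.ne'
  have hnc : ¬ IsMulCommutative G := not_comm_of_not_prime hnprime
  have h2d : 2 ∣ Nat.card G := by rw [hG]; exact ⟨6 * r, by ring⟩
  have hrd : r ∣ Nat.card G := by rw [hG]; exact ⟨12, by ring⟩
  haveI : Fact r.Prime := ⟨hr⟩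
  have hr12 : ¬ r ∣ 12 := by
    intro h
    have h1 : r ∣ 2 ^ 2 * 3 := by simpa using h
    rcases (Nat.Prime.dvd_mul hr).mp h1 with h | h
    · exact h2 ((Nat.prime_dvd_prime_iff_eq hr Nat.prime_two).mp (hr.dvd_of_dvd_pow h))
    · exact h3 ((Nat.prime_dvd_prime_iff_eq hr Nat.prime_three).mp h)
  obtain ⟨h4, h5, h6, _⟩ := sylow_package (G := G) (p := r) (a := 1) (m := 12) (by rw [hG]; ring) (by norm_num) hr12
    (not_isPGroup_of_dvd hr Nat.prime_two h2.symm h2d) hnc
  have hdvdsub : r ∣ Nat.card (Sylow r G) - 1 := by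
    have := Nat.sub_mod_eq_zero_of_mod_eq (m := Nat.card (Sylow r G)) (n := 1) (k := r) (by rw [h4, Nat.mod_eq_of_lt hr.one_lt])
    exact Nat.dvd_of_mod_eq_zero this
  have hle := Nat.le_of_dvd (by norm_num) h5
  have hcase : r = 5 ∨ r = 11 := by
    generalize hn : Nat.card (Sylow r G) = n at *
    interval_cases n
    all_goals first
      | omega
      | (exfalso; have h7 := Nat.le_of_dvd (by norm_num) hdvdsub; simp at h7; omega)
      | (left; have h7 := Nat.le_of_dvd (by norm_num) hdvdsub; simp at h7; omega)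
      | (right; simpa using (Nat.prime_dvd_prime_iff_eq hr (by norm_num : Nat.Prime 11)).mp (by simpa using hdvdsub))
  rcases hcase with h | rfl
  · exact h
  · exfalso
    have hG' : Nat.card G = 132 := by rw [hG]
    haveI : Fact (Nat.Prime 3) := ⟨Nat.prime_three⟩
    obtain ⟨h41, h51, h61, _⟩ := sylow_package (G := G) (p := 11) (a := 1) (m := 12) (by rw [hG']; norm_num) (by norm_num) (by norm_num)
      (not_isPGroup_of_dvd hr Nat.prime_two (by norm_num) (by rw [hG']; norm_num)) hnc
    obtain ⟨h43, h53, h63, h73⟩ := sylow_package (G := G) (p := 3) (a := 1) (m := 44) (by rw [hG']; norm_num) (by norm_num) (by norm_num)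
      (not_isPGroup_of_dvd Nat.prime_three Nat.prime_two (by norm_num) (by rw [hG']; norm_num)) hnc
    have hS3 : ∀ P : Sylow 3 G, Nat.card (P : Subgroup G) = 3 := fun P => by
      simpa using sylow_card_of_eq P (m := 44) (a := 1) (by rw [hG']; norm_num) (by norm_num)
    have hS11 : ∀ P : Sylow 11 G, Nat.card (P : Subgroup G) = 11 := fun P => by
      simpa using sylow_card_of_eq P (m := 12) (a := 1) (by rw [hG']; norm_num) (by norm_num)
    have hsum := sum_card_orderOf_le (G := G) {3, 11}
    rw [Finset.sum_pair (by norm_num), card_orderOf_eq_prime hS3, card_orderOf_eq_prime hS11, hG'] at hsum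
    have hle1 := Nat.le_of_dvd (by norm_num) h51
    have hle3 := Nat.le_of_dvd (by norm_num) h53
    rw [hG'] at h73
    generalize Nat.card (Sylow 11 G) = n1 at *
    generalize Nat.card (Sylow 3 G) = n3 at *
    have hn1 : n1 = 12 := by interval_cases n1 <;> omega
    subst hn1
    interval_cases n3 <;> first | omega | (revert h73; decide)

/-- If a finite simple group has order p^2 * q * r with p, q and r prime, then its order is 60. -/
theorem result {G : Type*} [Group G] [Finite G] [IsSimpleGroup G] (p q r : ℕ) (hp : p.Prime) (hq : q.Prime) (hr : r.Prime) (hG : Nat.card G = p ^ 2 * q * r) : Nat.card G = 60 := by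
  open Cfsg.Agent.Lib.SmallSimple in
  have hnprime : ¬ (Nat.card G).Prime := by
    rw [hG, mul_assoc]
    apply Nat.not_prime_mul (by have := hp.two_le; exact (one_lt_pow₀ (by omega) (by norm_num)).ne') (by have := hq.two_le; have := hr.two_le; nlinarith)
  by_cases hpq : p = q
  · subst hpq
    exact (false_of_two_primes (G := G) p r 3 1 hp hr (by rw [hG]; ring) hnprime).elim
  by_cases hpr : p = r
  · subst hpr
    exact (false_of_two_primes (G := G) p q 3 1 hp hq (by rw [hG]; ring) hnprime).elim
  by_cases hqr : q = r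
  · subst hqr
    exact (false_of_two_primes (G := G) p q 2 2 hp hq (by rw [hG]; ring) hnprime).elim
  obtain ⟨rfl, hh⟩ := core (G := G) p q r hp hq hr hpq hpr hqr hG
  rcases hh with rfl | rfl
  · have := order_twelve (G := G) r hr (Ne.symm hpr) (Ne.symm hqr) (by rw [hG]; ring)
    subst this
    rw [hG]
    norm_num
  · have := order_twelve (G := G) q hq (Ne.symm hpq) hqr (by rw [hG]; ring)
    subst this
    rw [hG]
    norm_num

end Cfsg.Agent.S0988
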