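import Cfsg.Statements.S0992
import Mathlib
import Cfsg.Agent.Lib.SmallSimple.Fixed

set_option autoImplicit false
open Cfsg

namespace Cfsg.Agent.S0992


/-- Let G be a non-abelian finite simple group of even order not divisible by 8, and T a Sylow 2-subgroup. Then T is a Klein four-group and the centralizer of T has index 3 in the normalizer of T. -/
theorem result {G : Type*} [Group G] [Finite G] [IsSimpleGroup G] (hG : ¬ IsMulCommutative G) (h2 : Even (Nat.card G)) (h8 : ¬ 8 ∣ Nat.card G) (T : Sylow 2 G) : IsKleinFour ↥(T : Subgroup G) ∧ (Subgroup.centralizer ((T : Subgroup G) : Set G)).relIndex (Subgroup.normalizer ((T : Subgroup G) : Set G)) = 3 := by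
  open Cfsg.Agent.Lib.SmallSimple in
  have hprime : Fact (Nat.Prime 2) := ⟨Nat.prime_two⟩
  have hnp : ¬ IsPGroup 2 G := fun h => hG (isMulCommutative_of_isPGroup h)
  have hdvd2 : 2 ∣ Nat.card G := h2.two_dvd
  have hmin : (Nat.card G).minFac = 2 := (Nat.minFac_eq_two_iff _).mpr hdvd2
  have hncyc : ¬ IsCyclic T := fun hc =>
    normalizer_not_le_centralizer hdvd2 hnp T (IsCyclic.normalizer_le_centralizer hmin hc)
  -- order of T
  obtain ⟨k, hk⟩ := IsPGroup.iff_card.mp T.isPGroup'
  have hk2 : k ≤ 2 := by
    by_contra hc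
    have h3 : 3 ≤ k := by omega
    have h4 : 8 ∣ 2 ^ k := by
      have := pow_dvd_pow 2 h3
      simpa using this
    rw [← hk] at h4
    exact h8 (h4.trans (Subgroup.card_subgroup_dvd_card _))
  have hne1 : k ≠ 0 := by
    rintro rfl
    rw [pow_zero] at hk
    have h3 : Nat.card (T : Subgroup G) = 2 ^ (Nat.card G).factorization 2 := Sylow.card_eq_multiplicity T
    rw [hk] at h3
    have h4 := Nat.Prime.factorization_pos_of_dvd Nat.prime_two Nat.card_pos.ne' hdvd2
    have h5 : 1 < 2 ^ (Nat.card G).factorization 2 := Nat.one_lt_pow h4.ne' (by norm_num)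
    omega
  have hne2 : k ≠ 1 := by
    rintro rfl
    apply hncyc
    exact isCyclic_of_prime_card (p := 2) (by simpa using hk)
  have hk2' : k = 2 := by omega
  subst hk2'
  have hT4 : Nat.card (T : Subgroup G) = 4 := by simpa using hk
  -- Klein four
  have hsq : ∀ x : (T : Subgroup G), x ^ 2 = 1 := by
    intro x
    have hx : orderOf x ∣ 4 := hT4 ▸ orderOf_dvd_natCard x
    by_contra hne
    have ho : orderOf x = 4 := by
      have hle := Nat.le_of_dvd (by norm_num) hx
      have hne3 : orderOf x ≠ 3 := by
        intro h3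
        rw [h3] at hx
        omega
      have hne1 : orderOf x ≠ 1 := by
        intro h3
        rw [orderOf_eq_one_iff] at h3
        rw [h3] at hne
        simp at hne
      have hne2 : orderOf x ≠ 2 := by
        intro h3
        apply hne
        have h4 := pow_orderOf_eq_one x
        rwa [h3] at h4
      have hne0 : orderOf x ≠ 0 := by
        intro h3
        rw [h3] at hx
        omega
      omega
    apply hncyc
    exact isCyclic_of_orderOf_eq_card x (by rw [ho, hT4])
  have hkl : IsKleinFour (T : Subgroup G) := by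
    refine ⟨hT4, ?_⟩
    have h1 : Monoid.exponent (T : Subgroup G) ∣ 2 := Monoid.exponent_dvd_of_forall_pow_eq_one hsq
    rcases (Nat.dvd_prime Nat.prime_two).mp h1 with h | h
    · exfalso
      rw [Monoid.exp_eq_one_iff] at h
      have := Nat.card_of_subsingleton (1 : (T : Subgroup G))
      omega
    · exact h
  refine ⟨hkl, ?_⟩
  -- the index
  set d := (Subgroup.centralizer ((T : Subgroup G) : Set G)).relIndex (Subgroup.normalizer ((T : Subgroup G) : Set G)) with hd
  have h1 : d ∣ 6 := (relIndex_centralizer_normalizer_dvd T).trans (card_mulAut_dvd_of_card_four hT4)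
  have hcomm : IsMulCommutative (T : Subgroup G) := IsKleinFour.isMulCommutative
  have hle : (T : Subgroup G) ≤ Subgroup.centralizer ((T : Subgroup G) : Set G) := by
    intro x hx
    rw [Subgroup.mem_centralizer_iff]
    intro y hy
    have := hcomm.is_comm.comm ⟨y, hy⟩ ⟨x, hx⟩
    simpa [Subtype.ext_iff] using this
  have hPN : (T : Subgroup G) ≤ Subgroup.normalizer ((T : Subgroup G) : Set G) := Subgroup.le_normalizer
  have hodd : ¬ 2 ∣ d := by
    intro h
    have h3 : d ∣ (T : Subgroup G).relIndex (Subgroup.normalizer ((T : Subgroup G) : Set G)) :=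
      Subgroup.relIndex_dvd_of_le_left _ hle
    have h4 : (T : Subgroup G).relIndex (Subgroup.normalizer ((T : Subgroup G) : Set G)) ∣ (T : Subgroup G).index :=
      Subgroup.relIndex_dvd_index_of_le hPN
    exact T.not_dvd_index (h.trans (h3.trans h4))
  have hne : d ≠ 1 := by
    intro h
    exact normalizer_not_le_centralizer hdvd2 hnp T (Subgroup.relIndex_eq_one.mp h)
  have hd6 : d ≤ 6 := Nat.le_of_dvd (by norm_num) h1
  generalize d = e at *
  interval_cases e <;> omega

end Cfsg.Agent.S0992
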