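import Cfsg.Statements.S0995
import Mathlib
import Cfsg.Agent.Lib.SmallSimple.Conj

set_option autoImplicit false
open Cfsg

namespace Cfsg.Agent.S0995


/-- Let G be a finite perfect group containing an element z of prime order p whose centralizer is the cyclic group it generates. Let t be the number of conjugacy classes of elements of order p. Then t divides p - 1, the number of Sylow p-subgroups has the form 1 + n * p, and |G| * t = (p - 1) * p * (1 + n * p). -/
theorem result {G : Type*} [Group G] [Finite G] (hperf : commutator G = ⊤) (p : ℕ) [Fact p.Prime] (z : G) (hz : orderOf z = p) (hC : Subgroup.centralizer ({z} : Set G) = Subgroup.zpowers z) : ∃ n t : ℕ, t = Nat.card {c : ConjClasses G // ∃ g : G, ConjClasses.mk g = c ∧ orderOf g = p} ∧ t ∣ p - 1 ∧ Nat.card (Sylow p G) = 1 + n * p ∧ Nat.card G * t = (p - 1) * p * (1 + n * p) := by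
  open Cfsg.Agent.Lib.SmallSimple in
  classical
  have hpp : p.Prime := Fact.out
  -- the subgroup generated by z is a Sylow subgroup
  let P0 : Subgroup G := Subgroup.zpowers z
  have hP0 : Nat.card P0 = p := by rw [Nat.card_zpowers, hz]
  have hP0p : IsPGroup p P0 := IsPGroup.of_card (n := 1) (by rw [hP0, pow_one])
  obtain ⟨P, hP⟩ := hP0p.exists_le_sylow
  have hPeq : (P : Subgroup G) = P0 := by
    -- the center of P centralizes z
    have hcen : (Subgroup.center (P : Subgroup G)).map (P : Subgroup G).subtype ≤ P0 := by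
      rintro _ ⟨x, hx, rfl⟩
      have h1 : (x : G) ∈ Subgroup.centralizer ({z} : Set G) := by
        rw [Subgroup.mem_centralizer_singleton_iff]
        have hzP : z ∈ (P : Subgroup G) := hP (Subgroup.mem_zpowers z)
        have := Subgroup.mem_center_iff.mp hx ⟨z, hzP⟩
        have h2 := congrArg Subtype.val this
        exact h2.symm
      rw [hC] at h1
      exact h1
    have hnt : Nontrivial (P : Subgroup G) := by
      have hz1 : z ≠ 1 := by
        rintro rfl
        rw [orderOf_one] at hz
        exact hpp.one_lt.ne hz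
      exact ⟨⟨⟨z, hP (Subgroup.mem_zpowers z)⟩, 1, fun h => hz1 (congrArg Subtype.val h)⟩⟩
    have hcn := P.isPGroup'.center_nontrivial
    obtain ⟨x, hx⟩ := exists_ne (1 : Subgroup.center (P : Subgroup G))
    -- x generates P0 and P centralizes it
    have hxP0 : ((x : (P : Subgroup G)) : G) ∈ P0 := hcen ⟨x, x.2, rfl⟩
    have hx1 : ((x : (P : Subgroup G)) : G) ≠ 1 := by
      intro h
      apply hx
      apply Subtype.ext
      apply Subtype.ext
      exact h
    have hox : orderOf ((x : (P : Subgroup G)) : G) = p := by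
      have h1 : orderOf ((x : (P : Subgroup G)) : G) ∣ Nat.card P0 := by
        have := orderOf_dvd_natCard (⟨_, hxP0⟩ : P0)
        rwa [Subgroup.orderOf_mk] at this
      rw [hP0] at h1
      rcases (Nat.dvd_prime hpp).mp h1 with h | h
      · exact absurd (orderOf_eq_one_iff.mp h) hx1
      · exact h
    have hzx : P0 = Subgroup.zpowers ((x : (P : Subgroup G)) : G) := eq_zpowers_of_card hP0 hxP0 hox
    apply le_antisymm _ hP
    intro w hw
    have h1 : w ∈ Subgroup.centralizer ({z} : Set G) := by
      rw [Subgroup.mem_centralizer_singleton_iff]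
      have hzz : z ∈ Subgroup.zpowers ((x : (P : Subgroup G)) : G) := hzx ▸ Subgroup.mem_zpowers z
      obtain ⟨k, hk⟩ := Subgroup.mem_zpowers_iff.mp hzz
      have hcomm : Commute w ((x : (P : Subgroup G)) : G) := by
        have := Subgroup.mem_center_iff.mp x.2 ⟨w, hw⟩
        exact (congrArg Subtype.val this)
      rw [← hk]
      exact (hcomm.zpow_right k)
    rw [hC] at h1
    exact h1
  have hcardP : Nat.card (P : Subgroup G) = p := by rw [hPeq, hP0]
  have hcardS : ∀ Q : Sylow p G, Nat.card (Q : Subgroup G) = p := fun Q =>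
    (Sylow.card_eq_multiplicity Q).trans ((Sylow.card_eq_multiplicity P).symm.trans hcardP)
  -- every element of order p has centralizer of order p
  have hcent : ∀ y : G, orderOf y = p → Nat.card (Subgroup.centralizer ({y} : Set G)) = p := by
    intro y hy
    obtain ⟨Q, hQ⟩ := exists_sylow_of_orderOf hy
    obtain ⟨g, hg⟩ := MulAction.exists_smul_eq G P Q
    have h1 : y ∈ ((g • P : Sylow p G) : Subgroup G) := by rw [hg]; exact hQ
    rw [Sylow.coe_subgroup_smul, Subgroup.mem_pointwise_smul_iff_inv_smul_mem] at h1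
    have h2 : g⁻¹ * y * g ∈ (P : Subgroup G) := by
      simpa [MulAut.smul_def, mul_assoc] using h1
    rw [hPeq] at h2
    obtain ⟨k, hk⟩ := Subgroup.mem_zpowers_iff.mp h2
    have hy' : y = g * z ^ k * g⁻¹ := by rw [hk]; group
    have hk1 : z ^ k ≠ 1 := by
      intro h3
      rw [h3] at hy'
      rw [hy', mul_one, mul_inv_cancel, orderOf_one] at hy
      exact hpp.one_lt.ne hy
    have hok : orderOf (z ^ k) = p := orderOf_eq_of_mem_sylow hcardP (by rw [hPeq]; exact Subgroup.zpow_mem_zpowers z k) hk1
    have hzk : P0 = Subgroup.zpowers (z ^ k) := eq_zpowers_of_card hP0 (Subgroup.zpow_mem_zpowers z k) hok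
    have hCk : Subgroup.centralizer ({z ^ k} : Set G) = Subgroup.zpowers z := by
      apply le_antisymm
      · intro w hw
        rw [Subgroup.mem_centralizer_singleton_iff] at hw
        rw [← hC, Subgroup.mem_centralizer_singleton_iff]
        have : z ∈ Subgroup.zpowers (z ^ k) := hzk ▸ Subgroup.mem_zpowers z
        obtain ⟨l, hl⟩ := Subgroup.mem_zpowers_iff.mp this
        have hcomm : Commute w (z ^ k) := hw
        rw [← hl]
        exact hcomm.zpow_right l
      · rw [Subgroup.zpowers_le, Subgroup.mem_centralizer_singleton_iff]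
        exact (Commute.zpow_right (Commute.refl z) k).eq
    have h4 : Nat.card (Subgroup.centralizer ({y} : Set G)) = Nat.card (Subgroup.centralizer ({z ^ k} : Set G)) := by
      subst hy'
      refine Nat.card_congr ?_
      refine
        { toFun := fun w => ⟨g⁻¹ * w.1 * g, ?_⟩
          invFun := fun w => ⟨g * w.1 * g⁻¹, ?_⟩
          left_inv := fun w => by apply Subtype.ext; simp; group
          right_inv := fun w => by apply Subtype.ext; simp; group }
      · rw [Subgroup.mem_centralizer_singleton_iff]
        have hw := Subgroup.mem_centralizer_singleton_iff.mp w.2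
        calc g⁻¹ * w.1 * g * z ^ k = g⁻¹ * (w.1 * (g * z ^ k * g⁻¹)) * g := by group
          _ = g⁻¹ * (g * z ^ k * g⁻¹ * w.1) * g := by rw [hw]
          _ = z ^ k * (g⁻¹ * w.1 * g) := by group
      · rw [Subgroup.mem_centralizer_singleton_iff]
        have hw := Subgroup.mem_centralizer_singleton_iff.mp w.2
        calc g * w.1 * g⁻¹ * (g * z ^ k * g⁻¹) = g * (w.1 * z ^ k) * g⁻¹ := by group
          _ = g * (z ^ k * w.1) * g⁻¹ := by rw [hw]
          _ = g * z ^ k * g⁻¹ * (g * w.1 * g⁻¹) := by group
    rw [h4, hCk, hP0.symm]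
  -- class sizes
  obtain ⟨K, hK⟩ : ∃ K, Nat.card G = p * K := by
    have := Subgroup.card_subgroup_dvd_card (P : Subgroup G)
    rw [hcardP] at this
    exact this
  have hclass : ∀ y : G, orderOf y = p → Nat.card {w : G // IsConj y w} = K := by
    intro y hy
    have h1 := card_eq_card_isConj_mul_card_centralizer y
    rw [hcent y hy, hK, mul_comm] at h1
    exact (Nat.eq_of_mul_eq_mul_right hpp.pos h1).symm
  have hinv : ∀ x y : G, IsConj x y → orderOf x = p → orderOf y = p := by
    intro x y hxy hx
    obtain ⟨c, hc⟩ := isConj_iff.mp hxy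
    rw [← hc]
    have : c * x * c⁻¹ = (MulAut.conj c) x := rfl
    rw [this, MulEquiv.orderOf_eq, hx]
  set t := Nat.card {c : ConjClasses G // ∃ g : G, ConjClasses.mk g = c ∧ orderOf g = p} with ht
  have hcount := card_eq_card_classes_mul (G := G) (fun g => orderOf g = p) hinv 0 K hclass
  rw [card_orderOf_eq_prime hcardS, ← ht] at hcount
  -- n_p
  have hmod : Nat.card (Sylow p G) % p = 1 % p := card_sylow_modEq_one p G
  rw [Nat.mod_eq_of_lt hpp.one_lt] at hmod
  obtain ⟨n, hn⟩ : ∃ n, Nat.card (Sylow p G) = 1 + n * p := by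
    refine ⟨Nat.card (Sylow p G) / p, ?_⟩
    have := Nat.mod_add_div (Nat.card (Sylow p G)) p
    rw [hmod] at this
    rw [mul_comm] at this
    exact this.symm
  have hNorm := card_normalizer_mul_card_sylow p P
  have hpN : p ∣ Nat.card (Subgroup.normalizer ((P : Subgroup G) : Set G)) := by
    have h6 : Nat.card (P : Subgroup G) ∣ Nat.card (Subgroup.normalizer ((P : Subgroup G) : Set G)) :=
      Subgroup.card_dvd_of_le Subgroup.le_normalizer
    rwa [hcardP] at h6
  obtain ⟨e, he⟩ := hpN
  have hNorm' : Nat.card (Subgroup.normalizer ((P : Subgroup G) : Set G)) * Nat.card (Sylow p G) = Nat.card G := hNorm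
  rw [he, hK, mul_assoc] at hNorm'
  have hKe : e * Nat.card (Sylow p G) = K := Nat.eq_of_mul_eq_mul_left hpp.pos hNorm'
  have hnpos : 0 < Nat.card (Sylow p G) := Nat.card_pos
  have hte : t * e = p - 1 := by
    apply Nat.eq_of_mul_eq_mul_left hnpos
    rw [hcount, ← hKe]
    ring
  refine ⟨n, t, rfl, Dvd.intro _ hte, hn, ?_⟩
  rw [hK, ← hn]
  calc p * K * t = p * (t * K) := by ring
    _ = p * (Nat.card (Sylow p G) * (p - 1)) := by rw [hcount]
    _ = (p - 1) * p * Nat.card (Sylow p G) := by ring

end Cfsg.Agent.S0995
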