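import Cfsg.Statements.S0998
import Cfsg.Agent.Lib.BT.Reduce
import Cfsg.Agent.Lib.Classical.SL2Local
import Cfsg.Agent.S0252
import Cfsg.Agent.S0253

set_option autoImplicit false
open Cfsg

namespace Cfsg.Agent.S0998

open Cfsg.Agent.Lib.BT Cfsg.Agent.Lib.Small.BD Cfsg.Agent.Lib.Classical

theorem odd_part {q b r a w : ℕ} (hq : q.Prime) (hr : ¬ 2 ∣ r) (hw : ¬ 2 ∣ w) (ha : 1 ≤ a) (h : q ^ b * r = 2 ^ a * w) :
    q = 2 ∧ r = w := by
  have h2 : 2 ∣ q ^ b * r := by
    rw [h]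
    exact Dvd.dvd.mul_right (dvd_pow_self 2 (by omega)) w
  have h3 : 2 ∣ q ^ b := ((Nat.Prime.dvd_mul Nat.prime_two).mp h2).resolve_right hr
  have h4 : 2 ∣ q := Nat.Prime.dvd_of_dvd_pow Nat.prime_two h3
  have h5 : q = 2 := ((Nat.prime_dvd_prime_iff_eq Nat.prime_two hq).mp h4).symm
  subst h5
  refine ⟨rfl, ?_⟩
  have c1 : Nat.Coprime r (2 ^ a) := Nat.Coprime.pow_right a ((Nat.Prime.coprime_iff_not_dvd Nat.prime_two).mpr hr).symm
  have c2 : Nat.Coprime w (2 ^ b) := Nat.Coprime.pow_right b ((Nat.Prime.coprime_iff_not_dvd Nat.prime_two).mpr hw).symm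
  have d1 : r ∣ w := c1.dvd_of_dvd_mul_left (Dvd.intro_left _ h)
  have d2 : w ∣ r := c2.dvd_of_dvd_mul_left (Dvd.intro_left _ h.symm)
  exact Nat.dvd_antisymm d1 d2

theorem two_pow_mod_three (j : ℕ) : 2 ^ j % 3 = 1 ∨ 2 ^ j % 3 = 2 := by
  induction j with
  | zero => simp
  | succ n ih =>
    rw [pow_succ]
    omega

/-- The arithmetic for `G ≃ PSL(2, p)`. -/
theorem arith_left {p q r b : ℕ} (hpr : p.Prime) (hq : q.Prime) (hr : r.Prime) (hr2 : r ≠ 2) (h3 : 3 < p)
    (heq : 2 * (p * (q ^ b * r)) = p * (p ^ 2 - 1)) (hform : (∃ k, p + 1 = 2 ^ k) ∨ (∃ k, p = 2 ^ k + 1)) : p = 5 ∨ p = 7 := by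
  have hp0 : 0 < p := by omega
  have hodd : ¬ 2 ∣ r := fun h => hr2 ((Nat.prime_dvd_prime_iff_eq Nat.prime_two hr).mp h).symm
  have hq3 : ¬ 3 ∣ p := fun h => by
    have := (Nat.prime_dvd_prime_iff_eq Nat.prime_three hpr).mp h
    omega
  have heq2 : 2 * (q ^ b * r) + 1 = p ^ 2 := by
    have h1 : p * (2 * (q ^ b * r)) = p * (p ^ 2 - 1) := by rw [← heq]; ring
    have h2 := Nat.eq_of_mul_eq_mul_left hp0 h1
    have h4 : 1 ≤ p ^ 2 := Nat.one_le_pow _ _ hp0
    omega
  rcases hform with ⟨k, hk⟩ | ⟨k, hk⟩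
  · -- `p + 1 = 2 ^ k`
    obtain ⟨j, rfl⟩ : ∃ j, k = j + 1 := by
      rcases k with _ | j
      · simp at hk
        omega
      · exact ⟨j, rfl⟩
    rw [pow_succ] at hk
    have hj : 2 ≤ j := by
      by_contra hlt
      have : j = 0 ∨ j = 1 := by omega
      rcases this with rfl | rfl <;> simp at hk <;> omega
    obtain ⟨x, hx⟩ : ∃ x, x = 2 ^ j := ⟨_, rfl⟩
    rw [← hx] at hk
    have hx4 : 4 ∣ x := by
      rw [hx]
      exact pow_dvd_pow 2 hj
    obtain ⟨w, hw⟩ : ∃ w, w + 1 = x := ⟨x - 1, by omega⟩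
    have hpw : p = 2 * w + 1 := by omega
    have h5 : q ^ b * r = 2 ^ (j + 1) * w := by
      have h6 : 2 * (q ^ b * r) = 2 * (2 ^ (j + 1) * w) := by
        rw [pow_succ, ← hx, ← hw]
        rw [hpw] at heq2
        nlinarith
      exact Nat.eq_of_mul_eq_mul_left (by norm_num) h6
    obtain ⟨-, hrw⟩ := odd_part hq hodd (by omega) (by omega) h5
    have h7 := two_pow_mod_three j
    rw [← hx] at h7
    have h8 : 3 ∣ r := by omega
    have h9 := (Nat.prime_dvd_prime_iff_eq Nat.prime_three hr).mp h8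
    right
    omega
  · -- `p = 2 ^ k + 1`
    obtain ⟨j, rfl⟩ : ∃ j, k = j + 1 := by
      rcases k with _ | j
      · simp at hk
        omega
      · exact ⟨j, rfl⟩
    rw [pow_succ] at hk
    obtain ⟨x, hx⟩ : ∃ x, x = 2 ^ j := ⟨_, rfl⟩
    rw [← hx] at hk
    have hj : 1 ≤ j := by
      by_contra hlt
      have : j = 0 := by omega
      subst this
      simp at hx
      omega
    have hx2 : 2 ∣ x := by
      rw [hx]
      exact dvd_pow_self 2 (by omega)
    have h5 : q ^ b * r = 2 ^ (j + 1) * (x + 1) := by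
      have h6 : 2 * (q ^ b * r) = 2 * (2 ^ (j + 1) * (x + 1)) := by
        rw [pow_succ, ← hx]
        rw [hk] at heq2
        nlinarith
      exact Nat.eq_of_mul_eq_mul_left (by norm_num) h6
    obtain ⟨-, hrw⟩ := odd_part hq hodd (by omega) (by omega) h5
    have h7 := two_pow_mod_three j
    rw [← hx] at h7
    have h8 : 3 ∣ r := by omega
    have h9 := (Nat.prime_dvd_prime_iff_eq Nat.prime_three hr).mp h8
    left
    omega

/-- The arithmetic for `G ≃ PSL(2, 2 ^ k)`. -/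
theorem arith_right {p q r b k : ℕ} (hpr : p.Prime) (hq : q.Prime) (hr : r.Prime) (hr2 : r ≠ 2) (h3 : 3 < p) (hk : p = 2 ^ k + 1)
    (heq : p * (q ^ b * r) = 2 ^ k * ((2 ^ k) ^ 2 - 1)) : 2 ^ k = 4 := by
  have hodd : ¬ 2 ∣ r := fun h => hr2 ((Nat.prime_dvd_prime_iff_eq Nat.prime_two hr).mp h).symm
  have hq3 : ¬ 3 ∣ p := fun h => by
    have := (Nat.prime_dvd_prime_iff_eq Nat.prime_three hpr).mp h
    omega
  have hk1 : 1 ≤ k := by
    by_contra hlt
    have : k = 0 := by omega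
    subst this
    simp at hk
    omega
  have h7 := two_pow_mod_three k
  have hev : 2 ∣ 2 ^ k := dvd_pow_self 2 (by omega)
  obtain ⟨x, hx⟩ : ∃ x, x = 2 ^ k := ⟨_, rfl⟩
  rw [← hx] at hk h7 hev heq
  obtain ⟨w, hw⟩ : ∃ w, w + 1 = x := ⟨x - 1, by omega⟩
  have h5 : q ^ b * r = 2 ^ k * w := by
    have h6 : p * (q ^ b * r) = p * (2 ^ k * w) := by
      rw [heq, ← hx, hk]
      subst hw
      have h8 : (w + 1) ^ 2 - 1 = (w + 1 + 1) * w := by
        have : (w + 1) ^ 2 = (w + 1 + 1) * w + 1 := by ring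
        omega
      rw [h8]
      ring
    exact Nat.eq_of_mul_eq_mul_left (by omega) h6
  obtain ⟨-, hrw⟩ := odd_part hq hodd (by omega) hk1 h5
  have h8 : 3 ∣ r := by omega
  have h9 := (Nat.prime_dvd_prime_iff_eq Nat.prime_three hr).mp h8
  omega

/-- The main case, `r < p`. -/
theorem aux {G : Type*} [Group G] [Finite G] [IsSimpleGroup G] (hG : ¬ IsCyclic G) (p q r b : ℕ) (hp : p.Prime) (hq : q.Prime) (hr : r.Prime) (hpq : p ≠ q)
    (hqr : q ≠ r) (hrp : r < p) (hG' : Nat.card G = p * (q ^ b * r)) :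
    (∃ (F : Type) (_ : Field F) (_ : Fintype F), Fintype.card F = 5 ∧ Nonempty (G ≃* Matrix.ProjectiveSpecialLinearGroup (Fin 2) F)) ∨ (∃ (F : Type) (_ : Field F) (_ : Fintype F), Fintype.card F = 7 ∧ Nonempty (G ≃* Matrix.ProjectiveSpecialLinearGroup (Fin 2) F)) := by
  classical
  haveI : Fact p.Prime := ⟨hp⟩
  letI : Fintype G := Fintype.ofFinite _
  have hperf := perfect_of_simple hG
  by_cases hr2 : r = 2
  · exfalso
    subst hr2
    haveI : Fact (Nat.Prime 2) := ⟨Nat.prime_two⟩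
    have hnd : ¬ 2 ∣ p * q ^ b := by
      intro h1
      rcases (Nat.Prime.dvd_mul Nat.prime_two).mp h1 with h2 | h2
      · have := (Nat.prime_dvd_prime_iff_eq Nat.prime_two hp).mp h2
        omega
      · have h3 := Nat.Prime.dvd_of_dvd_pow Nat.prime_two h2
        exact hqr ((Nat.prime_dvd_prime_iff_eq Nat.prime_two hq).mp h3).symm
    let P : Sylow 2 G := default
    have hP : Nat.card (P : Subgroup G) = 2 := by
      have h1 : Nat.card G = 2 * (p * q ^ b) := by
        rw [hG']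
        ring
      rw [Sylow.card_eq_multiplicity, h1, Nat.factorization_mul two_ne_zero (fun h0 => by rw [h0] at hnd; exact hnd (dvd_zero _))]
      simp [Nat.factorization_eq_zero_of_not_dvd hnd, Nat.Prime.factorization_self Nat.prime_two]
    exact false_of_sylow_two hperf P hP
  have hroddness : ¬ 2 ∣ r := fun h => hr2 ((Nat.prime_dvd_prime_iff_eq Nat.prime_two hr).mp h).symm
  have hpodd : ¬ 2 ∣ p := fun h => by
    have := (Nat.prime_dvd_prime_iff_eq Nat.prime_two hp).mp h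
    have := hr.two_le
    omega
  have hg : r < p - 1 := by omega
  obtain ⟨hform, hmain⟩ := brauer_tuan hperf hq hpq hG' hg
  rcases hmain with ⟨F, i1, i2, hF, h3, ⟨hiso⟩⟩ | ⟨k, F, i1, i2, hF, hk, h3, ⟨hiso⟩⟩
  · have hc := Nat.card_congr hiso.toEquiv
    have hoddp : Odd p := Nat.odd_iff.mpr (by omega)
    have h1 := card_psl2_odd (F := F) hF hoddp
    rw [← hc, hG'] at h1
    rcases arith_left hp hq hr hr2 h3 h1 hform with h5 | h7
    · left
      exact ⟨F, i1, i2, by rw [hF, h5], ⟨hiso⟩⟩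
    · right
      exact ⟨F, i1, i2, by rw [hF, h7], ⟨hiso⟩⟩
  · have hc := Nat.card_congr hiso.toEquiv
    have hev : Even (2 ^ k) := by
      apply Nat.even_pow.mpr
      refine ⟨even_two, ?_⟩
      rintro rfl
      simp at hk
      omega
    have h1 := card_psl2_even (F := F) hF hev
    rw [← hc, hG'] at h1
    have h4 := arith_right hp hq hr hr2 h3 hk h1
    left
    haveI : Fact (Nat.Prime 5) := ⟨by norm_num⟩
    refine ⟨ZMod 5, inferInstance, inferInstance, ZMod.card 5, ?_⟩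
    obtain ⟨e1⟩ := Cfsg.Agent.S0252.result (F := F) (by rw [hF, h4])
    obtain ⟨e2⟩ := Cfsg.Agent.S0253.result (F := ZMod 5) (ZMod.card 5)
    exact ⟨hiso.trans (e1.trans e2.symm)⟩

/-- A non-cyclic finite simple group whose order has the form p * r * q^b for distinct primes p, q, r is isomorphic to the projective special linear group of dimension 2 over the field with 5 or with 7 elements. -/
theorem result {G : Type*} [Group G] [Finite G] [IsSimpleGroup G] (hG : ¬ IsCyclic G) (p q r b : ℕ) (hp : p.Prime) (hq : q.Prime) (hr : r.Prime) (hpq : p ≠ q) (hpr : p ≠ r) (hqr : q ≠ r) (hG' : Nat.card G = p * r * q ^ b) : (∃ (F : Type) (_ : Field F) (_ : Fintype F), Fintype.card F = 5 ∧ Nonempty (G ≃* Matrix.ProjectiveSpecialLinearGroup (Fin 2) F)) ∨ (∃ (F : Type) (_ : Field F) (_ : Fintype F), Fintype.card F = 7 ∧ Nonempty (G ≃* Matrix.ProjectiveSpecialLinearGroup (Fin 2) F)) := by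
  rcases lt_or_gt_of_ne hpr with h1 | h1
  · exact aux hG r q p b hr hq hp (Ne.symm hqr) (Ne.symm hpq) h1 (by rw [hG']; ring)
  · exact aux hG p q r b hp hq hr hpq hqr h1 (by rw [hG']; ring)

end Cfsg.Agent.S0998
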