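import Cfsg.Statements.S1001
import Mathlib
import Cfsg.Agent.Lib.Small.PrimeDegree

set_option autoImplicit false
open Cfsg

namespace Cfsg.Agent.S1001

/-- In a finite simple group whose order has the form p * 3^a * 2^b with p prime, the centralizer of any element of order p is the cyclic group it generates. -/
theorem result {G : Type*} [Group G] [Finite G] [IsSimpleGroup G] (p a b : ℕ) (hp : p.Prime) (hG : Nat.card G = p * 3 ^ a * 2 ^ b) (x : G) (hx : orderOf x = p) : Subgroup.centralizer ({x} : Set G) = Subgroup.zpowers x := by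
  classical
  haveI := Fintype.ofFinite G
  by_cases hcomm : ∀ a b : G, a * b = b * a
  · letI cg : CommGroup G := { (inferInstance : Group G) with mul_comm := hcomm }
    have hpc : (Nat.card G).Prime := IsSimpleGroup.prime_card
    have hxd : p ∣ Nat.card G := hx ▸ orderOf_dvd_natCard x
    have hrc : Nat.card G = p := ((Nat.prime_dvd_prime_iff_eq hp hpc).mp hxd).symm
    have h1 : Subgroup.zpowers x = ⊤ := by
      rw [← Subgroup.card_eq_iff_eq_top, Nat.card_zpowers, hx, hrc]
    have h2 : Subgroup.centralizer ({x} : Set G) = ⊤ := by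
      rw [eq_top_iff]
      intro y _
      rw [Subgroup.mem_centralizer_singleton_iff]
      exact hcomm _ _
    rw [h1, h2]
  · have hp2 : p ≠ 2 := by
      rintro rfl
      apply hcomm
      exact IsSimpleGroup.comm_iff_isSolvable.mpr
        (Cfsg.Agent.Lib.Char.isSolvable_of_card_eq_aux Nat.prime_two Nat.prime_three _ G rfl ⟨b + 1, a, by rw [hG]; ring⟩)
    have hp3 : p ≠ 3 := by
      rintro rfl
      apply hcomm
      exact IsSimpleGroup.comm_iff_isSolvable.mpr
        (Cfsg.Agent.Lib.Char.isSolvable_of_card_eq_aux Nat.prime_two Nat.prime_three _ G rfl ⟨b, a + 1, by rw [hG]; ring⟩)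
    exact Cfsg.Agent.Lib.Small.BD.centralizer_eq_zpowers_of_card (a := a) (b := b) Nat.prime_three Nat.prime_two hp (by norm_num) hp3.symm hp2.symm
      (by rw [hG]; ring) hx

end Cfsg.Agent.S1001
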