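import Cfsg.Statements.S1002
import Mathlib
import Cfsg.Agent.Lib.Small.BrauerKill

set_option autoImplicit false
open Cfsg

namespace Cfsg.Agent.S1002

/-- No finite simple group has order 1004913 = 3^3 * 7 * 13 * 409. -/
theorem result {G : Type*} [Group G] [Finite G] [IsSimpleGroup G] : Nat.card G ≠ 1004913 := by
  intro h
  haveI := Fintype.ofFinite G
  haveI hp : Fact (Nat.Prime 409) := ⟨by norm_num⟩
  have hcard : Nat.card G = 409 * 2457 := by rw [h]
  obtain ⟨P, m, hP, hnc, hCN, hmd, hm1, n, hn, hmn, hnp, hn1⟩ :=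
    Cfsg.Agent.Lib.Small.BD.exists_setup hcard (by norm_num) (by norm_num)
  have key : ∀ m ∈ Nat.divisors 408, ∀ n ∈ Nat.divisors 2457, 1 < m → 1 < n → n % 409 = 1 → m * n ∣ 2457 → m = 3 := by
    decide +kernel
  have hm2 : m = 3 := key m hmd n hn hm1 hn1 hnp hmn
  subst hm2
  refine Cfsg.Agent.Lib.Small.BD.false_of_check_three hnc P hP hcard (r := 136) (by norm_num) (by norm_num) hCN ?_
  decide +kernel

end Cfsg.Agent.S1002
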