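import Cfsg.Statements.S1004
import Cfsg.Agent.Lib.PslRec.M168Sylow

set_option autoImplicit false
open Cfsg

namespace Cfsg.Agent.S1004


/-- Let G be a simple group of order 168 and T a Sylow 2-subgroup. Then T is dihedral of order 8, T is its own normalizer, and T is the centralizer of any non-identity element of T that commutes with every element of T. -/
theorem result {G : Type*} [Group G] [Finite G] [IsSimpleGroup G] (h : Nat.card G = 168) (T : Sylow 2 G) : Nonempty (↥(T : Subgroup G) ≃* DihedralGroup 4) ∧ Subgroup.normalizer ((T : Subgroup G) : Set G) = T ∧ ∀ z : G, z ∈ (T : Subgroup G) → z ≠ 1 → (∀ t ∈ (T : Subgroup G), t * z = z * t) → Subgroup.centralizer ({z} : Set G) = T := by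
  obtain ⟨R⟩ := Cfsg.Agent.Lib.PslRec.M168.exists_rep h
  refine ⟨R.sylow2_dihedral h T, R.normalizer_sylow2 h T, ?_⟩
  intro z hz hz1 hcomm
  obtain ⟨e⟩ := R.sylow2_dihedral h T
  let z' : ↥(T : Subgroup G) := ⟨z, hz⟩
  have h1 : e z' ≠ 1 := by
    intro h0
    apply hz1
    have : z' = 1 := by simpa using h0
    exact congrArg Subtype.val this
  have h2 : ∀ b, b * e z' = e z' * b := by
    intro b
    obtain ⟨t, rfl⟩ := e.surjective b
    rw [← map_mul, ← map_mul]
    congr 1
    apply Subtype.ext
    exact hcomm t.1 t.2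
  have h3 : e z' * e z' = 1 := Cfsg.Agent.Lib.PslRec.M168.d4_center _ h1 h2
  have h4 : z * z = 1 := by
    have h5 : z' * z' = 1 := by
      apply e.injective
      rw [map_mul, h3, map_one]
    exact congrArg Subtype.val h5
  have hord : orderOf z = 2 := orderOf_eq_prime (by rw [pow_two, h4]) hz1
  apply R.centralizer_of_order2 (R.card_sylow2_subgroup h T) hord
  intro t ht
  rw [Subgroup.mem_centralizer_singleton_iff]
  exact hcomm t ht

end Cfsg.Agent.S1004
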