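import Cfsg.Statements.S1006
import Cfsg.Agent.Lib.PslRec.M168Facts

set_option autoImplicit false
open Cfsg

namespace Cfsg.Agent.S1006


/-- In a simple group of order 168 there are 56 elements of order 3, all conjugate; 42 elements of order 4, all conjugate; and 48 elements of order 7 falling into two conjugacy classes of size 24, an element of order 7 not being conjugate to its inverse. -/
theorem result {G : Type*} [Group G] [Finite G] [IsSimpleGroup G] (h : Nat.card G = 168) : Nat.card {g : G // orderOf g = 3} = 56 ∧ (∀ s t : G, orderOf s = 3 → orderOf t = 3 → IsConj s t) ∧ Nat.card {g : G // orderOf g = 4} = 42 ∧ (∀ s t : G, orderOf s = 4 → orderOf t = 4 → IsConj s t) ∧ Nat.card {g : G // orderOf g = 7} = 48 ∧ ∀ x : G, orderOf x = 7 → Nat.card {g : G // IsConj x g} = 24 ∧ ¬ IsConj x x⁻¹ := by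
  obtain ⟨R⟩ := Cfsg.Agent.Lib.PslRec.M168.exists_rep h
  open Cfsg.Agent.Lib.PslRec.M168 in
  refine ⟨R.card_order3, R.conj_of_order x3_mem conj3, R.card_order4, R.conj_of_order x4_mem conj4, R.card_order7, ?_⟩
  open Cfsg.Agent.Lib.PslRec.M168 in
  intro g hg
  obtain ⟨x, hx, rfl⟩ := R.E_surj g
  rw [R.orderOf_E hx] at hg
  constructor
  · have h1 := Cfsg.Agent.Lib.SmallSimple.card_eq_card_isConj_mul_card_centralizer (R.E x)
    rw [R.card_centralizer hx, cent7_all x hx hg, h] at h1
    omega
  · intro hc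
    rw [← R.E_ninv hx, R.isConj_E_iff hx (ninv_mem x hx)] at hc
    obtain ⟨c, hc1, hc2⟩ := hc
    exact nc7_all x hx hg c hc1 hc2

end Cfsg.Agent.S1006
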