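import Cfsg.Statements.S1008
import Cfsg.Agent.Lib.PslRec.M168Coatom

set_option autoImplicit false
open Cfsg

namespace Cfsg.Agent.S1008


/-- In a simple group of order 168 every maximal subgroup is either isomorphic to the symmetric group of degree 4 or non-abelian of order 21; the maximal subgroups of order 21 form one conjugacy class and those isomorphic to the symmetric group of degree 4 form exactly two conjugacy classes. -/
theorem result {G : Type*} [Group G] [Finite G] [IsSimpleGroup G] (h : Nat.card G = 168) : (∀ M : Subgroup G, IsCoatom M → Nonempty (↥M ≃* Equiv.Perm (Fin 4)) ∨ (Nat.card ↥M = 21 ∧ ¬ IsMulCommutative ↥M)) ∧ (∀ M M' : Subgroup G, IsCoatom M → IsCoatom M' → Nat.card ↥M = 21 → Nat.card ↥M' = 21 → ∃ g : G, M' = M.map (MulAut.conj g).toMonoidHom) ∧ ∃ M₁ M₂ : Subgroup G, IsCoatom M₁ ∧ IsCoatom M₂ ∧ Nonempty (↥M₁ ≃* Equiv.Perm (Fin 4)) ∧ Nonempty (↥M₂ ≃* Equiv.Perm (Fin 4)) ∧ (∀ g : G, M₂ ≠ M₁.map (MulAut.conj g).toMonoidHom)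 ∧ ∀ M : Subgroup G, IsCoatom M → Nonempty (↥M ≃* Equiv.Perm (Fin 4)) → ∃ g : G, M = M₁.map (MulAut.conj g).toMonoidHom ∨ M = M₂.map (MulAut.conj g).toMonoidHom := by
  open Cfsg.Agent.Lib.PslRec.M168 in
  obtain ⟨R⟩ := exists_rep h
  have hisoN1 := R.N1_iso
  have hisoN2 := R.N2_iso
  have hiso : ∀ (g : G) (N : Subgroup G), Nonempty (↥N ≃* Equiv.Perm (Fin 4)) →
      Nonempty (↥(N.map (MulAut.conj g).toMonoidHom) ≃* Equiv.Perm (Fin 4)) := by
    rintro g N ⟨e⟩
    exact ⟨(Cfsg.Agent.Lib.PslRec.M168.isoCm g N).symm.trans e⟩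
  have hcardS4 : ∀ K : Subgroup G, Nonempty (↥K ≃* Equiv.Perm (Fin 4)) → Nat.card K = 24 := by
    rintro K ⟨e⟩
    rw [Nat.card_congr e.toEquiv]
    simp [Nat.card_eq_fintype_card, Fintype.card_perm, Nat.factorial]
  have hc7 : ∀ P : Sylow 7 G, Nat.card (Subgroup.normalizer ((P : Subgroup G) : Set G)) = 21 := R.card_normalizer7 h
  have hc1 : ∀ g : G, Nat.card ↥(R.N1.map (MulAut.conj g).toMonoidHom) = 24 := by
    intro g; rw [Cfsg.Agent.Lib.PslRec.M168.card_cm, R.card_N1]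
  have hc2 : ∀ g : G, Nat.card ↥(R.N2.map (MulAut.conj g).toMonoidHom) = 24 := by
    intro g; rw [Cfsg.Agent.Lib.PslRec.M168.card_cm, R.card_N2]
  refine ⟨?_, ?_, R.N1, R.N2, R.isCoatom_of_card h _ R.card_N1, R.isCoatom_of_card h _ R.card_N2, hisoN1, hisoN2, ?_, ?_⟩
  · intro M hM
    rcases R.coatom_cases h M hM with ⟨P, rfl⟩ | ⟨g, rfl | rfl⟩
    · right
      refine ⟨hc7 P, ?_⟩
      intro hcomm
      have hM21 := hc7 P
      haveI : Fact (Nat.Prime 3) := ⟨by norm_num⟩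
      haveI : Fact (Nat.Prime 7) := ⟨by norm_num⟩
      obtain ⟨a, ha⟩ := exists_prime_orderOf_dvd_card' (G := ↥(Subgroup.normalizer ((P : Subgroup G) : Set G))) 3 (by rw [hM21]; norm_num)
      obtain ⟨b, hb⟩ := exists_prime_orderOf_dvd_card' (G := ↥(Subgroup.normalizer ((P : Subgroup G) : Set G))) 7 (by rw [hM21]; norm_num)
      have hab : Commute a b := hcomm.is_comm.comm a b
      have h1 : orderOf (a * b) = 21 := by
        rw [hab.orderOf_mul_eq_mul_orderOf_of_coprime (by rw [ha, hb]; norm_num), ha, hb]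
      have h2 : orderOf ((a * b : ↥(Subgroup.normalizer ((P : Subgroup G) : Set G))) : G) = 21 := by
        rw [Subgroup.orderOf_coe]; exact h1
      have := R.orders ((a * b : ↥(Subgroup.normalizer ((P : Subgroup G) : Set G))) : G)
      omega
    · exact Or.inl (hiso g _ hisoN1)
    · exact Or.inl (hiso g _ hisoN2)
  · intro M M' hM hM' hc hc'
    rcases R.coatom_cases h M hM with ⟨P, rfl⟩ | ⟨g, rfl | rfl⟩
    · rcases R.coatom_cases h M' hM' with ⟨P', rfl⟩ | ⟨g, rfl | rfl⟩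
      · obtain ⟨g, hg⟩ := MulAction.exists_smul_eq G P P'
        refine ⟨g, ?_⟩
        have h1 : (P' : Subgroup G) = (P : Subgroup G).map (MulAut.conj g).toMonoidHom := by
          rw [← hg, Sylow.coe_subgroup_smul]
          rfl
        rw [h1]
        exact Cfsg.Agent.Lib.PslRec.M168.normalizer_cm g (P : Subgroup G)
      · rw [hc1] at hc'; omega
      · rw [hc2] at hc'; omega
    · rw [hc1] at hc; omega
    · rw [hc2] at hc; omega
  · intro g h1
    exact R.not_cm_N1 g h1.symm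
  · intro M hM hS
    rcases R.coatom_cases h M hM with ⟨P, rfl⟩ | ⟨g, rfl | rfl⟩
    · have := hcardS4 _ hS
      rw [hc7] at this
      omega
    · exact ⟨g, Or.inl rfl⟩
    · exact ⟨g, Or.inr rfl⟩

end Cfsg.Agent.S1008
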