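import Cfsg.Statements.S1009
import Mathlib

set_option autoImplicit false
open Cfsg

namespace Cfsg.Agent.S1009

open scoped Pointwise


/-- Brodkey's Theorem: if a finite group has abelian Sylow p-subgroups, then there are two Sylow p-subgroups whose intersection equals the intersection of all Sylow p-subgroups. -/
theorem result {G : Type*} [Group G] [Finite G] (p : ℕ) [Fact p.Prime] (hab : ∀ P : Sylow p G, IsMulCommutative ↥(P : Subgroup G)) : ∃ P Q : Sylow p G, (P : Subgroup G) ⊓ (Q : Subgroup G) = ⨅ R : Sylow p G, (R : Subgroup G) := by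
  classical
  -- choose a pair with intersection of minimal order
  obtain ⟨⟨P, Q⟩, hmin⟩ := Finite.exists_min (fun x : Sylow p G × Sylow p G => Nat.card ↥((x.1 : Subgroup G) ⊓ (x.2 : Subgroup G)))
  simp only [Prod.forall] at hmin
  refine ⟨P, Q, le_antisymm ?_ ?_⟩
  swap
  · exact inf_le_inf (iInf_le _ P) (iInf_le _ Q) |>.trans' (le_inf le_rfl le_rfl)
  set D : Subgroup G := (P : Subgroup G) ⊓ (Q : Subgroup G) with hD
  have hcomm : ∀ (R : Sylow p G) (E : Subgroup G), E ≤ (R : Subgroup G) → (R : Subgroup G) ≤ Subgroup.normalizer (E : Set G) := by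
    intro R E hE x hx
    rw [Subgroup.mem_normalizer_iff]
    have hc := hab R
    intro y
    constructor
    · intro hy
      have : x * y * x⁻¹ = y := by
        have := hc.is_comm.comm ⟨x, hx⟩ ⟨y, hE hy⟩
        have h2 : x * y = y * x := congrArg Subtype.val this
        rw [h2]; group
      rw [this]; exact hy
    · intro hy
      have hxy : x * y * x⁻¹ ∈ (R : Subgroup G) := hE hy
      have hyR : y ∈ (R : Subgroup G) := by
        have := (R : Subgroup G).mul_mem ((R : Subgroup G).mul_mem ((R : Subgroup G).inv_mem hx) hxy) hx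
        simpa [mul_assoc] using this
      have : x * y * x⁻¹ = y := by
        have := hc.is_comm.comm ⟨x, hx⟩ ⟨y, hyR⟩
        have h2 : x * y = y * x := congrArg Subtype.val this
        rw [h2]; group
      rw [this] at hy; exact hy
  have hPN : (P : Subgroup G) ≤ Subgroup.normalizer (D : Set G) := hcomm P D inf_le_left
  have hQN : (Q : Subgroup G) ≤ Subgroup.normalizer (D : Set G) := hcomm Q D inf_le_right
  set N : Subgroup G := Subgroup.normalizer (D : Set G) with hN
  rw [le_iInf_iff]
  intro T
  by_cases hTN : (T : Subgroup G) ≤ N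
  · -- D is a normal p-subgroup of N, so lies in T
    have hpD : IsPGroup p D := P.isPGroup'.to_le inf_le_left
    have hsup : IsPGroup p ↥(D ⊔ (T : Subgroup G)) :=
      hpD.to_sup_of_normal_left' T.isPGroup' hTN
    have h1 := T.3 hsup le_sup_right
    rw [← h1]
    exact le_sup_left
  · -- otherwise T ∩ N lies in a Sylow subgroup of N
    let P' : Sylow p N := P.subtype hPN
    let Q' : Sylow p N := Q.subtype hQN
    have hK : IsPGroup p ↥(((T : Subgroup G) ⊓ N).subgroupOf N) := by
      have h : IsPGroup p ↥((T : Subgroup G) ⊓ N) := T.isPGroup'.to_le inf_le_left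
      exact h.comap_subtype
    obtain ⟨A', hA'⟩ := hK.exists_le_sylow
    obtain ⟨h, hh⟩ := MulAction.exists_smul_eq N P' A'
    let B : Sylow p G := (h : G) • Q
    have hle : (T : Subgroup G) ⊓ (B : Subgroup G) ≤ D := by
      rintro x ⟨hxT, hxB⟩
      have hxB' : (h : G)⁻¹ * x * (h : G) ∈ (Q : Subgroup G) := by
        have h1 : x ∈ MulAut.conj (h : G) • (Q : Subgroup G) := by
          have : (B : Subgroup G) = MulAut.conj (h : G) • (Q : Subgroup G) := Sylow.coe_subgroup_smul
          rwa [this] at hxB
        rw [Subgroup.mem_pointwise_smul_iff_inv_smul_mem] at h1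
        simpa [MulAut.smul_def, mul_assoc] using h1
      have hxN : x ∈ N := by
        have h1 := N.mul_mem (N.mul_mem h.2 (hQN hxB')) (N.inv_mem h.2)
        simpa [mul_assoc] using h1
      have hxK : (⟨x, hxN⟩ : N) ∈ ((T : Subgroup G) ⊓ N).subgroupOf N := by
        rw [Subgroup.mem_subgroupOf]
        exact ⟨hxT, hxN⟩
      have hxA := hA' hxK
      rw [← hh] at hxA
      have hxP : (h : G)⁻¹ * x * (h : G) ∈ (P : Subgroup G) := by
        have h1 : (⟨x, hxN⟩ : N) ∈ MulAut.conj h • (P' : Subgroup N) := by
          have : ((h • P' : Sylow p N) : Subgroup N) = MulAut.conj h • (P' : Subgroup N) := Sylow.coe_subgroup_smul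
          rwa [this] at hxA
        rw [Subgroup.mem_pointwise_smul_iff_inv_smul_mem] at h1
        have h2 : (MulAut.conj h)⁻¹ • (⟨x, hxN⟩ : N) ∈ (P : Subgroup G).subgroupOf N := h1
        rw [Subgroup.mem_subgroupOf] at h2
        simpa [MulAut.smul_def, mul_assoc] using h2
      have hxD : (h : G)⁻¹ * x * (h : G) ∈ D := ⟨hxP, hxB'⟩
      have := (Subgroup.mem_normalizer_iff.mp h.2 ((h : G)⁻¹ * x * (h : G))).mp hxD
      simpa [mul_assoc] using this
    have hge := hmin T B
    have heq := Subgroup.eq_of_le_of_card_ge hle hge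
    rw [← heq]
    exact inf_le_left

end Cfsg.Agent.S1009
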