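import Cfsg.Statements.S1012
import Mathlib
import Cfsg.Agent.Lib.Small.Order3

set_option autoImplicit false
open Cfsg

namespace Cfsg.Agent.S1012

open Cfsg.Agent.Lib.Small Cfsg.Agent.Lib.Invol

/-- A group of order 24 containing no element of order 6 is isomorphic to the symmetric group of degree 4. -/
theorem result {G : Type*} [Group G] [Finite G] (h : Nat.card G = 24) (h6 : ∀ g : G, orderOf g ≠ 6) : Nonempty (G ≃* Equiv.Perm (Fin 4)) := by
  classical
  have hp3 : Fact (Nat.Prime 3) := ⟨by norm_num⟩
  have hp2 : Fact (Nat.Prime 2) := ⟨by norm_num⟩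
  have h24 : Nat.card G = 3 ^ 1 * 8 := by rw [h]; norm_num
  obtain ⟨hmod, hdvd⟩ := card_sylow_mod_dvd (G := G) (p := 3) (a := 1) (m := 8) h24 (by norm_num)
  obtain ⟨P⟩ : Nonempty (Sylow 3 G) := inferInstance
  have hPcard : ∀ Q : Sylow 3 G, Nat.card (Q : Subgroup G) = 3 := fun Q => by
    simpa using card_sylow_eq_of h24 (by norm_num) Q
  -- no element of order 3 commutes with an involution
  have hnoinv : ∀ y : G, orderOf y = 3 → ∀ t : G, orderOf t = 2 → ¬ Commute t y := by
    intro y hy t ht hc
    exact h6 _ (orderOf_mul_eq_six ht hy hc)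
  -- the number of Sylow 3-subgroups is 1 or 4
  have hn : Nat.card (Sylow 3 G) = 1 ∨ Nat.card (Sylow 3 G) = 4 := by
    have hle := Nat.le_of_dvd (by norm_num) hdvd
    interval_cases hk : Nat.card (Sylow 3 G) <;> omega
  -- the key structural claims
  -- choose generator of P
  have hgen : ∀ Q : Sylow 3 G, ∃ y ∈ (Q : Subgroup G), orderOf y = 3 := fun Q => by
    apply exists_orderOf_eq_prime_of_dvd
    rw [hPcard]
  rcases hn with hn | hn
  · -- P normal
    exfalso
    haveI : Subsingleton (Sylow 3 G) := (Nat.card_eq_one_iff_unique.mp hn).1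
    haveI hPn := Sylow.normal_of_subsingleton P
    obtain ⟨y, hyP, hy⟩ := hgen P
    have hy1 : y ≠ 1 := by
      rintro rfl
      simp at hy
    have h1 := card_conj_le_of_normal hyP hy1
    rw [hPcard] at h1
    have h2 := card_conj_mul_card_centralizer y
    rw [h] at h2
    have h3 : 12 ≤ Nat.card (Subgroup.centralizer ({y} : Set G)) := by
      by_contra hlt
      have : Nat.card {g : G // IsConj y g} * Nat.card (Subgroup.centralizer ({y} : Set G)) ≤ 2 * 11 :=
        Nat.mul_le_mul (by omega) (by omega)
      omega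
    have h4 : 2 ∣ Nat.card (Subgroup.centralizer ({y} : Set G)) := by
      have h5 : Nat.card (Subgroup.centralizer ({y} : Set G)) ∣ 24 := by
        rw [← h]; exact Subgroup.card_subgroup_dvd_card _
      have hle := Nat.le_of_dvd (by norm_num) h5
      interval_cases hk : Nat.card (Subgroup.centralizer ({y} : Set G)) <;> omega
    obtain ⟨t, htC, ht⟩ := exists_orderOf_eq_prime_of_dvd (p := 2) _ h4
    rw [mem_centralizer_singleton_iff'] at htC
    exact hnoinv y hy t ht htC
  · -- faithful action on 4 points
    have hfaith : Function.Injective (MulAction.toPermHom G (Sylow 3 G)) := by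
      rw [← MonoidHom.ker_eq_bot_iff]
      set K := (MulAction.toPermHom G (Sylow 3 G)).ker with hK
      haveI hKn : K.Normal := MonoidHom.normal_ker _
      -- elements of K normalise all Sylows
      have hKN : ∀ k ∈ K, ∀ Q : Sylow 3 G, k ∈ Subgroup.normalizer ((Q : Subgroup G) : Set G) := by
        intro k hk Q
        have h1 : (MulAction.toPermHom G (Sylow 3 G)) k = 1 := hk
        have h2 : k • Q = Q := by
          have := congrArg (fun σ : Equiv.Perm (Sylow 3 G) => σ Q) h1
          simpa using this
        exact Sylow.smul_eq_iff_mem_normalizer.mp h2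
      -- no element of order 3
      have hK3 : ∀ k ∈ K, orderOf k ≠ 3 := by
        intro k hk hord
        -- k in all Sylows
        have hmem : ∀ Q : Sylow 3 G, k ∈ (Q : Subgroup G) := fun Q =>
          mem_sylow_of_mem_normalizer Q (hKN k hk Q) ⟨1, by rw [pow_one, ← hord, pow_orderOf_eq_one]⟩
        -- two distinct Sylows
        have hnt : Nontrivial (Sylow 3 G) := by
          rw [← Finite.one_lt_card_iff_nontrivial, hn]; norm_num
        obtain ⟨Q, R, hQR⟩ := hnt.exists_pair_ne
        have h5 := inf_eq_bot_of_card_prime Q R hQR (hPcard Q)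
        have h6 : k ∈ (Q : Subgroup G) ⊓ (R : Subgroup G) := ⟨hmem Q, hmem R⟩
        rw [h5, Subgroup.mem_bot] at h6
        rw [h6] at hord
        simp at hord
      -- no element of order 2
      have hK2 : ∀ k ∈ K, orderOf k ≠ 2 := by
        intro k hk hord
        obtain ⟨y, hyP, hy⟩ := hgen P
        have hyconj : k * y * k⁻¹ ∈ (P : Subgroup G) := (Subgroup.mem_normalizer_iff.mp (hKN k hk P) y).mp hyP
        have hne : ¬ Commute k y := hnoinv y hy k hord
        -- then the commutator generates P so K has an element of order 3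
        have hcomm : k * y * k⁻¹ * y⁻¹ ∈ K := by
          have h1 : y * k⁻¹ * y⁻¹ ∈ K := hKn.conj_mem _ (K.inv_mem hk) y
          have h2 : k * y * k⁻¹ * y⁻¹ = k * (y * k⁻¹ * y⁻¹) := by group
          rw [h2]; exact K.mul_mem hk h1
        have hcommP : k * y * k⁻¹ * y⁻¹ ∈ (P : Subgroup G) :=
          (P : Subgroup G).mul_mem hyconj ((P : Subgroup G).inv_mem hyP)
        have hne1 : k * y * k⁻¹ * y⁻¹ ≠ 1 := by
          intro h1
          apply hne
          have h2 : k * y * k⁻¹ = y := by
            rw [mul_inv_eq_one] at h1; exact h1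
          exact mul_inv_eq_iff_eq_mul.mp h2
        have hord3 : orderOf (k * y * k⁻¹ * y⁻¹) = 3 := by
          have h1 : orderOf (⟨_, hcommP⟩ : (P : Subgroup G)) ∣ 3 := by
            have h0 := orderOf_dvd_natCard (⟨_, hcommP⟩ : (P : Subgroup G))
            rw [hPcard P] at h0; exact h0
          rw [Subgroup.orderOf_mk] at h1
          rcases (Nat.dvd_prime (by norm_num)).mp h1 with h2 | h2
          · exact absurd (orderOf_eq_one_iff.mp h2) hne1
          · exact h2
        exact hK3 _ hcomm hord3
      by_contra hne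
      have hnt : Nontrivial K := (Subgroup.nontrivial_iff_ne_bot K).mpr hne
      have hc1 : Nat.card K ≠ 1 := (Finite.one_lt_card_iff_nontrivial.mpr hnt).ne'
      have hq : Fact (Nat.minFac (Nat.card K)).Prime := ⟨Nat.minFac_prime hc1⟩
      obtain ⟨x, hxK, hxq⟩ := exists_orderOf_eq_prime_of_dvd (p := (Nat.card K).minFac) K (Nat.minFac_dvd _)
      have hq24 : (Nat.card K).minFac ∣ 24 := by
        rw [← h]
        exact (Nat.minFac_dvd _).trans (Subgroup.card_subgroup_dvd_card K)
      have hqcases : (Nat.card K).minFac = 2 ∨ (Nat.card K).minFac = 3 := by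
        have h2 : (24 : ℕ) = 2 ^ 3 * 3 := by norm_num
        rw [h2] at hq24
        rcases (Nat.Prime.dvd_mul hq.out).mp hq24 with h3 | h3
        · left; exact (Nat.prime_dvd_prime_iff_eq hq.out Nat.prime_two).mp (hq.out.dvd_of_dvd_pow h3)
        · right; exact (Nat.prime_dvd_prime_iff_eq hq.out Nat.prime_three).mp h3
      rcases hqcases with h2 | h2
      · exact hK2 x hxK (hxq.trans h2)
      · exact hK3 x hxK (hxq.trans h2)
    have e : Sylow 3 G ≃ Fin 4 := Finite.equivFinOfCardEq hn
    let φ : Equiv.Perm (Sylow 3 G) ≃* Equiv.Perm (Fin 4) := e.permCongrHom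
    let F : G →* Equiv.Perm (Fin 4) := φ.toMonoidHom.comp (MulAction.toPermHom G (Sylow 3 G))
    have hF : Function.Injective F := φ.injective.comp hfaith
    have hbij : Function.Bijective F := by
      apply (Nat.bijective_iff_injective_and_card F).mpr
      refine ⟨hF, ?_⟩
      rw [h, Nat.card_perm]
      simp [Nat.factorial]
    exact ⟨MulEquiv.ofBijective F hbij⟩

end Cfsg.Agent.S1012
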