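import Cfsg.Statements.S1013
import Cfsg.Agent.Lib.SmallSimple.Count
import Cfsg.Agent.Lib.SmallSimple.Basic
import Cfsg.Agent.Lib.SmallSimple.Sylow
import Cfsg.Agent.Lib.Perm.Orbits

set_option autoImplicit false
open Cfsg

namespace Cfsg.Agent.S1013

open Cfsg.Agent.Lib.SmallSimple in
theorem hA_aux {α : Type*} [Fintype α] [DecidableEq α] {p : ℕ} [Fact p.Prime] (hα : Fintype.card α = p)
    (G : Subgroup (Equiv.Perm α)) [MulAction.IsPretransitive ↥G α] (N : Subgroup ↥G) (hN : N.Normal) (hb : N ≠ ⊥) :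
    p ∣ Nat.card N := by
  classical
  have hp : p.Prime := Fact.out
  obtain ⟨⟨n, hn⟩, hn1⟩ := (Subgroup.ne_bot_iff_exists_ne_one).mp hb
  have hn2 : (n : Equiv.Perm α) ≠ 1 := fun h => hn1 (Subtype.ext (Subtype.ext h))
  obtain ⟨x, hx⟩ : ∃ x, (n : Equiv.Perm α) x ≠ x := by
    by_contra hall
    push Not at hall
    exact hn2 (Equiv.ext hall)
  -- equal orbit sizes
  have horb : ∀ y : α, Nat.card (MulAction.orbit N y) = Nat.card (MulAction.orbit N x) := by
    intro y
    obtain ⟨g, rfl⟩ := MulAction.exists_smul_eq (↥G) x y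
    refine Nat.card_congr ?_
    refine
      { toFun := fun z => ⟨g⁻¹ • z.1, ?_⟩
        invFun := fun z => ⟨g • z.1, ?_⟩
        left_inv := fun z => by simp
        right_inv := fun z => by simp }
    · obtain ⟨⟨m, hm⟩, hz⟩ := z.2
      refine ⟨⟨g⁻¹ * m * g, by simpa using hN.conj_mem m hm g⁻¹⟩, ?_⟩
      have hz' : m • (g • x) = z.1 := hz
      show (g⁻¹ * m * g) • x = g⁻¹ • z.1
      rw [← hz', mul_smul, mul_smul]
    · obtain ⟨⟨m, hm⟩, hz⟩ := z.2
      refine ⟨⟨g * m * g⁻¹, hN.conj_mem m hm g⟩, ?_⟩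
      have hz' : m • x = z.1 := hz
      show (g * m * g⁻¹) • (g • x) = g • z.1
      rw [← hz', mul_smul, mul_smul, inv_smul_smul]
  have hd : Nat.card (MulAction.orbit N x) ∣ Nat.card α := Cfsg.Agent.Lib.Perm.dvd_card_of_orbits_eq (H := N) horb
  have hcα : Nat.card α = p := by rw [Nat.card_eq_fintype_card, hα]
  rw [hcα] at hd
  rcases (Nat.dvd_prime hp).mp hd with h | h
  · exfalso
    have h3 := (Nat.card_eq_one_iff_unique.mp h).1
    have h1 : (⟨n, hn⟩ : N) • x ∈ MulAction.orbit N x := MulAction.mem_orbit _ _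
    have h4 := h3.elim (⟨_, h1⟩ : MulAction.orbit N x) ⟨x, MulAction.mem_orbit_self x⟩
    exact hx (congrArg Subtype.val h4)
  · have := Cfsg.Agent.Lib.Perm.card_orbit_mul_card_stabilizer (K := N) x
    rw [h] at this
    exact ⟨_, this.symm⟩

/-- Let G be a transitive permutation group of prime degree p having more than one Sylow p-subgroup, and suppose a Sylow p-subgroup P has prime index in its normalizer. Then G is simple. -/
theorem result {α : Type*} [Fintype α] [DecidableEq α] {p : ℕ} [Fact p.Prime] (hα : Fintype.card α = p) (G : Subgroup (Equiv.Perm α)) [MulAction.IsPretransitive ↥G α] (P : Sylow p ↥G) (hn : 1 < Nat.card (Sylow p ↥G)) (ht : (((P : Subgroup ↥G).subgroupOf (Subgroup.normalizer ((P : Subgroup ↥G) : Set ↥G))).index).Prime) : IsSimpleGroup ↥G := by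
  open Cfsg.Agent.Lib.SmallSimple in
  classical
  have hp : p.Prime := Fact.out
  have hA := fun N hN hb => hA_aux (p := p) hα G N hN hb
  have hG0 : Nat.card (↥G) ∣ p.factorial := by
    have := Subgroup.card_subgroup_dvd_card G
    rwa [Nat.card_eq_fintype_card (α := Equiv.Perm α), Fintype.card_perm, hα] at this
  have hnd2 : ¬ p ^ 2 ∣ Nat.card ↥G := by
    intro h
    have h1 := h.trans hG0
    obtain ⟨k, hk⟩ : ∃ k, p = k + 1 := ⟨p - 1, by have := hp.pos; omega⟩
    have h2 : p.factorial = p * (p - 1).factorial := by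
      rw [hk]; simp [Nat.factorial_succ]
    rw [h2, pow_two] at h1
    have h3 : p ∣ (p - 1).factorial := Nat.dvd_of_mul_dvd_mul_left hp.pos h1
    have h4 := (Nat.Prime.dvd_factorial hp).mp h3
    have := hp.pos
    omega
  have hntS : Nontrivial (Sylow p ↥G) := Finite.one_lt_card_iff_nontrivial.mp hn
  obtain ⟨Q, hQ⟩ := exists_ne P
  have hnt : Nontrivial ↥G := by
    by_contra h
    rw [not_nontrivial_iff_subsingleton] at h
    exact hQ (Sylow.ext (Subsingleton.elim _ _))
  have hbot : (⊤ : Subgroup ↥G) ≠ ⊥ := top_ne_bot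
  have hpG : p ∣ Nat.card ↥G := by
    have := hA ⊤ inferInstance hbot
    rwa [Subgroup.card_top] at this
  obtain ⟨m, hm⟩ := hpG
  have hmd : ¬ p ∣ m := by
    rintro ⟨k, rfl⟩
    apply hnd2
    rw [hm]
    exact ⟨k, by ring⟩
  have hcard : Nat.card ↥G = p ^ 1 * m := by rw [hm, pow_one]
  have hS : ∀ R : Sylow p ↥G, Nat.card (R : Subgroup ↥G) = p := fun R => by
    simpa using sylow_card_of_eq R hcard hmd
  have hB : ∀ N : Subgroup ↥G, N.Normal → N ≠ ⊥ → N = ⊤ := by
    intro N hN hb
    have hpN := hA N hN hb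
    obtain ⟨x, hx⟩ := exists_prime_orderOf_dvd_card' p hpN
    have hx' : orderOf (x : ↥G) = p := by rw [Subgroup.orderOf_coe]; exact hx
    obtain ⟨R, hR⟩ := exists_sylow_of_orderOf hx'
    have hRN : (R : Subgroup ↥G) ≤ N := by
      rw [eq_zpowers_of_card (hS R) hR hx', Subgroup.zpowers_le]
      exact x.2
    have hPN : (P : Subgroup ↥G) ≤ N := by
      obtain ⟨g, rfl⟩ := MulAction.exists_smul_eq (↥G) R P
      intro y hy
      rw [Sylow.coe_subgroup_smul, Subgroup.mem_pointwise_smul_iff_inv_smul_mem] at hy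
      have h2 : g⁻¹ * y * g ∈ N := hRN (by simpa [MulAut.smul_def, mul_assoc] using hy)
      have h3 := hN.conj_mem _ h2 g
      have h4 : g * (g⁻¹ * y * g) * g⁻¹ = y := by group
      rwa [h4] at h3
    have hFr := P.normalizer_sup_eq_top' hPN
    let L : Subgroup ↥G := N ⊓ Subgroup.normalizer ((P : Subgroup ↥G) : Set ↥G)
    have hPL : (P : Subgroup ↥G) ≤ L := le_inf hPN Subgroup.le_normalizer
    have hLN : L ≤ Subgroup.normalizer ((P : Subgroup ↥G) : Set ↥G) := inf_le_right
    have htower := Subgroup.relIndex_mul_relIndex (P : Subgroup ↥G) L _ hPL hLN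
    have ht' : ((P : Subgroup ↥G).relIndex (Subgroup.normalizer ((P : Subgroup ↥G) : Set ↥G))).Prime := ht
    rw [← htower] at ht'
    rcases Nat.prime_mul_iff.mp ht' with ⟨_, h1⟩ | ⟨_, h1⟩
    · -- `N(P) ≤ N`
      have h2 : Subgroup.normalizer ((P : Subgroup ↥G) : Set ↥G) ≤ L := Subgroup.relIndex_eq_one.mp h1
      have h3 : Subgroup.normalizer ((P : Subgroup ↥G) : Set ↥G) ≤ N := h2.trans inf_le_left
      have h3' : Subgroup.normalizer (P : Set ↥G) ≤ N := h3
      rw [sup_of_le_right h3'] at hFr
      exact hFr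
    · -- `N(P) ∩ N = P`: Burnside transfer inside `N`
      exfalso
      have hLP : L ≤ (P : Subgroup ↥G) := Subgroup.relIndex_eq_one.mp h1
      let PN : Sylow p N := P.subtype hPN
      have hPNc : ((PN : Subgroup N) : Set N) ⊆ (PN : Subgroup N) := le_refl _
      have hcomm : ∀ a ∈ (P : Subgroup ↥G), ∀ b ∈ (P : Subgroup ↥G), a * b = b * a := by
        have h2 : IsCyclic (P : Subgroup ↥G) := isCyclic_of_prime_card (p := p) (hS P)
        intro a ha b hb
        letI := IsCyclic.commGroup (α := (P : Subgroup ↥G))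
        have := mul_comm (⟨a, ha⟩ : (P : Subgroup ↥G)) ⟨b, hb⟩
        exact congrArg Subtype.val this
      have hmemPN : ∀ z : N, z ∈ (PN : Subgroup N) ↔ (z : ↥G) ∈ (P : Subgroup ↥G) := by
        intro z
        show z ∈ (P : Subgroup ↥G).subgroupOf N ↔ _
        exact Subgroup.mem_subgroupOf
      have hP' : Subgroup.normalizer ((PN : Subgroup N) : Set N) ≤ Subgroup.centralizer ((PN : Subgroup N) : Set N) := by
        intro z hz
        have hz2 : (z : ↥G) ∈ Subgroup.normalizer ((P : Subgroup ↥G) : Set ↥G) := by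
          rw [Subgroup.mem_normalizer_iff]
          intro y
          constructor
          · intro hy
            have hyN : y ∈ N := hPN hy
            have h3 := (Subgroup.mem_normalizer_iff.mp hz ⟨y, hyN⟩).mp ((hmemPN _).mpr hy)
            exact (hmemPN _).mp h3
          · intro hy
            have hyN : (z : ↥G) * y * (z : ↥G)⁻¹ ∈ N := hPN hy
            have hyN2 : y ∈ N := by
              have h4 := N.mul_mem (N.mul_mem (N.inv_mem z.2) hyN) z.2
              have h5 : (z : ↥G)⁻¹ * ((z : ↥G) * y * (z : ↥G)⁻¹) * (z : ↥G) = y := by group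
              rwa [h5] at h4
            have h3 := (Subgroup.mem_normalizer_iff.mp hz ⟨y, hyN2⟩).mpr ((hmemPN _).mpr hy)
            exact (hmemPN _).mp h3
        have hzP : (z : ↥G) ∈ (P : Subgroup ↥G) := hLP ⟨z.2, hz2⟩
        rw [Subgroup.mem_centralizer_iff]
        intro y hy
        apply Subtype.ext
        exact hcomm _ ((hmemPN _).mp hy) _ hzP
      let T := MonoidHom.transferSylow PN hP'
      have hKd : ¬ p ∣ Nat.card T.ker := MonoidHom.not_dvd_card_ker_transferSylow PN hP'
      let K' : Subgroup ↥G := T.ker.map N.subtype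
      have hPNcard : Nat.card (PN : Subgroup N) = p := by
        have h3 : Nat.card (PN : Subgroup N) = Nat.card (P : Subgroup ↥G) :=
          (Nat.card_congr (Subgroup.subgroupOfEquivOfLe hPN).toEquiv)
        rw [h3, hS P]
      have hker : ∀ z : N, Nat.Coprime (orderOf z) p → z ∈ T.ker := by
        intro z hz
        rw [MonoidHom.mem_ker]
        have h3 : (T z) ^ orderOf z = 1 := by rw [← map_pow, pow_orderOf_eq_one, map_one]
        have h4 : (T z) ^ p = 1 := by
          have := pow_card_eq_one' (G := (PN : Subgroup N)) (x := T z)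
          rwa [hPNcard] at this
        have h5 := pow_gcd_eq_one.mpr ⟨h3, h4⟩
        rwa [hz.gcd_eq_one, pow_one] at h5
      have hK'n : K'.Normal := by
        constructor
        rintro _ ⟨z, hz, rfl⟩ g
        have hzN : g * (z : ↥G) * g⁻¹ ∈ N := hN.conj_mem _ z.2 g
        refine ⟨⟨_, hzN⟩, ?_, rfl⟩
        apply hker
        have h3 : orderOf (⟨_, hzN⟩ : N) = orderOf z := by
          rw [← Subgroup.orderOf_coe (⟨_, hzN⟩ : N), ← Subgroup.orderOf_coe z]
          show orderOf (g * (z : ↥G) * g⁻¹) = _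
          have : g * (z : ↥G) * g⁻¹ = (MulAut.conj g) (z : ↥G) := rfl
          rw [this, MulEquiv.orderOf_eq]
        rw [h3]
        have h4 : orderOf z = orderOf (⟨z, hz⟩ : T.ker) := (Subgroup.orderOf_mk z hz).symm
        rw [h4]
        have h5 : orderOf (⟨z, hz⟩ : T.ker) ∣ Nat.card T.ker := orderOf_dvd_natCard _
        apply Nat.Coprime.symm
        rcases Nat.coprime_or_dvd_of_prime hp (orderOf (⟨z, hz⟩ : T.ker)) with h6 | h6
        · exact h6
        · exact absurd (h6.trans h5) hKd
      have hK'card : Nat.card K' = Nat.card T.ker :=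
        Nat.card_congr (Subgroup.equivMapOfInjective _ _ N.subtype_injective).toEquiv.symm
      have hK'bot : K' = ⊥ := by
        by_contra h3
        have := hA K' hK'n h3
        rw [hK'card] at this
        exact hKd this
      have hkerbot : T.ker = ⊥ := by
        rw [← Subgroup.map_eq_bot_iff_of_injective _ N.subtype_injective]
        exact hK'bot
      have hinjT : Function.Injective T := (MonoidHom.ker_eq_bot_iff T).mp hkerbot
      have hNle : Nat.card N ≤ p := by
        rw [← hPNcard]
        exact Nat.card_le_card_of_injective T hinjT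
      have hPeq : (P : Subgroup ↥G) = N := by
        apply Subgroup.eq_of_le_of_card_ge hPN
        rw [hS P]
        exact hNle
      have hPnorm : (P : Subgroup ↥G).Normal := hPeq ▸ hN
      have huniq := P.unique_of_normal hPnorm
      have : Nat.card (Sylow p ↥G) = 1 := Nat.card_unique
      omega
  refine ⟨fun N hN => ?_⟩
  by_cases hb : N = ⊥
  · exact Or.inl hb
  · exact Or.inr (hB N hN hb)

end Cfsg.Agent.S1013
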