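import Cfsg.Statements.S1014
import Mathlib
import Cfsg.Agent.Lib.SmallSimple.AltNormalizer

set_option autoImplicit false
open Cfsg

namespace Cfsg.Agent.S1014


/-- No finite simple group has order 1104 = 2^4 * 3 * 23. -/
theorem result {G : Type*} [Group G] [Finite G] [IsSimpleGroup G] : Nat.card G ≠ 1104 := by
  open Cfsg.Agent.Lib.SmallSimple in
  intro h
  have : Fact (Nat.Prime 23) := ⟨by norm_num⟩
  have hcard : Nat.card G = 23 ^ 1 * 48 := by rw [h]; norm_num
  have hnc : ¬ IsMulCommutative G := not_comm_of_not_prime (by rw [h]; norm_num)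
  have hnp : ¬ IsPGroup 23 G := not_isPGroup_of_dvd (q := 2) (by norm_num) (by norm_num) (by norm_num) (by rw [h]; norm_num)
  obtain ⟨h1, h2, h3, _⟩ := sylow_package hcard (by norm_num) (by norm_num) hnp hnc
  have h4 : Nat.card (Sylow 23 G) = 24 := by
    have := Nat.le_of_dvd (by norm_num) h2
    generalize Nat.card (Sylow 23 G) = n at *
    interval_cases n <;> omega
  obtain ⟨P⟩ : Nonempty (Sylow 23 G) := inferInstance
  have hi : (Subgroup.normalizer ((P : Subgroup G) : Set G)).index = 24 := by
    rw [← h4]
    exact (Sylow.card_eq_index_normalizer P).symm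
  have hH : Subgroup.normalizer ((P : Subgroup G) : Set G) ≠ ⊤ := by
    intro ht
    rw [ht, Subgroup.index_top] at hi
    omega
  have hP : Nat.card (P : Subgroup G) = 23 := by simpa using sylow_card_of_eq P hcard (by norm_num)
  have h5 := two_mul_card_normalizer_dvd hnc _ hH (p := 23) (by norm_num) (Or.inr hi) P hP
  have h6 := card_normalizer_mul_card_sylow 23 P
  rw [h4, h] at h6
  have h7 : Nat.card (Subgroup.normalizer ((P : Subgroup G) : Set G)) = 46 := by
    have h8 : Nat.card (Subgroup.normalizer (P : Set G)) = 46 := by omega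
    exact h8
  rw [h7] at h5
  exact absurd h5 (by norm_num)

end Cfsg.Agent.S1014
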