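import Cfsg.Statements.S1015
import Mathlib
import Cfsg.Agent.Lib.SmallSimple.Intersect

set_option autoImplicit false
open Cfsg

namespace Cfsg.Agent.S1015


/-- No finite simple group has order 1200 = 2^4 * 3 * 5^2. -/
theorem result {G : Type*} [Group G] [Finite G] [IsSimpleGroup G] : Nat.card G ≠ 1200 := by
  open Cfsg.Agent.Lib.SmallSimple in
  intro h
  have : Fact (Nat.Prime 5) := ⟨by norm_num⟩
  have hcard : Nat.card G = 5 ^ 2 * 48 := by rw [h]; norm_num
  have hnc : ¬ IsMulCommutative G := not_comm_of_not_prime (by rw [h]; norm_num)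
  have hnp : ¬ IsPGroup 5 G := not_isPGroup_of_dvd (q := 2) (by norm_num) (by norm_num) (by norm_num) (by rw [h]; norm_num)
  obtain ⟨h1, h2, h3, h5⟩ := sylow_package hcard (by norm_num) (by norm_num) hnp hnc
  rw [h] at h5
  have hle : Nat.card (Sylow 5 G) ≤ 48 := Nat.le_of_dvd (by norm_num) h2
  have h4 : Nat.card (Sylow 5 G) = 16 := by
    generalize Nat.card (Sylow 5 G) = n at *
    have h6 : n = 6 ∨ n = 16 := by interval_cases n <;> omega
    rcases h6 with rfl | rfl
    · exact absurd h5 (by decide)
    · rfl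
  have h7 : ¬ Nat.card (Sylow 5 G) ≡ 1 [MOD 5 ^ 2] := by
    rw [h4]; decide
  obtain ⟨N, hN, hd, hl⟩ := exists_large_subgroup_of_not_modEq hcard (by norm_num) (by norm_num) h7
  have h8 := Subgroup.card_mul_index N
  have h9 := two_mul_card_dvd_factorial hnc N hN
  rw [h] at h9 h8
  generalize N.index = k at *
  generalize Nat.card N = c at *
  have hk : k ≤ 8 := by nlinarith
  interval_cases k <;> first | omega | exact absurd h9 (by decide)

end Cfsg.Agent.S1015
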