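import Cfsg.Statements.S1016
import Mathlib
import Cfsg.Agent.Lib.Small.BrauerKill2

set_option autoImplicit false
open Cfsg

namespace Cfsg.Agent.S1016

/-- No finite simple group has order 1440 = 2^5 * 3^2 * 5. -/
theorem result {G : Type*} [Group G] [Finite G] [IsSimpleGroup G] : Nat.card G ≠ 1440 := by
  intro h
  haveI := Fintype.ofFinite G
  haveI hp : Fact (Nat.Prime 5) := ⟨by norm_num⟩
  have hcard : Nat.card G = 5 * 288 := by rw [h]
  obtain ⟨P, m, c, n, hP, hnc, hCN, hCc, hn, hmd, hm1, hcd, hnd, hcmn, hnp, hn1, hfac, hsm⟩ :=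
    Cfsg.Agent.Lib.Small.BD.exists_setup2 hcard (by norm_num) (by norm_num) (by norm_num)
  have key : ∀ m ∈ Nat.divisors 4, ∀ n ∈ Nat.divisors 288, ∀ c ∈ Nat.divisors 288, 1 < m → 1 < n → n % 5 = 1 →
      c * m * n = 288 → 2 * (5 * 288) ∣ n.factorial → (m = 2 ∨ m = 4) ∧ 1 < c := by
    decide +kernel
  obtain ⟨hm, hc1⟩ := key m hmd n hnd c hcd hm1 hn1 hnp hcmn hfac
  have hpc : ∀ c ∈ Nat.divisors 288, ¬ 5 ∣ c := by decide +kernel
  have hC := Cfsg.Agent.Lib.Small.BD.not_isPGroup_of_card hCc hc1 (hpc c hcd)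
  rcases hm with rfl | rfl
  · exact Cfsg.Agent.Lib.Small.BD.false_two hnc P hP hcard (by norm_num) (by norm_num) (r := 2) (by norm_num) (by norm_num) hCN hC
      (by decide +kernel)
  · exact Cfsg.Agent.Lib.Small.BD.false_four hnc P hP hcard (by norm_num) hCN hC (by decide +kernel)

end Cfsg.Agent.S1016
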