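import Cfsg.Statements.S1017
import Mathlib
import Cfsg.Agent.Lib.Small.BrauerKill2

set_option autoImplicit false
open Cfsg

namespace Cfsg.Agent.S1017

/-- No finite simple group has order 2016 = 2^5 * 3^2 * 7. -/
theorem result {G : Type*} [Group G] [Finite G] [IsSimpleGroup G] : Nat.card G ≠ 2016 := by
  intro h
  haveI := Fintype.ofFinite G
  haveI hp : Fact (Nat.Prime 7) := ⟨by norm_num⟩
  have hcard : Nat.card G = 7 * 288 := by rw [h]
  obtain ⟨P, m, c, n, hP, hnc, hCN, hCc, hn, hmd, hm1, hcd, hnd, hcmn, hnp, hn1, hfac, hsm⟩ :=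
    Cfsg.Agent.Lib.Small.BD.exists_setup2 hcard (by norm_num) (by norm_num) (by norm_num)
  have hsm' : n ≠ 8 ∨ 2 * (7 * c * m) ∣ 42 := by
    by_cases hh : n = 8
    · exact Or.inr (hsm hh)
    · exact Or.inl hh
  have key : ∀ m ∈ Nat.divisors 6, ∀ n ∈ Nat.divisors 288, ∀ c ∈ Nat.divisors 288, 1 < m → 1 < n → n % 7 = 1 →
      c * m * n = 288 → (n ≠ 8 ∨ 2 * (7 * c * m) ∣ 42) → m = 2 ∧ 1 < c := by
    decide +kernel
  obtain ⟨rfl, hc1⟩ := key m hmd n hnd c hcd hm1 hn1 hnp hcmn hsm'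
  have hpc : ∀ c ∈ Nat.divisors 288, ¬ 7 ∣ c := by decide +kernel
  have hC := Cfsg.Agent.Lib.Small.BD.not_isPGroup_of_card hCc hc1 (hpc c hcd)
  exact Cfsg.Agent.Lib.Small.BD.false_two hnc P hP hcard (by norm_num) (by norm_num) (r := 3) (by norm_num) (by norm_num) hCN hC
    (by decide +kernel)

end Cfsg.Agent.S1017
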