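import Cfsg.Statements.S1018
import Mathlib
import Cfsg.Agent.Lib.SmallSimple.Fixed

set_option autoImplicit false
open Cfsg

namespace Cfsg.Agent.S1018


/-- Let P be a Sylow p-subgroup of order p of a finite group G, and consider the action of G on the left cosets of the normalizer N of P. Then every element of order p fixes exactly one coset, and an element of N that does not centralize P fixes at most as many cosets as there are orbits of P. -/
theorem result {G : Type*} [Group G] [Finite G] (p : ℕ) [Fact p.Prime] (P : Sylow p G) (hP : Nat.card ↥(P : Subgroup G) = p) : (∀ y : G, orderOf y = p → Nat.card (MulAction.fixedBy (G ⧸ Subgroup.normalizer ((P : Subgroup G) : Set G)) y) = 1) ∧ ∀ x : G, x ∈ Subgroup.normalizer ((P : Subgroup G) : Set G) → x ∉ Subgroup.centralizer ((P : Subgroup G) : Set G) → Nat.card (MulAction.fixedBy (G ⧸ Subgroup.normalizer ((P : Subgroup G) : Set G)) x) ≤ Nat.card (MulAction.orbitRel.Quotient ↥(P : Subgroup G) (G ⧸ Subgroup.normalizer ((P : Subgroup G) : Set G))) := by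
  open Cfsg.Agent.Lib.SmallSimple in
  refine ⟨fun y hy => card_fixedBy_of_orderOf_eq P hP hy, ?_⟩
  intro x hxN hxC
  set N := Subgroup.normalizer ((P : Subgroup G) : Set G) with hNdef
  let f : MulAction.fixedBy (G ⧸ N) x → MulAction.orbitRel.Quotient (P : Subgroup G) (G ⧸ N) :=
    fun q => Quotient.mk'' q.1
  apply Nat.card_le_card_of_injective f
  rintro ⟨q1, hq1⟩ ⟨q2, hq2⟩ h
  have h1 : q1 ∈ MulAction.orbit (P : Subgroup G) q2 := by
    have := Quotient.eq''.mp h
    exact this
  obtain ⟨s, hs⟩ := h1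
  have hq1' : x • q1 = q1 := hq1
  have hq2' : x • q2 = q2 := hq2
  have hs' : (s : G) • q2 = q1 := hs
  apply Subtype.ext
  show q1 = q2
  -- the commutator
  set c : G := (s : G)⁻¹ * x * (s : G) * x⁻¹ with hc
  have hsP : (s : G) ∈ (P : Subgroup G) := s.2
  have hxs : x * (s : G) * x⁻¹ ∈ (P : Subgroup G) := (Subgroup.mem_normalizer_iff.mp hxN _).mp hsP
  have hcP : c ∈ (P : Subgroup G) := by
    have : c = (s : G)⁻¹ * (x * (s : G) * x⁻¹) := by rw [hc]; group
    rw [this]
    exact (P : Subgroup G).mul_mem ((P : Subgroup G).inv_mem hsP) hxs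
  have hcq : c • q2 = q2 := by
    have hinv : x⁻¹ • q2 = q2 := by
      rw [inv_smul_eq_iff, hq2']
    have hsinv : (s : G)⁻¹ • q1 = q2 := by
      rw [inv_smul_eq_iff, hs']
    calc c • q2 = (s : G)⁻¹ • (x • ((s : G) • (x⁻¹ • q2))) := by
          simp only [hc, mul_smul]
      _ = q2 := by rw [hinv, hs', hq1', hsinv]
  by_cases hc1 : c = 1
  · -- `s` commutes with `x`
    have hcomm : x * (s : G) * x⁻¹ = s := by
      have : (s : G)⁻¹ * (x * (s : G) * x⁻¹) = 1 := by
        rw [← hc1, hc]; group
      exact (inv_mul_eq_one.mp this).symm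
    by_cases hs1 : (s : G) = 1
    · rw [← hs', hs1, one_smul]
    · exfalso
      apply hxC
      have ho := orderOf_eq_of_mem_sylow hP hsP hs1
      have hz := eq_zpowers_of_card hP hsP ho
      rw [Subgroup.mem_centralizer_iff]
      intro h hh
      have hh' : h ∈ Subgroup.zpowers (s : G) := by rw [← hz]; exact hh
      obtain ⟨k, rfl⟩ := Subgroup.mem_zpowers_iff.mp hh'
      have : Commute (s : G) x := by
        rw [Commute, SemiconjBy]
        rw [mul_inv_eq_iff_eq_mul] at hcomm
        exact hcomm.symm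
      exact (this.zpow_left k)
  · have ho := orderOf_eq_of_mem_sylow hP hcP hc1
    have hfix := card_fixedBy_of_orderOf_eq P hP ho
    have hq2fix : q2 ∈ MulAction.fixedBy (G ⧸ N) c := hcq
    have h1fix : (QuotientGroup.mk 1 : G ⧸ N) ∈ MulAction.fixedBy (G ⧸ N) c := by
      rw [MulAction.mem_fixedBy, smul_mk_eq_iff]
      have h : (1 : G)⁻¹ * c * 1 = c := by group
      rw [h]
      exact Subgroup.le_normalizer hcP
    have : Finite (MulAction.fixedBy (G ⧸ N) c) := inferInstance
    have hss := (Nat.card_eq_one_iff_unique.mp hfix).1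
    have heq : q2 = (QuotientGroup.mk 1 : G ⧸ N) := by
      have := Subsingleton.elim (⟨q2, hq2fix⟩ : MulAction.fixedBy (G ⧸ N) c) ⟨_, h1fix⟩
      exact congrArg Subtype.val this
    have hsN : (s : G) • (QuotientGroup.mk 1 : G ⧸ N) = QuotientGroup.mk 1 := by
      rw [smul_mk_eq_iff]
      have h : (1 : G)⁻¹ * (s : G) * 1 = s := by group
      rw [h]
      exact Subgroup.le_normalizer hsP
    rw [← hs', heq, hsN]

end Cfsg.Agent.S1018
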