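import Cfsg.Statements.S1019
import Mathlib
import Cfsg.Agent.Lib.SmallSimple.Count

set_option autoImplicit false
open Cfsg

namespace Cfsg.Agent.S1019


/-- Let H be a subgroup of a finite group G and x an element of H. In the action of G on the left cosets of H, the number of cosets fixed by x, multiplied by the size of the conjugacy class of x, equals the index of H multiplied by the number of conjugates of x that lie in H. -/
theorem result {G : Type*} [Group G] [Finite G] (H : Subgroup G) (x : G) (hx : x ∈ H) : Nat.card (MulAction.fixedBy (G ⧸ H) x) * Nat.card {g : G // IsConj x g} = H.index * Nat.card {g : G // IsConj x g ∧ g ∈ H} := by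
  classical
  open Cfsg.Agent.Lib.SmallSimple in
  -- The set of g with g⁻¹ x g ∈ H
  let A := {g : G // g⁻¹ * x * g ∈ H}
  -- First count: via cosets fixed by x
  let f1 : A → MulAction.fixedBy (G ⧸ H) x := fun g => ⟨QuotientGroup.mk g.1, by
    rw [MulAction.mem_fixedBy, MulAction.Quotient.smul_mk, QuotientGroup.eq]
    simpa [mul_assoc] using H.inv_mem g.2⟩
  have h1 : Nat.card A = Nat.card (MulAction.fixedBy (G ⧸ H) x) * Nat.card H := by
    apply card_eq_mul_of_fibers f1
    rintro ⟨q, hq⟩
    induction q using QuotientGroup.induction_on with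
    | H g0 =>
      have hg0 : g0⁻¹ * x * g0 ∈ H := by
        rw [MulAction.mem_fixedBy, MulAction.Quotient.smul_mk, QuotientGroup.eq] at hq
        simpa [mul_assoc] using H.inv_mem hq
      refine Nat.card_congr ?_
      refine
        { toFun := fun g => ⟨g0⁻¹ * g.1.1, ?_⟩
          invFun := fun h => ⟨⟨g0 * h.1, ?_⟩, ?_⟩
          left_inv := ?_
          right_inv := ?_ }
      · have := congrArg Subtype.val g.2
        exact QuotientGroup.eq.mp (this.symm)
      · have : (g0 * h.1)⁻¹ * x * (g0 * h.1) = h.1⁻¹ * (g0⁻¹ * x * g0) * h.1 := by group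
        rw [this]
        exact H.mul_mem (H.mul_mem (H.inv_mem h.2) hg0) h.2
      · apply Subtype.ext
        exact QuotientGroup.eq.mpr (by simpa using h.2)
      · intro g
        apply Subtype.ext
        apply Subtype.ext
        simp
      · intro h
        apply Subtype.ext
        simp
  -- Second count: via conjugates in H
  let C := Subgroup.centralizer ({x} : Set G)
  let f2 : A → {y : G // IsConj x y ∧ y ∈ H} := fun g => ⟨g.1⁻¹ * x * g.1, ⟨by
    rw [isConj_iff]
    exact ⟨g.1⁻¹, by simp⟩, g.2⟩⟩
  have hfib : ∀ (g0 : G), Nat.card {g : G // g⁻¹ * x * g = g0⁻¹ * x * g0} = Nat.card C := by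
    intro g0
    refine Nat.card_congr ?_
    refine
      { toFun := fun g => ⟨g.1 * g0⁻¹, ?_⟩
        invFun := fun c => ⟨c.1 * g0, ?_⟩
        left_inv := ?_
        right_inv := ?_ }
    · obtain ⟨u, hu⟩ := g
      rw [Subgroup.mem_centralizer_singleton_iff]
      calc u * g0⁻¹ * x = u * (g0⁻¹ * x * g0) * g0⁻¹ := by group
        _ = u * (u⁻¹ * x * u) * g0⁻¹ := by rw [hu]
        _ = x * (u * g0⁻¹) := by group
    · have hc := (Subgroup.mem_centralizer_singleton_iff).mp c.2
      have : (c.1 * g0)⁻¹ * x * (c.1 * g0) = g0⁻¹ * (c.1⁻¹ * (x * c.1)) * g0 := by group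
      rw [this, ← hc]
      group
    · intro g
      apply Subtype.ext
      simp
    · intro c
      apply Subtype.ext
      simp
  have h2 : Nat.card A = Nat.card {y : G // IsConj x y ∧ y ∈ H} * Nat.card C := by
    apply card_eq_mul_of_fibers f2
    rintro ⟨y, hxy, hy⟩
    obtain ⟨c, hc⟩ := isConj_iff.mp hxy
    have hy' : y = c * x * c⁻¹ := hc.symm
    have h3 := hfib c⁻¹
    rw [← h3]
    refine Nat.card_congr ?_
    refine
      { toFun := fun g => ⟨g.1.1, ?_⟩
        invFun := fun g => ⟨⟨g.1, ?_⟩, ?_⟩
        left_inv := ?_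
        right_inv := ?_ }
    · have := congrArg Subtype.val g.2
      simpa [f2, hy'] using this
    · have h4 := g.2
      rw [h4]
      simpa [hy'] using hy
    · apply Subtype.ext
      have h4 := g.2
      simpa [f2, hy'] using h4
    · intro g; rfl
    · intro g; rfl
  -- Third count: the class of x
  let f3 : G → {y : G // IsConj x y} := fun g => ⟨g⁻¹ * x * g, by
    rw [isConj_iff]
    exact ⟨g⁻¹, by simp⟩⟩
  have h3 : Nat.card G = Nat.card {y : G // IsConj x y} * Nat.card C := by
    apply card_eq_mul_of_fibers f3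
    rintro ⟨y, hxy⟩
    obtain ⟨c, hc⟩ := isConj_iff.mp hxy
    have hy' : y = c * x * c⁻¹ := hc.symm
    have h4 := hfib c⁻¹
    rw [← h4]
    refine Nat.card_congr ?_
    refine
      { toFun := fun g => ⟨g.1, ?_⟩
        invFun := fun g => ⟨g.1, ?_⟩
        left_inv := ?_
        right_inv := ?_ }
    · have := congrArg Subtype.val g.2
      simpa [f3, hy'] using this
    · apply Subtype.ext
      have h5 := g.2
      simpa [f3, hy'] using h5
    · intro g; rfl
    · intro g; rfl
  have h4 := Subgroup.card_mul_index H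
  have hHpos : 0 < Nat.card H := Nat.card_pos
  have hCpos : 0 < Nat.card C := Nat.card_pos
  set a := Nat.card (MulAction.fixedBy (G ⧸ H) x)
  set b := Nat.card {g : G // IsConj x g}
  set c := Nat.card {g : G // IsConj x g ∧ g ∈ H}
  set hh := Nat.card H
  set cc := Nat.card C
  set n := Nat.card G
  have e1 : a * hh = c * cc := h1 ▸ h2
  apply Nat.eq_of_mul_eq_mul_right (Nat.mul_pos hHpos hCpos)
  calc a * b * (hh * cc) = (a * hh) * (b * cc) := by ring
    _ = (c * cc) * n := by rw [e1, ← h3]
    _ = (c * cc) * (hh * H.index) := by rw [h4]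
    _ = H.index * c * (hh * cc) := by ring

end Cfsg.Agent.S1019
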