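import Cfsg.Statements.S1024
import Cfsg.Agent.Lib.Chev.All
import Cfsg.Agent.Lib.Chev.Rel
-- import your own Cfsg.Agent.* helpers here

set_option autoImplicit false
open Cfsg

namespace Cfsg.Agent.S1024

/-- `x_r(0) = 1`, and `x_r(t) = 1` forces `t = 0`: the map `t ↦ x_r(t)` is injective. -/
theorem result {F : Type*} [Field F] (D : Cfsg.Lie.ChevalleyDatum) (hD : D ∈ [Cfsg.Lie.chevG2, Cfsg.Lie.chevB2, Cfsg.Lie.chevD4, Cfsg.Lie.chevF4, Cfsg.Lie.chevE6, Cfsg.Lie.chevE7, Cfsg.Lie.chevE8]) (r : ℕ) (hr : r < D.nroots) (t : F) :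
    D.x F r t = 1 ↔ t = 0 := by
  obtain ⟨G⟩ := Cfsg.Agent.Lib.Chev.good_of_mem hD
  constructor
  · intro h
    have h1 := G.x_col_neg (F := F) hr t
    rw [h, Matrix.one_mulVec] at h1
    have h2 := congrFun h1 (Sum.inr ⟨r, hr⟩)
    have h3 := G.neg_ne hr
    simp only [Pi.add_apply, Pi.smul_apply, Cfsg.Agent.Lib.Chev.vE_inr, Cfsg.Agent.Lib.Chev.hV_inr, smul_eq_mul] at h2
    have h4 : ¬ (D.rank + r = D.rank + D.neg r) := by omega
    simp [h4] at h2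
    exact h2
  · rintro rfl
    exact G.x_zero hr

end Cfsg.Agent.S1024
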