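import Cfsg.Statements.S1030
import Cfsg.Agent.Lib.Chev.All2
import Cfsg.Agent.Lib.Chev.SL2Root
-- import your own Cfsg.Agent.* helpers here

set_option autoImplicit false
open Cfsg

namespace Cfsg.Agent.S1030

/-- There is a homomorphism `SL₂(F) → GL` with image `⟨X_r, X_{-r}⟩` sending `[[1,t],[0,1]]` to `x_r(t)` and `[[1,0],[t,1]]` to `x_{-r}(t)`. -/
theorem result {F : Type*} [Field F] (D : Cfsg.Lie.ChevalleyDatum) (hD : D ∈ [Cfsg.Lie.chevG2, Cfsg.Lie.chevB2, Cfsg.Lie.chevD4, Cfsg.Lie.chevF4, Cfsg.Lie.chevE6, Cfsg.Lie.chevE7, Cfsg.Lie.chevE8]) (r : ℕ) (hr : r < D.nroots) :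
    ∃ φ : Matrix.SpecialLinearGroup (Fin 2) F →* GL D.Idx F,
      φ.range = D.rootSubgroup F r ⊔ D.rootSubgroup F (D.neg r) ∧
      ∀ (g : Matrix.SpecialLinearGroup (Fin 2) F) (t : F),
        ((g : Matrix (Fin 2) (Fin 2) F) = !![1, t; 0, 1] → ((φ g : GL D.Idx F) : Matrix D.Idx D.Idx F) = D.x F r t) ∧
        ((g : Matrix (Fin 2) (Fin 2) F) = !![1, 0; t, 1] → ((φ g : GL D.Idx F) : Matrix D.Idx D.Idx F) = D.x F (D.neg r) t) := by
  obtain ⟨G⟩ := Cfsg.Agent.Lib.Chev.good2_of_mem hD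
  have hn := G.neg_lt hr
  have R := G.rel (F := F) hr
  refine ⟨R.hom, ?_, ?_⟩
  · apply le_antisymm
    · apply R.hom_range
      · intro t
        exact Subgroup.mem_sup_left (G.x_mem_X hr t)
      · intro t
        exact Subgroup.mem_sup_right (G.x_mem_X hn t)
    · apply sup_le
      · rw [Cfsg.Lie.ChevalleyDatum.rootSubgroup, Subgroup.closure_le]
        rintro g ⟨t, ht⟩
        have : g = G.xg hr t := Units.ext (by rw [ht]; rfl)
        rw [this]
        exact R.a_mem_range t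
      · rw [Cfsg.Lie.ChevalleyDatum.rootSubgroup, Subgroup.closure_le]
        rintro g ⟨t, ht⟩
        have : g = G.xg hn t := Units.ext (by rw [ht]; rfl)
        rw [this]
        exact R.b_mem_range t
  · intro g t
    constructor
    · intro hg
      rw [R.hom_up hg]
      rfl
    · intro hg
      rw [R.hom_low hg]
      rfl

end Cfsg.Agent.S1030
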