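import Cfsg.Statements.S1054
import Cfsg.Agent.Lib.Chev.All3
import Cfsg.Agent.Lib.Chev.Perf
-- import your own Cfsg.Agent.* helpers here

set_option autoImplicit false
open Cfsg

namespace Cfsg.Agent.S1054

/-- The Chevalley groups of types D₄, F₄, E₆, E₇, E₈ are simple over every field. -/
theorem result {F : Type*} [Field F] (D : Cfsg.Lie.ChevalleyDatum)
    (hD : D ∈ [Cfsg.Lie.chevD4, Cfsg.Lie.chevF4, Cfsg.Lie.chevE6, Cfsg.Lie.chevE7, Cfsg.Lie.chevE8]) :
    IsSimpleGroup ↥(D.group F) ∧ ¬ IsMulCommutative ↥(D.group F) := by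
  have hD' : D ∈ [Cfsg.Lie.chevG2, Cfsg.Lie.chevB2, Cfsg.Lie.chevD4, Cfsg.Lie.chevF4, Cfsg.Lie.chevE6, Cfsg.Lie.chevE7, Cfsg.Lie.chevE8] := by
    simp only [List.mem_cons, List.not_mem_nil, or_false] at hD ⊢
    tauto
  obtain ⟨G⟩ := Cfsg.Agent.Lib.Chev.good3_of_mem hD'
  refine Cfsg.Agent.Lib.Chev.simple_of_perfect G (Cfsg.Agent.Lib.Chev.perfect_of_mem hD' ?_)
  simp only [List.mem_cons, List.not_mem_nil, or_false] at hD
  rintro (rfl | rfl)
  · rcases hD with h | h | h | h | h <;>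
      exact absurd (congrArg Cfsg.Lie.ChevalleyDatum.nroots h) (by decide +kernel)
  · rcases hD with h | h | h | h | h <;>
      exact absurd (congrArg Cfsg.Lie.ChevalleyDatum.nroots h) (by decide +kernel)

end Cfsg.Agent.S1054
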