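import Cfsg.Statements.S1060
import Cfsg.Agent.Lib.Chev.All4
import Cfsg.Agent.S1035
-- import your own Cfsg.Agent.* helpers here

set_option autoImplicit false
open Cfsg

namespace Cfsg.Agent.S1060

/-- `gcd(2, q-1) · |B₂(q)| = q⁴ (q² - 1)(q⁴ - 1)`. -/
theorem result {F : Type*} [Field F] [Fintype F] {q : ℕ} (hq : Fintype.card F = q) : Nat.gcd 2 (q - 1) * Nat.card ↥(Cfsg.Lie.chevB2.group F) = q ^ 4 * (q ^ 2 - 1) * (q ^ 4 - 1) := by
  have hq1 : 1 ≤ q := by
    rw [← hq]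
    exact Fintype.card_pos
  have hH := Cfsg.Agent.S1035.result hq (Cfsg.Lie.chevB2, Nat.gcd 2 (q - 1)) (by simp)
  have h := Cfsg.Agent.Lib.Chev.TabB2.good4.order_formula hq [2, 4] (by decide +kernel) hH
  have hN : Cfsg.Agent.Lib.Chev.Good2.NN Cfsg.Lie.chevB2 = 4 := by decide +kernel
  rw [hN] at h
  simp only [List.map_cons, List.map_nil, List.prod_cons, List.prod_nil, mul_one] at h
  apply Nat.cast_injective (R := ℤ)
  simp only [Nat.cast_mul, Nat.cast_pow, Cfsg.Agent.Lib.Chev.cast_pow_sub_one _ hq1]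
  push_cast at h ⊢
  skip
  rw [h]
  ring

end Cfsg.Agent.S1060
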