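import Cfsg.Statements.S1058
import Cfsg.Agent.S1060
-- import your own Cfsg.Agent.* helpers here

set_option autoImplicit false
open Cfsg

namespace Cfsg.Agent.S1058

/-- The six row vectors. -/
def fL : List (List ℕ) :=
  [[0, 1, 0, 0, 0, 1, 1, 0, 0, 0], [0, 1, 0, 0, 0, 1, 1, 0, 0, 1], [0, 1, 1, 0, 0, 1, 1, 0, 0, 0],
   [0, 1, 1, 0, 0, 1, 0, 0, 0, 1], [0, 1, 1, 0, 0, 0, 1, 0, 0, 1], [0, 1, 1, 0, 0, 0, 0, 0, 0, 1]]

/-- The six row vectors over a field. -/
def fV (F : Type*) [Field F] (i : Fin 6) : Cfsg.Lie.chevB2.Idx → F :=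
  fun c => (((fL.getD i.val []).getD (Cfsg.Agent.Lib.Chev.cd Cfsg.Lie.chevB2 c) 0 : ℕ) : F)

/-- The permutations attached to the root elements. -/
def tauL : List (List ℕ) :=
  [[1, 0, 2, 3, 4, 5], [1, 0, 3, 2, 5, 4], [1, 0, 4, 5, 2, 3], [0, 1, 2, 3, 5, 4], [0, 1, 2, 5, 4, 3],
   [2, 3, 0, 1, 5, 4], [2, 4, 0, 5, 1, 3], [2, 1, 0, 3, 4, 5]]

/-- The map of the indices attached to a root. -/
def tauF (r : Fin Cfsg.Lie.chevB2.nroots) (i : Fin 6) : Fin 6 := ⟨((tauL.getD r.val []).getD i.val 0) % 6, Nat.mod_lt _ (by norm_num)⟩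

theorem tau_invol : ∀ r i, tauF r (tauF r i) = i := by decide +kernel

/-- The permutations attached to the root elements. -/
def tau (r : Fin Cfsg.Lie.chevB2.nroots) : Equiv.Perm (Fin 6) where
  toFun := tauF r
  invFun := tauF r
  left_inv := tau_invol r
  right_inv := tau_invol r

theorem chk_zmod (r : Fin Cfsg.Lie.chevB2.nroots) (i : Fin 6) :
    Matrix.vecMul (fV (ZMod 2) i) (Cfsg.Lie.chevB2.xMat (ZMod 2) r 1) = fV (ZMod 2) (tauF r i) := by
  revert r i
  decide +kernel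

theorem xMat_map' {F F' : Type*} [Field F] [Field F'] (D : Cfsg.Lie.ChevalleyDatum) (f : F →+* F') (r : Fin D.nroots) (t : F) :
    (D.xMat F r t).map f = D.xMat F' r (f t) := by
  ext row col
  simp only [Matrix.map_apply, Cfsg.Lie.ChevalleyDatum.xMat, Matrix.of_apply]
  rcases col with i | s
  · rcases row with i' | u
    · simp only
      split_ifs <;> simp
    · simp only
      split_ifs <;> simp
  · simp only
    split_ifs with h1 h2
    · rcases row with i' | u
      · simp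
      · simp only
        split_ifs <;> simp
    · rcases row with i' | u
      · simp
      · simp only
        split_ifs <;> simp
    · rcases row with i' | u
      · simp
      · simp only [map_add, map_list_sum, List.map_map]
        congr 1
        · split_ifs <;> simp
        · congr 1
          apply List.map_congr_left
          intro km _
          simp

section
variable {F : Type*} [Field F] [Fintype F] (hF : Fintype.card F = 2)
include hF

theorem chk_F (r : Fin Cfsg.Lie.chevB2.nroots) (i : Fin 6) :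
    Matrix.vecMul (fV F i) (Cfsg.Lie.chevB2.xMat F r 1) = fV F (tauF r i) := by
  let e : ZMod 2 ≃+* F := ZMod.ringEquivOfPrime F Nat.prime_two hF
  have h := chk_zmod r i
  have h1 := congrArg (fun v => (e : ZMod 2 →+* F) ∘ v) h
  funext j
  have h2 := congrFun h1 j
  simp only [Function.comp_apply] at h2
  have h3 : (e : ZMod 2 →+* F) ∘ fV (ZMod 2) i = fV F i := by
    funext c
    simp [fV]
  have h4 : (e : ZMod 2 →+* F) ∘ fV (ZMod 2) (tauF r i) = fV F (tauF r i) := by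
    funext c
    simp [fV]
  rw [RingHom.map_vecMul, h3, xMat_map' Cfsg.Lie.chevB2 (e : ZMod 2 →+* F) r 1, map_one] at h2
  rw [h2]
  exact congrFun h4 j

theorem one_of_ne (t : F) (ht : t ≠ 0) : t = 1 := by
  classical
  by_contra h
  have h1 : ({0, 1, t} : Finset F).card = 3 := by
    rw [Finset.card_eq_three]
    exact ⟨0, 1, t, zero_ne_one, ht.symm, Ne.symm h, rfl⟩
  have h2 := Finset.card_le_univ ({0, 1, t} : Finset F)
  omega

/-- `g` permutes the six row vectors according to `τ`. -/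
def Pm (g : GL Cfsg.Lie.chevB2.Idx F) (τ : Equiv.Perm (Fin 6)) : Prop :=
  ∀ i, Matrix.vecMul (fV F i) (g : Matrix Cfsg.Lie.chevB2.Idx Cfsg.Lie.chevB2.Idx F) = fV F (τ i)

omit hF in
theorem Pm_mul {g h : GL Cfsg.Lie.chevB2.Idx F} {τ σ : Equiv.Perm (Fin 6)} (h1 : Pm g τ) (h2 : Pm h σ) : Pm (g * h) (σ * τ) := by
  intro i
  rw [Units.val_mul, ← Matrix.vecMul_vecMul, h1, h2]
  rfl

omit hF in
theorem Pm_one : Pm (1 : GL Cfsg.Lie.chevB2.Idx F) 1 := by
  intro i
  simp

omit hF in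
theorem Pm_inv {g : GL Cfsg.Lie.chevB2.Idx F} {τ : Equiv.Perm (Fin 6)} (h1 : Pm g τ) : Pm g⁻¹ τ⁻¹ := by
  intro i
  have h2 := h1 (τ⁻¹ i)
  have e : τ (τ⁻¹ i) = i := by simp
  rw [e] at h2
  rw [← h2, Matrix.vecMul_vecMul]
  have : (g : Matrix Cfsg.Lie.chevB2.Idx Cfsg.Lie.chevB2.Idx F) * ((g⁻¹ : GL Cfsg.Lie.chevB2.Idx F) : Matrix Cfsg.Lie.chevB2.Idx Cfsg.Lie.chevB2.Idx F) = 1 := by
    rw [← Units.val_mul, mul_inv_cancel, Units.val_one]
  rw [this, Matrix.vecMul_one]

theorem Pm_exists {g : GL Cfsg.Lie.chevB2.Idx F} (hg : g ∈ Cfsg.Lie.chevB2.group F) : ∃ τ, Pm g τ := by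
  refine Subgroup.closure_induction (p := fun (g : GL Cfsg.Lie.chevB2.Idx F) _ => ∃ τ, Pm g τ) ?_ ?_ ?_ ?_ hg
  · rintro g ⟨r, t, h⟩
    by_cases ht : t = 0
    · subst ht
      have h0 : Cfsg.Lie.chevB2.xMat F r 0 = 1 := by
        have := Cfsg.Agent.Lib.Chev.TabB2.good0.x_zero (F := F) r.isLt
        rwa [Cfsg.Lie.ChevalleyDatum.x, dif_pos r.isLt] at this
      refine ⟨1, fun i => ?_⟩
      rw [h, h0]
      simp
    · have := one_of_ne hF t ht
      subst this
      refine ⟨tau r, ?_⟩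
      intro i
      rw [h]
      exact chk_F hF r i
  · exact ⟨1, Pm_one⟩
  · rintro a b _ _ ⟨τ, h1⟩ ⟨σ, h2⟩
    exact ⟨_, Pm_mul h1 h2⟩
  · rintro a _ ⟨τ, h1⟩
    exact ⟨_, Pm_inv h1⟩

theorem fV_inj : Function.Injective (fV F) := by
  let e : ZMod 2 ≃+* F := ZMod.ringEquivOfPrime F Nat.prime_two hF
  have h0 : Function.Injective (fV (ZMod 2)) := by decide +kernel
  intro i j hij
  apply h0
  funext c
  have := congrFun hij c
  apply (e : ZMod 2 ≃+* F).injective
  simpa [fV] using this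

theorem Pm_unique {g : GL Cfsg.Lie.chevB2.Idx F} {τ σ : Equiv.Perm (Fin 6)} (h1 : Pm g τ) (h2 : Pm g σ) : τ = σ := by
  ext i
  have := (h1 i).symm.trans (h2 i)
  rw [fV_inj hF this]

/-- The permutation attached to an element of the group. -/
noncomputable def tauG (g : ↥(Cfsg.Lie.chevB2.group F)) : Equiv.Perm (Fin 6) :=
  (Classical.choose (Pm_exists hF g.2))⁻¹

theorem tauG_spec (g : ↥(Cfsg.Lie.chevB2.group F)) : Pm (g : GL Cfsg.Lie.chevB2.Idx F) (tauG hF g)⁻¹ := by
  rw [tauG, inv_inv]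
  exact Classical.choose_spec (Pm_exists hF g.2)

/-- The homomorphism. -/
noncomputable def phi : ↥(Cfsg.Lie.chevB2.group F) →* Equiv.Perm (Fin 6) :=
  MonoidHom.mk' (tauG hF) (by
    intro a b
    have h1 := Pm_mul (tauG_spec hF a) (tauG_spec hF b)
    have h2 := tauG_spec hF (a * b)
    have h3 := Pm_unique hF h1 h2
    have : (tauG hF (a * b))⁻¹ = (tauG hF a * tauG hF b)⁻¹ := by
      rw [← h3, _root_.mul_inv_rev]
    exact (inv_injective this))

theorem phi_x (r : Fin Cfsg.Lie.chevB2.nroots) (g : ↥(Cfsg.Lie.chevB2.group F))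
    (hg : ((g : GL Cfsg.Lie.chevB2.Idx F) : Matrix _ _ F) = Cfsg.Lie.chevB2.xMat F r 1) : phi hF g = tau r := by
  have h1 : Pm (g : GL Cfsg.Lie.chevB2.Idx F) (tau r) := by
    intro i
    rw [hg]
    exact chk_F hF r i
  have h2 := Pm_unique hF h1 (tauG_spec hF g)
  have h3 : tau r = (tau r)⁻¹ := by
    ext i
    rfl
  show tauG hF g = tau r
  rw [h3, h2, inv_inv]

theorem tau_mem (r : Fin Cfsg.Lie.chevB2.nroots) : tau r ∈ (phi (F := F) hF).range := by
  let G := Cfsg.Agent.Lib.Chev.TabB2.good0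
  have hx : Cfsg.Lie.chevB2.x F r.val 1 = Cfsg.Lie.chevB2.xMat F r 1 := dif_pos r.isLt
  refine ⟨⟨G.xU r.isLt 1, Subgroup.subset_closure ⟨r, 1, ?_⟩⟩, ?_⟩
  · exact hx
  · apply phi_x
    exact hx

theorem phi_surj : Function.Surjective (phi (F := F) hF) := by
  have h0 := tau_mem (F := F) hF ⟨0, by decide⟩
  have h1 := tau_mem (F := F) hF ⟨1, by decide⟩
  have h3 := tau_mem (F := F) hF ⟨3, by decide⟩
  have h4 := tau_mem (F := F) hF ⟨4, by decide⟩
  have h7 := tau_mem (F := F) hF ⟨7, by decide⟩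
  have key : Submonoid.closure (Set.range fun i : Fin 5 => Equiv.swap i.castSucc i.succ) ≤ (phi (F := F) hF).range.toSubmonoid := by
    rw [Submonoid.closure_le]
    rintro _ ⟨i, rfl⟩
    fin_cases i
    · change Equiv.swap ((0 : Fin 5).castSucc) ((0 : Fin 5).succ) ∈ (phi (F := F) hF).range
      have e : Equiv.swap ((0 : Fin 5).castSucc) ((0 : Fin 5).succ) = tau ⟨0, by decide⟩ := by decide +kernel
      rw [e]
      exact h0
    · change Equiv.swap ((1 : Fin 5).castSucc) ((1 : Fin 5).succ) ∈ (phi (F := F) hF).range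
      have e : Equiv.swap ((1 : Fin 5).castSucc) ((1 : Fin 5).succ) = tau ⟨0, by decide⟩ * tau ⟨7, by decide⟩ * tau ⟨0, by decide⟩ := by decide +kernel
      rw [e]
      exact Subgroup.mul_mem _ (Subgroup.mul_mem _ h0 h7) h0
    · change Equiv.swap ((2 : Fin 5).castSucc) ((2 : Fin 5).succ) ∈ (phi (F := F) hF).range
      have e : Equiv.swap ((2 : Fin 5).castSucc) ((2 : Fin 5).succ) = tau ⟨3, by decide⟩ * tau ⟨1, by decide⟩ * tau ⟨0, by decide⟩ := by decide +kernel
      rw [e]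
      exact Subgroup.mul_mem _ (Subgroup.mul_mem _ h3 h1) h0
    · change Equiv.swap ((3 : Fin 5).castSucc) ((3 : Fin 5).succ) ∈ (phi (F := F) hF).range
      have e : Equiv.swap ((3 : Fin 5).castSucc) ((3 : Fin 5).succ) = tau ⟨3, by decide⟩ * tau ⟨4, by decide⟩ * tau ⟨3, by decide⟩ := by decide +kernel
      rw [e]
      exact Subgroup.mul_mem _ (Subgroup.mul_mem _ h3 h4) h3
    · change Equiv.swap ((4 : Fin 5).castSucc) ((4 : Fin 5).succ) ∈ (phi (F := F) hF).range
      have e : Equiv.swap ((4 : Fin 5).castSucc) ((4 : Fin 5).succ) = tau ⟨3, by decide⟩ := by decide +kernel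
      rw [e]
      exact h3
  rw [Equiv.Perm.mclosure_swap_castSucc_succ] at key
  intro x
  have := key (Submonoid.mem_top x)
  exact this

end

/-- B₂(2) ≅ S₆. -/
theorem result {F : Type*} [Field F] [Fintype F] (hF : Fintype.card F = 2) :
    Nonempty (↥(Cfsg.Lie.chevB2.group F) ≃* Equiv.Perm (Fin 6)) := by
  have hcard := Cfsg.Agent.S1060.result hF
  have h1 : Nat.card ↥(Cfsg.Lie.chevB2.group F) = 720 := by
    norm_num at hcard
    exact hcard
  haveI : Finite ↥(Cfsg.Lie.chevB2.group F) := Nat.finite_of_card_ne_zero (by omega)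
  refine ⟨MulEquiv.ofBijective (phi hF) ?_⟩
  refine (Nat.bijective_iff_surjective_and_card _).mpr ⟨phi_surj hF, ?_⟩
  rw [h1, Nat.card_eq_fintype_card, Fintype.card_perm]
  rfl

end Cfsg.Agent.S1058
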