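import Cfsg.Statements.S1063
import Cfsg.Agent.Lib.Chev.All4
import Cfsg.Agent.S1035
-- import your own Cfsg.Agent.* helpers here

set_option autoImplicit false
open Cfsg

namespace Cfsg.Agent.S1063

/-- `gcd(3, q-1) · |E₆(q)| = q³⁶ (q² - 1)(q⁵ - 1)(q⁶ - 1)(q⁸ - 1)(q⁹ - 1)(q¹² - 1)`. -/
theorem result {F : Type*} [Field F] [Fintype F] {q : ℕ} (hq : Fintype.card F = q) : Nat.gcd 3 (q - 1) * Nat.card ↥(Cfsg.Lie.chevE6.group F) = q ^ 36 * (q ^ 2 - 1) * (q ^ 5 - 1) * (q ^ 6 - 1) * (q ^ 8 - 1) * (q ^ 9 - 1) * (q ^ 12 - 1) := by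
  have hq1 : 1 ≤ q := by
    rw [← hq]
    exact Fintype.card_pos
  have hH := Cfsg.Agent.S1035.result hq (Cfsg.Lie.chevE6, Nat.gcd 3 (q - 1)) (by simp)
  have h := Cfsg.Agent.Lib.Chev.TabE6.good4.order_formula hq [2, 5, 6, 8, 9, 12] (by decide +kernel) hH
  have hN : Cfsg.Agent.Lib.Chev.Good2.NN Cfsg.Lie.chevE6 = 36 := by decide +kernel
  rw [hN] at h
  simp only [List.map_cons, List.map_nil, List.prod_cons, List.prod_nil, mul_one] at h
  apply Nat.cast_injective (R := ℤ)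
  simp only [Nat.cast_mul, Nat.cast_pow, Cfsg.Agent.Lib.Chev.cast_pow_sub_one _ hq1]
  push_cast at h ⊢
  skip
  rw [h]
  ring

end Cfsg.Agent.S1063
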