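import Cfsg.Statements.S1066
import Cfsg.Agent.Lib.Chev.Tw.E6f
-- import your own Cfsg.Agent.* helpers here

set_option autoImplicit false
open Cfsg

namespace Cfsg.Agent.S1066

/-- `gcd(3, q+1) · |²E₆(q)| = q³⁶ (q² - 1)(q⁵ + 1)(q⁶ - 1)(q⁸ - 1)(q⁹ + 1)(q¹² - 1)`, the group being realised inside E₆ over the field with `q²` elements. -/
theorem result {K : Type*} [Field K] [Fintype K] {q : ℕ} (hq : IsPrimePow q) (hK : Fintype.card K = q ^ 2) :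
    Nat.gcd 3 (q + 1) * Nat.card ↥(Cfsg.Lie.twistedE6 K q) =
      q ^ 36 * (q ^ 2 - 1) * (q ^ 5 + 1) * (q ^ 6 - 1) * (q ^ 8 - 1) * (q ^ 9 + 1) * (q ^ 12 - 1) := by
  open Cfsg.Agent.Lib.Chev Cfsg.Agent.Lib.Chev.TwE6 in
  obtain ⟨f, hf⟩ := frobQ hq (by norm_num : (2 : ℕ) ≠ 0) hK
  have hf2 : ∀ t, f (f t) = t := by
    intro t
    rw [hf, hf, ← pow_mul, ← pow_two, ← hK]
    exact FiniteField.pow_card t
  rw [← AA_eq f hf hf2]
  apply Nat.cast_injective (R := ℤ)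
  have h0 := card_G hq.one_lt hK f hf hf2
  rw [Nat.cast_mul, h0]
  have h1 : 1 ≤ q := hq.one_lt.le
  have h2 : 1 ≤ q ^ 2 := Nat.one_le_pow _ _ h1
  have h6 : 1 ≤ q ^ 6 := Nat.one_le_pow _ _ h1
  have h8 : 1 ≤ q ^ 8 := Nat.one_le_pow _ _ h1
  have h12 : 1 ≤ q ^ 12 := Nat.one_le_pow _ _ h1
  push_cast [Nat.cast_sub h2, Nat.cast_sub h6, Nat.cast_sub h8, Nat.cast_sub h12]
  ring

end Cfsg.Agent.S1066
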