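import Cfsg.Statements.S1067
import Cfsg.Agent.Lib.Chev.Tw.D4e
-- import your own Cfsg.Agent.* helpers here

set_option autoImplicit false
open Cfsg

namespace Cfsg.Agent.S1067

/-- `|³D₄(q)| = q¹² (q² - 1)(q⁶ - 1)(q⁸ + q⁴ + 1)`, the group being realised inside D₄ over the field with `q³` elements. -/
theorem result {K : Type*} [Field K] [Fintype K] {q : ℕ} (hq : IsPrimePow q) (hK : Fintype.card K = q ^ 3) :
    Nat.card ↥(Cfsg.Lie.twistedD4 K q) = q ^ 12 * (q ^ 2 - 1) * (q ^ 6 - 1) * (q ^ 8 + q ^ 4 + 1) := by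
  open Cfsg.Agent.Lib.Chev Cfsg.Agent.Lib.Chev.TwD4 in
  obtain ⟨f, hf⟩ := frobQ hq (by norm_num : (3 : ℕ) ≠ 0) hK
  have hf3 : ∀ t, f (f (f t)) = t := by
    intro t
    rw [hf, hf, hf, ← pow_mul, ← pow_mul, show q * (q * q) = q ^ 3 by ring, ← hK]
    exact FiniteField.pow_card t
  rw [← AA_eq f hf hf3]
  apply Nat.cast_injective (R := ℤ)
  rw [card_G hq.one_lt hK f hf hf3]
  have h1 : 1 ≤ q := hq.one_lt.le
  have h2 : 1 ≤ q ^ 2 := Nat.one_le_pow _ _ h1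
  have h3 : 1 ≤ q ^ 6 := Nat.one_le_pow _ _ h1
  push_cast [Nat.cast_sub h2, Nat.cast_sub h3]
  ring

end Cfsg.Agent.S1067
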