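import Cfsg.Statements.S1070
import Cfsg.Agent.Lib.Chev.Tw.E6g
-- import your own Cfsg.Agent.* helpers here

set_option autoImplicit false
open Cfsg

namespace Cfsg.Agent.S1070

/-- ²E₆(q) is simple for every `q`. -/
theorem result {K : Type*} [Field K] [Fintype K] {q : ℕ} (hq : IsPrimePow q) (hK : Fintype.card K = q ^ 2) :
    IsSimpleGroup ↥(Cfsg.Lie.twistedE6 K q) ∧ ¬ IsMulCommutative ↥(Cfsg.Lie.twistedE6 K q) := by
  open Cfsg.Agent.Lib.Chev Cfsg.Agent.Lib.Chev.TwE6 in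
  obtain ⟨f, hf⟩ := frobQ hq (by norm_num : (2 : ℕ) ≠ 0) hK
  have hf2 : ∀ t, f (f t) = t := by
    intro t
    rw [hf, hf, ← pow_mul, ← pow_two, ← hK]
    exact FiniteField.pow_card t
  rw [← AA_eq f hf hf2]
  obtain ⟨χ, hχ⟩ := exists_unit_ne_one hq.one_lt hK
  exact simple_AA f hf2 hχ

end Cfsg.Agent.S1070
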