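import Cfsg.Statements.S1072
import Cfsg.Agent.Lib.Chev.Tw.F4g
-- import your own Cfsg.Agent.* helpers here

set_option autoImplicit false
open Cfsg

namespace Cfsg.Agent.S1072

/-- ²F₄(2^(2m+1)) is simple for `m ≥ 1`. -/
theorem result {K : Type*} [Field K] [Fintype K] {m : ℕ} (hm : 1 ≤ m) (hK : Fintype.card K = 2 ^ (2 * m + 1)) :
    IsSimpleGroup ↥(Cfsg.Lie.twistedF4 K (2 ^ m)) ∧ ¬ IsMulCommutative ↥(Cfsg.Lie.twistedF4 K (2 ^ m)) := by
  open Cfsg.Agent.Lib.Chev Cfsg.Agent.Lib.Chev.TwF4 in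
  have h3 : Nat.Prime 2 := Nat.prime_two
  have hn : 2 * m + 1 ≠ 0 := by omega
  have := charP_of_card h3 hn hK
  obtain ⟨f, hf⟩ := frobP h3 hn hK m
  rw [← AA_eq f (frob_sq hK f hf) hf]
  have h4 : 3 < Fintype.card K := by
    rw [hK]
    have : 2 ^ 3 ≤ 2 ^ (2 * m + 1) := Nat.pow_le_pow_right (by norm_num) (by omega)
    omega
  obtain ⟨u, hu⟩ := exists_unit_ne_two h4
  exact simple_AA f (frob_sq hK f hf) hu

end Cfsg.Agent.S1072
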