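import Cfsg.Statements.S1073
import Cfsg.Agent.Lib.Chev.Tw.G2g
-- import your own Cfsg.Agent.* helpers here

set_option autoImplicit false
open Cfsg

namespace Cfsg.Agent.S1073

/-- ²G₂(3^(2m+1)) is simple for `m ≥ 1`. -/
theorem result {K : Type*} [Field K] [Fintype K] {m : ℕ} (hm : 1 ≤ m) (hK : Fintype.card K = 3 ^ (2 * m + 1)) :
    IsSimpleGroup ↥(Cfsg.Lie.twistedG2 K (3 ^ m)) ∧ ¬ IsMulCommutative ↥(Cfsg.Lie.twistedG2 K (3 ^ m)) := by
  open Cfsg.Agent.Lib.Chev Cfsg.Agent.Lib.Chev.TwG2 in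
  have h3 : Nat.Prime 3 := Nat.prime_three
  have hn : 2 * m + 1 ≠ 0 := by omega
  have := charP_of_card h3 hn hK
  obtain ⟨f, hf⟩ := frobP h3 hn hK m
  have hc : ringChar K ≠ 2 := by
    rw [ringChar.eq K 3]
    norm_num
  rw [← AA_eq f (frob_sq hK f hf) hf]
  have h4 : 3 < Fintype.card K := by
    rw [hK]
    have : 3 ^ 3 ≤ 3 ^ (2 * m + 1) := Nat.pow_le_pow_right (by norm_num) (by omega)
    omega
  obtain ⟨u, hu⟩ := exists_unit_ne_two h4
  have hA : (TabG2.good3.toGood2.torusHom (gc f u)) ∈ (TT f).AA JJ := by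
    have h5 := H1_eq f (frob_sq hK f hf) (sq_or_neg hK hc)
    have h6 : (TabG2.good3.toGood2.torusHom.comp (gc f)) u ∈ (TabG2.good3.toGood2.torusHom.comp (gc f)).range := ⟨u, rfl⟩
    rw [← h5] at h6
    exact h6.2
  exact simple_AA f (frob_sq hK f hf) hu hA

end Cfsg.Agent.S1073
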