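import Cfsg.Statements.S1081
import Cfsg.Agent.Lib.Chev.Tab.E6g
import Cfsg.Agent.Lib.Chev.Tab.D4g
-- import your own Cfsg.Agent.* helpers here

set_option autoImplicit false
open Cfsg

namespace Cfsg.Agent.S1081

/-- Graph automorphisms: for E₆ with ρ = (p₁ p₆)(p₃ p₅) and for D₄ with ρ the 3-cycle on the outer nodes there is a group automorphism sending `x_p(t) ↦ x_{ρ(p)}(t)` and `x_{-p}(t) ↦ x_{-ρ(p)}(t)` for every fundamental root `p`. -/
theorem result {F : Type*} [Field F] (p : Cfsg.Lie.ChevalleyDatum × List ℕ)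
    (hp : p ∈ [(Cfsg.Lie.chevE6, [5, 1, 4, 3, 2, 0]), (Cfsg.Lie.chevD4, [2, 1, 3, 0]), (Cfsg.Lie.chevD4, [3, 1, 0, 2])]) :
    ∃ α : ↥(p.1.group F) ≃* ↥(p.1.group F), ∀ (g : ↥(p.1.group F)) (i : ℕ) (t : F), i < p.1.rank →
      (((g : GL p.1.Idx F) : Matrix p.1.Idx p.1.Idx F) = p.1.x F (p.1.simple i) t →
        ((α g : GL p.1.Idx F) : Matrix p.1.Idx p.1.Idx F) = p.1.x F (p.1.simple (p.2.getD i 0)) t) ∧
      (((g : GL p.1.Idx F) : Matrix p.1.Idx p.1.Idx F) = p.1.x F (p.1.neg (p.1.simple i)) t →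
        ((α g : GL p.1.Idx F) : Matrix p.1.Idx p.1.Idx F) = p.1.x F (p.1.neg (p.1.simple (p.2.getD i 0))) t) := by
  simp only [List.mem_cons, List.not_mem_nil, or_false] at hp
  have key : ∀ (D : Cfsg.Lie.ChevalleyDatum) (A : Cfsg.Agent.Lib.Chev.GraphData D) (G : Cfsg.Agent.Lib.Chev.Good0 D) (L : List ℕ)
      (h1 : ∀ i, i < D.rank → A.ρ (D.simple i) = D.simple (L.getD i 0) ∧ A.ρ (D.neg (D.simple i)) = D.neg (D.simple (L.getD i 0)) ∧
        A.ε (D.simple i) = 1 ∧ A.ε (D.neg (D.simple i)) = 1)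
      (h2 : ∀ i, i < D.rank → D.simple i < D.nroots),
      ∃ α : ↥(D.group F) ≃* ↥(D.group F), ∀ (g : ↥(D.group F)) (i : ℕ) (t : F), i < D.rank →
      (((g : GL D.Idx F) : Matrix D.Idx D.Idx F) = D.x F (D.simple i) t →
        ((α g : GL D.Idx F) : Matrix D.Idx D.Idx F) = D.x F (D.simple (L.getD i 0)) t) ∧
      (((g : GL D.Idx F) : Matrix D.Idx D.Idx F) = D.x F (D.neg (D.simple i)) t →
        ((α g : GL D.Idx F) : Matrix D.Idx D.Idx F) = D.x F (D.neg (D.simple (L.getD i 0))) t) := by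
    intro D A G L h1 h2
    refine ⟨A.groupAut G F, ?_⟩
    intro g i t hi
    obtain ⟨e1, e2, e3, e4⟩ := h1 i hi
    constructor
    · intro hg
      have := A.groupAut_x G g (h2 i hi) hg
      rw [e1, e3] at this
      simpa using this
    · intro hg
      have := A.groupAut_x G g (G.neg_lt (h2 i hi)) hg
      rw [e2, e4] at this
      simpa using this
  rcases hp with rfl | rfl | rfl
  · exact key _ Cfsg.Agent.Lib.Chev.TabE6.graph Cfsg.Agent.Lib.Chev.TabE6.good0 _ (by decide +kernel) (by decide +kernel)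
  · exact key _ Cfsg.Agent.Lib.Chev.TabD4.graph Cfsg.Agent.Lib.Chev.TabD4.good0 _ (by decide +kernel) (by decide +kernel)
  · exact key _ Cfsg.Agent.Lib.Chev.TabD4.graph2 Cfsg.Agent.Lib.Chev.TabD4.good0 _ (by decide +kernel) (by decide +kernel)

end Cfsg.Agent.S1081
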