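import Cfsg.Statements.S1093
import Cfsg.Agent.Lib.Chev.All4
-- import your own Cfsg.Agent.* helpers here

set_option autoImplicit false
open Cfsg

namespace Cfsg.Agent.S1093

/-- `|W(E₆)| = 51840`, `|W(E₇)| = 2903040`, `|W(E₈)| = 696729600` for Mathlib's presented Coxeter groups. -/
theorem result (p : (Σ n : ℕ, CoxeterMatrix (Fin n)) × ℕ)
    (hp : p ∈ [(⟨6, CoxeterMatrix.E₆⟩, 51840), (⟨7, CoxeterMatrix.E₇⟩, 2903040), (⟨8, CoxeterMatrix.E₈⟩, 696729600)]) :
    Nat.card p.1.2.Group = p.2 := by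
  simp only [List.mem_cons, List.not_mem_nil, or_false] at hp
  rcases hp with rfl | rfl | rfl
  · have h := Cfsg.Agent.Lib.Chev.TabE6.good4.weyl_card CoxeterMatrix.E₆ (by set_option backward.isDefEq.respectTransparency false in decide +kernel)
    have h2 : Cfsg.Agent.Lib.Chev.pEval (Cfsg.Agent.Lib.Chev.pChain Cfsg.Lie.chevE6.nroots Cfsg.Agent.Lib.Chev.TabE6.cdata) ((1 : ℕ) : ℤ) = 51840 := by decide +kernel
    exact_mod_cast h.trans h2
  · have h := Cfsg.Agent.Lib.Chev.TabE7.good4.weyl_card CoxeterMatrix.E₇ (by set_option backward.isDefEq.respectTransparency false in decide +kernel)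
    have h2 : Cfsg.Agent.Lib.Chev.pEval (Cfsg.Agent.Lib.Chev.pChain Cfsg.Lie.chevE7.nroots Cfsg.Agent.Lib.Chev.TabE7.cdata) ((1 : ℕ) : ℤ) = 2903040 := by decide +kernel
    exact_mod_cast h.trans h2
  · have h := Cfsg.Agent.Lib.Chev.TabE8.good4.weyl_card CoxeterMatrix.E₈ (by set_option backward.isDefEq.respectTransparency false in decide +kernel)
    have h2 : Cfsg.Agent.Lib.Chev.pEval (Cfsg.Agent.Lib.Chev.pChain Cfsg.Lie.chevE8.nroots Cfsg.Agent.Lib.Chev.TabE8.cdata) ((1 : ℕ) : ℤ) = 696729600 := by decide +kernel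
    exact_mod_cast h.trans h2

end Cfsg.Agent.S1093
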