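import Cfsg.Statements.S1102
import Cfsg.Agent.Lib.Chev.Tw.E6e
-- import your own Cfsg.Agent.* helpers here

set_option autoImplicit false
open Cfsg

namespace Cfsg.Agent.S1102

/-- `|H¹| = |G¹ ∩ H|`: `Nat.gcd 3 (q + 1) * |H¹| = (q - 1) ^ 4 * (q + 1) ^ 2` for ²E₆(q). -/
theorem result {K : Type*} [Field K] [Fintype K] {q : ℕ} (hq : IsPrimePow q) (hK : Fintype.card K = q ^ 2) :
    Nat.gcd 3 (q + 1) * Nat.card ↥(Cfsg.Lie.chevE6.diagonalSubgroup K ⊓ Cfsg.Lie.twistedE6 K q) = (q - 1) ^ 4 * (q + 1) ^ 2 := by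
  open Cfsg.Agent.Lib.Chev Cfsg.Agent.Lib.Chev.TwE6 in
  obtain ⟨f, hf⟩ := frobQ hq (by norm_num : (2 : ℕ) ≠ 0) hK
  have hf2 : ∀ t, f (f t) = t := by
    intro t
    rw [hf, hf, ← pow_mul, ← pow_two, ← hK]
    exact FiniteField.pow_card t
  rw [← AA_eq f hf hf2]
  exact card_H1 hq.one_lt hK f hf hf2

end Cfsg.Agent.S1102
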