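import Cfsg.Statements.S1106
import Cfsg.Agent.Lib.Chev.Tw.D4e
-- import your own Cfsg.Agent.* helpers here

set_option autoImplicit false
open Cfsg

namespace Cfsg.Agent.S1106

/-- `|H¹| = |G¹ ∩ H|`: `|H¹| = (q - 1) ^ 2 * (q ^ 2 + q + 1)` for ³D₄(q). -/
theorem result {K : Type*} [Field K] [Fintype K] {q : ℕ} (hq : IsPrimePow q) (hK : Fintype.card K = q ^ 3) :
    Nat.card ↥(Cfsg.Lie.chevD4.diagonalSubgroup K ⊓ Cfsg.Lie.twistedD4 K q) = (q - 1) ^ 2 * (q ^ 2 + q + 1) := by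
  open Cfsg.Agent.Lib.Chev Cfsg.Agent.Lib.Chev.TwD4 in
  obtain ⟨f, hf⟩ := frobQ hq (by norm_num : (3 : ℕ) ≠ 0) hK
  have hf3 : ∀ t, f (f (f t)) = t := by
    intro t
    rw [hf, hf, hf, ← pow_mul, ← pow_mul, show q * (q * q) = q ^ 3 by ring, ← hK]
    exact FiniteField.pow_card t
  rw [← AA_eq f hf hf3, card_H hq.one_lt hK f hf hf3]
  obtain ⟨r, rfl⟩ : ∃ r, q = r + 1 := ⟨q - 1, by have := hq.one_lt; omega⟩
  have e : (r + 1) ^ 3 - 1 = r * ((r + 1) ^ 2 + (r + 1) + 1) := by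
    apply Nat.sub_eq_of_eq_add
    ring
  rw [e, Nat.add_sub_cancel]
  ring

end Cfsg.Agent.S1106
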