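import Cfsg.Statements.S1108
import Cfsg.Agent.Lib.Chev.Tw.D4g
-- import your own Cfsg.Agent.* helpers here

set_option autoImplicit false
open Cfsg

namespace Cfsg.Agent.S1108

/-- ³D₄(q) equals its derived subgroup. -/
theorem result {K : Type*} [Field K] [Fintype K] {q : ℕ} (hq : IsPrimePow q) (hK : Fintype.card K = q ^ 3) : commutator ↥(Cfsg.Lie.twistedD4 K q) = ⊤ := by
  open Cfsg.Agent.Lib.Chev Cfsg.Agent.Lib.Chev.TwD4 in
  obtain ⟨f, hf⟩ := frobQ hq (by norm_num : (3 : ℕ) ≠ 0) hK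
  have hf3 : ∀ t, f (f (f t)) = t := by
    intro t
    rw [hf, hf, hf, ← pow_mul, ← pow_mul, show q * (q * q) = q ^ 3 by ring, ← hK]
    exact FiniteField.pow_card t
  rw [← AA_eq f hf hf3]
  have h3 : 3 < Fintype.card K := by
    rw [hK]
    have : 2 ^ 3 ≤ q ^ 3 := Nat.pow_le_pow_left hq.one_lt 3
    omega
  obtain ⟨u, hu⟩ := exists_unit_ne_two h3
  exact perfect f hf3 hu

end Cfsg.Agent.S1108
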