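import Cfsg.Statements.S1114
import Cfsg.Agent.Lib.Chev.Tw.G2d
-- import your own Cfsg.Agent.* helpers here

set_option autoImplicit false
open Cfsg

namespace Cfsg.Agent.S1114

/-- `|H¹| = |G¹ ∩ H|`: `|H¹| = 3 ^ (2 * m + 1) - 1` for ²G₂(3^(2m+1)). -/
theorem result {K : Type*} [Field K] [Fintype K] {m : ℕ} (hK : Fintype.card K = 3 ^ (2 * m + 1)) :
    Nat.card ↥(Cfsg.Lie.chevG2.diagonalSubgroup K ⊓ Cfsg.Lie.twistedG2 K (3 ^ m)) = 3 ^ (2 * m + 1) - 1 := by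
  open Cfsg.Agent.Lib.Chev Cfsg.Agent.Lib.Chev.TwG2 in
  have h3 : Nat.Prime 3 := Nat.prime_three
  have hn : 2 * m + 1 ≠ 0 := by omega
  have := charP_of_card h3 hn hK
  obtain ⟨f, hf⟩ := frobP h3 hn hK m
  have hc : ringChar K ≠ 2 := by
    rw [ringChar.eq K 3]
    norm_num
  rw [← AA_eq f (frob_sq hK f hf) hf, card_H1 f (frob_sq hK f hf) (sq_or_neg hK hc), Nat.card_units,
    Nat.card_eq_fintype_card, hK]

end Cfsg.Agent.S1114
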