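import Cfsg.Statements.S1118
import Cfsg.Agent.Lib.RankOne.Basic

set_option autoImplicit false
open Cfsg

namespace Cfsg.Agent.S1118

open MulAction Cfsg.Agent.Lib.RankOne.Setup


/-- In the rank-one set-up (`G` finite and doubly transitive on `Ω`, `t` an involution moving `a`, `Q` normal in `G_a` with `G_a = Q D`, `Q ⊓ D = 1` for the two-point stabiliser `D = G_a ⊓ G_{t • a}`, `|Q|` even, `|D|` odd), the normaliser of a subset of `Q` containing a non-identity element lies in `G_a`; consequently `N_G(Q) = N_G(G_a) = G_a`. -/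
theorem result {G Ω : Type*} [Group G] [Finite G] [MulAction G Ω] {a : Ω} {t : G} {Q : Subgroup G}
    (hS : Cfsg.IsRankOneSetup G Ω a t Q) :
    (∀ X : Set G, X ⊆ (Q : Set G) → (∃ x ∈ X, x ≠ 1) → Subgroup.normalizer X ≤ MulAction.stabilizer G a) ∧
      Subgroup.normalizer (Q : Set G) = MulAction.stabilizer G a ∧
      Subgroup.normalizer (MulAction.stabilizer G a : Set G) = MulAction.stabilizer G a := by
  obtain ⟨s, hsQ, hs1, hs2⟩ := exists_invol hS
  have hfixX : ∀ X : Set G, X ⊆ (Q : Set G) → (∃ x ∈ X, x ≠ 1) → Subgroup.normalizer X ≤ stabilizer G a := by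
    intro X hX ⟨x, hx, hx1⟩ g hg
    have h1 : g⁻¹ * x * g ∈ X := (Subgroup.mem_set_normalizer_iff''.mp hg x).mp hx
    have h2 : g⁻¹ * x * g ∈ Q := hX h1
    have h3 : (g⁻¹ * x * g) • a = a := hS.le h2
    have h4 : x • (g • a) = g • a := by
      rw [mul_smul, mul_smul, inv_smul_eq_iff] at h3
      exact h3
    exact fix_unique hS (hX hx) hx1 h4
  refine ⟨hfixX, ?_, ?_⟩
  · apply le_antisymm
    · exact hfixX Q (fun _ h => h) ⟨s, hsQ, hs1⟩
    · intro g hg
      rw [Subgroup.mem_normalizer_iff]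
      intro x
      constructor
      · exact hS.conj_mem g hg x
      · intro h
        have h1 := hS.conj_mem g⁻¹ (Subgroup.inv_mem _ hg) _ h
        have h2 : g⁻¹ * (g * x * g⁻¹) * g⁻¹⁻¹ = x := by group
        rwa [h2] at h1
  · apply le_antisymm
    · intro g hg
      have h1 : g⁻¹ * s * g ∈ stabilizer G a :=
        (Subgroup.mem_set_normalizer_iff''.mp hg s).mp (hS.le hsQ)
      -- `g⁻¹ s g` is an involution in `G_a`, hence in `Q`
      have h2 : (g⁻¹ * s * g) * (g⁻¹ * s * g) = 1 := by
        calc (g⁻¹ * s * g) * (g⁻¹ * s * g) = g⁻¹ * (s * s) * g := by group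
          _ = 1 := by rw [hs2]; group
      have h3 := mem_Q_of_invol hS h1 h2
      have h4 : (g⁻¹ * s * g) • a = a := hS.le h3
      have h5 : s • (g • a) = g • a := by
        rw [mul_smul, mul_smul, inv_smul_eq_iff] at h4
        exact h4
      exact fix_unique hS hsQ hs1 h5
    · exact Subgroup.le_normalizer

end Cfsg.Agent.S1118
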