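import Cfsg.Statements.S1119
import Cfsg.Agent.Lib.RankOne.Basic

set_option autoImplicit false
open Cfsg

namespace Cfsg.Agent.S1119

open MulAction Cfsg.Agent.Lib.RankOne.Setup
open Cfsg.Agent.Lib.RankOne
set_option linter.style.haveILetI false


/-- In the rank-one set-up (`G` finite and doubly transitive on `Ω`, `t` an involution moving `a`, `Q` normal in `G_a` with `G_a = Q D`, `Q ⊓ D = 1` for the two-point stabiliser `D = G_a ⊓ G_{t • a}`, `|Q|` even, `|D|` odd): `Q` acts regularly on `Ω` minus `a`; hence `|Ω| = |Q| + 1`, `|G| = |Q| |D| (|Q| + 1)`, some Sylow 2-subgroup of `G` lies in `Q`, and each `g ∉ G_a` is uniquely `x t y` with `x ∈ G_a`, `y ∈ Q` (canonical form). -/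
theorem result {G Ω : Type*} [Group G] [Finite G] [MulAction G Ω] {a : Ω} {t : G} {Q : Subgroup G}
    (hS : Cfsg.IsRankOneSetup G Ω a t Q) :
    (∀ b c : Ω, b ≠ a → c ≠ a → ∃! x : Q, (x : G) • b = c) ∧
      Nat.card Ω = Nat.card Q + 1 ∧
      Nat.card G = Nat.card Q * Nat.card ↥(MulAction.stabilizer G a ⊓ MulAction.stabilizer G (t • a)) * (Nat.card Q + 1) ∧
      (∃ P : Sylow 2 G, (P : Subgroup G) ≤ Q) ∧
      ∀ g : G, g ∉ MulAction.stabilizer G a → ∃! p : G × G, p.1 ∈ MulAction.stabilizer G a ∧ p.2 ∈ Q ∧ g = p.1 * t * p.2 := by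
  classical
  haveI hfin : Finite Ω := finite_Ω hS
  haveI htr : IsPretransitive G Ω := isPretransitive hS
  have hb : t • a ≠ a := t_ne hS
  have hreg : ∀ b c : Ω, b ≠ a → c ≠ a → ∃! x : Q, (x : G) • b = c := by
    intro b c hb' hc
    obtain ⟨y₁, hy₁, rfl⟩ := Q_trans hS hb'
    obtain ⟨y₂, hy₂, rfl⟩ := Q_trans hS hc
    refine ⟨⟨y₂ * y₁⁻¹, Q.mul_mem hy₂ (Q.inv_mem hy₁)⟩, ?_, ?_⟩
    · show (y₂ * y₁⁻¹) • y₁ • t • a = y₂ • t • a
      rw [mul_smul, inv_smul_smul]
    · rintro ⟨x, hx⟩ h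
      apply Subtype.ext
      show x = y₂ * y₁⁻¹
      have h1 : (x * y₁) • t • a = y₂ • t • a := by
        rw [mul_smul]; exact h
      have h2 := Q_unique hS (Q.mul_mem hx hy₁) hy₂ hb h1
      rw [← h2]; group
  have hΩ : Nat.card Ω = Nat.card Q + 1 := by
    let φ : Q → {c : Ω // c ≠ a} := fun x => ⟨(x : G) • t • a, by
      intro h
      have h1 : (x : G) • a = a := hS.le x.2
      exact hb (smul_left_cancel _ (h.trans h1.symm))⟩
    have hinj : Function.Injective φ := by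
      rintro ⟨x, hx⟩ ⟨y, hy⟩ h
      exact Subtype.ext (Q_unique hS hx hy hb (congrArg Subtype.val h))
    have hsurj : Function.Surjective φ := by
      rintro ⟨c, hc⟩
      obtain ⟨x, hx, rfl⟩ := Q_trans hS hc
      exact ⟨⟨x, hx⟩, rfl⟩
    have h1 : Nat.card Q = Nat.card {c : Ω // c ≠ a} := Nat.card_congr (Equiv.ofBijective φ ⟨hinj, hsurj⟩)
    haveI := Fintype.ofFinite Ω
    rw [h1, Nat.card_eq_fintype_card, Nat.card_eq_fintype_card, Fintype.card_subtype_compl]
    have h2 : 0 < Fintype.card Ω := Fintype.card_pos_iff.mpr ⟨a⟩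
    simp only [Fintype.card_subtype_eq]
    omega
  have hGa : Nat.card (stabilizer G a) = Nat.card Q * Nat.card (DD G a t) := by
    let φ : Q × (DD G a t) → stabilizer G a := fun p => ⟨p.1.1 * p.2.1,
      Subgroup.mul_mem _ (hS.le p.1.2) p.2.2.1⟩
    have hinj : Function.Injective φ := by
      rintro ⟨⟨x, hx⟩, ⟨d, hd⟩⟩ ⟨⟨x', hx'⟩, ⟨d', hd'⟩⟩ h
      have h1 : x * d = x' * d' := congrArg Subtype.val h
      have h2 : x'⁻¹ * x = d' * d⁻¹ := by
        calc x'⁻¹ * x = x'⁻¹ * (x * d) * d⁻¹ := by group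
          _ = x'⁻¹ * (x' * d') * d⁻¹ := by rw [h1]
          _ = d' * d⁻¹ := by group
      have h3 : x'⁻¹ * x ∈ Q ⊓ DD G a t :=
        ⟨Q.mul_mem (Q.inv_mem hx') hx, by rw [h2]; exact Subgroup.mul_mem _ hd' (Subgroup.inv_mem _ hd)⟩
      rw [inf_Q_D hS] at h3
      have h4 : x = x' := (inv_mul_eq_one.mp h3).symm
      subst h4
      have h5 : d = d' := mul_left_cancel h1
      subst h5
      rfl
    have hsurj : Function.Surjective φ := by
      rintro ⟨g, hg⟩
      obtain ⟨x, hx, d, hd, rfl⟩ := exists_mul hS hg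
      exact ⟨(⟨x, hx⟩, ⟨d, hd⟩), rfl⟩
    rw [← Nat.card_prod]
    exact (Nat.card_congr (Equiv.ofBijective φ ⟨hinj, hsurj⟩)).symm
  have hG : Nat.card G = Nat.card Q * Nat.card (DD G a t) * (Nat.card Q + 1) := by
    rw [← hGa, ← hΩ, ← index_stabilizer_of_transitive (G := G) a, Subgroup.card_mul_index]
  refine ⟨hreg, hΩ, hG, ?_, ?_⟩
  · haveI : Fact (Nat.Prime 2) := ⟨Nat.prime_two⟩
    obtain ⟨P₀⟩ : Nonempty (Sylow 2 Q) := inferInstance
    have hQ0 : Nat.card Q ≠ 0 := Nat.card_pos.ne'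
    have hD0 : Nat.card (DD G a t) ≠ 0 := Nat.card_pos.ne'
    have hcardH : Nat.card (P₀.1.map Q.subtype) = 2 ^ (Nat.card G).factorization 2 := by
      have h1 : Nat.card (P₀.1.map Q.subtype) = Nat.card P₀ :=
        Subgroup.card_map_of_injective Q.subtype_injective
      rw [h1, P₀.card_eq_multiplicity, hG]
      congr 1
      have hodd1 : Odd (Nat.card (DD G a t)) := hS.odd_card
      have hodd2 : Odd (Nat.card Q + 1) := hS.even_card.add_one
      have hn1 : ¬ 2 ∣ Nat.card (DD G a t) := by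
        rwa [← even_iff_two_dvd, Nat.not_even_iff_odd]
      have hn2 : ¬ 2 ∣ Nat.card Q + 1 := by
        rwa [← even_iff_two_dvd, Nat.not_even_iff_odd]
      rw [Nat.factorization_mul (mul_ne_zero hQ0 hD0) (by omega), Nat.factorization_mul hQ0 hD0]
      simp only [Finsupp.coe_add, Pi.add_apply]
      rw [Nat.factorization_eq_zero_of_not_dvd hn1, Nat.factorization_eq_zero_of_not_dvd hn2]
      simp
    refine ⟨Sylow.ofCard _ hcardH, ?_⟩
    rw [Sylow.coe_ofCard]
    rintro _ ⟨x, -, rfl⟩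
    exact x.2
  · intro g hg
    have hga : g⁻¹ • a ≠ a := by
      intro h
      apply hg
      have h1 : g • g⁻¹ • a = g • a := by rw [h]
      rw [smul_inv_smul] at h1
      exact h1.symm
    obtain ⟨y, hy, hyb⟩ := Q_trans hS hga
    have htinv : t⁻¹ = t := t_inv hS
    refine ⟨(g * y * t, y⁻¹), ⟨?_, Q.inv_mem hy, ?_⟩, ?_⟩
    · show (g * y * t) • a = a
      rw [mul_smul, mul_smul, hyb, smul_inv_smul]
    · show g = g * y * t * t * y⁻¹
      have h1 : g * y * t * t * y⁻¹ = g * y * (t * t) * y⁻¹ := by group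
      rw [h1, hS.mul_self]
      group
    · rintro ⟨x', y'⟩ ⟨hx', hy', h⟩
      simp only at hx' hy' h
      have h1 : g⁻¹ • a = y'⁻¹ • t • a := by
        have hx'a : x'⁻¹ • a = a := by
          have := Subgroup.inv_mem _ hx'
          exact this
        rw [h, mul_inv_rev, mul_inv_rev, mul_smul, mul_smul, hx'a, htinv]
      have h2 : y'⁻¹ = y := Q_unique hS (Q.inv_mem hy') hy hb (h1.symm.trans hyb.symm)
      have h3 : y' = y⁻¹ := by rw [← h2, inv_inv]
      have h4 : x' = g * y * t := by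
        rw [h, h3]
        calc x' = x' * (t * t) := by rw [hS.mul_self, mul_one]
          _ = x' * t * y⁻¹ * y * t := by group
      rw [h3, h4]

end Cfsg.Agent.S1119
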