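import Cfsg.Statements.S1120
import Cfsg.Agent.Lib.RankOne.Centr
import Cfsg.Agent.Lib.Basic.Core
import Cfsg.Agent.Lib.Coprime.Partition

set_option autoImplicit false
open Cfsg

namespace Cfsg.Agent.S1120

open MulAction Cfsg.Agent.Lib.RankOne.Setup
open Cfsg.Agent.Lib.RankOne
set_option linter.style.haveILetI false


/-- In the rank-one set-up (`G` finite and doubly transitive on `Ω`, `t` an involution moving `a`, `Q` normal in `G_a` with `G_a = Q D`, `Q ⊓ D = 1` for the two-point stabiliser `D = G_a ⊓ G_{t • a}`, `|Q|` even, `|D|` odd), if `G` has 2-rank at least 2 then `O_{2'}(G)` equals the normal core of `G_a`. -/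
theorem result {G Ω : Type*} [Group G] [Finite G] [MulAction G Ω] {a : Ω} {t : G} {Q : Subgroup G}
    (hS : Cfsg.IsRankOneSetup G Ω a t Q)
    (h2 : ∃ x y : G, x ≠ 1 ∧ y ≠ 1 ∧ x ≠ y ∧ x * x = 1 ∧ y * y = 1 ∧ x * y = y * x) :
    Cfsg.pPrimeCore 2 G = (MulAction.stabilizer G a).normalCore := by
  classical
  obtain ⟨x, y, hx1, hy1, hxy, hx2, hy2, hcomm⟩ := h2
  haveI : Fact (Nat.Prime 2) := ⟨Nat.prime_two⟩
  set N := Cfsg.pPrimeCore 2 G with hN
  have hNn : N.Normal := Cfsg.Agent.Lib.Basic.pPrimeCore_normal 2
  have hNc : (Nat.card N).Coprime 2 := Cfsg.Agent.Lib.Basic.pPrimeCore_coprime 2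
  apply le_antisymm
  · -- `N` fixes the common fixed point of `x, y`
    obtain ⟨e, he, -⟩ := invol_fix hS hx1 hx2
    have hye : y • e = e := fix_of_commute hS hx1 hx2 hcomm.symm he
    set A := Subgroup.closure ({x, y} : Set G) with hA
    have hcommA : IsMulCommutative A := by
      apply Subgroup.isMulCommutative_closure
      rintro u (rfl | rfl) v (rfl | rfl)
      · rfl
      · exact hcomm
      · exact hcomm.symm
      · rfl
    have hAstab : A ≤ stabilizer G e := by
      rw [hA, Subgroup.closure_le]
      rintro u (rfl | rfl)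
      · exact he
      · exact hye
    have hAcomm : ∀ u ∈ A, ∀ v ∈ A, u * v = v * u := by
      intro u hu v hv
      have := hcommA.is_comm.comm (⟨u, hu⟩ : A) ⟨v, hv⟩
      exact congrArg Subtype.val this
    have hAsq : ∀ u ∈ A, u * u = 1 := by
      intro u hu
      induction hu using Subgroup.closure_induction with
      | mem u hu =>
        rcases hu with rfl | rfl
        · exact hx2
        · exact hy2
      | one => simp
      | mul a b ha hb iha ihb =>
        calc a * b * (a * b) = a * (b * a) * b := by group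
          _ = a * (a * b) * b := by rw [hAcomm b hb a ha]
          _ = (a * a) * (b * b) := by group
          _ = 1 := by rw [iha, ihb, one_mul]
      | inv a ha iha =>
        calc a⁻¹ * a⁻¹ = (a * a)⁻¹ := by group
          _ = 1 := by rw [iha, inv_one]
    have hAp : IsPGroup 2 A := by
      intro u
      refine ⟨1, Subtype.ext ?_⟩
      simpa [pow_two] using hAsq u u.2
    obtain ⟨n, hn⟩ := IsPGroup.iff_card.mp hAp
    have hcop : Nat.Coprime (Nat.card A) (Nat.card N) := by
      rw [hn]
      exact (Nat.Coprime.pow_left n hNc.symm)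
    have hnorm : A ≤ Subgroup.normalizer (N : Set G) := by
      rw [Subgroup.normalizer_eq_top_iff.mpr hNn]
      exact le_top
    have hgen := Cfsg.Agent.Lib.Coprime.le_iSup_centralizer_of_abelian_action hcommA _ N rfl hnorm hcop
    have hNe : N ≤ stabilizer G e := by
      refine hgen.trans (iSup₂_le ?_)
      rintro B ⟨hBA, a, haA, hBa⟩ g ⟨-, hgB⟩
      have hBne : B ≠ ⊥ := by
        rintro rfl
        rw [bot_sup_eq] at hBa
        have hmem : ∀ u ∈ A, u = 1 ∨ u = a := by
          intro u hu
          rw [← hBa] at hu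
          obtain ⟨i, rfl⟩ := Subgroup.mem_zpowers_iff.mp hu
          have ha2 : a ^ (2 : ℤ) = 1 := by
            rw [show ((2 : ℤ)) = ((2 : ℕ) : ℤ) by norm_num, zpow_natCast, pow_two]
            exact hAsq a haA
          rcases Int.even_or_odd' i with ⟨j, rfl | rfl⟩
          · left
            rw [zpow_mul, ha2, one_zpow]
          · right
            rw [zpow_add, zpow_mul, ha2, one_zpow, one_mul, zpow_one]
        have hxA : x ∈ A := Subgroup.subset_closure (by simp)
        have hyA : y ∈ A := Subgroup.subset_closure (by simp)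
        have h1 := (hmem x hxA).resolve_left hx1
        have h2 := (hmem y hyA).resolve_left hy1
        exact hxy (h1.trans h2.symm)
      obtain ⟨z, hzB, hz1⟩ := B.bot_or_exists_ne_one.resolve_left hBne
      have hzA := hBA hzB
      have hze : z • e = e := hAstab hzA
      exact fix_of_commute hS hz1 (hAsq z hzA) (Subgroup.mem_centralizer_iff.mp hgB z hzB).symm hze
    have hcore : ∀ g : G, ∀ n ∈ N, n • g • e = g • e := by
      intro g n hn
      have h1 : g⁻¹ * n * g ∈ N := by
        have := hNn.conj_mem n hn g⁻¹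
        simpa using this
      have h2 : (g⁻¹ * n * g) • e = e := hNe h1
      rw [mul_smul, mul_smul, inv_smul_eq_iff] at h2
      exact h2
    rw [hN, Subgroup.normal_le_normalCore]
    intro n hn
    obtain ⟨g, hg⟩ := trans hS e a
    show n • a = a
    rw [← hg]
    exact hcore g n hn
  · apply Cfsg.Agent.Lib.Basic.le_pPrimeCore (Subgroup.normalCore_normal _)
    rw [Nat.coprime_two_right]
    by_contra hodd
    rw [Nat.not_odd_iff_even] at hodd
    obtain ⟨k, hk⟩ := exists_prime_orderOf_dvd_card' (G := (stabilizer G a).normalCore) 2 hodd.two_dvd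
    have hk1 : (k : G) ≠ 1 := by
      intro h
      have : k = 1 := Subtype.ext h
      rw [this, orderOf_one] at hk
      omega
    have hk2 : (k : G) * k = 1 := by
      have h2 : k ^ 2 = 1 := by rw [← hk]; exact pow_orderOf_eq_one k
      rw [pow_two] at h2
      exact congrArg Subtype.val h2
    have hka : (k : G) ∈ stabilizer G a := Subgroup.normalCore_le _ k.2
    have hkQ := mem_Q_of_invol hS hka hk2
    have hkb : (k : G) • t • a = t • a := by
      have h1 : t⁻¹ * (k : G) * t⁻¹⁻¹ ∈ stabilizer G a := k.2 t⁻¹
      have h2 : (t⁻¹ * (k : G) * t⁻¹⁻¹) • a = a := h1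
      rw [inv_inv, mul_smul, mul_smul, inv_smul_eq_iff] at h2
      exact h2
    exact hk1 (Q_bot hS hkQ hkb)

end Cfsg.Agent.S1120
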