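import Cfsg.Statements.S1122
import Cfsg.Agent.Lib.RankOne.Inv

set_option autoImplicit false
open Cfsg

namespace Cfsg.Agent.S1122

open MulAction Cfsg.Agent.Lib.RankOne.Setup
open Cfsg.Agent.Lib.RankOne


/-- In the rank-one set-up (`G` finite and doubly transitive on `Ω`, `t` an involution moving `a`, `Q` normal in `G_a` with `G_a = Q D`, `Q ⊓ D = 1` for the two-point stabiliser `D = G_a ⊓ G_{t • a}`, `|Q|` even, `|D|` odd), with `K` the set of elements of `D` inverted by `t`: `|K|` is the number of involutions of `G_a`, and for each involution `s` of `G_a` the `K`-conjugates of `s` are all the involutions of `G_a`. -/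
theorem result {G Ω : Type*} [Group G] [Finite G] [MulAction G Ω] {a : Ω} {t : G} {Q : Subgroup G}
    (hS : Cfsg.IsRankOneSetup G Ω a t Q) :
    Nat.card (Cfsg.invertedBy (MulAction.stabilizer G a ⊓ MulAction.stabilizer G (t • a)) t) = Nat.card (Cfsg.involutionsIn (MulAction.stabilizer G a : Set G)) ∧
      ∀ s ∈ Cfsg.involutionsIn (MulAction.stabilizer G a : Set G), ∀ s' ∈ Cfsg.involutionsIn (MulAction.stabilizer G a : Set G),
        ∃ k ∈ Cfsg.invertedBy (MulAction.stabilizer G a ⊓ MulAction.stabilizer G (t • a)) t, k⁻¹ * s * k = s' := by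
  have hall : ∀ s ∈ involutionsIn (stabilizer G a : Set G), ∀ s' ∈ involutionsIn (stabilizer G a : Set G),
      ∃ k ∈ invertedBy (DD G a t) t, k⁻¹ * s * k = s' := by
    intro s hs s' hs'
    obtain ⟨k, hk, hk2⟩ := exists_K_conj hS hs hs'
    refine ⟨k⁻¹, ?_, ?_⟩
    · refine ⟨Subgroup.inv_mem _ hk.1, ?_⟩
      have h := hk.2
      calc t * k⁻¹ * t⁻¹ = (t * k * t⁻¹)⁻¹ := by group
        _ = (k⁻¹)⁻¹ := by rw [h]
    · rw [inv_inv]
      exact hk2
  refine ⟨?_, hall⟩
  obtain ⟨s, hsQ, hs1, hs2⟩ := exists_invol hS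
  have hsJ : s ∈ involutionsIn (stabilizer G a : Set G) := ⟨hS.le hsQ, hs1, hs2⟩
  let f : invertedBy (DD G a t) t → involutionsIn (stabilizer G a : Set G) :=
    fun k => ⟨k.1 * s * k.1⁻¹, by
      have hk : k.1 ∈ stabilizer G a := k.2.1.1
      refine ⟨Subgroup.mul_mem _ (Subgroup.mul_mem _ hk (hS.le hsQ)) (Subgroup.inv_mem _ hk), ?_, ?_⟩
      · intro h
        apply hs1
        have : s = k.1⁻¹ * (k.1 * s * k.1⁻¹) * k.1 := by group
        rw [this, h]; group
      · calc k.1 * s * k.1⁻¹ * (k.1 * s * k.1⁻¹) = k.1 * (s * s) * k.1⁻¹ := by group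
          _ = 1 := by rw [hs2]; group⟩
  have hinj : Function.Injective f := by
    rintro ⟨k₁, hk₁⟩ ⟨k₂, hk₂⟩ h
    have h1 := congrArg Subtype.val h
    exact Subtype.ext (K_conj_inj hS hsJ hk₁ hk₂ h1)
  have hsurj : Function.Surjective f := by
    rintro ⟨s', hs'⟩
    obtain ⟨k, hk, hk2⟩ := exists_K_conj hS hsJ hs'
    exact ⟨⟨k, hk⟩, Subtype.ext hk2⟩
  exact Nat.card_congr (Equiv.ofBijective f ⟨hinj, hsurj⟩)

end Cfsg.Agent.S1122
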