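import Cfsg.Statements.S1124
import Mathlib
import Cfsg.Prelude.Def_LieRecognition

set_option autoImplicit false
open scoped Pointwise
open Cfsg

namespace Cfsg.Agent.S1124

open MulAction
open scoped Pointwise
set_option linter.style.haveILetI false


/-- Let `t` be an element of order 2 of a finite group normalising a subgroup `X` of odd order, `Y = C_X(t)` and `Z` the set of elements of `X` inverted by `t`. Then `(y, z) ↦ y z` is a bijection `Y × Z → X`, so `|X| = |Y| |Z|`, and the subgroup generated by `Z` is normal in `X`. -/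
theorem result {M : Type*} [Group M] [Finite M]
    (t : M) (ht : orderOf t = 2) (X : Subgroup M) (hodd : Odd (Nat.card X))
    (hnorm : ∀ x ∈ X, t * x * t⁻¹ ∈ X) :
    (∀ x ∈ X, ∃! p : M × M, p.1 ∈ X ⊓ Subgroup.centralizer {t} ∧ p.2 ∈ Cfsg.invertedBy X t ∧ x = p.1 * p.2) ∧
      Nat.card X = Nat.card ↥(X ⊓ Subgroup.centralizer {t}) * Nat.card (Cfsg.invertedBy X t) ∧
      ∀ x ∈ X, MulAut.conj x • Subgroup.closure (Cfsg.invertedBy X t) = Subgroup.closure (Cfsg.invertedBy X t) := by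
  classical
  have ht2 : t * t = 1 := by
    have := pow_orderOf_eq_one t
    rwa [ht, pow_two] at this
  have htinv : t⁻¹ = t := inv_eq_of_mul_eq_one_left ht2
  obtain ⟨l, hl⟩ := hodd
  -- square roots
  have hpow : ∀ x ∈ X, x ^ (2 * l + 1) = 1 := by
    intro x hx
    have h1 := pow_card_eq_one' (G := X) (x := ⟨x, hx⟩)
    rw [hl] at h1
    exact congrArg Subtype.val h1
  have hsq : ∀ x ∈ X, (x * x) ^ (l + 1) = x := by
    intro x hx
    rw [← pow_two, ← pow_mul]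
    have h2 : 2 * (l + 1) = (2 * l + 1) + 1 := by ring
    rw [h2, pow_succ, hpow x hx, one_mul]
  have hroot : ∀ x ∈ X, (x ^ (l + 1)) * (x ^ (l + 1)) = x := by
    intro x hx
    rw [← pow_add]
    have h2 : l + 1 + (l + 1) = (2 * l + 1) + 1 := by ring
    rw [h2, pow_succ, hpow x hx, one_mul]
  have hZpow : ∀ z ∈ invertedBy X t, ∀ n : ℕ, z ^ n ∈ invertedBy X t := by
    intro z hz n
    refine ⟨Subgroup.pow_mem _ hz.1 _, ?_⟩
    have h3 := conj_pow (a := t) (b := z) (i := n)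
    rw [← h3, hz.2, inv_pow]
  have hZinv : ∀ z ∈ invertedBy X t, z⁻¹ ∈ invertedBy X t := by
    intro z hz
    refine ⟨Subgroup.inv_mem _ hz.1, ?_⟩
    have h3 := hz.2
    calc t * z⁻¹ * t⁻¹ = (t * z * t⁻¹)⁻¹ := by group
      _ = (z⁻¹)⁻¹ := by rw [h3]
  have hC : ∀ y, y ∈ Subgroup.centralizer {t} ↔ y * t = t * y := by
    intro y
    exact Subgroup.mem_centralizer_singleton_iff
  -- decomposition
  have hex : ∀ x ∈ X, ∃ y ∈ X ⊓ Subgroup.centralizer {t}, ∃ z ∈ invertedBy X t, x = y * z := by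
    intro x hx
    set f := x⁻¹ * (t * x * t⁻¹) with hf
    have hfX : f ∈ X := X.mul_mem (X.inv_mem hx) (hnorm x hx)
    have hfZ : f ∈ invertedBy X t := by
      refine ⟨hfX, ?_⟩
      rw [hf, htinv]
      calc t * (x⁻¹ * (t * x * t)) * t = t * x⁻¹ * t * x * (t * t) := by group
        _ = t * x⁻¹ * t * x := by rw [ht2, mul_one]
        _ = (x⁻¹ * (t * x * t))⁻¹ := by
            simp only [mul_inv_rev, inv_inv, mul_assoc, htinv]
    set z := (f ^ (l + 1))⁻¹ with hz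
    have hzZ : z ∈ invertedBy X t := hZinv _ (hZpow _ hfZ _)
    have hzz : z⁻¹ * z⁻¹ = f := by
      rw [hz, inv_inv]
      exact hroot f hfX
    refine ⟨x * z⁻¹, ⟨X.mul_mem hx (X.inv_mem hzZ.1), (hC _).mpr ?_⟩, z, hzZ, by group⟩
    -- `τ(x z⁻¹) = x z⁻¹`
    have h1 : t * (x * z⁻¹) * t⁻¹ = x * z⁻¹ := by
      have h2 : t * z⁻¹ * t⁻¹ = z := by
        have h3 := hzZ.2
        calc t * z⁻¹ * t⁻¹ = (t * z * t⁻¹)⁻¹ := by group
          _ = (z⁻¹)⁻¹ := by rw [h3]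
          _ = z := inv_inv z
      have h3 : t * x * t⁻¹ = x * f := by rw [hf]; group
      calc t * (x * z⁻¹) * t⁻¹ = (t * x * t⁻¹) * (t * z⁻¹ * t⁻¹) := by group
        _ = x * f * z := by rw [h3, h2]
        _ = x * (z⁻¹ * z⁻¹) * z := by rw [hzz]
        _ = x * z⁻¹ := by group
    have h4 := mul_inv_eq_iff_eq_mul.mp h1
    exact h4.symm
  -- uniqueness
  have huniq : ∀ y₁ ∈ X ⊓ Subgroup.centralizer {t}, ∀ z₁ ∈ invertedBy X t,
      ∀ y₂ ∈ X ⊓ Subgroup.centralizer {t}, ∀ z₂ ∈ invertedBy X t,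
      y₁ * z₁ = y₂ * z₂ → y₁ = y₂ ∧ z₁ = z₂ := by
    intro y₁ hy₁ z₁ hz₁ y₂ hy₂ z₂ hz₂ h
    have key : ∀ y ∈ X ⊓ Subgroup.centralizer {t}, ∀ z ∈ invertedBy X t,
        (y * z)⁻¹ * (t * (y * z) * t⁻¹) = z⁻¹ * z⁻¹ := by
      intro y hy z hz
      have h1 : y * t = t * y := (hC y).mp hy.2
      have h2 : t * (y * z) * t⁻¹ = y * (t * z * t⁻¹) := by
        rw [← mul_assoc t y, ← h1]; group
      rw [h2, hz.2]
      group
    have h1 := key y₁ hy₁ z₁ hz₁
    have h2 := key y₂ hy₂ z₂ hz₂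
    rw [h, h2] at h1
    have h3 : z₁⁻¹ = z₂⁻¹ := by
      rw [← hsq z₁⁻¹ (X.inv_mem hz₁.1), ← hsq z₂⁻¹ (X.inv_mem hz₂.1), h1]
    have h4 : z₁ = z₂ := inv_injective h3
    subst h4
    exact ⟨mul_right_cancel h, rfl⟩
  refine ⟨?_, ?_, ?_⟩
  · intro x hx
    obtain ⟨y, hy, z, hz, rfl⟩ := hex x hx
    refine ⟨(y, z), ⟨hy, hz, rfl⟩, ?_⟩
    rintro ⟨y', z'⟩ ⟨hy', hz', h⟩
    simp only at hy' hz' h
    obtain ⟨rfl, rfl⟩ := huniq _ hy _ hz _ hy' _ hz' h
    rfl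
  · let φ : ↥(X ⊓ Subgroup.centralizer {t}) × invertedBy X t → X :=
      fun p => ⟨p.1.1 * p.2.1, X.mul_mem p.1.2.1 p.2.2.1⟩
    have hinj : Function.Injective φ := by
      rintro ⟨⟨y₁, hy₁⟩, ⟨z₁, hz₁⟩⟩ ⟨⟨y₂, hy₂⟩, ⟨z₂, hz₂⟩⟩ h
      have h1 : y₁ * z₁ = y₂ * z₂ := congrArg Subtype.val h
      obtain ⟨rfl, rfl⟩ := huniq _ hy₁ _ hz₁ _ hy₂ _ hz₂ h1
      rfl
    have hsurj : Function.Surjective φ := by
      rintro ⟨x, hx⟩
      obtain ⟨y, hy, z, hz, rfl⟩ := hex x hx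
      exact ⟨(⟨y, hy⟩, ⟨z, hz⟩), rfl⟩
    rw [← Nat.card_prod]
    exact (Nat.card_congr (Equiv.ofBijective φ ⟨hinj, hsurj⟩)).symm
  · set N := Subgroup.closure (invertedBy X t) with hN
    have hyN : ∀ y ∈ X ⊓ Subgroup.centralizer {t}, ∀ g ∈ N, y * g * y⁻¹ ∈ N := by
      intro y hy g hg
      have h1 : y * t = t * y := (hC y).mp hy.2
      induction hg using Subgroup.closure_induction with
      | mem g hg =>
        apply Subgroup.subset_closure
        refine ⟨X.mul_mem (X.mul_mem hy.1 hg.1) (X.inv_mem hy.1), ?_⟩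
        have h2 : t * (y * g * y⁻¹) * t⁻¹ = y * (t * g * t⁻¹) * y⁻¹ := by
          have h3 : t * y = y * t := h1.symm
          have h4 : y⁻¹ * t⁻¹ = t⁻¹ * y⁻¹ := by
            rw [← mul_inv_rev, ← mul_inv_rev, h3]
          calc t * (y * g * y⁻¹) * t⁻¹ = (t * y) * g * (y⁻¹ * t⁻¹) := by group
            _ = (y * t) * g * (t⁻¹ * y⁻¹) := by rw [h3, h4]
            _ = y * (t * g * t⁻¹) * y⁻¹ := by group
        rw [h2, hg.2]
        group
      | one => simp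
      | mul a b _ _ ha hb =>
        have : y * (a * b) * y⁻¹ = (y * a * y⁻¹) * (y * b * y⁻¹) := by group
        rw [this]
        exact N.mul_mem ha hb
      | inv a _ ha =>
        have : y * a⁻¹ * y⁻¹ = (y * a * y⁻¹)⁻¹ := by group
        rw [this]
        exact N.inv_mem ha
    have hxN : ∀ x ∈ X, ∀ g ∈ N, x * g * x⁻¹ ∈ N := by
      intro x hx g hg
      obtain ⟨y, hy, z, hz, rfl⟩ := hex x hx
      have hzN : z ∈ N := Subgroup.subset_closure hz
      have h1 : z * g * z⁻¹ ∈ N := N.mul_mem (N.mul_mem hzN hg) (N.inv_mem hzN)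
      have h2 := hyN y hy _ h1
      have h3 : y * z * g * (y * z)⁻¹ = y * (z * g * z⁻¹) * y⁻¹ := by group
      rw [h3]
      exact h2
    intro x hx
    ext g
    rw [Subgroup.mem_pointwise_smul_iff_inv_smul_mem]
    simp only [MulAut.smul_def, map_inv, MulAut.conj_inv_apply]
    constructor
    · intro h
      have h1 := hxN x hx _ h
      have h2 : x * (x⁻¹ * g * x) * x⁻¹ = g := by group
      rwa [h2] at h1
    · intro h
      have h1 := hxN x⁻¹ (X.inv_mem hx) _ h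
      have h2 : x⁻¹ * g * x⁻¹⁻¹ = x⁻¹ * g * x := by group
      rwa [h2] at h1

end Cfsg.Agent.S1124
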