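import Cfsg.Statements.S1125
import Cfsg.Agent.Lib.RankOne.Fix

set_option autoImplicit false
open Cfsg

namespace Cfsg.Agent.S1125

open MulAction Cfsg.Agent.Lib.RankOne.Setup
open Cfsg.Agent.Lib.RankOne


/-- In the rank-one set-up (`G` finite and doubly transitive on `Ω`, `t` an involution moving `a`, `Q` normal in `G_a` with `G_a = Q D`, `Q ⊓ D = 1` for the two-point stabiliser `D = G_a ⊓ G_{t • a}`, `|Q|` even, `|D|` odd), let `X ⊆ D` fix at least three points of `Ω`. Then `C_G(X)` is doubly transitive on the fixed-point set of `X`, `|C_Q(X)|` is even, and `C_{G_a}(X) = C_Q(X) C_D(X)`. -/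
theorem result {G Ω : Type*} [Group G] [Finite G] [MulAction G Ω] {a : Ω} {t : G} {Q : Subgroup G}
    (hS : Cfsg.IsRankOneSetup G Ω a t Q)
    (X : Set G) (hX : X ⊆ ((MulAction.stabilizer G a ⊓ MulAction.stabilizer G (t • a)) : Set G))
    (h3 : ∃ b c d : Ω, b ≠ c ∧ b ≠ d ∧ c ≠ d ∧ ∀ x ∈ X, x • b = b ∧ x • c = c ∧ x • d = d) :
    (∀ b₁ b₂ c₁ c₂ : Ω, (∀ x ∈ X, x • b₁ = b₁ ∧ x • b₂ = b₂ ∧ x • c₁ = c₁ ∧ x • c₂ = c₂) →
        b₁ ≠ b₂ → c₁ ≠ c₂ → ∃ g ∈ Subgroup.centralizer X, g • b₁ = c₁ ∧ g • b₂ = c₂) ∧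
      Even (Nat.card ↥(Subgroup.centralizer X ⊓ Q)) ∧
      (Subgroup.centralizer X ⊓ Q) ⊔ (Subgroup.centralizer X ⊓ (MulAction.stabilizer G a ⊓ MulAction.stabilizer G (t • a))) = Subgroup.centralizer X ⊓ MulAction.stabilizer G a := by
  refine ⟨?_, even_centr hS hX h3, ?_⟩
  · intro b₁ b₂ c₁ c₂ hfix hb hc
    exact two_trans_centr hS hX h3 hfix hb hc
  · apply le_antisymm
    · refine sup_le ?_ ?_
      · exact inf_le_inf_left _ hS.le
      · exact inf_le_inf_left _ inf_le_left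
    · rintro g ⟨hgC, hga⟩
      have hfixg : ∀ x ∈ X, x • (g • t • a) = g • t • a := by
        intro x hx
        have h1 : x • t • a = t • a := (hX hx).2
        rw [← mul_smul, Subgroup.mem_centralizer_iff.mp hgC x hx, mul_smul, h1]
      have hne : g • t • a ≠ a := by
        intro h
        have h1 : g • a = a := hga
        exact t_ne hS (smul_left_cancel g (h.trans h1.symm))
      obtain ⟨r, hr, hrb, hrc⟩ := centr_Q hS hX hfixg hne
      have hrC : r ∈ Subgroup.centralizer X := Subgroup.mem_centralizer_iff.mpr hrc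
      have hg : g = r * (r⁻¹ * g) := by group
      rw [hg]
      refine Subgroup.mul_mem _ (Subgroup.mem_sup_left ⟨hrC, hr⟩) (Subgroup.mem_sup_right ⟨?_, ?_, ?_⟩)
      · exact Subgroup.mul_mem _ (Subgroup.inv_mem _ hrC) hgC
      · show (r⁻¹ * g) • a = a
        have h1 : g • a = a := hga
        have h2 : r⁻¹ • a = a := Subgroup.inv_mem _ (hS.le hr)
        rw [mul_smul, h1, h2]
      · show (r⁻¹ * g) • t • a = t • a
        rw [mul_smul, inv_smul_eq_iff, hrb]

end Cfsg.Agent.S1125
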