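import Cfsg.Statements.S1151
import Cfsg.Agent.Lib.Ree.Act

set_option autoImplicit false
open Cfsg

namespace Cfsg.Agent.S1151


open Cfsg.Agent.Lib.Chev Cfsg.Agent.Lib.Chev.TwG2 Cfsg.Agent.Lib.Ree in
/-- The number of elements of odd order of the multiplicative group. -/
theorem card_odd {K : Type*} [Field K] [Fintype K] {m : ℕ} (hK : Fintype.card K = 3 ^ (2 * m + 1)) :
    2 * Nat.card {u : Kˣ // Odd (orderOf u)} = 3 ^ (2 * m + 1) - 1 := by
  classical
  have hmod : 3 ^ (2 * m + 1) % 4 = 3 := by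
    rw [pow_succ, pow_mul]
    norm_num [Nat.mul_mod, Nat.pow_mod]
  obtain ⟨k, hk⟩ : ∃ k, 3 ^ (2 * m + 1) - 1 = 2 * k := ⟨(3 ^ (2 * m + 1) - 1) / 2, by omega⟩
  have hkodd : Odd k := by
    rw [← Nat.not_even_iff_odd]
    rintro ⟨j, hj⟩
    omega
  have hcard : Nat.card Kˣ = 2 * k := by
    rw [Nat.card_units, Nat.card_eq_fintype_card, hK, hk]
  have hiff : ∀ u : Kˣ, Odd (orderOf u) ↔ u ∈ (powMonoidHom k : Kˣ →* Kˣ).ker := by
    intro u
    rw [MonoidHom.mem_ker, powMonoidHom_apply, ← orderOf_dvd_iff_pow_eq_one]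
    constructor
    · intro h
      have h1 : orderOf u ∣ 2 * k := by
        rw [← hcard]
        exact orderOf_dvd_natCard u
      have h2 : Nat.Coprime (orderOf u) 2 := by
        rw [Nat.coprime_comm]
        exact Nat.coprime_two_left.mpr h
      exact h2.dvd_of_dvd_mul_left h1
    · intro h
      exact Odd.of_dvd_nat hkodd h
  have e : Nat.card {u : Kˣ // Odd (orderOf u)} = Nat.card (powMonoidHom k : Kˣ →* Kˣ).ker :=
    Nat.card_congr (Equiv.subtypeEquivRight hiff)
  rw [e, IsCyclic.card_powMonoidHom_ker, hcard, hk]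
  have : Nat.gcd (2 * k) k = k := Nat.gcd_mul_left_left 2 k
  rw [this]


/-- In the small Ree group ²G₂(q), q = 3^(2m+1), realised as G¹ inside the Chevalley group G₂ over the field with q elements (θ the 3^m-th power map), with H¹ = G¹ ∩ H and U¹ = G¹ ∩ U the intersections with the ambient diagonal and positive unipotent subgroups: `H¹` has exactly `(q - 1)/2` elements of odd order, and each non-identity one centralises no non-identity element of `U¹`. -/
theorem result {K : Type*} [Field K] [Fintype K] {m : ℕ} (hK : Fintype.card K = 3 ^ (2 * m + 1)) :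
    2 * Nat.card {h : ↥(Cfsg.Lie.chevG2.diagonalSubgroup K ⊓ Cfsg.Lie.twistedG2 K (3 ^ m)) // Odd (orderOf h)} = 3 ^ (2 * m + 1) - 1 ∧
      ∀ h ∈ (Cfsg.Lie.chevG2.diagonalSubgroup K ⊓ Cfsg.Lie.twistedG2 K (3 ^ m)), h ≠ 1 → Odd (orderOf h) →
        (Cfsg.Lie.chevG2.posUnipotent K ⊓ Cfsg.Lie.twistedG2 K (3 ^ m)) ⊓ Subgroup.centralizer {h} = ⊥ := by
  open Cfsg.Agent.Lib.Chev Cfsg.Agent.Lib.Chev.TwG2 Cfsg.Agent.Lib.Chev.TabG2 Cfsg.Agent.Lib.Ree in
  have h3 : Nat.Prime 3 := Nat.prime_three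
  have hn : 2 * m + 1 ≠ 0 := by omega
  have := charP_of_card h3 hn hK
  obtain ⟨f, hf⟩ := frobP h3 hn hK m
  have hf3 := frob_sq hK f hf
  have hc : ringChar K ≠ 2 := by
    rw [ringChar.eq K 3]
    norm_num
  have hsq := sq_or_neg hK hc
  rw [← AA_eq f hf3 hf]
  constructor
  · rw [H1_eq f hf3 hsq, ← card_odd hK]
    congr 1
    let e := MonoidHom.ofInjective (gc_inj f)
    exact (Nat.card_congr (e.toEquiv.subtypeEquiv (fun u => by
      rw [show orderOf (e.toEquiv u) = orderOf u from MulEquiv.orderOf_eq e u]))).symm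
  · intro h hH hne hodd
    rw [H1_eq f hf3 hsq] at hH
    obtain ⟨u, rfl⟩ := hH
    have hinj := gc_inj f
    rw [orderOf_injective _ hinj] at hodd
    have hu : (u : K) ^ 2 ≠ 1 := by
      intro h2
      have h4 : u ^ 2 = 1 := Units.ext (by simpa using h2)
      have h5 : orderOf u ∣ 2 := orderOf_dvd_of_pow_eq_one h4
      have h6 : orderOf u = 1 := by
        have h7 : Nat.Coprime (orderOf u) 2 := by
          rw [Nat.coprime_comm]
          exact Nat.coprime_two_left.mpr hodd
        exact Nat.Coprime.eq_one_of_dvd h7 h5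
      rw [orderOf_eq_one_iff] at h6
      exact hne (by rw [h6, map_one])
    rw [eq_bot_iff]
    rintro x ⟨⟨hx1, hx2⟩, hx3⟩
    rw [Subgroup.mem_bot]
    obtain ⟨a, b, c, rfl⟩ := (U_A_iff f hf3).mp ⟨hx1, hx2⟩
    have h4 : good3.toGood2.torusHom (gc f u) * WW f a b c = WW f a b c * good3.toGood2.torusHom (gc f u) :=
      (Subgroup.mem_centralizer_iff.mp hx3 _ rfl)
    have h5 := WW_conj f hf3 u a b c
    have h6 : good3.toGood2.torusHom (gc f u) * WW f a b c * (good3.toGood2.torusHom (gc f u))⁻¹ = WW f a b c := by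
      rw [h4]
      group
    rw [h6] at h5
    obtain ⟨e1, e2, e3⟩ := WW_inj f h5
    have k1 := chi1 f hf3 hu
    have k2 := chi2 f hf3 hu
    have k3 := chi3 f hf3 hu
    have a0 : a = 0 := by
      have : ((u : K)⁻¹ ^ 3 * f (u : K) ^ 6 - 1) * a = 0 := by linear_combination -e1
      exact (mul_eq_zero.mp this).resolve_left (sub_ne_zero.mpr k1)
    have b0 : b = 0 := by
      have : ((u : K) ^ 3 * (f (u : K))⁻¹ ^ 3 - 1) * b = 0 := by linear_combination -e2
      exact (mul_eq_zero.mp this).resolve_left (sub_ne_zero.mpr k2)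
    have c0 : c = 0 := by
      have : (f (u : K) ^ 3 - 1) * c = 0 := by linear_combination -e3
      exact (mul_eq_zero.mp this).resolve_left (sub_ne_zero.mpr k3)
    rw [a0, b0, c0]
    exact WW_zero_val f

end Cfsg.Agent.S1151
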