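import Cfsg.Statements.S1152
import Cfsg.Agent.Lib.Ree.QE
import Cfsg.Agent.Lib.Ree.RLI

set_option autoImplicit false
open Cfsg

namespace Cfsg.Agent.S1152




/-- In the small Ree group ²G₂(q), q = 3^(2m+1), realised as G¹ inside the Chevalley group G₂ over the field with q elements (θ the 3^m-th power map), with H¹ = G¹ ∩ H and U¹ = G¹ ∩ U the intersections with the ambient diagonal and positive unipotent subgroups: for an involution `a ∈ H¹`, the centraliser of `a` in `G¹` is isomorphic to `Z₂ × PSL₂(q)`; and the Sylow 2-subgroups of `G¹` are elementary abelian of order 8. -/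
theorem result {K : Type*} [Field K] [Fintype K] {m : ℕ} (hK : Fintype.card K = 3 ^ (2 * m + 1))
    (a : ↥(Cfsg.Lie.twistedG2 K (3 ^ m))) (haH : (a : GL Cfsg.Lie.chevG2.Idx K) ∈ Cfsg.Lie.chevG2.diagonalSubgroup K) (ha1 : a ≠ 1) (ha2 : a * a = 1) :
    Nonempty (↥(Subgroup.centralizer {a}) ≃* Multiplicative (ZMod 2) × Matrix.ProjectiveSpecialLinearGroup (Fin 2) K) ∧
      ∀ S : Sylow 2 ↥(Cfsg.Lie.twistedG2 K (3 ^ m)), Nat.card S = 8 ∧ ∀ x ∈ S, x * x = 1 := by
  open Cfsg.Agent.Lib.Chev Cfsg.Agent.Lib.Chev.TwG2 Cfsg.Agent.Lib.Ree in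
  have h3 : Nat.Prime 3 := Nat.prime_three
  have hn : 2 * m + 1 ≠ 0 := by omega
  have := charP_of_card h3 hn hK
  obtain ⟨f, hf⟩ := frobP h3 hn hK m
  have hf3 := frob_sq hK f hf
  have hc : ringChar K ≠ 2 := by rw [ringChar.eq K 3]; norm_num
  have hsq := sq_or_neg hK hc
  revert a
  rw [← AA_eq f hf3 hf]
  intro a haH ha1 ha2
  have hG := card_G f hf3 hK hc
  haveI : Finite ↥((TT f).AA JJ) := Nat.finite_of_card_ne_zero (by
    rw [hG, hK]
    have h1 : 0 < (3 ^ (2 * m + 1)) - 1 := by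
      have : 3 ^ 1 ≤ 3 ^ (2 * m + 1) := Nat.pow_le_pow_right (by norm_num) (by omega)
      omega
    positivity)
  have hmod : Nat.card ↥((TT f).AA JJ) % 16 = 8 := by
    rw [hG, hK]
    exact card_mod
  set L := rl f hf3 hsq with hL
  constructor
  · obtain ⟨s, hs⟩ := (rd_mem_H f hf3 hsq a).mp haH
    have hs2 : s * s = 1 := by
      apply (rd f hf3 hsq).h_inj
      rw [map_mul, ← hs, ha2, map_one]
    have hs3 : (s : K) ^ 2 = 1 := by
      rw [pow_two, ← Units.val_mul, hs2, Units.val_one]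
    rcases RD.units_sq hs3 with rfl | rfl
    · exact absurd (by rw [hs, map_one]) ha1
    · rw [hs]
      exact ⟨(L.centEquiv hsq).symm⟩
  · intro S
    exact ⟨sylow_card_of_mod hmod S, fun x hx => L.sylow_sq hmod S hx⟩

end Cfsg.Agent.S1152
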