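import Cfsg.Statements.S3371
import Cfsg.Agent.Lib.Recog.HalfDS2
import Cfsg.Agent.Lib.Recog.HalfTwo
import Cfsg.Agent.Lib.TwoGroups.Klein

set_option autoImplicit false
open Cfsg

namespace Cfsg.Agent.S3371

open Cfsg.Agent.Lib.Recog Cfsg.Agent.S3380

/-- Imprimitive block systems for half-transitive groups have exactly two blocks. -/
theorem half_blocks {q : ℕ} [Fact q.Prime] {V : Type*} [AddCommGroup V] [Module (ZMod q) V] [Finite V] [Nontrivial V]
    {G : Type*} [Group G] [Finite G] {p : ℕ} [Fact p.Prime]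
    (ρ : G →* (V ≃ₗ[ZMod q] V)) (hρ : Function.Injective ρ)
    (hstab : ∀ v w : V, v ≠ 0 → w ≠ 0 → Nat.card (fixSub ρ v) = Nat.card (fixSub ρ w))
    (H : Subgroup G) (W : Fin p → Submodule (ZMod q) V) (hindex : H.index = p)
    (hsup : iSup W = ⊤) (hind : iSupIndep W)
    (hinv : ∀ h ∈ H, ∀ i, ∀ w ∈ W i, ρ h w ∈ W i)
    (hker : ∀ i, ∃ h ∈ H, h ≠ 1 ∧ ∀ w ∈ W i, ρ h w = w)
    (hperm : ∀ g : G, g ∉ H → ∃ σ : Equiv.Perm (Fin p), orderOf σ = p ∧
      ∀ i, (W i).map (ρ g : V →ₗ[ZMod q] V) = W (σ i)) : p = 2 := by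
  classical
  by_contra hp2
  have hpp : p.Prime := Fact.out
  have hpodd : Odd p := hpp.odd_of_ne_two hp2
  have hp3 : 3 ≤ p := by
    have := hpp.two_le
    omega
  have hmemsup : ∀ k l : Fin p, l ≠ k → ∀ x ∈ W l, x ∈ ⨆ (j : Fin p) (_ : j ≠ k), W j := by
    intro k l hlk x hx
    exact (le_iSup₂_of_le (f := fun (j : Fin p) (_ : j ≠ k) => W j) l hlk le_rfl) hx
  have hsep : ∀ k : Fin p, ∀ a ∈ W k, ∀ b ∈ ⨆ (j : Fin p) (_ : j ≠ k), W j, a + b = 0 → a = 0 := by
    intro k a ha b hb h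
    have h1 := (iSupIndep_def.1 hind) k
    rw [Submodule.disjoint_def] at h1
    apply h1 a ha
    have h2 : a = -b := eq_neg_of_add_eq_zero_left h
    rw [h2]
    exact Submodule.neg_mem _ hb
  -- permutation facts
  have hσfacts : ∀ σ : Equiv.Perm (Fin p), orderOf σ = p →
      σ.IsCycle ∧ (∀ i, σ i ≠ i) ∧ (∀ i, σ (σ i) ≠ i) := by
    intro σ hσ
    have hc : σ.IsCycle := by
      apply Equiv.Perm.isCycle_of_prime_order'
      · rw [hσ]; exact hpp
      · rw [hσ, Fintype.card_fin]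
        omega
    have hsupp : σ.support = Finset.univ := by
      apply Finset.eq_univ_of_card
      rw [Fintype.card_fin, ← hc.orderOf, hσ]
    have h1 : ∀ i, σ i ≠ i := by
      intro i
      have : i ∈ σ.support := by rw [hsupp]; exact Finset.mem_univ _
      exact Equiv.Perm.mem_support.1 this
    refine ⟨hc, h1, fun i h => h1 i ?_⟩
    have h2 : (σ ^ 2) i = i := by
      rw [pow_two]
      exact h
    have h3 : ((σ ^ 2) ^ ((p + 1) / 2)) i = i := Equiv.Perm.pow_apply_eq_self_of_apply_eq_self h2 _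
    have h4 : (σ ^ 2) ^ ((p + 1) / 2) = σ := by
      rw [← pow_mul]
      obtain ⟨k, hk⟩ := hpodd
      have : 2 * ((p + 1) / 2) = p + 1 := by omega
      have hσp : σ ^ p = 1 := by
        have h5 := pow_orderOf_eq_one σ
        rwa [hσ] at h5
      rw [this, pow_succ, hσp, one_mul]
    rwa [h4] at h3
  obtain ⟨g₁, hg₁⟩ : ∃ g, g ∉ H := by
    by_contra hcon
    push Not at hcon
    have : H = ⊤ := by
      rw [eq_top_iff]
      intro g _
      exact hcon g
    rw [this, Subgroup.index_top] at hindex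
    omega
  -- all blocks are nonzero
  have hmem_map : ∀ (g : G) (σ : Equiv.Perm (Fin p)),
      (∀ i, (W i).map (ρ g : V →ₗ[ZMod q] V) = W (σ i)) → ∀ i, ∀ x ∈ W i, ρ g x ∈ W (σ i) := by
    intro g σ h i x hx
    rw [← h i]
    exact Submodule.mem_map_of_mem (f := ((ρ g : V ≃ₗ[ZMod q] V) : V →ₗ[ZMod q] V)) hx
  have hne : ∀ i, W i ≠ ⊥ := by
    obtain ⟨σ, hσ, hσW⟩ := hperm g₁ hg₁
    obtain ⟨hc, h1, _⟩ := hσfacts σ hσ
    obtain ⟨i₀, hi₀⟩ : ∃ i₀, W i₀ ≠ ⊥ := by
      by_contra hcon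
      push Not at hcon
      have h2 : iSup W = ⊥ := by
        rw [eq_bot_iff]
        exact iSup_le fun i => (hcon i).le
      rw [h2] at hsup
      exact bot_ne_top hsup
    have hstep : ∀ i, W i ≠ ⊥ → W (σ i) ≠ ⊥ := by
      intro i hi
      obtain ⟨x, hx, hx0⟩ := Submodule.exists_mem_ne_zero_of_ne_bot hi
      intro h
      have h2 := hmem_map g₁ σ hσW i x hx
      rw [h, Submodule.mem_bot] at h2
      exact hx0 (((ρ g₁).map_eq_zero_iff).1 h2)
    have hall : ∀ k : ℕ, W ((σ ^ k) i₀) ≠ ⊥ := by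
      intro k
      induction k with
      | zero => simpa using hi₀
      | succ k ih =>
        rw [pow_succ', Equiv.Perm.mul_apply]
        exact hstep _ ih
    intro j
    obtain ⟨k, hk⟩ := hc.exists_pow_eq (h1 i₀) (h1 j)
    rw [← hk]
    exact hall k
  -- stabilizers agree across blocks
  have hfix : ∀ i j : Fin p, i ≠ j → ∀ a ∈ W i, ∀ b ∈ W j, a ≠ 0 → b ≠ 0 → fixSub ρ a = fixSub ρ b := by
    intro i j hij a ha b hb ha0 hb0
    have hab0 : a + b ≠ 0 := fun h => ha0 (hsep i a ha b (hmemsup i j hij.symm b hb) h)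
    have hsplit : ∀ h ∈ H, ρ h (a + b) = a + b → ρ h a = a ∧ ρ h b = b := by
      intro h hh he
      rw [map_add] at he
      have h1 : (ρ h a - a) + (ρ h b - b) = 0 := by
        rw [sub_add_sub_comm, he, sub_self]
      have h2 := hsep i _ ((W i).sub_mem (hinv h hh i a ha) ha) _
        (hmemsup i j hij.symm _ ((W j).sub_mem (hinv h hh j b hb) hb)) h1
      have h3 : ρ h a = a := sub_eq_zero.1 h2
      refine ⟨h3, ?_⟩
      rw [h3] at he
      exact add_left_cancel he
    have hle : fixSub ρ (a + b) ≤ H := by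
      intro g hg
      by_contra hgH
      obtain ⟨σ, hσ, hσW⟩ := hperm g hgH
      obtain ⟨_, h1, h2⟩ := hσfacts σ hσ
      have he : ρ g a + ρ g b = a + b := by
        have : ρ g (a + b) = a + b := hg
        rwa [map_add] at this
      have hga := hmem_map g σ hσW i a ha
      have hgb := hmem_map g σ hσW j b hb
      by_cases hc : σ i = j
      · -- the component in `W (σ j)`
        have h3 : ρ g b + (ρ g a - a - b) = 0 := by
          have : ρ g b + (ρ g a - a - b) = (ρ g a + ρ g b) - (a + b) := by abel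
          rw [this, he, sub_self]
        have h4 : ρ g a - a - b ∈ ⨆ (l : Fin p) (_ : l ≠ σ j), W l := by
          refine Submodule.sub_mem _ (Submodule.sub_mem _ ?_ ?_) ?_
          · apply hmemsup (σ j) (σ i) _ _ hga
            rw [hc]
            exact (h1 j).symm
          · apply hmemsup (σ j) i _ _ ha
            rw [← hc]
            exact (h2 i).symm
          · exact hmemsup (σ j) j (h1 j).symm _ hb
        have h5 := hsep (σ j) _ hgb _ h4 h3
        exact hb0 (((ρ g).map_eq_zero_iff).1 h5)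
      · have h3 : ρ g a + (ρ g b - a - b) = 0 := by
          have : ρ g a + (ρ g b - a - b) = (ρ g a + ρ g b) - (a + b) := by abel
          rw [this, he, sub_self]
        have h4 : ρ g b - a - b ∈ ⨆ (l : Fin p) (_ : l ≠ σ i), W l := by
          refine Submodule.sub_mem _ (Submodule.sub_mem _ ?_ ?_) ?_
          · apply hmemsup (σ i) (σ j) _ _ hgb
            exact fun h => hij (σ.injective h).symm
          · exact hmemsup (σ i) i (h1 i).symm _ ha
          · exact hmemsup (σ i) j (fun h => hc h.symm) _ hb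
        have h5 := hsep (σ i) _ hga _ h4 h3
        exact ha0 (((ρ g).map_eq_zero_iff).1 h5)
    have h1 : fixSub ρ (a + b) = fixSub ρ a :=
      Subgroup.eq_of_le_of_card_ge (fun g hg => (hsplit g (hle hg) hg).1) (hstab _ _ ha0 hab0).le
    have h2 : fixSub ρ (a + b) = fixSub ρ b :=
      Subgroup.eq_of_le_of_card_ge (fun g hg => (hsplit g (hle hg) hg).2) (hstab _ _ hb0 hab0).le
    exact h1.symm.trans h2
  -- conclusion
  let i₀ : Fin p := ⟨0, hpp.pos⟩
  obtain ⟨h₀, _, hh₀1, hh₀⟩ := hker i₀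
  obtain ⟨a₀, ha₀, ha₀0⟩ := Submodule.exists_mem_ne_zero_of_ne_bot (hne i₀)
  apply hh₀1
  apply hρ
  rw [map_one]
  have hall : ∀ j, W j ≤ LinearMap.ker (((ρ h₀ : V ≃ₗ[ZMod q] V) : V →ₗ[ZMod q] V) - LinearMap.id) := by
    intro j x hx
    rw [LinearMap.mem_ker]
    show ρ h₀ x - x = 0
    rw [sub_eq_zero]
    by_cases hj : j = i₀
    · subst hj
      exact hh₀ x hx
    · by_cases hx0 : x = 0
      · rw [hx0]; exact map_zero _
      · have h1 := hfix i₀ j (Ne.symm hj) a₀ ha₀ x hx ha₀0 hx0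
        have h2 : h₀ ∈ fixSub ρ a₀ := hh₀ a₀ ha₀
        rw [h1] at h2
        exact h2
  have htop : (⊤ : Submodule (ZMod q) V) ≤ LinearMap.ker (((ρ h₀ : V ≃ₗ[ZMod q] V) : V →ₗ[ZMod q] V) - LinearMap.id) := by
    rw [← hsup]
    exact iSup_le hall
  ext v
  have := htop (Submodule.mem_top (x := v))
  rw [LinearMap.mem_ker] at this
  have h3 : ρ h₀ v - v = 0 := this
  simpa using sub_eq_zero.1 h3

/-- In a group isomorphic to a generalized quaternion group there is a unique subgroup of order two. -/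
theorem uniqueP_of_quat {G : Type*} [Group G] [Finite G] {n : ℕ} (E : G ≃* QuaternionGroup n) :
    Cfsg.Agent.Lib.OddLocal.UniqueP 2 G := by
  classical
  have hn : n ≠ 0 := by
    rintro rfl
    haveI : Finite (QuaternionGroup 0) := Finite.of_equiv G E.toEquiv
    have hinj : Function.Injective (fun z : ℤ => (@QuaternionGroup.a 0 z : QuaternionGroup 0)) := by
      intro x y h
      exact QuaternionGroup.a.inj h
    haveI : Finite ℤ := Finite.of_injective _ hinj
    exact not_finite ℤ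
  haveI : NeZero n := ⟨hn⟩
  let u : G := E.symm (QuaternionGroup.a ((n : ℕ) : ZMod (2 * n)))
  have key : ∀ H : Subgroup G, Nat.card H = 2 → H = Subgroup.zpowers u := by
    intro H hH
    haveI : Nontrivial H := by
      rw [← Finite.one_lt_card_iff_nontrivial, hH]
      norm_num
    obtain ⟨⟨t, ht⟩, ht1⟩ := exists_ne (1 : H)
    have ht1' : t ≠ 1 := fun h => ht1 (Subtype.ext h)
    have htt : t * t = 1 := by
      have h1 : (⟨t, ht⟩ : H) ^ 2 = 1 := by
        rw [← hH]
        exact pow_card_eq_one'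
      have h2 := congrArg Subtype.val h1
      simpa [pow_two] using h2
    have hE : E t * E t = 1 := by
      rw [← map_mul, htt, map_one]
    have htu : t = u := by
      rcases Cfsg.Agent.Lib.TwoGroups.quat_involution hE with h | h
      · exfalso
        apply ht1'
        apply E.injective
        rw [h, map_one]
      · apply E.injective
        rw [h]
        simp [u]
    have hord : orderOf t = 2 := orderOf_eq_prime (by rw [pow_two, htt]) ht1'
    symm
    refine Subgroup.eq_of_le_of_card_ge ?_ ?_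
    · rw [Subgroup.zpowers_le, ← htu]
      exact ht
    · rw [Nat.card_zpowers, ← htu, hord, hH]
  intro H K hH hK
  rw [key H hH, key K hK]


/-- Let q be a prime, V a non-trivial finite vector space over the field with q elements, and G a finite p-group (p prime) acting faithfully and linearly on V such that all G-orbits on the non-zero vectors have the same size. Then one of the following holds: G is cyclic or generalized quaternion and acts semiregularly on the non-zero vectors; or V has q² elements with q = 2^m − 1 and G is dihedral of order 2^(m+1) or semidihedral of order 2^(m+2); or V has q² elements with q = 2^m + 1 and, in suitable coordinates V = F_q², G is exactly the group of maps (x, y) ↦ (a x, ± a⁻¹ y) and (x, y) ↦ (± a⁻¹ y, a x) with a ≠ 0; or V has 81 elements (q = 3) and G is a 2-group. -/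
theorem result (q : ℕ) [Fact q.Prime] {V : Type*} [AddCommGroup V] [Module (ZMod q) V] [Finite V] [Nontrivial V]
    {G : Type*} [Group G] [Finite G] (p : ℕ) [Fact p.Prime] (hG : IsPGroup p G)
    (ρ : G →* (V ≃ₗ[ZMod q] V)) (hρ : Function.Injective ρ)
    (hhalf : ∀ v w : V, v ≠ 0 → w ≠ 0 → Nat.card {u : V | ∃ g : G, ρ g v = u} = Nat.card {u : V | ∃ g : G, ρ g w = u}) :
    ((IsCyclic G ∨ ∃ n : ℕ, Nonempty (G ≃* QuaternionGroup n)) ∧ ∀ v : V, v ≠ 0 → ∀ g : G, ρ g v = v → g = 1) ∨
    (Nat.card V = q ^ 2 ∧ ∃ m : ℕ, q = 2 ^ m - 1 ∧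
      (Nonempty (G ≃* DihedralGroup (2 ^ m)) ∨ (Cfsg.IsQuasiDihedral G ∧ Nat.card G = 2 ^ (m + 2)))) ∨
    (Nat.card V = q ^ 2 ∧ (∃ m : ℕ, q = 2 ^ m + 1) ∧
      ∃ e : V ≃ₗ[ZMod q] (Fin 2 → ZMod q), ∀ f : (Fin 2 → ZMod q) ≃ₗ[ZMod q] (Fin 2 → ZMod q),
        (∃ g : G, f = e.symm.trans ((ρ g).trans e)) ↔
        ∃ a s : ZMod q, a ≠ 0 ∧ (s = 1 ∨ s = -1) ∧
          ((∀ v, f v = ![a * v 0, s * a⁻¹ * v 1]) ∨ (∀ v, f v = ![s * a⁻¹ * v 1, a * v 0]))) ∨
    (Nat.card V = 81 ∧ q = 3 ∧ p = 2) := by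
  classical
  have hpp : p.Prime := Fact.out
  have hstab : ∀ v w : V, v ≠ 0 → w ≠ 0 → Nat.card (fixSub ρ v) = Nat.card (fixSub ρ w) := by
    intro v w hv hw
    have h1 := orbit_card_mul ρ v
    have h2 := orbit_card_mul ρ w
    rw [hhalf v w hv hw] at h1
    rw [← h2] at h1
    have hpos : 0 < Nat.card {u : V | ∃ g : G, ρ g w = u} := by
      rw [Nat.card_pos_iff]
      exact ⟨⟨⟨w, 1, by simp⟩⟩, Set.toFinite _⟩
    exact Nat.eq_of_mul_eq_mul_left hpos h1
  by_cases hpq : (p : ZMod q) = 0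
  · -- characteristic `p`: the group is trivial
    left
    obtain ⟨v, hv, hfix⟩ := exists_fixed_vector q p hG ρ hpq
    have htop : fixSub ρ v = ⊤ := by
      rw [eq_top_iff]
      intro g _
      exact hfix g
    have hall : ∀ w : V, w ≠ 0 → fixSub ρ w = ⊤ := by
      intro w hw
      rw [eq_top_iff]
      have h1 := hstab v w hv hw
      rw [htop] at h1
      refine le_of_eq (Subgroup.eq_of_le_of_card_ge le_top (le_of_eq h1)).symm
    have h1 : ∀ g : G, g = 1 := by
      intro g
      apply hρ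
      rw [map_one]
      ext w
      by_cases hw : w = 0
      · rw [hw]; simp
      · have : g ∈ fixSub ρ w := by rw [hall w hw]; trivial
        exact this
    haveI : Subsingleton G := ⟨fun a b => (h1 a).trans (h1 b).symm⟩
    exact ⟨Or.inl inferInstance, fun _ _ g _ => h1 g⟩
  by_cases hsr : ∀ v : V, v ≠ 0 → ∀ g : G, ρ g v = v → g = 1
  · left
    exact ⟨cyclic_or_quat_of_semiregular ρ hG hpq hsr, hsr⟩
  right
  push Not at hsr
  obtain ⟨v₀, hv₀, g₀, hg₀, hg₀1⟩ := hsr
  have hnsr : ∃ v : V, v ≠ 0 ∧ ∃ g : G, g ≠ 1 ∧ ρ g v = v := ⟨v₀, hv₀, g₀, hg₀1, hg₀⟩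
  have hirr := irreducible_of_half ρ hG hρ hpq hstab hnsr
  have hnt : ∀ v : V, v ≠ 0 → ∃ g : G, g ≠ 1 ∧ ρ g v = v := by
    intro v hv
    by_contra hcon
    push Not at hcon
    have h1 : Nat.card (fixSub ρ v) = 1 := by
      rw [Nat.card_eq_one_iff_unique]
      refine ⟨⟨?_⟩, ⟨1⟩⟩
      rintro ⟨x, hx⟩ ⟨y, hy⟩
      apply Subtype.ext
      have hx1 : x = 1 := by
        by_contra h
        exact hcon x h hx
      have hy1 : y = 1 := by
        by_contra h
        exact hcon y h hy
      exact hx1.trans hy1.symm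
    have h2 := hstab v v₀ hv hv₀
    rw [h1, eq_comm, Nat.card_eq_one_iff_unique] at h2
    have h3 := h2.1.elim (⟨g₀, hg₀⟩ : fixSub ρ v₀) 1
    exact hg₀1 (congrArg Subtype.val h3)
  by_cases hE : ∃ E : Subgroup G, E.Normal ∧ (∀ a ∈ E, ∀ b ∈ E, a * b = b * a) ∧ (∀ e ∈ E, e ^ p = 1) ∧ Nat.card E = p ^ 2
  · -- imprimitive case
    obtain ⟨E, hEn, hEc, hEe, hEcard⟩ := hE
    obtain ⟨H, W, hindex, hsup, hind, hinv, hker, hperm⟩ :=
      core_of_normal_sq q p hG ρ hρ hirr E hEn hEc hEe hEcard hpq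
    have hp2 : p = 2 := half_blocks ρ hρ hstab H W hindex hsup hind hinv hker hperm
    subst hp2
    have hq2 : (2 : ZMod q) ≠ 0 := by exact_mod_cast hpq
    have hσ : ∀ g : G, g ∉ H → ∀ i, (W i).map (ρ g : V →ₗ[ZMod q] V) = W (i + 1) := by
      intro g hg i
      obtain ⟨σ, hσ, hσW⟩ := hperm g hg
      rw [hσW]
      congr 1
      have hne : σ ≠ 1 := by
        rintro rfl
        rw [orderOf_one] at hσ
        omega
      have h0 : ∀ σ : Equiv.Perm (Fin 2), σ ≠ 1 → ∀ j, σ j = j + 1 := by decide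
      exact h0 σ hne i
    have hmap : ∀ g : G, g ∉ H → ∀ i, ∀ x ∈ W i, ρ g x ∈ W (i + 1) := by
      intro g hg i x hx
      rw [← hσ g hg i]
      exact Submodule.mem_map_of_mem (f := ((ρ g : V ≃ₗ[ZMod q] V) : V →ₗ[ZMod q] V)) hx
    obtain ⟨g₁, hg₁⟩ : ∃ g, g ∉ H := by
      by_contra hcon
      push Not at hcon
      have : H = ⊤ := by
        rw [eq_top_iff]
        intro g _
        exact hcon g
      rw [this, Subgroup.index_top] at hindex
      omega
    have hcompl : IsCompl (W 0) (W 1) := by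
      constructor
      · exact hind.pairwiseDisjoint (by decide)
      · rw [codisjoint_iff, eq_top_iff, ← hsup]
        refine iSup_le fun i => ?_
        fin_cases i
        · exact le_sup_left
        · exact le_sup_right
    have hA0 : W 0 ≠ ⊥ := by
      intro h
      have h1 := hσ g₁ hg₁ 0
      rw [h, Submodule.map_bot] at h1
      have h2 : W 1 = ⊥ := h1.symm
      have h3 := hcompl.sup_eq_top
      rw [h, h2, sup_idem] at h3
      exact bot_ne_top h3
    have hB0 : W 1 ≠ ⊥ := by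
      intro h
      have h1 := hσ g₁ hg₁ 1
      rw [h, Submodule.map_bot] at h1
      have h2 : W 0 = ⊥ := h1.symm
      have h3 := hcompl.sup_eq_top
      rw [h, h2, sup_idem] at h3
      exact bot_ne_top h3
    rcases half_two ρ hG hρ hq2 hstab hirr H hindex (W 0) (W 1) hcompl
      (fun h hh a ha => hinv h hh 0 a ha) (fun h hh a ha => hinv h hh 1 a ha)
      (fun g hg a ha => hmap g hg 0 a ha) (fun g hg a ha => hmap g hg 1 a ha) (hker 0) hA0 hB0 with h | h
    · right; left
      exact ⟨h.1, h.2.1, h.2.2⟩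
    · right; right
      exact ⟨h.1, h.2, rfl⟩
  · push Not at hE
    have hn : ∀ A : Subgroup G, A.Normal → IsMulCommutative A → IsCyclic A := by
      intro A hA hAc
      by_contra hnc'
      obtain ⟨E, h1, h2, h3, h4⟩ := exists_normal_sq_of_abelian hG A hA hAc hnc'
      exact hE E h1 h2 h3 h4
    by_cases hm : ∃ B : Subgroup G, IsMulCommutative B ∧ ¬ IsCyclic B
    · obtain ⟨hp2, h⟩ := Cfsg.Agent.S0519.result p hG hn hm
      subst hp2
      have hq2 : (2 : ZMod q) ≠ 0 := by exact_mod_cast hpq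
      rcases h with ⟨n, ⟨E⟩⟩ | ⟨n, hn8, ⟨E⟩⟩ | hQ
      · exfalso
        exact not_uniqueP_of_irreducible ρ hG hρ hirr hnsr (uniqueP_of_quat E)
      · left
        obtain ⟨hV, m, hm', hiso⟩ := half_dihedral ρ hq2 hG hρ hirr hnt hn8 E
        exact ⟨hV, m, hm', Or.inl hiso⟩
      · left
        obtain ⟨hV, m, hm', hc⟩ := half_sd ρ hq2 hG hρ hirr hnt hQ
        exact ⟨hV, m, hm', Or.inr ⟨hQ, hc⟩⟩
    · exfalso
      push Not at hm
      haveI : Nontrivial G := ⟨⟨g₀, 1, hg₀1⟩⟩
      have hU := uniqueP_of_forall_abelian hG (exists_central_prime hG) hm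
      exact not_uniqueP_of_irreducible ρ hG hρ hirr hnsr hU

end Cfsg.Agent.S3371
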