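import Cfsg.Statements.S1160
import Cfsg.Agent.S3371

set_option autoImplicit false
open Cfsg

namespace Cfsg.Agent.S1160

theorem core {P E : Type*} [Group P] [Finite P]
    [AddCommGroup E] [Finite E] [DistribMulAction P E] [FaithfulSMul P E]
    {p q : ℕ} [Fact p.Prime] [Fact q.Prime] [Module (ZMod q) E] [hnt : Nontrivial E] (hp2 : p ≠ 2) (hP : IsPGroup p P)
    (hconst : ∀ a b : E, a ≠ 0 → b ≠ 0 →
      Nat.card (MulAction.stabilizer P a) = Nat.card (MulAction.stabilizer P b)) :
    IsCyclic P ∧ ∀ g : P, g ≠ 1 → ∀ a : E, g • a = a → a = 0 := by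
  classical
  let ρ : P →* (E ≃ₗ[ZMod q] E) := 
    { toFun := fun g => (DistribMulAction.toAddEquiv E g).toLinearEquiv (fun c x => ZMod.map_smul _ c x)
      map_one' := by
        apply LinearEquiv.ext
        intro x
        rw [LinearEquiv.coe_one]
        exact one_smul P x
      map_mul' := by
        intro a b
        apply LinearEquiv.ext
        intro x
        rw [LinearEquiv.mul_apply]
        exact mul_smul a b x }
  have hρv : ∀ (g : P) (v : E), ρ g v = g • v := fun g v => rfl
  have hρ : Function.Injective ρ := by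
    intro a b hab
    apply FaithfulSMul.eq_of_smul_eq_smul (α := E)
    intro e
    rw [← hρv, ← hρv, hab]
  have hhalf : ∀ v w : E, v ≠ 0 → w ≠ 0 → Nat.card {u : E | ∃ g : P, ρ g v = u} = Nat.card {u : E | ∃ g : P, ρ g w = u} := by
    intro v w hv hw
    have key : ∀ x : E, Nat.card {u : E | ∃ g : P, ρ g x = u} = (MulAction.stabilizer P x).index := by
      intro x
      rw [MulAction.index_stabilizer]
      rw [Nat.card_coe_set_eq]
      rfl
    rw [key, key]
    have h1 := Subgroup.card_mul_index (MulAction.stabilizer P v)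
    have h2 := Subgroup.card_mul_index (MulAction.stabilizer P w)
    rw [hconst v w hv hw] at h1
    have hpos : 0 < Nat.card (MulAction.stabilizer P w) := Nat.card_pos
    exact Nat.eq_of_mul_eq_mul_left hpos (h1.trans h2.symm)
  have hnot2 : ¬ 2 ∣ Nat.card P := by
    intro h2
    obtain ⟨k, hk⟩ := IsPGroup.iff_card.mp hP
    rw [hk] at h2
    have := Nat.prime_two.dvd_of_dvd_pow h2
    have h3 := (Nat.prime_dvd_prime_iff_eq Nat.prime_two (Fact.out : p.Prime)).mp this
    exact hp2 h3.symm
  rcases Cfsg.Agent.S3371.result q p hP ρ hρ hhalf with ⟨hc, hs⟩ | ⟨-, m, -, h | h⟩ | ⟨-, -, e, he⟩ | ⟨-, -, h⟩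
  · refine ⟨?_, ?_⟩
    · rcases hc with hc | ⟨n, ⟨f⟩⟩
      · exact hc
      · exfalso
        apply hnot2
        rw [Nat.card_congr f.toEquiv]
        have h1 := orderOf_dvd_natCard (QuaternionGroup.a 1 : QuaternionGroup n)
        rw [QuaternionGroup.orderOf_a_one] at h1
        exact (Dvd.intro n rfl).trans h1
    · intro g hg a ha
      by_contra hane
      exact hg (hs a hane g ha)
  · exfalso
    obtain ⟨f⟩ := h
    apply hnot2
    rw [Nat.card_congr f.toEquiv, DihedralGroup.nat_card]
    exact ⟨_, rfl⟩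
  · exfalso
    apply hnot2
    rw [h.2]
    exact ⟨2 ^ (m + 1), by ring⟩
  · exfalso
    let F : (Fin 2 → ZMod q) ≃ₗ[ZMod q] (Fin 2 → ZMod q) := LinearEquiv.funCongrLeft (ZMod q) (ZMod q) (Equiv.swap 0 1)
    have hF : ∀ v : Fin 2 → ZMod q, F v = ![1 * (1:ZMod q)⁻¹ * v 1, 1 * v 0] := by
      intro v
      ext i
      fin_cases i <;> simp [F, LinearEquiv.funCongrLeft]
    obtain ⟨g, hg⟩ := (he F).mpr ⟨1, 1, one_ne_zero, Or.inl rfl, Or.inr hF⟩
    have hg1 : g ≠ 1 := by
      rintro rfl
      have := congrArg (fun L : (Fin 2 → ZMod q) ≃ₗ[ZMod q] (Fin 2 → ZMod q) => L ![1, 0] 0) hg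
      simp [F, LinearEquiv.funCongrLeft] at this
    have hg2 : g ^ 2 = 1 := by
      apply hρ
      rw [map_pow, map_one]
      ext x
      have h1 : ∀ y : Fin 2 → ZMod q, F y = e (ρ g (e.symm y)) := by
        intro y
        rw [hg]
        rfl
      have h2 : F (F (e x)) = e x := by
        ext i
        fin_cases i <;> simp [F, LinearEquiv.funCongrLeft]
      rw [h1, h1] at h2
      simp only [LinearEquiv.symm_apply_apply] at h2
      have h3 := e.injective h2
      rw [pow_two]
      exact h3
    have ho : orderOf g = 2 := orderOf_eq_prime hg2 hg1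
    apply hnot2
    rw [← ho]
    exact orderOf_dvd_natCard g
  · exfalso
    exact hp2 h



/-- Let `p ≠ 2` be prime and `P` a finite `p`-group acting faithfully by additive automorphisms on a finite elementary abelian `q`-group `E` (`q` prime), such that `|P_a|` is the same for all `a ≠ 0`. Then `P` is cyclic and every non-identity element of `P` fixes only `0`. -/
theorem result {P E : Type*} [Group P] [Finite P]
    [AddCommGroup E] [Finite E] [DistribMulAction P E] [FaithfulSMul P E]
    {p q : ℕ} [Fact p.Prime] (hp2 : p ≠ 2) (hP : IsPGroup p P) (hq : q.Prime) (hE : ∀ e : E, q • e = 0)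
    (hconst : ∀ a b : E, a ≠ 0 → b ≠ 0 →
      Nat.card (MulAction.stabilizer P a) = Nat.card (MulAction.stabilizer P b)) :
    IsCyclic P ∧ ∀ g : P, g ≠ 1 → ∀ a : E, g • a = a → a = 0 := by
  classical
  haveI : Fact q.Prime := ⟨hq⟩
  by_cases hnt : Nontrivial E
  swap
  · rw [not_nontrivial_iff_subsingleton] at hnt
    have hPs : Subsingleton P := by
      constructor
      intro a b
      apply FaithfulSMul.eq_of_smul_eq_smul (α := E)
      intro e
      exact Subsingleton.elim _ _
    haveI := hPs
    exact ⟨inferInstance, fun g hg => absurd (Subsingleton.elim g 1) hg⟩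
  letI : Module (ZMod q) E := AddCommGroup.zmodModule hE
  exact core (p := p) (q := q) hp2 hP hconst

end Cfsg.Agent.S1160
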