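import Cfsg.Statements.S1166
import Cfsg.Agent.Lib.RankOne.Form

set_option autoImplicit false
open Cfsg

namespace Cfsg.Agent.S1166

open MulAction Cfsg.Agent.Lib.RankOne.Setup
open Cfsg.Agent.Lib.RankOne


/-- In the rank-one set-up (`G` finite and doubly transitive on `Ω`, `t` an involution moving `a`, `Q` normal in `G_a` with `G_a = Q D`, `Q ⊓ D = 1` for the two-point stabiliser `D = G_a ⊓ G_{t • a}`, `|Q|` even, `|D|` odd), with `t x t = g_x h_x t f_x` and `t y t = g_y h_y t f_y` (`g, f ∈ Q`, `h ∈ D`) for `x, y ∈ Q ∖ 1` with `x y ≠ 1`: then `z = f_x g_y ≠ 1`, and if `t z t = g_z h_z t f_z` and `t (x y) t = g' h' t f'` then `f' = (t h_y t)⁻¹ f_z (t h_y t) f_y` and `h' = h_x h_z h_y` (H6). -/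
theorem result {G Ω : Type*} [Group G] [Finite G] [MulAction G Ω] {a : Ω} {t : G} {Q : Subgroup G}
    (hS : Cfsg.IsRankOneSetup G Ω a t Q)
    (x y gx hx fx gy hy fy : G) (hxQ : x ∈ Q) (hx1 : x ≠ 1) (hyQ : y ∈ Q) (hy1 : y ≠ 1) (hxy : x * y ≠ 1)
    (hgx : gx ∈ Q) (hhx : hx ∈ (MulAction.stabilizer G a ⊓ MulAction.stabilizer G (t • a))) (hfx : fx ∈ Q) (ex : t * x * t = gx * hx * t * fx)
    (hgy : gy ∈ Q) (hhy : hy ∈ (MulAction.stabilizer G a ⊓ MulAction.stabilizer G (t • a))) (hfy : fy ∈ Q) (ey : t * y * t = gy * hy * t * fy) :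
    fx * gy ≠ 1 ∧
      ∀ gz hz fz g' h' f' : G, gz ∈ Q → hz ∈ (MulAction.stabilizer G a ⊓ MulAction.stabilizer G (t • a)) → fz ∈ Q → t * (fx * gy) * t = gz * hz * t * fz →
        g' ∈ Q → h' ∈ (MulAction.stabilizer G a ⊓ MulAction.stabilizer G (t • a)) → f' ∈ Q → t * (x * y) * t = g' * h' * t * f' →
          f' = (t * hy * t)⁻¹ * fz * (t * hy * t) * fy ∧ h' = hx * hz * hy := by
  have htt : t * t = 1 := hS.mul_self
  have htinv : t⁻¹ = t := t_inv hS
  have hDa : DD G a t ≤ stabilizer G a := inf_le_left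
  have hprod : t * (x * y) * t = gx * hx * t * (fx * gy) * hy * t * fy := by
    calc t * (x * y) * t = t * x * 1 * y * t := by group
      _ = t * x * (t * t) * y * t := by rw [htt]
      _ = (t * x * t) * (t * y * t) := by group
      _ = gx * hx * t * (fx * gy) * hy * t * fy := by rw [ex, ey]; group
  refine ⟨?_, ?_⟩
  · intro hz
    apply t_conj_not_stab hS (Q.mul_mem hxQ hyQ) hxy
    rw [hprod, hz]
    have h1 : gx • a = a := hS.le hgx
    have h2 : hx • a = a := hDa hhx
    have h3 : hy • t • a = t • a := hhy.2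
    have h4 : fy • a = a := hS.le hfy
    have h5 : gx * hx * t * 1 * hy * t * fy = gx * hx * (t * hy * t) * fy := by group
    rw [h5, mul_smul, mul_smul, mul_smul, mul_smul, mul_smul, h4, h3, t_t hS, h2, h1]
  · intro gz hz fz g' h' f' hgz hhz hfz ez hg' hh' hf' e'
    set c := t * hy * t with hc
    have hcD : c ∈ DD G a t := t_conj_D hS hhy
    have htc : t * c * t = hy := by
      rw [hc]
      calc t * (t * hy * t) * t = (t * t) * hy * (t * t) := by group
        _ = hy := by rw [htt]; group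
    have e1 : t * (x * y) * t =
        (gx * (hx * gz * hx⁻¹)) * (hx * hz * hy) * t * (c⁻¹ * fz * c * fy) := by
      have e2 : t * (fx * gy) = gz * hz * t * fz * t := by
        calc t * (fx * gy) = t * (fx * gy) * (t * t) := by rw [htt, mul_one]
          _ = (t * (fx * gy) * t) * t := by group
          _ = gz * hz * t * fz * t := by rw [ez]
      have e3 : t * c = hy * t := by
        calc t * c = t * c * (t * t) := by rw [htt, mul_one]
          _ = (t * c * t) * t := by group
          _ = hy * t := by rw [htc]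
      calc t * (x * y) * t = gx * hx * (t * (fx * gy)) * hy * t * fy := by rw [hprod]; group
        _ = gx * hx * (gz * hz * t * fz * t) * hy * t * fy := by rw [e2]
        _ = gx * hx * gz * hz * t * fz * (t * hy * t) * fy := by group
        _ = gx * hx * gz * hz * (t * c) * (c⁻¹ * fz * c) * fy := by rw [← hc]; group
        _ = gx * hx * gz * hz * (hy * t) * (c⁻¹ * fz * c) * fy := by rw [e3]
        _ = (gx * (hx * gz * hx⁻¹)) * (hx * hz * hy) * t * (c⁻¹ * fz * c * fy) := by group
    have hQ1 : gx * (hx * gz * hx⁻¹) ∈ Q := Q.mul_mem hgx (hS.conj_mem hx (hDa hhx) gz hgz)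
    have hD1 : hx * hz * hy ∈ DD G a t := Subgroup.mul_mem _ (Subgroup.mul_mem _ hhx hhz) hhy
    have hQ2 : c⁻¹ * fz * c * fy ∈ Q := by
      have hcinv : c⁻¹ ∈ stabilizer G a := Subgroup.inv_mem _ (hDa hcD)
      have := hS.conj_mem c⁻¹ hcinv fz hfz
      rw [inv_inv] at this
      exact Q.mul_mem this hfy
    have h2 := form_unique hS hg' hh' hf' hQ1 hD1 hQ2 (e'.symm.trans e1)
    exact ⟨h2.2.2, h2.2.1⟩

end Cfsg.Agent.S1166
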