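import Cfsg.Statements.S1168
import Cfsg.Agent.Lib.RankOne.FieldAut

set_option autoImplicit false
open Cfsg

namespace Cfsg.Agent.S1168

open Cfsg.Agent.Lib.RankOne
attribute [local instance] Cfsg.Agent.Lib.RankOne.fintypeAut

theorem exists_triangular {F : Type*} [Field F] [Fintype F] [CharP F 2]
    (B : F →+ F →+ F) (hsymm : ∀ x y, B x y = B y x) (halt : ∀ x, B x x = 0) :
    ∃ P : F →+ F →+ F, ∀ x y, B x y = P x y + P y x := by
  classical
  let _ : Algebra (ZMod 2) F := ZMod.algebra F 2
  have : Module.Finite (ZMod 2) F := Module.Finite.of_finite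
  let b := Module.finBasis (ZMod 2) F
  let c : Fin (Module.finrank (ZMod 2) F) → F → ZMod 2 := fun i x => b.repr x i
  have cadd : ∀ i x y, c i (x + y) = c i x + c i y := by
    intro i x y; simp [c]
  let T : F → F → Fin (Module.finrank (ZMod 2) F) × Fin (Module.finrank (ZMod 2) F) → F :=
    fun x y p => c p.1 x • c p.2 y • B (b p.1) (b p.2)
  have Tadd1 : ∀ x x' y p, T (x + x') y p = T x y p + T x' y p := by
    intro x x' y p; simp only [T, cadd, add_smul]
  have Tadd2 : ∀ x y y' p, T x (y + y') p = T x y p + T x y' p := by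
    intro x y y' p; simp only [T, cadd, add_smul, smul_add]
  let S := (Finset.univ : Finset (Fin (Module.finrank (ZMod 2) F) × Fin (Module.finrank (ZMod 2) F))).filter
    (fun p => p.1 < p.2)
  have hB : ∀ x y, B x y = ∑ p, T x y p := by
    intro x y
    have hx : x = ∑ i, c i x • b i := (b.sum_repr x).symm
    have hy : y = ∑ i, c i y • b i := (b.sum_repr y).symm
    have h1 : B x y = ∑ i, c i x • B (b i) y := by
      conv_lhs => rw [hx]
      rw [map_sum, AddMonoidHom.finsetSum_apply]
      refine Finset.sum_congr rfl fun i _ => ?_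
      rw [ZMod.map_smul]; rfl
    rw [h1, Fintype.sum_prod_type]
    refine Finset.sum_congr rfl fun i _ => ?_
    conv_lhs => rw [hy]
    rw [map_sum, Finset.smul_sum]
    refine Finset.sum_congr rfl fun j _ => ?_
    simp only [T]
    rw [ZMod.map_smul]
  refine ⟨AddMonoidHom.mk' (fun x => AddMonoidHom.mk' (fun y => ∑ p ∈ S, T x y p) ?_) ?_, ?_⟩
  · intro y y'
    simp only [Tadd2, Finset.sum_add_distrib]
  · intro x x'
    ext y
    simp only [AddMonoidHom.mk'_apply, AddMonoidHom.add_apply, Tadd1, Finset.sum_add_distrib]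
  · intro x y
    simp only [AddMonoidHom.mk'_apply]
    have h2 : ∑ p ∈ S, T y x p = ∑ p, if p.2 < p.1 then T x y p else 0 := by
      rw [Finset.sum_filter]
      refine Finset.sum_equiv (Equiv.prodComm _ _) (by simp) ?_
      rintro ⟨i, j⟩ -
      simp only [Equiv.prodComm_apply, Prod.swap_prod_mk, T]
      by_cases h : i < j <;> simp only [h, if_true, if_false]
      rw [smul_comm, hsymm]
    rw [h2, Finset.sum_filter, ← Finset.sum_add_distrib, hB]
    refine Finset.sum_congr rfl ?_
    rintro ⟨i, j⟩ -
    rcases lt_trichotomy i j with h | h | h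
    · simp [h, h.le, not_lt.mpr h.le]
    · subst h
      simp [T, halt]
    · simp [h, not_lt.mpr h.le]


/-- For a finite field `F` of characteristic 2: if `q : F → F` is quadratic over the prime field, i.e. `(x, y) ↦ q (x + y) + q x + q y` is additive in each variable, then `q x = Σ c_{σ,τ} σ(x) τ(x)` for some coefficients indexed by pairs of field automorphisms. -/
theorem result {F : Type*} [Field F] [Fintype F] [CharP F 2]
    (q : F → F)
    (hq : ∀ x y z : F, q (x + y + z) + q (x + y) + q (x + z) + q (y + z) + q x + q y + q z = 0) :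
    ∃ (s : Finset ((F ≃+* F) × (F ≃+* F))) (c : (F ≃+* F) × (F ≃+* F) → F),
      ∀ x : F, q x = ∑ p ∈ s, c p * (p.1 x * p.2 x) := by
  classical
  have h2 : (2 : F) = 0 := CharTwo.two_eq_zero
  have q0 : q 0 = 0 := by
    have := hq 0 0 0
    simp only [add_zero] at this
    linear_combination this - 3 * q 0 * h2
  -- the polar form
  let B : F →+ F →+ F :=
    AddMonoidHom.mk' (fun x => AddMonoidHom.mk' (fun y => q (x + y) + q x + q y) (by
      intro y y'
      have := hq y y' x
      have e1 : x + (y + y') = y + y' + x := by ring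
      have e2 : x + y = y + x := by ring
      have e3 : x + y' = y' + x := by ring
      rw [e1, e2, e3]
      linear_combination this - (q x) * h2 - (q (y + x) + q y + q (y' + x) + q y') * h2)) (by
      intro x x'
      ext y
      simp only [AddMonoidHom.mk'_apply, AddMonoidHom.add_apply]
      have := hq x x' y
      linear_combination this - (q y) * h2 - (q (x + y) + q x + q (x' + y) + q x') * h2)
  have Bdef : ∀ x y, B x y = q (x + y) + q x + q y := fun x y => rfl
  have hsymm : ∀ x y, B x y = B y x := by
    intro x y; rw [Bdef, Bdef, add_comm x y]; ring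
  have halt : ∀ x, B x x = 0 := by
    intro x
    rw [Bdef, CharTwo.add_self_eq_zero, q0, add_assoc, CharTwo.add_self_eq_zero, add_zero]
  obtain ⟨P, hP⟩ := exists_triangular B hsymm halt
  -- the additive part
  let A : F →+ F := AddMonoidHom.mk' (fun x => q x + P x x) (by
    intro x y
    simp only [map_add, AddMonoidHom.add_apply]
    have := hP x y
    rw [Bdef] at this
    linear_combination this + (q x + q y + P y x) * h2 + (P x y - 2 * q x - 2 * q y) * h2)
  have hA : ∀ x, q x = A x + P x x := by
    intro x
    show q x = q x + P x x + P x x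
    rw [add_assoc, CharTwo.add_self_eq_zero, add_zero]
  obtain ⟨C, -, hC⟩ := exists_aut_coord (F := F)
  obtain ⟨d, hd⟩ := exists_biadd_coord P
  let φ : F ≃+* F := frobeniusEquiv F 2
  have hφ : ∀ x, φ x = x * x := by
    intro x
    show x ^ 2 = x * x
    ring
  refine ⟨Finset.univ, fun p => d p + if p.1 = p.2 then C A (p.1.trans φ) else 0, ?_⟩
  intro x
  simp only [add_mul, Finset.sum_add_distrib]
  rw [hA, hd, add_comm]
  congr 1
  rw [hC, Fintype.sum_prod_type]
  let e : (F ≃+* F) ≃ (F ≃+* F) :=
    ⟨fun ρ => ρ.trans φ, fun σ => σ.trans φ.symm, fun ρ => by ext y; simp, fun σ => by ext y; simp⟩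
  symm
  refine Fintype.sum_equiv e _ _ ?_
  intro ρ
  simp only [ite_mul, zero_mul, Finset.sum_ite_eq, Finset.mem_univ, if_true]
  show C A (ρ.trans φ) * (ρ x * ρ x) = C A (ρ.trans φ) * (ρ.trans φ) x
  rw [RingEquiv.trans_apply, hφ]

end Cfsg.Agent.S1168
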