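import Cfsg.Statements.S1176
import Mathlib
import Cfsg.Agent.Lib.TwoFusion.Isolated

set_option autoImplicit false
open Cfsg

namespace Cfsg.Agent.S1176



/-- Let x₀ be an involution of the finite group G and D its conjugacy class. Assume (a) for each x ∈ D the subgroup W(x) generated by the members of D commuting with x is a 2-group of nilpotency class at most 2, and (b) the product of two distinct commuting members of D again lies in D. Then for all x, y ∈ D, if xy has even order greater than 2, its order is 4. -/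
theorem result {G : Type*} [Group G] [Finite G] (x₀ : G) (hx₀ : orderOf x₀ = 2) (ha : ∀ x : G, IsConj x₀ x → IsPGroup 2 ↥(Subgroup.closure {y : G | IsConj x₀ y ∧ Commute y x}) ∧ ⁅⁅Subgroup.closure {y : G | IsConj x₀ y ∧ Commute y x}, Subgroup.closure {y : G | IsConj x₀ y ∧ Commute y x}⁆, Subgroup.closure {y : G | IsConj x₀ y ∧ Commute y x}⁆ = ⊥) (hb : ∀ x y : G, IsConj x₀ x → IsConj x₀ y → x ≠ y → Commute x y → IsConj x₀ (x * y)) (x y : G) (hx : IsConj x₀ x) (hy : IsConj x₀ y) (heven : Even (orderOf (x * y))) (hgt : 2 < orderOf (x * y)) : orderOf (x * y) = 4 := by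

  classical
  have hinv : ∀ u : G, IsConj x₀ u → orderOf u = 2 := by
    intro u hu
    obtain ⟨c, rfl⟩ := isConj_iff.mp hu
    exact Cfsg.Agent.Lib.TwoFusion.orderOf_conj_two hx₀ c
  have hxo := hinv x hx
  have hyo := hinv y hy
  have hx2 := Cfsg.Agent.Lib.TwoFusion.involution_sq hxo
  have hy2 := Cfsg.Agent.Lib.TwoFusion.involution_sq hyo
  have hxi := Cfsg.Agent.Lib.TwoFusion.involution_inv hxo
  have hyi := Cfsg.Agent.Lib.TwoFusion.involution_inv hyo
  set a := x * y with ha'
  obtain ⟨m, hm⟩ := heven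
  have hmgt : 1 < m := by omega
  set w := a ^ m with hw
  have ainv : a⁻¹ = y * x := by rw [ha', mul_inv_rev, hxi, hyi]
  have hxa : x * a * x⁻¹ = a⁻¹ := by
    rw [ainv, hxi, ha']
    calc x * (x * y) * x = (x * x) * y * x := by group
      _ = y * x := by rw [hx2, one_mul]
  have hya : y * a * y⁻¹ = a⁻¹ := by
    rw [ainv, hyi, ha']
    calc y * (x * y) * y = y * x * (y * y) := by group
      _ = y * x := by rw [hy2, mul_one]
  have hw1 : w ≠ 1 := by
    intro h
    have := orderOf_dvd_of_pow_eq_one h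
    rw [hm] at this
    have := Nat.le_of_dvd (by omega) this
    omega
  have hw2 : w * w = 1 := by
    rw [hw, ← pow_add, ← hm, pow_orderOf_eq_one]
  have hwi : w⁻¹ = w := inv_eq_of_mul_eq_one_left hw2
  have hxw : x * w * x⁻¹ = w := by
    have := Cfsg.Agent.Lib.TwoFusion.pow_mul_of_inverts hxa m
    rw [inv_pow, ← hw, hwi] at this
    exact this
  have hyw : y * w * y⁻¹ = w := by
    have := Cfsg.Agent.Lib.TwoFusion.pow_mul_of_inverts hya m
    rw [inv_pow, ← hw, hwi] at this
    exact this
  have hxwc : x * w = w * x := by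
    calc x * w = (x * w * x⁻¹) * x := by group
      _ = w * x := by rw [hxw]
  have hywc : y * w = w * y := by
    calc y * w = (y * w * y⁻¹) * y := by group
      _ = w * y := by rw [hyw]
  have hconj : IsConj x₀ (w * x) := by
    rcases Nat.even_or_odd' m with ⟨l, hl | hl⟩
    · refine hx.trans (isConj_iff.mpr ⟨a ^ l, ?_⟩)
      rw [Cfsg.Agent.Lib.TwoFusion.pow_conj_eq hx2 hxa l, ← hl]
    · refine hy.trans (isConj_iff.mpr ⟨a ^ (l + 1), ?_⟩)
      have hyxa : y = x * a := by
        rw [ha', ← mul_assoc, hx2, one_mul]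
      have h5 : a ^ (l + 1) * a * (a ^ (l + 1))⁻¹ = a := by
        rw [← pow_succ, pow_succ' a (l + 1)]
        group
      have h6 : x * a = a⁻¹ * x := by
        calc x * a = (x * a * x⁻¹) * x := by group
          _ = a⁻¹ * x := by rw [hxa]
      calc a ^ (l + 1) * y * (a ^ (l + 1))⁻¹
          = (a ^ (l + 1) * x * (a ^ (l + 1))⁻¹) * (a ^ (l + 1) * a * (a ^ (l + 1))⁻¹) := by
            rw [hyxa]; group
        _ = a ^ (2 * (l + 1)) * x * a := by
            rw [Cfsg.Agent.Lib.TwoFusion.pow_conj_eq hx2 hxa (l + 1), h5]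
        _ = a ^ (2 * (l + 1)) * a⁻¹ * x := by
            rw [mul_assoc, h6, mul_assoc]
        _ = w * x := by
            rw [hw, hl, show 2 * (l + 1) = (2 * l + 1) + 1 by ring, pow_succ a (2 * l + 1)]
            group
  have hne : x ≠ w * x := by
    intro h
    apply hw1
    have : w * x * x⁻¹ = x * x⁻¹ := by rw [← h]
    simpa using this
  have hcomm : Commute x (w * x) := by
    show x * (w * x) = w * x * x
    rw [← mul_assoc, hxwc]
  have hwD : IsConj x₀ w := by
    have := hb x (w * x) hx hconj hne hcomm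
    have e : x * (w * x) = w := by
      rw [← mul_assoc, hxwc, mul_assoc, hx2, mul_one]
    rwa [e] at this
  have hW := (ha w hwD).2
  set W := Subgroup.closure {u : G | IsConj x₀ u ∧ Commute u w} with hWdef
  have hxW : x ∈ W := Subgroup.subset_closure ⟨hx, hxwc⟩
  have hyW : y ∈ W := Subgroup.subset_closure ⟨hy, hywc⟩
  open scoped commutatorElement in
  have h1 : ⁅⁅x, y⁆, x⁆ = 1 := by
    have : ⁅⁅x, y⁆, x⁆ ∈ ⁅⁅W, W⁆, W⁆ :=
      Subgroup.commutator_mem_commutator (Subgroup.commutator_mem_commutator hxW hyW) hxW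
    rw [hW] at this
    simpa using this
  open scoped commutatorElement in
  have h2 : ⁅x, y⁆ = a * a := by
    rw [commutatorElement_def, hxi, hyi, ha']
    group
  have h3 : a ^ 4 = 1 := by
    rw [h2, commutatorElement_def (a * a) x] at h1
    have h7 : x * (a * a)⁻¹ * x⁻¹ = a * a := by
      have := Cfsg.Agent.Lib.TwoFusion.inv_pow_conj hxa 2
      rwa [pow_two] at this
    have h8 : a * a * x * (a * a)⁻¹ * x⁻¹ = (a * a) * (x * (a * a)⁻¹ * x⁻¹) := by group
    rw [h8, h7] at h1
    calc a ^ 4 = a * a * (a * a) := by simp only [pow_succ, pow_zero, one_mul, mul_assoc]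
      _ = 1 := h1
  have h4 : orderOf a ∣ 4 := orderOf_dvd_of_pow_eq_one h3
  have h5 : orderOf a ≤ 4 := Nat.le_of_dvd (by norm_num) h4
  -- orderOf a = m + m, with m > 1, so it is 4
  omega

end Cfsg.Agent.S1176
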