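import Cfsg.Statements.S1177
import Mathlib
import Cfsg.Agent.Lib.TwoFusion.Basic2

set_option autoImplicit false
open Cfsg

namespace Cfsg.Agent.S1177



/-- Let A be a nontrivial elementary abelian 2-subgroup of a finite group G which is a T.I. set (each conjugate of A meets A trivially or equals A) and which does not commute elementwise with any conjugate of A other than A itself. Then for every a ∈ A, a ≠ 1, every conjugate of A contained in C_G(a) is equal to A (A is weakly closed in C_G(a)). -/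
theorem result {G : Type*} [Group G] [Finite G] (A : Subgroup G) (hA : Cfsg.IsElementaryAbelian 2 A) (hA1 : A ≠ ⊥) (hTI : ∀ g : G, A.map (MulAut.conj g).toMonoidHom ⊓ A = ⊥ ∨ A.map (MulAut.conj g).toMonoidHom = A) (hb : ∀ g : G, (∀ a ∈ A, ∀ b ∈ A.map (MulAut.conj g).toMonoidHom, a * b = b * a) → A.map (MulAut.conj g).toMonoidHom = A) (a : G) (ha : a ∈ A) (ha1 : a ≠ 1) (g : G) (hg : A.map (MulAut.conj g).toMonoidHom ≤ Subgroup.centralizer ({a} : Set G)) : A.map (MulAut.conj g).toMonoidHom = A := by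

  classical
  by_contra hne
  set B := A.map (MulAut.conj g).toMonoidHom with hB
  have hdisj : B ⊓ A = ⊥ := (hTI g).resolve_right hne
  have hAcomm : ∀ x ∈ A, ∀ y ∈ A, x * y = y * x := by
    intro x hx y hy
    have hc := hA.1
    have := mul_comm' (⟨x, hx⟩ : A) ⟨y, hy⟩
    exact congrArg Subtype.val this
  have hBcomm : ∀ x ∈ B, ∀ y ∈ B, x * y = y * x := by
    rintro _ ⟨x, hx, rfl⟩ _ ⟨y, hy, rfl⟩
    rw [← map_mul, ← map_mul, hAcomm x hx y hy]
  -- C(a) ≤ N(A)
  have hCN : Subgroup.centralizer ({a} : Set G) ≤ Subgroup.normalizer (A : Set G) := by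
    intro h hh
    have hh' : h * a = a * h := Subgroup.mem_centralizer_singleton_iff.mp hh
    rcases hTI h with h1 | h1
    · exfalso
      apply ha1
      have hin : a ∈ A.map (MulAut.conj h).toMonoidHom ⊓ A := by
        refine Subgroup.mem_inf.mpr ⟨?_, ha⟩
        rw [Cfsg.Agent.Lib.TwoFusion.mem_conj_map]
        have : h⁻¹ * a * h = a := by
          rw [mul_assoc, ← hh']; group
        rwa [this]
      rw [h1] at hin
      simpa using hin
    · exact Cfsg.Agent.Lib.TwoFusion.mem_normalizer_of_conj_eq h1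
  have hBN : B ≤ Subgroup.normalizer (A : Set G) := le_trans hg hCN
  have hpA : IsPGroup 2 A := by
    intro x
    refine ⟨1, ?_⟩
    apply Subtype.ext
    simpa using hA.2 x x.2
  have hpB : IsPGroup 2 B := hpA.map _
  have hpM : IsPGroup 2 ↥(B ⊔ A) := IsPGroup.to_sup_of_normal_right' hpB hpA hBN
  -- Claim 1
  have hBNB : B ≤ Subgroup.normalizer (B : Set G) := Subgroup.le_normalizer
  have claim1 : ∀ u ∈ B ⊔ A, u ∈ Subgroup.normalizer (B : Set G) → ∀ b' ∈ B, u * b' = b' * u := by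
    intro u hu huN b' hb'
    have hu' : u ∈ ((B ⊔ A : Subgroup G) : Set G) := hu
    rw [Subgroup.coe_mul_of_left_le_normalizer_right B A hBN] at hu'
    obtain ⟨b, hb0, x, hx, rfl⟩ := hu'
    have hxN : x ∈ Subgroup.normalizer (B : Set G) := by
      have : x = b⁻¹ * (b * x) := by group
      rw [this]
      exact Subgroup.mul_mem _ (hBNB (B.inv_mem hb0)) huN
    have h1 : x * b' * x⁻¹ * b'⁻¹ ∈ B :=
      B.mul_mem ((Subgroup.mem_normalizer_iff.mp hxN b').mp hb') (B.inv_mem hb')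
    have h2 : x * b' * x⁻¹ * b'⁻¹ ∈ A := by
      have : x * b' * x⁻¹ * b'⁻¹ = x * (b' * x⁻¹ * b'⁻¹) := by group
      rw [this]
      exact A.mul_mem hx ((Subgroup.mem_normalizer_iff.mp (hBN hb') x⁻¹).mp (A.inv_mem hx))
    have h3 : x * b' * x⁻¹ * b'⁻¹ = 1 := by
      have : x * b' * x⁻¹ * b'⁻¹ ∈ B ⊓ A := Subgroup.mem_inf.mpr ⟨h1, h2⟩
      rw [hdisj] at this
      simpa using this
    have h4 : x * b' = b' * x := by
      have : x * b' = (x * b' * x⁻¹ * b'⁻¹) * (b' * x) := by group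
      rw [this, h3, one_mul]
    calc b * x * b' = b * (x * b') := by group
      _ = b * (b' * x) := by rw [h4]
      _ = (b * b') * x := by group
      _ = (b' * b) * x := by rw [hBcomm b hb0 b' hb']
      _ = b' * (b * x) := by group
  -- Claim 2: the hypothesis for B
  have hb' : ∀ h : G, (∀ a ∈ B, ∀ b ∈ B.map (MulAut.conj h).toMonoidHom, a * b = b * a) →
      B.map (MulAut.conj h).toMonoidHom = B := by
    intro h hh
    have h1 : A.map (MulAut.conj (g⁻¹ * h * g)).toMonoidHom = A := by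
      apply hb
      intro x hx c hc
      have h2 := hh (g * x * g⁻¹) (Cfsg.Agent.Lib.TwoFusion.conj_mem_conj_map hx) (g * c * g⁻¹) (by
        rw [hB, Cfsg.Agent.Lib.TwoFusion.conj_map_mul]
        rw [Cfsg.Agent.Lib.TwoFusion.mem_conj_map] at hc ⊢
        have : (h * g)⁻¹ * (g * c * g⁻¹) * (h * g) = (g⁻¹ * h * g)⁻¹ * c * (g⁻¹ * h * g) := by group
        rw [this]; exact hc)
      have e1 : g * x * g⁻¹ * (g * c * g⁻¹) = g * (x * c) * g⁻¹ := by group
      have e2 : g * c * g⁻¹ * (g * x * g⁻¹) = g * (c * x) * g⁻¹ := by group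
      rw [e1, e2] at h2
      exact mul_left_cancel (mul_right_cancel h2)
    rw [hB, Cfsg.Agent.Lib.TwoFusion.conj_map_mul]
    have : h * g = g * (g⁻¹ * h * g) := by group
    rw [this, ← Cfsg.Agent.Lib.TwoFusion.conj_map_mul, h1]
  haveI : Group.IsNilpotent ↥(B ⊔ A) := hpM.isNilpotent
  have nc := Group.normalizerCondition_of_isNilpotent (G := ↥(B ⊔ A))
  by_cases hH : (Subgroup.normalizer (B : Set G)).subgroupOf (B ⊔ A) = ⊤
  · apply hne
    apply hb g
    intro x hx c hc
    have hxM : x ∈ B ⊔ A := (le_sup_right : A ≤ B ⊔ A) hx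
    have hxN : x ∈ Subgroup.normalizer (B : Set G) := by
      have : (⟨x, hxM⟩ : ↥(B ⊔ A)) ∈ (Subgroup.normalizer (B : Set G)).subgroupOf (B ⊔ A) := by
        rw [hH]; trivial
      exact Subgroup.mem_subgroupOf.mp this
    exact claim1 x hxM hxN c hc
  · have hlt := nc _ (lt_top_iff_ne_top.mpr hH)
    obtain ⟨y, hy, hyH⟩ := SetLike.exists_of_lt hlt
    have hyN : (y : G) ∉ Subgroup.normalizer (B : Set G) := fun h => hyH (Subgroup.mem_subgroupOf.mpr h)
    apply hyN
    apply Cfsg.Agent.Lib.TwoFusion.mem_normalizer_of_conj_eq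
    apply hb'
    intro a' ha' c hc
    rw [Cfsg.Agent.Lib.TwoFusion.mem_conj_map] at hc
    -- c = y b y⁻¹
    have hbM : (y : G)⁻¹ * c * y ∈ B ⊔ A := (le_sup_left : B ≤ B ⊔ A) hc
    have hbH : (⟨(y : G)⁻¹ * c * y, hbM⟩ : ↥(B ⊔ A)) ∈ (Subgroup.normalizer (B : Set G)).subgroupOf (B ⊔ A) :=
      Subgroup.mem_subgroupOf.mpr (hBNB hc)
    have h5 := (Subgroup.mem_normalizer_iff.mp hy _).mp hbH
    rw [Subgroup.mem_subgroupOf] at h5
    have e : (((y * ⟨(y : G)⁻¹ * c * y, hbM⟩ * y⁻¹ : ↥(B ⊔ A))) : G) = c := by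
      simp only [Subgroup.coe_mul, Subgroup.coe_inv]
      group
    rw [e] at h5
    have hcM : c ∈ B ⊔ A := by
      rw [← e]
      exact (y * ⟨(y : G)⁻¹ * c * y, hbM⟩ * y⁻¹ : ↥(B ⊔ A)).2
    exact (claim1 c hcM h5 a' ha').symm

end Cfsg.Agent.S1177
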