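import Cfsg.Statements.S1178
import Mathlib
import Cfsg.Agent.Lib.TwoFusion.Basic

set_option autoImplicit false
open Cfsg

namespace Cfsg.Agent.S1178



/-- Let A be a subgroup of a Sylow 2-subgroup S of the finite group G which is weakly closed in S. If a conjugate g A g⁻¹ commutes elementwise with A, then g A g⁻¹ = A. -/
theorem result {G : Type*} [Group G] [Finite G] (S : Sylow 2 G) (A : Subgroup G) (hW : Cfsg.IsWeaklyClosed A (S : Subgroup G)) (g : G) (hc : ∀ a ∈ A, ∀ b ∈ A.map (MulAut.conj g).toMonoidHom, a * b = b * a) : A.map (MulAut.conj g).toMonoidHom = A := by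

  classical
  have hAS : A ≤ S := hW.1
  have hpS : IsPGroup 2 (S : Subgroup G) := S.isPGroup'
  have hpA : IsPGroup 2 A := hpS.to_le hAS
  have hpA' : IsPGroup 2 (A.map (MulAut.conj g).toMonoidHom) := hpA.map _
  have hn : A ≤ Subgroup.normalizer ((A.map (MulAut.conj g).toMonoidHom : Subgroup G) : Set G) := by
    intro a ha
    rw [Subgroup.mem_normalizer_iff]
    intro b
    have key : ∀ b ∈ A.map (MulAut.conj g).toMonoidHom, a * b * a⁻¹ = b := by
      intro b hb
      rw [hc a ha b hb]
      group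
    constructor
    · intro hb
      rwa [key b hb]
    · intro hb
      have : b = a⁻¹ * (a * b * a⁻¹) * a := by group
      rw [this]
      have h2 : a⁻¹ * (a * b * a⁻¹) * a = a * b * a⁻¹ := by
        have h3 := key _ hb
        have h4 : a⁻¹ * (a * b * a⁻¹) * a = a⁻¹ * (a * (a * b * a⁻¹) * a⁻¹) * a := by rw [h3]
        rw [h4]; group
      rw [h2]; exact hb
  have hsup : IsPGroup 2 ↥(A ⊔ A.map (MulAut.conj g).toMonoidHom) :=
    IsPGroup.to_sup_of_normal_right' hpA hpA' hn
  obtain ⟨P, hP⟩ := hsup.exists_le_sylow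
  have h1 : A ≤ P := le_trans le_sup_left hP
  have h2 : A.map (MulAut.conj g).toMonoidHom ≤ P := le_trans le_sup_right hP
  exact Cfsg.Agent.Lib.TwoFusion.weaklyClosed_sylow hW P h1 g h2

end Cfsg.Agent.S1178
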