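import Cfsg.Statements.S1181
import Mathlib
import Cfsg.Agent.Lib.TwoFusion.Isolated

set_option autoImplicit false
open Cfsg

namespace Cfsg.Agent.S1181



/-- Let z be an isolated involution of the finite group G and N a normal subgroup with z ∉ N. Then the centralizer of zN in G/N is the image of C_G(z), and zN is an isolated involution of G/N. -/
theorem result {G : Type*} [Group G] [Finite G] (z : G) (hz : Cfsg.IsIsolatedInvolution z) (N : Subgroup G) [N.Normal] (hzN : z ∉ N) : Subgroup.centralizer ({(QuotientGroup.mk z : G ⧸ N)} : Set (G ⧸ N)) = (Subgroup.centralizer ({z} : Set G)).map (QuotientGroup.mk' N) ∧ Cfsg.IsIsolatedInvolution (QuotientGroup.mk z : G ⧸ N) := by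

  classical
  have hz2 := Cfsg.Agent.Lib.TwoFusion.involution_sq hz.1
  have hzi := Cfsg.Agent.Lib.TwoFusion.involution_inv hz.1
  have hmem : ∀ u : G, (QuotientGroup.mk u : G ⧸ N) = 1 ↔ u ∈ N := fun u => QuotientGroup.eq_one_iff u
  -- `a ∈ N` and odd inverted gives `k ∈ N`
  -- core: if `t = g z g⁻¹` and `(z t)^2 ∈ N` then `z t ∈ N`
  have hsq : ∀ a : G, Odd (orderOf a) → a * a ∈ N → a ∈ N := by
    intro a ha h
    obtain ⟨r, hr⟩ := ha
    have e : a = (a * a) ^ (r + 1) := by
      rw [← pow_two, ← pow_mul, show 2 * (r + 1) = orderOf a + 1 by omega, pow_succ,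
        pow_orderOf_eq_one, one_mul]
    rw [e]
    exact N.pow_mem h _
  have hzq : (QuotientGroup.mk z : G ⧸ N) ≠ 1 := by
    rw [Ne, hmem]; exact hzN
  have hord : orderOf (QuotientGroup.mk z : G ⧸ N) = 2 := by
    apply orderOf_eq_prime
    · rw [pow_two, ← QuotientGroup.mk_mul, hz2]; rfl
    · exact hzq
  have hq : ∀ g : G, Commute (QuotientGroup.mk z : G ⧸ N) (QuotientGroup.mk g * QuotientGroup.mk z * (QuotientGroup.mk g)⁻¹) →
      (QuotientGroup.mk (z * (g * z * g⁻¹)) : G ⧸ N) = 1 := by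
    intro g hcomm
    have ha : Odd (orderOf (z * (g * z * g⁻¹))) := Cfsg.Agent.Lib.TwoFusion.IsolatedOdd hz g
    rw [hmem]
    apply hsq _ ha
    rw [← hmem]
    set t := g * z * g⁻¹ with ht
    have htq : (QuotientGroup.mk t : G ⧸ N) = QuotientGroup.mk g * QuotientGroup.mk z * (QuotientGroup.mk g)⁻¹ := rfl
    rw [← htq] at hcomm
    have hts : t * t = 1 := Cfsg.Agent.Lib.TwoFusion.involution_sq (Cfsg.Agent.Lib.TwoFusion.orderOf_conj_two hz.1 g)
    have : (QuotientGroup.mk ((z * t) * (z * t)) : G ⧸ N) =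
        (QuotientGroup.mk z) * QuotientGroup.mk t * (QuotientGroup.mk z * QuotientGroup.mk t) := rfl
    rw [this]
    have e2 := hcomm.eq
    calc (QuotientGroup.mk z : G ⧸ N) * QuotientGroup.mk t * (QuotientGroup.mk z * QuotientGroup.mk t)
        = QuotientGroup.mk z * QuotientGroup.mk t * (QuotientGroup.mk t * QuotientGroup.mk z) := by
          rw [← e2]
      _ = QuotientGroup.mk (z * (t * t) * z) := by
          simp only [QuotientGroup.mk_mul, mul_assoc]
      _ = 1 := by rw [hts, mul_one, hz2]; rfl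
  refine ⟨?_, hord, ?_⟩
  · apply le_antisymm
    · intro xq hxq
      obtain ⟨g, rfl⟩ := QuotientGroup.mk_surjective xq
      rw [Subgroup.mem_centralizer_singleton_iff] at hxq
      obtain ⟨k, hk1, hk2, hk3, hk4⟩ := Cfsg.Agent.Lib.TwoFusion.exists_odd_conj hz g
      have hcomm : Commute (QuotientGroup.mk z : G ⧸ N) (QuotientGroup.mk g * QuotientGroup.mk z * (QuotientGroup.mk g)⁻¹) := by
        show _ * _ = _ * _
        rw [hxq]
        simp [mul_assoc]
      have hkN : k ∈ N := by
        have h1 := hq g hcomm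
        rw [hmem] at h1
        have : Subgroup.zpowers (z * (g * z * g⁻¹)) ≤ N := by
          rw [Subgroup.zpowers_le]; exact h1
        exact this hk4
      -- c = k⁻¹ g centralizes z
      refine ⟨k⁻¹ * g, ?_, ?_⟩
      · rw [SetLike.mem_coe, Subgroup.mem_centralizer_singleton_iff]
        have h1 : z * (k⁻¹ * g) = (k⁻¹ * g) * z := by
          have h2 : k * z * k⁻¹ = g * z * g⁻¹ := hk3
          have h3 : z = k⁻¹ * (g * z * g⁻¹) * k := by rw [← h2]; group
          calc z * (k⁻¹ * g) = (k⁻¹ * (g * z * g⁻¹) * k) * (k⁻¹ * g) := by rw [← h3]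
            _ = k⁻¹ * g * z := by group
        exact h1.symm
      · show (QuotientGroup.mk' N) (k⁻¹ * g) = QuotientGroup.mk g
        rw [QuotientGroup.mk'_apply, QuotientGroup.mk_mul, QuotientGroup.mk_inv, (hmem k).mpr hkN]
        simp
    · rintro _ ⟨c, hc, rfl⟩
      rw [SetLike.mem_coe, Subgroup.mem_centralizer_singleton_iff] at hc
      rw [Subgroup.mem_centralizer_singleton_iff]
      show QuotientGroup.mk (c * z) = QuotientGroup.mk (z * c)
      rw [hc]
  · intro gq hcomm
    obtain ⟨g, rfl⟩ := QuotientGroup.mk_surjective gq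
    have h1 := hq g hcomm
    rw [hmem] at h1
    -- t N = z N
    have h2 : (QuotientGroup.mk (g * z * g⁻¹) : G ⧸ N) = QuotientGroup.mk z := by
      rw [QuotientGroup.eq]
      have : (g * z * g⁻¹)⁻¹ * z = (z * (g * z * g⁻¹))⁻¹ := by
        rw [mul_inv_rev (z) (g * z * g⁻¹), hzi]
      rw [this]
      exact N.inv_mem h1
    exact h2

end Cfsg.Agent.S1181
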