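import Cfsg.Statements.S1182
import Mathlib
import Cfsg.Agent.Lib.TwoFusion.Isolated

set_option autoImplicit false
open Cfsg

namespace Cfsg.Agent.S1182



/-- Let z be an isolated involution of the finite group G and H a subgroup normalized by z. If x, y ∈ H both commute with z and y = h x h⁻¹ for some h ∈ H, then y = c x c⁻¹ for some c ∈ H commuting with z. -/
theorem result {G : Type*} [Group G] [Finite G] (z : G) (hz : Cfsg.IsIsolatedInvolution z) (H : Subgroup G) (hzH : z ∈ Subgroup.normalizer (H : Set G)) (x y : G) (hx : x ∈ H) (hy : y ∈ H) (hxz : Commute x z) (hyz : Commute y z) (h : G) (hh : h ∈ H) (hconj : h * x * h⁻¹ = y) : ∃ c ∈ H, Commute c z ∧ c * x * c⁻¹ = y := by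

  classical
  have hz2 := Cfsg.Agent.Lib.TwoFusion.involution_sq hz.1
  have hzi := Cfsg.Agent.Lib.TwoFusion.involution_inv hz.1
  -- t = h⁻¹ z h
  obtain ⟨b, hb1, hb2, hb3, hb4⟩ := Cfsg.Agent.Lib.TwoFusion.exists_odd_conj hz h⁻¹
  rw [inv_inv] at hb3 hb4
  set a := z * (h⁻¹ * z * h) with ha
  have hxz : x * z = z * x := hxz
  have hyz : y * z = z * y := hyz
  have hzH' : ∀ u ∈ H, z * u * z⁻¹ ∈ H := by
    intro u hu
    exact (Subgroup.mem_normalizer_iff.mp hzH u).mp hu
  have haH : a ∈ H := by
    have : a = (z * h⁻¹ * z⁻¹) * h := by rw [ha, hzi]; group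
    rw [this]
    exact H.mul_mem (hzH' _ (H.inv_mem hh)) hh
  -- a commutes with x
  have hax : a * x = x * a := by
    have e : a = (z * h⁻¹ * z⁻¹) * h := by rw [ha, hzi]; group
    have hy2 : x = h⁻¹ * y * h := by rw [← hconj]; group
    have h1 : h * x = y * h := by rw [← hconj]; group
    have h2 : (z * h⁻¹ * z⁻¹) * y = x * (z * h⁻¹ * z⁻¹) := by
      calc (z * h⁻¹ * z⁻¹) * y = z * h⁻¹ * (z⁻¹ * y) := by group
        _ = z * h⁻¹ * (y * z⁻¹) := by
            rw [hzi, hyz]
        _ = z * (h⁻¹ * y) * z⁻¹ := by group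
        _ = z * (x * h⁻¹) * z⁻¹ := by
            rw [hy2]; group
        _ = (z * x) * (h⁻¹ * z⁻¹) := by group
        _ = (x * z) * (h⁻¹ * z⁻¹) := by rw [hxz]
        _ = x * (z * h⁻¹ * z⁻¹) := by group
    rw [e, mul_assoc, h1, ← mul_assoc, h2, mul_assoc]
  have hbz : Commute b x := by
    have hmem : b ∈ Subgroup.centralizer ({x} : Set G) := by
      have : Subgroup.zpowers a ≤ Subgroup.centralizer ({x} : Set G) := by
        rw [Subgroup.zpowers_le, Subgroup.mem_centralizer_singleton_iff]
        exact hax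
      exact this hb4
    exact Subgroup.mem_centralizer_singleton_iff.mp hmem
  have hbH : b ∈ H := by
    have : Subgroup.zpowers a ≤ H := by
      rw [Subgroup.zpowers_le]; exact haH
    exact this hb4
  refine ⟨h * b, H.mul_mem hh hbH, ?_, ?_⟩
  · show h * b * z = z * (h * b)
    have h3 : b * z = h⁻¹ * z * h * b := by
      calc b * z = (b * z * b⁻¹) * b := by group
        _ = _ := by rw [hb3]
    calc h * b * z = h * (b * z) := by group
      _ = h * (h⁻¹ * z * h * b) := by rw [h3]
      _ = z * (h * b) := by group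
  · calc h * b * x * (h * b)⁻¹ = h * (b * x * b⁻¹) * h⁻¹ := by group
      _ = h * x * h⁻¹ := by
          have : b * x * b⁻¹ = x := by rw [hbz.eq]; group
          rw [this]
      _ = y := hconj

end Cfsg.Agent.S1182
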