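import Cfsg.Statements.S1242
import Mathlib
import Cfsg.Agent.Lib.TwoFusion.TransferCtrl

set_option autoImplicit false
open Cfsg

namespace Cfsg.Agent.S1242



/-- Let G be a finite group, p a prime and H a subgroup of index prime to p such that any two elements of H of p-power order that are conjugate in G are conjugate in H. Then (O^p(G)·G') ∩ H = O^p(H)·H', where O^p denotes the subgroup generated by the elements of order prime to p. -/
theorem result {G : Type*} [Group G] [Finite G] {p : ℕ} [Fact p.Prime] (H : Subgroup G) (hidx : Nat.Coprime p H.index) (hfus : ∀ g ∈ H, (∃ k : ℕ, orderOf g = p ^ k) → ∀ a : G, a * g * a⁻¹ ∈ H → ∃ h ∈ H, h * g * h⁻¹ = a * g * a⁻¹) : (Cfsg.pResidual p G ⊔ commutator G) ⊓ H = (Cfsg.pResidual p ↥H ⊔ commutator ↥H).map H.subtype := by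

  classical
  have hp : p.Prime := Fact.out
  set K' : Subgroup H := Cfsg.pResidual p ↥H ⊔ commutator ↥H with hK'
  have hcomm : commutator ↥H ≤ K' := le_sup_right
  haveI hKn : K'.Normal := by
    rw [hK']
    haveI : (Cfsg.pResidual p ↥H).Normal := by
      constructor
      intro x hx g
      have h1 : (Cfsg.pResidual p ↥H).map (MulAut.conj g).toMonoidHom ≤ Cfsg.pResidual p ↥H := by
        rw [Cfsg.pResidual, Subgroup.map_le_iff_le_comap, Subgroup.closure_le]
        intro y hy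
        apply Subgroup.subset_closure
        show Nat.Coprime (orderOf ((MulAut.conj g).toMonoidHom y)) p
        have : orderOf ((MulAut.conj g).toMonoidHom y) = orderOf y := MulEquiv.orderOf_eq (MulAut.conj g) y
        rw [this]
        exact hy
      exact h1 ⟨x, hx, rfl⟩
    infer_instance
  letI : CommGroup (H ⧸ K') :=
    { (inferInstance : Group (H ⧸ K')) with
      mul_comm := by
        intro a b
        obtain ⟨x, rfl⟩ := QuotientGroup.mk_surjective a
        obtain ⟨y, rfl⟩ := QuotientGroup.mk_surjective b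
        have h1 : x * y * x⁻¹ * y⁻¹ ∈ K' :=
          hcomm (Subgroup.commutator_mem_commutator (Subgroup.mem_top x) (Subgroup.mem_top y))
        have h2 : ((x * y * x⁻¹ * y⁻¹ : H) : H ⧸ K') = 1 := (QuotientGroup.eq_one_iff _).mpr h1
        have h3 : (x : H ⧸ K') * (y : H ⧸ K') * (x : H ⧸ K')⁻¹ * (y : H ⧸ K')⁻¹ = 1 := h2
        calc (x : H ⧸ K') * (y : H ⧸ K')
            = ((x : H ⧸ K') * (y : H ⧸ K') * (x : H ⧸ K')⁻¹ * (y : H ⧸ K')⁻¹) * ((y : H ⧸ K') * (x : H ⧸ K')) := by
              group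
          _ = (y : H ⧸ K') * (x : H ⧸ K') := by rw [h3, one_mul] }
  let ϕ : H →* (H ⧸ K') := QuotientGroup.mk' K'
  -- the quotient is a `p`-group
  have hpg : ∀ t : H ⧸ K', ∃ k : ℕ, orderOf t = p ^ k := by
    have h0 : IsPGroup p (H ⧸ K') := by
      intro q
      obtain ⟨x, rfl⟩ := QuotientGroup.mk_surjective q
      have hne : orderOf x ≠ 0 := (orderOf_pos x).ne'
      obtain ⟨a, m, hm, ham⟩ := Nat.exists_eq_pow_mul_and_not_dvd hne p hp.ne_one
      refine ⟨a, ?_⟩
      rw [← QuotientGroup.mk_pow, QuotientGroup.eq_one_iff]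
      apply (le_sup_left : Cfsg.pResidual p ↥H ≤ K')
      apply Subgroup.subset_closure
      show Nat.Coprime (orderOf (x ^ p ^ a)) p
      rw [orderOf_pow_of_dvd (pow_pos hp.pos a).ne' (Dvd.intro _ ham.symm), ham,
        Nat.mul_div_cancel_left _ (pow_pos hp.pos a)]
      exact ((Nat.Prime.coprime_iff_not_dvd hp).mpr hm).symm
    exact IsPGroup.iff_orderOf.mp h0
  -- the transfer kills the left side
  have hV : Cfsg.pResidual p G ⊔ commutator G ≤ ϕ.transfer.ker := by
    apply sup_le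
    · rw [Cfsg.pResidual, Subgroup.closure_le]
      intro x hx
      have hx' : Nat.Coprime (orderOf x) p := hx
      show ϕ.transfer x = 1
      obtain ⟨k, hk⟩ := hpg (ϕ.transfer x)
      have h1 : orderOf (ϕ.transfer x) ∣ orderOf x := orderOf_map_dvd _ _
      have h2 : orderOf (ϕ.transfer x) = 1 := by
        rw [hk] at h1 ⊢
        rcases k with _ | k
        · simp
        · exfalso
          have h3 : p ∣ orderOf x := (dvd_pow_self p (Nat.succ_ne_zero k)).trans h1
          exact hp.one_lt.ne' (Nat.Coprime.eq_one_of_dvd hx'.symm h3)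
      exact orderOf_eq_one_iff.mp h2
    · exact Abelianization.commutator_subset_ker (ϕ.transfer)
  apply le_antisymm
  · rintro y ⟨hyL, hyH⟩
    have hVy : ϕ.transfer y = 1 := hV hyL
    obtain ⟨a, m, hm, ham⟩ := Nat.exists_eq_pow_mul_and_not_dvd (orderOf_pos y).ne' p hp.ne_one
    have hm0 : m ≠ 0 := by
      rintro rfl
      exact hm (dvd_zero p)
    have hgH : y ^ m ∈ H := H.pow_mem hyH m
    have hord : orderOf (y ^ m) = p ^ a := by
      rw [orderOf_pow_of_dvd hm0 (Dvd.intro_left _ ham.symm), ham,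
        Nat.mul_div_cancel _ (Nat.pos_of_ne_zero hm0)]
    have hctrl : ∀ (n : ℕ) (b : G) (hb : b⁻¹ * (y ^ m) ^ n * b ∈ H),
        ϕ ⟨b⁻¹ * (y ^ m) ^ n * b, hb⟩ = ϕ ⟨y ^ m, hgH⟩ ^ n := by
      intro n b hb
      have h1 : orderOf ((y ^ m) ^ n) ∣ p ^ a := by
        rw [← hord]
        exact orderOf_pow_dvd _
      obtain ⟨c, -, hc⟩ := (Nat.dvd_prime_pow hp).mp h1
      obtain ⟨h, hh, he⟩ := hfus ((y ^ m) ^ n) (H.pow_mem hgH n) ⟨c, hc⟩ b⁻¹ (by simpa using hb)
      have e : (⟨b⁻¹ * (y ^ m) ^ n * b, hb⟩ : H) = ⟨h, hh⟩ * ⟨y ^ m, hgH⟩ ^ n * ⟨h, hh⟩⁻¹ := by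
        apply Subtype.ext
        simpa using he.symm
      rw [e, map_mul, map_mul, map_inv, map_pow, mul_comm, inv_mul_cancel_left]
    have hVg := Cfsg.Agent.Lib.TwoFusion.transfer_eq_pow_of_ctrl H ϕ (y ^ m) hgH hctrl
    rw [map_pow, hVy, one_pow] at hVg
    have h1 : ϕ ⟨y ^ m, hgH⟩ = 1 := by
      obtain ⟨c, hc⟩ := hpg (ϕ ⟨y ^ m, hgH⟩)
      have h2 : orderOf (ϕ ⟨y ^ m, hgH⟩) ∣ H.index := orderOf_dvd_of_pow_eq_one hVg.symm
      have h3 : orderOf (ϕ ⟨y ^ m, hgH⟩) = 1 := by
        rw [hc] at h2 ⊢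
        rcases c with _ | c
        · simp
        · exfalso
          have h3 : p ∣ H.index := (dvd_pow_self p (Nat.succ_ne_zero c)).trans h2
          exact hp.one_lt.ne' (Nat.Coprime.eq_one_of_dvd hidx h3)
      exact orderOf_eq_one_iff.mp h3
    have h2 : ϕ ⟨y, hyH⟩ ^ m = 1 := by
      rw [← map_pow]
      exact h1
    have h3 : ϕ ⟨y, hyH⟩ = 1 := by
      obtain ⟨c, hc⟩ := hpg (ϕ ⟨y, hyH⟩)
      have h4 : orderOf (ϕ ⟨y, hyH⟩) ∣ m := orderOf_dvd_of_pow_eq_one h2
      have h5 : orderOf (ϕ ⟨y, hyH⟩) = 1 := by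
        rw [hc] at h4 ⊢
        rcases c with _ | c
        · simp
        · exfalso
          exact hm ((dvd_pow_self p (Nat.succ_ne_zero c)).trans h4)
      exact orderOf_eq_one_iff.mp h5
    have h4 : (⟨y, hyH⟩ : H) ∈ K' := (QuotientGroup.eq_one_iff _).mp h3
    exact ⟨⟨y, hyH⟩, h4, rfl⟩
  · apply le_inf
    · rw [Subgroup.map_sup]
      apply sup_le_sup
      · rw [Cfsg.pResidual, Subgroup.map_le_iff_le_comap, Subgroup.closure_le]
        intro x hx
        apply Subgroup.subset_closure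
        show Nat.Coprime (orderOf (x : G)) p
        rw [Subgroup.orderOf_coe]
        exact hx
      · rintro _ ⟨x, hx, rfl⟩
        have h1 : ⁅(⊤ : Subgroup H).map H.subtype, (⊤ : Subgroup H).map H.subtype⁆ ≤ ⁅(⊤ : Subgroup G), (⊤ : Subgroup G)⁆ :=
          Subgroup.commutator_mono le_top le_top
        rw [← Subgroup.map_commutator] at h1
        exact h1 ⟨x, hx, rfl⟩
    · exact Subgroup.map_subtype_le _

end Cfsg.Agent.S1242
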