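import Cfsg.Statements.S1183
import Mathlib
import Cfsg.Agent.S1242
import Cfsg.Agent.S1182
import Cfsg.Agent.Lib.TwoFusion.Isolated

set_option autoImplicit false
open Cfsg

namespace Cfsg.Agent.S1183

/-- A group whose residual and commutator together generate it is its own residual. -/
theorem pResidual_eq_top_of_sup {X : Type*} [Group X] [Finite X] {p : ℕ} [Fact p.Prime]
    (h : Cfsg.pResidual p X ⊔ commutator X = ⊤) : Cfsg.pResidual p X = ⊤ := by
  classical
  have hp : p.Prime := Fact.out
  set N := Cfsg.pResidual p X with hN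
  haveI hNn : N.Normal := by
    constructor
    intro x hx g
    have h1 : N.map (MulAut.conj g).toMonoidHom ≤ N := by
      rw [hN, Cfsg.pResidual, Subgroup.map_le_iff_le_comap, Subgroup.closure_le]
      intro y hy
      apply Subgroup.subset_closure
      show Nat.Coprime (orderOf ((MulAut.conj g).toMonoidHom y)) p
      have : orderOf ((MulAut.conj g).toMonoidHom y) = orderOf y := MulEquiv.orderOf_eq (MulAut.conj g) y
      rw [this]
      exact hy
    exact h1 ⟨x, hx, rfl⟩
  have hpg : IsPGroup p (X ⧸ N) := by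
    intro q
    obtain ⟨x, rfl⟩ := QuotientGroup.mk_surjective q
    have hne : orderOf x ≠ 0 := (orderOf_pos x).ne'
    obtain ⟨a, m, hm, ham⟩ := Nat.exists_eq_pow_mul_and_not_dvd hne p hp.ne_one
    refine ⟨a, ?_⟩
    rw [← QuotientGroup.mk_pow, QuotientGroup.eq_one_iff]
    apply Subgroup.subset_closure
    show Nat.Coprime (orderOf (x ^ p ^ a)) p
    rw [orderOf_pow_of_dvd (pow_pos hp.pos a).ne' (Dvd.intro _ ham.symm), ham,
      Nat.mul_div_cancel_left _ (pow_pos hp.pos a)]
    exact ((Nat.Prime.coprime_iff_not_dvd hp).mpr hm).symm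
  haveI : Group.IsNilpotent (X ⧸ N) := hpg.isNilpotent
  have hsolv : Group.IsSolvable (X ⧸ N) := inferInstance
  -- the quotient is perfect
  have hperf : commutator (X ⧸ N) = ⊤ := by
    have h1 := congrArg (Subgroup.map (QuotientGroup.mk' N)) h
    rw [Subgroup.map_sup, ← MonoidHom.range_eq_map,
      MonoidHom.range_eq_top.mpr (QuotientGroup.mk'_surjective N)] at h1
    have h2 : N.map (QuotientGroup.mk' N) = ⊥ := by
      rw [eq_bot_iff]
      rintro _ ⟨x, hx, rfl⟩
      rw [Subgroup.mem_bot]
      exact (QuotientGroup.eq_one_iff _).mpr hx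
    rw [h2, bot_sup_eq] at h1
    have h3 : (commutator X).map (QuotientGroup.mk' N) ≤ commutator (X ⧸ N) := by
      rw [commutator_def, Subgroup.map_commutator]
      exact Subgroup.commutator_mono le_top le_top
    exact eq_top_iff.mpr (h1 ▸ h3)
  have htriv : ∀ n : ℕ, derivedSeries (X ⧸ N) n = ⊤ := by
    intro n
    induction n with
    | zero => rfl
    | succ n ih =>
      rw [derivedSeries_succ, ih]
      exact hperf
  obtain ⟨n, hn⟩ := hsolv.solvable
  have hbot : (⊤ : Subgroup (X ⧸ N)) = ⊥ := (htriv n).symm.trans hn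
  rw [eq_top_iff]
  intro x _
  have h3 : (x : X ⧸ N) ∈ (⊤ : Subgroup (X ⧸ N)) := Subgroup.mem_top _
  rw [hbot, Subgroup.mem_bot, QuotientGroup.eq_one_iff] at h3
  exact h3

/-- Let z be an isolated involution of the finite group G and C = C_G(z). Then the subgroup of G generated by its elements of odd order is all of G if and only if the subgroup of C generated by its elements of odd order is all of C. -/
theorem result {G : Type*} [Group G] [Finite G] (z : G) (hz : Cfsg.IsIsolatedInvolution z) : Cfsg.pResidual 2 G = ⊤ ↔ Cfsg.pResidual 2 ↥(Subgroup.centralizer ({z} : Set G)) = ⊤ := by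

  classical
  haveI : Fact (Nat.Prime 2) := ⟨Nat.prime_two⟩
  set C := Subgroup.centralizer ({z} : Set G) with hC
  have hz2 := Cfsg.Agent.Lib.TwoFusion.involution_sq hz.1
  constructor
  · intro hG
    -- `C` has odd index
    obtain ⟨S, hS⟩ : ∃ S : Sylow 2 G, z ∈ (S : Subgroup G) := by
      have hp : IsPGroup 2 (Subgroup.zpowers z) := by
        rw [IsPGroup.iff_card, Nat.card_zpowers, hz.1]
        exact ⟨1, rfl⟩
      obtain ⟨Q, hQ⟩ := hp.exists_le_sylow
      exact ⟨Q, hQ (Subgroup.mem_zpowers z)⟩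
    have hSC : (S : Subgroup G) ≤ C := by
      intro a ha
      rw [hC, Subgroup.mem_centralizer_singleton_iff]
      have h1 := Cfsg.Agent.Lib.TwoFusion.IsolatedOdd hz a
      have h2 : z * (a * z * a⁻¹) ∈ (S : Subgroup G) :=
        (S : Subgroup G).mul_mem hS ((S : Subgroup G).mul_mem ((S : Subgroup G).mul_mem ha hS) ((S : Subgroup G).inv_mem ha))
      obtain ⟨k, hk⟩ := IsPGroup.iff_orderOf.mp S.isPGroup' ⟨_, h2⟩
      rw [Subgroup.orderOf_mk] at hk
      have h3 : orderOf (z * (a * z * a⁻¹)) = 1 := by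
        rw [hk] at h1 ⊢
        rcases k with _ | k
        · simp
        · rw [pow_succ] at h1
          exact absurd h1 (by simp [Nat.odd_mul, parity_simps])
      have h4 := orderOf_eq_one_iff.mp h3
      have h5 : a * z * a⁻¹ = z := by
        have : a * z * a⁻¹ = z⁻¹ * (z * (a * z * a⁻¹)) := by group
        rw [this, h4, mul_one, Cfsg.Agent.Lib.TwoFusion.involution_inv hz.1]
      calc a * z = (a * z * a⁻¹) * a := by group
        _ = z * a := by rw [h5]
    have hidx : Nat.Coprime 2 C.index := by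
      rw [Nat.Prime.coprime_iff_not_dvd Nat.prime_two]
      intro h
      have h1 : C.index ∣ (S : Subgroup G).index := Subgroup.index_dvd_of_le hSC
      exact S.not_dvd_index (h.trans h1)
    have hfus : ∀ g ∈ C, (∃ k : ℕ, orderOf g = 2 ^ k) → ∀ a : G, a * g * a⁻¹ ∈ C →
        ∃ h ∈ C, h * g * h⁻¹ = a * g * a⁻¹ := by
      intro g hg _ a hag
      have h1 : Commute g z := Subgroup.mem_centralizer_singleton_iff.mp hg
      have h2 : Commute (a * g * a⁻¹) z := Subgroup.mem_centralizer_singleton_iff.mp hag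
      obtain ⟨c, -, hc, hce⟩ := Cfsg.Agent.S1182.result z hz ⊤ (by rw [Subgroup.mem_normalizer_iff]; intro y; simp) g (a * g * a⁻¹) (Subgroup.mem_top _)
        (Subgroup.mem_top _) h1 h2 a (Subgroup.mem_top _) rfl
      exact ⟨c, Subgroup.mem_centralizer_singleton_iff.mpr hc, hce⟩
    have key := Cfsg.Agent.S1242.result (p := 2) C hidx hfus
    rw [hG, top_sup_eq, top_inf_eq] at key
    have hsup : Cfsg.pResidual 2 ↥C ⊔ commutator ↥C = ⊤ := by
      rw [eq_top_iff]
      intro x _
      have h1 : (x : G) ∈ (Cfsg.pResidual 2 ↥C ⊔ commutator ↥C).map C.subtype := key ▸ x.2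
      obtain ⟨y, hy, hye⟩ := h1
      have : y = x := Subtype.ext hye
      rwa [← this]
    exact pResidual_eq_top_of_sup hsup
  · intro hC'
    rw [eq_top_iff]
    intro g _
    obtain ⟨k, hk1, -, hk3, -⟩ := Cfsg.Agent.Lib.TwoFusion.exists_odd_conj hz g
    have hc : k⁻¹ * g ∈ C := by
      rw [hC, Subgroup.mem_centralizer_singleton_iff]
      calc k⁻¹ * g * z = k⁻¹ * (g * z * g⁻¹) * g := by group
        _ = k⁻¹ * (k * z * k⁻¹) * g := by rw [hk3]
        _ = z * (k⁻¹ * g) := by group
    have h1 : k ∈ Cfsg.pResidual 2 G := by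
      apply Subgroup.subset_closure
      show Nat.Coprime (orderOf k) 2
      exact Nat.coprime_two_right.mpr hk1
    have h2 : k⁻¹ * g ∈ Cfsg.pResidual 2 G := by
      have h3 : (⟨k⁻¹ * g, hc⟩ : C) ∈ Cfsg.pResidual 2 ↥C := by rw [hC']; exact Subgroup.mem_top _
      have h4 : (Cfsg.pResidual 2 ↥C).map C.subtype ≤ Cfsg.pResidual 2 G := by
        rw [Cfsg.pResidual, Subgroup.map_le_iff_le_comap, Subgroup.closure_le]
        intro x hx
        apply Subgroup.subset_closure
        show Nat.Coprime (orderOf (x : G)) 2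
        rw [Subgroup.orderOf_coe]
        exact hx
      exact h4 ⟨_, h3, rfl⟩
    have e : g = k * (k⁻¹ * g) := by group
    rw [e]
    exact Subgroup.mul_mem _ h1 h2

end Cfsg.Agent.S1183
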