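import Cfsg.Statements.S1184
import Mathlib
import Cfsg.Agent.Lib.TwoFusion.Isolated

set_option autoImplicit false
open Cfsg

namespace Cfsg.Agent.S1184



/-- Let z be an isolated involution of the finite group G. If s and t are distinct conjugates of z, then st does not commute with z. -/
theorem result {G : Type*} [Group G] [Finite G] (z : G) (hz : Cfsg.IsIsolatedInvolution z) (g h : G) (hne : g * z * g⁻¹ ≠ h * z * h⁻¹) : ¬ Commute (g * z * g⁻¹ * (h * z * h⁻¹)) z := by

  intro hcomm
  apply hne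
  have hz2 := Cfsg.Agent.Lib.TwoFusion.involution_sq hz.1
  have hzi := Cfsg.Agent.Lib.TwoFusion.involution_inv hz.1
  set s := g * z * g⁻¹ with hs
  set t := h * z * h⁻¹ with ht
  have hs2 : s * s = 1 := Cfsg.Agent.Lib.TwoFusion.involution_sq (Cfsg.Agent.Lib.TwoFusion.orderOf_conj_two hz.1 g)
  have ht2 : t * t = 1 := Cfsg.Agent.Lib.TwoFusion.involution_sq (Cfsg.Agent.Lib.TwoFusion.orderOf_conj_two hz.1 h)
  have hsi : s⁻¹ = s := inv_eq_of_mul_eq_one_left hs2
  have hti : t⁻¹ = t := inv_eq_of_mul_eq_one_left ht2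
  have ha : Odd (orderOf (z * s)) := Cfsg.Agent.Lib.TwoFusion.IsolatedOdd hz g
  have hb : Odd (orderOf (z * t)) := Cfsg.Agent.Lib.TwoFusion.IsolatedOdd hz h
  have hc : s * t * z = z * (s * t) := hcomm.eq
  have key : (z * s) * (z * s) = (z * t) * (z * t) := by
    have hai : (z * s)⁻¹ = s * z := by rw [mul_inv_rev, hzi, hsi]
    have hbi : (z * t)⁻¹ = t * z := by rw [mul_inv_rev, hzi, hti]
    have h1 : (z * s) * (z * t)⁻¹ = (z * s)⁻¹ * (z * t) := by
      rw [hai, hbi]
      have e1 : z * s * (t * z) = z * (s * t) * z := by group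
      have e2 : s * z * (z * t) = s * (z * z) * t := by group
      rw [e1, e2, ← hc, hz2, mul_one, mul_assoc (s * t), hz2, mul_one]
    have h2 : (z * s) * ((z * s) * (z * t)⁻¹) = z * t := by
      rw [h1, ← mul_assoc, mul_inv_cancel, one_mul]
    calc (z * s) * (z * s) = ((z * s) * ((z * s) * (z * t)⁻¹)) * (z * t) := by group
      _ = (z * t) * (z * t) := by rw [h2]
  have heq := Cfsg.Agent.Lib.TwoFusion.sq_inj_of_odd ha hb key
  exact mul_left_cancel heq

end Cfsg.Agent.S1184
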