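import Cfsg.Statements.S1185
import Mathlib
import Cfsg.Agent.Lib.TwoFusion.Isolated

set_option autoImplicit false
open Cfsg

namespace Cfsg.Agent.S1185



/-- Let z be an isolated involution of the finite group G with centralizer C. Then for every g ∈ G there is exactly one element k in the coset gC that has odd order and is inverted by z. -/
theorem result {G : Type*} [Group G] [Finite G] (z : G) (hz : Cfsg.IsIsolatedInvolution z) (g : G) : ∃! k : G, (Odd (orderOf k) ∧ z * k * z⁻¹ = k⁻¹) ∧ g⁻¹ * k ∈ Subgroup.centralizer ({z} : Set G) := by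

  obtain ⟨k, hk1, hk2, hk3, _⟩ := Cfsg.Agent.Lib.TwoFusion.exists_odd_conj hz g
  refine ⟨k, ⟨⟨hk1, hk2⟩, ?_⟩, ?_⟩
  · rw [Subgroup.mem_centralizer_singleton_iff]
    -- (g⁻¹ k) z = z (g⁻¹ k)
    have h1 : k * z = g * z * g⁻¹ * k := by
      calc k * z = (k * z * k⁻¹) * k := by group
        _ = _ := by rw [hk3]
    calc g⁻¹ * k * z = g⁻¹ * (k * z) := by group
      _ = g⁻¹ * (g * z * g⁻¹ * k) := by rw [h1]
      _ = z * (g⁻¹ * k) := by group
  · rintro k' ⟨⟨hk1', hk2'⟩, hk3'⟩
    apply Cfsg.Agent.Lib.TwoFusion.odd_conj_unique hz.1 hk1' hk1 hk2' hk2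
    rw [hk3]
    rw [Subgroup.mem_centralizer_singleton_iff] at hk3'
    have h2 : k' * z = g * z * g⁻¹ * k' := by
      calc k' * z = g * (g⁻¹ * k' * z) := by group
        _ = g * (z * (g⁻¹ * k')) := by rw [hk3']
        _ = g * z * g⁻¹ * k' := by group
    rw [h2]; group

end Cfsg.Agent.S1185
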