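import Cfsg.Statements.S1186
import Mathlib
import Cfsg.Agent.Lib.TwoFusion.IsolatedCount

set_option autoImplicit false
open Cfsg

namespace Cfsg.Agent.S1186

open Cfsg.Agent.Lib.TwoFusion in
/-- `C_K(w)` is in bijection with `C_X(w)`. -/
theorem card_K_fix {G : Type*} [Group G] [Finite G] {z : G} (hz : Cfsg.IsIsolatedInvolution z) {w : G}
    (hw : Commute w z) :
    Nat.card {k : G // Odd (orderOf k) ∧ z * k * z⁻¹ = k⁻¹ ∧ Commute k w} = Nat.card (ConjFix z w) := by
  apply Nat.card_eq_of_bijective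
    (fun k => (⟨k.1 * z * k.1⁻¹, isConj_iff.mpr ⟨k.1, rfl⟩, by
      obtain ⟨k, hk1, hk2, hk3⟩ := k
      show k * z * k⁻¹ * w = w * (k * z * k⁻¹)
      have h1 : k⁻¹ * w = w * k⁻¹ := by
        have : k * w = w * k := hk3.eq
        calc k⁻¹ * w = k⁻¹ * (w * k) * k⁻¹ := by group
          _ = k⁻¹ * (k * w) * k⁻¹ := by rw [this]
          _ = w * k⁻¹ := by group
      calc k * z * k⁻¹ * w = k * z * (k⁻¹ * w) := by group
        _ = k * z * (w * k⁻¹) := by rw [h1]
        _ = k * (z * w) * k⁻¹ := by group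
        _ = k * (w * z) * k⁻¹ := by rw [hw.eq]
        _ = (k * w) * z * k⁻¹ := by group
        _ = (w * k) * z * k⁻¹ := by rw [hk3.eq]
        _ = w * (k * z * k⁻¹) := by group⟩ : ConjFix z w))
  constructor
  · rintro ⟨k₁, h₁, i₁, _⟩ ⟨k₂, h₂, i₂, _⟩ h
    have h3 : k₁ * z * k₁⁻¹ = k₂ * z * k₂⁻¹ := congrArg Subtype.val h
    exact Subtype.ext (odd_conj_unique hz.1 h₁ h₂ i₁ i₂ h3)
  · rintro ⟨t, ht1, ht2⟩
    obtain ⟨g, rfl⟩ := isConj_iff.mp ht1
    obtain ⟨k, hk1, hk2, hk3, _⟩ := exists_odd_conj hz g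
    have hk' : w * k * w⁻¹ = k := by
      apply odd_conj_unique hz.1 _ hk1 _ hk2
      · have e : (w * k * w⁻¹) * z * (w * k * w⁻¹)⁻¹ = w * (k * (w⁻¹ * z * w) * k⁻¹) * w⁻¹ := by group
        have e2 : w⁻¹ * z * w = z := by
          have := hw.eq
          calc w⁻¹ * z * w = w⁻¹ * (z * w) := by group
            _ = w⁻¹ * (w * z) := by rw [this]
            _ = z := by group
        rw [e, e2, hk3]
        have : w * (g * z * g⁻¹) = (g * z * g⁻¹) * w := ht2.eq.symm
        rw [this]; group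
      · have h5 : Odd (orderOf (MulAut.conj w k)) := by
          rw [MulEquiv.orderOf_eq]; exact hk1
        exact h5
      · have e2 : z * w = w * z := hw.eq.symm
        have e3 : z⁻¹ * w = w * z⁻¹ := by
          calc z⁻¹ * w = z⁻¹ * (w * z) * z⁻¹ := by group
            _ = z⁻¹ * (z * w) * z⁻¹ := by rw [e2]
            _ = w * z⁻¹ := by group
        have e4 : w⁻¹ * z = z * w⁻¹ := by
          calc w⁻¹ * z = w⁻¹ * (z * w) * w⁻¹ := by group
            _ = w⁻¹ * (w * z) * w⁻¹ := by rw [e2]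
            _ = z * w⁻¹ := by group
        have e5 : z * (w * k * w⁻¹) * z⁻¹ = w * (z * k * z⁻¹) * w⁻¹ := by
          calc z * (w * k * w⁻¹) * z⁻¹ = (z * w) * k * w⁻¹ * z⁻¹ := by group
            _ = (w * z) * k * w⁻¹ * z⁻¹ := by rw [e2]
            _ = w * z * k * (z⁻¹ * w⁻¹) := by
                have e6 : w⁻¹ * z⁻¹ = z⁻¹ * w⁻¹ := by
                  rw [← mul_inv_rev, ← mul_inv_rev, e2]
                rw [mul_assoc (w * z * k), e6]
            _ = w * (z * k * z⁻¹) * w⁻¹ := by group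
        rw [e5, hk2]; group
    refine ⟨⟨k, hk1, hk2, ?_⟩, ?_⟩
    · show k * w = w * k
      calc k * w = (w * k * w⁻¹) * w := by rw [hk']
        _ = w * k := by group
    · exact Subtype.ext hk3

/-- Let z be an isolated involution of the finite group G, C = C_G(z), K the set of elements of odd order inverted by z, and s an involution of C. Then |G| = |C| · |C_K(sz)| · |C_K(s)|. -/
theorem result {G : Type*} [Group G] [Finite G] (z : G) (hz : Cfsg.IsIsolatedInvolution z) (s : G) (hs : orderOf s = 2) (hsz : Commute s z) : Nat.card G = Nat.card (Subgroup.centralizer ({z} : Set G)) * Nat.card {k : G // Odd (orderOf k) ∧ z * k * z⁻¹ = k⁻¹ ∧ Commute k (s * z)} * Nat.card {k : G // Odd (orderOf k) ∧ z * k * z⁻¹ = k⁻¹ ∧ Commute k s} := by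

  have hs2 : s * s = 1 := Cfsg.Agent.Lib.TwoFusion.involution_sq hs
  have hszz : Commute (s * z) z := by
    show s * z * z = z * (s * z)
    rw [mul_assoc, ← mul_assoc z s z, ← hsz.eq, mul_assoc]
  rw [card_K_fix hz hszz, card_K_fix hz hsz, Cfsg.Agent.Lib.TwoFusion.card_eq_centralizer_mul_conjSet z,
    Cfsg.Agent.Lib.TwoFusion.card_conjSet_eq hz hs2 hsz]
  ring

end Cfsg.Agent.S1186
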