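import Cfsg.Statements.S1225
import Cfsg.Agent.Lib.TwoFusion.StrongEmb

set_option autoImplicit false
open Cfsg

namespace Cfsg.Agent.S1225



/-- Let H be a strongly embedded subgroup of the finite group G, u an involution outside H and D = H ∩ uHu⁻¹. Then any two involutions of H are conjugate by an element of D, and any two involutions of G are conjugate in G. -/
theorem result {G : Type*} [Group G] [Finite G] (H : Subgroup G) (hH : Cfsg.IsStronglyEmbedded H) (u : G) (hu : orderOf u = 2) (huH : u ∉ H) (s t : G) (hs : orderOf s = 2) (hsH : s ∈ H) (ht : orderOf t = 2) (htH : t ∈ H) : (∃ d ∈ (H ⊓ H.map (MulAut.conj u).toMonoidHom), d * s * d⁻¹ = t) ∧ ∀ a b : G, orderOf a = 2 → orderOf b = 2 → IsConj a b := by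

  constructor
  · obtain ⟨d, hd1, hd2, -, hd4⟩ := Cfsg.Agent.Lib.TwoFusion.exists_conj_inverted hH hu huH hs hsH ht htH
    refine ⟨d, ⟨hd1, ⟨_, hd2, ?_⟩⟩, hd4⟩
    simp only [MulEquiv.coe_toMonoidHom, MulAut.conj_apply]
    group
  · intro a b ha hb
    exact Cfsg.Agent.Lib.TwoFusion.isConj_of_involutions hH hu huH ha hb

end Cfsg.Agent.S1225
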