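import Cfsg.Statements.S1231
import Cfsg.Agent.Lib.TwoFusion.Basic
import Cfsg.Agent.Lib.Transfer.Frobenius
import Cfsg.Agent.Lib.TwoFusion.DihSylow

set_option autoImplicit false
open Cfsg

namespace Cfsg.Agent.S1231

theorem prank_of_injective {p k : ℕ} {A B : Type*} [Group A] [Group B] (f : A →* B)
    (hf : Function.Injective f) (h : Cfsg.PRankLE p k B) : Cfsg.PRankLE p k A := by
  intro E hEc hEp
  have h1 := h (E.map f) ⟨⟨by
    rintro ⟨_, a, ha, rfl⟩ ⟨_, b, hb, rfl⟩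
    apply Subtype.ext
    show f a * f b = f b * f a
    rw [← map_mul, ← map_mul]
    have := hEc.is_comm.comm ⟨a, ha⟩ ⟨b, hb⟩
    rw [show a * b = b * a from congrArg Subtype.val this]⟩⟩ (by
    rintro _ ⟨a, ha, rfl⟩
    rw [← map_pow, hEp a ha, map_one])
  rwa [Subgroup.card_map_of_injective hf] at h1

theorem prank_mono {p k : ℕ} {G : Type*} [Group G] {A B : Subgroup G} (hAB : A ≤ B)
    (h : Cfsg.PRankLE p k B) : Cfsg.PRankLE p k A :=
  prank_of_injective (Subgroup.inclusion hAB) (Subgroup.inclusion_injective hAB) h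

theorem prank_map {p k : ℕ} {G : Type*} [Group G] {A : Subgroup G} {f : G →* G}
    (hf : Function.Injective f) (h : Cfsg.PRankLE p k (A.map f)) : Cfsg.PRankLE p k A :=
  prank_of_injective (A.equivMapOfInjective f hf).toMonoidHom (A.equivMapOfInjective f hf).injective h

theorem card_le_of_prank {p k : ℕ} {A : Type*} [Group A] (h : Cfsg.PRankLE p k A)
    (hc : IsMulCommutative A) (he : ∀ a : A, a ^ p = 1) : Nat.card A ≤ p ^ k := by
  have h1 := h ⊤ ⟨⟨fun a b => Subtype.ext (hc.is_comm.comm a.1 b.1)⟩⟩ (fun a _ => he a)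
  rwa [Subgroup.card_top] at h1

/-- Let H be a subgroup of the finite group G, p a prime, k ≥ 1, and P a Sylow p-subgroup of H whose p-rank is at least k. Then N_G(X) ≤ H for every subgroup X of P of p-rank at least k if and only if H ∩ gHg⁻¹ has p-rank less than k for every g ∉ H. -/
theorem result {G : Type*} [Group G] [Finite G] {p : ℕ} [Fact p.Prime] (k : ℕ) (hk : 1 ≤ k) (H : Subgroup G) (P : Sylow p ↥H) (hP : ¬ Cfsg.PRankLE p (k - 1) ↥(P : Subgroup ↥H)) : (∀ X : Subgroup G, X ≤ (P : Subgroup ↥H).map H.subtype → ¬ Cfsg.PRankLE p (k - 1) ↥X → Subgroup.normalizer (X : Set G) ≤ H) ↔ (∀ g : G, g ∉ H → Cfsg.PRankLE p (k - 1) ↥(H ⊓ H.map (MulAut.conj g).toMonoidHom)) := by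

  classical
  open Cfsg.Agent.Lib.TwoFusion Subgroup in
  set P' : Subgroup G := (P : Subgroup H).map H.subtype with hP'
  have hP'H : P' ≤ H := by
    rintro _ ⟨a, -, rfl⟩
    exact a.2
  have hP'p : IsPGroup p P' := P.2.map _
  have hRkP' : ¬ Cfsg.PRankLE p (k - 1) P' := fun h => hP (prank_of_injective
    ((P : Subgroup H).equivMapOfInjective H.subtype H.subtype_injective).toMonoidHom
    ((P : Subgroup H).equivMapOfInjective H.subtype H.subtype_injective).injective h)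
  have hconj : ∀ Q : Subgroup G, Q ≤ H → IsPGroup p Q → ∃ h ∈ H, Q.map (MulAut.conj h).toMonoidHom ≤ P' := by
    intro Q hQH hQ
    have h1 : IsPGroup p (Q.subgroupOf H) := hQ.of_equiv (Subgroup.subgroupOfEquivOfLe hQH).symm
    obtain ⟨P₁, hP₁⟩ := h1.exists_le_sylow
    obtain ⟨h, hh⟩ := MulAction.exists_smul_eq H P₁ P
    refine ⟨h, h.2, ?_⟩
    rintro _ ⟨q, hq, rfl⟩
    have h2 : (⟨q, hQH hq⟩ : H) ∈ (P₁ : Subgroup H) := hP₁ hq
    refine ⟨MulAut.conj h ⟨q, hQH hq⟩, ?_, rfl⟩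
    rw [← hh, Sylow.coe_subgroup_smul]
    exact ⟨_, h2, rfl⟩
  constructor
  · intro hN
    by_contra hcon
    push Not at hcon
    obtain ⟨g₀, hg₀, hr₀⟩ := hcon
    -- the family of candidates
    let Good : Subgroup G → Prop := fun Q =>
      (∃ g, g ∉ H ∧ Q ≤ H ⊓ H.map (MulAut.conj g).toMonoidHom) ∧ IsPGroup p Q ∧ ¬ Cfsg.PRankLE p (k - 1) Q
    have hne : ∃ Q, Good Q := by
      have hr₁ := hr₀
      unfold Cfsg.PRankLE at hr₁
      push Not at hr₁
      obtain ⟨E, hEc, hEp, hcard⟩ := hr₁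
      refine ⟨E.map (Subgroup.subtype _), ⟨g₀, hg₀, ?_⟩, ?_, ?_⟩
      · rintro _ ⟨a, -, rfl⟩
        exact a.2
      · apply IsPGroup.map
        intro a
        exact ⟨1, by
          apply Subtype.ext
          rw [pow_one]
          exact hEp a a.2⟩
      · intro h1
        have h2 : Cfsg.PRankLE p (k - 1) E := prank_of_injective
          (E.equivMapOfInjective (Subgroup.subtype _) (Subgroup.subtype_injective _)).toMonoidHom
          (E.equivMapOfInjective (Subgroup.subtype _) (Subgroup.subtype_injective _)).injective h1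
        have h3 := card_le_of_prank h2 hEc (fun a => Subtype.ext (hEp a a.2))
        omega
    haveI : Nonempty {Q // Good Q} := by
      obtain ⟨Q, hQ⟩ := hne
      exact ⟨⟨Q, hQ⟩⟩
    obtain ⟨⟨Q, ⟨g, hg, hQle⟩, hQp, hQr⟩, hmax⟩ := Finite.exists_max (fun Q : {Q // Good Q} => Nat.card Q.1)
    have hmax' : ∀ Q' : Subgroup G, Good Q' → Nat.card Q' ≤ Nat.card Q := fun Q' hQ' => hmax ⟨Q', hQ'⟩
    -- first conjugation
    obtain ⟨h₁, hh₁, hQ₁⟩ := hconj Q (hQle.trans inf_le_left) hQp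
    set Q₁ := Q.map (MulAut.conj h₁).toMonoidHom with hQ₁d
    set g₁ := h₁ * g with hg₁
    have hg₁H : g₁ ∉ H := fun h => hg (by
      have : g = h₁⁻¹ * g₁ := by rw [hg₁]; group
      rw [this]
      exact H.mul_mem (H.inv_mem hh₁) h)
    have hQ₁H : Q₁ ≤ H := hQ₁.trans hP'H
    have hQ₁g : ∀ x ∈ Q₁, g₁⁻¹ * x * g₁ ∈ H := by
      intro x hx
      rw [hQ₁d, mem_conj_map] at hx
      have h1 : h₁⁻¹ * x * h₁ ∈ H.map (MulAut.conj g).toMonoidHom := (hQle hx).2
      rw [mem_conj_map] at h1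
      have e : g₁⁻¹ * x * g₁ = g⁻¹ * (h₁⁻¹ * x * h₁) * g := by
        rw [hg₁]
        group
      rw [e]
      exact h1
    have hQ₁p : IsPGroup p Q₁ := hQp.map _
    have hcQ₁ : Nat.card Q₁ = Nat.card Q := Subgroup.card_map_of_injective (MulAut.conj h₁).injective
    have hQ₁r : ¬ Cfsg.PRankLE p (k - 1) Q₁ := fun h =>
      hQr (prank_map (MulAut.conj h₁).injective h)
    -- second conjugation
    set Q₂ := Q₁.map (MulAut.conj g₁⁻¹).toMonoidHom with hQ₂d
    have hQ₂H : Q₂ ≤ H := by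
      rintro _ ⟨x, hx, rfl⟩
      have := hQ₁g x hx
      simpa using this
    obtain ⟨h₂, hh₂, hQ₃⟩ := hconj Q₂ hQ₂H (hQ₁p.map _)
    set Q₃ := Q₂.map (MulAut.conj h₂).toMonoidHom with hQ₃d
    set g₂ := g₁ * h₂⁻¹ with hg₂
    have hg₂H : g₂ ∉ H := fun h => hg₁H (by
      have : g₁ = g₂ * h₂ := by rw [hg₂]; group
      rw [this]
      exact H.mul_mem h hh₂)
    have hQ₃eq : Q₃ = Q₁.map (MulAut.conj g₂⁻¹).toMonoidHom := by
      rw [hQ₃d, hQ₂d, conj_map_mul, hg₂]
      congr 3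
      group
    have hQ₁eq : Q₁ = Q₃.map (MulAut.conj g₂).toMonoidHom := by
      rw [hQ₃eq, conj_map_mul, mul_inv_cancel, conj_map_one]
    have hcQ₃ : Nat.card Q₃ = Nat.card Q₁ := by
      rw [hQ₃eq]
      exact Subgroup.card_map_of_injective (MulAut.conj g₂⁻¹).injective
    have hQ₃r : ¬ Cfsg.PRankLE p (k - 1) Q₃ := fun h => hQ₁r (by
      rw [hQ₃eq] at h
      exact prank_map (MulAut.conj g₂⁻¹).injective h)
    by_cases hQ₃P : Q₃ = P'
    · -- `g₂` normalizes `P'`
      have hcard : Nat.card P' ≤ Nat.card Q₁ := by rw [← hcQ₃, hQ₃P]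
      have hQ₁P : Q₁ = P' := Subgroup.eq_of_le_of_card_ge hQ₁ hcard
      have hn : g₂ ∈ normalizer (P' : Set G) := by
        apply normalizer_of_conj_mem
        intro a ha
        rw [← hQ₁P, hQ₁eq, hQ₃P]
        exact conj_mem_conj_map ha
      exact hg₂H (hN P' le_rfl hRkP' hn)
    · -- the normalizer grows
      obtain ⟨y, hyP, hyN, hyQ⟩ := Cfsg.Agent.Lib.Transfer.exists_mem_normalizer_of_ne P' Q₃ hP'p hQ₃ hQ₃P
      set B := P' ⊓ normalizer (Q₃ : Set G) with hB
      set B' := B.map (MulAut.conj g₂).toMonoidHom with hB'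
      have hQ₃B : Q₃ ≤ B := fun x hx => ⟨hQ₃ hx, Subgroup.le_normalizer hx⟩
      have hQ₁B' : Q₁ ≤ B' := by
        rw [hQ₁eq]
        exact Subgroup.map_mono hQ₃B
      have hgood : Good B' := by
        refine ⟨⟨g₂, hg₂H, le_inf ?_ ?_⟩, ?_, ?_⟩
        · rintro _ ⟨b, ⟨hbP, hbN⟩, rfl⟩
          apply hN Q₁ hQ₁ hQ₁r
          apply normalizer_of_conj_mem
          intro a ha
          rw [hQ₁eq] at ha ⊢
          obtain ⟨a', ha', rfl⟩ := ha
          refine ⟨b * a' * b⁻¹, (mem_normalizer_iff.mp hbN _).mp ha', ?_⟩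
          simp only [MulEquiv.toMonoidHom_eq_coe, MonoidHom.coe_coe, MulAut.conj_apply]
          group
        · rintro _ ⟨b, ⟨hbP, hbN⟩, rfl⟩
          exact ⟨b, hP'H hbP, rfl⟩
        · exact (hP'p.to_le inf_le_left).map _
        · intro h
          exact hQ₁r (prank_mono hQ₁B' h)
      have h1 := hmax' B' hgood
      have h2 : Nat.card B' = Nat.card B := Subgroup.card_map_of_injective (MulAut.conj g₂).injective
      have h3 : Nat.card B ≤ Nat.card Q₃ := by
        rw [← h2, hcQ₃, hcQ₁]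
        exact h1
      have h4 := Subgroup.eq_of_le_of_card_ge hQ₃B h3
      apply hyQ
      rw [h4]
      exact ⟨hyP, hyN⟩
  · intro hH X hX hXr g hg
    by_contra hgH
    apply hXr
    have hle : X ≤ H ⊓ H.map (MulAut.conj g).toMonoidHom := by
      intro x hx
      refine ⟨hP'H (hX hx), ?_⟩
      show x ∈ H.map (MulAut.conj g).toMonoidHom
      rw [mem_conj_map]
      have h1 := (mem_normalizer_iff.mp (inv_mem hg) x).mp hx
      have h2 := hP'H (hX h1)
      simpa using h2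
    exact prank_mono hle (hH g hgH)

end Cfsg.Agent.S1231
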