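import Cfsg.Statements.S1241
import Mathlib

set_option autoImplicit false
open Cfsg

namespace Cfsg.Agent.S1241



/-- Let G be a finite group, p a prime, H a subgroup of index prime to p, K a subgroup of H normal in H with H/K commutative, and g ∈ H ∖ K an element of p-power order such that for all integers m and all a ∈ G with a g^m a⁻¹ ∈ H one has a g^m a⁻¹ ∈ g^m K. Then g ∉ G'. -/
theorem result {G : Type*} [Group G] [Finite G] {p : ℕ} [Fact p.Prime] (H K : Subgroup G) (hHK : K ≤ H) (hKn : (K.subgroupOf H).Normal) (hab : ∀ x ∈ H, ∀ y ∈ H, x * y * x⁻¹ * y⁻¹ ∈ K) (hidx : Nat.Coprime p H.index) (g : G) (hgH : g ∈ H) (hgK : g ∉ K) (hgp : ∃ k : ℕ, orderOf g = p ^ k) (hctrl : ∀ (m : ℤ) (a : G), a * g ^ m * a⁻¹ ∈ H → (a * g ^ m * a⁻¹) * (g ^ m)⁻¹ ∈ K) : g ∉ commutator G := by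

  classical
  intro hg
  haveI := hKn
  let K' : Subgroup H := K.subgroupOf H
  letI : CommGroup (H ⧸ K') :=
    { (inferInstance : Group (H ⧸ K')) with
      mul_comm := by
        intro a b
        obtain ⟨x, rfl⟩ := QuotientGroup.mk_surjective a
        obtain ⟨y, rfl⟩ := QuotientGroup.mk_surjective b
        have h1 : x * y * x⁻¹ * y⁻¹ ∈ K' := hab x x.2 y y.2
        have h2 : ((x * y * x⁻¹ * y⁻¹ : H) : H ⧸ K') = 1 := (QuotientGroup.eq_one_iff _).mpr h1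
        have h3 : (x : H ⧸ K') * (y : H ⧸ K') * (x : H ⧸ K')⁻¹ * (y : H ⧸ K')⁻¹ = 1 := h2
        calc (x : H ⧸ K') * (y : H ⧸ K')
            = ((x : H ⧸ K') * (y : H ⧸ K') * (x : H ⧸ K')⁻¹ * (y : H ⧸ K')⁻¹) * ((y : H ⧸ K') * (x : H ⧸ K')) := by
              group
          _ = (y : H ⧸ K') * (x : H ⧸ K') := by rw [h3, one_mul] }
  let ϕ : H →* (H ⧸ K') := QuotientGroup.mk' K'
  let := H.fintypeQuotientOfFiniteIndex
  have hV : ϕ.transfer g = ϕ ⟨g, hgH⟩ ^ H.index := by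
    rw [MonoidHom.transfer_eq_prod_quotient_orbitRel_zpowers_quot, Subgroup.index_eq_sum_minimalPeriod H g,
      ← Finset.prod_pow_eq_pow_sum]
    apply Finset.prod_congr rfl
    intro q _
    set n := Function.minimalPeriod (g • ·) q.out with hn
    set a : G := q.out.out with ha
    have hmem : a⁻¹ * g ^ n * a ∈ H := QuotientGroup.out_conj_pow_minimalPeriod_mem H g q.out
    have h1 := hctrl (n : ℤ) a⁻¹ (by simpa using hmem)
    have h2 : (a⁻¹ * g ^ n * a) * (g ^ n)⁻¹ ∈ K := by simpa using h1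
    have h3 : ϕ ⟨a⁻¹ * g ^ n * a, hmem⟩ = ϕ (⟨g, hgH⟩ ^ n) := by
      apply (QuotientGroup.eq_iff_div_mem).mpr
      show _ ∈ K
      simpa [div_eq_mul_inv] using h2
    rw [map_pow] at h3
    exact h3
  have hV1 : ϕ.transfer g = 1 := Abelianization.commutator_subset_ker (ϕ.transfer) hg
  have h4 : ϕ ⟨g, hgH⟩ ^ H.index = 1 := by rw [← hV, hV1]
  have h5 : orderOf (ϕ ⟨g, hgH⟩) ∣ H.index := orderOf_dvd_of_pow_eq_one h4
  obtain ⟨k, hk⟩ := hgp
  have h6 : orderOf (ϕ ⟨g, hgH⟩) ∣ p ^ k := by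
    rw [← hk]
    apply orderOf_dvd_of_pow_eq_one
    rw [← map_pow]
    have : (⟨g, hgH⟩ : H) ^ orderOf g = 1 := by
      apply Subtype.ext
      simp [pow_orderOf_eq_one]
    rw [this, map_one]
  have h7 : Nat.Coprime (p ^ k) H.index := Nat.Coprime.pow_left k hidx
  have h8 : orderOf (ϕ ⟨g, hgH⟩) = 1 := Nat.eq_one_of_dvd_coprimes h7 h6 h5
  have h9 : ϕ ⟨g, hgH⟩ = 1 := orderOf_eq_one_iff.mp h8
  have h10 : (⟨g, hgH⟩ : H) ∈ K' := (QuotientGroup.eq_one_iff _).mp h9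
  exact hgK h10

end Cfsg.Agent.S1241
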