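import Cfsg.Statements.S1243
import Mathlib
import Cfsg.Agent.Lib.TwoFusion.Basic

set_option autoImplicit false
open Cfsg

namespace Cfsg.Agent.S1243



/-- Let T be a Sylow p-subgroup of the finite group G and W ≤ T a subgroup weakly closed in T. If d and g d g⁻¹ both centralize W, then g d g⁻¹ = h d h⁻¹ for some h ∈ N_G(W). -/
theorem result {G : Type*} [Group G] [Finite G] {p : ℕ} [Fact p.Prime] (T : Sylow p G) (W : Subgroup G) (hW : Cfsg.IsWeaklyClosed W (T : Subgroup G)) (d g : G) (hd : d ∈ Subgroup.centralizer (W : Set G)) (hgd : g * d * g⁻¹ ∈ Subgroup.centralizer (W : Set G)) : ∃ h ∈ Subgroup.normalizer (W : Set G), h * d * h⁻¹ = g * d * g⁻¹ := by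

  classical
  have hWT : W ≤ T := hW.1
  set d' := g * d * g⁻¹ with hd'
  set C := Subgroup.centralizer ({d'} : Set G) with hC
  have hWC : W ≤ C := by
    intro x hx
    rw [hC, Subgroup.mem_centralizer_singleton_iff]
    exact (Subgroup.mem_centralizer_iff.mp hgd) x hx
  have hW'C : W.map (MulAut.conj g).toMonoidHom ≤ C := by
    intro x hx
    rw [hC, Subgroup.mem_centralizer_singleton_iff]
    rw [Cfsg.Agent.Lib.TwoFusion.mem_conj_map] at hx
    have := (Subgroup.mem_centralizer_iff.mp hd) _ hx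
    -- this : (g⁻¹ * x * g) * d = d * (g⁻¹ * x * g)
    have h2 : g * ((g⁻¹ * x * g) * d) * g⁻¹ = g * (d * (g⁻¹ * x * g)) * g⁻¹ := by rw [this]
    have e1 : g * ((g⁻¹ * x * g) * d) * g⁻¹ = x * (g * d * g⁻¹) := by group
    have e2 : g * (d * (g⁻¹ * x * g)) * g⁻¹ = (g * d * g⁻¹) * x := by group
    rw [e1, e2] at h2
    exact h2
  have hpT : IsPGroup p (T : Subgroup G) := T.isPGroup'
  have hpW : IsPGroup p W := hpT.to_le hWT
  have hpW' : IsPGroup p (W.map (MulAut.conj g).toMonoidHom) := hpW.map _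
  -- subgroups of `C`
  have hpWC : IsPGroup p (W.subgroupOf C) := hpW.of_injective (W.subgroupOfEquivOfLe hWC).toMonoidHom
    (W.subgroupOfEquivOfLe hWC).injective
  have hpWC' : IsPGroup p ((W.map (MulAut.conj g).toMonoidHom).subgroupOf C) :=
    hpW'.of_injective ((W.map (MulAut.conj g).toMonoidHom).subgroupOfEquivOfLe hW'C).toMonoidHom
    ((W.map (MulAut.conj g).toMonoidHom).subgroupOfEquivOfLe hW'C).injective
  obtain ⟨P₁, hP₁⟩ := hpWC.exists_le_sylow
  obtain ⟨P₂, hP₂⟩ := hpWC'.exists_le_sylow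
  obtain ⟨c, hc⟩ := MulAction.exists_smul_eq C P₂ P₁
  -- `c` carries g W g⁻¹ into P₁
  have hcW : (W.map (MulAut.conj ((c : G) * g)).toMonoidHom).subgroupOf C ≤ (P₁ : Subgroup C) := by
    intro x hx
    rw [Subgroup.mem_subgroupOf, Cfsg.Agent.Lib.TwoFusion.mem_conj_map] at hx
    rw [← hc, Sylow.coe_subgroup_smul, Subgroup.mem_pointwise_smul_iff_inv_smul_mem]
    apply hP₂
    rw [Subgroup.mem_subgroupOf, Cfsg.Agent.Lib.TwoFusion.mem_conj_map]
    have h5 : (((MulAut.conj c)⁻¹ • x : C) : G) = (c : G)⁻¹ * x * c := by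
      rw [MulAut.smul_def, MulAut.conj_inv_apply]
      rfl
    rw [h5]
    have : g⁻¹ * ((c : G)⁻¹ * x * c) * g = ((c : G) * g)⁻¹ * (x : G) * ((c : G) * g) := by
      group
    rw [this]; exact hx
  -- map P₁ into a Sylow of G
  have hpP₁ : IsPGroup p ((P₁ : Subgroup C).map C.subtype) := (P₁.isPGroup').map _
  obtain ⟨R, hR⟩ := hpP₁.exists_le_sylow
  have hWR : W ≤ R := by
    intro x hx
    apply hR
    exact ⟨⟨x, hWC hx⟩, hP₁ (by simpa [Subgroup.mem_subgroupOf] using hx), rfl⟩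
  have hcWR : W.map (MulAut.conj ((c : G) * g)).toMonoidHom ≤ R := by
    intro x hx
    have hxC : x ∈ C := by
      have h3 : x = (c : G) * (g * (((c : G) * g)⁻¹ * x * ((c : G) * g)) * g⁻¹) * (c : G)⁻¹ := by group
      rw [Cfsg.Agent.Lib.TwoFusion.mem_conj_map] at hx
      rw [h3]
      refine C.mul_mem (C.mul_mem c.2 (hW'C ?_)) (C.inv_mem c.2)
      exact Cfsg.Agent.Lib.TwoFusion.conj_mem_conj_map hx
    apply hR
    refine ⟨⟨x, hxC⟩, hcW ?_, rfl⟩
    rw [Subgroup.mem_subgroupOf]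
    exact hx
  have key := Cfsg.Agent.Lib.TwoFusion.weaklyClosed_sylow hW R hWR _ hcWR
  refine ⟨(c : G) * g, ?_, ?_⟩
  · rw [Subgroup.mem_normalizer_iff]
    intro x
    constructor
    · intro hx
      show ((c : G) * g) * x * ((c : G) * g)⁻¹ ∈ W
      rw [← key]
      exact Cfsg.Agent.Lib.TwoFusion.conj_mem_conj_map hx
    · intro hx
      have hx' : ((c : G) * g) * x * ((c : G) * g)⁻¹ ∈ W := hx
      rw [← key, Cfsg.Agent.Lib.TwoFusion.mem_conj_map] at hx'
      have : ((c : G) * g)⁻¹ * (((c : G) * g) * x * ((c : G) * g)⁻¹) * ((c : G) * g) = x := by group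
      rwa [this] at hx'
  · have hcd : (c : G) * d' * (c : G)⁻¹ = d' := by
      have := Subgroup.mem_centralizer_singleton_iff.mp c.2
      rw [this]; group
    calc (c : G) * g * d * ((c : G) * g)⁻¹ = (c : G) * (g * d * g⁻¹) * (c : G)⁻¹ := by group
      _ = d' := hcd
      _ = g * d * g⁻¹ := rfl

end Cfsg.Agent.S1243
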