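import Cfsg.Statements.S1244
import Mathlib

set_option autoImplicit false
open Cfsg

namespace Cfsg.Agent.S1244

theorem exists_index_two_of_hom {G A : Type*} [Group G] [Group A] [Finite A] (V : G →* A)
    (hA : IsPGroup 2 A) {t : G} (ht : V t ≠ 1) : ∃ H : Subgroup G, H.index = 2 := by
  have hR : IsPGroup 2 V.range := hA.to_subgroup _
  obtain ⟨a, ha⟩ := IsPGroup.iff_card.mp hR
  rcases a with _ | a
  · exfalso
    rw [pow_zero] at ha
    have h1 := (Subgroup.card_eq_one.mp ha)
    apply ht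
    have h2 : V t ∈ V.range := ⟨t, rfl⟩
    rw [h1] at h2
    exact h2
  · obtain ⟨K, hK⟩ := Sylow.exists_subgroup_card_pow_prime (G := V.range) 2 (n := a) (by
      rw [ha]
      exact pow_dvd_pow 2 (Nat.le_succ a))
    have hi := Subgroup.card_mul_index K
    rw [hK, ha, pow_succ] at hi
    have h2 : K.index = 2 := by
      have : 2 ^ a * K.index = 2 ^ a * 2 := hi
      exact Nat.eq_of_mul_eq_mul_left (by positivity) this
    refine ⟨K.comap V.rangeRestrict, ?_⟩
    rw [Subgroup.index_comap_of_surjective _ V.rangeRestrict_surjective, h2]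

theorem prod_parity {Q A : Type*} [CommGroup A] (E E₀ : Subgroup A) (hle : E₀ ≤ E)
    (hmul : ∀ x ∈ E, ∀ y ∈ E, x ∉ E₀ → y ∉ E₀ → x * y ∈ E₀) (f : Q → A) (n : Q → ℕ)
    (hf : ∀ q, (Even (n q) ∧ f q = 1) ∨ (Odd (n q) ∧ f q ∈ E ∧ f q ∉ E₀)) (s : Finset Q) :
    (∏ q ∈ s, f q) ∈ E ∧ (Even (∑ q ∈ s, n q) ↔ (∏ q ∈ s, f q) ∈ E₀) := by
  classical
  induction s using Finset.induction_on with
  | empty => simp [E.one_mem, E₀.one_mem]
  | insert a s ha ih =>
    rw [Finset.prod_insert ha, Finset.sum_insert ha]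
    obtain ⟨h1, h2⟩ := ih
    rcases hf a with ⟨h3, h4⟩ | ⟨h3, h4, h5⟩
    · rw [h4, one_mul]
      refine ⟨h1, ?_⟩
      rw [← h2, Nat.even_add]
      simp [h3]
    · refine ⟨E.mul_mem h4 h1, ?_⟩
      rw [Nat.even_add]
      have h6 : ¬ Even (n a) := Nat.not_even_iff_odd.mpr h3
      by_cases h7 : (∏ q ∈ s, f q) ∈ E₀
      · have h8 := h2.mpr h7
        have h9 : f a * ∏ q ∈ s, f q ∉ E₀ := by
          intro h10
          apply h5
          have := E₀.mul_mem h10 (E₀.inv_mem h7)
          simpa using this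
        simp [h6, h8, h9]
      · have h8 : ¬ Even (∑ q ∈ s, n q) := fun h => h7 (h2.mp h)
        have h9 := hmul _ h4 _ h1 h5 h7
        simp [h6, h8, h9]

open scoped IsMulCommutative in
theorem transfer_key {G : Type*} [Group G] [Finite G] (S : Sylow 2 G) [IsMulCommutative (S : Subgroup G)]
    (E E₀ : Subgroup (S : Subgroup G)) (hle : E₀ ≤ E)
    (hmul : ∀ x ∈ E, ∀ y ∈ E, x ∉ E₀ → y ∉ E₀ → x * y ∈ E₀) (t : G) (ht : t ^ 2 = 1)
    (hctrl : ∀ (a : G) (h : a⁻¹ * t * a ∈ (S : Subgroup G)), (⟨_, h⟩ : (S : Subgroup G)) ∈ E ∧ (⟨_, h⟩ : (S : Subgroup G)) ∉ E₀) :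
    ∃ H : Subgroup G, H.index = 2 := by
  classical
  let V : G →* (S : Subgroup G) := MonoidHom.transfer (MonoidHom.id (S : Subgroup G))
  letI : Fintype (Quotient (MulAction.orbitRel (Subgroup.zpowers t) (G ⧸ (S : Subgroup G)))) := Fintype.ofFinite _
  letI : Fintype (G ⧸ (S : Subgroup G)) := Fintype.ofFinite _
  have hV := MonoidHom.transfer_eq_prod_quotient_orbitRel_zpowers_quot (MonoidHom.id (S : Subgroup G)) t
  have hsum := Subgroup.index_eq_sum_minimalPeriod (S : Subgroup G) t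
  set n : Quotient (MulAction.orbitRel (Subgroup.zpowers t) (G ⧸ (S : Subgroup G))) → ℕ :=
    fun q => Function.minimalPeriod (t • ·) q.out with hn
  have hp := prod_parity E E₀ hle hmul
    (fun q => (⟨q.out.out⁻¹ * t ^ Function.minimalPeriod (t • ·) q.out * q.out.out,
        QuotientGroup.out_conj_pow_minimalPeriod_mem (S : Subgroup G) t q.out⟩ : (S : Subgroup G))) n ?_ Finset.univ
  · have h1 : V t ∉ E₀ := by
      intro h2
      have h3 : Even (S : Subgroup G).index := by
        rw [hsum]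
        apply hp.2.mpr
        convert h2 using 1
        exact hV.symm
      exact S.not_dvd_index (even_iff_two_dvd.mp h3)
    have h2 : V t ≠ 1 := by
      intro h3
      rw [h3] at h1
      exact h1 (one_mem _)
    exact exists_index_two_of_hom V S.2 h2
  · intro q
    rcases Nat.even_or_odd (n q) with h | h
    · left
      refine ⟨h, ?_⟩
      apply Subtype.ext
      obtain ⟨c, hc⟩ := h
      have hc' : Function.minimalPeriod (t • ·) q.out = c + c := hc
      show q.out.out⁻¹ * t ^ Function.minimalPeriod (t • ·) q.out * q.out.out = 1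
      rw [hc', ← two_mul, pow_mul, ht, one_pow, mul_one, inv_mul_cancel]
    · right
      refine ⟨h, ?_⟩
      obtain ⟨c, hc⟩ := h
      have hc' : Function.minimalPeriod (t • ·) q.out = 2 * c + 1 := hc
      have h3 : t ^ Function.minimalPeriod (t • ·) q.out = t := by
        rw [hc', pow_succ, pow_mul, ht, one_pow, one_mul]
      have hmem : q.out.out⁻¹ * t * q.out.out ∈ (S : Subgroup G) := by
        have := QuotientGroup.out_conj_pow_minimalPeriod_mem (S : Subgroup G) t q.out
        rwa [h3] at this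
      have h4 := hctrl q.out.out hmem
      have e : (⟨q.out.out⁻¹ * t ^ Function.minimalPeriod (t • ·) q.out * q.out.out,
        QuotientGroup.out_conj_pow_minimalPeriod_mem (S : Subgroup G) t q.out⟩ : (S : Subgroup G)) =
          ⟨q.out.out⁻¹ * t * q.out.out, hmem⟩ := Subtype.ext (by
        show q.out.out⁻¹ * t ^ Function.minimalPeriod (t • ·) q.out * q.out.out = _
        rw [h3])
      rw [e]
      exact h4

/-- Let G be a finite group with no subgroup of index 2 whose Sylow 2-subgroup S is commutative, and let R ≤ S be a subgroup whose 2-rank is exactly one less than the 2-rank r of S. Then every involution of S is conjugate, by an element of N_G(S), to an element of R. -/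
theorem result {G : Type*} [Group G] [Finite G] (hG : ∀ H : Subgroup G, H.index ≠ 2) (S : Sylow 2 G) (hS : IsMulCommutative (S : Subgroup G)) (r : ℕ) (hr1 : 1 ≤ r) (hSr : Cfsg.PRankLE 2 r (S : Subgroup G) ∧ ¬ Cfsg.PRankLE 2 (r - 1) (S : Subgroup G)) (R : Subgroup G) (hRS : R ≤ S) (hRr : Cfsg.PRankLE 2 (r - 1) R ∧ (r = 1 ∨ ¬ Cfsg.PRankLE 2 (r - 2) R)) (t : G) (ht : orderOf t = 2) (htS : t ∈ S) : ∃ n ∈ Subgroup.normalizer ((S : Subgroup G) : Set G), n * t * n⁻¹ ∈ R := by

  classical
  by_contra hcon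
  push Not at hcon
  haveI := hS
  have ht2 : t ^ 2 = 1 := by rw [← ht, pow_orderOf_eq_one]
  letI : CommGroup (S : Subgroup G) := { (inferInstance : Group (S : Subgroup G)) with
    mul_comm := fun a b => hS.is_comm.comm a b }
  let E : Subgroup (S : Subgroup G) := (powMonoidHom 2 : (S : Subgroup G) →* (S : Subgroup G)).ker
  have hE : ∀ x : (S : Subgroup G), x ∈ E ↔ x ^ 2 = 1 := fun x => Iff.rfl
  let E₀ : Subgroup (S : Subgroup G) := E ⊓ R.subgroupOf (S : Subgroup G)
  have hE₀E : E₀ ≤ E := inf_le_left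
  have htE : (⟨t, htS⟩ : (S : Subgroup G)) ∈ E := by
    rw [hE]
    exact Subtype.ext ht2
  have htR : t ∉ R := by
    have := hcon 1 (one_mem _)
    simpa using this
  have htE₀ : (⟨t, htS⟩ : (S : Subgroup G)) ∉ E₀ := fun h => htR h.2
  -- cardinalities
  have hcE : Nat.card E ≤ 2 ^ r := hSr.1 E ⟨⟨fun a b => Subtype.ext (mul_comm a.1 b.1)⟩⟩ (fun a ha => ha)
  have hcE₀ : 2 ^ (r - 1) ≤ Nat.card E₀ := by
    rcases hRr.2 with h1 | h1
    · subst h1
      rw [show 1 - 1 = 0 from rfl, pow_zero]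
      exact Nat.card_pos
    · unfold Cfsg.PRankLE at h1
      push Not at h1
      obtain ⟨B, hBc, hBe, hBcard⟩ := h1
      have hB' : B.map (Subgroup.inclusion hRS) ≤ E₀ := by
        rintro _ ⟨b, hb, rfl⟩
        refine ⟨?_, ?_⟩
        · show (Subgroup.inclusion hRS b) ^ 2 = 1
          rw [← map_pow, hBe b hb, map_one]
        · exact b.2
      have h2 := Subgroup.card_le_of_le hB'
      rw [Subgroup.card_map_of_injective (Subgroup.inclusion_injective hRS)] at h2
      have hE₀p : IsPGroup 2 E₀ := (S.2).to_subgroup _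
      obtain ⟨b, hb⟩ := IsPGroup.iff_card.mp hE₀p
      rw [hb] at h2 ⊢
      have h3 : 2 ^ (r - 2) < 2 ^ b := lt_of_lt_of_le hBcard h2
      have h4 : r - 2 < b := (Nat.pow_lt_pow_iff_right (by norm_num)).mp h3
      exact Nat.pow_le_pow_right (by norm_num) (by omega)
  -- the index
  have hidx : (E₀.subgroupOf E).index = 2 := by
    have h1 := Subgroup.card_mul_index (E₀.subgroupOf E)
    rw [Nat.card_congr (Subgroup.subgroupOfEquivOfLe hE₀E).toEquiv] at h1
    have h2 : (E₀.subgroupOf E).index ≠ 1 := by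
      intro h3
      rw [Subgroup.index_eq_one] at h3
      apply htE₀
      have : (⟨⟨t, htS⟩, htE⟩ : E) ∈ E₀.subgroupOf E := by rw [h3]; trivial
      exact this
    have h3 : (E₀.subgroupOf E).index ≠ 0 := Subgroup.index_ne_zero_of_finite
    have h4 : 2 ^ r = 2 * 2 ^ (r - 1) := by
      rw [← pow_succ']
      congr 1
      omega
    have h5 : 0 < Nat.card E₀ := Nat.card_pos
    have h6 : Nat.card E₀ * (E₀.subgroupOf E).index ≤ Nat.card E₀ * 2 := by
      rw [h1]
      calc Nat.card E ≤ 2 ^ r := hcE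
        _ = 2 * 2 ^ (r - 1) := h4
        _ ≤ 2 * Nat.card E₀ := Nat.mul_le_mul_left 2 hcE₀
        _ = Nat.card E₀ * 2 := mul_comm _ _
    have h7 := Nat.le_of_mul_le_mul_left h6 h5
    omega
  have hmul : ∀ x ∈ E, ∀ y ∈ E, x ∉ E₀ → y ∉ E₀ → x * y ∈ E₀ := by
    intro x hx y hy hx0 hy0
    have := (Subgroup.mul_mem_iff_of_index_two hidx (a := ⟨x, hx⟩) (b := ⟨y, hy⟩)).mpr (iff_of_false hx0 hy0)
    exact this
  obtain ⟨H, hH⟩ := transfer_key S E E₀ hE₀E hmul t ht2 (by
    intro a h
    have hE1 : (⟨_, h⟩ : (S : Subgroup G)) ∈ E := by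
      rw [hE]
      apply Subtype.ext
      show (a⁻¹ * t * a) ^ 2 = 1
      have e : a⁻¹ * t * a = a⁻¹ * t * a⁻¹⁻¹ := by rw [inv_inv]
      rw [e, conj_pow, ht2]
      group
    refine ⟨hE1, ?_⟩
    intro hE0
    have hR : a⁻¹ * t * a ∈ R := hE0.2
    obtain ⟨n, hn, hne⟩ := S.conj_eq_normalizer_conj_of_mem t a htS h
    apply hcon n⁻¹ (inv_mem hn)
    rw [inv_inv, ← hne]
    exact hR)
  exact hG H hH

end Cfsg.Agent.S1244
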