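import Cfsg.Statements.S1247
import Cfsg.Agent.Lib.TwoFusion.BenderMax

set_option autoImplicit false
open Cfsg

namespace Cfsg.Agent.S1247



/-- Let G be a non-abelian finite simple group, A a maximal subgroup, F = F*(A) its generalized Fitting subgroup (viewed in G), and S ≤ F a subgroup subnormal in F with C_F(S) ≤ S. Let B be any subgroup of G containing S. Then (a) for every prime q not dividing |F(A)|, O_q(B) ∩ A = 1; and (b) for every prime p dividing |F(A)|, O_p(B) commutes elementwise with the subgroup of F generated by its elements of order prime to p. -/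
theorem result {G : Type*} [Group G] [Finite G] [IsSimpleGroup G] (hna : ¬ IsMulCommutative G) (A : Subgroup G) (hA : IsCoatom A) (S : Subgroup G) (hSF : S ≤ (Cfsg.generalizedFittingSubgroup ↥A).map A.subtype) (hSsn : (S.subgroupOf ((Cfsg.generalizedFittingSubgroup ↥A).map A.subtype)).IsSubnormal) (hSC : (Cfsg.generalizedFittingSubgroup ↥A).map A.subtype ⊓ Subgroup.centralizer (S : Set G) ≤ S) (B : Subgroup G) (hSB : S ≤ B) : (∀ q : ℕ, q.Prime → ¬ q ∣ Nat.card (Cfsg.fittingSubgroup ↥A) → (Cfsg.pCore q ↥B).map B.subtype ⊓ A = ⊥) ∧ (∀ p : ℕ, p.Prime → p ∣ Nat.card (Cfsg.fittingSubgroup ↥A) → ∀ x ∈ (Cfsg.pCore p ↥B).map B.subtype, ∀ y ∈ (Cfsg.pResidual p ↥(Cfsg.generalizedFittingSubgroup ↥A)).map ((Cfsg.generalizedFittingSubgroup ↥A).subtype) , x * (A.subtype y) = (A.subtype y) * x) := by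

  open Cfsg.Agent.Lib.TwoFusion in
  have hSA : S ≤ A := hSF.trans (Subgroup.map_subtype_le _)
  let S₀ : Subgroup ↥A := S.subgroupOf A
  have hmap : S₀.map A.subtype = S := by
    show (S.subgroupOf A).map A.subtype = S
    rw [Cfsg.Agent.Lib.Components.map_subgroupOf_of_le hSA]
  have hSet : Cfsg.Agent.Lib.TwoFusion.BenderSetup S₀ := by
    refine ⟨?_, ?_, ?_⟩
    · intro s hs
      obtain ⟨f, hf, hfe⟩ := hSF (Subgroup.mem_subgroupOf.mp hs)
      have : f = s := Subtype.ext hfe
      rwa [← this]
    · let e := (Cfsg.generalizedFittingSubgroup ↥A).equivMapOfInjective A.subtype A.subtype_injective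
      have h1 := Subgroup.IsSubnormal.comap e.toMonoidHom hSsn
      convert h1 using 1
      ext z
      rfl
    · rintro y ⟨hy1, hy2⟩
      have h1 : (y : G) ∈ (Cfsg.generalizedFittingSubgroup ↥A).map A.subtype ⊓ Subgroup.centralizer (S : Set G) := by
        refine ⟨⟨y, hy1, rfl⟩, ?_⟩
        show (y : G) ∈ Subgroup.centralizer (S : Set G)
        rw [Subgroup.mem_centralizer_iff]
        intro s hs
        have := Subgroup.mem_centralizer_iff.mp hy2 ⟨s, hSA hs⟩ (Subgroup.mem_subgroupOf.mpr hs)
        exact congrArg Subtype.val this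
      exact Subgroup.mem_subgroupOf.mpr (hSC h1)
  have hnormP : ∀ q : ℕ, S ≤ Subgroup.normalizer (((Cfsg.pCore q ↥B).map B.subtype : Subgroup G) : Set G) := by
    intro q s hs
    rw [Subgroup.mem_normalizer_iff]
    intro g
    have hN := Cfsg.Agent.Lib.Basic.pCore_normal (G := ↥B) q
    constructor
    · rintro ⟨w, hw, rfl⟩
      exact ⟨_, hN.conj_mem w hw ⟨s, hSB hs⟩, rfl⟩
    · rintro ⟨w, hw, hwe⟩
      have h1 := hN.conj_mem w hw (⟨s, hSB hs⟩ : B)⁻¹
      refine ⟨_, h1, ?_⟩
      have hwe' : g = s⁻¹ * (w : G) * s := by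
        have : s * g * s⁻¹ = (w : G) := hwe.symm
        rw [← this]
        group
      rw [hwe']
      simp
  constructor
  · intro q hq hqd
    haveI : Fact q.Prime := ⟨hq⟩
    have hX : IsPGroup q (((Cfsg.pCore q ↥B).map B.subtype).subgroupOf A) := by
      apply Cfsg.Agent.Lib.Components.isPGroup_subgroupOf
      exact (Cfsg.Agent.Lib.Basic.pCore_isPGroup q).map B.subtype
    have hXN : S₀ ≤ Subgroup.normalizer ((((Cfsg.pCore q ↥B).map B.subtype).subgroupOf A : Subgroup ↥A) : Set ↥A) := by
      intro s hs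
      rw [Subgroup.mem_normalizer_iff]
      intro g
      have h1 := Subgroup.mem_normalizer_iff.mp (hnormP q (Subgroup.mem_subgroupOf.mp hs)) (g : G)
      rw [Subgroup.mem_subgroupOf, Subgroup.mem_subgroupOf]
      simpa using h1
    have h0 := hSet.eq_bot hqd hX hXN
    rw [eq_bot_iff]
    rintro x ⟨hx1, hx2⟩
    have : (⟨x, hx2⟩ : ↥A) ∈ ((Cfsg.pCore q ↥B).map B.subtype).subgroupOf A := Subgroup.mem_subgroupOf.mpr hx1
    rw [h0, Subgroup.mem_bot] at this
    rw [Subgroup.mem_bot]
    exact congrArg Subtype.val this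
  · intro p hp hpd x hx y hy
    haveI : Fact p.Prime := ⟨hp⟩
    obtain ⟨y', hy', rfl⟩ := hy
    revert hy'
    have key : ∀ z ∈ Cfsg.pResidual p ↥(Cfsg.generalizedFittingSubgroup ↥A), x * (A.subtype (((Cfsg.generalizedFittingSubgroup ↥A).subtype) z)) = (A.subtype (((Cfsg.generalizedFittingSubgroup ↥A).subtype) z)) * x := by
      intro z hz
      have hle : Cfsg.pResidual p ↥(Cfsg.generalizedFittingSubgroup ↥A) ≤ (Subgroup.centralizer ({x} : Set G)).comap (A.subtype.comp (Cfsg.generalizedFittingSubgroup ↥A).subtype) := by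
        unfold Cfsg.pResidual
        rw [Subgroup.closure_le]
        intro w hw
        show ((w : ↥A) : G) ∈ Subgroup.centralizer ({x} : Set G)
        rw [Subgroup.mem_centralizer_iff]
        rintro _ rfl
        apply hSet.part_b hA hpd _ ((Cfsg.Agent.Lib.Basic.pCore_isPGroup p).map B.subtype) _ hx w.2
        · have : orderOf (w : ↥A) = orderOf w := Subgroup.orderOf_coe w
          rw [this]
          exact hw
        · rw [hmap]
          exact hnormP p
      have := hle hz
      exact Subgroup.mem_centralizer_iff.mp this x rfl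
    intro hy'
    exact key y' hy'

end Cfsg.Agent.S1247
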