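import Cfsg.Statements.S1254
import Mathlib
import Cfsg.Agent.Lib.TwoFusion.DihSylow
import Cfsg.Agent.Lib.Transfer.Frobenius

set_option autoImplicit false
open Cfsg

namespace Cfsg.Agent.S1254



/-- Let X be a finite group whose Sylow 2-subgroup S is dihedral (of order at least 4). Then X has a normal 2-complement if and only if, for every Klein four-subgroup U ≤ S, the normalizer N_X(U) is generated by C_X(U) and N_S(U). -/
theorem result {X : Type*} [Group X] [Finite X] (S : Sylow 2 X) (m : ℕ) (hm : 2 ≤ m) (eS : (S : Subgroup X) ≃* DihedralGroup m) : Cfsg.HasNormalPComplement 2 X ↔ ∀ U : Subgroup X, U ≤ S → IsKleinFour U → Subgroup.normalizer (U : Set X) = Subgroup.centralizer (U : Set X) ⊔ ((S : Subgroup X) ⊓ Subgroup.normalizer (U : Set X)) := by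

  classical
  haveI : Fact (Nat.Prime 2) := ⟨Nat.prime_two⟩
  have hS2 : IsPGroup 2 (S : Subgroup X) := S.isPGroup'
  have hD := Cfsg.Agent.Lib.TwoFusion.dihData hm eS
  constructor
  · rintro ⟨P, K, hK, hcompl⟩ U hU _
    -- `K` has odd order
    have hKodd : ∀ x ∈ K, Odd (orderOf x) := by
      intro x hx
      have h1 := hcompl.card_mul_card
      have h2 : ¬ 2 ∣ Nat.card K := by
        intro h
        have h3 := P.not_dvd_index
        have h4 : (P : Subgroup X).index = Nat.card K := by
          have := (P : Subgroup X).card_mul_index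
          have hpos : Nat.card (P : Subgroup X) ≠ 0 := Nat.card_pos.ne'
          apply Nat.eq_of_mul_eq_mul_left (Nat.pos_of_ne_zero hpos)
          rw [this, ← h1, mul_comm]
        rw [h4] at h3
        exact h3 h
      have h3 := orderOf_dvd_natCard (⟨x, hx⟩ : K)
      rw [Subgroup.orderOf_mk] at h3
      by_contra h4
      rw [Nat.not_odd_iff_even] at h4
      exact h2 ((even_iff_two_dvd.mp h4).trans h3)
    have hdisj : K ⊓ (S : Subgroup X) = ⊥ := by
      rw [eq_bot_iff]
      rintro x ⟨hxK, hxS⟩
      rw [Subgroup.mem_bot]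
      obtain ⟨k, hk⟩ := IsPGroup.iff_orderOf.mp hS2 ⟨x, hxS⟩
      rw [Subgroup.orderOf_mk] at hk
      have h1 := hKodd x hxK
      rw [hk] at h1
      rcases k with _ | k
      · rw [pow_zero] at hk
        exact orderOf_eq_one_iff.mp hk
      · rw [pow_succ] at h1
        exact absurd h1 (by simp [Nat.odd_mul, parity_simps])
    have hcard : Nat.card (S : Subgroup X) = Nat.card (P : Subgroup X) := by
      obtain ⟨g, rfl⟩ := MulAction.exists_smul_eq X P S
      rw [Sylow.coe_subgroup_smul]
      exact Subgroup.card_map_of_injective (MulAut.conj g).injective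
    have hcompl' : K.IsComplement' (S : Subgroup X) := by
      apply Subgroup.isComplement'_of_card_mul_and_disjoint
      · rw [hcard]
        exact hcompl.card_mul_card
      · rw [disjoint_iff]
        exact hdisj
    have htop : ∀ w : X, ∃ o ∈ K, ∃ a ∈ (S : Subgroup X), w = o * a := by
      intro w
      obtain ⟨⟨o, a⟩, he⟩ := hcompl'.2 w
      exact ⟨o, o.2, a, a.2, he.symm⟩
    exact Cfsg.Agent.Lib.TwoFusion.normalizer_eq_of_complement hS2 hK hdisj htop hU
  · intro h
    apply Cfsg.Agent.Lib.Transfer.hasNormalPComplement_of_stable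
    apply Cfsg.Agent.Lib.Transfer.frobeniusStable_of_sylow S
    intro Q hQ g hg hc
    have hodd : Odd (orderOf g) := Nat.coprime_two_right.mp hc
    rcases Cfsg.Agent.Lib.TwoFusion.odd_centralizes hD hS2 hQ hg hodd with h1 | ⟨h4, hex⟩
    · exact h1
    · have hK := Cfsg.Agent.Lib.TwoFusion.isKleinFour_of_card h4 hex
      exact Cfsg.Agent.Lib.TwoFusion.odd_centralizes_of_sup hS2 (h Q hQ hK) hg hodd

end Cfsg.Agent.S1254
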