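import Cfsg.Statements.S1255
import Cfsg.Agent.Lib.TwoFusion.DihSylow4

set_option autoImplicit false
open Cfsg

namespace Cfsg.Agent.S1255



/-- Let X be a finite group whose Sylow 2-subgroup S is dihedral of order 2m ≥ 4. Then X has no subgroup of index 2 and no isolated involution if and only if either all involutions of X are conjugate, or for every Klein four-subgroup U ≤ S the index |N_X(U) : C_X(U)| equals 3 when |S| = 4 and equals 6 when |S| > 4. -/
theorem result {X : Type*} [Group X] [Finite X] (S : Sylow 2 X) (m : ℕ) (hm : 2 ≤ m) (eS : (S : Subgroup X) ≃* DihedralGroup m) : ((∀ H : Subgroup X, H.index ≠ 2) ∧ (∀ z : X, ¬ Cfsg.IsIsolatedInvolution z)) ↔ ((∀ a b : X, orderOf a = 2 → orderOf b = 2 → IsConj a b) ∨ (∀ U : Subgroup X, U ≤ S → IsKleinFour U → (Subgroup.centralizer (U : Set X)).relIndex (Subgroup.normalizer (U : Set X)) = (if Nat.card S = 4 then 3 else 6))) := by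

  classical
  open Cfsg.Agent.Lib.TwoFusion Subgroup in
  have hcS : Nat.card S = 2 * m := by
    rw [Nat.card_congr eS.toEquiv, DihedralGroup.nat_card]
  have hall : (∀ a b : X, orderOf a = 2 → orderOf b = 2 → IsConj a b) →
      ((∀ H : Subgroup X, H.index ≠ 2) ∧ (∀ z : X, ¬ Cfsg.IsIsolatedInvolution z)) := fun h =>
    ⟨no_index_two_of_all_conj S hm eS h, not_isolated_of_all_conj S hm eS h⟩
  constructor
  · rintro ⟨hno, -⟩
    right
    intro U hU hK
    rcases dih_cases S m hm eS with rfl | ⟨q, hq, rfl⟩
    · -- order four
      have h4 : Nat.card S = 4 := by omega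
      rw [if_pos h4]
      have hUS : U = S := by
        apply Subgroup.eq_of_le_of_card_ge hU
        rw [hK.card_four]
        exact h4.le
      subst hUS
      have hd := relIndex_dvd_six (U := (S : Subgroup X)) hK.card_four
      -- oddness
      have hodd : ¬ 2 ∣ (centralizer ((S : Subgroup X) : Set X)).relIndex (normalizer ((S : Subgroup X) : Set X)) := by
        intro h2
        have hle : (S : Subgroup X) ≤ centralizer ((S : Subgroup X) : Set X) := by
          intro x hx
          rw [mem_centralizer_iff]
          intro y hy
          have := hK.isMulCommutative.is_comm.comm ⟨y, hy⟩ ⟨x, hx⟩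
          exact congrArg Subtype.val this
        have h3 : (centralizer ((S : Subgroup X) : Set X)).relIndex (normalizer ((S : Subgroup X) : Set X)) ∣
            (S : Subgroup X).relIndex (normalizer ((S : Subgroup X) : Set X)) :=
          Subgroup.relIndex_dvd_of_le_left _ hle
        have h5 : (S : Subgroup X).relIndex (normalizer ((S : Subgroup X) : Set X)) ∣ (S : Subgroup X).index :=
          ⟨_, (Subgroup.relIndex_mul_index Subgroup.le_normalizer).symm⟩
        exact S.not_dvd_index (h2.trans (h3.trans h5))
      have hne1 : (centralizer ((S : Subgroup X) : Set X)).relIndex (normalizer ((S : Subgroup X) : Set X)) ≠ 1 := by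
        intro h1
        rw [Subgroup.relIndex_eq_one] at h1
        obtain ⟨H, hH⟩ := exists_index_two_of_burnside eS h1
        exact hno H hH
      have h6 : (centralizer ((S : Subgroup X) : Set X)).relIndex (normalizer ((S : Subgroup X) : Set X)) ≤ 6 :=
        Nat.le_of_dvd (by norm_num) hd
      interval_cases hr : (centralizer ((S : Subgroup X) : Set X)).relIndex (normalizer ((S : Subgroup X) : Set X)) <;> omega
    · haveI : NeZero q := ⟨hq⟩
      have h4 : Nat.card S ≠ 4 := by
        rw [hcS]
        omega
      rw [if_neg h4]
      obtain ⟨i, rfl⟩ := exists_eq_Kl eS hU hK.card_four (fun x hx => sq_of_isKleinFour hK hx)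
      have hd := relIndex_dvd_six (U := Kl eS i) hK.card_four
      have h2 := two_dvd_relIndex_Kl eS i
      have hne : (centralizer (Kl eS i : Set X)).relIndex (normalizer (Kl eS i : Set X)) ≠ 2 := by
        intro h
        obtain ⟨H, hH⟩ := exists_index_two eS h
        exact hno H hH
      have h6 : (centralizer (Kl eS i : Set X)).relIndex (normalizer (Kl eS i : Set X)) ≤ 6 :=
        Nat.le_of_dvd (by norm_num) hd
      interval_cases hr : (centralizer (Kl eS i : Set X)).relIndex (normalizer (Kl eS i : Set X)) <;> omega
  · rintro (h | h)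
    · exact hall h
    · apply hall
      rcases dih_cases S m hm eS with rfl | ⟨q, hq, rfl⟩
      · have h4 : Nat.card S = 4 := by omega
        have hsq : ∀ x ∈ (S : Subgroup X), x ^ 2 = 1 := by
          intro x hx
          obtain ⟨b, rfl⟩ := exists_dihIncl eS hx
          have hb : ∀ b : DihedralGroup 2, b ^ 2 = 1 := by decide
          rw [← map_pow, hb, map_one]
        have hK : IsKleinFour (S : Subgroup X) := isKleinFour_of_card h4 hsq
        have h3 := h _ le_rfl hK
        rw [if_pos h4] at h3
        have key : ∀ t : X, orderOf t = 2 → ∃ s ∈ (S : Subgroup X), s ≠ 1 ∧ IsConj t s := by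
          intro t ht
          have ht2 : t ^ 2 ^ 1 = 1 := by
            rw [pow_one, ← ht, pow_orderOf_eq_one]
          obtain ⟨g, s, hs⟩ := Cfsg.Agent.Lib.TwoGroups.conj_into_sylow S ht2
          refine ⟨s, s.2, ?_, isConj_iff.mpr ⟨g, hs⟩⟩
          intro h2
          rw [h2] at hs
          have h5 : t = 1 := conj_eq_one_iff.mp hs
          rw [h5, orderOf_one] at ht
          norm_num at ht
        intro a b ha hb
        obtain ⟨s, hs, hs1, hsc⟩ := key a ha
        obtain ⟨s', hs', hs'1, hsc'⟩ := key b hb
        exact hsc.trans ((isConj_of_three_dvd hK.card_four hsq (by rw [h3]) hs hs' hs1 hs'1).trans hsc'.symm)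
      · haveI : NeZero q := ⟨hq⟩
        have h4 : Nat.card S ≠ 4 := by
          rw [hcS]
          omega
        apply all_conj_of_Kl eS
        intro i
        have h3 := h _ (Kl_le eS i) (isKleinFour_Kl eS i)
        rw [if_neg h4] at h3
        rw [h3]
        norm_num

end Cfsg.Agent.S1255
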