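import Cfsg.Statements.S1256
import Cfsg.Agent.Lib.TwoFusion.DihSylow3

set_option autoImplicit false
open Cfsg

namespace Cfsg.Agent.S1256



/-- Let X be a finite group whose Sylow 2-subgroup S is dihedral of order 2m ≥ 4. If |S| = 4, any two Klein four-subgroups of X are conjugate; if |S| > 4, there are Klein four-subgroups U₁, U₂ of X that are not conjugate, and every Klein four-subgroup of X is conjugate to U₁ or to U₂. -/
theorem result {X : Type*} [Group X] [Finite X] (S : Sylow 2 X) (m : ℕ) (hm : 2 ≤ m) (eS : (S : Subgroup X) ≃* DihedralGroup m) : (Nat.card S = 4 → ∀ U V : Subgroup X, IsKleinFour U → IsKleinFour V → (∃ x : X, U.map (MulAut.conj x).toMonoidHom = V)) ∧ (4 < Nat.card S → ∃ U₁ U₂ : Subgroup X, IsKleinFour U₁ ∧ IsKleinFour U₂ ∧ ¬ (∃ x : X, U₁.map (MulAut.conj x).toMonoidHom = U₂) ∧ ∀ V : Subgroup X, IsKleinFour V → (∃ x : X, V.map (MulAut.conj x).toMonoidHom = U₁) ∨ (∃ x : X, V.map (MulAut.conj x).toMonoidHom = U₂)) := by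

  classical
  open Cfsg.Agent.Lib.TwoFusion in
  refine ⟨?_, ?_⟩
  · intro h4 U V hU hV
    obtain ⟨g, hg⟩ := exists_conj_klein_eq_of_card S h4 hU
    obtain ⟨g', hg'⟩ := exists_conj_klein_eq_of_card S h4 hV
    refine ⟨g'⁻¹ * g, ?_⟩
    rw [← conj_map_mul, hg, ← hg', conj_map_mul, inv_mul_cancel, conj_map_one]
  · intro h4
    have hc : Nat.card S = 2 * m := by
      rw [Nat.card_congr eS.toEquiv, DihedralGroup.nat_card]
    rcases dih_cases S m hm eS with rfl | ⟨q, hq, rfl⟩
    · omega
    haveI : NeZero q := ⟨hq⟩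
    refine ⟨Kl eS 0, Kl eS 1, isKleinFour_Kl eS 0, isKleinFour_Kl eS 1, ?_, ?_⟩
    · rintro ⟨x, hx⟩
      obtain ⟨b, hb⟩ := Kl_fusion eS hx
      obtain ⟨i', hi', hp⟩ := exists_conj_sr b 0
      rw [hi'] at hb
      rcases hb with hb | hb
      · rw [DihedralGroup.sr.inj hb, map_zero, par_one] at hp
        exact one_ne_zero hp
      · rw [DihedralGroup.sr.inj hb, map_zero, map_add, par_one, par_z₀, add_zero] at hp
        exact one_ne_zero hp
    · intro V hV
      obtain ⟨g, hg⟩ := exists_conj_le S (IsPGroup.iff_card.mpr ⟨2, by rw [hV.card_four]; norm_num⟩ : IsPGroup 2 V)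
      obtain ⟨i, hi⟩ := exists_eq_Kl eS hg (by
        rw [Subgroup.card_map_of_injective (MulAut.conj g).injective, hV.card_four]) (by
        rintro _ ⟨x, hx, rfl⟩
        rw [← map_pow, sq_of_isKleinFour hV hx, map_one])
      obtain ⟨k, hk | hk⟩ := exists_half i
      · left
        refine ⟨dihIncl eS (DihedralGroup.r k) * g, ?_⟩
        rw [← conj_map_mul, hi, hk]
        apply conj_Kl
        have := conj_r_sr (q := q) k 0
        rwa [zero_add] at this
      · right
        refine ⟨dihIncl eS (DihedralGroup.r k) * g, ?_⟩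
        rw [← conj_map_mul, hi, hk]
        exact conj_Kl eS (conj_r_sr (q := q) k 1)

end Cfsg.Agent.S1256
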