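import Cfsg.Statements.S1264
import Mathlib
import Cfsg.Agent.Lib.Components.Layer

set_option autoImplicit false
open Cfsg

namespace Cfsg.Agent.S1264

/-- Let G be finite, C = C_G(F(G)) the centralizer of the Fitting subgroup, and N a solvable subgroup of C normalized by C. Then N ≤ Z(F(G)). -/
theorem result {G : Type*} [Group G] [Finite G] (N : Subgroup G) (hN : N ≤ Subgroup.centralizer (Cfsg.fittingSubgroup G : Set G)) (hnorm : Subgroup.centralizer (Cfsg.fittingSubgroup G : Set G) ≤ Subgroup.normalizer (N : Set G)) (hsolv : Group.IsSolvable ↥N) : N ≤ (Subgroup.center ↥(Cfsg.fittingSubgroup G)).map (Cfsg.fittingSubgroup G).subtype := by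
  have hCn : (Subgroup.centralizer (Cfsg.fittingSubgroup G : Set G)).Normal := inferInstance
  have hsn : N.IsSubnormal := Subgroup.IsSubnormal.step N _ hN hCn.isSubnormal
    ((Subgroup.normal_subgroupOf_iff_le_normalizer hN).mpr hnorm)
  have h := Cfsg.Agent.Lib.Components.solvable_subnormal_le_fitting hsn hN hsolv
  intro x hx
  refine ⟨⟨x, h hx⟩, Subgroup.mem_center_iff.mpr fun y => ?_, rfl⟩
  have h1 := Subgroup.mem_centralizer_iff.mp (hN hx) y y.2
  exact Subtype.ext h1

end Cfsg.Agent.S1264
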