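import Cfsg.Statements.S1273
import Mathlib
import Cfsg.Agent.Lib.Components.PComp

set_option autoImplicit false
open Cfsg

namespace Cfsg.Agent.S1273

/-- Let K be a p-component of the finite group X and N a normal subgroup of K whose index in K is prime to p. Then N = K. -/
theorem result {X : Type*} [Group X] [Finite X] (p : ℕ) [Fact p.Prime] (K : Subgroup X) (hK : Cfsg.IsPComponent p K) (N : Subgroup ↥K) [N.Normal] (hidx : (N.index).Coprime p) : N = ⊤ := by
  exact Cfsg.Agent.Lib.Components.pComponent_normal_eq_top hK N hidx

end Cfsg.Agent.S1273
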