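import Cfsg.Statements.S1286
import Mathlib

set_option autoImplicit false
open Cfsg

namespace Cfsg.Agent.S1286

abbrev P7 := Equiv.Perm (Fin 7)

def a1 : P7 := Equiv.swap 0 1 * Equiv.swap 2 3
def a2 : P7 := Equiv.swap 0 1 * Equiv.swap 4 5
def a3 : P7 := Equiv.swap 2 3 * Equiv.swap 4 5
def u1 : P7 := Equiv.swap 4 5 * Equiv.swap 5 6
def u2 : P7 := Equiv.swap 2 3 * Equiv.swap 3 6
def u3 : P7 := Equiv.swap 0 1 * Equiv.swap 1 6

def A4 : Subgroup P7 where
  carrier := {1, a1, a2, a3}
  one_mem' := by simp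
  mul_mem' := by
    rintro x y (rfl | rfl | rfl | rfl) (rfl | rfl | rfl | rfl) <;>
      simp only [Set.mem_insert_iff, Set.mem_singleton_iff] <;> decide
  inv_mem' := by
    rintro x (rfl | rfl | rfl | rfl) <;>
      simp only [Set.mem_insert_iff, Set.mem_singleton_iff] <;> decide

theorem mem_A4 {x : P7} : x ∈ A4 ↔ x = 1 ∨ x = a1 ∨ x = a2 ∨ x = a3 := by
  show x ∈ ({1, a1, a2, a3} : Set P7) ↔ _
  simp

open Classical in
noncomputable def th (g : P7) : Subgroup P7 :=
  if g = a1 then Subgroup.zpowers u1 else if g = a2 then Subgroup.zpowers u2 else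
    if g = a3 then Subgroup.zpowers u3 else ⊥

theorem th1 : th a1 = Subgroup.zpowers u1 := by simp [th]
theorem th2 : th a2 = Subgroup.zpowers u2 := by
  have h : a2 ≠ a1 := by decide
  simp [th, h]
theorem th3 : th a3 = Subgroup.zpowers u3 := by
  have h : a3 ≠ a1 := by decide
  have h' : a3 ≠ a2 := by decide
  simp [th, h, h']

/-- three-element cyclic group: elements -/
theorem mem_zp3 {u x : P7} (hu : u ^ 3 = 1) (hx : x ∈ Subgroup.zpowers u) :
    x = 1 ∨ x = u ∨ x = u * u := by
  obtain ⟨k, rfl⟩ := Subgroup.mem_zpowers_iff.mp hx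
  have h3 : k = 3 * (k / 3) + k % 3 := by omega
  have hm : k % 3 = 0 ∨ k % 3 = 1 ∨ k % 3 = 2 := by omega
  rw [h3, zpow_add, zpow_mul]
  have : u ^ (3 : ℤ) = 1 := by exact_mod_cast hu
  rw [this, one_zpow, one_mul]
  rcases hm with h | h | h <;> rw [h] <;> simp [zpow_two, pow_two]

theorem conj_zp {u b : P7} (h : b * u * b⁻¹ = u * u ∨ b * u * b⁻¹ = u) {x : P7} (hu : u ^ 3 = 1)
    (hx : x ∈ Subgroup.zpowers u) : b * x * b⁻¹ ∈ Subgroup.zpowers u := by
  have hm : b * u * b⁻¹ ∈ Subgroup.zpowers u := by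
    rcases h with h | h
    · rw [h]; exact mul_mem (Subgroup.mem_zpowers u) (Subgroup.mem_zpowers u)
    · rw [h]; exact Subgroup.mem_zpowers u
  rcases mem_zp3 hu hx with rfl | rfl | rfl
  · simpa using one_mem _
  · exact hm
  · have : b * (u * u) * b⁻¹ = (b * u * b⁻¹) * (b * u * b⁻¹) := by group
    rw [this]; exact mul_mem hm hm

theorem inf_eq {u b : P7} (hu : u ^ 3 = 1) (h1 : u * b ≠ b * u) (h2 : u * u * b ≠ b * (u * u)) {c : Subgroup P7} :
    Subgroup.zpowers u ⊓ Subgroup.centralizer ({b} : Set P7) ≤ c := by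
  intro x hx
  have hx1 := (Subgroup.mem_inf.mp hx).1
  have hx2 := (Subgroup.mem_inf.mp hx).2
  rw [Subgroup.mem_centralizer_singleton_iff] at hx2
  rcases mem_zp3 hu hx1 with rfl | rfl | rfl
  · exact one_mem _
  · exact absurd hx2 h1
  · exact absurd hx2 h2

theorem card_odd {u : P7} (hu : u ^ 3 = 1) (hne : u ≠ 1) : ¬ 2 ∣ Nat.card (Subgroup.zpowers u) := by
  haveI : Fact (Nat.Prime 3) := ⟨by norm_num⟩
  rw [Nat.card_zpowers, orderOf_eq_prime hu hne]
  norm_num

theorem le_cent {u a : P7} (h : u * a = a * u) : Subgroup.zpowers u ≤ Subgroup.centralizer ({a} : Set P7) := by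
  rw [Subgroup.zpowers_le, Subgroup.mem_centralizer_singleton_iff]; exact h

theorem solv {u : P7} : Group.IsSolvable (Subgroup.zpowers u) := inferInstance


/-- There exist a finite group X, an elementary abelian subgroup A of order 4 and a solvable A-signalizer functor θ on X for the prime 2 which is not complete. -/
theorem result : ∃ (X : Type) (_ : Group X) (_ : Finite X) (A : Subgroup X) (θ : X → Subgroup X), Cfsg.IsElementaryAbelian 2 A ∧ Nat.card ↥A = 4 ∧ Cfsg.IsSolvableSignalizerFunctor 2 A θ ∧ ¬ Cfsg.IsCompleteSignalizerFunctor 2 A θ := by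
  classical
  have hu1 : u1 ^ 3 = 1 := by decide
  have hu2 : u2 ^ 3 = 1 := by decide
  have hu3 : u3 ^ 3 = 1 := by decide
  have hn1 : u1 ≠ 1 := by decide
  have hn2 : u2 ≠ 1 := by decide
  have hn3 : u3 ≠ 1 := by decide
  have hF : Cfsg.IsSignalizerFunctor 2 A4 th := by
    refine ⟨?_, ?_, ?_, ?_⟩
    · intro a ha hne
      rcases mem_A4.mp ha with rfl | rfl | rfl | rfl
      · exact absurd rfl hne
      · rw [th1]; exact le_cent (by decide)
      · rw [th2]; exact le_cent (by decide)
      · rw [th3]; exact le_cent (by decide)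
    · intro a ha hne
      rcases mem_A4.mp ha with rfl | rfl | rfl | rfl
      · exact absurd rfl hne
      · rw [th1]; exact card_odd hu1 hn1
      · rw [th2]; exact card_odd hu2 hn2
      · rw [th3]; exact card_odd hu3 hn3
    · intro a ha hne b hb x hx
      rcases mem_A4.mp ha with rfl | rfl | rfl | rfl
      · exact absurd rfl hne
      · rw [th1] at hx ⊢
        rcases mem_A4.mp hb with rfl | rfl | rfl | rfl
        · simpa using hx
        all_goals exact conj_zp (by decide) hu1 hx
      · rw [th2] at hx ⊢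
        rcases mem_A4.mp hb with rfl | rfl | rfl | rfl
        · simpa using hx
        all_goals exact conj_zp (by decide) hu2 hx
      · rw [th3] at hx ⊢
        rcases mem_A4.mp hb with rfl | rfl | rfl | rfl
        · simpa using hx
        all_goals exact conj_zp (by decide) hu3 hx
    · intro a ha hne b hb hne' x hx
      rcases mem_A4.mp ha with rfl | rfl | rfl | rfl
      · exact absurd rfl hne
      · rw [th1] at hx
        rcases mem_A4.mp hb with rfl | rfl | rfl | rfl
        · exact absurd rfl hne'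
        · rw [th1]; exact (Subgroup.mem_inf.mp hx).1
        · exact inf_eq hu1 (by decide) (by decide) hx
        · exact inf_eq hu1 (by decide) (by decide) hx
      · rw [th2] at hx
        rcases mem_A4.mp hb with rfl | rfl | rfl | rfl
        · exact absurd rfl hne'
        · exact inf_eq hu2 (by decide) (by decide) hx
        · rw [th2]; exact (Subgroup.mem_inf.mp hx).1
        · exact inf_eq hu2 (by decide) (by decide) hx
      · rw [th3] at hx
        rcases mem_A4.mp hb with rfl | rfl | rfl | rfl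
        · exact absurd rfl hne'
        · exact inf_eq hu3 (by decide) (by decide) hx
        · exact inf_eq hu3 (by decide) (by decide) hx
        · rw [th3]; exact (Subgroup.mem_inf.mp hx).1
  refine ⟨P7, inferInstance, inferInstance, A4, th, ?_, ?_, ⟨hF, ?_⟩, ?_⟩
  · refine ⟨⟨⟨?_⟩⟩, ?_⟩
    · rintro ⟨x, hx⟩ ⟨y, hy⟩
      ext1
      show x * y = y * x
      rcases mem_A4.mp hx with rfl | rfl | rfl | rfl <;> rcases mem_A4.mp hy with rfl | rfl | rfl | rfl <;> decide
    · intro x hx
      rcases mem_A4.mp hx with rfl | rfl | rfl | rfl <;> decide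
  · have : (A4 : Set P7) = (({1, a1, a2, a3} : Finset P7) : Set P7) := by
      ext x
      simp [mem_A4]
    rw [← SetLike.coe_sort_coe, this, Nat.card_coe_set_eq, Set.ncard_coe_finset]
    decide
  · intro a ha hne
    rcases mem_A4.mp ha with rfl | rfl | rfl | rfl
    · exact absurd rfl hne
    · rw [th1]; infer_instance
    · rw [th2]; infer_instance
    · rw [th3]; infer_instance
  · rintro ⟨-, X, -, hodd, hX⟩
    have h1 : u1 ∈ X := by
      have := hX a1 (mem_A4.mpr (by simp)) (by decide)
      rw [th1] at this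
      exact (Subgroup.mem_inf.mp (this.symm ▸ Subgroup.mem_zpowers u1)).1
    have h2 : u2 ∈ X := by
      have := hX a2 (mem_A4.mpr (by simp)) (by decide)
      rw [th2] at this
      exact (Subgroup.mem_inf.mp (this.symm ▸ Subgroup.mem_zpowers u2)).1
    have hw : u1 * u1 * u2 * u1 * u2 ∈ X := X.mul_mem (X.mul_mem (X.mul_mem (X.mul_mem h1 h1) h2) h1) h2
    have hord : orderOf (u1 * u1 * u2 * u1 * u2) = 2 := by
      haveI : Fact (Nat.Prime 2) := ⟨Nat.prime_two⟩
      exact orderOf_eq_prime (by decide) (by decide)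
    apply hodd
    rw [← hord]
    have := Subgroup.orderOf_dvd_natCard X hw
    exact this

end Cfsg.Agent.S1286
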