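import Cfsg.Statements.S1287
import Mathlib
import Cfsg.Agent.Lib.Components.BW

set_option autoImplicit false
open scoped Pointwise
open Cfsg

namespace Cfsg.Agent.S1287

/-- Let A be a noncyclic elementary abelian p-subgroup of a finite group H normalizing a subgroup K of order prime to p, and X, Y ≤ K subgroups normalized by A with C_K(a) = C_X(a) C_Y(a) (as sets) for every non-identity a ∈ A, where X is also normalized by C_K(A). Then K = XY as sets. -/
theorem result {H : Type*} [Group H] [Finite H] (p : ℕ) [Fact p.Prime] (A K X Y : Subgroup H) (hA : Cfsg.IsElementaryAbelian p A) (hA2 : p ^ 2 ≤ Nat.card ↥A) (hK : ¬ p ∣ Nat.card ↥K) (hAK : A ≤ Subgroup.normalizer (K : Set H)) (hX : X ≤ K) (hY : Y ≤ K) (hAX : A ≤ Subgroup.normalizer (X : Set H)) (hAY : A ≤ Subgroup.normalizer (Y : Set H)) (hCX : K ⊓ Subgroup.centralizer (A : Set H) ≤ Subgroup.normalizer (X : Set H)) (hfac : ∀ a ∈ A, a ≠ 1 → ((K ⊓ Subgroup.centralizer {a} : Subgroup H) : Set H) = ((X ⊓ Subgroup.centralizer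 {a} : Subgroup H) : Set H) * ((Y ⊓ Subgroup.centralizer {a} : Subgroup H) : Set H)) : (K : Set H) = (X : Set H) * (Y : Set H) := by
  classical
  haveI hq : Fact p.Prime := inferInstance
  have hp : p.Prime := hq.out
  -- the order of `A` is a power of `p`
  have hAp : IsPGroup p A := by
    intro a
    refine ⟨1, ?_⟩
    apply Subtype.ext
    simpa using hA.2 a a.2
  obtain ⟨k, hk⟩ := IsPGroup.iff_card.mp hAp
  have hk2 : 2 ≤ k := by
    rw [hk] at hA2
    exact (Nat.pow_le_pow_iff_right hp.one_lt).mp hA2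
  have hdvd : p ^ 2 ∣ Nat.card A := by
    rw [hk]; exact pow_dvd_pow p hk2
  obtain ⟨A0, hA0⟩ := Sylow.exists_subgroup_card_pow_prime p hdvd
  obtain ⟨A1, hA1⟩ : ∃ A1 : Subgroup H, A1 = A0.map A.subtype := ⟨_, rfl⟩
  have hA1le : A1 ≤ A := by
    rw [hA1]; exact Subgroup.map_subtype_le _
  have hE : Cfsg.Agent.Lib.Components.BW.E2 A1 p := by
    refine ⟨?_, ?_, ?_⟩
    · rw [hA1, Subgroup.card_map_of_injective A.subtype_injective, hA0]
    · intro x hx y hy
      have h := hA.1
      have := h.is_comm.comm ⟨x, hA1le hx⟩ ⟨y, hA1le hy⟩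
      exact congrArg Subtype.val this
    · intro x hx
      exact hA.2 x (hA1le hx)
  have hc : p.Coprime (Nat.card K) := (Nat.Prime.coprime_iff_not_dvd hp).mpr hK
  exact Cfsg.Agent.Lib.Components.BW.factor_of_centralizers hp hE (hA1le.trans hAK) hc hX hY
    (hA1le.trans hAX) (hA1le.trans hAY) (fun a ha h1 => hfac a (hA1le ha) h1)

end Cfsg.Agent.S1287
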