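import Cfsg.Statements.S1289
import Mathlib
import Cfsg.Agent.Lib.Components.PComp

set_option autoImplicit false
open Cfsg

namespace Cfsg.Agent.S1289

/-- A p-component K of the finite group X is subnormal, perfect, of order divisible by p, and minimal among the subnormal perfect subgroups of X of order divisible by p. -/
theorem result {X : Type*} [Group X] [Finite X] (p : ℕ) [Fact p.Prime] (K : Subgroup X) (hK : Cfsg.IsPComponent p K) : K.IsSubnormal ∧ ⁅K, K⁆ = K ∧ p ∣ Nat.card ↥K ∧ ∀ H : Subgroup X, H ≤ K → H.IsSubnormal → ⁅H, H⁆ = H → p ∣ Nat.card ↥H → H = K := by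
  exact ⟨hK.1, Cfsg.Agent.Lib.Components.pComponent_commutator hK,
    Cfsg.Agent.Lib.Components.pComponent_dvd hK,
    fun _ hHK hsn hperf hdvd => Cfsg.Agent.Lib.Components.pComponent_minimal hK hHK hsn hperf hdvd⟩

end Cfsg.Agent.S1289
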