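import Cfsg.Statements.S1297
import Mathlib
import Cfsg.Agent.Lib.Components.KBal

set_option autoImplicit false
open Cfsg

namespace Cfsg.Agent.S1297

section Helpers
open Subgroup Cfsg Cfsg.Agent.Lib.Components

theorem kbal_of_lb {K : Type*} [Group K] (h : IsLocallyBalanced K) : IsLocallyKBalanced 2 1 K := by
  intro H hInn A hA hcard
  have hA1 : ∃ t ∈ A, t ≠ 1 := by
    by_contra hno
    push Not at hno
    have h1 : A = ⊥ := (eq_bot_iff_forall A).mpr hno
    rw [h1] at hcard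
    have h2 : Nat.card (⊥ : Subgroup ↥H) = 1 := Subgroup.card_bot
    rw [h2] at hcard
    omega
  obtain ⟨t, ht, ht1⟩ := hA1
  have ht2 : orderOf t = 2 := orderOf_eq_prime (hA.2 t ht) ht1
  have h1 := h H hInn t ht2
  rw [eq_bot_iff, ← h1]
  exact iInf_le (fun a : {a : ↥H // a ∈ A ∧ a ≠ 1} => centralizerPPrimeCore 2 (a : ↥H)) ⟨t, ht, ht1⟩

theorem le_aux {G : Type*} [Group G] [Finite G] (hbal : IsKBalanced 2 1 G) {x y : G}
    (hx : orderOf x = 2) (hy : orderOf y = 2) (hxy : x * y = y * x) :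
    centralizerPPrimeCore 2 x ⊓ centralizer {y} ≤ centralizerPPrimeCore 2 y ⊓ centralizer {x} := by
  have hxp : x ^ 2 = 1 := hx ▸ pow_orderOf_eq_one x
  have hEA : IsElementaryAbelian 2 (zpowers x) := by
    refine ⟨⟨⟨?_⟩⟩, ?_⟩
    · rintro ⟨_, a, rfl⟩ ⟨_, b, rfl⟩
      apply Subtype.ext
      change x ^ a * x ^ b = x ^ b * x ^ a
      exact ((Commute.refl x).zpow_zpow a b).eq
    · rintro _ ⟨a, rfl⟩
      change (x ^ a) ^ 2 = 1
      rw [← zpow_natCast, ← zpow_mul, mul_comm, zpow_mul, zpow_natCast, hxp, one_zpow]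
  have hcard : Nat.card (zpowers x) = 2 ^ 1 := by
    rw [Nat.card_zpowers, hx]
    rfl
  have hcomm : ∀ a ∈ zpowers x, a * y = y * a := by
    rintro _ ⟨a, rfl⟩
    exact ((show Commute x y from hxy).zpow_left a).eq
  have h1 := hbal (zpowers x) hEA hcard y hy hcomm
  rintro w ⟨hw1, hw2⟩
  refine ⟨h1 ⟨?_, hw2⟩, centralizerPPrimeCore_le_centralizer x hw1⟩
  change w ∈ signalizerDelta 2 (zpowers x)
  rw [signalizerDelta, mem_iInf]
  rintro ⟨a, ⟨k, rfl⟩, ha1⟩
  have h2 : x ^ k = x := by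
    have hodd : ¬ (2 : ℤ) ∣ k := by
      intro hd
      apply ha1
      obtain ⟨m, rfl⟩ := hd
      change x ^ (2 * m) = 1
      rw [zpow_mul]
      have : x ^ (2 : ℤ) = 1 := by exact_mod_cast hxp
      rw [this, one_zpow]
    obtain ⟨m, hm⟩ : ∃ m, k = 2 * m + 1 := ⟨k / 2, by omega⟩
    rw [hm, zpow_add, zpow_mul]
    have : x ^ (2 : ℤ) = 1 := by exact_mod_cast hxp
    rw [this, one_zpow, one_mul, zpow_one]
  change w ∈ centralizerPPrimeCore 2 (x ^ k)
  rw [h2]
  exact hw1

end Helpers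


/-- Let G be finite. Suppose that for every involution x, writing C = C_G(x), every component K of C / O(C) has K / Z(K) locally balanced. Then G is balanced. -/
theorem result {G : Type*} [Group G] [Finite G] (h : ∀ x : G, orderOf x = 2 → ∀ K : Subgroup (↥(Subgroup.centralizer ({x} : Set G)) ⧸ Cfsg.oddCore ↥(Subgroup.centralizer ({x} : Set G))), Cfsg.IsComponent K → Cfsg.IsLocallyBalanced (↥K ⧸ Subgroup.center ↥K)) : Cfsg.IsBalanced G := by
  have hbal : Cfsg.IsKBalanced 2 1 G := by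
    apply Cfsg.Agent.Lib.Components.isKBalanced_of_components (le_refl 1)
    intro x hx K hK
    exact kbal_of_lb (h x hx K hK)
  intro x y hx hy hxy
  exact le_antisymm (le_aux hbal hx hy hxy) (le_aux hbal hy hx hxy.symm)

end Cfsg.Agent.S1297
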