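import Cfsg.Statements.S1299
import Cfsg.Agent.Lib.PGroups.KBalF

set_option autoImplicit false
set_option linter.unusedSectionVars false
set_option linter.unusedVariables false
set_option linter.deprecated false
set_option linter.style.haveILetI false
open Cfsg

namespace Cfsg.Agent.S1299


/-- Let G be finite and k-balanced for the prime p (k ≥ 1), A an elementary abelian p-subgroup of order at least p^(k+2) such that O_{p'}(C_G(a)) is solvable for every non-identity a ∈ A. For a ∈ A put θ a = the subgroup generated by the Δ_G(D) ∩ C_G(a) over the subgroups D ≤ A of order p^k. Then θ is an A-signalizer functor. -/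
theorem result {G : Type*} [Group G] [Finite G] (p k : ℕ) [Fact p.Prime] (hk : 1 ≤ k) (hbal : Cfsg.IsKBalanced p k G) (A : Subgroup G) (hA : Cfsg.IsElementaryAbelian p A) (hAk : p ^ (k + 2) ≤ Nat.card ↥A) (hsolv : ∀ a ∈ A, a ≠ 1 → Group.IsSolvable ↥(Cfsg.centralizerPPrimeCore p a)) : Cfsg.IsSignalizerFunctor p A (fun a => ⨆ D : {D : Subgroup G // D ≤ A ∧ Nat.card ↥D = p ^ k}, Cfsg.signalizerDelta p (D : Subgroup G) ⊓ Subgroup.centralizer {a}) := by
  classical
  have hp : p.Prime := Fact.out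
  have hAne : A ≠ ⊥ := by
    rintro rfl
    rw [Subgroup.card_bot] at hAk
    have h1 : 1 < p ^ (k + 2) := Nat.one_lt_pow (by omega) hp.one_lt
    omega
  have hZcore : ∀ a ∈ A, a ≠ 1 →
      (⨆ D : {D : Subgroup G // D ≤ A ∧ Nat.card ↥D = p ^ k},
        Cfsg.signalizerDelta p (D : Subgroup G) ⊓ Subgroup.centralizer {a}) ≤
      Cfsg.centralizerPPrimeCore p a := by
    intro a ha ha1
    refine iSup_le ?_
    rintro ⟨D, hDA, hD⟩
    refine hbal D (Cfsg.Agent.Lib.PGroups.KBalF.ea_mono hA hDA) hD a (orderOf_eq_prime (hA.2 a ha) ha1) ?_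
    intro c hc
    exact congrArg Subtype.val (hA.1.is_comm.comm (⟨c, hDA hc⟩ : A) ⟨a, ha⟩)
  have hCA : ∀ a ∈ A, A ≤ Subgroup.normalizer ((Subgroup.centralizer ({a} : Set G) : Subgroup G) : Set G) := by
    intro a ha b hb
    apply Cfsg.Agent.Lib.PGroups.KBalF.mem_norm
    intro x hx
    refine Subgroup.mem_centralizer_iff.mpr ?_
    intro c hc
    rw [Set.mem_singleton_iff] at hc
    subst hc
    have h1 : c * x = x * c := Subgroup.mem_centralizer_iff.mp hx c rfl
    have h2 : b * c = c * b := congrArg Subtype.val (hA.1.is_comm.comm (⟨b, hb⟩ : A) ⟨c, ha⟩)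
    calc c * (b * x * b⁻¹) = (c * b) * x * b⁻¹ := by group
      _ = (b * c) * x * b⁻¹ := by rw [h2]
      _ = b * (c * x) * b⁻¹ := by group
      _ = b * (x * c) * b⁻¹ := by rw [h1]
      _ = b * x * b⁻¹ * (b * c * b⁻¹) := by group
      _ = b * x * b⁻¹ * (c * b * b⁻¹) := by rw [h2]
      _ = b * x * b⁻¹ * c := by group
  have hfam := Cfsg.Agent.Lib.PGroups.KBalF.fam_delta hbal hA hAk
  have hZA : ∀ a ∈ A, A ≤ Subgroup.normalizer (((⨆ D : {D : Subgroup G // D ≤ A ∧ Nat.card ↥D = p ^ k},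
        Cfsg.signalizerDelta p (D : Subgroup G) ⊓ Subgroup.centralizer {a}) : Subgroup G) : Set G) := by
    intro a ha b hb
    apply Cfsg.Agent.Lib.PGroups.KBalF.mem_norm
    have key : (⨆ D : {D : Subgroup G // D ≤ A ∧ Nat.card ↥D = p ^ k},
        Cfsg.signalizerDelta p (D : Subgroup G) ⊓ Subgroup.centralizer {a}) ≤
        (⨆ D : {D : Subgroup G // D ≤ A ∧ Nat.card ↥D = p ^ k},
        Cfsg.signalizerDelta p (D : Subgroup G) ⊓ Subgroup.centralizer {a}).comap (MulAut.conj b).toMonoidHom := by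
      refine iSup_le ?_
      rintro ⟨D, hDA, hD⟩ x ⟨hx1, hx2⟩
      refine (le_iSup (fun D : {D : Subgroup G // D ≤ A ∧ Nat.card ↥D = p ^ k} =>
        Cfsg.signalizerDelta p (D : Subgroup G) ⊓ Subgroup.centralizer {a}) ⟨D, hDA, hD⟩) ?_
      exact ⟨hfam.inv D hDA b hb x hx1, (Subgroup.mem_normalizer_iff.mp (hCA a ha hb) x).mp hx2⟩
    intro z hz
    exact key hz
  refine ⟨?_, ?_, ?_, ?_⟩
  · intro a _ _
    exact iSup_le fun D => inf_le_right
  · intro a ha ha1
    exact Cfsg.Agent.Lib.PGroups.KBalF.not_dvd_of_le (hZcore a ha ha1) (Cfsg.Agent.Lib.PGroups.KBalF.core_not_dvd a)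
  · intro a ha _ b hb x hx
    exact (Subgroup.mem_normalizer_iff.mp (hZA a ha hb) x).mp hx
  · intro a ha ha1 b hb hb1
    set Z : Subgroup G := ⨆ D : {D : Subgroup G // D ≤ A ∧ Nat.card ↥D = p ^ k},
        Cfsg.signalizerDelta p (D : Subgroup G) ⊓ Subgroup.centralizer {a} with hZdef
    have hZle := hZcore a ha ha1
    have hZp : ¬ p ∣ Nat.card Z := Cfsg.Agent.Lib.PGroups.KBalF.not_dvd_of_le hZle (Cfsg.Agent.Lib.PGroups.KBalF.core_not_dvd a)
    haveI hs0 := hsolv a ha ha1
    have hZs : Group.IsSolvable Z := Group.isSolvable_of_isSolvable_injective (Subgroup.inclusion_injective hZle)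
    have hZAa := hZA a ha
    have hgen : Z ≤ Cfsg.Agent.Lib.PGroups.KBalF.genOf p A (fun F => Cfsg.signalizerDelta p F) Z ⊔ ⊥ := by
      refine iSup_le ?_
      rintro ⟨D, hDA, hD⟩
      have hDne : D ≠ A := by
        rintro rfl
        rw [hD] at hAk
        have h1 : p ^ (k + 2) = p ^ k * p ^ 2 := pow_add _ _ _
        have h2 : 1 < p ^ 2 := Nat.one_lt_pow (by omega) hp.one_lt
        have h3 : 0 < p ^ k := pow_pos hp.pos _
        nlinarith
      have hXA : A ≤ Subgroup.normalizer ((Cfsg.signalizerDelta p D ⊓ Subgroup.centralizer {a} : Subgroup G) : Set G) := by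
        intro b' hb'
        apply Cfsg.Agent.Lib.PGroups.KBalF.mem_norm
        rintro x ⟨hx1, hx2⟩
        exact ⟨hfam.inv D hDA b' hb' x hx1, (Subgroup.mem_normalizer_iff.mp (hCA a ha hb') x).mp hx2⟩
      have hXle : Cfsg.signalizerDelta p D ⊓ Subgroup.centralizer {a} ≤ Z :=
        le_iSup (fun D : {D : Subgroup G // D ≤ A ∧ Nat.card ↥D = p ^ k} =>
          Cfsg.signalizerDelta p (D : Subgroup G) ⊓ Subgroup.centralizer {a}) ⟨D, hDA, hD⟩
      have hg := Cfsg.Agent.Lib.PGroups.KBalF.gen_hyp hA hXA (Cfsg.Agent.Lib.PGroups.KBalF.not_dvd_of_le hXle hZp) hDA hDne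
        (inf_le_left.trans (hfam.cent D hDA))
      refine hg.trans (iSup_le ?_)
      rintro ⟨K, hK, hDK⟩ z ⟨hz1, hz2⟩
      have h3 := Cfsg.Agent.Lib.PGroups.KBalF.delta_bal hbal hA hDA hK.1 hD.ge ⟨hz1.1, hz2⟩
      rw [sup_eq_right.mpr hDK] at h3
      exact Subgroup.mem_sup_left (Cfsg.Agent.Lib.PGroups.KBalF.le_genOf (Λ := fun F => Cfsg.signalizerDelta p F) hK ⟨hXle hz1, h3⟩)
    have hcomplete : ∀ H, Cfsg.Agent.Lib.PGroups.KBalF.IsHyp p A H →
        Z ⊓ Subgroup.centralizer (H : Set G) ≤ Z ⊓ Cfsg.signalizerDelta p H := by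
      intro H hH
      have h1 := Cfsg.Agent.Lib.PGroups.KBalF.complete hA hfam hAne _ Z ⊥ rfl bot_le (fun x _ => by
          apply Cfsg.Agent.Lib.PGroups.KBalF.mem_norm
          intro y hy
          rw [Subgroup.mem_bot.mp hy]
          simp) hZAa (fun x _ => by
          apply Cfsg.Agent.Lib.PGroups.KBalF.mem_norm
          intro y hy
          rw [Subgroup.mem_bot.mp hy]
          simp) hZp hZs hgen H hH
      rwa [sup_bot_eq] at h1
    -- the final generation
    have hbA : Subgroup.zpowers b ≤ A := Subgroup.zpowers_le.mpr hb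
    have hbord : orderOf b = p := orderOf_eq_prime (hA.2 b hb) hb1
    have hbcard : Nat.card (Subgroup.zpowers b) = p ^ 1 := by
      rw [Nat.card_zpowers, hbord, pow_one]
    have hk2 : p ^ (k + 1) ≤ Nat.card A / p := by
      rw [Nat.le_div_iff_mul_le hp.pos, ← pow_succ]
      exact hAk
    have hFne : Subgroup.zpowers b ≠ A := by
      intro e
      rw [← e, hbcard, pow_one] at hAk
      have h1 : p ^ (k + 2) = p * p ^ (k + 1) := by ring
      have h2 : 1 < p ^ (k + 1) := Nat.one_lt_pow (by omega) hp.one_lt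
      nlinarith [hp.pos]
    have hWA : A ≤ Subgroup.normalizer ((Z ⊓ Subgroup.centralizer {b} : Subgroup G) : Set G) := by
      intro b' hb'
      apply Cfsg.Agent.Lib.PGroups.KBalF.mem_norm
      rintro x ⟨hx1, hx2⟩
      exact ⟨(Subgroup.mem_normalizer_iff.mp (hZAa hb') x).mp hx1,
        (Subgroup.mem_normalizer_iff.mp (hCA b hb hb') x).mp hx2⟩
    have hWF : Z ⊓ Subgroup.centralizer {b} ≤
        Subgroup.centralizer ((Subgroup.zpowers b : Subgroup G) : Set G) := by
      rintro x ⟨-, hx2⟩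
      refine Subgroup.mem_centralizer_iff.mpr ?_
      rintro c ⟨i, rfl⟩
      have h1 : b * x = x * b := Subgroup.mem_centralizer_iff.mp hx2 b rfl
      exact ((show Commute b x from h1).zpow_left i).eq
    have hg := Cfsg.Agent.Lib.PGroups.KBalF.gen_hyp hA hWA (Cfsg.Agent.Lib.PGroups.KBalF.not_dvd_of_le inf_le_left hZp) hbA hFne hWF
    refine hg.trans (iSup_le ?_)
    rintro ⟨K, hK, hFK⟩ z ⟨⟨hz1, hz2⟩, hz3⟩
    have h1 := hcomplete K hK ⟨hz1, hz3⟩
    have hKcard : p ^ k ≤ Nat.card K := by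
      have h2 : Nat.card K = Nat.card A / p := by
        rw [hK.2]
        exact (Nat.mul_div_cancel _ hp.pos).symm
      rw [h2]
      exact le_trans (Nat.pow_le_pow_right hp.pos (Nat.le_succ k)) hk2
    obtain ⟨D, hFD, hDK, hD⟩ := Cfsg.Agent.Lib.PGroups.KBalF.exists_between_card (Cfsg.Agent.Lib.PGroups.KBalF.isPGroup_of_ea (Cfsg.Agent.Lib.PGroups.KBalF.ea_mono hA hK.1))
      hFK hbcard hk hKcard
    have hDA : D ≤ A := hDK.trans hK.1
    refine (le_iSup (fun D : {D : Subgroup G // D ≤ A ∧ Nat.card ↥D = p ^ k} =>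
        Cfsg.signalizerDelta p (D : Subgroup G) ⊓ Subgroup.centralizer {b}) ⟨D, hDA, hD⟩) ?_
    exact ⟨hfam.anti D K hDK hK.1 h1.2, hz2⟩

end Cfsg.Agent.S1299
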