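import Cfsg.Statements.S1300
import Mathlib

set_option autoImplicit false
open Cfsg

namespace Cfsg.Agent.S1300

theorem uniq_of_card {G : Type*} [Group G] (A : Subgroup G) (hcard : Nat.card A = 2) :
    ∃ x ∈ A, x ≠ 1 ∧ ∀ a ∈ A, a ≠ 1 → a = x := by
  obtain ⟨y, hy, huniq⟩ := (Nat.card_eq_two_iff' (1 : A)).mp hcard
  refine ⟨y, y.2, fun h => hy (Subtype.ext h), fun a ha ha1 => ?_⟩
  have := huniq ⟨a, ha⟩ (fun h => ha1 (congrArg Subtype.val h))
  exact congrArg Subtype.val this

theorem delta_eq {G : Type*} [Group G] (A : Subgroup G) {x : G} (hxA : x ∈ A) (hx1 : x ≠ 1)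
    (huniq : ∀ a ∈ A, a ≠ 1 → a = x) :
    Cfsg.signalizerDelta 2 A = Cfsg.centralizerPPrimeCore 2 x := by
  unfold Cfsg.signalizerDelta
  apply le_antisymm
  · exact iInf_le (fun a : {a : G // a ∈ A ∧ a ≠ 1} => Cfsg.centralizerPPrimeCore 2 (a : G)) ⟨x, hxA, hx1⟩
  · refine le_iInf fun a => ?_
    rw [huniq a a.2.1 a.2.2]

theorem key {G : Type*} [Group G] (h : Cfsg.IsKBalanced 2 1 G) (x y : G) (hx : orderOf x = 2)
    (hy : orderOf y = 2) (hxy : x * y = y * x) :
    Cfsg.centralizerPPrimeCore 2 x ⊓ Subgroup.centralizer {y} ≤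
      Cfsg.centralizerPPrimeCore 2 y ⊓ Subgroup.centralizer {x} := by
  refine le_inf ?_ (inf_le_left.trans (Subgroup.map_subtype_le _))
  have hA : Cfsg.IsElementaryAbelian 2 (Subgroup.zpowers x) := by
    refine ⟨inferInstance, ?_⟩
    rintro a ⟨k, rfl⟩
    simp only [zpow_eq_pow, ← zpow_natCast, ← zpow_mul] 
    rw [mul_comm, zpow_mul, zpow_natCast, ← hx, pow_orderOf_eq_one, one_zpow]
  have hcard : Nat.card (Subgroup.zpowers x) = 2 := by rw [Nat.card_zpowers, hx]
  have hb : ∀ a ∈ Subgroup.zpowers x, a * y = y * a := by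
    rintro a ⟨k, rfl⟩
    exact (Commute.zpow_left hxy k)
  obtain ⟨x', hx'm, hx'1, huniq⟩ := uniq_of_card _ hcard
  have hx1 : x ≠ 1 := by
    intro h1
    rw [h1, orderOf_one] at hx
    omega
  have hxx : x = x' := huniq x (Subgroup.mem_zpowers x) hx1
  have hd := delta_eq (Subgroup.zpowers x) (Subgroup.mem_zpowers x) hx1 (hxx ▸ huniq)
  have := h (Subgroup.zpowers x) hA (by rw [hcard]; norm_num) y hy hb
  rwa [hd] at this


/-- For a finite group G, balance in the sense of commuting involutions is the same as 1-balance for the prime 2. -/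
theorem result {G : Type*} [Group G] [Finite G] : Cfsg.IsBalanced G ↔ Cfsg.IsKBalanced 2 1 G := by
  constructor
  · intro h A hA hcard b hb hcomm
    have hcard' : Nat.card A = 2 := by simpa using hcard
    obtain ⟨x, hxA, hx1, huniq⟩ := uniq_of_card A hcard'
    have hx2 : orderOf x = 2 := orderOf_eq_prime (hA.2 x hxA) hx1
    rw [delta_eq A hxA hx1 huniq, h x b hx2 hb (hcomm x hxA)]
    exact inf_le_left
  · intro h x y hx hy hxy
    exact le_antisymm (key h x y hx hy hxy) (key h y x hy hx hxy.symm)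

end Cfsg.Agent.S1300
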