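import Cfsg.Statements.S1302
import Mathlib
import Cfsg.Agent.Lib.Components.Baer
import Cfsg.Agent.Lib.Components.PComp2
import Cfsg.Agent.Lib.Transfer.Critical2

set_option autoImplicit false
open Cfsg

namespace Cfsg.Agent.S1302

open Subgroup Cfsg Cfsg.Agent.Lib Cfsg.Agent.Lib.Components Cfsg.Agent.Lib.Transfer
open scoped commutatorElement

section aux
variable {G : Type*} [Group G] [Finite G] {p : ℕ} [hpp : Fact p.Prime]

/-- Thompson: it suffices to fix the elements of order `p` of a critical subgroup. -/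
theorem fix_crit (hp2 : p ≠ 2) (hG : IsPGroup p G) (H : Subgroup G) (hHc : H.Characteristic)
    (h1 : (frattini H).map H.subtype ≤ centralizer (H : Set G))
    (h2 : ⁅H, (⊤ : Subgroup G)⁆ ≤ H ⊓ centralizer (H : Set G)) (h3 : centralizer (H : Set G) ≤ H)
    (a : MulAut G) (ha : Nat.Coprime (orderOf a) p) (h : ∀ x ∈ H, x ^ p = 1 → a x = x) : a = 1 := by
  apply eq_one_of_fix_critical hG H h2 h3 a ha
  have hHa : ∀ x ∈ H, a x ∈ H := fun x hx => map_mem_of_char hHc a hx
  have hH : IsPGroup p H := hG.to_subgroup H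
  have hZc : (H ⊓ centralizer (H : Set G)).Characteristic := char_inf hHc (char_centralizer hHc)
  have hZ : ∀ k : ℕ, ∀ z ∈ H ⊓ centralizer (H : Set G), z ^ p ^ k = 1 → a z = z := by
    intro k
    induction k with
    | zero =>
      intro z _ h0
      have : z = 1 := by simpa using h0
      rw [this, map_one]
    | succ k ih =>
      intro z hz h0
      have hzp : z ^ p ∈ H ⊓ centralizer (H : Set G) := pow_mem hz p
      have h4 : a (z ^ p) = z ^ p := ih _ hzp (by rw [← pow_mul, ← pow_succ']; exact h0)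
      have haz : a z ∈ H ⊓ centralizer (H : Set G) := map_mem_of_char hZc a hz
      have hcomm : Commute z⁻¹ (a z) := by
        have : z * a z = a z * z := (mem_centralizer_iff.1 (mem_inf.1 hz).2 _ (mem_inf.1 haz).1).symm
        exact (show Commute z (a z) from this).inv_left
      have hu : (z⁻¹ * a z) ^ p = 1 := by
        rw [hcomm.mul_pow, ← map_pow, h4, inv_pow, inv_mul_cancel]
      have h5 := h _ (H.mul_mem (H.inv_mem (mem_inf.1 hz).1) (mem_inf.1 haz).1) hu
      have h6 := eq_one_of_coprime_aut hG a ha (g := z) (w := z⁻¹ * a z) (by group) h5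
      rw [inv_mul_eq_one] at h6
      exact h6.symm
  have hZall : ∀ z ∈ H ⊓ centralizer (H : Set G), a z = z := by
    intro z hz
    obtain ⟨k, hk⟩ := hG z
    exact hZ k z hz hk
  have hKp : ∀ x : H, x ^ p ∈ center H := by
    intro x
    rw [mem_center_iff]
    intro y
    have h4 : ((x ^ p : H) : G) ∈ centralizer (H : Set G) :=
      h1 ⟨_, pow_mem_frattini hH x, rfl⟩
    apply Subtype.ext
    exact (mem_centralizer_iff.1 h4 y y.2)
  have hKc : commutator H ≤ center H := by
    intro w hw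
    rw [mem_center_iff]
    intro y
    have h4 : ((w : H) : G) ∈ centralizer (H : Set G) :=
      h1 ⟨_, commutator_le_frattini hH hw, rfl⟩
    apply Subtype.ext
    exact (mem_centralizer_iff.1 h4 y y.2)
  intro x hx
  have hu : (x⁻¹ * a x) ^ p = 1 := by
    have h4 := mul_pow_of_pow_central (p := p) hp2 hKp hKc (⟨x, hx⟩ : H)⁻¹ ⟨a x, hHa x hx⟩
    have h5 := congrArg (Subtype.val : ↥H → G) h4
    have h6 : (x⁻¹ * a x) ^ p = (x⁻¹) ^ p * (a x) ^ p := h5
    rw [h6, ← map_pow]
    have hzz : x ^ p ∈ H ⊓ centralizer (H : Set G) := by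
      refine mem_inf.2 ⟨pow_mem hx p, ?_⟩
      have h7 := h1 ⟨_, pow_mem_frattini hH (⟨x, hx⟩ : H), rfl⟩
      exact h7
    rw [hZall _ hzz, inv_pow, inv_mul_cancel]
  have h5 := h _ (H.mul_mem (H.inv_mem hx) (hHa x hx)) hu
  have h6 := eq_one_of_coprime_aut hG a ha (g := x) (w := x⁻¹ * a x) (by group) h5
  rw [inv_mul_eq_one] at h6
  exact h6.symm

theorem main_quot (hp : p ≠ 2) (P : Subgroup G) (hPn : P.Normal) (hP : IsPGroup p P)
    (hC : centralizer (P : Set G) ≤ P) (A Q : Subgroup G) (hA : IsPGroup p A)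
    (hΩ : ∀ x ∈ centralizer (A : Set G), orderOf x = p → x ∈ A)
    (hQ : (Nat.card Q).Coprime p) (hAQ : A ≤ normalizer (Q : Set G)) : Q = ⊥ := by
  classical
  have hpp' : p.Prime := Fact.out
  haveI := hPn
  obtain ⟨H, hHc, h1, h2, h3⟩ := exists_critical hP
  have hH : IsPGroup p H := hP.to_subgroup H
  have hKp : ∀ x : H, x ^ p ∈ center H := by
    intro x
    rw [mem_center_iff]
    intro y
    have h4 : ((x ^ p : H) : P) ∈ centralizer (H : Set P) :=
      h1 ⟨_, pow_mem_frattini hH x, rfl⟩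
    apply Subtype.ext
    exact (mem_centralizer_iff.1 h4 y y.2)
  have hKc : commutator H ≤ center H := by
    intro w hw
    rw [mem_center_iff]
    intro y
    have h4 : ((w : H) : P) ∈ centralizer (H : Set P) :=
      h1 ⟨_, commutator_le_frattini hH hw, rfl⟩
    apply Subtype.ext
    exact (mem_centralizer_iff.1 h4 y y.2)
  let D₀ : Subgroup H :=
    { carrier := {x | x ^ p = 1}
      mul_mem' := by
        intro a b ha hb
        show (a * b) ^ p = 1
        rw [mul_pow_of_pow_central hp hKp hKc a b, show a ^ p = 1 from ha, show b ^ p = 1 from hb, one_mul]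
      one_mem' := one_pow p
      inv_mem' := by
        intro a ha
        show a⁻¹ ^ p = 1
        rw [inv_pow, show a ^ p = 1 from ha, inv_one] }
  let D : Subgroup G := (D₀.map H.subtype).map P.subtype
  have hDmem : ∀ x : H, ((x : P) : G) ^ p = 1 → ((x : P) : G) ∈ D := by
    intro x hx
    refine ⟨(x : P), ⟨x, ?_, rfl⟩, rfl⟩
    apply Subtype.ext
    apply Subtype.ext
    exact hx
  have hDmem' : ∀ x ∈ D, ∃ y : D₀, ((y : H) : P).1 = x := by
    rintro x ⟨_, ⟨y, hy, rfl⟩, rfl⟩
    exact ⟨⟨y, hy⟩, rfl⟩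
  have hDn : D.Normal := by
    refine ⟨fun x hx g => ?_⟩
    obtain ⟨y, rfl⟩ := hDmem' x hx
    have hy1 : ((y : H) : P) ∈ H := (y : H).2
    have hy2 := map_mem_of_char hHc (MulAut.conjNormal g : MulAut P) hy1
    have hy3 : g * ((y : H) : P).1 * g⁻¹ = ((MulAut.conjNormal g : MulAut P) ((y : H) : P) : P) :=
      (MulAut.conjNormal_apply g _).symm
    rw [hy3]
    apply hDmem ⟨_, hy2⟩
    show ((((MulAut.conjNormal g : MulAut P) ((y : H) : P) : P)) : G) ^ p = 1
    rw [← hy3, conj_pow]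
    have hy4 : (y : H) ^ p = 1 := y.2
    have hy5 : ((y : H) : P).1 ^ p = 1 := by
      have := congrArg (fun u : H => ((u : P) : G)) hy4
      simpa using this
    rw [hy5]
    simp
  haveI := hDn
  have hexp : ∀ x : D, x ^ p = 1 := by
    intro x
    obtain ⟨y, hy⟩ := hDmem' x x.2
    apply Subtype.ext
    show (x : G) ^ p = 1
    rw [← hy]
    have hy4 : (y : H) ^ p = 1 := y.2
    have := congrArg (fun u : H => ((u : P) : G)) hy4
    simpa using this
  have hcen : CentralComm D := by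
    intro x y z
    obtain ⟨x', hx⟩ := hDmem' x x.2
    obtain ⟨y', hy⟩ := hDmem' y y.2
    obtain ⟨z', hz⟩ := hDmem' z z.2
    have h4 : ⁅(x' : H), (y' : H)⁆ ∈ commutator H := by
      rw [_root_.commutator_def]
      exact Subgroup.commutator_mem_commutator (mem_top _) (mem_top _)
    have h5 := mem_center_iff.mp (hKc h4) (z' : H)
    apply Subtype.ext
    show ⁅(x : G), (y : G)⁆ * (z : G) = (z : G) * ⁅(x : G), (y : G)⁆
    rw [← hx, ← hy, ← hz]
    have h6 := congrArg (fun u : H => ((u : P) : G)) h5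
    simp only [commutatorElement_def] at h6 ⊢
    simp only [Subgroup.coe_mul, Subgroup.coe_inv] at h6
    exact h6.symm
  obtain ⟨Qs, hQs⟩ : ∃ Qs : Subgroup (MulAut D), Qs = Q.map (MulAut.conjNormal (H := D)) := ⟨_, rfl⟩
  obtain ⟨As, hAs⟩ : ∃ As : Subgroup (MulAut D), As = A.map (MulAut.conjNormal (H := D)) := ⟨_, rfl⟩
  have hQD : ∀ q ∈ Q, ∀ x ∈ D, q * x * q⁻¹ = x := by
    have hmain := baer_trivial hp hexp hcen Qs As
      (by rw [hQs]; exact Nat.Coprime.coprime_dvd_left (Subgroup.card_map_dvd _ _) hQ)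
      (by rw [hAs]; exact hA.map _)
      (by
        rw [hAs, hQs]
        refine le_trans ?_ (Subgroup.le_normalizer_map _)
        exact Subgroup.map_mono hAQ)
      (by
        intro x hx q hq
        have hxc : (x : G) ∈ centralizer (A : Set G) := by
          rw [Subgroup.mem_centralizer_iff]
          intro a ha
          have h4 := hx (MulAut.conjNormal a) (by rw [hAs]; exact ⟨a, ha, rfl⟩)
          have h5 : a * (x : G) * a⁻¹ = x := by
            have h6 := congrArg (Subtype.val) h4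
            rwa [MulAut.conjNormal_apply] at h6
          rw [mul_inv_eq_iff_eq_mul] at h5
          exact h5
        by_cases hx1 : x = 1
        · rw [hx1, map_one]
        have hxo : orderOf (x : G) = p := by
          apply orderOf_eq_prime
          · exact congrArg Subtype.val (hexp x)
          · intro h
            exact hx1 (Subtype.ext h)
        have hxA := hΩ _ hxc hxo
        rw [hQs] at hq
        obtain ⟨q₀, hq₀, rfl⟩ := hq
        apply Subtype.ext
        rw [MulAut.conjNormal_apply]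
        -- commutator in `Q ∩ D`
        have hc1 : (x : G) * q₀ * (x : G)⁻¹ ∈ Q := (Subgroup.mem_normalizer_iff.mp (hAQ hxA) q₀).mp hq₀
        have hc2 : (x : G) * q₀ * (x : G)⁻¹ * q₀⁻¹ ∈ Q := Q.mul_mem hc1 (Q.inv_mem hq₀)
        have hc3 : (x : G) * q₀ * (x : G)⁻¹ * q₀⁻¹ ∈ D := by
          have e : (x : G) * q₀ * (x : G)⁻¹ * q₀⁻¹ = (x : G) * (q₀ * (x : G)⁻¹ * q₀⁻¹) := by group
          rw [e]
          exact D.mul_mem x.2 (hDn.conj_mem _ (D.inv_mem x.2) q₀)
        have hc4 : ((x : G) * q₀ * (x : G)⁻¹ * q₀⁻¹) ^ p = 1 :=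
          congrArg Subtype.val (hexp ⟨_, hc3⟩)
        have hc5 : (x : G) * q₀ * (x : G)⁻¹ * q₀⁻¹ = 1 := by
          have h6 : orderOf ((x : G) * q₀ * (x : G)⁻¹ * q₀⁻¹) ∣ p := orderOf_dvd_of_pow_eq_one hc4
          have h7 : orderOf ((x : G) * q₀ * (x : G)⁻¹ * q₀⁻¹) ∣ Nat.card Q := Subgroup.orderOf_dvd_natCard Q hc2
          have h8 := Nat.Coprime.eq_one_of_dvd (Nat.Coprime.coprime_dvd_left h7 hQ) h6
          exact orderOf_eq_one_iff.mp h8
        have hc6 : (x : G) * q₀ = q₀ * x := by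
          rw [mul_inv_eq_one, mul_inv_eq_iff_eq_mul] at hc5
          exact hc5
        rw [← hc6]
        group)
    intro q hq x hx
    have h4 := hmain (MulAut.conjNormal q) (by rw [hQs]; exact ⟨q, hq, rfl⟩) ⟨x, hx⟩
    have h5 := congrArg Subtype.val h4
    rwa [MulAut.conjNormal_apply] at h5
  rw [eq_bot_iff]
  intro q hq
  have hα : (MulAut.conjNormal q : MulAut P) = 1 := by
    apply fix_crit hp hP H hHc h1 h2 h3
    · have h4 : orderOf (MulAut.conjNormal q : MulAut P) ∣ orderOf q := orderOf_map_dvd _ _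
      have h5 : orderOf q ∣ Nat.card Q := Subgroup.orderOf_dvd_natCard Q hq
      exact Nat.Coprime.coprime_dvd_left (h4.trans h5) hQ
    · intro x hx hxp
      apply Subtype.ext
      rw [MulAut.conjNormal_apply]
      apply hQD q hq
      apply hDmem ⟨x, hx⟩
      exact congrArg Subtype.val hxp
  have hqC : q ∈ centralizer (P : Set G) := by
    rw [Subgroup.mem_centralizer_iff]
    intro y hy
    have h4 := congrArg (fun f : MulAut P => ((f ⟨y, hy⟩ : P) : G)) hα
    simp only [MulAut.conjNormal_apply, MulAut.one_apply] at h4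
    rw [mul_inv_eq_iff_eq_mul] at h4
    exact h4.symm
  have hqP := hC hqC
  obtain ⟨k, hk⟩ := (IsPGroup.iff_orderOf.mp hP) ⟨q, hqP⟩
  rw [Subgroup.orderOf_mk] at hk
  have h5 : orderOf q ∣ Nat.card Q := Subgroup.orderOf_dvd_natCard Q hq
  have h6 : orderOf q = 1 := by
    apply Nat.Coprime.eq_one_of_dvd (Nat.Coprime.coprime_dvd_left h5 hQ |>.pow_right k)
    rw [hk]
  exact orderOf_eq_one_iff.mp h6

/-- Lifting elements of order `p` of the centralizer. -/
theorem lift_omega {X : Type*} [Group X] [Finite X] (A : Subgroup X) (hAp : IsPGroup p A)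
    (K : Subgroup X) [hK : K.Normal] (hKc : (Nat.card K).Coprime p)
    (hΩ : ∀ x ∈ centralizer (A : Set X), orderOf x = p → x ∈ A)
    (x : X) (hx : ∀ a ∈ A, (QuotientGroup.mk a : X ⧸ K) * (x : X ⧸ K) = (x : X ⧸ K) * (a : X ⧸ K))
    (hxo : orderOf (x : X ⧸ K) = p) : (x : X ⧸ K) ∈ A.map (QuotientGroup.mk' K) := by
  classical
  have hpp' : p.Prime := Fact.out
  -- the coset
  let α := {y : X // (y : X ⧸ K) = (x : X ⧸ K)}
  have hsmul : ∀ (a : A) (y : α), (((a : X) * y.1 * (a : X)⁻¹ : X) : X ⧸ K) = (x : X ⧸ K) := by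
    intro a y
    have h1 := hx a a.2
    rw [QuotientGroup.mk_mul, QuotientGroup.mk_mul, QuotientGroup.mk_inv, y.2, h1]
    simp
  letI : MulAction A α :=
    { smul := fun a y => ⟨(a : X) * y.1 * (a : X)⁻¹, hsmul a y⟩
      one_smul := fun y => Subtype.ext (by show (1 : X) * y.1 * (1 : X)⁻¹ = y.1; simp)
      mul_smul := fun a b y => Subtype.ext (by
        show ((a : X) * b) * y.1 * ((a : X) * b)⁻¹ = (a : X) * ((b : X) * y.1 * (b : X)⁻¹) * (a : X)⁻¹
        group) }
  have hcardα : Nat.card α = Nat.card K := by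
    apply Nat.card_congr
    exact
      { toFun := fun y => ⟨x⁻¹ * y.1, by
          have := y.2
          rw [← QuotientGroup.eq_one_iff, QuotientGroup.mk_mul, QuotientGroup.mk_inv, this, inv_mul_cancel]⟩
        invFun := fun k => ⟨x * k, by
          rw [QuotientGroup.mk_mul, (QuotientGroup.eq_one_iff _).mpr k.2, mul_one]⟩
        left_inv := fun y => Subtype.ext (by simp)
        right_inv := fun k => Subtype.ext (by simp) }
  have hnd : ¬ p ∣ Nat.card α := by
    rw [hcardα]
    intro h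
    have := Nat.Coprime.eq_one_of_dvd hKc.symm h
    exact hpp'.one_lt.ne' this
  obtain ⟨y, hy⟩ := hAp.nonempty_fixed_point_of_prime_not_dvd_card α hnd
  have hyc : y.1 ∈ centralizer (A : Set X) := by
    rw [Subgroup.mem_centralizer_iff]
    intro a ha
    have h1 := hy ⟨a, ha⟩
    have h2 : a * y.1 * a⁻¹ = y.1 := congrArg Subtype.val h1
    rw [mul_inv_eq_iff_eq_mul] at h2
    exact h2
  obtain ⟨e, m, hm, hem⟩ := Nat.exists_eq_pow_mul_and_not_dvd (orderOf_pos y.1).ne' p hpp'.ne_one
  obtain ⟨t, -, ht⟩ := Nat.exists_mul_mod_eq_one_of_coprime (k := p) (n := m)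
    ((Nat.Prime.coprime_iff_not_dvd hpp').2 hm).symm hpp'.one_lt
  obtain ⟨w, hw⟩ : ∃ w, w = y.1 ^ (m * t) := ⟨_, rfl⟩
  have hwπ : (w : X ⧸ K) = (x : X ⧸ K) := by
    rw [hw, QuotientGroup.mk_pow, y.2, pow_eq_pow_mod (m * t) (by rw [← hxo]; exact pow_orderOf_eq_one _ : (x : X ⧸ K) ^ p = 1), ht, pow_one]
  have hwc : w ∈ centralizer (A : Set X) := by
    rw [hw]; exact pow_mem hyc _
  have hwe : w ^ p ^ e = 1 := by
    rw [hw, ← pow_mul, mul_comm (m * t), ← mul_assoc, ← hem, pow_mul, pow_orderOf_eq_one, one_pow]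
  have hwp : w ^ p = 1 := by
    have h1 : (w ^ p : X) ∈ K := by
      rw [← QuotientGroup.eq_one_iff, QuotientGroup.mk_pow, hwπ, ← hxo, pow_orderOf_eq_one]
    have h2 : orderOf (w ^ p) ∣ Nat.card K := Subgroup.orderOf_dvd_natCard K h1
    have h3 : orderOf (w ^ p) ∣ p ^ e := by
      apply orderOf_dvd_of_pow_eq_one
      rw [← pow_mul, mul_comm, pow_mul, hwe, one_pow]
    have h4 := Nat.Coprime.eq_one_of_dvd (Nat.Coprime.pow_right e (Nat.Coprime.coprime_dvd_left h2 hKc)) h3
    exact orderOf_eq_one_iff.mp h4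
  have hw1 : w ≠ 1 := by
    intro h
    rw [h, QuotientGroup.mk_one] at hwπ
    rw [← hwπ, orderOf_one] at hxo
    exact hpp'.one_lt.ne hxo
  have hwo : orderOf w = p := orderOf_eq_prime hwp hw1
  exact ⟨w, hΩ w hwc hwo, hwπ⟩

end aux


/-- Let X be a finite p-constrained group, p an odd prime, and A an abelian p-subgroup of X containing every element of order p of C_X(A). Then every subgroup of X of order prime to p that is normalized by A lies in O_{p'}(X). -/
theorem result {X : Type*} [Group X] [Finite X] (p : ℕ) [Fact p.Prime] (hp : p ≠ 2) (hX : Cfsg.IsPConstrained p X) (A : Subgroup X) (hA : IsMulCommutative ↥A) (hAp : IsPGroup p ↥A) (hΩ : ∀ x ∈ Subgroup.centralizer (A : Set X), orderOf x = p → x ∈ A) (Q : Subgroup X) (hQ : ¬ p ∣ Nat.card ↥Q) (hAQ : A ≤ Subgroup.normalizer (Q : Set X)) : Q ≤ Cfsg.pPrimeCore p X := by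
  classical
  have hQc : (Nat.card Q).Coprime p := ((Nat.Prime.coprime_iff_not_dvd Fact.out).2 hQ).symm
  have hmain := main_quot hp (pCore p (X ⧸ pPrimeCore p X)) inferInstance pCore_isPGroup
    (isPConstrained_iff_quotient.mp hX) (A.map (QuotientGroup.mk' (pPrimeCore p X)))
    (Q.map (QuotientGroup.mk' (pPrimeCore p X))) (hAp.map _)
    (by
      intro y hy hyo
      obtain ⟨x, rfl⟩ := QuotientGroup.mk_surjective y
      apply lift_omega A hAp (pPrimeCore p X) (coprime_card_pPrimeCore p) hΩ x _ hyo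
      intro a ha
      have := Subgroup.mem_centralizer_iff.mp hy (QuotientGroup.mk' (pPrimeCore p X) a) ⟨a, ha, rfl⟩
      exact this)
    (Nat.Coprime.coprime_dvd_left (Subgroup.card_map_dvd _ _) hQc)
    (le_trans (Subgroup.map_mono hAQ) (Subgroup.le_normalizer_map _))
  intro q hq
  have h1 : (q : X ⧸ pPrimeCore p X) ∈ Q.map (QuotientGroup.mk' (pPrimeCore p X)) := ⟨q, hq, rfl⟩
  rw [hmain] at h1
  exact (QuotientGroup.eq_one_iff _).mp h1

end Cfsg.Agent.S1302
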