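import Cfsg.Statements.S1303
import Mathlib
import Cfsg.Agent.Lib.Components.Local

set_option autoImplicit false
open Cfsg

namespace Cfsg.Agent.S1303

abbrev SL23 := Matrix.SpecialLinearGroup (Fin 2) (ZMod 3)

theorem t1 : ∀ t : SL23, t ^ 2 = 1 → t ≠ 1 → ∀ g : SL23, t * g = g * t := by decide +kernel
theorem t2 : Fintype.card SL23 = 24 := by decide +kernel
theorem t3 : ∀ x : SL23, x ≠ 1 → (x ^ 3 ≠ 1) ∨ (∃ g : SL23, (x * g * x⁻¹ * g⁻¹) ≠ 1 ∧ (x * g * x⁻¹ * g⁻¹) ^ 4 = 1) := by decide +kernel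
theorem t4 : ∀ x : SL23, x ^ 3 ≠ 1 → (x ^ 3) ^ 4 = 1 := by decide +kernel
theorem t5 : ∀ x y : SL23, x ^ 4 = 1 → y ^ 4 = 1 → (x * y) ^ 4 = 1 := by decide +kernel
theorem t6 : ∀ x g : SL23, x ^ 4 = 1 → (g * x * g⁻¹) ^ 4 = 1 := by decide +kernel
theorem t7 : ∀ x : SL23, x ^ 4 = 1 → x⁻¹ ^ 4 = 1 := by decide +kernel
theorem t8 : (Finset.univ.filter (fun x : SL23 => x ^ 4 = 1)).card = 8 := by decide +kernel
def u : SL23 := ⟨!![1, 1; 0, 1], by decide +kernel⟩
theorem t9 : u ^ 3 = 1 := by decide +kernel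
theorem t10 : u ≠ 1 := by decide +kernel

def Q8 : Subgroup SL23 where
  carrier := {x | x ^ 4 = 1}
  one_mem' := by simp
  mul_mem' := fun hx hy => t5 _ _ hx hy
  inv_mem' := fun hx => t7 _ hx

instance Q8_normal : Q8.Normal := ⟨fun x hx g => t6 x g hx⟩

theorem Q8_card : Nat.card Q8 = 8 := by
  have : Nat.card Q8 = Nat.card {x : SL23 // x ^ 4 = 1} := rfl
  rw [this, ← t8, Nat.card_eq_fintype_card, Fintype.card_subtype]

theorem Q8_index : Q8.index = 3 := by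
  have h := Q8.card_mul_index
  rw [Q8_card, Nat.card_eq_fintype_card, t2] at h
  omega

theorem SL23_solvable : Group.IsSolvable SL23 := by
  haveI : Fact (Nat.Prime 2) := ⟨Nat.prime_two⟩
  haveI : Fact (Nat.Prime 3) := ⟨by norm_num⟩
  have hP : IsPGroup 2 Q8 := by
    rw [IsPGroup.iff_card]
    exact ⟨3, by rw [Q8_card]; norm_num⟩
  haveI : Group.IsNilpotent Q8 := hP.isNilpotent
  haveI hsQ : Group.IsSolvable Q8 := inferInstance
  have hcard : Nat.card (SL23 ⧸ Q8) = 3 := Q8_index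
  haveI : IsCyclic (SL23 ⧸ Q8) := isCyclic_of_prime_card hcard
  letI : CommGroup (SL23 ⧸ Q8) := IsCyclic.commGroup
  haveI hs : Group.IsSolvable (SL23 ⧸ Q8) := inferInstance
  exact Group.isSolvable_of_ker_le_range Q8.subtype (QuotientGroup.mk' Q8) (by
    intro x hx
    simpa using hx)


/-- The group X = SL(2, 3): it is 2-constrained, O_{2'}(X) = 1, its centre A = Z(X) contains every involution of X = C_X(A), and X has a subgroup of order 3 (normalized by A) not contained in O_{2'}(X). -/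
theorem result : Cfsg.IsPConstrained 2 (Matrix.SpecialLinearGroup (Fin 2) (ZMod 3)) ∧ Cfsg.pPrimeCore 2 (Matrix.SpecialLinearGroup (Fin 2) (ZMod 3)) = ⊥ ∧ (∀ t : Matrix.SpecialLinearGroup (Fin 2) (ZMod 3), orderOf t = 2 → t ∈ Subgroup.center (Matrix.SpecialLinearGroup (Fin 2) (ZMod 3))) ∧ ∃ Q : Subgroup (Matrix.SpecialLinearGroup (Fin 2) (ZMod 3)), Nat.card ↥Q = 3 ∧ ¬ (Q ≤ Cfsg.pPrimeCore 2 (Matrix.SpecialLinearGroup (Fin 2) (ZMod 3))) := by
  classical
  haveI : Fact (Nat.Prime 2) := ⟨Nat.prime_two⟩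
  haveI : Fact (Nat.Prime 3) := ⟨by norm_num⟩
  haveI := SL23_solvable
  have hcore : Cfsg.pPrimeCore 2 SL23 = ⊥ := by
    rcases Subgroup.bot_or_exists_ne_one (Cfsg.pPrimeCore 2 SL23) with h | ⟨x, hx, hx1⟩
    · exact h
    exfalso
    have hN := Cfsg.pPrimeCore_normal 2 SL23
    have key : ∀ w ∈ Cfsg.pPrimeCore 2 SL23, w ≠ 1 → w ^ 4 = 1 → False := by
      intro w hw hw1 hw4
      have h1 : orderOf w ∣ Nat.card (Cfsg.pPrimeCore 2 SL23) := Subgroup.orderOf_dvd_natCard _ hw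
      have h2 : Nat.Coprime (orderOf w) 2 := Nat.Coprime.coprime_dvd_left h1 (Cfsg.Agent.Lib.Components.coprime_card_pPrimeCore 2)
      have h3 : orderOf w ∣ 2 ^ 2 := orderOf_dvd_of_pow_eq_one hw4
      have h4 : orderOf w = 1 := Nat.eq_one_of_dvd_coprimes (k := orderOf w) (Nat.Coprime.pow_right 2 h2) (dvd_refl _) h3
      exact hw1 (orderOf_eq_one_iff.mp h4)
    rcases t3 x hx1 with h3 | ⟨g, h1, h2⟩
    · exact key _ (pow_mem hx 3) h3 (t4 x h3)
    · refine key _ ?_ h1 h2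
      have h5 : g * x⁻¹ * g⁻¹ ∈ Cfsg.pPrimeCore 2 SL23 := hN.conj_mem _ (inv_mem hx) g
      have : x * g * x⁻¹ * g⁻¹ = x * (g * x⁻¹ * g⁻¹) := by group
      rw [this]
      exact mul_mem hx h5
  refine ⟨Cfsg.Agent.Lib.Components.isPConstrained_of_solvable SL23_solvable, hcore, ?_, Subgroup.zpowers u, ?_, ?_⟩
  · intro t ht
    rw [Subgroup.mem_center_iff]
    intro g
    have ht2 : t ^ 2 = 1 := by have := pow_orderOf_eq_one t; rwa [ht] at this
    have hne : t ≠ 1 := by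
      rintro rfl
      simp at ht
    exact (t1 t ht2 hne g).symm
  · rw [Nat.card_zpowers]
    exact orderOf_eq_prime t9 t10
  · rw [hcore]
    intro h
    exact t10 (Subgroup.mem_bot.mp (h (Subgroup.mem_zpowers u)))

end Cfsg.Agent.S1303
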