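import Cfsg.Statements.S1304
import Mathlib

set_option autoImplicit false
open Cfsg

namespace Cfsg.Agent.S1304

open scoped commutatorElement in
theorem key_fix {X : Type*} [Group X] (α : X ≃* X) (h : ∀ x : X, α x * x⁻¹ ∈ Subgroup.center X)
    (a b : X) : α ⁅a, b⁆ = ⁅a, b⁆ := by
  have hcu : ∀ y, (α a * a⁻¹) * y = y * (α a * a⁻¹) :=
    fun y => (Subgroup.mem_center_iff.mp (h a) y).symm
  have hcv : ∀ y, (α b * b⁻¹) * y = y * (α b * b⁻¹) :=
    fun y => (Subgroup.mem_center_iff.mp (h b) y).symm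
  have ha' : α a = (α a * a⁻¹) * a := by group
  have hb' : α b = (α b * b⁻¹) * b := by group
  rw [map_commutatorElement, ha', hb']
  generalize α a * a⁻¹ = u at hcu
  generalize α b * b⁻¹ = v at hcv
  simp only [commutatorElement_def, mul_inv_rev]
  have hcu' : ∀ y, u⁻¹ * y = y * u⁻¹ := fun y => by
    have := hcu y
    calc u⁻¹ * y = u⁻¹ * (y * u) * u⁻¹ := by group
      _ = u⁻¹ * (u * y) * u⁻¹ := by rw [hcu]
      _ = y * u⁻¹ := by group
  have hcv' : ∀ y, v⁻¹ * y = y * v⁻¹ := fun y => by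
    calc v⁻¹ * y = v⁻¹ * (y * v) * v⁻¹ := by group
      _ = v⁻¹ * (v * y) * v⁻¹ := by rw [hcv]
      _ = y * v⁻¹ := by group
  calc u * a * (v * b) * (a⁻¹ * u⁻¹) * (b⁻¹ * v⁻¹)
      = u * (a * (v * (b * (a⁻¹ * (u⁻¹ * (b⁻¹ * v⁻¹)))))) := by simp only [mul_assoc]
    _ = u * (v * (a * (b * (a⁻¹ * (u⁻¹ * (b⁻¹ * v⁻¹)))))) := by
        rw [← mul_assoc a v, ← hcv a, mul_assoc v a]
    _ = u * (v * (a * (b * (a⁻¹ * (b⁻¹ * v⁻¹))) * u⁻¹)) := by
        have : a⁻¹ * (u⁻¹ * (b⁻¹ * v⁻¹)) = a⁻¹ * (b⁻¹ * v⁻¹) * u⁻¹ := by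
          rw [← mul_assoc a⁻¹, ← hcu' a⁻¹, mul_assoc u⁻¹, hcu']
        rw [this]; simp only [mul_assoc]
    _ = u * (v * (a * b * a⁻¹ * b⁻¹ * v⁻¹ * u⁻¹)) := by simp only [mul_assoc]
    _ = u * (v * (a * b * a⁻¹ * b⁻¹)) * v⁻¹ * u⁻¹ := by simp only [mul_assoc]
    _ = u * ((a * b * a⁻¹ * b⁻¹) * v) * v⁻¹ * u⁻¹ := by rw [hcv]
    _ = u * (a * b * a⁻¹ * b⁻¹) * u⁻¹ := by group
    _ = (a * b * a⁻¹ * b⁻¹) * u * u⁻¹ := by rw [hcu]
    _ = a * b * a⁻¹ * b⁻¹ := by group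


/-- Let X be a perfect group and α an automorphism of X with α(x) x⁻¹ central for every x. Then α is the identity. -/
theorem result {X : Type*} [Group X] (hperf : commutator X = ⊤) (α : X ≃* X) (h : ∀ x : X, α x * x⁻¹ ∈ Subgroup.center X) : ∀ x : X, α x = x := by
  intro x
  have hx : x ∈ commutator X := by rw [hperf]; trivial
  rw [commutator_def] at hx
  induction hx using Subgroup.closure_induction with
  | mem y hy =>
    obtain ⟨g₁, _, g₂, _, rfl⟩ := hy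
    exact key_fix α h g₁ g₂
  | one => simp
  | mul y z _ _ hy hz => rw [map_mul, hy, hz]
  | inv y _ hy => rw [map_inv, hy]

end Cfsg.Agent.S1304
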