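import Cfsg.Statements.S1306
import Mathlib
import Cfsg.Agent.Lib.Components.Layer2

set_option autoImplicit false
open Cfsg

namespace Cfsg.Agent.S1306

open Subgroup Cfsg.Agent.Lib.Components

local notation "c_[" g "]" => Subgroup.map (MulEquiv.toMonoidHom (MulAut.conj g))

variable {G : Type*} [Group G]

/-- Components of centralizers transport under conjugation. -/
theorem comp_conj {L C : Subgroup G} (hL : Cfsg.IsComponent (L.subgroupOf C)) (hLC : L ≤ C) (g : G) :
    Cfsg.IsComponent ((c_[g] L).subgroupOf (c_[g] C)) := by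
  have hq : Cfsg.IsQuasisimple L :=
    qs_of_mulEquiv hL.2 (subgroupOfEquivOfLe hLC)
  have hq' : Cfsg.IsQuasisimple (c_[g] L) :=
    qs_of_mulEquiv hq (L.equivMapOfInjective _ (MulEquiv.injective _))
  refine ⟨?_, qs_of_mulEquiv hq' (subgroupOfEquivOfLe (map_mono hLC)).symm⟩
  let e : C ≃* (c_[g] C) := C.equivMapOfInjective _ (MulEquiv.injective _)
  have h1 := hL.1.map (f := e.toMonoidHom) e.surjective
  have h2 : (L.subgroupOf C).map e.toMonoidHom = (c_[g] L).subgroupOf (c_[g] C) := by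
    ext ⟨y, hy⟩
    constructor
    · rintro ⟨⟨a, haC⟩, ha, h⟩
      have h3 : (MulAut.conj g).toMonoidHom a = y := congrArg Subtype.val h
      exact ⟨a, ha, h3⟩
    · intro hy'
      obtain ⟨a, ha, h⟩ := hy'
      exact ⟨⟨a, hLC ha⟩, ha, Subtype.ext h⟩
  rwa [h2] at h1

theorem conj_centralizer (g y : G) :
    c_[g] (centralizer ({y} : Set G)) = centralizer ({g * y * g⁻¹} : Set G) := by
  ext z
  constructor
  · rintro ⟨a, ha, rfl⟩
    have ha' : a ∈ centralizer ({y} : Set G) := ha
    rw [mem_centralizer_singleton_iff] at ha' ⊢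
    rename' ha' => ha
    change g * a * g⁻¹ * (g * y * g⁻¹) = g * y * g⁻¹ * (g * a * g⁻¹)
    calc g * a * g⁻¹ * (g * y * g⁻¹) = g * (a * y) * g⁻¹ := by group
      _ = g * (y * a) * g⁻¹ := by rw [ha]
      _ = _ := by group
  · intro hz
    rw [mem_centralizer_singleton_iff] at hz
    refine ⟨g⁻¹ * z * g, mem_centralizer_singleton_iff.mpr ?_, by change g * (g⁻¹ * z * g) * g⁻¹ = z; group⟩
    have h1 : g⁻¹ * (z * (g * y * g⁻¹)) * g = g⁻¹ * ((g * y * g⁻¹) * z) * g := by rw [hz]
    calc g⁻¹ * z * g * y = g⁻¹ * (z * (g * y * g⁻¹)) * g := by group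
      _ = g⁻¹ * ((g * y * g⁻¹) * z) * g := h1
      _ = y * (g⁻¹ * z * g) := by group

/-- Equality of components inside a group passes to the ambient group. -/
theorem eq_of_comps {L K C : Subgroup G} (hLC : L ≤ C) (hKC : K ≤ C)
    (hL : Cfsg.IsComponent (L.subgroupOf C)) (hK : Cfsg.IsComponent (K.subgroupOf C)) :
    L = K ∨ ⁅L, K⁆ = ⊥ := by
  rcases component_eq_or_commute hL hK with h | h
  · left
    rw [← inf_eq_left.mpr hLC, ← inf_eq_left.mpr hKC]
    have := congrArg (Subgroup.map C.subtype) h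
    rw [subgroupOf_map_subtype, subgroupOf_map_subtype] at this
    rw [inf_comm L, inf_comm K]
    simpa [inf_comm] using this
  · right
    apply commutator_eq_bot_of_commutes
    intro a ha b hb
    have h1 := commutes_of_commutator_eq_bot h (⟨a, hLC ha⟩ : C) ha (⟨b, hKC hb⟩ : C) hb
    exact congrArg Subtype.val h1

theorem mem_normalizer_of_conj_eq {L : Subgroup G} {g : G} (h : c_[g] L = L) :
    g ∈ normalizer (L : Set G) := by
  rw [mem_normalizer_iff]
  intro l
  constructor
  · intro hl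
    have : g * l * g⁻¹ ∈ c_[g] L := ⟨l, hl, rfl⟩
    rwa [h] at this
  · intro hl
    rw [← h] at hl
    obtain ⟨a, ha, h2⟩ := hl
    have h3 : g * a * g⁻¹ = g * l * g⁻¹ := h2
    have h4 : a = l := by
      have := mul_right_cancel h3
      exact mul_left_cancel this
    exact h4 ▸ ha

theorem normalizer_le_normalizer_centralizer' (L : Subgroup G) :
    normalizer (L : Set G) ≤ normalizer (centralizer (L : Set G) : Set G) := by
  have key : ∀ g ∈ normalizer (L : Set G), ∀ c ∈ centralizer (L : Set G),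
      g * c * g⁻¹ ∈ centralizer (L : Set G) := by
    intro g hg c hc
    rw [mem_centralizer_iff] at hc ⊢
    intro l hl
    have h1 : g⁻¹ * l * g ∈ L := by
      have := (mem_normalizer_iff.mp (inv_mem hg) l).mp hl
      simpa using this
    have h2 := hc _ h1
    calc l * (g * c * g⁻¹) = g * ((g⁻¹ * l * g) * c) * g⁻¹ := by group
      _ = g * (c * (g⁻¹ * l * g)) * g⁻¹ := by rw [h2]
      _ = g * c * g⁻¹ * l := by group
  intro g hg
  rw [mem_normalizer_iff]
  intro c
  refine ⟨fun hc => key g hg c hc, fun hc => ?_⟩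
  have := key g⁻¹ (inv_mem hg) _ hc
  have h2 : g⁻¹ * (g * c * g⁻¹) * g⁻¹⁻¹ = c := by group
  rwa [h2] at this

theorem key {L : Subgroup G}
    (hne : ∀ y : G, orderOf y = 2 → y ∈ centralizer (L : Set G) → L ≤ centralizer ({y} : Set G) ∧
      Cfsg.IsComponent (L.subgroupOf (centralizer ({y} : Set G))))
    (hnc : ∀ g : G, c_[g] L ≠ L → ⁅L, c_[g] L⁆ ≠ ⊥) {g y : G} (hy : orderOf y = 2)
    (hyL : y ∈ centralizer (L : Set G)) (hyg : g⁻¹ * y * g ∈ centralizer (L : Set G)) :
    c_[g] L = L := by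
  by_contra hcon
  have hyo : orderOf (g⁻¹ * y * g) = 2 := by
    have := MulEquiv.orderOf_eq (MulAut.conj g⁻¹) y
    rw [← hy, ← this]
    congr 1
    change g⁻¹ * y * g = g⁻¹ * y * g⁻¹⁻¹
    group
  obtain ⟨h1, h2⟩ := hne _ hyo hyg
  obtain ⟨h3, h4⟩ := hne y hy hyL
  have h5 := comp_conj h2 h1 g
  have hgy : g * (g⁻¹ * y * g) * g⁻¹ = y := by group
  rw [conj_centralizer, hgy] at h5
  have h6 : c_[g] L ≤ centralizer ({y} : Set G) := by
    have := map_mono (f := (MulAut.conj g).toMonoidHom) h1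
    rwa [conj_centralizer, hgy] at this
  rcases eq_of_comps h3 h6 h4 h5 with h | h
  · exact hcon h.symm
  · exact hnc g hcon h


/-- Let G be finite, x an involution and L ≤ C_G(x) a component of C_G(x). Suppose L is a component of C_G(y) for every involution y ∈ C_G(L), and ⁅L, g L g⁻¹⁆ ≠ 1 whenever g L g⁻¹ ≠ L. Then L is a standard subgroup of G. -/
theorem result {G : Type*} [Group G] [Finite G] (x : G) (hx : orderOf x = 2) (L : Subgroup G) (hLx : L ≤ Subgroup.centralizer ({x} : Set G)) (hL : Cfsg.IsComponent (L.subgroupOf (Subgroup.centralizer ({x} : Set G)))) (hne : ∀ y : G, orderOf y = 2 → y ∈ Subgroup.centralizer (L : Set G) → L ≤ Subgroup.centralizer ({y} : Set G) ∧ Cfsg.IsComponent (L.subgroupOf (Subgroup.centralizer ({y} : Set G)))) (hnc : ∀ g : G, L.map (MulAut.conj g).toMonoidHom ≠ L → ⁅L, L.map (MulAut.conj g).toMonoidHom⁆ ≠ ⊥) : Cfsg.IsStandardSubgroup L := by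
  have hq : Cfsg.IsQuasisimple L := qs_of_mulEquiv hL.2 (subgroupOfEquivOfLe hLx)
  have hxL : x ∈ centralizer (L : Set G) := by
    rw [mem_centralizer_iff]
    intro l hl
    exact (mem_centralizer_singleton_iff.mp (hLx hl))
  have hN : normalizer (centralizer (L : Set G) : Set G) ≤ normalizer (L : Set G) := by
    intro g hg
    have hg' : g⁻¹ ∈ normalizer (centralizer (L : Set G) : Set G) := inv_mem hg
    have h1 : g * x * g⁻¹ ∈ centralizer (L : Set G) := (mem_normalizer_iff.mp hg x).mp hxL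
    have hy : orderOf (g * x * g⁻¹) = 2 := by
      rw [← hx]; exact MulEquiv.orderOf_eq (MulAut.conj g) x
    have h2 := key hne hnc (g := g) hy h1 (by
      have : g⁻¹ * (g * x * g⁻¹) * g = x := by group
      rwa [this])
    exact mem_normalizer_of_conj_eq h2
  refine ⟨hq, ⟨?_, ?_⟩, hnc, ?_⟩
  · -- even order
    have h1 := orderOf_dvd_natCard (⟨x, hxL⟩ : centralizer (L : Set G))
    rw [Subgroup.orderOf_mk, hx] at h1
    exact even_iff_two_dvd.mpr h1
  · intro g hg
    by_contra hodd
    have h2 : 2 ∣ Nat.card ↥(centralizer (L : Set G) ⊓ c_[g] (centralizer (L : Set G))) := by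
      rw [← even_iff_two_dvd]
      exact Nat.not_odd_iff_even.mp hodd
    haveI : Fact (Nat.Prime 2) := ⟨Nat.prime_two⟩
    obtain ⟨y', hy'⟩ := exists_prime_orderOf_dvd_card' 2 h2
    have hyo : orderOf (y' : G) = 2 := by rw [Subgroup.orderOf_coe, hy']
    obtain ⟨h3, c, hc, hcy⟩ := Subgroup.mem_inf.mp y'.2
    have h4 : g⁻¹ * (y' : G) * g = c := by
      rw [← hcy]
      change g⁻¹ * (g * c * g⁻¹) * g = c
      group
    have h5 := key hne hnc (g := g) hyo h3 (by rw [h4]; exact hc)
    apply hg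
    exact normalizer_le_normalizer_centralizer' L (mem_normalizer_of_conj_eq h5)
  · exact le_antisymm (normalizer_le_normalizer_centralizer' L) hN

end Cfsg.Agent.S1306
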