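import Cfsg.Statements.S1307
import Mathlib
import Cfsg.Agent.S0016
import Cfsg.Agent.S0215
import Cfsg.Agent.S0219
import Cfsg.Agent.Lib.Components.Layer2

set_option autoImplicit false
open Cfsg

namespace Cfsg.Agent.S1307

section Helpers
open Subgroup Cfsg Cfsg.Agent.Lib.Components

variable {P : Type*} [Group P] [Finite P]

theorem exists_unique_invol (hP : IsPGroup 2 P) (hne : Nontrivial P) (hr : PRankLE 2 1 P) :
    ∃ z : P, orderOf z = 2 ∧ ∀ t : P, orderOf t = 2 → t = z := by
  haveI : Fact (Nat.Prime 2) := ⟨Nat.prime_two⟩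
  haveI := hP.center_nontrivial
  have hd : 2 ∣ Nat.card (center P) := by
    obtain ⟨k, hk⟩ := IsPGroup.iff_card.mp (hP.to_subgroup (center P))
    rcases k with _ | k
    · rw [pow_zero] at hk
      have := Finite.one_lt_card (α := center P)
      omega
    · rw [hk, pow_succ]
      exact Dvd.intro_left _ rfl
  obtain ⟨z₀, hz₀⟩ := exists_prime_orderOf_dvd_card' 2 hd
  refine ⟨(z₀ : P), by rwa [Subgroup.orderOf_coe], ?_⟩
  intro t ht
  obtain ⟨z, hz⟩ : ∃ z : P, z = (z₀ : P) := ⟨_, rfl⟩
  rw [← hz]
  have hzo : orderOf z = 2 := by rwa [hz, Subgroup.orderOf_coe]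
  have hzc : ∀ g : P, g * z = z * g := fun g => by
    rw [hz]
    exact (mem_center_iff.mp z₀.2 g)
  have hz2 : z ^ 2 = 1 := hzo ▸ pow_orderOf_eq_one z
  have ht2 : t ^ 2 = 1 := ht ▸ pow_orderOf_eq_one t
  set A := closure ({z, t} : Set P) with hA
  have hcomm : ∀ a ∈ A, ∀ b ∈ A, a * b = b * a := by
    have hA' : A ≤ centralizer (A : Set P) := by
      rw [hA, closure_le]
      rintro x (rfl | rfl)
      · rw [SetLike.mem_coe, mem_centralizer_iff]
        intro g _
        exact hzc g
      · rw [SetLike.mem_coe, mem_centralizer_iff]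
        have key : ∀ g ∈ closure ({z, x} : Set P), g * x = x * g := by
          intro g hg'
          induction hg' using closure_induction with
          | mem y hy =>
            rcases hy with rfl | rfl
            · exact (hzc _).symm
            · rfl
          | one => simp
          | mul a b _ _ h1 h2 =>
            calc a * b * x = a * (b * x) := by group
              _ = a * (x * b) := by rw [h2]
              _ = (a * x) * b := by group
              _ = (x * a) * b := by rw [h1]
              _ = x * (a * b) := by group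
          | inv a _ h1 =>
            have h3 : a⁻¹ * x = x * a⁻¹ := ((show Commute a x from h1).inv_left).eq
            exact h3
        intro g hg
        exact key g hg
    intro a ha b hb
    exact (mem_centralizer_iff.mp (hA' ha) b hb).symm
  have hsq : ∀ a ∈ A, a ^ 2 = 1 := by
    intro a ha
    rw [hA] at ha
    induction ha using closure_induction with
    | mem y hy =>
      rcases hy with rfl | rfl
      · exact hz2
      · exact ht2
    | one => simp
    | mul a b ha hb h1 h2 =>
      have : Commute a b := hcomm a ha b hb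
      rw [this.mul_pow, h1, h2, one_mul]
    | inv a _ h1 =>
      rw [inv_pow, h1, inv_one]
  have hcard := hr A ⟨⟨fun a b => Subtype.ext (hcomm a a.2 b b.2)⟩⟩ hsq
  have hz1 : zpowers z ≤ A := by
    rw [zpowers_le]
    exact subset_closure (by simp)
  have hzcard : Nat.card (zpowers z) = 2 := by rw [Nat.card_zpowers, hzo]
  have heq : zpowers z = A := Subgroup.eq_of_le_of_card_ge hz1 (by rw [hzcard]; simpa using hcard)
  have htA : t ∈ zpowers z := by
    rw [heq]
    exact subset_closure (by simp)
  obtain ⟨k, rfl⟩ := htA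
  have hk : ¬ (2 : ℤ) ∣ k := by
    intro hd
    obtain ⟨m, rfl⟩ := hd
    have h1 : z ^ (2 * m) = 1 := by
      rw [zpow_mul]
      have : z ^ (2 : ℤ) = 1 := by exact_mod_cast hz2
      rw [this, one_zpow]
    have h2 : orderOf ((fun x => z ^ x) (2 * m)) = 2 := ht
    simp only [h1, orderOf_one] at h2
    omega
  obtain ⟨m, hm⟩ : ∃ m, k = 2 * m + 1 := ⟨k / 2, by omega⟩
  change z ^ k = z
  rw [hm, zpow_add, zpow_mul]
  have : z ^ (2 : ℤ) = 1 := by exact_mod_cast hz2
  rw [this, one_zpow, one_mul, zpow_one]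

theorem unique_sub_of_unique_invol {z : P} (hzo : orderOf z = 2) (hz : ∀ t : P, orderOf t = 2 → t = z)
    (H : Subgroup P) (hH : Nat.card H = 2) : H = zpowers z := by
  haveI : Fact (Nat.Prime 2) := ⟨Nat.prime_two⟩
  obtain ⟨h, hh⟩ := exists_prime_orderOf_dvd_card' (G := H) 2 (by rw [hH])
  have h1 : orderOf (h : P) = 2 := by rwa [Subgroup.orderOf_coe]
  have h2 : (h : P) = z := hz _ h1
  have h3 : zpowers z ≤ H := by
    rw [zpowers_le, ← h2]
    exact h.2
  have hzcard : Nat.card (zpowers z) = 2 := by rw [Nat.card_zpowers, hzo]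
  exact (Subgroup.eq_of_le_of_card_ge h3 (by rw [hzcard, hH])).symm

end Helpers


/-- Let G be finite, x an involution and L ≤ C_G(x) a component of C_G(x) of even order and 2-rank 1, such that L is a component of C_G(y) for every involution y ∈ C_G(L). Then some involution of L is a classical involution of G. -/
theorem result {G : Type*} [Group G] [Finite G] (x : G) (hx : orderOf x = 2) (L : Subgroup G) (hLx : L ≤ Subgroup.centralizer ({x} : Set G)) (hL : Cfsg.IsComponent (L.subgroupOf (Subgroup.centralizer ({x} : Set G)))) (heven : Even (Nat.card ↥L)) (hrk : Cfsg.PRankLE 2 1 ↥L) (hne : ∀ y : G, orderOf y = 2 → y ∈ Subgroup.centralizer (L : Set G) → L ≤ Subgroup.centralizer ({y} : Set G) ∧ Cfsg.IsComponent (L.subgroupOf (Subgroup.centralizer ({y} : Set G)))) : ∃ t ∈ L, Cfsg.IsClassicalInvolution t := by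
  classical
  have hq : IsQuasisimple ↥L :=
    Cfsg.Agent.Lib.Components.qs_of_mulEquiv hL.2 (Subgroup.subgroupOfEquivOfLe hLx)
  have hperf := Cfsg.Agent.Lib.Components.qs_commutator hq
  have h2card : 2 ∣ Nat.card ↥L := heven.two_dvd
  haveI : Fact (Nat.Prime 2) := ⟨Nat.prime_two⟩
  obtain ⟨H, hH⟩ := Sylow.exists_subgroup_card_pow_prime (G := ↥L) 2 (n := 1) (by simpa using h2card)
  have hHp : IsPGroup 2 H := IsPGroup.of_card (n := 1) hH
  obtain ⟨P, hQ⟩ := hHp.exists_le_sylow
  have hPcard : 1 < Nat.card ↥(P : Subgroup ↥L) := by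
    have h2 : Nat.card H ∣ Nat.card ↥(P : Subgroup ↥L) := Subgroup.card_dvd_of_le hQ
    rw [hH] at h2
    have h3 : 0 < Nat.card ↥(P : Subgroup ↥L) := Nat.card_pos
    have := Nat.le_of_dvd h3 h2
    simp at this
    omega
  haveI hPnt : Nontrivial ↥(P : Subgroup ↥L) := (Finite.one_lt_card_iff_nontrivial).mp hPcard
  have hrk' : Cfsg.PRankLE 2 1 ↥(P : Subgroup ↥L) := by
    intro A hAc hAs
    have h1 := hrk (A.map (P : Subgroup ↥L).subtype)
      (by
        refine ⟨⟨?_⟩⟩
        rintro ⟨_, a, ha, rfl⟩ ⟨_, b, hb, rfl⟩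
        apply Subtype.ext
        have := congrArg (fun x : A => ((x : ↥(P : Subgroup ↥L)) : ↥L)) (hAc.is_comm.comm ⟨a, ha⟩ ⟨b, hb⟩)
        exact this)
      (by
        rintro _ ⟨a, ha, rfl⟩
        have := hAs a ha
        change ((a : ↥L)) ^ 2 = 1
        have h2 := congrArg (fun x : ↥(P : Subgroup ↥L) => (x : ↥L)) this
        simpa using h2)
    rwa [Subgroup.card_map_of_injective (Subgroup.subtype_injective _)] at h1
  obtain ⟨z, hzo, hz⟩ := exists_unique_invol P.isPGroup' hPnt hrk'
  have huniq : ∀ H K : Subgroup ↥(P : Subgroup ↥L), Nat.card H = 2 → Nat.card K = 2 → H = K :=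
    fun H K hH hK => (unique_sub_of_unique_invol hzo hz H hH).trans (unique_sub_of_unique_invol hzo hz K hK).symm
  -- the Sylow subgroup is not cyclic
  have hncyc : ¬ IsCyclic ↥(P : Subgroup ↥L) := by
    intro hc
    obtain ⟨H, hH⟩ := Cfsg.Agent.S0219.result heven P hc
    haveI hHn : H.Normal := Subgroup.normal_of_index_eq_two hH
    have hp2 := Cfsg.Agent.Lib.Components.isPerfect_of_surjective hq.1 (QuotientGroup.mk' H)
      (QuotientGroup.mk'_surjective H)
    have hcomm : commutator (↥L ⧸ H) = ⊤ := hp2.commutator_eq_top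
    have hcard : Nat.card (↥L ⧸ H) = 2 := hH
    haveI : Fact (Nat.Prime (Nat.card (↥L ⧸ H))) := ⟨by rw [hcard]; exact Nat.prime_two⟩
    haveI : IsCyclic (↥L ⧸ H) := isCyclic_of_prime_card rfl
    have hsolv : Group.IsSolvable (↥L ⧸ H) := by
      letI : CommGroup (↥L ⧸ H) := IsCyclic.commGroup
      infer_instance
    haveI := Cfsg.Agent.Lib.Components.subsingleton_of_perfect_of_solvable hcomm hsolv
    have := Nat.card_of_subsingleton (1 : ↥L ⧸ H)
    omega
  rcases Cfsg.Agent.S0016.result 2 P.isPGroup' huniq with hc | ⟨_, n, ⟨e⟩⟩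
  · exact absurd hc hncyc
  · rcases n with _ | n
    · exfalso
      apply hncyc
      have h1 : IsCyclic (QuaternionGroup (2 ^ 0)) := by
        exact QuaternionGroup.quaternionGroup_one_isCyclic
      exact isCyclic_of_surjective e.symm.toMonoidHom e.symm.surjective
    · -- the involution
      have hiso : ∀ g : ↥L, g * (z : ↥L) * g⁻¹ ∈ P → g * (z : ↥L) * g⁻¹ = (z : ↥L) := by
        intro g hg
        have h1 : orderOf (⟨_, hg⟩ : ↥(P : Subgroup ↥L)) = 2 := by
          rw [Subgroup.orderOf_mk]
          have h2 : orderOf (g * (z : ↥L) * g⁻¹) = orderOf (z : ↥L) :=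
            MulEquiv.orderOf_eq (MulAut.conj g) (z : ↥L)
          rw [h2]
          rwa [Subgroup.orderOf_coe]
        exact congrArg Subtype.val (hz _ h1)
      obtain ⟨N, hNn, hNodd, hN⟩ := Cfsg.Agent.S0215.result P (z : ↥L)
        (by rwa [Subgroup.orderOf_coe]) z.2 hiso
      have hNc : N ≤ Subgroup.center ↥L := by
        haveI := hNn
        rcases Cfsg.Agent.Lib.Components.qs_normal hq N with h | h
        · exfalso
          rw [h] at hNodd
          have : Nat.card (⊤ : Subgroup ↥L) = Nat.card ↥L := Subgroup.card_top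
          rw [this] at hNodd
          exact (Nat.not_even_iff_odd.mpr hNodd) heven
        · exact h
      obtain ⟨t, ht⟩ : ∃ t : G, t = ((z : ↥L) : G) := ⟨_, rfl⟩
      have htL : t ∈ L := by
        rw [ht]
        exact (z : ↥L).2
      have hto : orderOf t = 2 := by
        rw [ht, Subgroup.orderOf_coe, Subgroup.orderOf_coe]
        exact hzo
      have hact : ∀ l ∈ L, t * l * t⁻¹ = l := by
        apply Cfsg.Agent.Lib.Components.le_centralizer_of_central_action
          (Cfsg.Agent.Lib.Components.qs_self hq)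
        intro l hl
        have h1 := hNc (hN ⟨l, hl⟩)
        have h2 := Subgroup.mem_center_iff.mp h1
        obtain ⟨c, hc⟩ : ∃ c : ↥L, c = (z : ↥L) * ⟨l, hl⟩ * (z : ↥L)⁻¹ * (⟨l, hl⟩ : ↥L)⁻¹ := ⟨_, rfl⟩
        rw [← hc] at h1 h2
        refine ⟨(c : G), ⟨c.2, ?_⟩, ?_⟩
        · change (c : G) ∈ Subgroup.centralizer (L : Set G)
          rw [Subgroup.mem_centralizer_iff]
          intro a ha
          exact congrArg Subtype.val (h2 ⟨a, ha⟩)
        · have h3 : (z : ↥L) * ⟨l, hl⟩ * (z : ↥L)⁻¹ = c * ⟨l, hl⟩ := by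
            rw [hc]
            group
          have h4 := congrArg Subtype.val h3
          have h5 : t * l * t⁻¹ = (c : G) * l := by
            rw [ht]
            exact h4
          rw [h5]
          exact (congrArg Subtype.val (h2 ⟨l, hl⟩)).symm
      have htC : t ∈ Subgroup.centralizer (L : Set G) := by
        rw [Subgroup.mem_centralizer_iff]
        intro l hl
        have h1 := hact l hl
        calc l * t = (t * l * t⁻¹) * t := by rw [h1]
          _ = t * l := by group
      obtain ⟨h1, h2⟩ := hne t hto htC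
      exact ⟨t, htL, hto, L, h1, htL, h2.1, P, n, ⟨e⟩⟩

end Cfsg.Agent.S1307
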