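import Cfsg.Statements.S1314
import Mathlib
import Cfsg.Agent.Lib.Components.Layer2

set_option autoImplicit false
open Cfsg

namespace Cfsg.Agent.S1314

open Subgroup Cfsg.Agent.Lib.Components
open scoped commutatorElement


/-- Let x be an involution of a group G and L a perfect subgroup with ⁅L, x L x⁻¹⁆ = 1. Then l ↦ l (x l x⁻¹) is a group homomorphism π from L to G whose kernel is central in L and whose image lies in C_G(x); and the commutator subgroup of C_{L ⊔ xLx⁻¹}(x) equals the image of π. -/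
theorem result {G : Type*} [Group G] [Finite G] (x : G) (hx : orderOf x = 2) (L : Subgroup G) (hperf : ⁅L, L⁆ = L) (hcomm : ⁅L, L.map (MulAut.conj x).toMonoidHom⁆ = ⊥) : ∃ π : ↥L →* G, (∀ l : ↥L, π l = (l : G) * (x * (l : G) * x⁻¹)) ∧ π.ker ≤ Subgroup.center ↥L ∧ π.range ≤ Subgroup.centralizer ({x} : Set G) ∧ ⁅(L ⊔ L.map (MulAut.conj x).toMonoidHom) ⊓ Subgroup.centralizer ({x} : Set G), (L ⊔ L.map (MulAut.conj x).toMonoidHom) ⊓ Subgroup.centralizer ({x} : Set G)⁆ = π.range := by
  have hx2 : x * x = 1 := by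
    have := pow_orderOf_eq_one x
    rw [hx, pow_two] at this
    exact this
  have hxi : x⁻¹ = x := inv_eq_of_mul_eq_one_right hx2
  set Lx := L.map (MulAut.conj x).toMonoidHom with hLx
  have hσ : ∀ l ∈ L, x * l * x⁻¹ ∈ Lx := fun l hl => ⟨l, hl, rfl⟩
  have hinv : ∀ l : G, x * (x * l * x⁻¹) * x⁻¹ = l := by
    intro l
    rw [hxi]
    calc x * (x * l * x) * x = (x * x) * l * (x * x) := by group
      _ = l := by rw [hx2]; group
  have hσ' : ∀ l ∈ Lx, x * l * x⁻¹ ∈ L := by
    rintro _ ⟨l, hl, rfl⟩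
    have : x * (MulAut.conj x).toMonoidHom l * x⁻¹ = l := by
      change x * (x * l * x⁻¹) * x⁻¹ = l
      rw [hxi]
      calc x * (x * l * x) * x = (x * x) * l * (x * x) := by group
        _ = l := by rw [hx2]; group
    rw [this]; exact hl
  have hc := commutes_of_commutator_eq_bot hcomm
  -- the homomorphism
  let π : ↥L →* G := MonoidHom.mk' (fun l => (l : G) * (x * (l : G) * x⁻¹)) (by
    intro a b
    have h := hc b b.2 _ (hσ a a.2)
    simp only [Subgroup.coe_mul]
    calc (a : G) * b * (x * (a * b) * x⁻¹)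
        = a * (b * (x * a * x⁻¹)) * (x * b * x⁻¹) := by group
      _ = a * ((x * a * x⁻¹) * b) * (x * b * x⁻¹) := by rw [h]
      _ = _ := by group)
  have hπ : ∀ l : ↥L, π l = (l : G) * (x * (l : G) * x⁻¹) := fun l => rfl
  have hcentral : ∀ w ∈ L ⊓ Lx, ∀ g ∈ L ⊔ Lx, g * w = w * g := by
    intro w hw g hg
    have h1 : L ⊔ Lx ≤ centralizer ({w} : Set G) := by
      refine sup_le ?_ ?_
      · intro a ha
        rw [mem_centralizer_singleton_iff]
        exact hc a ha w hw.2
      · intro b hb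
        rw [mem_centralizer_singleton_iff]
        exact (hc w hw.1 b hb).symm
    exact mem_centralizer_singleton_iff.mp (h1 hg)
  have hπC : ∀ l : ↥L, π l ∈ (L ⊔ Lx) ⊓ centralizer ({x} : Set G) := by
    intro l
    rw [hπ]
    refine Subgroup.mem_inf.mpr ⟨mul_mem (mem_sup_left l.2) (mem_sup_right (hσ l l.2)), ?_⟩
    rw [mem_centralizer_singleton_iff]
    have h := hc l l.2 _ (hσ l l.2)
    calc (l : G) * (x * l * x⁻¹) * x = x * l * x⁻¹ * l * x := by rw [h]
      _ = x * (l * (x⁻¹ * l * x)) := by group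
      _ = x * (l * (x * l * x⁻¹)) := by rw [hxi]
  refine ⟨π, hπ, ?_, ?_, ?_⟩
  · intro l hl
    have h1 : (l : G) * (x * (l : G) * x⁻¹) = 1 := hl
    have h2 : (l : G)⁻¹ = x * l * x⁻¹ := inv_eq_of_mul_eq_one_right h1
    have h3 : (l : G)⁻¹ ∈ Lx := h2 ▸ hσ l l.2
    rw [mem_center_iff]
    intro m
    have h4 := hc m m.2 _ h3
    apply Subtype.ext
    change (m : G) * l = l * m
    calc (m : G) * l = l * ((l : G)⁻¹ * m) * l := by group
      _ = l * (m * (l : G)⁻¹) * l := by rw [h4]
      _ = l * m := by group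
  · rintro _ ⟨l, rfl⟩
    exact (hπC l).2
  · apply le_antisymm
    · -- decomposition of elements of the centralizer
      have hdec : ∀ c ∈ (L ⊔ Lx) ⊓ centralizer ({x} : Set G), ∃ a : ↥L, ∃ w ∈ L ⊓ Lx, c = π a * w := by
        rintro c ⟨hc1, hc2⟩
        obtain ⟨a, ha, b', hb', rfl⟩ := exists_mul_of_mem_sup_of_commutes hc hc1
        obtain ⟨b, hb, rfl⟩ := hb'
        change a * (x * b * x⁻¹) ∈ centralizer ({x} : Set G) at hc2
        have h1 := mem_centralizer_singleton_iff.mp hc2
        have h2 : (x * a * x⁻¹) * b = a * (x * b * x⁻¹) := by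
          calc (x * a * x⁻¹) * b = (x * a * x⁻¹) * (x * (x * b * x⁻¹) * x⁻¹) := by rw [hinv]
            _ = x * (a * (x * b * x⁻¹)) * x⁻¹ := by group
            _ = (a * (x * b * x⁻¹) * x) * x⁻¹ := by rw [h1]
            _ = _ := by group
        have h3 : b * (x * a * x⁻¹) = a * (x * b * x⁻¹) := by
          rw [hc b hb _ (hσ a ha)]; exact h2
        set z := a⁻¹ * b with hz
        have hzL : z ∈ L := mul_mem (inv_mem ha) hb
        have hzLx : z ∈ Lx := by
          have h4 : z = (x * b * x⁻¹) * (x * a * x⁻¹)⁻¹ := by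
            rw [hz]
            calc a⁻¹ * b = a⁻¹ * (b * (x * a * x⁻¹)) * (x * a * x⁻¹)⁻¹ := by group
              _ = a⁻¹ * (a * (x * b * x⁻¹)) * (x * a * x⁻¹)⁻¹ := by rw [h3]
              _ = _ := by group
          rw [h4]
          exact mul_mem (hσ b hb) (inv_mem (hσ a ha))
        have hb_eq : b = a * z := by rw [hz]; group
        refine ⟨⟨a, ha⟩, x * z * x⁻¹, ⟨hσ' z hzLx, hσ z hzL⟩, ?_⟩
        rw [hπ]
        change a * ((MulAut.conj x).toMonoidHom b) = _
        change a * (x * b * x⁻¹) = _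
        rw [hb_eq]
        group
      rw [commutator_le]
      intro c hc' c' hc''
      obtain ⟨a, w, hw, rfl⟩ := hdec c hc'
      obtain ⟨a', w', hw', rfl⟩ := hdec c' hc''
      have hcomm2 : ∀ u ∈ L ⊔ Lx, ∀ v ∈ L ⊓ Lx, u * v = v * u := fun u hu v hv => hcentral v hv u hu
      rw [commutatorElement_mul_of_commutes hcomm2 (hπC a).1 (hπC a').1 hw hw']
      have h5 : ⁅w, w'⁆ = 1 := by
        rw [commutatorElement_eq_one_iff_mul_comm]
        exact hcomm2 w (mem_sup_left hw.1) w' hw'
      rw [h5, mul_one, ← map_commutatorElement]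
      exact ⟨_, rfl⟩
    · have hperf' : Group.IsPerfect L := isPerfect_of_commutator_self hperf
      have h6 : π.range = ⁅π.range, π.range⁆ := by
        have h7 : (⁅(⊤ : Subgroup L), (⊤ : Subgroup L)⁆) = ⊤ := hperf'.commutator_eq_top
        rw [MonoidHom.range_eq_map, ← Subgroup.map_commutator, h7]
      rw [h6]
      have h8 : π.range ≤ (L ⊔ Lx) ⊓ centralizer ({x} : Set G) := by
        rintro _ ⟨l, rfl⟩
        exact hπC l
      exact commutator_mono h8 h8

end Cfsg.Agent.S1314
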