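import Cfsg.Statements.S1335
import Mathlib

set_option autoImplicit false
open Cfsg

namespace Cfsg.Agent.S1335

open Subgroup

theorem pRankLE_of_mulEquiv {X Y : Type*} [Group X] [Group Y] {p k : ℕ} (e : X ≃* Y)
    (h : Cfsg.PRankLE p k Y) : Cfsg.PRankLE p k X := by
  intro A hc hA
  have h1 := h (A.map e.toMonoidHom) (by
    refine ⟨⟨?_⟩⟩
    rintro ⟨_, a, ha, rfl⟩ ⟨_, b, hb, rfl⟩
    apply Subtype.ext
    have hab : a * b = b * a := congrArg Subtype.val (hc.is_comm.comm ⟨a, ha⟩ ⟨b, hb⟩)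
    change e.toMonoidHom a * e.toMonoidHom b = e.toMonoidHom b * e.toMonoidHom a
    rw [← map_mul, ← map_mul, hab]) (by
    rintro _ ⟨a, ha, rfl⟩
    rw [← map_pow, hA a ha, map_one])
  have h2 : Nat.card A = Nat.card (A.map e.toMonoidHom) :=
    Nat.card_congr (A.equivMapOfInjective _ e.injective).toEquiv
  rw [h2]
  exact h1


/-- Let H be a subgroup of the finite group G, p a prime, k ≥ 1, P a Sylow p-subgroup of H of p-rank at least k, and suppose N_G(X) ≤ H for every subgroup X ≤ P of p-rank at least k. Then P is a Sylow p-subgroup of G. -/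
theorem result {G : Type*} [Group G] [Finite G] {p : ℕ} [Fact p.Prime] (k : ℕ) (hk : 1 ≤ k) (H : Subgroup G) (P : Sylow p ↥H) (hP : ¬ Cfsg.PRankLE p (k - 1) ↥(P : Subgroup ↥H)) (hΓ : (∀ X : Subgroup G, X ≤ (P : Subgroup ↥H).map H.subtype → ¬ Cfsg.PRankLE p (k - 1) ↥X → Subgroup.normalizer (X : Set G) ≤ H)) : ∃ Q : Sylow p G, (Q : Subgroup G) = (P : Subgroup ↥H).map H.subtype := by
  classical
  set P' : Subgroup G := (P : Subgroup ↥H).map H.subtype with hP'
  have hPP' : IsPGroup p P' := by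
    have := P.isPGroup'.map H.subtype
    exact this
  obtain ⟨Q, hQ⟩ := hPP'.exists_le_sylow
  refine ⟨Q, ?_⟩
  by_contra hne
  have hlt : P' < (Q : Subgroup G) := lt_of_le_of_ne hQ (Ne.symm hne)
  have hrk : ¬ Cfsg.PRankLE p (k - 1) P' := by
    intro h
    exact hP (pRankLE_of_mulEquiv ((P : Subgroup ↥H).equivMapOfInjective _ H.subtype_injective) h)
  have hN := hΓ P' le_rfl hrk
  -- normalizer growth in `Q`
  haveI : Group.IsNilpotent (Q : Subgroup G) := Q.isPGroup'.isNilpotent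
  have hlt2 : P'.subgroupOf (Q : Subgroup G) < ⊤ := by
    refine lt_top_iff_ne_top.mpr fun htop => ?_
    apply hne
    refine le_antisymm ?_ hQ
    intro q hq
    have : (⟨q, hq⟩ : (Q : Subgroup G)) ∈ P'.subgroupOf (Q : Subgroup G) := by rw [htop]; trivial
    exact this
  have hgrow := Group.normalizerCondition_of_isNilpotent (G := (Q : Subgroup G)) _ hlt2
  obtain ⟨q, hqn, hqP⟩ := SetLike.exists_of_lt hgrow
  have hqG : (q : G) ∈ normalizer (P' : Set G) := by
    rw [mem_normalizer_iff]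
    intro y
    constructor
    · intro hy
      have := (mem_normalizer_iff.mp hqn ⟨y, hQ hy⟩).mp hy
      exact this
    · intro hy
      have hyQ : y ∈ (Q : Subgroup G) := by
        have h1 : (q : G) * y * (q : G)⁻¹ ∈ (Q : Subgroup G) := hQ hy
        have h2 : y = (q : G)⁻¹ * ((q : G) * y * (q : G)⁻¹) * q := by group
        rw [h2]
        exact mul_mem (mul_mem (inv_mem q.2) h1) q.2
      exact (mem_normalizer_iff.mp hqn ⟨y, hyQ⟩).mpr hy
  have hqH : (q : G) ∈ H := hN hqG
  -- `Q.subgroupOf H` is a `p`-subgroup containing `P`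
  have hR : IsPGroup p (((Q : Subgroup G).subgroupOf H)) := by
    intro y
    obtain ⟨n, hn⟩ := Q.isPGroup' ⟨y.1.1, y.2⟩
    refine ⟨n, ?_⟩
    apply Subtype.ext
    apply Subtype.ext
    have h5 := congrArg Subtype.val hn
    simpa using h5
  have hle : (P : Subgroup ↥H) ≤ (Q : Subgroup G).subgroupOf H := by
    intro y hy
    exact hQ ⟨y, hy, rfl⟩
  have heq := P.is_maximal' hR hle
  have hq1 : (⟨q, hqH⟩ : H) ∈ (Q : Subgroup G).subgroupOf H := q.2
  rw [heq] at hq1
  apply hqP
  change (q : G) ∈ P'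
  exact ⟨_, hq1, rfl⟩

end Cfsg.Agent.S1335
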