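import Cfsg.Statements.S1336
import Mathlib

set_option autoImplicit false
open Cfsg

namespace Cfsg.Agent.S1336

open Subgroup

variable {G : Type*} [Group G] {p : ℕ}

/-- conjugation of subgroups -/
local notation "c_[" g "]" => Subgroup.map (MulEquiv.toMonoidHom (MulAut.conj g))

/-- the edge relation -/
def R (p : ℕ) (A B : Subgroup G) : Prop :=
  Cfsg.IsElementaryAbelian p A ∧ p ^ 1 ≤ Nat.card ↥A ∧ Cfsg.IsElementaryAbelian p B ∧
    p ^ 1 ≤ Nat.card ↥B ∧ ∀ a ∈ A, ∀ b ∈ B, a * b = b * a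

theorem R_symm {A B : Subgroup G} : R (G := G) p A B → R p B A := by
  rintro ⟨h1, h2, h3, h4, h5⟩
  exact ⟨h3, h4, h1, h2, fun b hb a ha => (h5 a ha b hb).symm⟩

theorem conn_symm {A B : Subgroup G} (h : Relation.ReflTransGen (R p) A B) :
    Relation.ReflTransGen (R p) B A := by
  induction h with
  | refl => exact Relation.ReflTransGen.refl
  | tail _ hr ih => exact Relation.ReflTransGen.head (R_symm hr) ih

theorem ea_conj {A : Subgroup G} (h : Cfsg.IsElementaryAbelian p A) (g : G) :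
    Cfsg.IsElementaryAbelian p (c_[g] A) := by
  refine ⟨⟨⟨?_⟩⟩, ?_⟩
  · rintro ⟨_, a, ha, rfl⟩ ⟨_, b, hb, rfl⟩
    apply Subtype.ext
    have hab : a * b = b * a := by
      have := h.1.is_comm.comm ⟨a, ha⟩ ⟨b, hb⟩
      exact congrArg Subtype.val this
    change (MulAut.conj g).toMonoidHom a * (MulAut.conj g).toMonoidHom b =
      (MulAut.conj g).toMonoidHom b * (MulAut.conj g).toMonoidHom a
    rw [← map_mul, ← map_mul, hab]
  · rintro _ ⟨a, ha, rfl⟩
    rw [← map_pow, h.2 a ha, map_one]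

theorem card_conj (A : Subgroup G) (g : G) : Nat.card ↥(c_[g] A) = Nat.card ↥A :=
  Nat.card_congr (A.equivMapOfInjective _ (MulEquiv.injective _)).symm.toEquiv

theorem R_conj {A B : Subgroup G} (h : R p A B) (g : G) : R p (c_[g] A) (c_[g] B) := by
  obtain ⟨h1, h2, h3, h4, h5⟩ := h
  refine ⟨ea_conj h1 g, by rwa [card_conj], ea_conj h3 g, by rwa [card_conj], ?_⟩
  rintro _ ⟨a, ha, rfl⟩ _ ⟨b, hb, rfl⟩
  rw [← map_mul, ← map_mul, h5 a ha b hb]

theorem conn_conj {A B : Subgroup G} (h : Relation.ReflTransGen (R p) A B) (g : G) :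
    Relation.ReflTransGen (R p) (c_[g] A) (c_[g] B) :=
  Relation.ReflTransGen.lift (c_[g]) (fun _ _ hab => R_conj hab g) _ _ h

theorem conj_conj (g h : G) (A : Subgroup G) : c_[g] (c_[h] A) = c_[g * h] A := by
  ext x
  constructor
  · rintro ⟨_, ⟨a, ha, rfl⟩, rfl⟩
    exact ⟨a, ha, by change (g * h) * a * (g * h)⁻¹ = g * (h * a * h⁻¹) * g⁻¹; group⟩
  · rintro ⟨a, ha, rfl⟩
    exact ⟨_, ⟨a, ha, rfl⟩, by change g * (h * a * h⁻¹) * g⁻¹ = (g * h) * a * (g * h)⁻¹; group⟩

theorem conj_one (A : Subgroup G) : c_[(1 : G)] A = A := by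
  ext x
  constructor
  · rintro ⟨a, ha, rfl⟩
    have : (MulAut.conj (1 : G)).toMonoidHom a = a := by
      change 1 * a * 1⁻¹ = a; group
    rwa [this]
  · intro hx
    exact ⟨x, hx, by change 1 * x * 1⁻¹ = x; group⟩

theorem order_conj (g x : G) : orderOf (g * x * g⁻¹) = orderOf x :=
  MulEquiv.orderOf_eq (MulAut.conj g) x

theorem ea_zpowers {x : G} (hx : x ^ p = 1) : Cfsg.IsElementaryAbelian p (zpowers x) := by
  refine ⟨inferInstance, ?_⟩
  rintro a ⟨k, rfl⟩
  change (x ^ k) ^ p = 1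
  rw [← zpow_natCast, ← zpow_mul, mul_comm, zpow_mul, zpow_natCast, hx, one_zpow]

variable [Fact p.Prime]

theorem dvd_of_mem {K : Subgroup G} [Finite K] {x : G} (hx : x ∈ K) (ho : orderOf x = p) :
    p ∣ Nat.card K := by
  have h := orderOf_dvd_natCard (⟨x, hx⟩ : K)
  rwa [Subgroup.orderOf_mk, ho] at h

theorem zp_card {x : G} (ho : orderOf x = p) : p ^ 1 ≤ Nat.card (zpowers x) := by
  rw [Nat.card_zpowers, ho, pow_one]

theorem pow_eq {x : G} (ho : orderOf x = p) : x ^ p = 1 := by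
  rw [← ho]; exact pow_orderOf_eq_one x

theorem exists_order_p {E : Subgroup G} [Finite G] (h : Cfsg.IsElementaryAbelian p E)
    (hc : p ^ 1 ≤ Nat.card ↥E) : ∃ a ∈ E, orderOf a = p := by
  have hp : p.Prime := Fact.out
  have h1 : 1 < Nat.card E := by
    have := hp.one_lt
    rw [pow_one] at hc
    omega
  haveI : Nontrivial E := (Finite.one_lt_card_iff_nontrivial).mp h1
  obtain ⟨a, ha⟩ := exists_ne (1 : E)
  refine ⟨a, a.2, orderOf_eq_prime (h.2 a a.2) ?_⟩
  intro h2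
  exact ha (Subtype.ext h2)

/-- An element of order `p` in `H` with `H` the stabilizer of a component. -/
theorem forward [Finite G] (H : Subgroup G) (hH : H ≠ ⊤) (hp : p ∣ Nat.card ↥H)
    (hemb : ∀ g : G, g ∉ H → ¬ p ∣ Nat.card ↥(H ⊓ c_[g] H)) : ¬ Cfsg.IsKConnected p 1 G := by
  intro hconn
  have hp' : p.Prime := Fact.out
  obtain ⟨x', hx'⟩ := exists_prime_orderOf_dvd_card' p hp
  have hxH : (x' : G) ∈ H := x'.2
  have hxo : orderOf (x' : G) = p := by rw [Subgroup.orderOf_coe, hx']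
  set x : G := (x' : G) with hx
  have hstep : ∀ A : Subgroup G, Relation.ReflTransGen (R p) (zpowers x) A → A ≤ H := by
    intro A hA
    induction hA with
    | refl => exact (zpowers_le.mpr hxH)
    | tail _ hr ih =>
      obtain ⟨h1, h2, h3, h4, h5⟩ := hr
      intro f hf
      by_contra hfH
      obtain ⟨a, ha, hao⟩ := exists_order_p h1 h2
      apply hemb f hfH
      refine dvd_of_mem (x := a) ?_ hao
      refine Subgroup.mem_inf.mpr ⟨ih ha, ⟨a, ih ha, ?_⟩⟩
      change f * a * f⁻¹ = a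
      rw [← h5 a ha f hf]
      group
  apply hH
  rw [eq_top_iff]
  intro g _
  by_contra hg
  apply hemb g hg
  have h1 := hconn (zpowers x) (c_[g] (zpowers x)) (ea_zpowers (pow_eq hxo)) (zp_card hxo)
    (ea_conj (ea_zpowers (pow_eq hxo)) g) (by rw [card_conj]; exact zp_card hxo)
  have h2 := hstep _ h1
  refine dvd_of_mem (x := g * x * g⁻¹) ?_ (by rw [order_conj]; exact hxo)
  exact Subgroup.mem_inf.mpr ⟨h2 ⟨x, mem_zpowers x, rfl⟩, ⟨x, hxH, rfl⟩⟩


/-- The stabilizer of a connected component. -/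
def stab (p : ℕ) (E : Subgroup G) : Subgroup G where
  carrier := {g | Relation.ReflTransGen (R p) E (c_[g] E)}
  one_mem' := by
    change Relation.ReflTransGen (R p) E (c_[(1 : G)] E)
    rw [conj_one]
  mul_mem' := by
    intro a b ha hb
    have h := conn_conj hb a
    rw [conj_conj] at h
    exact Relation.ReflTransGen.trans ha h
  inv_mem' := by
    intro a ha
    have h := conn_conj ha a⁻¹
    rw [conj_conj, inv_mul_cancel, conj_one] at h
    exact conn_symm h

theorem conn_of_stab {E A : Subgroup G} {g : G} (hg : g ∈ stab p E)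
    (hA : Relation.ReflTransGen (R p) E A) : Relation.ReflTransGen (R p) E (c_[g] A) :=
  Relation.ReflTransGen.trans hg (conn_conj hA g)

theorem conj_self_of_mem {E : Subgroup G} {e : G} (he : e ∈ E) : c_[e] E = E := by
  ext x
  constructor
  · rintro ⟨a, ha, rfl⟩
    exact mul_mem (mul_mem he ha) (inv_mem he)
  · intro hx
    refine ⟨e⁻¹ * x * e, mul_mem (mul_mem (inv_mem he) hx) he, ?_⟩
    change e * (e⁻¹ * x * e) * e⁻¹ = x
    group

theorem le_stab (E : Subgroup G) : E ≤ stab p E := by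
  intro e he
  change Relation.ReflTransGen (R p) E (c_[e] E)
  rw [conj_self_of_mem he]

theorem conj_zpowers (h z : G) : c_[h] (zpowers z) = zpowers (h * z * h⁻¹) := by
  rw [MonoidHom.map_zpowers]
  rfl

theorem commute_zp {x y : G} (h : x * y = y * x) : ∀ a ∈ zpowers x, ∀ b ∈ zpowers y, a * b = b * a := by
  rintro _ ⟨k, rfl⟩ _ ⟨m, rfl⟩
  exact (Commute.zpow_zpow h k m)

/-- Every element of order `p` of the stabilizer is connected to `E`. -/
theorem conn_of_mem_stab [Finite G] {E : Subgroup G} (hE : Cfsg.IsElementaryAbelian p E)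
    (hEc : p ^ 1 ≤ Nat.card ↥E) {x : G} (hx : x ∈ stab p E) (ho : orderOf x = p) :
    Relation.ReflTransGen (R p) E (zpowers x) := by
  have hp : p.Prime := Fact.out
  set H := stab p E with hH
  have hEH : E ≤ H := le_stab E
  have hE'p : IsPGroup p (E.subgroupOf H) := by
    intro a
    refine ⟨1, ?_⟩
    apply Subtype.ext
    apply Subtype.ext
    simpa using hE.2 _ a.2
  obtain ⟨S, hS⟩ := hE'p.exists_le_sylow
  have hx'p : IsPGroup p (zpowers (⟨x, hx⟩ : H)) := by
    rintro ⟨_, k, rfl⟩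
    refine ⟨1, ?_⟩
    apply Subtype.ext
    apply Subtype.ext
    simp only [pow_one]
    change (x ^ k) ^ p = 1
    rw [← zpow_natCast, ← zpow_mul, mul_comm, zpow_mul, zpow_natCast, pow_eq ho, one_zpow]
  obtain ⟨T, hT⟩ := hx'p.exists_le_sylow
  obtain ⟨h, hh⟩ := MulAction.exists_smul_eq (↥H) S T
  have hxT : (⟨x, hx⟩ : H) ∈ (T : Subgroup H) := hT (mem_zpowers _)
  rw [← hh] at hxT
  have hxS : (h⁻¹ * (⟨x, hx⟩ : H) * h) ∈ (S : Subgroup H) := by
    rw [Sylow.smul_def, Sylow.pointwise_smul_def, Subgroup.mem_smul_pointwise_iff_exists] at hxT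
    obtain ⟨s, hs, hsx⟩ := hxT
    have : h⁻¹ * (⟨x, hx⟩ : H) * h = s := by
      rw [← hsx]
      simp [MulAut.smul_def]
      group
    rw [this]; exact hs
  -- a central element of `S`
  obtain ⟨a, haE, hao⟩ := exists_order_p hE hEc
  haveI : Nontrivial (S : Subgroup H) := by
    refine ⟨⟨⟨⟨a, hEH haE⟩, hS (by simpa [mem_subgroupOf] using haE)⟩, 1, ?_⟩⟩
    intro h1
    have h2 : a = 1 := congrArg (fun t : (S : Subgroup H) => (t : H).1) h1
    rw [h2, orderOf_one] at hao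
    exact hp.one_lt.ne hao
  haveI hcn := S.isPGroup'.center_nontrivial
  have hcp : IsPGroup p (center (S : Subgroup H)) := S.isPGroup'.to_subgroup _
  obtain ⟨n, hn0, hn⟩ := hcp.nontrivial_iff_card.mp hcn
  have hdvd : p ∣ Nat.card (center (S : Subgroup H)) := hn ▸ dvd_pow_self _ hn0.ne'
  obtain ⟨z, hzo⟩ := exists_prime_orderOf_dvd_card' p hdvd
  set z₀ : G := ((z : (S : Subgroup H)) : H).1 with hz₀
  have hz₀o : orderOf z₀ = p := by
    rw [hz₀, Subgroup.orderOf_coe, Subgroup.orderOf_coe, Subgroup.orderOf_coe, hzo]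
  have hzc : ∀ s ∈ (S : Subgroup H), (s : G) * z₀ = z₀ * s := by
    intro s hs
    have h1 := mem_center_iff.mp z.2 ⟨s, hs⟩
    have h2 := congrArg (fun t : (S : Subgroup H) => (t : H).1) h1
    exact h2
  have hR1 : R p E (zpowers z₀) := by
    refine ⟨hE, hEc, ea_zpowers (pow_eq hz₀o), zp_card hz₀o, ?_⟩
    rintro a ha _ ⟨k, rfl⟩
    have h1 : a * z₀ = z₀ * a := hzc ⟨a, hEH ha⟩ (hS (by simpa [mem_subgroupOf] using ha))
    exact Commute.zpow_right h1 k
  have h1 := conn_of_stab h.2 (Relation.ReflTransGen.single hR1)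
  rw [conj_zpowers] at h1
  refine Relation.ReflTransGen.tail h1 ?_
  have hwo : orderOf ((h : G) * z₀ * (h : G)⁻¹) = p := by rw [order_conj]; exact hz₀o
  refine ⟨ea_zpowers (pow_eq hwo), zp_card hwo, ea_zpowers (pow_eq ho), zp_card ho, ?_⟩
  apply commute_zp
  have h2 := hzc _ hxS
  have h3 : (h : G)⁻¹ * x * h * z₀ = z₀ * ((h : G)⁻¹ * x * h) := h2
  calc (h : G) * z₀ * (h : G)⁻¹ * x = h * (z₀ * ((h : G)⁻¹ * x * h)) * (h : G)⁻¹ := by group
    _ = h * ((h : G)⁻¹ * x * h * z₀) * (h : G)⁻¹ := by rw [h3]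
    _ = x * (h * z₀ * (h : G)⁻¹) := by group

theorem backward [Finite G] (hn : ¬ Cfsg.IsKConnected p 1 G) :
    ∃ H : Subgroup G, H ≠ ⊤ ∧ p ∣ Nat.card ↥H ∧
      ∀ g : G, g ∉ H → ¬ p ∣ Nat.card ↥(H ⊓ c_[g] H) := by
  have hn' := hn
  unfold Cfsg.IsKConnected at hn'
  push Not at hn'
  obtain ⟨E, E', hE, hEc, hE', hE'c, hnc⟩ := hn'
  change ¬ Relation.ReflTransGen (R p) E E' at hnc
  refine ⟨stab p E, ?_, ?_, ?_⟩
  · intro htop
    obtain ⟨x, hxE, hxo⟩ := exists_order_p hE' hE'c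
    have h1 := conn_of_mem_stab hE hEc (x := x) (htop ▸ mem_top x) hxo
    apply hnc
    refine Relation.ReflTransGen.tail h1 ?_
    refine ⟨ea_zpowers (pow_eq hxo), zp_card hxo, hE', hE'c, ?_⟩
    rintro _ ⟨k, rfl⟩ b hb
    exact Commute.zpow_left (congrArg Subtype.val (hE'.1.is_comm.comm ⟨x, hxE⟩ ⟨b, hb⟩)) k
  · obtain ⟨a, ha, hao⟩ := exists_order_p hE hEc
    exact dvd_of_mem (le_stab E ha) hao
  · intro g hg hdvd
    obtain ⟨x', hx'⟩ := exists_prime_orderOf_dvd_card' p hdvd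
    have hxo : orderOf (x' : G) = p := by rw [Subgroup.orderOf_coe, hx']
    obtain ⟨hx1, y, hy, hyx⟩ := Subgroup.mem_inf.mp x'.2
    have hyo : orderOf y = p := by
      have h2 : (x' : G) = g * y * g⁻¹ := hyx.symm
      rw [h2, order_conj] at hxo
      exact hxo
    have h1 := conn_of_mem_stab hE hEc hx1 hxo
    have h2 := conn_of_mem_stab hE hEc hy hyo
    have h3 := conn_conj h2 g
    rw [conj_zpowers] at h3
    have h4 : g * y * g⁻¹ = (x' : G) := hyx
    rw [h4] at h3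
    exact hg (Relation.ReflTransGen.trans h1 (conn_symm h3))

/-- Let G be finite and p prime. Then G has a proper subgroup H with p ∣ |H| and p ∤ |H ∩ gHg⁻¹| for every g ∉ H (a strongly p-embedded subgroup) if and only if G is not 1-connected for p. -/
theorem result {G : Type*} [Group G] [Finite G] (p : ℕ) [Fact p.Prime] : (∃ H : Subgroup G, H ≠ ⊤ ∧ p ∣ Nat.card ↥H ∧ ∀ g : G, g ∉ H → ¬ p ∣ Nat.card ↥(H ⊓ H.map (MulAut.conj g).toMonoidHom)) ↔ ¬ Cfsg.IsKConnected p 1 G := by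
  exact ⟨fun ⟨H, h1, h2, h3⟩ => forward H h1 h2 h3, backward⟩

end Cfsg.Agent.S1336
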