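import Cfsg.Statements.S1348
import Mathlib
import Cfsg.Agent.Lib.Components.Quasi
import Cfsg.Agent.Lib.Classical.PSL2Simple

set_option autoImplicit false
open Cfsg

namespace Cfsg.Agent.S1348

open Cfsg.Agent.Lib.Components

section aux

variable {F : Type*} [Field F] {m : ℕ}

/-- block extension of a matrix, the last coordinate being fixed -/
def bext (A : Matrix (Fin m) (Fin m) F) : Matrix (Fin (m + 1)) (Fin (m + 1)) F :=
  Matrix.of fun a b => Fin.lastCases (motive := fun _ => F) (Fin.lastCases (motive := fun _ => F) 1 (fun _ => 0) b)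
    (fun a' => Fin.lastCases (motive := fun _ => F) 0 (fun b' => A a' b') b) a

@[simp] theorem bext_ll (A : Matrix (Fin m) (Fin m) F) : bext A (Fin.last m) (Fin.last m) = 1 := by
  simp [bext]
@[simp] theorem bext_lc (A : Matrix (Fin m) (Fin m) F) (b : Fin m) : bext A (Fin.last m) b.castSucc = 0 := by
  simp [bext]
@[simp] theorem bext_cl (A : Matrix (Fin m) (Fin m) F) (a : Fin m) : bext A a.castSucc (Fin.last m) = 0 := by
  simp [bext]
@[simp] theorem bext_cc (A : Matrix (Fin m) (Fin m) F) (a b : Fin m) : bext A a.castSucc b.castSucc = A a b := by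
  simp [bext]

theorem bext_mul (A B : Matrix (Fin m) (Fin m) F) : bext (A * B) = bext A * bext B := by
  ext a b
  refine Fin.lastCases ?_ (fun a' => ?_) a <;> refine Fin.lastCases ?_ (fun b' => ?_) b <;>
    simp [Matrix.mul_apply, Fin.sum_univ_castSucc]

theorem bext_det (A : Matrix (Fin m) (Fin m) F) : (bext A).det = A.det := by
  rw [Matrix.det_succ_row _ (Fin.last m), Fin.sum_univ_castSucc]
  simp only [bext_lc, mul_zero, zero_mul, Finset.sum_const_zero, zero_add, bext_ll, mul_one]
  have h : Even ((Fin.last m : ℕ) + (Fin.last m : ℕ)) := ⟨_, rfl⟩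
  rw [h.neg_one_pow, one_mul]
  congr 1
  ext a b
  simp [Fin.succAbove_last]

theorem eq_bext (x : Matrix (Fin (m + 1)) (Fin (m + 1)) F) (h0 : x (Fin.last m) (Fin.last m) = 1)
    (h1 : ∀ b : Fin m, x (Fin.last m) b.castSucc = 0)
    (h2 : ∀ a : Fin m, x a.castSucc (Fin.last m) = 0) : x = bext (x.submatrix Fin.castSucc Fin.castSucc) := by
  ext a b
  refine Fin.lastCases ?_ (fun a' => ?_) a <;> refine Fin.lastCases ?_ (fun b' => ?_) b <;>
    simp [h0, h1, h2]

end aux

section main

variable {F : Type*} [Field F] [DecidableEq F] {m : ℕ}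

/-- the embedding of SL(m) in SL(m+1) -/
def iota : Matrix.SpecialLinearGroup (Fin m) F →* Matrix.SpecialLinearGroup (Fin (m + 1)) F :=
  MonoidHom.mk' (fun A => ⟨bext (A : Matrix (Fin m) (Fin m) F), by rw [bext_det]; exact A.2⟩) (by
    intro A B
    apply Subtype.ext
    exact bext_mul _ _)

theorem iota_coe (A : Matrix.SpecialLinearGroup (Fin m) F) :
    ((iota A : Matrix.SpecialLinearGroup (Fin (m + 1)) F) : Matrix (Fin (m + 1)) (Fin (m + 1)) F) =
      bext (A : Matrix (Fin m) (Fin m) F) := rfl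

theorem iota_inj : Function.Injective (iota (F := F) (m := m)) := by
  intro A B h
  apply Subtype.ext
  ext a b
  have := congrArg (fun u : Matrix.SpecialLinearGroup (Fin (m + 1)) F =>
    (u : Matrix (Fin (m + 1)) (Fin (m + 1)) F) a.castSucc b.castSucc) h
  simpa [iota_coe] using this

/-- A block element with `1` in the corner comes from `SL(m)`. -/
theorem mem_range_iota (x : Matrix.SpecialLinearGroup (Fin (m + 1)) F)
    (h0 : (x : Matrix (Fin (m + 1)) (Fin (m + 1)) F) (Fin.last m) (Fin.last m) = 1)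
    (h1 : ∀ b : Fin m, (x : Matrix (Fin (m + 1)) (Fin (m + 1)) F) (Fin.last m) b.castSucc = 0)
    (h2 : ∀ a : Fin m, (x : Matrix (Fin (m + 1)) (Fin (m + 1)) F) a.castSucc (Fin.last m) = 0) :
    x ∈ (iota (F := F) (m := m)).range := by
  have hform := eq_bext _ h0 h1 h2
  refine ⟨⟨(x : Matrix (Fin (m + 1)) (Fin (m + 1)) F).submatrix Fin.castSucc Fin.castSucc, ?_⟩, ?_⟩
  · rw [← bext_det, ← hform]
    exact x.2
  · apply Subtype.ext
    exact hform.symm

/-- the diagonal of `t` -/
def dd (F : Type*) [Field F] (m : ℕ) : Fin (m + 1) → F :=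
  fun i => if (i : ℕ) + 1 = m + 1 then 1 else -1

omit [DecidableEq F] in
@[simp] theorem dd_l : dd F m (Fin.last m) = 1 := by simp [dd]
omit [DecidableEq F] in
@[simp] theorem dd_c (a : Fin m) : dd F m a.castSucc = -1 := by
  have : (a : ℕ) ≠ m := by have := a.2; omega
  simp [dd, this]

/-- commutation with `t` forces the block shape -/
theorem block_of_comm (h2 : (2 : F) ≠ 0) (t g : Matrix.SpecialLinearGroup (Fin (m + 1)) F)
    (ht : (t : Matrix (Fin (m + 1)) (Fin (m + 1)) F) = Matrix.diagonal (dd F m))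
    (hg : g * t = t * g) (s : Fin m) :
    (g : Matrix (Fin (m + 1)) (Fin (m + 1)) F) (Fin.last m) s.castSucc = 0 ∧
      (g : Matrix (Fin (m + 1)) (Fin (m + 1)) F) s.castSucc (Fin.last m) = 0 := by
  have h : (g : Matrix (Fin (m + 1)) (Fin (m + 1)) F) * Matrix.diagonal (dd F m)
      = Matrix.diagonal (dd F m) * (g : Matrix (Fin (m + 1)) (Fin (m + 1)) F) := by
    have := congrArg (fun u : Matrix.SpecialLinearGroup (Fin (m + 1)) F =>
      (u : Matrix (Fin (m + 1)) (Fin (m + 1)) F)) hg
    simpa [Matrix.SpecialLinearGroup.coe_mul, ht] using this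
  have h1 := congrFun (congrFun h (Fin.last m)) s.castSucc
  have h3 := congrFun (congrFun h s.castSucc) (Fin.last m)
  rw [Matrix.mul_diagonal, Matrix.diagonal_mul] at h1 h3
  simp only [dd_l, dd_c, mul_one, neg_mul, one_mul, mul_neg] at h1 h3
  constructor
  · have : (2 : F) * (g : Matrix (Fin (m + 1)) (Fin (m + 1)) F) (Fin.last m) s.castSucc = 0 := by
      linear_combination -h1
    exact (mul_eq_zero.mp this).resolve_left h2
  · have : (2 : F) * (g : Matrix (Fin (m + 1)) (Fin (m + 1)) F) s.castSucc (Fin.last m) = 0 := by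
      linear_combination h3
    exact (mul_eq_zero.mp this).resolve_left h2

/-- the commuting relation with `t` from block shape -/
theorem comm_of_block (t g : Matrix.SpecialLinearGroup (Fin (m + 1)) F)
    (ht : (t : Matrix (Fin (m + 1)) (Fin (m + 1)) F) = Matrix.diagonal (dd F m))
    (h1 : ∀ s : Fin m, (g : Matrix (Fin (m + 1)) (Fin (m + 1)) F) (Fin.last m) s.castSucc = 0)
    (h2 : ∀ s : Fin m, (g : Matrix (Fin (m + 1)) (Fin (m + 1)) F) s.castSucc (Fin.last m) = 0) :
    g * t = t * g := by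
  apply Subtype.ext
  rw [Matrix.SpecialLinearGroup.coe_mul, Matrix.SpecialLinearGroup.coe_mul, ht]
  ext a b
  rw [Matrix.mul_diagonal, Matrix.diagonal_mul]
  refine Fin.lastCases ?_ (fun a' => ?_) a <;> refine Fin.lastCases ?_ (fun b' => ?_) b <;>
    simp [h1, h2]

/-- corner of a product of block matrices -/
theorem corner_mul (x y : Matrix.SpecialLinearGroup (Fin (m + 1)) F)
    (h1 : ∀ s : Fin m, (x : Matrix (Fin (m + 1)) (Fin (m + 1)) F) (Fin.last m) s.castSucc = 0) :
    ((x * y : Matrix.SpecialLinearGroup (Fin (m + 1)) F) : Matrix (Fin (m + 1)) (Fin (m + 1)) F) (Fin.last m) (Fin.last m)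
      = (x : Matrix (Fin (m + 1)) (Fin (m + 1)) F) (Fin.last m) (Fin.last m)
        * (y : Matrix (Fin (m + 1)) (Fin (m + 1)) F) (Fin.last m) (Fin.last m) := by
  rw [Matrix.SpecialLinearGroup.coe_mul, Matrix.mul_apply, Fin.sum_univ_castSucc]
  simp [h1]

/-- A matrix commuting with the block transvections is diagonal with constant block part. -/
theorem diag_of_comm (hm : 2 ≤ m) (x : Matrix.SpecialLinearGroup (Fin (m + 1)) F)
    (hx : ∀ y ∈ (iota (F := F) (m := m)).range, y * x = x * y) :
    (∀ a b, a ≠ b → (x : Matrix (Fin (m + 1)) (Fin (m + 1)) F) a b = 0) ∧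
      ∀ p q : Fin m, (x : Matrix (Fin (m + 1)) (Fin (m + 1)) F) p.castSucc p.castSucc
        = (x : Matrix (Fin (m + 1)) (Fin (m + 1)) F) q.castSucc q.castSucc := by
  have key : ∀ p q : Fin m, p ≠ q →
      (∀ a, a ≠ p.castSucc → (x : Matrix (Fin (m + 1)) (Fin (m + 1)) F) a p.castSucc = 0) ∧
      (∀ b, b ≠ q.castSucc → (x : Matrix (Fin (m + 1)) (Fin (m + 1)) F) q.castSucc b = 0) ∧
      (x : Matrix (Fin (m + 1)) (Fin (m + 1)) F) p.castSucc p.castSucc
        = (x : Matrix (Fin (m + 1)) (Fin (m + 1)) F) q.castSucc q.castSucc := by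
    intro p q hpq
    have hne : p.castSucc ≠ q.castSucc := fun h => hpq (Fin.castSucc_injective _ h)
    obtain ⟨T, hT⟩ : ∃ T : Matrix.SpecialLinearGroup (Fin (m + 1)) F,
        (T : Matrix (Fin (m + 1)) (Fin (m + 1)) F) = Matrix.transvection p.castSucc q.castSucc 1 :=
      ⟨⟨_, Matrix.det_transvection_of_ne _ _ hne _⟩, rfl⟩
    have hTr : T ∈ (iota (F := F) (m := m)).range := by
      apply mem_range_iota
      · rw [hT]
        simp [Matrix.transvection, Matrix.one_apply, Matrix.single_apply, Fin.castSucc_ne_last,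
          (Fin.castSucc_ne_last _).symm]
      · intro b
        rw [hT]
        simp [Matrix.transvection, Matrix.one_apply, Matrix.single_apply, Fin.castSucc_ne_last,
          (Fin.castSucc_ne_last _).symm]
      · intro a
        rw [hT]
        simp [Matrix.transvection, Matrix.one_apply, Matrix.single_apply, Fin.castSucc_ne_last,
          (Fin.castSucc_ne_last _).symm]
    have hc := hx T hTr
    have hc' : (T : Matrix (Fin (m + 1)) (Fin (m + 1)) F) * (x : Matrix (Fin (m + 1)) (Fin (m + 1)) F)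
        = (x : Matrix (Fin (m + 1)) (Fin (m + 1)) F) * (T : Matrix (Fin (m + 1)) (Fin (m + 1)) F) := by
      have := congrArg (fun u : Matrix.SpecialLinearGroup (Fin (m + 1)) F =>
        (u : Matrix (Fin (m + 1)) (Fin (m + 1)) F)) hc
      simpa [Matrix.SpecialLinearGroup.coe_mul] using this
    rw [hT, Matrix.transvection, add_mul, mul_add, one_mul, mul_one, add_right_inj] at hc'
    refine ⟨fun a ha => ?_, fun b hb => ?_, ?_⟩
    · have := congrFun (congrFun hc' a) q.castSucc
      rw [Matrix.single_mul_apply_of_ne _ _ _ _ _ (Ne.symm (Ne.symm ha)), Matrix.mul_single_apply_same] at this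
      simpa using this.symm
    · have := congrFun (congrFun hc' p.castSucc) b
      rw [Matrix.single_mul_apply_same, Matrix.mul_single_apply_of_ne _ _ _ _ _ (Ne.symm (Ne.symm hb))] at this
      simpa using this
    · have := congrFun (congrFun hc' p.castSucc) q.castSucc
      rw [Matrix.single_mul_apply_same, Matrix.mul_single_apply_same] at this
      simpa using this.symm
  have hpartner : ∀ p : Fin m, ∃ q : Fin m, p ≠ q := by
    intro p
    by_cases h : (p : ℕ) = 0
    · exact ⟨⟨1, by omega⟩, fun h2 => by rw [h2] at h; simp at h⟩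
    · exact ⟨⟨0, by omega⟩, fun h2 => h (by rw [h2])⟩
  refine ⟨?_, ?_⟩
  · intro a b hab
    induction b using Fin.lastCases with
    | last =>
      induction a using Fin.lastCases with
      | last => exact absurd rfl hab
      | cast a' =>
        obtain ⟨q, hq⟩ := hpartner a'
        exact (key q a' (Ne.symm hq)).2.1 _ (Fin.castSucc_ne_last _).symm
    | cast b' =>
      obtain ⟨q, hq⟩ := hpartner b'
      exact (key b' q hq).1 a hab
  · intro p q
    by_cases h : p = q
    · rw [h]
    · exact (key p q h).2.2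

/-- Elements of the centralizer of the block `SL(m)` commute. -/
theorem cent_comm (hm : 2 ≤ m) (x y : Matrix.SpecialLinearGroup (Fin (m + 1)) F)
    (hx : ∀ z ∈ (iota (F := F) (m := m)).range, z * x = x * z)
    (hy : ∀ z ∈ (iota (F := F) (m := m)).range, z * y = y * z) : x * y = y * x := by
  obtain ⟨hx1, -⟩ := diag_of_comm hm x hx
  obtain ⟨hy1, -⟩ := diag_of_comm hm y hy
  have hdx : (x : Matrix (Fin (m + 1)) (Fin (m + 1)) F) = Matrix.diagonal (fun i => (x : Matrix (Fin (m + 1)) (Fin (m + 1)) F) i i) := by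
    ext a b
    by_cases hab : a = b
    · subst hab; simp
    · simp [Matrix.diagonal_apply_ne _ hab, hx1 a b hab]
  have hdy : (y : Matrix (Fin (m + 1)) (Fin (m + 1)) F) = Matrix.diagonal (fun i => (y : Matrix (Fin (m + 1)) (Fin (m + 1)) F) i i) := by
    ext a b
    by_cases hab : a = b
    · subst hab; simp
    · simp [Matrix.diagonal_apply_ne _ hab, hy1 a b hab]
  apply Subtype.ext
  rw [Matrix.SpecialLinearGroup.coe_mul, Matrix.SpecialLinearGroup.coe_mul, hdx, hdy,
    Matrix.diagonal_mul_diagonal, Matrix.diagonal_mul_diagonal]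
  congr 1
  ext i
  exact mul_comm _ _

/-- The unique involution in the centralizer of the block `SL(m)`. -/
theorem unique_inv (hm : 2 ≤ m) (hev : Even m) (t y : Matrix.SpecialLinearGroup (Fin (m + 1)) F)
    (ht : (t : Matrix (Fin (m + 1)) (Fin (m + 1)) F) = Matrix.diagonal (dd F m))
    (hy : ∀ z ∈ (iota (F := F) (m := m)).range, z * y = y * z) (hy2 : y * y = 1) (hy1 : y ≠ 1) : y = t := by
  obtain ⟨hoff, hconst⟩ := diag_of_comm hm y hy
  obtain ⟨m0⟩ : Nonempty (Fin m) := ⟨⟨0, by omega⟩⟩
  obtain ⟨lam, hlam⟩ : ∃ l, l = (y : Matrix (Fin (m + 1)) (Fin (m + 1)) F) m0.castSucc m0.castSucc := ⟨_, rfl⟩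
  obtain ⟨mu, hmu⟩ : ∃ l, l = (y : Matrix (Fin (m + 1)) (Fin (m + 1)) F) (Fin.last m) (Fin.last m) := ⟨_, rfl⟩
  have hd : (y : Matrix (Fin (m + 1)) (Fin (m + 1)) F) = Matrix.diagonal (fun i => (y : Matrix (Fin (m + 1)) (Fin (m + 1)) F) i i) := by
    ext a b
    by_cases hab : a = b
    · subst hab; simp
    · simp [Matrix.diagonal_apply_ne _ hab, hoff a b hab]
  have hval : ∀ p : Fin m, (y : Matrix (Fin (m + 1)) (Fin (m + 1)) F) p.castSucc p.castSucc = lam := by
    intro p; rw [hlam]; exact hconst p m0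
  have hsq : ∀ i, (y : Matrix (Fin (m + 1)) (Fin (m + 1)) F) i i * (y : Matrix (Fin (m + 1)) (Fin (m + 1)) F) i i = 1 := by
    intro i
    have h1 : (y : Matrix (Fin (m + 1)) (Fin (m + 1)) F) * (y : Matrix (Fin (m + 1)) (Fin (m + 1)) F) = 1 := by
      have := congrArg (fun u : Matrix.SpecialLinearGroup (Fin (m + 1)) F =>
        (u : Matrix (Fin (m + 1)) (Fin (m + 1)) F)) hy2
      simpa [Matrix.SpecialLinearGroup.coe_mul] using this
    rw [hd, Matrix.diagonal_mul_diagonal] at h1
    have h2 := congrFun (congrFun h1 i) i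
    simpa using h2
  have hl2 : lam * lam = 1 := by rw [hlam]; exact hsq _
  have hdet : (y : Matrix (Fin (m + 1)) (Fin (m + 1)) F).det = 1 := y.2
  rw [hd, Matrix.det_diagonal, Fin.prod_univ_castSucc] at hdet
  simp only [hval, Finset.prod_const, Finset.card_univ, Fintype.card_fin] at hdet
  obtain ⟨k, hk⟩ := hev
  have hpow : lam ^ m = 1 := by
    rw [hk, ← two_mul, pow_mul, pow_two, hl2, one_pow]
  rw [hpow, one_mul] at hdet
  have hlne : lam ≠ 1 := by
    intro h
    apply hy1
    apply Subtype.ext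
    rw [hd]
    show _ = (1 : Matrix (Fin (m + 1)) (Fin (m + 1)) F)
    rw [← Matrix.diagonal_one]
    congr 1
    ext i
    refine Fin.lastCases ?_ (fun a => ?_) i
    · exact hdet
    · rw [hval, h]
  have hl : lam = -1 := by
    have h3 : (lam - 1) * (lam + 1) = 0 := by linear_combination hl2
    rcases mul_eq_zero.mp h3 with h4 | h4
    · exact absurd (sub_eq_zero.mp h4) hlne
    · exact eq_neg_of_add_eq_zero_left h4
  apply Subtype.ext
  rw [ht, hd]
  congr 1
  ext i
  refine Fin.lastCases ?_ (fun a => ?_) i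
  · simpa using hdet
  · rw [hval, hl]; simp

/-- The main structure theorem, in terms of the block subgroup. -/
theorem standard_block [Fintype F] (hm : 3 ≤ m) (hev : Even m) (t : Matrix.SpecialLinearGroup (Fin (m + 1)) F)
    (h2 : (2 : F) ≠ 0)
    (ht : (t : Matrix (Fin (m + 1)) (Fin (m + 1)) F) = Matrix.diagonal (dd F m)) :
    IsStandardSubgroup (iota (F := F) (m := m)).range ∧
      (Cfsg.layer ↥(Subgroup.centralizer ({t} : Set (Matrix.SpecialLinearGroup (Fin (m + 1)) F)))).map
        (Subgroup.centralizer ({t} : Set (Matrix.SpecialLinearGroup (Fin (m + 1)) F))).subtype = (iota (F := F) (m := m)).range := by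
  have hm2 : 2 ≤ m := by omega
  obtain ⟨L, hL⟩ : ∃ L : Subgroup (Matrix.SpecialLinearGroup (Fin (m + 1)) F), L = (iota (F := F) (m := m)).range := ⟨_, rfl⟩
  rw [← hL]
  have hq : IsQuasisimple L := by
    have hc : 3 ≤ Fintype.card (Fin m) := by simpa using hm
    have h0 : IsQuasisimple (Matrix.SpecialLinearGroup (Fin m) F) :=
      ⟨⟨Cfsg.Agent.Lib.Classical.commutator_sl_eq_top_of_three_le hc⟩,
        Cfsg.Agent.Lib.Classical.psl_isSimpleGroup_of_three_le hc⟩
    rw [hL]
    exact qs_of_mulEquiv h0 (MonoidHom.ofInjective iota_inj)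
  have hblockL : ∀ y ∈ L, y * t = t * y := by
    intro y hy
    rw [hL] at hy
    obtain ⟨A, rfl⟩ := hy
    apply comm_of_block t _ ht
    · intro s; rw [iota_coe]; exact bext_lc _ _
    · intro s; rw [iota_coe]; exact bext_cl _ _
  obtain ⟨m0⟩ : Nonempty (Fin m) := ⟨⟨0, by omega⟩⟩
  have h11 : (-1 : F) ≠ 1 := by
    intro h
    apply h2
    linear_combination -h
  have ht1 : t ≠ 1 := by
    intro h
    have h5 := congrArg (fun u : Matrix.SpecialLinearGroup (Fin (m + 1)) F =>
      (u : Matrix (Fin (m + 1)) (Fin (m + 1)) F) m0.castSucc m0.castSucc) h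
    simp only [ht, Matrix.diagonal_apply_eq, dd_c, Matrix.SpecialLinearGroup.coe_one, Matrix.one_apply_eq] at h5
    exact h11 h5
  have ht2 : t * t = 1 := by
    apply Subtype.ext
    rw [Matrix.SpecialLinearGroup.coe_mul, ht, Matrix.diagonal_mul_diagonal,
      Matrix.SpecialLinearGroup.coe_one, ← Matrix.diagonal_one]
    congr 1
    ext i
    refine Fin.lastCases ?_ (fun a => ?_) i <;> simp
  have htord : orderOf t = 2 := by
    haveI : Fact (Nat.Prime 2) := ⟨Nat.prime_two⟩
    exact orderOf_eq_prime (by rw [pow_two]; exact ht2) ht1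
  -- the corner homomorphism
  have hblock : ∀ g : ↥(Subgroup.centralizer ({t} : Set (Matrix.SpecialLinearGroup (Fin (m + 1)) F))), ∀ s : Fin m,
      ((g : Matrix.SpecialLinearGroup (Fin (m + 1)) F) : Matrix (Fin (m + 1)) (Fin (m + 1)) F) (Fin.last m) s.castSucc = 0 ∧
      ((g : Matrix.SpecialLinearGroup (Fin (m + 1)) F) : Matrix (Fin (m + 1)) (Fin (m + 1)) F) s.castSucc (Fin.last m) = 0 :=
    fun g s => block_of_comm h2 t g ht (Subgroup.mem_centralizer_singleton_iff.1 g.2) s
  obtain ⟨δ₀, hδ₀⟩ : ∃ δ₀ : ↥(Subgroup.centralizer ({t} : Set (Matrix.SpecialLinearGroup (Fin (m + 1)) F))) →* F,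
      ∀ g, δ₀ g = ((g : Matrix.SpecialLinearGroup (Fin (m + 1)) F) : Matrix (Fin (m + 1)) (Fin (m + 1)) F) (Fin.last m) (Fin.last m) :=
    ⟨{ toFun := fun g => ((g : Matrix.SpecialLinearGroup (Fin (m + 1)) F) : Matrix (Fin (m + 1)) (Fin (m + 1)) F) (Fin.last m) (Fin.last m)
       map_one' := by simp
       map_mul' := fun x y => corner_mul _ _ (fun s => (hblock x s).1) }, fun g => rfl⟩
  obtain ⟨δ, hδ⟩ : ∃ δ : ↥(Subgroup.centralizer ({t} : Set (Matrix.SpecialLinearGroup (Fin (m + 1)) F))) →* Fˣ,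
      ∀ g, ((δ g : Fˣ) : F) = δ₀ g := ⟨δ₀.toHomUnits, fun g => MonoidHom.coe_toHomUnits _ _⟩
  have hLC : L ≤ Subgroup.centralizer ({t} : Set (Matrix.SpecialLinearGroup (Fin (m + 1)) F)) := fun y hy =>
    Subgroup.mem_centralizer_singleton_iff.2 (hblockL y hy)
  have hker : δ.ker = L.subgroupOf (Subgroup.centralizer ({t} : Set (Matrix.SpecialLinearGroup (Fin (m + 1)) F))) := by
    ext x
    rw [MonoidHom.mem_ker, Subgroup.mem_subgroupOf, hL]
    constructor
    · intro h
      apply mem_range_iota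
      · have := hδ x
        rw [h, hδ₀] at this
        exact this.symm
      · exact fun s => (hblock x s).1
      · exact fun s => (hblock x s).2
    · rintro ⟨A, hA⟩
      apply Units.ext
      rw [hδ, hδ₀, ← hA, iota_coe, bext_ll]
      rfl
  have hnormal : (L.subgroupOf (Subgroup.centralizer ({t} : Set (Matrix.SpecialLinearGroup (Fin (m + 1)) F)))).Normal := by
    rw [← hker]; exact MonoidHom.normal_ker δ
  have hqs' : IsQuasisimple ↥(L.subgroupOf (Subgroup.centralizer ({t} : Set (Matrix.SpecialLinearGroup (Fin (m + 1)) F)))) :=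
    qs_of_mulEquiv hq (Subgroup.subgroupOfEquivOfLe hLC).symm
  have hcomp : IsComponent (L.subgroupOf (Subgroup.centralizer ({t} : Set (Matrix.SpecialLinearGroup (Fin (m + 1)) F)))) :=
    ⟨Subgroup.Normal.isSubnormal hnormal, hqs'⟩
  have hlayer : Cfsg.layer ↥(Subgroup.centralizer ({t} : Set (Matrix.SpecialLinearGroup (Fin (m + 1)) F)))
      = L.subgroupOf (Subgroup.centralizer ({t} : Set (Matrix.SpecialLinearGroup (Fin (m + 1)) F))) := by
    apply le_antisymm
    · apply sSup_le
      intro K' hK'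
      rw [← hker]
      have hself := component_self hK'
      rw [← hself, Subgroup.commutator_le]
      intro a _ b _
      rw [MonoidHom.mem_ker, map_commutatorElement, commutatorElement_eq_one_iff_mul_comm]
      exact mul_comm _ _
    · exact le_sSup hcomp
  have hmap : (Cfsg.layer ↥(Subgroup.centralizer ({t} : Set (Matrix.SpecialLinearGroup (Fin (m + 1)) F)))).map
        (Subgroup.centralizer ({t} : Set (Matrix.SpecialLinearGroup (Fin (m + 1)) F))).subtype = L := by
    rw [hlayer]
    exact Subgroup.map_subgroupOf_eq_of_le hLC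
  refine ⟨?_, hmap⟩
  -- centralizer of `L`
  have hmemK : ∀ x, x ∈ Subgroup.centralizer (L : Set (Matrix.SpecialLinearGroup (Fin (m + 1)) F)) ↔
      ∀ y ∈ (iota (F := F) (m := m)).range, y * x = x * y := by
    intro x
    rw [Subgroup.mem_centralizer_iff, hL]
    rfl
  have htK : t ∈ Subgroup.centralizer (L : Set (Matrix.SpecialLinearGroup (Fin (m + 1)) F)) := by
    rw [Subgroup.mem_centralizer_iff]
    exact hblockL
  -- `C(t)` normalizes `L`
  have hN1 : Subgroup.centralizer ({t} : Set (Matrix.SpecialLinearGroup (Fin (m + 1)) F)) ≤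
      Subgroup.normalizer (L : Set (Matrix.SpecialLinearGroup (Fin (m + 1)) F)) := by
    intro g hg
    rw [Subgroup.mem_normalizer_iff]
    intro x
    have hconj : ∀ (g : ↥(Subgroup.centralizer ({t} : Set (Matrix.SpecialLinearGroup (Fin (m + 1)) F)))) (x : Matrix.SpecialLinearGroup (Fin (m + 1)) F),
        x ∈ L → (g : Matrix.SpecialLinearGroup (Fin (m + 1)) F) * x * (g : Matrix.SpecialLinearGroup (Fin (m + 1)) F)⁻¹ ∈ L := by
      intro g x hx
      have hx' : (⟨x, hLC hx⟩ : ↥(Subgroup.centralizer ({t} : Set (Matrix.SpecialLinearGroup (Fin (m + 1)) F)))) ∈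
          L.subgroupOf (Subgroup.centralizer ({t} : Set (Matrix.SpecialLinearGroup (Fin (m + 1)) F))) := hx
      have := hnormal.conj_mem _ hx' g
      exact this
    constructor
    · exact hconj ⟨g, hg⟩ x
    · intro h
      have := hconj ⟨g⁻¹, inv_mem hg⟩ _ h
      simpa [mul_assoc] using this
  have hN2 : Subgroup.normalizer (L : Set (Matrix.SpecialLinearGroup (Fin (m + 1)) F)) ≤
      Subgroup.normalizer (Subgroup.centralizer (L : Set (Matrix.SpecialLinearGroup (Fin (m + 1)) F)) : Set (Matrix.SpecialLinearGroup (Fin (m + 1)) F)) := by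
    intro g hg
    have hconj : ∀ g ∈ Subgroup.normalizer (L : Set (Matrix.SpecialLinearGroup (Fin (m + 1)) F)), ∀ x ∈ Subgroup.centralizer (L : Set (Matrix.SpecialLinearGroup (Fin (m + 1)) F)),
        g * x * g⁻¹ ∈ Subgroup.centralizer (L : Set (Matrix.SpecialLinearGroup (Fin (m + 1)) F)) := by
      intro g hg x hx
      rw [Subgroup.mem_centralizer_iff] at hx ⊢
      intro l hl
      have h1 : g⁻¹ * l * g⁻¹⁻¹ ∈ L := (Subgroup.mem_normalizer_iff.mp (inv_mem hg) l).mp hl
      rw [inv_inv] at h1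
      have h2 := hx _ h1
      calc l * (g * x * g⁻¹) = g * ((g⁻¹ * l * g) * x) * g⁻¹ := by group
        _ = g * (x * (g⁻¹ * l * g)) * g⁻¹ := by rw [h2]
        _ = g * x * g⁻¹ * l := by group
    rw [Subgroup.mem_normalizer_iff]
    intro x
    constructor
    · exact hconj g hg x
    · intro h
      have := hconj g⁻¹ (inv_mem hg) _ h
      simpa [mul_assoc] using this
  -- elements of the normalizer of `C(L)` commute with `t`
  have hN3 : ∀ g, g ∈ Subgroup.normalizer (Subgroup.centralizer (L : Set (Matrix.SpecialLinearGroup (Fin (m + 1)) F)) : Set (Matrix.SpecialLinearGroup (Fin (m + 1)) F)) →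
      g ∈ Subgroup.centralizer ({t} : Set (Matrix.SpecialLinearGroup (Fin (m + 1)) F)) := by
    intro g hg
    have h1 := (Subgroup.mem_normalizer_iff.mp hg t).mp htK
    have h2 : g * t * g⁻¹ = t := by
      apply unique_inv hm2 hev t _ ht ((hmemK _).mp h1)
      · calc g * t * g⁻¹ * (g * t * g⁻¹) = g * (t * t) * g⁻¹ := by group
          _ = 1 := by rw [ht2]; group
      · intro h
        apply ht1
        have : t = g⁻¹ * (g * t * g⁻¹) * g := by group
        rw [this, h]
        group
    rw [Subgroup.mem_centralizer_singleton_iff]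
    calc g * t = (g * t * g⁻¹) * g := by group
      _ = t * g := by rw [h2]
  have hNeq : Subgroup.normalizer (L : Set (Matrix.SpecialLinearGroup (Fin (m + 1)) F)) =
      Subgroup.normalizer (Subgroup.centralizer (L : Set (Matrix.SpecialLinearGroup (Fin (m + 1)) F)) : Set (Matrix.SpecialLinearGroup (Fin (m + 1)) F)) :=
    le_antisymm hN2 (fun g hg => hN1 (hN3 g hg))
  refine ⟨hq, ⟨?_, ?_⟩, ?_, hNeq⟩
  · have hdvd : orderOf (⟨t, htK⟩ : ↥(Subgroup.centralizer (L : Set (Matrix.SpecialLinearGroup (Fin (m + 1)) F)))) ∣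
        Nat.card ↥(Subgroup.centralizer (L : Set (Matrix.SpecialLinearGroup (Fin (m + 1)) F))) := orderOf_dvd_natCard _
    rw [Subgroup.orderOf_mk, htord] at hdvd
    exact even_iff_two_dvd.mpr hdvd
  · intro g hg
    by_contra hodd
    rw [Nat.not_odd_iff_even] at hodd
    haveI : Fact (Nat.Prime 2) := ⟨Nat.prime_two⟩
    obtain ⟨y, hy⟩ := exists_prime_orderOf_dvd_card' 2 (even_iff_two_dvd.mp hodd)
    have hy' : orderOf (y : Matrix.SpecialLinearGroup (Fin (m + 1)) F) = 2 := by
      rw [Subgroup.orderOf_coe]; exact hy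
    have hyy : (y : Matrix.SpecialLinearGroup (Fin (m + 1)) F) * y = 1 := by
      rw [← pow_two, ← hy']; exact pow_orderOf_eq_one _
    have hy1 : (y : Matrix.SpecialLinearGroup (Fin (m + 1)) F) ≠ 1 := by
      intro h; rw [h, orderOf_one] at hy'; omega
    obtain ⟨hy3, hy4⟩ := Subgroup.mem_inf.mp y.2
    have hyt := unique_inv hm2 hev t _ ht ((hmemK _).mp hy3) hyy hy1
    obtain ⟨z, hz, hzy⟩ := Subgroup.mem_map.mp hy4
    have hzy' : (y : Matrix.SpecialLinearGroup (Fin (m + 1)) F) = g * z * g⁻¹ := hzy.symm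
    have hzz : z * z = 1 := by
      have : g * (z * z) * g⁻¹ = 1 := by
        calc g * (z * z) * g⁻¹ = (g * z * g⁻¹) * (g * z * g⁻¹) := by group
          _ = 1 := by rw [← hzy']; exact hyy
      have h5 : z * z = g⁻¹ * (g * (z * z) * g⁻¹) * g := by group
      rw [h5, this]; group
    have hz1 : z ≠ 1 := by
      intro h
      apply hy1
      rw [hzy', h]
      group
    have hzt := unique_inv hm2 hev t z ht ((hmemK _).mp hz) hzz hz1
    apply hg
    apply hN2
    apply hN1
    rw [Subgroup.mem_centralizer_singleton_iff]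
    have h6 : t = g * t * g⁻¹ := by
      calc t = (y : Matrix.SpecialLinearGroup (Fin (m + 1)) F) := hyt.symm
        _ = g * z * g⁻¹ := hzy'
        _ = g * t * g⁻¹ := by rw [hzt]
    calc g * t = (g * t * g⁻¹) * g := by group
      _ = t * g := by rw [← h6]
  · intro g _ hbot
    have hcommK : ∀ x ∈ L, g * x * g⁻¹ ∈ Subgroup.centralizer (L : Set (Matrix.SpecialLinearGroup (Fin (m + 1)) F)) := by
      intro x hx
      rw [Subgroup.mem_centralizer_iff]
      intro l hl
      have h1 := Subgroup.commutator_mem_commutator hl (Subgroup.mem_map.mpr ⟨x, hx, rfl⟩ :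
        (g * x * g⁻¹) ∈ L.map (MulAut.conj g).toMonoidHom)
      rw [hbot] at h1
      exact commutatorElement_eq_one_iff_mul_comm.mp ((Subgroup.mem_bot).mp h1)
    apply qs_not_commutative hq
    refine ⟨⟨fun a b => ?_⟩⟩
    apply Subtype.ext
    have h1 := cent_comm hm2 _ _ ((hmemK _).mp (hcommK a a.2)) ((hmemK _).mp (hcommK b b.2))
    have h2 : g * ((a : Matrix.SpecialLinearGroup (Fin (m + 1)) F) * b) * g⁻¹ = g * (b * a) * g⁻¹ := by
      calc g * ((a : Matrix.SpecialLinearGroup (Fin (m + 1)) F) * b) * g⁻¹ = (g * a * g⁻¹) * (g * b * g⁻¹) := by group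
        _ = (g * b * g⁻¹) * (g * a * g⁻¹) := h1
        _ = g * (b * a) * g⁻¹ := by group
    exact mul_left_cancel (mul_right_cancel h2)

end main


/-- Let F be a finite field of odd order, n ≥ 7 odd, and t ∈ SL(n, F) the diagonal matrix with entries −1, …, −1, 1. Then E(C(t)) is a standard subgroup of SL(n, F). -/
theorem result {F : Type*} [Field F] [Fintype F] [DecidableEq F] (hF : Odd (Fintype.card F)) (n : ℕ) (hn : 7 ≤ n) (hodd : Odd n) (t : Matrix.SpecialLinearGroup (Fin n) F) (ht : (t : Matrix (Fin n) (Fin n) F) = Matrix.diagonal (fun i : Fin n => if (i : ℕ) + 1 = n then (1 : F) else -1)) : Cfsg.IsStandardSubgroup ((Cfsg.layer ↥(Subgroup.centralizer ({t} : Set (Matrix.SpecialLinearGroup (Fin n) F)))).map (Subgroup.centralizer ({t} : Set (Matrix.SpecialLinearGroup (Fin n) F))).subtype) := by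
  obtain ⟨m, rfl⟩ : ∃ m, n = m + 1 := ⟨n - 1, by omega⟩
  have h2 : (2 : F) ≠ 0 := by
    intro h
    have h3 : ringChar F = 2 := CharP.ringChar_of_prime_eq_zero Nat.prime_two (by exact_mod_cast h)
    have h4 := FiniteField.even_card_of_char_two h3
    obtain ⟨k, hk⟩ := hF
    omega
  have hev : Even m := by
    obtain ⟨k, hk⟩ := hodd
    exact ⟨k, by omega⟩
  have ht' : (t : Matrix (Fin (m + 1)) (Fin (m + 1)) F) = Matrix.diagonal (dd F m) := ht
  obtain ⟨h1, h3⟩ := standard_block (m := m) (by omega) hev t h2 ht'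
  rw [h3]
  exact h1

end Cfsg.Agent.S1348
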