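import Cfsg.Statements.S1386
import Cfsg.Agent.Lib.OddLocal.Sup

set_option autoImplicit false
open Cfsg

namespace Cfsg.Agent.S1386

open Cfsg.Agent.Lib.OddLocal

/-- Let G be a finite group, W₁, W₂ subgroups forming a self-normalizing cyclic pair, S a subgroup with W₂ ≤ S and W₁ a complement to S' in S, and (W₁, U, W₂') type-P data for S. Then W₂' = W₂ (that is, C_{S'}(W₁) = W₂). -/
theorem result {G : Type*} [Group G] [Finite G] (W₁ W₂ S U W₂' : Subgroup G) (hW : Cfsg.IsSelfNormalizingCyclic W₁ W₂)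
    (hSW : Cfsg.IsComplIn ⁅S, S⁆ W₁ S) (hW₂S : W₂ ≤ S) (hP : Cfsg.IsTypePWith S W₁ U W₂') :
    W₂' = W₂ := by
  obtain ⟨hW1ne, hW2ne, hdisj, hcomm, hcyc, hnorm⟩ := hW
  obtain ⟨_, hW2'ne, hdisj', hcomm', hcyc', _⟩ := hP.selfNormalizing
  obtain ⟨x₁, hx₁, hx₁1⟩ := (W₁.bot_or_exists_ne_one).resolve_left hW1ne
  obtain ⟨y₂, hy₂, hy₂1⟩ := (W₂.bot_or_exists_ne_one).resolve_left hW2ne
  have hW₁comm : ∀ a ∈ W₁, ∀ b ∈ W₁, a * b = b * a := fun a ha b hb =>
    comm_of_mem_isCyclic hP.W₁_cyclic ha hb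
  have hcentr := hP.W₂_centralizer x₁ hx₁ hx₁1
  obtain ⟨hS'S, hW₁S, hdis, hfact⟩ := hSW
  -- W₂ ≤ W₁ ⊔ W₂'
  have h1 : W₂ ≤ W₁ ⊔ W₂' := by
    intro y hy
    obtain ⟨a, ha, b, hb, rfl⟩ := hfact y (hW₂S hy)
    have hax : a ∈ W₂' := by
      rw [← hcentr]
      refine Subgroup.mem_inf.mpr ⟨ha, ?_⟩
      rw [Subgroup.mem_centralizer_iff]
      intro z hz
      rw [Set.mem_singleton_iff] at hz
      subst hz
      have e1 : z * (a * b) = (a * b) * z := hcomm z hx₁ (a * b) hy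
      have e2 : z * b = b * z := hW₁comm z hx₁ b hb
      have e3 : z * a * b = a * z * b := by
        calc z * a * b = z * (a * b) := by group
          _ = a * (b * z) := by rw [e1]; group
          _ = a * (z * b) := by rw [e2]
          _ = a * z * b := by group
      exact mul_right_cancel e3
    rw [sup_comm]
    exact Subgroup.mul_mem_sup hax hb
  set w := x₁ * y₂ with hw
  have hw1 : w ∉ W₁ := by
    intro h
    have : y₂ ∈ W₁ := by
      have := W₁.mul_mem (W₁.inv_mem hx₁) h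
      simpa [hw] using this
    have h2 : y₂ ∈ W₁ ⊓ W₂ := Subgroup.mem_inf.mpr ⟨this, hy₂⟩
    rw [hdisj, Subgroup.mem_bot] at h2
    exact hy₂1 h2
  have hw2 : w ∉ W₂ := by
    intro h
    have : x₁ ∈ W₂ := by
      have := W₂.mul_mem h (W₂.inv_mem hy₂)
      simpa [hw] using this
    have h2 : x₁ ∈ W₁ ⊓ W₂ := Subgroup.mem_inf.mpr ⟨hx₁, this⟩
    rw [hdisj, Subgroup.mem_bot] at h2
    exact hx₁1 h2
  have hwW : w ∈ W₁ ⊔ W₂ := Subgroup.mul_mem_sup hx₁ hy₂
  have hN := hnorm {w} (by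
    intro z hz
    rw [Set.mem_singleton_iff] at hz
    subst hz
    refine ⟨hwW, ?_⟩
    rintro (h | h)
    · exact hw1 h
    · exact hw2 h) (Set.singleton_nonempty w)
  have hwW' : w ∈ W₁ ⊔ W₂' :=
    (W₁ ⊔ W₂').mul_mem (Subgroup.mem_sup_left hx₁) (h1 hy₂)
  have h2 : W₁ ⊔ W₂' ≤ W₁ ⊔ W₂ := by
    rw [← hN]
    intro v hv
    rw [Subgroup.mem_set_normalizer_iff]
    intro z
    have hvw : v * w = w * v := comm_of_mem_isCyclic hcyc' hv hwW'
    simp only [Set.mem_singleton_iff]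
    constructor
    · rintro rfl
      rw [hvw]
      group
    · intro h
      have : v * z = w * v := by
        calc v * z = v * z * v⁻¹ * v := by group
          _ = w * v := by rw [h]
      rw [← hvw] at this
      exact mul_left_cancel this
  have h3 : W₁ ⊔ W₂ = W₁ ⊔ W₂' := le_antisymm (sup_le le_sup_left h1) h2
  have hc1 : Nat.card ↥(W₁ ⊔ W₂) = Nat.card W₁ * Nat.card W₂ :=
    card_sup_of_disjoint (le_normalizer_of_comm hcomm) hdisj
  have hc2 : Nat.card ↥(W₁ ⊔ W₂') = Nat.card W₁ * Nat.card W₂' :=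
    card_sup_of_disjoint (le_normalizer_of_comm hcomm') hdisj'
  have hc3 : Nat.card W₂ = Nat.card W₂' := by
    rw [h3] at hc1
    rw [hc1] at hc2
    exact Nat.eq_of_mul_eq_mul_left Nat.card_pos hc2
  exact eq_of_card_eq_of_le_isCyclic hcyc (h3 ▸ le_sup_right) le_sup_right hc3.symm

end Cfsg.Agent.S1386
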