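import Cfsg.Statements.S1387
import Cfsg.Agent.Lib.OddLocal.Fitting

set_option autoImplicit false
open Cfsg

namespace Cfsg.Agent.S1387

open Cfsg.Agent.Lib.OddLocal

/-- Let M be a subgroup of a finite group G with type-P data (W₁, U, W₂) and H = M_F. Then the Fitting subgroup F(M) is generated by H and the centralizer of H in U. -/
theorem result {G : Type*} [Group G] [Finite G] (M W₁ U W₂ : Subgroup G) (hP : Cfsg.IsTypePWith M W₁ U W₂) :
    Cfsg.fittingOf M = Cfsg.fittingHallOf M ⊔ (U ⊓ Subgroup.centralizer (Cfsg.fittingHallOf M : Set G)) := by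
  set H := Cfsg.fittingHallOf M with hH
  have hf := hP.fitting_eq
  have hHF : H ≤ Cfsg.fittingOf M := hf ▸ le_sup_left
  have hCF : M ⊓ Subgroup.centralizer (H : Set G) ≤ Cfsg.fittingOf M := hf ▸ le_sup_right
  obtain ⟨hHM', hUM', hdis, hfact⟩ := hP.U_compl
  have hM'M : ⁅M, M⁆ ≤ M := Subgroup.commutator_le_self M
  have hFnil := fittingOf_isNilpotent M
  have hcardM' := IsComplIn_card_eq hP.U_compl
  have hcop : Nat.Coprime (Nat.card H) (Nat.card U) := by
    have h1 : Nat.card M = Nat.card H * H.relIndex M := (card_mul_relIndex (fittingHallOf_le M)).symm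
    have h2 : Nat.card ↥⁅M, M⁆ ∣ Nat.card M := Subgroup.card_dvd_of_le hM'M
    rw [hcardM', h1] at h2
    have h3 : Nat.card U ∣ H.relIndex M := Nat.dvd_of_mul_dvd_mul_left Nat.card_pos h2
    exact Nat.Coprime.coprime_dvd_right h3 (fittingHallOf_coprime_relIndex M)
  apply le_antisymm
  · rw [← hf]
    refine sup_le le_sup_left ?_
    intro x hx
    have hxF : x ∈ Cfsg.fittingOf M := hCF hx
    have hxM' : x ∈ ⁅M, M⁆ := hP.fitting_le hxF
    obtain ⟨h, hh, u, hu, rfl⟩ := hfact x hxM'
    have huF : u ∈ Cfsg.fittingOf M := by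
      have := (Cfsg.fittingOf M).mul_mem ((Cfsg.fittingOf M).inv_mem (hHF hh)) hxF
      simpa using this
    refine Subgroup.mul_mem_sup hh (Subgroup.mem_inf.mpr ⟨hu, ?_⟩)
    rw [Subgroup.mem_centralizer_iff]
    intro k hk
    apply comm_of_coprime_of_nilpotent_subgroup hFnil (hHF hk) huF
    exact Nat.Coprime.coprime_dvd_left (Subgroup.orderOf_dvd_natCard H hk)
      (Nat.Coprime.coprime_dvd_right (Subgroup.orderOf_dvd_natCard U hu) hcop)
  · exact sup_le hHF (le_trans (inf_le_inf_right _ (hUM'.trans hM'M)) hCF)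

end Cfsg.Agent.S1387
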