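import Cfsg.Statements.S1388
import Cfsg.Agent.Lib.OddLocal.Fitting

set_option autoImplicit false
open Cfsg

namespace Cfsg.Agent.S1388

open Cfsg.Agent.Lib.OddLocal

/-- Let M be a subgroup of a finite group G with type-P data (W₁, U, W₂) and H = M_F. Then the derived subgroup of U centralizes H, and if U ≠ 1 then U does not centralize H. -/
theorem result {G : Type*} [Group G] [Finite G] (M W₁ U W₂ : Subgroup G) (hP : Cfsg.IsTypePWith M W₁ U W₂) :
    ⁅U, U⁆ ≤ Subgroup.centralizer (Cfsg.fittingHallOf M : Set G) ∧ (U ≠ ⊥ → ¬ U ≤ Subgroup.centralizer (Cfsg.fittingHallOf M : Set G)) := by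
  set H := Cfsg.fittingHallOf M with hH
  have hf := hP.fitting_eq
  have hHF : H ≤ Cfsg.fittingOf M := hf ▸ le_sup_left
  have hCF : M ⊓ Subgroup.centralizer (H : Set G) ≤ Cfsg.fittingOf M := hf ▸ le_sup_right
  obtain ⟨hHM', hUM', hdis, hfact⟩ := hP.U_compl
  have hM'M : ⁅M, M⁆ ≤ M := Subgroup.commutator_le_self M
  have hFnil := fittingOf_isNilpotent M
  have hcardM' := IsComplIn_card_eq hP.U_compl
  have h1 : Nat.card M = Nat.card H * H.relIndex M := (card_mul_relIndex (fittingHallOf_le M)).symm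
  have hcop : Nat.Coprime (Nat.card H) (Nat.card U) := by
    have h2 : Nat.card ↥⁅M, M⁆ ∣ Nat.card M := Subgroup.card_dvd_of_le hM'M
    rw [hcardM', h1] at h2
    have h3 : Nat.card U ∣ H.relIndex M := Nat.dvd_of_mul_dvd_mul_left Nat.card_pos h2
    exact Nat.Coprime.coprime_dvd_right h3 (fittingHallOf_coprime_relIndex M)
  constructor
  · intro x hx
    have hxU : x ∈ U := Subgroup.commutator_le_self U hx
    have hxF : x ∈ Cfsg.fittingOf M := by
      rw [← hf]
      apply hP.derived_two_le
      exact Subgroup.commutator_mono hUM' hUM' hx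
    rw [Subgroup.mem_centralizer_iff]
    intro k hk
    apply comm_of_coprime_of_nilpotent_subgroup hFnil (hHF hk) hxF
    exact Nat.Coprime.coprime_dvd_left (Subgroup.orderOf_dvd_natCard H hk)
      (Nat.Coprime.coprime_dvd_right (Subgroup.orderOf_dvd_natCard U hxU) hcop)
  · intro hU1 hUC
    apply hU1
    have hUM : U ≤ M := hUM'.trans hM'M
    have hcomm : ∀ h ∈ H, ∀ u ∈ U, h * u = u * h := fun h hh u hu =>
      (Subgroup.mem_centralizer_iff.mp (hUC hu) h hh)
    -- U is normal in M
    have hUnorm : ∀ m ∈ M, ∀ u ∈ U, m * u * m⁻¹ ∈ U := by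
      intro m hm u hu
      have hc : m * u * m⁻¹ ∈ ⁅M, M⁆ := by
        have hN : M ≤ Subgroup.normalizer ((⁅M, M⁆ : Subgroup G) : Set G) := Subgroup.normalizer_commutator_ge_left M M
        exact (Subgroup.mem_normalizer_iff.mp (hN hm) u).mp (hUM' hu)
      obtain ⟨h, hh, u', hu', e⟩ := hfact _ hc
      have e1 : (m * u * m⁻¹) ^ Nat.card U = 1 := by
        rw [conj_pow, orderOf_dvd_iff_pow_eq_one.mp (Subgroup.orderOf_dvd_natCard U hu)]
        group
      rw [e, (show Commute h u' from hcomm h hh u' hu').mul_pow,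
        orderOf_dvd_iff_pow_eq_one.mp (Subgroup.orderOf_dvd_natCard U hu'), mul_one] at e1
      have h2 : orderOf h = 1 :=
        Nat.eq_one_of_dvd_coprimes hcop (Subgroup.orderOf_dvd_natCard H hh)
          (orderOf_dvd_of_pow_eq_one e1)
      rw [orderOf_eq_one_iff] at h2
      rw [e, h2, one_mul]
      exact hu'
    have hUN : (U.subgroupOf M).Normal := by
      constructor
      intro n hn g
      rw [Subgroup.mem_subgroupOf] at hn ⊢
      exact hUnorm g g.2 n hn
    have hNil : Group.IsNilpotent (U.subgroupOf M) :=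
      (Group.isNilpotent_congr (Subgroup.subgroupOfEquivOfLe hUM)).mpr hP.U_nilpotent
    have hcW := IsComplIn_card_eq hP.W₁_compl
    have h3 : Nat.card W₁ * W₁.relIndex M = Nat.card M := card_mul_relIndex hP.W₁_compl.2.1
    have h4 : W₁.relIndex M = Nat.card ↥⁅M, M⁆ := by
      rw [hcW, mul_comm] at h3
      exact Nat.eq_of_mul_eq_mul_right Nat.card_pos h3
    have hcW1U : (Nat.card W₁).Coprime (Nat.card U) := by
      have := hP.W₁_hall
      rw [h4, hcardM'] at this
      exact Nat.Coprime.coprime_mul_left_right this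
    have hHall : (Nat.card (U.subgroupOf M)).Coprime (U.subgroupOf M).index := by
      rw [card_subgroupOf_of_le hUM]
      have h5 : Nat.card U * (U.subgroupOf M).index = Nat.card M := card_mul_relIndex hUM
      have h6 : (U.subgroupOf M).index = Nat.card H * Nat.card W₁ := by
        rw [hcW, hcardM'] at h5
        have h7 : Nat.card U * (U.subgroupOf M).index = Nat.card U * (Nat.card H * Nat.card W₁) := by
          rw [h5]; ring
        exact Nat.eq_of_mul_eq_mul_left Nat.card_pos h7
      rw [h6]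
      exact Nat.Coprime.mul_right hcop.symm hcW1U.symm
    have hle := le_fittingHall hUN hNil hHall
    rw [eq_bot_iff]
    intro u hu
    have hu2 : (⟨u, hUM hu⟩ : M) ∈ U.subgroupOf M := by
      rw [Subgroup.mem_subgroupOf]
      exact hu
    have hu3 : u ∈ H := ⟨⟨u, hUM hu⟩, hle hu2, rfl⟩
    have hu4 : u ∈ H ⊓ U := Subgroup.mem_inf.mpr ⟨hu3, hu⟩
    rwa [hdis] at hu4

end Cfsg.Agent.S1388
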