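import Cfsg.Statements.S1396
import Cfsg.Agent.Lib.FT.Trans396

set_option autoImplicit false
open Cfsg

namespace Cfsg.Agent.S1396

/-- Let G be a minimal simple group of odd order, p a prime dividing the order of G and A an abelian p-subgroup. Suppose either (1) A consists exactly of the elements x of C_G(A) with x^p = 1, and every proper subgroup of G has p-length at most one, or (2) A is normal and self-centralizing in some Sylow p-subgroup of G and has rank at least 2. Then A satisfies the transitivity hypothesis. -/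
theorem result {G : Type*} [Group G] [Finite G] (hG : Cfsg.IsMinSimpleOddOrder G)
    (p : ℕ) [Fact p.Prime] (hp : p ∣ Nat.card G) (A : Subgroup G) (hAp : IsPGroup p A) (hAc : IsMulCommutative A)
    (h : (∀ x ∈ Subgroup.centralizer (A : Set G), x ^ p = 1 ↔ x ∈ A) ∧ (∀ H : Subgroup G, H ≠ ⊤ → Cfsg.PLengthLE p 1 H) ∨
      ∃ P : Sylow p G, Cfsg.IsSCN (P : Subgroup G) A ∧ ¬ Cfsg.PRankLE p 1 A) :
    Cfsg.TransitivityHypothesis A := by
  classical
  have hpp : p.Prime := Fact.out
  have hodd : Odd (Nat.card G) := hG.1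
  have hp2 : p ≠ 2 := by
    rintro rfl
    have := Odd.of_dvd_nat hodd hp
    exact absurd this (by decide)
  have hAne : A ≠ ⊥ := by
    rintro rfl
    rcases h with ⟨h1, -⟩ | ⟨P, -, h2⟩
    · obtain ⟨x, hx⟩ := exists_prime_orderOf_dvd_card' p hp
      have hx1 : x ≠ 1 := by
        rintro rfl
        rw [orderOf_one] at hx
        exact hpp.one_lt.ne hx
      have hxp : x ^ p = 1 := by rw [← hx, pow_orderOf_eq_one]
      have := (h1 x (by
        rw [Subgroup.mem_centralizer_iff]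
        intro h hh
        have h5 : h = 1 := Subgroup.mem_bot.1 hh
        rw [h5, one_mul, mul_one])).1 hxp
      exact hx1 (Subgroup.mem_bot.1 this)
    · apply h2
      intro F _ _
      rw [pow_one]
      have h3 : Nat.card F = 1 := by
        rw [Nat.card_eq_one_iff_unique]
        refine ⟨⟨?_⟩, inferInstance⟩
        intro a b
        have h4 : ∀ c : ↥(⊥ : Subgroup G), c = 1 := fun c => Subtype.ext (Subgroup.mem_bot.1 c.2)
        exact Subtype.ext ((h4 _).trans (h4 _).symm)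
      rw [h3]
      exact hpp.one_lt.le
  have hAtop : A ≠ ⊤ := Cfsg.Agent.Lib.OddLocal.IsMinSimpleOddOrder.ne_top_of_isPGroup hG hpp hAp
  have hpdA : p ∣ Nat.card A := by
    rcases hAp.card_eq_or_dvd with h1 | h1
    · exact absurd (Subgroup.card_eq_one.mp h1) hAne
    · exact h1
  have hprimes : ∀ r : ℕ, r.Prime → r ∣ Nat.card A → r = p := by
    intro r hr hrd
    obtain ⟨n, hn⟩ := IsPGroup.iff_card.1 hAp
    rw [hn] at hrd
    exact (Nat.prime_dvd_prime_iff_eq hr hpp).1 (hr.dvd_of_dvd_pow hrd)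
  have key : ∀ X : Subgroup G, X ≠ ⊤ → A ≤ X → ∀ Y : Subgroup G, Y ≤ X → (Nat.card Y).Coprime p →
      A ≤ Subgroup.normalizer (Y : Set G) → Y ≤ Cfsg.Agent.Lib.FT.Qc p X := by
    intro X hX hAX Y hYX hY hYA
    have hsol : Group.IsSolvable X := hG.2.2.2 X hX
    rcases h with ⟨h1, h2⟩ | ⟨P, hscn, hr⟩
    · exact Cfsg.Agent.Lib.FT.le_Qc_of_plength hsol hodd hp2 (h2 X hX) A hAX hAp hAc
        (fun x hx hxp => (h1 x hx).1 hxp) hYX hY hYA
    · exact Cfsg.Agent.Lib.FT.le_Qc_of_scn_noncyclic hG hp2 P hscn.1 hscn.2.1 hAc hscn.2.2.le hr hX hAX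
        hYX hY hYA
  refine ⟨hAne, hAtop, ?_⟩
  intro X hX hAX
  apply le_antisymm
  · apply sSup_le
    rintro Y ⟨hYX, hYπ, hYA⟩
    have hYc : (Nat.card Y).Coprime p := by
      apply Nat.Coprime.symm
      rw [Nat.Prime.coprime_iff_not_dvd hpp]
      intro hd
      exact (hYπ p hpp hd).2 hpdA
    refine (key X hX hAX Y hYX hYc hYA).trans ?_
    apply Cfsg.Agent.Lib.OddLocal.le_piCoreOf (Cfsg.Agent.Lib.FT.Qc_le X) (Cfsg.Agent.Lib.FT.le_normalizer_Qc X)
    intro r hr hrd
    refine ⟨hr, fun hra => ?_⟩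
    have hrp := hprimes r hr hra
    subst hrp
    have := Nat.dvd_gcd hrd (dvd_refl r)
    rw [(Cfsg.Agent.Lib.FT.Qc_coprime (p := r) X).gcd_eq_one] at this
    exact hr.one_lt.ne' (Nat.dvd_one.1 this)
  · apply le_sSup
    refine ⟨Cfsg.Agent.Lib.OddLocal.piCoreOf_le _ X, Cfsg.Agent.Lib.OddLocal.piCoreOf_isPi _ X, hAX.trans (Cfsg.Agent.Lib.OddLocal.le_normalizer_piCoreOf _ X)⟩

end Cfsg.Agent.S1396
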