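import Cfsg.Statements.S1441
import Mathlib

set_option autoImplicit false
open Cfsg

namespace Cfsg.Agent.S1441

open scoped commutatorElement

/-- conjugating by `a` multiplies by the fixed commutator -/
theorem pow_conj_eq {G : Type*} [Group G] (a x z : G) (hz : a * z * a⁻¹ = z) (hx : a * x * a⁻¹ = z * x) (n : ℕ) :
    a ^ n * x * (a ^ n)⁻¹ = z ^ n * x := by
  induction n with
  | zero => simp
  | succ n ih =>
    have hcomm : a * z = z * a := by
      calc a * z = (a * z * a⁻¹) * a := by group
        _ = z * a := by rw [hz]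
    have hcomm' : a ^ n * z = z * a ^ n := by
      have : Commute a z := hcomm
      exact (this.pow_left n).eq
    calc a ^ (n + 1) * x * (a ^ (n + 1))⁻¹ = a ^ n * (a * x * a⁻¹) * (a ^ n)⁻¹ := by
          rw [pow_succ]; group
      _ = a ^ n * (z * x) * (a ^ n)⁻¹ := by rw [hx]
      _ = (a ^ n * z) * x * (a ^ n)⁻¹ := by group
      _ = z * (a ^ n * x * (a ^ n)⁻¹) := by rw [hcomm']; group
      _ = z * (z ^ n * x) := by rw [ih]
      _ = z ^ (n + 1) * x := by rw [pow_succ']; group

/-- Let G be a finite group, H a solvable subgroup and A a subgroup normalizing H. Suppose there is a chain H = H₀ ≥ H₁ ≥ ⋯ ≥ H_n = 1 of subgroups normal in H and normalized by A such that A acts trivially on each factor H_{i-1}/H_i (that is, [H_{i-1}, A] ≤ H_i). Then every prime dividing the index of C_A(H) in A divides the order of H. -/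
theorem result {G : Type*} [Group G] [Finite G] (H A : Subgroup G) (hH : Group.IsSolvable H) (hA : (A ≤ Subgroup.normalizer (H : Set G)))
    (n : ℕ) (c : Fin (n + 1) → Subgroup G) (hc0 : c 0 = H) (hcn : c (Fin.last n) = ⊥) (hanti : Antitone c)
    (hcN : ∀ i, H ≤ Subgroup.normalizer ((c i : Subgroup G) : Set G)) (hcA : ∀ i, A ≤ Subgroup.normalizer ((c i : Subgroup G) : Set G))
    (htriv : ∀ i : Fin n, ⁅c i.castSucc, A⁆ ≤ c i.succ) :
    ∀ p : ℕ, p.Prime → p ∣ (A ⊓ Subgroup.centralizer (H : Set G)).relIndex A → p ∣ Nat.card H := by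
  intro p hp hdvd
  by_contra hpH
  have : Fact p.Prime := ⟨hp⟩
  -- the normal subgroup C_A(H) of A
  set C : Subgroup A := (A ⊓ Subgroup.centralizer (H : Set G)).subgroupOf A with hC
  have hCn : C.Normal := by
    constructor
    intro x hx a
    rw [hC, Subgroup.mem_subgroupOf, Subgroup.mem_inf] at hx ⊢
    refine ⟨(a * x * a⁻¹).2, ?_⟩
    rw [Subgroup.mem_centralizer_iff]
    intro h hh
    have hAa : (a : G) ∈ Subgroup.normalizer (H : Set G) := hA a.2
    have h' : (a : G)⁻¹ * h * a ∈ H := by
      have := (Subgroup.mem_normalizer_iff''.mp hAa h).mp hh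
      simpa using this
    have hxc := (Subgroup.mem_centralizer_iff.mp hx.2) _ h'
    simp only [Subgroup.coe_mul, Subgroup.coe_inv]
    calc h * (a * x * (a : G)⁻¹) = a * ((a : G)⁻¹ * h * a * x) * (a : G)⁻¹ := by group
      _ = a * (x * ((a : G)⁻¹ * h * a)) * (a : G)⁻¹ := by rw [hxc]
      _ = _ := by group
  have hdvd' : p ∣ Nat.card (A ⧸ C) := hdvd
  have : Finite (A ⧸ C) := inferInstance
  obtain ⟨q, hq⟩ := exists_prime_orderOf_dvd_card' (G := A ⧸ C) p hdvd'
  obtain ⟨a, rfl⟩ := QuotientGroup.mk'_surjective C q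
  -- a ^ p centralizes H
  have hap : (a : G) ^ p ∈ Subgroup.centralizer (H : Set G) := by
    have : ((QuotientGroup.mk' C) a) ^ p = 1 := by rw [← hq]; exact pow_orderOf_eq_one _
    rw [← map_pow, QuotientGroup.mk'_apply, QuotientGroup.eq_one_iff, hC, Subgroup.mem_subgroupOf, Subgroup.mem_inf] at this
    simpa using this.2
  -- a centralizes each term of the chain, by descending induction
  have key : ∀ (k : ℕ) (hk : k ≤ n), ∀ x ∈ c ⟨n - k, by omega⟩, (a : G) * x * (a : G)⁻¹ = x := by
    intro k
    induction k with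
    | zero =>
      intro _ x hx
      have : (⟨n - 0, by omega⟩ : Fin (n + 1)) = Fin.last n := by ext; simp
      rw [this, hcn, Subgroup.mem_bot] at hx
      subst hx
      simp
    | succ k ih =>
      intro hk x hx
      have hk' : k ≤ n := by omega
      have ih' := ih hk'
      -- the step index
      let i : Fin n := ⟨n - (k + 1), by omega⟩
      have e1 : i.castSucc = (⟨n - (k + 1), by omega⟩ : Fin (n + 1)) := by ext; rfl
      have e2 : i.succ = (⟨n - k, by omega⟩ : Fin (n + 1)) := by
        ext
        simp only [Fin.val_succ, i]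
        omega
      have hx' : x ∈ c i.castSucc := by rw [e1]; exact hx
      set z : G := (a : G) * x * (a : G)⁻¹ * x⁻¹ with hz
      have hzc : z ∈ c ⟨n - k, by omega⟩ := by
        rw [← e2]
        have h1 : ⁅x, (a : G)⁆ ∈ c i.succ := htriv i (Subgroup.commutator_mem_commutator hx' a.2)
        have h2 : z = ⁅x, (a : G)⁆⁻¹ := by
          simp [hz, commutatorElement_def]
          group
        rw [h2]
        exact Subgroup.inv_mem _ h1
      have hzfix : (a : G) * z * (a : G)⁻¹ = z := ih' z hzc
      have hxz : (a : G) * x * (a : G)⁻¹ = z * x := by rw [hz]; group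
      have hp1 := pow_conj_eq (a : G) x z hzfix hxz p
      -- x ∈ H
      have hxH : x ∈ H := by
        have : c ⟨n - (k + 1), by omega⟩ ≤ c 0 := hanti (Fin.zero_le _)
        rw [hc0] at this
        exact this hx
      have hzH : z ∈ H := by
        have : c ⟨n - k, by omega⟩ ≤ c 0 := hanti (Fin.zero_le _)
        rw [hc0] at this
        exact this hzc
      have hp2 : (a : G) ^ p * x * ((a : G) ^ p)⁻¹ = x := by
        have := Subgroup.mem_centralizer_iff.mp hap x hxH
        rw [← this]
        group
      have hzp : z ^ p = 1 := by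
        rw [hp2] at hp1
        have : z ^ p * x = 1 * x := by rw [← hp1, one_mul]
        exact mul_right_cancel this
      have hz1 : z = 1 := by
        have h3 : orderOf (⟨z, hzH⟩ : H) ∣ p := by
          apply orderOf_dvd_of_pow_eq_one
          ext
          simpa using hzp
        have h4 : orderOf (⟨z, hzH⟩ : H) ∣ Nat.card H := orderOf_dvd_natCard _
        rcases (Nat.dvd_prime hp).mp h3 with h5 | h5
        · have := orderOf_eq_one_iff.mp h5
          simpa using congrArg Subtype.val this
        · rw [h5] at h4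
          exact absurd h4 hpH
      rw [hz] at hz1
      exact mul_inv_eq_one.mp hz1
  have hac : (a : G) ∈ Subgroup.centralizer (H : Set G) := by
    rw [Subgroup.mem_centralizer_iff]
    intro x hx
    have e : (⟨n - n, by omega⟩ : Fin (n + 1)) = 0 := by ext; simp
    have := key n le_rfl x (by rw [e, hc0]; exact hx)
    calc x * (a : G) = (a : G) * x * (a : G)⁻¹ * a := by rw [this]
      _ = (a : G) * x := by group
  have ha1 : (QuotientGroup.mk' C) a = 1 := by
    rw [QuotientGroup.mk'_apply, QuotientGroup.eq_one_iff, hC, Subgroup.mem_subgroupOf, Subgroup.mem_inf]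
    exact ⟨a.2, hac⟩
  rw [ha1, orderOf_one] at hq
  exact hp.one_lt.ne hq

end Cfsg.Agent.S1441
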