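import Cfsg.Statements.S1442
import Cfsg.Agent.Lib.OddLocal.PGroup

set_option autoImplicit false
open Cfsg

namespace Cfsg.Agent.S1442

open scoped commutatorElement
open Cfsg.Agent.Lib.OddLocal

/-- Let G be a finite group, H a nilpotent subgroup and A a subgroup normalizing H with the orders of A and H coprime. Put C = H ∩ C_G(A). If H ∩ C_G(C) ≤ C then A centralizes H. -/
theorem result {G : Type*} [Group G] [Finite G] (H A : Subgroup G) (hH : Group.IsNilpotent H) (hA : (A ≤ Subgroup.normalizer (H : Set G))) (hcop : (Nat.card A).Coprime (Nat.card H))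
    (hC : H ⊓ Subgroup.centralizer (((H ⊓ Subgroup.centralizer (A : Set G)) : Subgroup G) : Set G) ≤ (H ⊓ Subgroup.centralizer (A : Set G))) :
    A ≤ Subgroup.centralizer (H : Set G) := by
  -- a centralizes each term of the upper central series of H
  have key : ∀ k : ℕ, ∀ x : H, x ∈ Subgroup.upperCentralSeries H k → ∀ a ∈ A, a * (x : G) * a⁻¹ = x := by
    intro k
    induction k with
    | zero =>
      intro x hx a _
      rw [Subgroup.upperCentralSeries_zero, Subgroup.mem_bot] at hx
      subst hx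
      simp
    | succ k ih =>
      intro x hx a ha
      set y : G := a * (x : G) * a⁻¹ * (x : G)⁻¹ with hy
      have haH := Subgroup.mem_normalizer_iff''.mp (hA ha)
      have hyH : y ∈ H := by
        have h1 : a * (x : G) * a⁻¹ ∈ H := (haH _).mpr (by
          have h2 : a⁻¹ * (a * (x : G) * a⁻¹) * a = x := by group
          rw [h2]; exact x.2)
        exact H.mul_mem h1 (H.inv_mem x.2)
      -- y centralizes C
      have hyC : y ∈ Subgroup.centralizer ((H ⊓ Subgroup.centralizer (A : Set G) : Subgroup G) : Set G) := by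
        rw [Subgroup.mem_centralizer_iff]
        rintro c ⟨hcH, hcA⟩
        have hca : a * c = c * a := (Subgroup.mem_centralizer_iff.mp hcA a ha)
        have hca' : a⁻¹ * c = c * a⁻¹ := by
          calc a⁻¹ * c = a⁻¹ * (c * a) * a⁻¹ := by group
            _ = a⁻¹ * (a * c) * a⁻¹ := by rw [hca]
            _ = c * a⁻¹ := by group
        -- w = [c, x]
        have hcz : ((⟨c, hcH⟩ : H) * x * (⟨c, hcH⟩ : H)⁻¹ * x⁻¹) ∈ Subgroup.upperCentralSeries H k := by
          have h1 := (Subgroup.mem_upperCentralSeries_succ_iff.mp hx) (⟨c, hcH⟩ : H)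
          have h2 : ((⟨c, hcH⟩ : H) * x * (⟨c, hcH⟩ : H)⁻¹ * x⁻¹) = ⁅x, (⟨c, hcH⟩ : H)⁆⁻¹ := by
            simp [commutatorElement_def, mul_assoc]
          rw [h2]
          exact Subgroup.inv_mem _ h1
        set w : H := ((⟨c, hcH⟩ : H) * x * (⟨c, hcH⟩ : H)⁻¹ * x⁻¹) with hw
        have hwa : a * (w : G) = (w : G) * a := by
          have := ih w hcz a ha
          calc a * (w : G) = a * (w : G) * a⁻¹ * a := by group
            _ = _ := by rw [this]
        have hwa' : a⁻¹ * (w : G) = (w : G) * a⁻¹ := by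
          calc a⁻¹ * (w : G) = a⁻¹ * ((w : G) * a) * a⁻¹ := by group
            _ = a⁻¹ * (a * (w : G)) * a⁻¹ := by rw [hwa]
            _ = _ := by group
        have hwG : (w : G) = c * (x : G) * c⁻¹ * (x : G)⁻¹ := rfl
        have hcx : c * (x : G) * c⁻¹ = (w : G) * x := by rw [hwG]; group
        -- y commutes with w
        have hxw : ((x⁻¹ * w * x : H)) ∈ Subgroup.upperCentralSeries H k := by
          have : (x⁻¹ * w * x : H) = x⁻¹ * w * (x⁻¹)⁻¹ := by simp
          rw [this]
          exact (inferInstance : (Subgroup.upperCentralSeries H k).Normal).conj_mem _ hcz _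
        have hfixw' : a * ((x : G)⁻¹ * w * x) * a⁻¹ = (x : G)⁻¹ * w * x := ih _ hxw a ha
        have hyw : y * (w : G) = (w : G) * y := by
          have e1 : a⁻¹ * ((x : G)⁻¹ * w * x) * a = (x : G)⁻¹ * w * x := by
            calc a⁻¹ * ((x : G)⁻¹ * w * x) * a
                = a⁻¹ * (a * ((x : G)⁻¹ * w * x) * a⁻¹) * a := by rw [hfixw']
              _ = _ := by group
          calc y * (w : G) = a * x * (a⁻¹ * ((x : G)⁻¹ * w * x) * a) * a⁻¹ * (x : G)⁻¹ := by
                rw [hy]; group
            _ = a * x * ((x : G)⁻¹ * w * x) * a⁻¹ * (x : G)⁻¹ := by rw [e1]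
            _ = (a * w) * x * a⁻¹ * (x : G)⁻¹ := by group
            _ = ((w : G) * a) * x * a⁻¹ * (x : G)⁻¹ := by rw [hwa]
            _ = (w : G) * y := by rw [hy]; group
        have hcy : c * y * c⁻¹ = y := by
          calc c * y * c⁻¹ = c * a * x * a⁻¹ * (x : G)⁻¹ * c⁻¹ := by rw [hy]; group
            _ = (a * c) * x * a⁻¹ * (x : G)⁻¹ * c⁻¹ := by rw [hca]
            _ = a * (c * x * c⁻¹) * (c * a⁻¹) * (x : G)⁻¹ * c⁻¹ := by group
            _ = a * ((w : G) * x) * (a⁻¹ * c) * (x : G)⁻¹ * c⁻¹ := by rw [hcx, hca']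
            _ = (a * (w : G)) * x * a⁻¹ * (c * (x : G)⁻¹ * c⁻¹) := by group
            _ = ((w : G) * a) * x * a⁻¹ * (c * x * c⁻¹)⁻¹ := by rw [hwa]; group
            _ = ((w : G) * a) * x * a⁻¹ * ((w : G) * x)⁻¹ := by rw [hcx]
            _ = (w : G) * y * (w : G)⁻¹ := by rw [hy]; group
            _ = y := by rw [← hyw]; group
        calc c * y = c * y * c⁻¹ * c := by group
          _ = y * c := by rw [hcy]
      -- hence y is fixed by a
      have hyC2 : y ∈ H ⊓ Subgroup.centralizer (A : Set G) := hC ⟨hyH, hyC⟩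
      have hya : a * y * a⁻¹ = y := by
        have := Subgroup.mem_centralizer_iff.mp hyC2.2 a ha
        rw [this]; group
      exact conj_eq_of_commutator_fixed' hcop ha hyH hya
  obtain ⟨n, hn⟩ := Group.IsNilpotent.nilpotent H
  rw [Subgroup.le_centralizer_iff]
  intro x hx a ha
  have := key n ⟨x, hx⟩ (by rw [hn]; trivial) a ha
  calc a * x = a * x * a⁻¹ * a := by group
    _ = x * a := by rw [this]

end Cfsg.Agent.S1442
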