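import Cfsg.Statements.S1447
import Cfsg.Agent.Lib.OddLocal.Rank2B

set_option autoImplicit false
open Cfsg

namespace Cfsg.Agent.S1447

open Subgroup Cfsg.Agent.Lib.OddLocal Cfsg.Agent.Lib.Coprime Cfsg.Agent.Lib.Coprime.Meta

open scoped commutatorElement

/-- Let G be a finite group, p an odd prime, R a metacyclic p-subgroup and A a subgroup of order coprime to p normalizing R. Then [R, A] is abelian; R is generated by [R, A] and R ∩ C_G(A), which meet trivially; and if R is non-abelian and A does not centralize R, then [R, A] and R ∩ C_G(A) are nontrivial cyclic groups and [R, R] ≤ [R, A]. -/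
theorem result {G : Type*} [Group G] [Finite G] (p : ℕ) [Fact p.Prime] (hp : p ≠ 2) (R A : Subgroup G) (hR : IsPGroup p R) (hRm : Cfsg.IsMetacyclic R)
    (hA : (A ≤ Subgroup.normalizer (R : Set G))) (hcop : (Nat.card A).Coprime p) :
    IsMulCommutative ↥⁅R, A⁆ ∧ ⁅R, A⁆ ⊔ (R ⊓ Subgroup.centralizer (A : Set G)) = R ∧ ⁅R, A⁆ ⊓ (R ⊓ Subgroup.centralizer (A : Set G)) = ⊥ ∧
      (¬ IsMulCommutative R → ¬ A ≤ Subgroup.centralizer (R : Set G) →
        ⁅R, A⁆ ≠ ⊥ ∧ IsCyclic ↥⁅R, A⁆ ∧ (R ⊓ Subgroup.centralizer (A : Set G)) ≠ ⊥ ∧ IsCyclic ↥(R ⊓ Subgroup.centralizer (A : Set G)) ∧ ⁅R, R⁆ ≤ ⁅R, A⁆) := by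
  classical
  have hact : CoprimeAction A R := by
    refine ⟨hA, ?_, Or.inr ?_⟩
    · obtain ⟨n, hn⟩ := IsPGroup.iff_card.1 hR
      rw [hn]
      exact Nat.Coprime.pow_right _ hcop
    · haveI : Group.IsNilpotent R := hR.isNilpotent
      infer_instance
  have hle := hact.commutator_le_self
  set R₁ := ⁅R, A⁆ with hR₁
  have hact1 : CoprimeAction A R₁ := hact.mono hle hact.le_normalizer_commutator
  have hR1p : IsPGroup p R₁ := hR.to_le hle
  have hm1 : IsMetacyclic ↥R₁ := isMetacyclic_of_le hle hRm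
  have hidx : (powSub ↥R₁ p).index ≤ p ^ 2 := by
    have h := index_powSub_le hm1 (p := p) 1
    rwa [pow_one, mul_one] at h
  have hcc : ⁅R₁, A⁆ = R₁ := hact.commutator_commutator_eq
  have hab : IsMulCommutative R₁ :=
    comm_of_commutator_eq p hp R₁ A hR1p hact.le_normalizer_commutator hcop hcc hidx
  have hbot : R₁ ⊓ Subgroup.centralizer (A : Set G) = ⊥ := hact1.centralizer_eq_bot_of_commutator_eq hab hcc
  have hdisj : R₁ ⊓ (R ⊓ Subgroup.centralizer (A : Set G)) = ⊥ := by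
    rw [eq_bot_iff, ← hbot]
    exact fun x hx => ⟨hx.1, hx.2.2⟩
  have hsup : R₁ ⊔ (R ⊓ Subgroup.centralizer (A : Set G)) = R := hact.commutator_sup_centralizer
  refine ⟨hab, hsup, hdisj, fun hnc hnA => ?_⟩
  set C := R ⊓ Subgroup.centralizer (A : Set G) with hC
  have hCR : C ≤ R := inf_le_left
  have hR₁ne : R₁ ≠ ⊥ := by
    intro h
    apply hnA
    rw [hR₁, Subgroup.commutator_eq_bot_iff_le_centralizer] at h
    exact Subgroup.le_centralizer_iff.1 h
  have hCne : C ≠ ⊥ := by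
    intro h
    rw [h, sup_bot_eq] at hsup
    apply hnc
    rw [← hsup]
    exact hab
  have hn : (R₁.subgroupOf R).Normal := Subgroup.normal_subgroupOf_of_le_normalizer hact.le_normalizer_commutator'
  have hab' : IsMulCommutative (R₁.subgroupOf R) :=
    ⟨⟨fun a b => by
      apply Subtype.ext
      apply Subtype.ext
      have := hab.is_comm.comm ⟨a.1.1, a.2⟩ ⟨b.1.1, b.2⟩
      exact congrArg (Subtype.val : R₁ → G) this⟩⟩
  have hdisj' : R₁.subgroupOf R ⊓ C.subgroupOf R = ⊥ := by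
    rw [eq_bot_iff]
    rintro ⟨x, hxR⟩ ⟨h1, h2⟩
    have h1' : x ∈ R₁ := Subgroup.mem_subgroupOf.1 h1
    have h2' : x ∈ C := Subgroup.mem_subgroupOf.1 h2
    have : x ∈ R₁ ⊓ C := ⟨h1', h2'⟩
    rw [hdisj, Subgroup.mem_bot] at this
    exact Subtype.ext this
  have hne1 : R₁.subgroupOf R ≠ ⊥ := by
    intro h
    rw [Subgroup.subgroupOf_eq_bot] at h
    exact hR₁ne (h.eq_bot_of_le hle)
  have hne2 : C.subgroupOf R ≠ ⊥ := by
    intro h
    rw [Subgroup.subgroupOf_eq_bot] at h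
    exact hCne (h.eq_bot_of_le hCR)
  obtain ⟨hc1, hc2⟩ := metacyclic_decomp p hp hR hRm (R₁.subgroupOf R) (C.subgroupOf R) hab' hdisj' hne1 hne2
  have hc1' : IsCyclic R₁ := isCyclic_of_surjective (Subgroup.subgroupOfEquivOfLe hle).toMonoidHom
    (Subgroup.subgroupOfEquivOfLe hle).surjective
  have hc2' : IsCyclic C := isCyclic_of_surjective (Subgroup.subgroupOfEquivOfLe hCR).toMonoidHom
    (Subgroup.subgroupOfEquivOfLe hCR).surjective
  refine ⟨hR₁ne, hc1', hCne, hc2', ?_⟩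
  have hCcomm : ∀ a ∈ C, ∀ b ∈ C, a * b = b * a := by
    intro a ha b hb
    letI := IsCyclic.commGroup (α := C)
    have := mul_comm (⟨a, ha⟩ : C) ⟨b, hb⟩
    exact congrArg (Subtype.val : C → G) this
  have hNR := hact.le_normalizer_commutator'
  have hdec : ∀ x ∈ R, ∃ k ∈ R₁, ∃ y ∈ C, x = k * y := by
    intro x hx
    rw [← hsup] at hx
    exact (mem_sup_iff_of_le_normalizer (hCR.trans hNR) x).1 hx
  rw [Subgroup.commutator_le]
  intro x hx y hy
  obtain ⟨n, hn, c, hc, rfl⟩ := hdec x hx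
  obtain ⟨n', hn', c', hc', rfl⟩ := hdec y hy
  have h2 : c' * c⁻¹ = c⁻¹ * c' := by
    have := hCcomm c hc c' hc'
    rw [mul_inv_eq_iff_eq_mul, mul_assoc, ← this, ← mul_assoc, inv_mul_cancel, one_mul]
  have h3 : ⁅n * c, n' * c'⁆ = n * (c * n' * c⁻¹) * (c' * n⁻¹ * c'⁻¹) * n'⁻¹ := by
    rw [commutatorElement_def]
    calc n * c * (n' * c') * (n * c)⁻¹ * (n' * c')⁻¹ = n * c * n' * (c' * c⁻¹) * n⁻¹ * c'⁻¹ * n'⁻¹ := by group
      _ = n * c * n' * (c⁻¹ * c') * n⁻¹ * c'⁻¹ * n'⁻¹ := by rw [h2]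
      _ = _ := by group
  rw [h3]
  refine R₁.mul_mem (R₁.mul_mem (R₁.mul_mem hn ?_) ?_) (R₁.inv_mem hn')
  · exact (mem_normalizer_iff.1 (hNR (hCR hc)) n').1 hn'
  · exact (mem_normalizer_iff.1 (hNR (hCR hc')) n⁻¹).1 (R₁.inv_mem hn)

end Cfsg.Agent.S1447
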