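import Cfsg.Prelude.Def_OddOrderLocal
import Cfsg.Agent.Lib.OddLocal.PRank3

namespace Cfsg.Agent.S1452

open Cfsg.Agent.Lib.OddLocal Cfsg.Agent.Lib.Basic

/-- Let p be an odd prime and R a finite p-group containing an elementary abelian subgroup of order p ^ 3. If E is a normal elementary abelian subgroup of R of order p ^ 2, then E ≤ A for some normal subgroup A of R with C_R(A) = A that contains an elementary abelian subgroup of order p ^ 3. -/
theorem result {R : Type*} [Group R] [Finite R] (p : ℕ) [Fact p.Prime] (hp : p ≠ 2) (hR : IsPGroup p R) (hr : ¬ Cfsg.PRankLE p 2 R)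
    (E : Subgroup R) [E.Normal] (hE : Cfsg.IsElementaryAbelian p E) (hE2 : Nat.card E = p ^ 2) :
    ∃ A : Subgroup R, E ≤ A ∧ A.Normal ∧ Subgroup.centralizer (A : Set R) = A ∧ ¬ Cfsg.PRankLE p 2 A := by
  classical
  obtain ⟨F, hFn, hEF, hFe, hFc⟩ := exists_normal_elem_p3 p hp hR hr E hE hE2
  haveI : Group.IsNilpotent R := hR.isNilpotent
  obtain ⟨A, hFA, hAmax⟩ := Set.Finite.exists_le_maximal (Set.toFinite {M : Subgroup R | M.Normal ∧ IsMulCommutative M})
    (a := F) ⟨hFn, hFe.1⟩
  obtain ⟨hAn, hAc⟩ := hAmax.prop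
  refine ⟨A, hEF.trans hFA, hAn, ?_, ?_⟩
  · haveI := hAn
    haveI := hAc
    apply centralizer_eq_of_maximal_abelian_normal A
    intro M hMn hMc hAM
    exact le_antisymm (hAmax.le_of_ge ⟨hMn, hMc⟩ hAM) hAM
  · intro h
    have h1 := h (F.subgroupOf A) (by
      haveI := hFe.1
      exact ⟨⟨fun a b => Subtype.ext (Subtype.ext (by
        have := (hFe.1).is_comm.comm (⟨a.1.1, a.2⟩ : F) (⟨b.1.1, b.2⟩ : F)
        have h3 := congrArg Subtype.val this
        exact h3))⟩⟩) (by
      intro a ha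
      apply Subtype.ext
      have := hFe.2 a.1 ha
      simpa using this)
    have h2 : Nat.card ↥(F.subgroupOf A) = p ^ 3 := by
      rw [Nat.card_congr (Subgroup.subgroupOfEquivOfLe hFA).toEquiv, hFc]
    rw [h2] at h1
    have hp1 : 1 < p := (Fact.out : p.Prime).one_lt
    exact absurd (Nat.pow_le_pow_iff_right hp1 |>.1 h1) (by norm_num)

end Cfsg.Agent.S1452
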