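import Cfsg.Statements.S1459
import Cfsg.Agent.Lib.OddLocal.HallHigman
import Cfsg.Agent.Lib.Coprime.Abelian
import Cfsg.Agent.Lib.Basic.Frattini

set_option autoImplicit false
open Cfsg

namespace Cfsg.Agent.S1459

open Cfsg.Agent.Lib.OddLocal
open scoped commutatorElement

variable {G : Type*} [Group G]

theorem le_of_le_sup_commutator [Finite G] [Group.IsSolvable G] {H N : Subgroup G} [N.Normal]
    (h : H ≤ ⁅H, H⁆ ⊔ N) : H ≤ N := by
  set π := QuotientGroup.mk' N with hπ
  have h1 : H.map π ≤ ⁅H.map π, H.map π⁆ := by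
    have h2 := Subgroup.map_mono (f := π) h
    rw [Subgroup.map_sup, Subgroup.map_commutator] at h2
    have h3 : N.map π = ⊥ := by
      rw [Subgroup.map_eq_bot_iff, hπ, QuotientGroup.ker_mk']
    rwa [h3, sup_bot_eq] at h2
  have h2 : H.map π = ⊥ := by
    by_contra hne
    have := Group.IsSolvable.commutator_lt_of_ne_bot hne
    exact absurd h1 (not_le_of_gt this)
  rw [Subgroup.map_eq_bot_iff, hπ, QuotientGroup.ker_mk'] at h2
  exact h2

theorem exists_zpowers_sup_eq_top {Q : Type*} [Group Q] (P : Subgroup Q) [P.Normal]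
    (hc : IsCyclic (Q ⧸ P)) : ∃ x : Q, Subgroup.zpowers x ⊔ P = ⊤ := by
  obtain ⟨g, hg⟩ := hc
  obtain ⟨x, rfl⟩ := QuotientGroup.mk_surjective g
  refine ⟨x, eq_top_iff.mpr ?_⟩
  intro y _
  obtain ⟨k, hk⟩ := hg (y : Q ⧸ P)
  have hk' : ((x ^ k : Q) : Q ⧸ P) = (y : Q ⧸ P) := by
    simpa using hk
  have h1 : (x ^ k)⁻¹ * y ∈ P := QuotientGroup.eq.mp hk'
  have h2 : y = x ^ k * ((x ^ k)⁻¹ * y) := by group
  rw [h2]
  exact Subgroup.mul_mem_sup (Subgroup.zpow_mem_zpowers x k) h1

/-- A finite `p`-group whose commutator quotient is cyclic is cyclic. -/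
theorem comm_of_cyclic_quotient {Q : Type*} [Group Q] [Finite Q] [Group.IsNilpotent Q]
    (hc : IsCyclic (Q ⧸ commutator Q)) : commutator Q = ⊥ := by
  obtain ⟨x, hx⟩ := exists_zpowers_sup_eq_top (commutator Q) hc
  have h1 := Cfsg.Agent.Lib.Basic.eq_top_of_sup_eq_top_of_le_frattini
    (Cfsg.Agent.Lib.Basic.commutator_le_frattini_of_isNilpotent) hx
  rw [commutator_def, Subgroup.commutator_eq_bot_iff_le_centralizer]
  intro y _
  rw [Subgroup.mem_centralizer_iff]
  intro z _
  have hy : y ∈ Subgroup.zpowers x := h1 ▸ Subgroup.mem_top y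
  have hz : z ∈ Subgroup.zpowers x := h1 ▸ Subgroup.mem_top z
  obtain ⟨a, rfl⟩ := hy
  obtain ⟨b, rfl⟩ := hz
  simp only
  rw [← zpow_add, ← zpow_add, add_comm]

theorem part_a [Finite G] [Group.IsSolvable G] (H K : Subgroup G) (hHn : H.Normal)
    (hcop : (Nat.card H).Coprime H.index) (hc : Subgroup.IsComplement' H K) (hle : H ≤ commutator G) :
    H = ⁅H, K⁆ ∧ H ⊓ Subgroup.centralizer (K : Set G) ≤ ⁅H, H⁆ := by
  have hidx : H.index = Nat.card K := hc.symm.index_eq_card
  have hCA : Cfsg.Agent.Lib.Coprime.CoprimeAction K H := by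
    refine ⟨?_, ?_, Or.inl inferInstance⟩
    · intro a _
      exact Subgroup.normalizer_eq_top_iff.mpr hHn ▸ Subgroup.mem_top a
    · rw [← hidx]; exact hcop.symm
  have hsup : H ⊔ K = ⊤ := hc.sup_eq_top
  have hNn : (⁅H, K⁆ : Subgroup G).Normal := by
    rw [← Subgroup.normalizer_eq_top_iff, eq_top_iff, ← hsup]
    exact sup_le hCA.le_normalizer_commutator' hCA.le_normalizer_commutator
  have hle1 : ⁅H, K⁆ ≤ H := hCA.commutator_le_self
  have hinf : H ⊓ K = ⊥ := hc.disjoint.eq_bot
  have hH' : (⁅H, H⁆ : Subgroup G).Normal := inferInstance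
  have h1 : commutator G ≤ (⁅H, H⁆ ⊔ ⁅H, K⁆) ⊔ ⁅K, K⁆ := by
    have e1 : commutator G = ⁅H ⊔ K, H ⊔ K⁆ := by
      rw [hsup]; rfl
    rw [e1]
    have h2 := commutator_sup_left_le H K (H ⊔ K) hHn (by
      rw [hsup]; exact inferInstance)
    refine h2.trans (sup_le ?_ ?_)
    · rw [Subgroup.commutator_comm]
      refine (commutator_sup_left_le H K H hHn hH').trans (sup_le ?_ ?_)
      · exact le_sup_of_le_left le_sup_left
      · rw [Subgroup.commutator_comm]
        exact le_sup_of_le_left le_sup_right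
    · rw [Subgroup.commutator_comm]
      refine (commutator_sup_left_le H K K hHn hNn).trans (sup_le ?_ ?_)
      · exact le_sup_of_le_left le_sup_right
      · exact le_sup_right
  have h2 : H ≤ ⁅H, H⁆ ⊔ ⁅H, K⁆ := by
    intro x hx
    have hMn : (⁅H, H⁆ ⊔ ⁅H, K⁆ : Subgroup G).Normal := Subgroup.sup_normal _ _
    obtain ⟨m, hm, k, hk, rfl⟩ := Subgroup.mem_sup_of_normal_left.mp (h1 (hle hx))
    have hmH : m ∈ H := (sup_le (Subgroup.commutator_le_self H) hle1) hm
    have hkK : k ∈ K := Subgroup.commutator_le_self K hk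
    have hkH : k ∈ H := by
      have := H.mul_mem (H.inv_mem hmH) hx
      simpa using this
    have hk1 : k = 1 := by
      have : k ∈ H ⊓ K := Subgroup.mem_inf.mpr ⟨hkH, hkK⟩
      rwa [hinf, Subgroup.mem_bot] at this
    rw [hk1, mul_one]
    exact hm
  have h3 : H = ⁅H, K⁆ := le_antisymm (le_of_le_sup_commutator h2) hle1
  refine ⟨h3, ?_⟩
  exact hCA.centralizer_le_of_commutator_eq (Subgroup.commutator_le_self H)
    (fun a _ => Subgroup.normalizer_eq_top_iff.mpr hH' ▸ Subgroup.mem_top a)
    (fun a _ => Subgroup.normalizer_eq_top_iff.mpr hH' ▸ Subgroup.mem_top a) le_rfl h3.symm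

theorem part_b [Finite G] [Group.IsSolvable G] (hnil : Group.IsNilpotent ↥(commutator G))
    (hq : (commutator G).index.Prime) :
    (Nat.card ↥(commutator G)).Coprime (commutator G).index := by
  set q := (commutator G).index with hqdef
  haveI : Fact q.Prime := ⟨hq⟩
  set O := pPrimeCore q G with hO
  set π := QuotientGroup.mk' O with hπ
  have hsurj : Function.Surjective π := QuotientGroup.mk'_surjective O
  have hPe : (commutator G).map π = commutator (G ⧸ O) := by
    rw [commutator_def, commutator_def, Subgroup.map_commutator,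
      Subgroup.map_top_of_surjective _ hsurj]
  have hObot : pPrimeCore q (G ⧸ O) = ⊥ := pPrimeCore_quotient_eq_bot q
  have hPle : commutator (G ⧸ O) ≤ pCore q (G ⧸ O) := by
    rw [← fittingSubgroup_eq_pCore hObot]
    apply Cfsg.Agent.Lib.Basic.le_fittingSubgroup_of_nilpotent inferInstance
    rw [← hPe]
    haveI := hnil
    have : Function.Surjective (π.subgroupMap (commutator G)) := π.subgroupMap_surjective _
    exact Group.nilpotent_of_surjective _ this
  have hpcop : (commutator (G ⧸ O)).index ∣ q := by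
    rw [← hPe]
    exact Subgroup.index_map_dvd _ hsurj
  have hQp : IsPGroup q (G ⧸ O) := by
    rw [IsPGroup.iff_card]
    have h1 : IsPGroup q (commutator (G ⧸ O)) := (Cfsg.Agent.Lib.Basic.pCore_isPGroup q).to_le hPle
    obtain ⟨a, ha⟩ := h1.exists_card_eq
    rcases (Nat.dvd_prime hq).mp hpcop with h2 | h2
    · refine ⟨a, ?_⟩
      rw [← Subgroup.card_mul_index (commutator (G ⧸ O)), ha, h2, mul_one]
    · refine ⟨a + 1, ?_⟩
      rw [← Subgroup.card_mul_index (commutator (G ⧸ O)), ha, h2, pow_succ]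
  haveI hQnil : Group.IsNilpotent (G ⧸ O) := hQp.isNilpotent
  have hcyc : IsCyclic ((G ⧸ O) ⧸ commutator (G ⧸ O)) := by
    rcases (Nat.dvd_prime hq).mp hpcop with h2 | h2
    · have : Nat.card ((G ⧸ O) ⧸ commutator (G ⧸ O)) = 1 := h2
      haveI := (Nat.card_eq_one_iff_unique.mp this).1
      infer_instance
    · have : Nat.card ((G ⧸ O) ⧸ commutator (G ⧸ O)) = q := h2
      exact isCyclic_of_prime_card this
  have hbot := comm_of_cyclic_quotient hcyc
  rw [← hPe, Subgroup.map_eq_bot_iff, hπ, QuotientGroup.ker_mk'] at hbot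
  exact Nat.Coprime.coprime_dvd_left (Subgroup.card_dvd_of_le hbot)
    (Cfsg.Agent.Lib.Basic.pPrimeCore_coprime q)

/-- Let G be a finite solvable group. (a) If H is a normal subgroup of order coprime to its index, K is a complement to H, and H ≤ G', then H = [H, K] and H ∩ C_G(K) ≤ [H, H]. (b) If G' is nilpotent and has prime index in G, then the order of G' is coprime to its index and G' = [G, K] (the subgroup generated by commutators of elements of G with elements of K) for every complement K of G'. -/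
theorem result {G : Type*} [Group G] [Finite G] [Group.IsSolvable G] :
    (∀ (H K : Subgroup G), H.Normal → (Nat.card H).Coprime H.index → Subgroup.IsComplement' H K → H ≤ commutator G →
        H = ⁅H, K⁆ ∧ H ⊓ Subgroup.centralizer (K : Set G) ≤ ⁅H, H⁆) ∧
      (Group.IsNilpotent ↥(commutator G) → (commutator G).index.Prime →
        (Nat.card ↥(commutator G)).Coprime (commutator G).index ∧
        ∀ K : Subgroup G, Subgroup.IsComplement' (commutator G) K → commutator G = ⁅(⊤ : Subgroup G), K⁆) := by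
  refine ⟨fun H K hn hc hK hle => part_a H K hn hc hK hle, fun hnil hq => ?_⟩
  have h1 := part_b hnil hq
  refine ⟨h1, fun K hK => ?_⟩
  apply le_antisymm
  · have h2 := (part_a (commutator G) K inferInstance h1 hK le_rfl).1
    conv_lhs => rw [h2]
    exact Subgroup.commutator_mono le_top le_rfl
  · rw [commutator_def]
    exact Subgroup.commutator_mono le_rfl le_top

end Cfsg.Agent.S1459
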