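import Cfsg.Statements.S1462
import Cfsg.Agent.Lib.OddLocal.HallHigman
import Cfsg.Agent.S1443

set_option autoImplicit false
open Cfsg

namespace Cfsg.Agent.S1462

open Cfsg.Agent.Lib.OddLocal
open scoped commutatorElement

/-- Let G be a finite solvable group, p an odd prime with G = O_{p',p,p'}(G), E an elementary abelian p-subgroup contained in no larger elementary abelian p-subgroup of G, and L a subgroup of order coprime to p normalized by E. Then L ≤ O_{p'}(G). -/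
theorem result {G : Type*} [Group G] [Finite G] [Group.IsSolvable G] (p : ℕ) [Fact p.Prime] (hp : p ≠ 2) (hpl : Cfsg.PLengthLE p 1 G) (E L : Subgroup G) (hE : Cfsg.IsElementaryAbelian p E)
    (hEmax : ∀ B : Subgroup G, Cfsg.IsElementaryAbelian p B → E ≤ B → B = E) (hL : (Nat.card L).Coprime p) (hEL : E ≤ Subgroup.normalizer (L : Set G)) :
    L ≤ Cfsg.pPrimeCore p G := by
  have hpp : p.Prime := Fact.out
  set O := pPrimeCore p G with hO
  set π := QuotientGroup.mk' O with hπ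
  have hsurj : Function.Surjective π := QuotientGroup.mk'_surjective O
  have hkerπ : ∀ x, π x = 1 ↔ x ∈ O := by
    intro x
    rw [hπ, QuotientGroup.mk'_apply, QuotientGroup.eq_one_iff]
  set Pb := pCore p (G ⧸ O) with hPb
  have hPbn : Pb.Normal := Cfsg.Agent.Lib.Basic.pCore_normal p
  have hObot : pPrimeCore p (G ⧸ O) = ⊥ := pPrimeCore_quotient_eq_bot p
  have hCP : Subgroup.centralizer (Pb : Set (G ⧸ O)) ≤ Pb := centralizer_pCore_le hObot
  have hEPG : IsPGroup p E := fun a => ⟨1, by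
    apply Subtype.ext
    simpa using hE.2 a a.2⟩
  have hidx := index_pPrimePCore_coprime hpl
  have hET : E ≤ pPrimePCore p G := isPGroup_le_of_index_coprime hidx hEPG
  have hEb : E.map π ≤ Pb := Subgroup.map_le_iff_le_comap.mpr hET
  have hcL : (Nat.card (L.map π)).Coprime p :=
    Nat.Coprime.coprime_dvd_left (Subgroup.card_dvd_of_surjective (π.subgroupMap L) (π.subgroupMap_surjective L)) hL
  have hPbG : IsPGroup p Pb := Cfsg.Agent.Lib.Basic.pCore_isPGroup p
  have hdisj : L.map π ⊓ Pb = ⊥ := by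
    apply (Subgroup.disjoint_of_coprime_natCard _).eq_bot
    obtain ⟨k, hk⟩ := hPbG.exists_card_eq
    rw [hk]
    exact Nat.Coprime.pow_right _ hcL
  have hOR : ∀ R : Sylow p G, (R : Subgroup G) ⊓ O = ⊥ := by
    intro R
    apply (Subgroup.disjoint_of_coprime_natCard _).eq_bot
    obtain ⟨k, hk⟩ := R.isPGroup'.exists_card_eq
    rw [hk]
    exact Nat.Coprime.pow_left _ (Cfsg.Agent.Lib.Basic.pPrimeCore_coprime p).symm
  -- L̄ centralizes Ē
  have hLE : ∀ l ∈ L, ∀ e ∈ E, π l * π e = π e * π l := by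
    intro l hl e he
    have h1 : π e * π l * (π e)⁻¹ * (π l)⁻¹ ∈ L.map π := by
      refine ⟨e * l * e⁻¹ * l⁻¹, L.mul_mem ((Subgroup.mem_normalizer_iff.mp (hEL he) l).mp hl) (L.inv_mem hl), ?_⟩
      simp [map_mul, map_inv]
    have h2 : π e * π l * (π e)⁻¹ * (π l)⁻¹ ∈ Pb := by
      have h3 := hPbn.conj_mem _ (Pb.inv_mem (hEb ⟨e, he, rfl⟩)) (π l)
      have e3 : π e * π l * (π e)⁻¹ * (π l)⁻¹ = π e * (π l * (π e)⁻¹ * (π l)⁻¹) := by group
      rw [e3]
      exact Pb.mul_mem (hEb ⟨e, he, rfl⟩) h3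
    have h3 : π e * π l * (π e)⁻¹ * (π l)⁻¹ ∈ L.map π ⊓ Pb := Subgroup.mem_inf.mpr ⟨h1, h2⟩
    rw [hdisj, Subgroup.mem_bot, mul_inv_eq_one, mul_inv_eq_iff_eq_mul] at h3
    exact h3.symm
  -- lifting
  have hlift : ∀ xb ∈ Pb ⊓ Subgroup.centralizer ((E.map π : Subgroup (G ⧸ O)) : Set (G ⧸ O)),
      orderOf xb = p → xb ∈ E.map π := by
    intro xb hxb hord
    obtain ⟨R, hR⟩ := hEPG.exists_le_sylow
    have hsup := sup_pPrimeCore_eq_pPrimePCore hpl R
    obtain ⟨x0, rfl⟩ := hsurj xb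
    have hx0 : x0 ∈ pPrimePCore p G := (Subgroup.mem_inf.mp hxb).1
    rw [← hsup] at hx0
    obtain ⟨x, hx, o, ho, rfl⟩ := Subgroup.mem_sup_of_normal_right.mp hx0
    have hπx : π (x * o) = π x := by
      rw [map_mul, (hkerπ o).mpr ho, mul_one]
    rw [hπx] at hord hxb ⊢
    have hxc := (Subgroup.mem_inf.mp hxb).2
    have h1 : ∀ e ∈ E, x * e = e * x := by
      intro e he
      have hc : π e * π x = π x * π e := Subgroup.mem_centralizer_iff.mp hxc _ ⟨e, he, rfl⟩
      have h2 : x * e * x⁻¹ * e⁻¹ ∈ O := by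
        rw [← hkerπ, map_mul, map_mul, map_mul, map_inv, map_inv, ← hc]
        group
      have h3 : x * e * x⁻¹ * e⁻¹ ∈ (R : Subgroup G) ⊓ O :=
        Subgroup.mem_inf.mpr ⟨R.toSubgroup.mul_mem (R.toSubgroup.mul_mem (R.toSubgroup.mul_mem hx (hR he)) (R.toSubgroup.inv_mem hx)) (R.toSubgroup.inv_mem (hR he)), h2⟩
      rw [hOR R, Subgroup.mem_bot, mul_inv_eq_one, mul_inv_eq_iff_eq_mul] at h3
      exact h3
    have h2 : x ^ p = 1 := by
      have h3 : x ^ p ∈ (R : Subgroup G) ⊓ O := by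
        refine Subgroup.mem_inf.mpr ⟨R.toSubgroup.pow_mem hx p, ?_⟩
        rw [← hkerπ, map_pow]
        have h4 := pow_orderOf_eq_one (π x)
        rwa [hord] at h4
      rwa [hOR R, Subgroup.mem_bot] at h3
    have hB := isElementaryAbelian_sup_zpowers hE h2 h1
    have hBE := hEmax _ hB le_sup_left
    have hxE : x ∈ E := by
      rw [← hBE]
      exact (le_sup_right : Subgroup.zpowers x ≤ E ⊔ Subgroup.zpowers x) (Subgroup.mem_zpowers x)
    exact ⟨x, hxE, rfl⟩
  have hEe : Cfsg.IsElementaryAbelian p (E.map π) := by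
    refine ⟨⟨⟨?_⟩⟩, ?_⟩
    · rintro ⟨_, a, ha, rfl⟩ ⟨_, b, hb, rfl⟩
      apply Subtype.ext
      have : a * b = b * a := congrArg Subtype.val (hE.1.is_comm.comm ⟨a, ha⟩ ⟨b, hb⟩)
      simp only [Subgroup.coe_mul]
      rw [← map_mul, ← map_mul, this]
    · rintro _ ⟨a, ha, rfl⟩
      rw [← map_pow, hE.2 a ha, map_one]
  have hkey : L.map π ≤ Subgroup.centralizer (Pb : Set (G ⧸ O)) :=
    Cfsg.Agent.S1443.result p hp Pb (E.map π) (L.map π) hPbG hEb hEe
      (fun a _ => Subgroup.normalizer_eq_top_iff.mpr hPbn ▸ Subgroup.mem_top a) hcL (by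
        intro x hx hord
        have hxE := hlift x hx hord
        rintro _ ⟨l, hl, rfl⟩
        rw [Subgroup.mem_centralizer_iff]
        intro y hy
        rw [Set.mem_singleton_iff] at hy
        subst hy
        obtain ⟨e, he, rfl⟩ := hxE
        exact (hLE l hl e he).symm)
  intro l hl
  have h1 : π l ∈ L.map π ⊓ Pb := Subgroup.mem_inf.mpr ⟨⟨l, hl, rfl⟩, hCP (hkey ⟨l, hl, rfl⟩)⟩
  rw [hdisj, Subgroup.mem_bot] at h1
  exact (hkerπ l).mp h1

end Cfsg.Agent.S1462
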