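import Cfsg.Statements.S1464
import Cfsg.Agent.Lib.OddLocal.PStable

set_option autoImplicit false
open Cfsg

namespace Cfsg.Agent.S1464

open scoped commutatorElement

/-- Let p be an odd prime and G a solvable group of odd order, P a p-subgroup with O_{p'}(G)P normal in G, and A a p-subgroup of N_G(P) with [[P, A], A] = 1. Then the image of A in the quotient N_G(P)/C_G(P) is contained in the p-core of that quotient. -/
theorem result {G : Type*} [Group G] [Finite G] [Group.IsSolvable G] (hodd : Odd (Nat.card G)) (p : ℕ) [Fact p.Prime] (hp : p ≠ 2) (P A : Subgroup G) (hP : IsPGroup p P) (hPn : (Cfsg.pPrimeCore p G ⊔ P).Normal)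
    (hA : IsPGroup p A) (hAN : A ≤ Subgroup.normalizer (P : Set G)) (hquad : ⁅⁅P, A⁆, A⁆ = ⊥) :
    (A.subgroupOf (Subgroup.normalizer (P : Set G))).map
        (QuotientGroup.mk' ((Subgroup.centralizer (P : Set G)).subgroupOf (Subgroup.normalizer (P : Set G))))
      ≤ Cfsg.pCore p _ := by
  classical
  let N := Subgroup.normalizer (P : Set G)
  have hNodd : Odd (Nat.card N) := Odd.of_dvd_nat hodd (Subgroup.card_subgroup_dvd_card N)
  haveI hPn' : (P.subgroupOf N).Normal := Subgroup.normal_in_normalizer
  have hP' : IsPGroup p (P.subgroupOf N) := by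
    intro g
    obtain ⟨k, hk⟩ := hP ⟨g.1.1, g.2⟩
    refine ⟨k, ?_⟩
    apply Subtype.ext
    apply Subtype.ext
    have h := congrArg Subtype.val hk
    exact h
  have hA' : IsPGroup p (A.subgroupOf N) := by
    intro g
    obtain ⟨k, hk⟩ := hA ⟨g.1.1, g.2⟩
    refine ⟨k, ?_⟩
    apply Subtype.ext
    apply Subtype.ext
    have h := congrArg Subtype.val hk
    exact h
  have hq : ∀ a ∈ A.subgroupOf N, ∀ w ∈ P.subgroupOf N, Commute ⁅w, a⁆ a := by
    intro a ha w hw
    have h1 : ⁅(w : G), (a : G)⁆ ∈ ⁅P, A⁆ := Subgroup.commutator_mem_commutator hw ha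
    have h2 : ⁅⁅(w : G), (a : G)⁆, (a : G)⁆ ∈ ⁅⁅P, A⁆, A⁆ := Subgroup.commutator_mem_commutator h1 ha
    rw [hquad, Subgroup.mem_bot] at h2
    apply Subtype.ext
    exact commutatorElement_eq_one_iff_commute.mp h2
  exact Cfsg.Agent.Lib.OddLocal.pstable_normal hp hNodd (P.subgroupOf N) hP'
    ((Subgroup.centralizer (P : Set G)).subgroupOf N)
    (by
      intro g hg
      rw [Subgroup.mem_subgroupOf, Subgroup.mem_centralizer_iff]
      intro w hw
      have hwN : w ∈ N := by
        rw [Subgroup.mem_normalizer_iff]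
        intro h
        constructor
        · intro hh
          have := Subgroup.mul_mem _ (Subgroup.mul_mem _ hw hh) (Subgroup.inv_mem _ hw)
          exact this
        · intro hh
          have h2 : h = w⁻¹ * (w * h * w⁻¹) * w := by group
          rw [h2]
          exact Subgroup.mul_mem _ (Subgroup.mul_mem _ (Subgroup.inv_mem _ hw) hh) hw
      have := hg ⟨w, hwN⟩ hw
      exact (congrArg Subtype.val this).symm)
    (A.subgroupOf N) hq hA'

end Cfsg.Agent.S1464
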