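import Cfsg.Statements.S1466
import Cfsg.Agent.Lib.OddLocal.Puig

set_option autoImplicit false
open Cfsg

namespace Cfsg.Agent.S1466

open Cfsg.Agent.Lib.OddLocal

/-- Let p be a prime and R a nontrivial finite p-group. Then for every i > 0, Z(R) ≤ C_R(L_i(R)) ≤ L_i(R); likewise Z(R) ≤ C_R(L_*(R)) ≤ L_*(R) and Z(R) ≤ C_R(L(R)) ≤ L(R); and L(R) ≠ 1, L_*(R) ≠ 1. -/
theorem result {R : Type*} [Group R] [Finite R] (p : ℕ) [Fact p.Prime] (hR : IsPGroup p R) [Nontrivial R] :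
    (∀ i : ℕ, 0 < i → Subgroup.center R ≤ Subgroup.centralizer ((Cfsg.puigSeq R i : Subgroup R) : Set R) ∧
        Subgroup.centralizer ((Cfsg.puigSeq R i : Subgroup R) : Set R) ≤ Cfsg.puigSeq R i) ∧
      (Subgroup.center R ≤ Subgroup.centralizer ((Cfsg.puigLower R : Subgroup R) : Set R) ∧ Subgroup.centralizer ((Cfsg.puigLower R : Subgroup R) : Set R) ≤ Cfsg.puigLower R) ∧
      (Subgroup.center R ≤ Subgroup.centralizer ((Cfsg.puigSubgroup R : Subgroup R) : Set R) ∧ Subgroup.centralizer ((Cfsg.puigSubgroup R : Subgroup R) : Set R) ≤ Cfsg.puigSubgroup R) ∧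
      Cfsg.puigSubgroup R ≠ ⊥ ∧ Cfsg.puigLower R ≠ ⊥ := by
  have hZ : ∀ Y : Subgroup R, Subgroup.center R ≤ Subgroup.centralizer (Y : Set R) := by
    intro Y z hz
    rw [Subgroup.mem_centralizer_iff]
    intro y _
    exact (Subgroup.mem_center_iff.mp hz y)
  obtain ⟨k, hk⟩ := puigSeq_stabilizes (G := R)
  have h1 : Subgroup.centralizer ((Cfsg.puigLower R : Subgroup R) : Set R) ≤ Cfsg.puigLower R := by
    rw [← (hk (k + 1) (Nat.le_succ k)).1]
    exact centralizer_puigSeq_le p hR _ (by omega)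
  have h2 : Subgroup.centralizer ((Cfsg.puigSubgroup R : Subgroup R) : Set R) ≤ Cfsg.puigSubgroup R := by
    rw [← (hk k le_rfl).2]
    exact centralizer_puigSeq_le p hR _ (by omega)
  have hne : ∀ Y : Subgroup R, Subgroup.centralizer (Y : Set R) ≤ Y → Y ≠ ⊥ := by
    intro Y hY hbot
    have h3 := (hZ Y).trans hY
    rw [hbot] at h3
    obtain ⟨z, hz⟩ := Subgroup.ne_bot_iff_exists_ne_one.mp (ne_of_gt hR.bot_lt_center)
    apply hz
    exact Subtype.ext (Subgroup.mem_bot.mp (h3 z.2))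
  exact ⟨fun i hi => ⟨hZ _, centralizer_puigSeq_le p hR i hi⟩, ⟨hZ _, h1⟩, ⟨hZ _, h2⟩, hne _ h2, hne _ h1⟩

end Cfsg.Agent.S1466
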