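import Cfsg.Statements.S1469
import Cfsg.Agent.Lib.OddLocal.PuigThm

set_option autoImplicit false
open Cfsg

namespace Cfsg.Agent.S1469

open Cfsg.Agent.Lib.OddLocal

/-- Let p be an odd prime, G a solvable group of odd order and S a Sylow p-subgroup, and let Z be the centre of the Puig subgroup L(S), viewed inside G. Then G is generated by O_{p'}(G) and N_G(Z); and if O_{p'}(G) = 1 then Z is normal in G. -/
theorem result {G : Type*} [Group G] [Finite G] [Group.IsSolvable G] (hodd : Odd (Nat.card G)) (p : ℕ) [Fact p.Prime] (hp : p ≠ 2) (S : Sylow p G) :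
    Cfsg.pPrimeCore p G ⊔ Subgroup.normalizer ((((Subgroup.center ↥(Cfsg.puigSubgroup ↥(S : Subgroup G))).map (Cfsg.puigSubgroup ↥(S : Subgroup G)).subtype).map (S : Subgroup G).subtype : Subgroup G) : Set G) = ⊤ ∧
      (Cfsg.pPrimeCore p G = ⊥ → (((Subgroup.center ↥(Cfsg.puigSubgroup ↥(S : Subgroup G))).map (Cfsg.puigSubgroup ↥(S : Subgroup G)).subtype).map (S : Subgroup G).subtype).Normal) :=
  ⟨(reduce_mod_core centerPuig_isoInv
      (fun G _ _ _ hodd hO S => puig_core hp _ G rfl hodd hO S) hodd S).2,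
    fun hO => puig_core hp _ G rfl hodd hO S⟩

end Cfsg.Agent.S1469
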