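import Cfsg.Statements.S1475
import Cfsg.Agent.Lib.OddLocal.Fpf
import Cfsg.Agent.Lib.OddLocal.HallHigman
import Cfsg.Agent.Lib.PGroups.Parts
import Cfsg.Agent.Lib.Basic.MinNormal

set_option autoImplicit false
open Cfsg

namespace Cfsg.Agent.S1475

open Cfsg.Agent.Lib.OddLocal Cfsg.Agent.Lib.Basic Cfsg.Agent.Lib.PGroups

variable {G : Type*} [Group G]

theorem eppo_commute (h : ∀ g : G, IsPrimePow (orderOf g) ∨ g = 1) {x y : G} {p q : ℕ} (hp : p.Prime)
    (hq : q.Prime) (hne : p ≠ q) (hx : ∃ k : ℕ, orderOf x = p ^ k) (hy : ∃ k : ℕ, orderOf y = q ^ k)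
    (hc : x * y = y * x) : x = 1 ∨ y = 1 := by
  by_contra hcon
  push Not at hcon
  obtain ⟨hx1, hy1⟩ := hcon
  obtain ⟨k, hk⟩ := hx
  obtain ⟨l, hl⟩ := hy
  have hk0 : k ≠ 0 := by
    rintro rfl
    rw [pow_zero, orderOf_eq_one_iff] at hk
    exact hx1 hk
  have hl0 : l ≠ 0 := by
    rintro rfl
    rw [pow_zero, orderOf_eq_one_iff] at hl
    exact hy1 hl
  have hcop : (orderOf x).Coprime (orderOf y) := by
    rw [hk, hl]
    exact Nat.Coprime.pow _ _ ((Nat.coprime_primes hp hq).mpr hne)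
  have hord : orderOf (x * y) = p ^ k * q ^ l := by
    have hcomm : Commute x y := hc
    rw [hcomm.orderOf_mul_eq_mul_orderOf_of_coprime hcop, hk, hl]
  have hdp : p ∣ orderOf (x * y) := by
    rw [hord]; exact Dvd.dvd.mul_right (dvd_pow_self p hk0) _
  have hdq : q ∣ orderOf (x * y) := by
    rw [hord]; exact Dvd.dvd.mul_left (dvd_pow_self q hl0) _
  rcases h (x * y) with h1 | h1
  · obtain ⟨r, ⟨hr, hrd⟩, hu⟩ := isPrimePow_iff_unique_prime_dvd.mp h1
    have e1 := hu p ⟨hp, hdp⟩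
    have e2 := hu q ⟨hq, hdq⟩
    exact hne (e1.trans e2.symm)
  · rw [h1, orderOf_one, Nat.dvd_one] at hdp
    exact hp.one_lt.ne' hdp

/-- Let G be a finite solvable group such that the order of every element is a prime power (1 included). Then at most two distinct primes divide the order of G. -/
theorem result {G : Type*} [Group G] [Finite G] [Group.IsSolvable G] (h : ∀ g : G, IsPrimePow (orderOf g) ∨ g = 1) :
    (Nat.card G).primeFactors.card ≤ 2 := by
  classical
  by_cases hG : Nontrivial G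
  swap
  · rw [not_nontrivial_iff_subsingleton] at hG
    rw [Nat.card_of_subsingleton (1 : G)]
    simp
  obtain ⟨p, N, hp, hNn, hN1, hNc, hNp⟩ := exists_normal_abelian_pSubgroup (G := G)
  haveI : Fact p.Prime := ⟨hp⟩
  set P := pCore p G with hPdef
  have hPn : P.Normal := Cfsg.pCore_normal p G
  have hPp : IsPGroup p P := pCore_isPGroup p
  have hNP : N ≤ P := le_pCore hNn hNp
  obtain ⟨a, ha⟩ := hPp.exists_card_eq
  -- it suffices to find a second prime
  suffices hsuff : ∃ q : ℕ, ∀ r : ℕ, r.Prime → r ∣ Nat.card G → r = p ∨ r = q by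
    obtain ⟨q, hq⟩ := hsuff
    have hsub : (Nat.card G).primeFactors ⊆ {p, q} := by
      intro r hr
      have hr' := Nat.mem_primeFactors.mp hr
      rcases hq r hr'.1 hr'.2.1 with e | e <;> simp [e]
    exact (Finset.card_le_card hsub).trans Finset.card_le_two
  by_cases hQ : Nontrivial (G ⧸ P)
  swap
  · -- G is a p-group
    rw [not_nontrivial_iff_subsingleton] at hQ
    have hPt : P = ⊤ := by
      rw [eq_top_iff]
      intro x _
      have : (x : G ⧸ P) = 1 := Subsingleton.elim _ _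
      exact (QuotientGroup.eq_one_iff x).mp this
    refine ⟨p, fun r hr hd => Or.inl ?_⟩
    rw [hPt, Subgroup.card_top] at ha
    rw [ha] at hd
    exact (Nat.prime_dvd_prime_iff_eq hr hp).mp (hr.dvd_of_dvd_pow hd)
  obtain ⟨q, Nb, hq, hNbn, hNb1, hNbc, hNbp⟩ := exists_normal_abelian_pSubgroup (G := G ⧸ P)
  haveI : Fact q.Prime := ⟨hq⟩
  refine ⟨q, ?_⟩
  obtain ⟨b, hb⟩ := hNbp.exists_card_eq
  have hb0 : b ≠ 0 := by
    rintro rfl
    rw [pow_zero] at hb
    exact hNb1 (Subgroup.card_eq_one.mp hb)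
  set K : Subgroup G := Nb.comap (QuotientGroup.mk' P) with hK
  have hKn : K.Normal := Subgroup.Normal.comap hNbn _
  have hKc : Nat.card K = p ^ a * q ^ b := by
    rw [hK, card_comap_mk, ha, hb]
  -- q ≠ p
  have hqp : q ≠ p := by
    rintro rfl
    apply hNb1
    have hKp : IsPGroup q K := by
      rw [IsPGroup.iff_card]
      exact ⟨a + b, by rw [hKc, pow_add]⟩
    have hKP : K ≤ P := le_pCore hKn hKp
    rw [eq_bot_iff]
    intro y hy
    obtain ⟨x, rfl⟩ := QuotientGroup.mk'_surjective P y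
    have : x ∈ P := hKP hy
    rw [Subgroup.mem_bot, QuotientGroup.mk'_apply, QuotientGroup.eq_one_iff]
    exact this
  intro r hr hd
  by_contra hcon
  push Not at hcon
  obtain ⟨hrp, hrq⟩ := hcon
  haveI : Fact r.Prime := ⟨hr⟩
  -- Frattini
  let Q : Sylow q K := Sylow.nonempty.some
  set Q' : Subgroup G := (Q : Subgroup K).map K.subtype with hQ'
  have hfr : Subgroup.normalizer (Q' : Set G) ⊔ K = ⊤ := Sylow.normalizer_sup_eq_top Q
  have hQ'p : IsPGroup q Q' := Q.isPGroup'.map _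
  have hqK : q ∣ Nat.card K := by
    rw [hKc]
    exact Dvd.dvd.mul_left (dvd_pow_self q hb0) _
  have hQ'1 : Q' ≠ ⊥ := by
    intro hbot
    have h1 := Sylow.ne_bot_of_dvd_card Q hqK
    apply h1
    rw [hQ', Subgroup.map_eq_bot_iff, Subgroup.ker_subtype] at hbot
    exact le_bot_iff.mp hbot
  have hrK : ¬ r ∣ Nat.card K := by
    rw [hKc]
    intro hd'
    rcases (Nat.Prime.dvd_mul hr).mp hd' with h1 | h1
    · exact hrp ((Nat.prime_dvd_prime_iff_eq hr hp).mp (hr.dvd_of_dvd_pow h1))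
    · exact hrq ((Nat.prime_dvd_prime_iff_eq hr hq).mp (hr.dvd_of_dvd_pow h1))
  have hrN : r ∣ Nat.card (Subgroup.normalizer (Q' : Set G)) := by
    have h1 := Cfsg.Agent.Lib.Basic.card_sup_dvd_of_normal (Subgroup.normalizer (Q' : Set G)) K
    rw [hfr, Subgroup.card_top] at h1
    exact ((Nat.Prime.dvd_mul hr).mp (hd.trans h1)).resolve_right hrK
  obtain ⟨y, hy⟩ := exists_prime_orderOf_dvd_card' r hrN
  have hyord : orderOf (y : G) = r := by
    rw [Subgroup.orderOf_coe]
    exact hy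
  have hyr : (∃ k : ℕ, orderOf (y : G) = r ^ k) := ⟨1, by rw [pow_one]; exact hyord⟩
  have hy1 : (y : G) ≠ 1 := by
    intro e
    rw [e, orderOf_one] at hyord
    exact hr.one_lt.ne hyord
  have hbot : N = ⊥ := by
    refine frobenius_action_fixed_subgroup N Q'
      (fun a ha b hb => congrArg Subtype.val (hNc.is_comm.comm ⟨a, ha⟩ ⟨b, hb⟩))
      (y : G) hr (by rw [← hyord]; exact pow_orderOf_eq_one _)
      (fun a _ => Subgroup.normalizer_eq_top_iff.mpr hNn ▸ Subgroup.mem_top a)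
      (Subgroup.normalizer_eq_top_iff.mpr hNn ▸ Subgroup.mem_top _)
      y.2 ?_ ?_ ?_ ?_
    · intro u hu hc
      have := eppo_commute h hr hq (Ne.symm (Ne.symm hrq)) hyr
        (exists_orderOf_of_mem_isPGroup hQ'p hu) hc
      exact this.resolve_left hy1
    · obtain ⟨c, hc⟩ := hQ'p.exists_card_eq
      obtain ⟨d, hd'⟩ := hNp.exists_card_eq
      rw [hc, hd']
      exact Nat.Coprime.pow _ _ ((Nat.coprime_primes hq hp).mpr hqp)
    · intro v hv hvc
      obtain ⟨u, hu, hu1⟩ : ∃ u ∈ Q', u ≠ 1 := by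
        obtain ⟨u, hu⟩ := Subgroup.ne_bot_iff_exists_ne_one.mp hQ'1
        exact ⟨u.1, u.2, fun e => hu (Subtype.ext e)⟩
      have := eppo_commute h hp hq (Ne.symm hqp) (exists_orderOf_of_mem_isPGroup hNp hv)
        (exists_orderOf_of_mem_isPGroup hQ'p hu) (hvc u hu).symm
      exact this.resolve_right hu1
    · intro v hv hvc
      have := eppo_commute h hp hr (Ne.symm hrp) (exists_orderOf_of_mem_isPGroup hNp hv)
        hyr hvc.symm
      exact this.resolve_right hy1
  exact hN1 hbot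

end Cfsg.Agent.S1475
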