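import Cfsg.Statements.S1476
import Cfsg.Agent.S1474
import Cfsg.Agent.Lib.OddLocal.CNSolv

set_option autoImplicit false
set_option linter.style.haveILetI false
open Cfsg

namespace Cfsg.Agent.S1476

open Cfsg.Agent.Lib.OddLocal

/-- Let G be a finite solvable group in which every non-identity element has nilpotent centralizer. Then either G is nilpotent; or G has a normal subgroup K with a Frobenius complement E (K E = G, K ∩ E = 1, E meets its conjugates by outside elements trivially) such that E is cyclic or E is generated by two elementwise-commuting subgroups, one cyclic of odd order and one isomorphic to a generalized quaternion group; or G is a three-step group with respect to some prime p. -/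
theorem result {G : Type*} [Group G] [Finite G] [Group.IsSolvable G] (hCN : Cfsg.IsCNGroup G) :
    Group.IsNilpotent G ∨
      (∃ K E : Subgroup G, K.Normal ∧ Subgroup.IsComplement' K E ∧ Cfsg.IsFrobeniusComplement E ∧
        (IsCyclic E ∨ ∃ C Q : Subgroup G, C ⊔ Q = E ∧ (∀ a ∈ C, ∀ b ∈ Q, a * b = b * a) ∧ IsCyclic C ∧ Odd (Nat.card C) ∧
          ∃ n : ℕ, Nonempty (↥Q ≃* QuaternionGroup (2 ^ n)))) ∨
      ∃ p : ℕ, p.Prime ∧ Cfsg.IsThreeStepGroup p G := by
  by_cases hnil : Group.IsNilpotent G
  · exact Or.inl hnil
  right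
  by_cases hS : ∀ (p : ℕ) [Fact p.Prime] (S : Sylow p G), (S : Subgroup G).Normal → (S : Subgroup G) = ⊥
  · exact Or.inr (threeStep_of_no_normal_sylow hCN hnil hS)
  left
  push Not at hS
  obtain ⟨p, hp, P, hPn, hP1⟩ := hS
  obtain ⟨hH1, hHtop, ⟨E, hE, hEf, hfpf⟩, hQnil⟩ := Cfsg.Agent.S1474.result hCN hnil p P hP1 hPn
  refine ⟨fittingHall G, E, inferInstance, hE, hEf, ?_⟩
  have hinj : Function.Injective ((QuotientGroup.mk' (fittingHall G)).comp E.subtype) := by
    rw [injective_iff_map_eq_one]
    intro e he
    have h1 : (e : G) ∈ fittingHall G := by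
      rw [← QuotientGroup.eq_one_iff]
      exact he
    have h2 := hE.disjoint.le_bot (Subgroup.mem_inf.mpr ⟨h1, e.2⟩)
    exact Subtype.ext h2
  have hEnil : Group.IsNilpotent E := by
    haveI := hQnil
    exact (Group.isNilpotent_congr (MonoidHom.ofInjective hinj)).mpr inferInstance
  exact cyclic_or_product_of_fpf hH1 hEnil hfpf

end Cfsg.Agent.S1476
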