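import Cfsg.Statements.S1485
import Cfsg.Agent.Lib.Char.IndNormal

set_option autoImplicit false
open Cfsg

namespace Cfsg.Agent.S1485

open Cfsg.Agent.Lib.Char

/-- Let H be a normal subgroup of the finite group G and θ an irreducible character of H. On H, the function induced from θ equals r times the sum of the distinct G-conjugates of θ, where r is the number of elements of G fixing θ under conjugation divided by the order of H (the index of H in the inertia group). -/
theorem result {G : Type*} [Group G] [Fintype G] (H : Subgroup G) [hN : H.Normal] (θ : H → ℂ) (hθ : Cfsg.IsIrrCharacter H θ) : (fun h : H => Cfsg.indFun H θ h) = ((Nat.card {g : G // ∀ h : H, θ ⟨g * h * g⁻¹, hN.conj_mem h h.2 g⟩ = θ h} : ℂ) / (Nat.card H : ℂ)) • ∑ᶠ ψ ∈ {ψ : H → ℂ | ∃ g : G, ψ = fun h : H => θ ⟨g * h * g⁻¹, hN.conj_mem h h.2 g⟩}, ψ := by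
  classical
  set F : G → (H → ℂ) := fun g => fun h : H => θ ⟨g * h * g⁻¹, hN.conj_mem h h.2 g⟩ with hF
  have hFc : ∀ g, F g = Lib.Char.conjFun H g⁻¹ θ := by
    intro g
    funext n
    simp only [hF, conjFun_apply]
    congr 2
    simp
  have hset : {ψ : H → ℂ | ∃ g : G, ψ = fun h : H => θ ⟨g * h * g⁻¹, hN.conj_mem h h.2 g⟩} =
      ↑(Finset.univ.image F) := by
    ext ψ
    simp only [Set.mem_setOf_eq, Finset.coe_image, Finset.coe_univ, Set.image_univ, Set.mem_range]
    constructor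
    · rintro ⟨g, rfl⟩
      exact ⟨g, rfl⟩
    · rintro ⟨g, rfl⟩
      exact ⟨g, rfl⟩
  have hcardT : Nat.card {g : G // ∀ h : H, θ ⟨g * h * g⁻¹, hN.conj_mem h h.2 g⟩ = θ h} =
      Nat.card (inertia H θ) := by
    refine Nat.card_congr (Equiv.subtypeEquivRight fun g => ?_)
    have h1 : (∀ h : H, θ ⟨g * h * g⁻¹, hN.conj_mem h h.2 g⟩ = θ h) ↔ F g = θ := by
      constructor
      · intro h; funext n; exact h n
      · intro h n; exact congrFun h n
    rw [h1, hFc]
    change Lib.Char.conjFun H g⁻¹ θ = θ ↔ g ∈ inertia H θ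
    have h2 : g⁻¹ ∈ inertia H θ ↔ g ∈ inertia H θ := (inertia H θ).inv_mem_iff
    rw [← h2]
    rfl
  rw [hset, finsum_mem_coe_finset, hcardT]
  have hfib : ∀ ψ ∈ Finset.univ.image F,
      (Finset.univ.filter fun g : G => F g = ψ).card = Nat.card (inertia H θ) := by
    intro ψ hψ
    obtain ⟨g₀, -, rfl⟩ := Finset.mem_image.mp hψ
    rw [← card_filter_conjFun H θ g₀⁻¹]
    have : ∀ g : G, F g = F g₀ ↔ Lib.Char.conjFun H g₀⁻¹ θ = Lib.Char.conjFun H g⁻¹ θ := by
      intro g
      rw [hFc, hFc, eq_comm]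
    simp only [this]
    refine Finset.card_bij (fun g _ => g⁻¹) ?_ ?_ ?_
    · intro g hg
      simpa using hg
    · intro a _ b _ h
      exact inv_injective h
    · intro g hg
      refine ⟨g⁻¹, ?_, by simp⟩
      simpa using hg
  have hsum : ∑ x : G, Lib.Char.conjFun H x θ = (Nat.card (inertia H θ) : ℂ) • ∑ ψ ∈ Finset.univ.image F, ψ := by
    have h1 : ∑ x : G, Lib.Char.conjFun H x θ = ∑ x : G, F x :=
      Fintype.sum_equiv (Equiv.inv G) _ _ fun x => by rw [hFc]; simp
    rw [h1]
    have h2 := Finset.sum_comp (s := (Finset.univ : Finset G)) (f := fun ψ : H → ℂ => ψ) (g := F)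
    rw [h2, Finset.smul_sum]
    refine Finset.sum_congr rfl fun ψ hψ => ?_
    rw [hfib ψ hψ]
    simp [Nat.cast_smul_eq_nsmul]
  funext n
  rw [indFun_coe_normal]
  have h3 := congrFun hsum n
  simp only [Finset.sum_apply, Pi.smul_apply] at h3
  simp only [Pi.smul_apply, Finset.sum_apply]
  rw [h3, smul_eq_mul, smul_eq_mul, div_eq_mul_inv]
  ring

end Cfsg.Agent.S1485
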