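import Cfsg.Statements.S1486
import Cfsg.Agent.Lib.Char.IndNormal

set_option autoImplicit false
open Cfsg

namespace Cfsg.Agent.S1486

open Cfsg.Agent.Lib.Char

/-- Let H be a normal subgroup of the finite group G and θ, φ irreducible characters of H. If φ is a G-conjugate of θ then the functions induced from θ and φ coincide; if φ is not a G-conjugate of θ then the induced functions are orthogonal. -/
theorem result {G : Type*} [Group G] [Fintype G] (H : Subgroup G) [hN : H.Normal] (θ φ : H → ℂ) (hθ : Cfsg.IsIrrCharacter H θ) (hφ : Cfsg.IsIrrCharacter H φ) : ((∃ g : G, φ = fun h : H => θ ⟨g * h * g⁻¹, hN.conj_mem h h.2 g⟩) → Cfsg.indFun H φ = Cfsg.indFun H θ) ∧ ((¬ ∃ g : G, φ = fun h : H => θ ⟨g * h * g⁻¹, hN.conj_mem h h.2 g⟩) → Cfsg.classInner (Cfsg.indFun H φ) (Cfsg.indFun H θ) = 0) := by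
  classical
  have hFc : ∀ g, (fun h : H => θ ⟨g * h * g⁻¹, hN.conj_mem h h.2 g⟩) = Lib.Char.conjFun H g⁻¹ θ := by
    intro g
    funext n
    simp only [Lib.Char.conjFun_apply]
    congr 2
    simp
  constructor
  · rintro ⟨g, rfl⟩
    funext y
    simp only [indFun_apply]
    congr 1
    refine Fintype.sum_equiv (Equiv.mulRight g⁻¹) _ _ fun x => ?_
    simp only [Equiv.coe_mulRight]
    by_cases hx : x⁻¹ * y * x ∈ H
    · have hx' : (x * g⁻¹)⁻¹ * y * (x * g⁻¹) ∈ H := by
        have := hN.conj_mem _ hx g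
        have e : g * (x⁻¹ * y * x) * g⁻¹ = (x * g⁻¹)⁻¹ * y * (x * g⁻¹) := by group
        rwa [e] at this
      rw [extendByZero_of_mem H _ hx, extendByZero_of_mem H _ hx']
      congr 2
      simp only [Subtype.mk.injEq]
      group
    · have hx' : (x * g⁻¹)⁻¹ * y * (x * g⁻¹) ∉ H := by
        intro h
        apply hx
        have := hN.conj_mem _ h g⁻¹
        have e : g⁻¹ * ((x * g⁻¹)⁻¹ * y * (x * g⁻¹)) * g⁻¹⁻¹ = x⁻¹ * y * x := by group
        rwa [e] at this
      rw [extendByZero_of_notMem H _ hx, extendByZero_of_notMem H _ hx']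
  · intro hne
    rw [classInner_indFun_normal]
    have : ∀ x : G, classInner φ (Lib.Char.conjFun H x θ) = 0 := by
      intro x
      refine classInner_irr_of_ne hφ (isIrrCharacter_conjFun H x hθ) ?_
      intro h
      apply hne
      refine ⟨x⁻¹, ?_⟩
      rw [hFc, inv_inv]
      exact h
    simp [this]

end Cfsg.Agent.S1486
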