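import Cfsg.Statements.S1487
import Cfsg.Agent.Lib.Char.IndNormal

set_option autoImplicit false
open Cfsg

namespace Cfsg.Agent.S1487

open Cfsg.Agent.Lib.Char

private theorem eq_of_sum_eq {G : Type*} [Fintype G] (z : G → ℂ) (d : ℝ) (hz : ∀ x, ‖z x‖ ≤ d)
    (h : (Fintype.card G : ℂ) * d = ∑ x, z x) (x : G) : z x = d := by
  have hre : ∑ x : G, (z x).re = ∑ _x : G, d := by
    have := congrArg Complex.re h
    rw [Complex.re_sum] at this
    rw [← this]
    simp
  have hle : ∀ x ∈ (Finset.univ : Finset G), (z x).re ≤ d := fun x _ =>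
    (Complex.re_le_norm _).trans (hz x)
  have h1 := (Finset.sum_eq_sum_iff_of_le hle).mp hre x (Finset.mem_univ x)
  have h2 := hz x
  have h3 : ‖z x‖ ^ 2 = (z x).re * (z x).re + (z x).im * (z x).im := by
    rw [Complex.sq_norm, Complex.normSq_apply]
  have hd : 0 ≤ d := (norm_nonneg _).trans h2
  have h4 : ‖z x‖ ^ 2 ≤ d ^ 2 := by
    have := norm_nonneg (z x)
    nlinarith
  rw [h1] at h3
  have h5 : (z x).im = 0 := by nlinarith [mul_self_nonneg (z x).im]
  apply Complex.ext
  · simp [h1]
  · simp [h5]

/-- Let A ≤ H be normal subgroups of the finite group G and θ an irreducible character of H. Then θ takes the value θ 1 on all of A if and only if the function induced from θ to G takes its value at 1 on all of A. -/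
theorem result {G : Type*} [Group G] [Fintype G] (A H : Subgroup G) [A.Normal] [H.Normal] (hAH : A ≤ H) (θ : H → ℂ) (hθ : Cfsg.IsIrrCharacter H θ) : (∀ a : H, (a : G) ∈ A → θ a = θ 1) ↔ (∀ a : G, a ∈ A → Cfsg.indFun H θ a = Cfsg.indFun H θ 1) := by
  classical
  have hcharθ := IsIrrCharacter.isCharacter hθ
  have hcl := IsCharacter.isClassFunction hcharθ
  have hone : indFun H θ 1 = (Nat.card H : ℂ)⁻¹ * ((Nat.card G : ℂ) * θ 1) := by
    have h := indFun_coe_normal H θ 1
    have h2 : ∀ x : G, Lib.Char.conjFun H x θ 1 = θ 1 := by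
      intro x
      simp only [Lib.Char.conjFun_apply]
      congr 1
      apply Subtype.ext
      simp
    simp only [h2, Finset.sum_const, Finset.card_univ, nsmul_eq_mul] at h
    rw [Nat.card_eq_fintype_card (α := G)]
    exact h
  constructor
  · intro h a ha
    have haH : a ∈ H := hAH ha
    have h1 := indFun_coe_normal H θ ⟨a, haH⟩
    have h2 : ∀ x : G, Lib.Char.conjFun H x θ ⟨a, haH⟩ = θ 1 := by
      intro x
      simp only [Lib.Char.conjFun_apply]
      apply h
      have := ‹A.Normal›.conj_mem a ha x⁻¹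
      simpa using this
    simp only [h2, Finset.sum_const, Finset.card_univ, nsmul_eq_mul] at h1
    rw [hone, Nat.card_eq_fintype_card (α := G)]
    exact h1
  · intro h a ha
    have h1 := h a ha
    rw [hone] at h1
    have h2 := indFun_coe_normal H θ a
    rw [h1] at h2
    have hne : (Nat.card H : ℂ)⁻¹ ≠ 0 := inv_ne_zero (by exact_mod_cast Nat.card_pos.ne')
    have h3 := mul_left_cancel₀ hne h2
    have hd : θ 1 = (‖θ 1‖ : ℝ) := by
      obtain ⟨n, ρ, rfl⟩ := hcharθ
      rw [Representation.char_one]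
      simp
    have h4 := eq_of_sum_eq (fun x : G => Lib.Char.conjFun H x θ a) ‖θ 1‖
      (fun x => IsCharacter.norm_le hcharθ _) (by
        rw [← hd, ← h3, Nat.card_eq_fintype_card]) 1
    have h5 : Lib.Char.conjFun H (1 : G) θ a = θ a := by simp
    rw [h5, ← hd] at h4
    exact h4

end Cfsg.Agent.S1487
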