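import Cfsg.Statements.S1488
import Cfsg.Agent.Lib.Char.IndNormal
import Cfsg.Agent.Lib.Char.Kernel

set_option autoImplicit false
open Cfsg

namespace Cfsg.Agent.S1488

open Cfsg.Agent.Lib.Char

/-- Let A be a normal subgroup of the finite group G contained in the subgroup H, let θ be a function on H and θ₁ a function on the image of H in G ⧸ A whose composite with the projection is θ. Then the function induced from θ₁ to G ⧸ A, composed with the projection G → G ⧸ A, equals the function induced from θ to G. -/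
theorem result {G : Type*} [Group G] [Fintype G] (A H : Subgroup G) [A.Normal] (hAH : A ≤ H) [Fintype (G ⧸ A)] [Fintype ↥(H.map (QuotientGroup.mk' A))] (θ : H → ℂ) (θ₁ : ↥(H.map (QuotientGroup.mk' A)) → ℂ) (hθ : ∀ x : H, θ₁ ⟨QuotientGroup.mk' A x, Subgroup.mem_map_of_mem _ x.2⟩ = θ x) (g : G) : Cfsg.indFun (H.map (QuotientGroup.mk' A)) θ₁ (QuotientGroup.mk' A g) = Cfsg.indFun H θ g := by
  classical
  simp only [indFun_apply]
  have hmap : ∀ y : G, QuotientGroup.mk' A y ∈ H.map (QuotientGroup.mk' A) ↔ y ∈ H := by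
    intro y
    constructor
    · rintro ⟨z, hz, hzy⟩
      have : z⁻¹ * y ∈ A := QuotientGroup.eq.mp hzy
      have h2 := H.mul_mem hz (hAH this)
      simpa using h2
    · exact Subgroup.mem_map_of_mem _
  have hext : ∀ y : G, extendByZero (H.map (QuotientGroup.mk' A)) θ₁ (QuotientGroup.mk' A y) =
      extendByZero H θ y := by
    intro y
    by_cases hy : y ∈ H
    · rw [extendByZero_of_mem H θ hy, extendByZero_of_mem _ _ ((hmap y).mpr hy)]
      exact hθ ⟨y, hy⟩
    · rw [extendByZero_of_notMem H θ hy, extendByZero_of_notMem _ _ (fun h => hy ((hmap y).mp h))]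
  have hsum := sum_comp_mk A (fun x : G ⧸ A => extendByZero (H.map (QuotientGroup.mk' A)) θ₁
    (x⁻¹ * QuotientGroup.mk' A g * x))
  have h3 : ∑ x : G, extendByZero H θ (x⁻¹ * g * x) =
      (Nat.card A : ℂ) * ∑ x : G ⧸ A, extendByZero (H.map (QuotientGroup.mk' A)) θ₁
        (x⁻¹ * QuotientGroup.mk' A g * x) := by
    rw [← hsum]
    refine Finset.sum_congr rfl fun x _ => ?_
    rw [← hext]
    rfl
  rw [h3, ← mul_assoc]
  congr 1
  have hcard : Nat.card H = Nat.card (H.map (QuotientGroup.mk' A)) * Nat.card A := by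
    let f := (QuotientGroup.mk' A).subgroupMap H
    have hs : f.range = ⊤ := MonoidHom.range_eq_top.mpr ((QuotientGroup.mk' A).subgroupMap_surjective H)
    have hk : f.ker.index = Nat.card f.range := Subgroup.index_ker f
    rw [hs, Nat.card_congr (Subgroup.topEquiv.toEquiv)] at hk
    have h1 : Nat.card f.ker * f.ker.index = Nat.card H := Subgroup.card_mul_index _
    have h2 : f.ker = A.subgroupOf H := by
      ext x
      simp only [MonoidHom.mem_ker, Subgroup.mem_subgroupOf, f]
      rw [Subtype.ext_iff]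
      simp
    have h3 : Nat.card f.ker = Nat.card A := by
      rw [h2]
      exact Nat.card_congr (Subgroup.subgroupOfEquivOfLe hAH).toEquiv
    rw [← h1, h3, hk, mul_comm]
  rw [hcard]
  push_cast
  have hA : (Nat.card A : ℂ) ≠ 0 := by exact_mod_cast Nat.card_pos.ne'
  have hB : (Nat.card (H.map (QuotientGroup.mk' A)) : ℂ) ≠ 0 := by exact_mod_cast Nat.card_pos.ne'
  field_simp

end Cfsg.Agent.S1488
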