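import Cfsg.Statements.S1490
import Cfsg.Agent.Lib.OddChar.Inertia

set_option autoImplicit false
open Cfsg

namespace Cfsg.Agent.S1490

open Cfsg.Agent.Lib.Char Cfsg.Agent.Lib.OddChar

/-- Let H be a normal subgroup of the finite group G, θ an irreducible character of H with inertia group T, and suppose the commutator of any two elements of T lies in H (T/H abelian). Then there are a positive integer e and a finite set C of irreducible characters of G with e ^ 2 * |C| * |H| = |T|, such that the function induced from θ is e times the sum of the members of C and every member of C has degree [G:T] * e * θ(1). -/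
theorem result {G : Type*} [Group G] [Fintype G] (H T : Subgroup G) [hN : H.Normal] (θ : H → ℂ) (hθ : Cfsg.IsIrrCharacter H θ) (hT : ∀ g : G, g ∈ T ↔ ∀ h : H, θ ⟨g * h * g⁻¹, hN.conj_mem h h.2 g⟩ = θ h) (hab : ∀ x ∈ T, ∀ y ∈ T, x * y * x⁻¹ * y⁻¹ ∈ H) : ∃ (e : ℕ) (C : Finset (G → ℂ)), 0 < e ∧ (∀ χ ∈ C, Cfsg.IsIrrCharacter G χ) ∧ e ^ 2 * C.card * Nat.card H = Nat.card T ∧ Cfsg.indFun H θ = (e : ℂ) • ∑ χ ∈ C, χ ∧ ∀ χ ∈ C, χ 1 = (T.index : ℂ) * e * θ 1 := by
  classical
  have hT' := eq_inertia H hT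
  subst hT'
  letI : Fintype H := Fintype.ofFinite H
  letI : Fintype (inertia H θ) := Fintype.ofFinite _
  have hle : H ≤ inertia H θ := le_inertia_of_irr hθ
  obtain ⟨e, Over, he, hres, hall, hcard, hsum, hdeg⟩ :=
    exists_decomp_of_abelian H hθ (le_refl _) hle hab
  have hinj : Set.InjOn (fun ψ => indFun (inertia H θ) ψ) (Over : Set (inertia H θ → ℂ)) := by
    intro a ha b hb hab'
    exact eq_of_indFun_eq_over hθ (hres a ha).1 (hres b hb).1 (hres a ha).2.1 (hres b hb).2.1 hab'
  refine ⟨e, Over.image (fun ψ => indFun (inertia H θ) ψ), he, ?_, ?_, ?_, ?_⟩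
  · intro χ hχ
    obtain ⟨ψ, hψ, rfl⟩ := Finset.mem_image.mp hχ
    exact isIrrCharacter_indFun_over hθ (hres ψ hψ).1 (hres ψ hψ).2.1
  · rw [Finset.card_image_of_injOn hinj]
    exact hcard
  · rw [Finset.sum_image hinj]
    exact hsum
  · intro χ hχ
    obtain ⟨ψ, hψ, rfl⟩ := Finset.mem_image.mp hχ
    exact hdeg ψ hψ

end Cfsg.Agent.S1490
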