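import Cfsg.Statements.S1491
import Cfsg.Agent.Lib.OddChar.Inertia

set_option autoImplicit false
open Cfsg

namespace Cfsg.Agent.S1491

open Cfsg.Agent.Lib.Char Cfsg.Agent.Lib.OddChar Cfsg.Agent.Lib.H8Group

/-- Let H be a normal subgroup of the finite group G and θ an irreducible character of H with inertia group T, where T/H is abelian (commutators of T lie in H) and the index of H in T is coprime to the order of H. Then the function induced from θ is the sum of a set of exactly [T:H] irreducible characters of G, each of degree [G:T] * θ(1). -/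
theorem result {G : Type*} [Group G] [Fintype G] (H T : Subgroup G) [hN : H.Normal] (θ : H → ℂ) (hθ : Cfsg.IsIrrCharacter H θ) (hT : ∀ g : G, g ∈ T ↔ ∀ h : H, θ ⟨g * h * g⁻¹, hN.conj_mem h h.2 g⟩ = θ h) (hab : ∀ x ∈ T, ∀ y ∈ T, x * y * x⁻¹ * y⁻¹ ∈ H) (hcop : Nat.Coprime (Nat.card H) (H.relIndex T)) : ∃ C : Finset (G → ℂ), (∀ χ ∈ C, Cfsg.IsIrrCharacter G χ) ∧ C.card = H.relIndex T ∧ Cfsg.indFun H θ = ∑ χ ∈ C, χ ∧ ∀ χ ∈ C, χ 1 = (T.index : ℂ) * θ 1 := by
  classical
  have hT' := eq_inertia H hT
  subst hT'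
  letI : Fintype H := Fintype.ofFinite H
  letI : Fintype (inertia H θ) := Fintype.ofFinite _
  have hle : H ≤ inertia H θ := le_inertia_of_irr hθ
  obtain ⟨e, Over, he, hres, hall, hcard, hsum, hdeg⟩ :=
    exists_decomp_of_abelian H hθ (le_refl _) hle hab
  have hinj : Set.InjOn (fun ψ => indFun (inertia H θ) ψ) (Over : Set (inertia H θ → ℂ)) := by
    intro a ha b hb hab'
    exact eq_of_indFun_eq_over hθ (hres a ha).1 (hres b hb).1 (hres a ha).2.1 (hres b hb).2.1 hab'
  -- the extension of `θ` to the inertia group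
  let T := inertia H θ
  let N' : Subgroup T := H.subgroupOf T
  haveI : N'.Normal := Subgroup.normal_subgroupOf
  letI : Fintype N' := Fintype.ofFinite _
  let θ' : N' → ℂ := fun x => θ ⟨(x : T), Subgroup.mem_subgroupOf.mp x.2⟩
  have hθ' : IsIrrCharacter N' θ' :=
    isIrrCharacter_comp_mulEquiv (Subgroup.subgroupOfEquivOfLe hle) hθ
  have hinv : ∀ g : T, Lib.Char.conjFun N' g θ' = θ' := by
    intro g
    funext n
    have h1 := congrFun (show Lib.Char.conjFun H (g : G) θ = θ from g.2) ⟨n, Subgroup.mem_subgroupOf.mp n.2⟩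
    simp only [Lib.Char.conjFun_apply] at h1 ⊢
    exact h1
  have hcardN : Nat.card N' = Nat.card H :=
    Nat.card_congr (Subgroup.subgroupOfEquivOfLe hle).toEquiv
  have hcop' : Nat.Coprime N'.index (Nat.card N') := by
    rw [hcardN]
    exact hcop.symm
  haveI : Group.IsSolvable (T ⧸ N') := isSolvable_of_comm (comm_quotient_subgroupOf H hab)
  obtain ⟨χ, hχ, hχn, -⟩ := exists_canonical_of_coprime N' hθ' hinv hcop'
  have hresχ : resTo H hle χ = θ := by
    funext n
    exact hχn ⟨⟨n, hle n.2⟩, n.2⟩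
  have hχO : χ ∈ Over := by
    refine hall χ hχ ?_
    rw [hresχ, classInner_irr_self hθ]
    exact one_ne_zero
  have he1 : e = 1 := by
    have h1 := congrFun (hres χ hχO).2.2 1
    rw [hresχ] at h1
    simp only [Pi.smul_apply, smul_eq_mul] at h1
    have h2 : (e : ℂ) = 1 := by
      have hne := IsIrrCharacter.apply_one_ne_zero hθ
      apply mul_right_cancel₀ hne
      rw [one_mul]
      exact h1.symm
    exact_mod_cast h2
  subst he1
  refine ⟨Over.image (fun ψ => indFun (inertia H θ) ψ), ?_, ?_, ?_, ?_⟩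
  · intro χ hχ
    obtain ⟨ψ, hψ, rfl⟩ := Finset.mem_image.mp hχ
    exact isIrrCharacter_indFun_over hθ (hres ψ hψ).1 (hres ψ hψ).2.1
  · rw [Finset.card_image_of_injOn hinj]
    have h1 : Over.card * Nat.card H = H.relIndex T * Nat.card H := by
      have h2 : Nat.card N' * N'.index = Nat.card T := Subgroup.card_mul_index N'
      rw [hcardN] at h2
      have h3 : H.relIndex T = N'.index := rfl
      rw [h3, mul_comm (N'.index), h2]
      rw [one_pow, one_mul] at hcard
      exact hcard
    exact Nat.eq_of_mul_eq_mul_right Nat.card_pos h1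
  · rw [Finset.sum_image hinj]
    simpa using hsum
  · intro χ hχ
    obtain ⟨ψ, hψ, rfl⟩ := Finset.mem_image.mp hχ
    simpa using hdeg ψ hψ

end Cfsg.Agent.S1491
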