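import Cfsg.Statements.S1493
import Cfsg.Agent.Lib.Char.Galois

set_option autoImplicit false
open Cfsg

namespace Cfsg.Agent.S1493

open Cfsg.Agent.Lib.Char

/-- Let G be a finite group of order a * b with a and b coprime, let k be coprime to a, and let χ be a character of G. Then there is a character χ' of G such that χ'(g) = χ(g ^ k) whenever the order of g divides a and χ'(g) = χ(g) whenever the order of g is coprime to a; moreover χ' is irreducible if χ is. -/
theorem result {G : Type*} [Group G] [Finite G] (a b k : ℕ) (hab : Nat.card G = a * b) (hcop : Nat.Coprime a b) (hk : Nat.Coprime k a) (χ : G → ℂ) (hχ : Cfsg.IsCharacter G χ) : ∃ χ' : G → ℂ, Cfsg.IsCharacter G χ' ∧ (Cfsg.IsIrrCharacter G χ → Cfsg.IsIrrCharacter G χ') ∧ (∀ g : G, orderOf g ∣ a → χ' g = χ (g ^ k)) ∧ (∀ g : G, Nat.Coprime (orderOf g) a → χ' g = χ g) := by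
  classical
  obtain ⟨k', hk1, hk2⟩ := Nat.chineseRemainder hcop k 1
  have hc1 : Nat.Coprime k' a := by
    have := hk1.gcd_eq
    rw [Nat.Coprime, this]
    exact hk
  have hc2 : Nat.Coprime k' b := by
    have := hk2.gcd_eq
    rw [Nat.Coprime, this]
    simp
  have hc : Nat.Coprime k' (Nat.card G) := by
    rw [hab]
    exact Nat.Coprime.mul_right hc1 hc2
  refine ⟨fun g => χ (g ^ k'), isCharacter_pow hχ hc, fun h => ?_, fun g hg => ?_, fun g hg => ?_⟩
  · let _ := Fintype.ofFinite G
    exact isIrrCharacter_pow h hc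
  · have h1 : k' ≡ k [MOD orderOf g] := hk1.of_dvd hg
    simp only
    rw [(pow_eq_pow_iff_modEq).mpr h1]
  · have hd : orderOf g ∣ a * b := by
      rw [← hab]
      exact orderOf_dvd_natCard g
    have hd2 : orderOf g ∣ b := hg.dvd_of_dvd_mul_left hd
    have h1 : k' ≡ 1 [MOD orderOf g] := hk2.of_dvd hd2
    simp only
    rw [(pow_eq_pow_iff_modEq).mpr h1, pow_one]

end Cfsg.Agent.S1493
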