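import Cfsg.Statements.S1494
import Cfsg.Agent.Lib.Char.Linear

set_option autoImplicit false
open Cfsg

namespace Cfsg.Agent.S1494

open Cfsg.Agent.Lib.Char

private theorem aux {G : Type*} [Group G] [Finite G] (χ : G → ℂ) (hχ : Cfsg.IsCharacter G χ)
    (p : ℕ) (hp : p.Prime) (x y : G) (hx : orderOf x = p) (hxy : x * y = y * x) :
    ∃ ω : ℂ, IsIntegral ℤ ω ∧ χ (x * y) - χ y = (1 - Complex.exp (2 * Real.pi * Complex.I / p)) * ω := by
  classical
  have hp0 : p ≠ 0 := hp.ne_zero
  set ε := Complex.exp (2 * Real.pi * Complex.I / p) with hε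
  have hprim : IsPrimitiveRoot ε p := by
    have := Complex.isPrimitiveRoot_exp p hp0
    simpa [hε] using this
  have hεint : IsIntegral ℤ ε := hprim.isIntegral hp.pos
  let A := Subgroup.closure ({x, y} : Set G)
  have hcomm : ∀ a b : A, a * b = b * a := by
    letI := Subgroup.closureCommGroupOfComm (k := ({x, y} : Set G)) (by
      rintro a (rfl | rfl) b (rfl | rfl)
      · rfl
      · exact hxy
      · exact hxy.symm
      · rfl)
    exact fun a b => mul_comm a b
  haveI : Fintype A := Fintype.ofFinite A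
  have hχA : Cfsg.IsCharacter A (fun a : A => χ a) := IsCharacter.comp hχ A.subtype
  obtain ⟨m, hm⟩ := IsCharacter.exists_nat_coeffs hχA
  have hdeg := comm_iff_irr_degree_one.mp hcomm
  let x' : A := ⟨x, Subgroup.subset_closure (by simp)⟩
  let y' : A := ⟨y, Subgroup.subset_closure (by simp)⟩
  have hval : ∀ a : A, χ a = ∑ ψ : Cfsg.IrrCharacter A, (m ψ : ℂ) * (ψ : A → ℂ) a := by
    intro a
    have := congrFun hm a
    simp only [Finset.sum_apply, Pi.smul_apply, nsmul_eq_mul] at this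
    exact this
  have key : χ (x * y) - χ y = ∑ ψ : Cfsg.IrrCharacter A, (m ψ : ℂ) * ((ψ : A → ℂ) (x' * y') - (ψ : A → ℂ) y') := by
    have h1 := hval (x' * y')
    have h2 := hval y'
    simp only [mul_sub, Finset.sum_sub_distrib]
    rw [← h1, ← h2]
    rfl
  rw [key]
  refine Finset.sum_induction _ (fun z : ℂ => ∃ ω : ℂ, IsIntegral ℤ ω ∧ z = (1 - ε) * ω) ?_ ?_ ?_
  · rintro a b ⟨u, hu, rfl⟩ ⟨v, hv, rfl⟩
    exact ⟨u + v, hu.add hv, by ring⟩
  · exact ⟨0, isIntegral_zero, by simp⟩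
  · intro ψ _
    obtain ⟨lam, hlam⟩ := IsCharacter.exists_monoidHom (IsIrrCharacter.isCharacter ψ.2) (hdeg ψ)
    rw [hlam]
    simp only [map_mul, Units.val_mul]
    have hxp : x' ^ p = 1 := by
      apply Subtype.ext
      simp only [SubmonoidClass.coe_pow, OneMemClass.coe_one, x']
      rw [← hx]
      exact pow_orderOf_eq_one x
    have hlp : ((lam x' : ℂˣ) : ℂ) ^ p = 1 := by
      rw [← Units.val_pow_eq_pow_val, ← map_pow, hxp, map_one, Units.val_one]
    haveI : NeZero p := ⟨hp0⟩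
    obtain ⟨i, -, hi⟩ := hprim.eq_pow_of_pow_eq_one hlp
    have hint : IsIntegral ℤ ((lam y' : ℂˣ) : ℂ) := by
      have := IsCharacter.isIntegral (IsIrrCharacter.isCharacter ψ.2) y'
      rw [hlam] at this
      exact this
    refine ⟨-((m ψ : ℂ) * (∑ l ∈ Finset.range i, ε ^ l) * (lam y' : ℂ)), ?_, ?_⟩
    · have hmi : IsIntegral ℤ ((m ψ : ℕ) : ℂ) := by
        have := isIntegral_algebraMap (R := ℤ) (A := ℂ) (x := ((m ψ : ℕ) : ℤ))
        simpa using this
      exact IsIntegral.neg ((hmi.mul (IsIntegral.sum _ fun l _ => hεint.pow l)).mul hint)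
    · rw [← hi]
      have := mul_neg_geom_sum ε i
      linear_combination ((m ψ : ℂ) * (lam y' : ℂ)) * this

/-- Let χ be a generalized character of the finite group G, p a prime, x an element of order p and y an element commuting with x. Then χ(x * y) − χ(y) = (1 − ε) * ω for some algebraic integer ω, where ε = exp(2πi/p). -/
theorem result {G : Type*} [Group G] [Finite G] (χ : G → ℂ) (hχ : Cfsg.IsGeneralizedCharacter G χ) (p : ℕ) (hp : p.Prime) (x y : G) (hx : orderOf x = p) (hxy : x * y = y * x) : ∃ ω : ℂ, IsIntegral ℤ ω ∧ χ (x * y) - χ y = (1 - Complex.exp (2 * Real.pi * Complex.I / p)) * ω := by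
  obtain ⟨χ₁, χ₂, h₁, h₂, rfl⟩ := hχ
  obtain ⟨u, hu, hu'⟩ := aux χ₁ h₁ p hp x y hx hxy
  obtain ⟨v, hv, hv'⟩ := aux χ₂ h₂ p hp x y hx hxy
  refine ⟨u - v, hu.sub hv, ?_⟩
  simp only [Pi.sub_apply]
  linear_combination hu' - hv'

end Cfsg.Agent.S1494
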