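import Cfsg.Statements.S1495
import Mathlib

set_option autoImplicit false
open Cfsg

namespace Cfsg.Agent.S1495

/-- Let p be a prime, ε = exp(2πi/p), and n an integer such that n = (1 − ε) * ω for some algebraic integer ω. Then p divides n. -/
theorem result (p : ℕ) (hp : p.Prime) (n : ℤ) (ω : ℂ) (hω : IsIntegral ℤ ω) (h : (n : ℂ) = (1 - Complex.exp (2 * Real.pi * Complex.I / p)) * ω) : (p : ℤ) ∣ n := by
  have hp0 : p ≠ 0 := hp.ne_zero
  set ε := Complex.exp (2 * Real.pi * Complex.I / p) with hε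
  have hprim : IsPrimitiveRoot ε p := by
    have := Complex.isPrimitiveRoot_exp p hp0
    simpa [hε] using this
  have hεint : IsIntegral ℤ ε := hprim.isIntegral hp.pos
  obtain ⟨m, rfl⟩ : ∃ m, p = m + 1 := ⟨p - 1, by have := hp.pos; omega⟩
  have hprod := hprim.prod_one_sub_pow_eq_order
  have hs : ∀ j ∈ Finset.range m, ∃ s : ℂ, IsIntegral ℤ s ∧ 1 - ε = (1 - ε ^ (j + 1)) * s := by
    intro j hj
    have hj' : j + 1 < m + 1 := by simpa using hj
    have hcop : Nat.Coprime (j + 1) (m + 1) :=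
      Nat.Coprime.symm ((Nat.Prime.coprime_iff_not_dvd hp).mpr
        (Nat.not_dvd_of_pos_of_lt (by omega) hj'))
    obtain ⟨i, -, hi⟩ := Nat.exists_mul_mod_eq_one_of_coprime hcop hp.one_lt
    refine ⟨∑ l ∈ Finset.range i, (ε ^ (j + 1)) ^ l, ?_, ?_⟩
    · exact IsIntegral.sum _ fun l _ => (hεint.pow _).pow _
    · have hpow : (ε ^ (j + 1)) ^ i = ε := by
        rw [← pow_mul, ← Nat.mod_add_div ((j + 1) * i) (m + 1), hi, pow_add, pow_mul,
          hprim.pow_eq_one, one_pow, pow_one, mul_one]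
      have := mul_neg_geom_sum (ε ^ (j + 1)) i
      rw [this, hpow]
  choose! s hs1 hs2 using hs
  have hprod2 : (1 - ε) ^ m = ((m + 1 : ℕ) : ℂ) * ∏ j ∈ Finset.range m, s j := by
    have h1 : ∏ j ∈ Finset.range m, (1 - ε) = ∏ j ∈ Finset.range m, ((1 - ε ^ (j + 1)) * s j) :=
      Finset.prod_congr rfl hs2
    rw [Finset.prod_const, Finset.card_range, Finset.prod_mul_distrib, hprod] at h1
    rw [h1]
    push_cast
    rfl
  set t : ℂ := (∏ j ∈ Finset.range m, s j) * ω ^ m with ht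
  have htint : IsIntegral ℤ t :=
    (IsIntegral.prod _ fun j hj => hs1 j hj).mul (hω.pow _)
  have hnm : ((n ^ m : ℤ) : ℂ) = ((m + 1 : ℕ) : ℂ) * t := by
    push_cast
    rw [h, mul_pow]
    have := hprod2
    push_cast at this
    rw [this, ht]
    ring
  have hq : t = (((n ^ m : ℤ) : ℚ) / ((m + 1 : ℕ) : ℚ) : ℚ) := by
    push_cast at hnm ⊢
    have hne : ((m : ℂ) + 1) ≠ 0 := by exact_mod_cast (Nat.succ_ne_zero m)
    rw [hnm]
    field_simp
  have hintq : IsIntegral ℤ (((n ^ m : ℤ) : ℚ) / ((m + 1 : ℕ) : ℚ) : ℚ) := by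
    have h2 : IsIntegral ℤ (algebraMap ℚ ℂ (((n ^ m : ℤ) : ℚ) / ((m + 1 : ℕ) : ℚ) : ℚ)) := by
      have : algebraMap ℚ ℂ (((n ^ m : ℤ) : ℚ) / ((m + 1 : ℕ) : ℚ) : ℚ) = t := by
        rw [hq]
        simp
      rw [this]
      exact htint
    exact (isIntegral_algebraMap_iff (algebraMap ℚ ℂ).injective).mp h2
  obtain ⟨z, hz⟩ := IsIntegrallyClosed.isIntegral_iff.mp hintq
  have hdvd : ((m + 1 : ℕ) : ℤ) ∣ n ^ m := by
    refine ⟨z, ?_⟩
    have h3 : ((n ^ m : ℤ) : ℚ) = (((m + 1 : ℕ) : ℤ) : ℚ) * (z : ℚ) := by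
      have hz' : (z : ℚ) = ((n ^ m : ℤ) : ℚ) / ((m + 1 : ℕ) : ℚ) := by
        simpa using hz
      rw [hz']
      have hne : ((m + 1 : ℕ) : ℚ) ≠ 0 := by exact_mod_cast (Nat.succ_ne_zero m)
      push_cast at hne ⊢
      field_simp
    exact_mod_cast h3
  exact Int.Prime.dvd_pow' hp hdvd

end Cfsg.Agent.S1495
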