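import Cfsg.Statements.S1497
import Cfsg.Agent.Lib.Char.Basic
import Cfsg.Prelude.Def_OddOrderChar
import Cfsg.Prelude.Def_OddOrderLocal

set_option autoImplicit false
open Cfsg

namespace Cfsg.Agent.S1497

/-- Let A be a nonempty subset of the finite group G not containing 1 and L a subgroup. Then A is a TI-subset whose normaliser is L if and only if the Dade hypothesis holds for A, L and the constant choice H(a) = ⊥. -/
theorem result {G : Type*} [Group G] [Finite G] (A : Set G) (hA : A.Nonempty) (h1 : (1 : G) ∉ A) (L : Subgroup G) : (Cfsg.IsTISubset A ∧ Subgroup.normalizer A = L) ↔ Cfsg.DadeHypothesis A L (fun _ => ⊥) := by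
  classical
  have hmem : ∀ g : G, g ∈ Subgroup.normalizer A ↔ ∀ n, n ∈ A ↔ g * n * g⁻¹ ∈ A := fun g => Iff.rfl
  constructor
  · rintro ⟨hTI, rfl⟩
    have hfus : ∀ a ∈ A, ∀ g : G, g * a * g⁻¹ ∈ A → g ∈ Subgroup.normalizer A := by
      intro a ha g hg
      by_contra hgn
      have := hTI g hgn a ha hg
      exact h1 (this ▸ ha)
    refine ⟨h1, ?_, ?_, ?_, ?_, ?_, ?_, ?_, ?_⟩
    · intro a ha
      refine hfus a ha a ?_
      simpa using ha
    · intro x hx a ha
      exact ((hmem x).mp hx a).mp ha
    · intro a ha g hg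
      exact ⟨g, hfus a ha g hg, rfl⟩
    · intro a _
      exact bot_le
    · intro a _ c _ u hu
      have : u = 1 := by simpa using hu
      simp [this]
    · intro a _
      exact bot_inf_eq _
    · intro a ha
      rw [bot_sup_eq]
      refine inf_eq_right.mpr ?_
      intro c hc
      have hc' : c * a = a * c := Subgroup.mem_centralizer_singleton_iff.mp hc
      refine hfus a ha c ?_
      rw [hc']
      simpa using ha
    · intro a _ b _
      simp
  · intro hD
    have hle : L ≤ Subgroup.normalizer A := by
      intro x hx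
      rw [hmem]
      intro a
      constructor
      · exact hD.conj_mem x hx a
      · intro h
        have := hD.conj_mem x⁻¹ (L.inv_mem hx) _ h
        have e : x⁻¹ * (x * a * x⁻¹) * x⁻¹⁻¹ = a := by group
        rwa [e] at this
    have hcL : ∀ a ∈ A, Subgroup.centralizer ({a} : Set G) ≤ L := by
      intro a ha
      rw [← hD.sup_eq a ha, bot_sup_eq]
      exact inf_le_left
    have hfL : ∀ a ∈ A, ∀ g : G, g * a * g⁻¹ ∈ A → g ∈ L := by
      intro a ha g hg
      obtain ⟨x, hx, hxg⟩ := hD.fusion a ha g hg
      have h2 : x⁻¹ * g ∈ Subgroup.centralizer ({a} : Set G) := by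
        rw [Subgroup.mem_centralizer_singleton_iff]
        have : g * a * g⁻¹ * g = x * a * x⁻¹ * g := by rw [hxg]
        calc x⁻¹ * g * a = x⁻¹ * (g * a * g⁻¹ * g) := by group
          _ = x⁻¹ * (x * a * x⁻¹ * g) := by rw [this]
          _ = a * (x⁻¹ * g) := by group
      have h3 := L.mul_mem hx (hcL a ha h2)
      simpa using h3
    obtain ⟨a₀, ha₀⟩ := hA
    have hN : Subgroup.normalizer A = L := by
      refine le_antisymm ?_ hle
      intro g hg
      exact hfL a₀ ha₀ g (((hmem g).mp hg a₀).mp ha₀)
    refine ⟨?_, hN⟩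
    intro g hg x hx hgx
    exact absurd (hle (hfL x hx g hgx)) hg

end Cfsg.Agent.S1497
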