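import Cfsg.Statements.S1503
import Cfsg.Agent.Lib.OddChar.CyclicTI2

set_option autoImplicit false
open Cfsg

namespace Cfsg.Agent.S1503

open Cfsg.Agent.Lib.Char Cfsg.Agent.Lib.OddChar

/-- Let W₁, W₂ ≤ G with W = W₁ ⊔ W₂ and let χ an orthonormal family of irreducible characters of G up to sign, indexed by the linear characters ω of W, with χ_1 = 1, χ_ω = ω on W outside W₁ ∪ W₂, and the induction identity for (1 − φ)(1 − ψ). If θ is an irreducible character of G orthogonal to χ ω for every linear character ω of W, then θ vanishes at every element of W lying outside W₁ ∪ W₂. -/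
theorem result {G : Type*} [Group G] [Fintype G] (W₁ W₂ : Subgroup G) (hW : Cfsg.IsSelfNormalizingCyclic W₁ W₂) (χ : (↥(W₁ ⊔ W₂) →* ℂˣ) → (G → ℂ)) (hχ : Cfsg.IsCyclicTIFamily W₁ W₂ χ) (θ : G → ℂ) (hθ : Cfsg.IsIrrCharacter G θ) (horth : ∀ ω, Cfsg.classInner θ (χ ω) = 0) (w : ↥(W₁ ⊔ W₂)) (hw₁ : (w : G) ∉ W₁) (hw₂ : (w : G) ∉ W₂) : θ w = 0 := by
  classical
  obtain ⟨-, -, hdisj, hcomm, hcyc, -⟩ := hW
  letI : Fintype ↥(W₁ ⊔ W₂) := Fintype.ofFinite _
  have hAcomm : ∀ a b : ↥(W₁ ⊔ W₂), a * b = b * a := by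
    letI := IsCyclic.commGroup (α := ↥(W₁ ⊔ W₂))
    exact fun a b => mul_comm a b
  have hθc := IsCharacter.isClassFunction (IsIrrCharacter.isCharacter hθ)
  refine eq_zero_of_orthogonal_alpha hdisj hAcomm (fun v => θ v) ?_ w hw₁ hw₂
  intro φ ψ hφ hψ
  by_cases hφ1 : φ = 1
  · subst hφ1
    simp only [classInner]
    refine mul_eq_zero_of_right _ (Finset.sum_eq_zero fun v _ => ?_)
    simp
  by_cases hψ1 : ψ = 1
  · subst hψ1
    simp only [classInner]
    refine mul_eq_zero_of_right _ (Finset.sum_eq_zero fun v _ => ?_)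
    simp
  have h1 := classInner_family χ hχ θ hφ1 hψ1 hφ hψ
  rw [horth, horth, horth, horth] at h1
  have h2 : Cfsg.classInner (Cfsg.indFun (W₁ ⊔ W₂) (fun w => 1 - (φ w : ℂ) - (ψ w : ℂ) + (φ w : ℂ) * (ψ w : ℂ))) θ = 0 := by
    rw [classInner_conj_symm, h1]
    simp
  rw [classInner_indFun_left _ _ _ hθc] at h2
  exact h2

end Cfsg.Agent.S1503
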