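import Cfsg.Statements.S1504
import Cfsg.Agent.Lib.OddChar.CyclicTI2

set_option autoImplicit false
open Cfsg

namespace Cfsg.Agent.S1504

open Cfsg.Agent.Lib.Char Cfsg.Agent.Lib.OddChar

/-- Let W₁, W₂ be subgroups of a finite group with W₁ ⊓ W₂ = ⊥ whose elements commute, and W = W₁ ⊔ W₂. For linear characters φ, ψ of W with φ trivial on W₂ and ψ trivial on W₁, the function (1 − φ)(1 − ψ) vanishes on W₁ ∪ W₂; and the family of these functions, indexed by pairs (φ, ψ) with φ ≠ 1 ≠ ψ, is linearly independent over ℂ. -/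
theorem result {G : Type*} [Group G] [Finite G] (W₁ W₂ : Subgroup G) (hdisj : W₁ ⊓ W₂ = ⊥) (hcomm : ∀ a ∈ W₁, ∀ b ∈ W₂, a * b = b * a) : (∀ φ ψ : ↥(W₁ ⊔ W₂) →* ℂˣ, (∀ w : ↥(W₁ ⊔ W₂), (w : G) ∈ W₂ → φ w = 1) → (∀ w : ↥(W₁ ⊔ W₂), (w : G) ∈ W₁ → ψ w = 1) → ∀ w : ↥(W₁ ⊔ W₂), ((w : G) ∈ W₁ ∨ (w : G) ∈ W₂) → (1 - (φ w : ℂ) - (ψ w : ℂ) + (φ w : ℂ) * (ψ w : ℂ)) = 0) ∧ LinearIndependent ℂ (fun p : {p : (↥(W₁ ⊔ W₂) →* ℂˣ) × (↥(W₁ ⊔ W₂) →* ℂˣ) // p.1 ≠ 1 ∧ p.2 ≠ 1 ∧ (∀ w : ↥(W₁ ⊔ W₂), (w : G) ∈ W₂ → p.1 w = 1) ∧ (∀ w : ↥(W₁ ⊔ W₂), (w : G) ∈ W₁ → p.2 w = 1)} => fun w : ↥(W₁ ⊔ W₂) => 1 - (p.1.1 w : ℂ) - (p.1.2 w : ℂ) + (p.1.1 w : ℂ) * (p.1.2 w : ℂ)) := by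
  classical
  refine ⟨fun φ ψ hφ hψ w hw => alpha_eq_zero hφ hψ w hw, ?_⟩
  letI := Fintype.ofFinite G
  letI : Fintype ↥(W₁ ⊔ W₂) := Fintype.ofFinite _
  rw [linearIndependent_iff']
  intro s g hsum i₀ hi₀
  obtain ⟨⟨φ₀, ψ₀⟩, hφ₀1, hψ₀1, hφ₀, hψ₀⟩ := i₀
  have hone : (fun _ : ↥(W₁ ⊔ W₂) => (1 : ℂ)) = fun w => (((1 : ↥(W₁ ⊔ W₂) →* ℂˣ) w : ℂˣ) : ℂ) := by
    funext w
    simp
  -- the pairing with `φ₀ ψ₀`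
  have hL := congrArg (fun f : ↥(W₁ ⊔ W₂) → ℂ => Cfsg.classInner f (fun w => (((φ₀ * ψ₀) w : ℂˣ) : ℂ))) hsum
  rw [classInner_sum_left] at hL
  simp only [classInner_smul_left] at hL
  have hzero : Cfsg.classInner (0 : ↥(W₁ ⊔ W₂) → ℂ) (fun w => (((φ₀ * ψ₀) w : ℂˣ) : ℂ)) = 0 :=
    classInner_zero_left _
  rw [hzero] at hL
  have hval : ∀ p : {p : (↥(W₁ ⊔ W₂) →* ℂˣ) × (↥(W₁ ⊔ W₂) →* ℂˣ) // p.1 ≠ 1 ∧ p.2 ≠ 1 ∧ (∀ w : ↥(W₁ ⊔ W₂), (w : G) ∈ W₂ → p.1 w = 1) ∧ (∀ w : ↥(W₁ ⊔ W₂), (w : G) ∈ W₁ → p.2 w = 1)},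
      Cfsg.classInner (fun w : ↥(W₁ ⊔ W₂) => 1 - (p.1.1 w : ℂ) - (p.1.2 w : ℂ) + (p.1.1 w : ℂ) * (p.1.2 w : ℂ))
        (fun w => (((φ₀ * ψ₀) w : ℂˣ) : ℂ)) = if p.1.1 = φ₀ ∧ p.1.2 = ψ₀ then 1 else 0 := by
    rintro ⟨⟨φ, ψ⟩, hφ1, hψ1, hφ, hψ⟩
    simp only at hφ1 hψ1 hφ hψ ⊢
    have h2 : (fun w : ↥(W₁ ⊔ W₂) => 1 - (φ w : ℂ) - (ψ w : ℂ) + (φ w : ℂ) * (ψ w : ℂ)) =
        (fun w => (((1 : ↥(W₁ ⊔ W₂) →* ℂˣ) w : ℂˣ) : ℂ)) - (fun w => (φ w : ℂ)) - (fun w => (ψ w : ℂ)) +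
          (fun w => (((φ * ψ) w : ℂˣ) : ℂ)) := by
      funext w
      simp
    rw [h2, classInner_add_left, classInner_sub_left, classInner_sub_left, classInner_hom,
      classInner_hom, classInner_hom, classInner_hom]
    have a1 : ¬ (1 : ↥(W₁ ⊔ W₂) →* ℂˣ) = φ₀ * ψ₀ := by
      intro h
      have := hom_product_unique hcomm (φ := 1) (ψ := 1) (by simp) hφ₀ (by simp) hψ₀ ((mul_one _).trans h)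
      exact hφ₀1 this.1.symm
    have a2 : ¬ φ = φ₀ * ψ₀ := by
      intro h
      have := hom_product_unique hcomm (φ := φ) (ψ := 1) hφ hφ₀ (by simp) hψ₀ ((mul_one _).trans h)
      exact hψ₀1 this.2.symm
    have a3 : ¬ ψ = φ₀ * ψ₀ := by
      intro h
      have := hom_product_unique hcomm (φ := 1) (ψ := ψ) (by simp) hφ₀ hψ hψ₀ ((one_mul _).trans h)
      exact hφ₀1 this.1.symm
    have a4 : (φ * ψ = φ₀ * ψ₀) ↔ (φ = φ₀ ∧ ψ = ψ₀) :=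
      ⟨fun h => hom_product_unique hcomm hφ hφ₀ hψ hψ₀ h, fun h => by rw [h.1, h.2]⟩
    simp only [a1, a2, a3, if_false, a4]
    simp
  simp only [hval] at hL
  rw [Finset.sum_eq_single (⟨(φ₀, ψ₀), hφ₀1, hψ₀1, hφ₀, hψ₀⟩ : {p : (↥(W₁ ⊔ W₂) →* ℂˣ) × (↥(W₁ ⊔ W₂) →* ℂˣ) // p.1 ≠ 1 ∧ p.2 ≠ 1 ∧ (∀ w : ↥(W₁ ⊔ W₂), (w : G) ∈ W₂ → p.1 w = 1) ∧ (∀ w : ↥(W₁ ⊔ W₂), (w : G) ∈ W₁ → p.2 w = 1)})] at hL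
  · simpa using hL
  · rintro ⟨⟨φ, ψ⟩, hp⟩ _ hne
    rw [if_neg, mul_zero]
    rintro ⟨h1, h2⟩
    apply hne
    apply Subtype.ext
    exact Prod.ext h1 h2
  · intro h
    exact absurd hi₀ h

end Cfsg.Agent.S1504
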