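import Cfsg.Statements.S1507
import Cfsg.Agent.Lib.OddChar.Table

set_option autoImplicit false
open Cfsg

namespace Cfsg.Agent.S1507

open Cfsg.Agent.Lib.Char Cfsg.Agent.Lib.OddChar

open Classical in
/-- Let W₁, W₂ ≤ G form a self-normalising cyclic subgroup W = W₁ ⊔ W₂ of odd order with Nat.card W₁ < Nat.card W₂, and χ an orthonormal family of irreducible characters of G up to sign, indexed by the linear characters ω of W, with χ_1 = 1, χ_ω = ω on W outside W₁ ∪ W₂, and the induction identity for (1 − φ)(1 − ψ). Let θ be a class function of G vanishing on W outside W₁ ∪ W₂, and suppose fewer than 2 · Nat.card W₁ linear characters ω of W have ⟨θ, χ ω⟩ ≠ 0. Then one of: all ⟨θ, χ ω⟩ vanish; or there are ψ₀ and a with ⟨θ, χ ω⟩ = a when ω ψ₀⁻¹ is trivial on W₂ and 0 otherwise; or there are φ₀ and a with ⟨θ, χ ω⟩ = a when ω φ₀⁻¹ is trivial on W₁ and 0 otherwise. -/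
theorem result {G : Type*} [Group G] [Fintype G] (W₁ W₂ : Subgroup G) (hW : Cfsg.IsSelfNormalizingCyclic W₁ W₂) (hodd : Odd (Nat.card ↥(W₁ ⊔ W₂))) (χ : (↥(W₁ ⊔ W₂) →* ℂˣ) → (G → ℂ)) (hχ : Cfsg.IsCyclicTIFamily W₁ W₂ χ) (hlt : Nat.card W₁ < Nat.card W₂) (θ : G → ℂ) (hθ : Cfsg.IsClassFunction G θ) (hθV : ∀ w : ↥(W₁ ⊔ W₂), (w : G) ∉ W₁ → (w : G) ∉ W₂ → θ w = 0) (hfew : Nat.card {ω : ↥(W₁ ⊔ W₂) →* ℂˣ // Cfsg.classInner θ (χ ω) ≠ 0} < 2 * Nat.card W₁) : (∀ ω, Cfsg.classInner θ (χ ω) = 0) ∨ (∃ (ψ₀ : ↥(W₁ ⊔ W₂) →* ℂˣ) (a : ℂ), ∀ ω, Cfsg.classInner θ (χ ω) = if (∀ w : ↥(W₁ ⊔ W₂), (w : G) ∈ W₂ → (ω * ψ₀⁻¹) w = 1) then a else 0) ∨ (∃ (φ₀ : ↥(W₁ ⊔ W₂) →* ℂˣ) (a : ℂ), ∀ ω, Cfsg.classInner θ (χ ω) = if (∀ w : ↥(W₁ ⊔ W₂), (w : G) ∈ W₁ → (ω * φ₀⁻¹) w = 1) then a else 0) := by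
  classical
  have hcomm := hW.2.2.2.1
  haveI := finite_rowT hW
  haveI := finite_colT hW
  haveI := finite_homW hW
  letI : Fintype (RowT W₁ W₂) := Fintype.ofFinite _
  letI : Fintype (ColT W₁ W₂) := Fintype.ofFinite _
  let a : RowT W₁ W₂ → ColT W₁ W₂ → ℂ := fun r c => Cfsg.classInner θ (χ (r.1 * c.1))
  have hcardR : Fintype.card (RowT W₁ W₂) = Nat.card W₁ := by
    rw [← Nat.card_eq_fintype_card, card_rowT hW]
  have hcardC : Fintype.card (ColT W₁ W₂) = Nat.card W₂ := by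
    rw [← Nat.card_eq_fintype_card, card_colT hW]
  have hm : Fintype.card (RowT W₁ W₂) + 2 ≤ Fintype.card (ColT W₁ W₂) := by
    rw [hcardR, hcardC]
    rw [card_W hW] at hodd
    obtain ⟨⟨x, hx⟩, ⟨y, hy⟩⟩ := Nat.odd_mul.mp hodd
    omega
  have hrect : ∀ r r' c c', a r c + a r' c' = a r c' + a r' c := by
    intro r r' c c'
    have h1 := table_eq hcomm χ hχ θ hθ hθV r.2 c.2
    have h2 := table_eq hcomm χ hχ θ hθ hθV r'.2 c'.2
    have h3 := table_eq hcomm χ hχ θ hθ hθV r.2 c'.2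
    have h4 := table_eq hcomm χ hχ θ hθ hθV r'.2 c.2
    simp only [a]
    rw [h1, h2, h3, h4]
    ring
  have hfew' : ((Finset.univ : Finset (RowT W₁ W₂ × ColT W₁ W₂)).filter
      (fun p => a p.1 p.2 ≠ 0)).card < 2 * Fintype.card (RowT W₁ W₂) := by
    rw [hcardR]
    have e : Nat.card {p : RowT W₁ W₂ × ColT W₁ W₂ // a p.1 p.2 ≠ 0} =
        Nat.card {ω : ↥(W₁ ⊔ W₂) →* ℂˣ // Cfsg.classInner θ (χ ω) ≠ 0} :=
      Nat.card_congr ((homEquiv hW).subtypeEquiv (fun p => Iff.rfl))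
    rw [← Fintype.card_subtype, ← Nat.card_eq_fintype_card, e]
    exact hfew
  rcases table_trichotomy a hm hrect hfew' with ⟨c₀, d, h⟩ | ⟨r₀, d, h⟩
  · right; left
    refine ⟨c₀.1, d, fun ω => ?_⟩
    obtain ⟨⟨r, c⟩, hrc⟩ := (homPair_bijective hW).2 ω
    simp only at hrc
    subst hrc
    have h1 : Cfsg.classInner θ (χ (r.1 * c.1)) = _ := h r c
    rw [h1]
    by_cases hc : c = c₀
    · rw [if_pos hc, if_pos ((col_iff hW r c c₀).mpr hc)]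
    · rw [if_neg hc, if_neg (fun h' => hc ((col_iff hW r c c₀).mp h'))]
  · right; right
    refine ⟨r₀.1, d, fun ω => ?_⟩
    obtain ⟨⟨r, c⟩, hrc⟩ := (homPair_bijective hW).2 ω
    simp only at hrc
    subst hrc
    have h1 : Cfsg.classInner θ (χ (r.1 * c.1)) = _ := h r c
    rw [h1]
    by_cases hc : r = r₀
    · rw [if_pos hc, if_pos ((row_iff hW r r₀ c).mpr hc)]
    · rw [if_neg hc, if_neg (fun h' => hc ((row_iff hW r r₀ c).mp h'))]

end Cfsg.Agent.S1507
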