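import Cfsg.Statements.S1508
import Cfsg.Agent.Lib.OddChar.TIGalois

set_option autoImplicit false
open Cfsg

namespace Cfsg.Agent.S1508

open Cfsg.Agent.Lib.Char Cfsg.Agent.Lib.OddChar

/-- Let W₁, W₂ ≤ G form a self-normalising cyclic subgroup W = W₁ ⊔ W₂ of odd order and χ an orthonormal family of irreducible characters of G up to sign, indexed by the linear characters ω of W, with χ_1 = 1, χ_ω = ω on W outside W₁ ∪ W₂, and the induction identity for (1 − φ)(1 − ψ). Let ω be a linear character of W and g an element of G whose order is coprime to the order of ω. Then χ ω g is an integer. -/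
theorem result {G : Type*} [Group G] [Fintype G] (W₁ W₂ : Subgroup G) (hW : Cfsg.IsSelfNormalizingCyclic W₁ W₂) (hodd : Odd (Nat.card ↥(W₁ ⊔ W₂))) (χ : (↥(W₁ ⊔ W₂) →* ℂˣ) → (G → ℂ)) (hχ : Cfsg.IsCyclicTIFamily W₁ W₂ χ) (ω : ↥(W₁ ⊔ W₂) →* ℂˣ) (g : G) (hg : Nat.Coprime (orderOf g) (orderOf ω)) : ∃ n : ℤ, χ ω g = n := by
  classical
  haveI : NeZero (orderOf g) := ⟨(orderOf_pos g).ne'⟩
  have hpm : IsPMIrr G (χ ω) := hχ.irr_or_neg ω
  have hint : IsIntegral ℤ (χ ω g) := by
    rcases hpm with h | h
    · exact IsCharacter.isIntegral (IsIrrCharacter.isCharacter h) g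
    · have := IsCharacter.isIntegral (IsIrrCharacter.isCharacter h) g
      simpa using this.neg
  have hmem : χ ω g ∈ cycField (orderOf g) := by
    rcases hpm with h | h
    · exact character_mem_cycField_order (IsIrrCharacter.isCharacter h) g
    · have := character_mem_cycField_order (IsIrrCharacter.isCharacter h) g
      have h2 := neg_mem this
      simpa using h2
  have hσ : ∀ (σ : ℂ →+* ℂ) (k : ℕ), (∀ ε : ℂ, ε ^ orderOf g = 1 → σ ε = ε ^ k) →
      σ (χ ω g) = χ ω (g ^ k) := by
    intro σ k hs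
    rcases hpm with h | h
    · exact sigma_character_order (IsIrrCharacter.isCharacter h) σ k g hs
    · have := sigma_character_order (IsIrrCharacter.isCharacter h) σ k g hs
      simp only [Pi.neg_apply, map_neg, neg_inj] at this
      exact this
  refine int_of_isIntegral_of_rat hint (rat_of_forall_sigma (orderOf g) hmem ?_)
  intro σ k hk hs
  have hd : orderOf g * orderOf ω ∣ Nat.card G := by
    refine Nat.Coprime.mul_dvd_of_dvd_of_dvd hg (orderOf_dvd_natCard g) ?_
    haveI := finite_homW hW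
    have h1 : orderOf ω ∣ Nat.card (↥(W₁ ⊔ W₂) →* ℂˣ) := orderOf_dvd_natCard ω
    rw [card_hom (W_comm_of_cyclic hW)] at h1
    exact h1.trans (Subgroup.card_subgroup_dvd_card _)
  obtain ⟨k', h1, h2, h3⟩ := exists_exponent Nat.card_pos.ne' hg hd hk
  rw [hσ σ k hs]
  have h4 : g ^ k = g ^ k' := pow_eq_pow_iff_modEq.mpr h2.symm
  have h5 : ω ^ k' = ω := by
    have := (pow_eq_pow_iff_modEq (x := ω)).mpr h3
    simpa using this
  rw [h4, family_apply_pow hW hodd χ hχ ω h1, h5]

end Cfsg.Agent.S1508
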