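import Cfsg.Statements.S1509
import Cfsg.Agent.Lib.OddChar.Inner

set_option autoImplicit false
open Cfsg

namespace Cfsg.Agent.S1509

open Cfsg.Agent.Lib.Char Cfsg.Agent.Lib.OddChar

private theorem key {X : Type*} [Group X] [Fintype X] (α β γ δ : X → ℂ) (hα : IsPMIrr X α)
    (hβ : IsPMIrr X β) (hγ : IsPMIrr X γ) (hδ : IsPMIrr X δ) (u v : ℝ) (hv : v ≠ 0)
    (hab : Cfsg.classInner α β = 0) (hcd : Cfsg.classInner γ δ = 0)
    (hmix : Cfsg.classInner (α - β) ((u : ℂ) • γ - (v : ℂ) • δ) = 0) (h1 : α 1 = β 1)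
    (h2 : (u : ℂ) * γ 1 = (v : ℂ) * δ 1) : Cfsg.classInner α γ = 0 := by
  have hv' : (v : ℂ) ≠ 0 := by exact_mod_cast hv
  have hg := IsPMIrr.apply_one_ne_zero hγ
  have hba : Cfsg.classInner β α = 0 := by
    rw [classInner_conj_symm, hab, map_zero]
  rw [classInner_sub_left, classInner_sub_right, classInner_sub_right, classInner_smul_right,
    classInner_smul_right, classInner_smul_right, classInner_smul_right, Complex.conj_ofReal,
    Complex.conj_ofReal] at hmix
  rcases IsPMIrr.classInner_cases hα hγ with h | ⟨e, hA⟩ | ⟨e, hA⟩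
  · exact h
  · exfalso
    subst e
    have h3 : Cfsg.classInner β α = 0 := hba
    rw [hA, hcd, h3] at hmix
    rcases IsPMIrr.classInner_cases hβ hδ with h | ⟨e', hB⟩ | ⟨e', hB⟩
    · rw [h] at hmix
      have hu : (u : ℂ) = 0 := by linear_combination hmix
      rw [hu, zero_mul] at h2
      rcases mul_eq_zero.mp h2.symm with h4 | h4
      · exact hv' h4
      · exact IsPMIrr.apply_one_ne_zero hδ h4
    · subst e'
      rw [hB] at hmix
      have : (v : ℂ) * α 1 = 0 := by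
        linear_combination (1 / 2) * α 1 * hmix - (1 / 2) * h2 + (1 / 2) * (v : ℂ) * h1
      exact (mul_ne_zero hv' hg) this
    · subst e'
      rw [hB] at hmix
      simp only [Pi.neg_apply] at h1
      have : (v : ℂ) * α 1 = 0 := by
        linear_combination -(1 / 2) * α 1 * hmix + (1 / 2) * h2 + (1 / 2) * (v : ℂ) * h1
      exact (mul_ne_zero hv' hg) this
  · exfalso
    subst e
    have h3 : Cfsg.classInner β γ = 0 := by
      rw [classInner_neg_right] at hba
      simpa using hba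
    have h4 : Cfsg.classInner (-γ) δ = 0 := by
      rw [classInner_neg_left, hcd, neg_zero]
    rw [hA, h4, h3] at hmix
    simp only [Pi.neg_apply] at h1
    rcases IsPMIrr.classInner_cases hβ hδ with h | ⟨e', hB⟩ | ⟨e', hB⟩
    · rw [h] at hmix
      have hu : (u : ℂ) = 0 := by linear_combination -hmix
      rw [hu, zero_mul] at h2
      rcases mul_eq_zero.mp h2.symm with h4 | h4
      · exact hv' h4
      · exact IsPMIrr.apply_one_ne_zero hδ h4
    · subst e'
      rw [hB] at hmix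
      have : (v : ℂ) * γ 1 = 0 := by
        linear_combination (1 / 2) * γ 1 * hmix + (1 / 2) * h2 - (1 / 2) * (v : ℂ) * h1
      exact (mul_ne_zero hv' hg) this
    · subst e'
      rw [hB] at hmix
      simp only [Pi.neg_apply] at h1
      have : (v : ℂ) * γ 1 = 0 := by
        linear_combination -(1 / 2) * γ 1 * hmix - (1 / 2) * h2 - (1 / 2) * (v : ℂ) * h1
      exact (mul_ne_zero hv' hg) this

/-- Let α, β, γ, δ be functions on a finite group X each of which is an irreducible character or the negative of one, and u, v nonzero real numbers. Suppose ⟨α, β⟩ = ⟨γ, δ⟩ = 0, ⟨α − β, uγ − vδ⟩ = 0, α 1 = β 1 and u γ 1 = v δ 1. Then also ⟨α, γ⟩ = ⟨α, δ⟩ = ⟨β, γ⟩ = ⟨β, δ⟩ = 0. -/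
theorem result {X : Type*} [Group X] [Fintype X] (α β γ δ : X → ℂ) (hα : Cfsg.IsIrrCharacter X α ∨ Cfsg.IsIrrCharacter X (-α)) (hβ : Cfsg.IsIrrCharacter X β ∨ Cfsg.IsIrrCharacter X (-β)) (hγ : Cfsg.IsIrrCharacter X γ ∨ Cfsg.IsIrrCharacter X (-γ)) (hδ : Cfsg.IsIrrCharacter X δ ∨ Cfsg.IsIrrCharacter X (-δ)) (u v : ℝ) (hu : u ≠ 0) (hv : v ≠ 0) (hab : Cfsg.classInner α β = 0) (hcd : Cfsg.classInner γ δ = 0) (hmix : Cfsg.classInner (α - β) ((u : ℂ) • γ - (v : ℂ) • δ) = 0) (h1 : α 1 = β 1) (h2 : (u : ℂ) * γ 1 = (v : ℂ) * δ 1) : Cfsg.classInner α γ = 0 ∧ Cfsg.classInner α δ = 0 ∧ Cfsg.classInner β γ = 0 ∧ Cfsg.classInner β δ = 0 := by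
  have hba : Cfsg.classInner β α = 0 := by
    rw [classInner_conj_symm, hab, map_zero]
  have hdc : Cfsg.classInner δ γ = 0 := by
    rw [classInner_conj_symm, hcd, map_zero]
  have e1 : (v : ℂ) • δ - (u : ℂ) • γ = -((u : ℂ) • γ - (v : ℂ) • δ) := (neg_sub _ _).symm
  have e2 : β - α = -(α - β) := (neg_sub _ _).symm
  have hmix2 : Cfsg.classInner (α - β) ((v : ℂ) • δ - (u : ℂ) • γ) = 0 := by
    rw [e1, classInner_neg_right, hmix, neg_zero]
  have hmix3 : Cfsg.classInner (β - α) ((u : ℂ) • γ - (v : ℂ) • δ) = 0 := by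
    rw [e2, classInner_neg_left, hmix, neg_zero]
  have hmix4 : Cfsg.classInner (β - α) ((v : ℂ) • δ - (u : ℂ) • γ) = 0 := by
    rw [e1, classInner_neg_right, hmix3, neg_zero]
  exact ⟨key α β γ δ hα hβ hγ hδ u v hv hab hcd hmix h1 h2,
    key α β δ γ hα hβ hδ hγ v u hu hab hdc hmix2 h1 h2.symm,
    key β α γ δ hβ hα hγ hδ u v hv hba hcd hmix3 h1.symm h2,
    key β α δ γ hβ hα hδ hγ v u hu hba hdc hmix4 h1.symm h2.symm⟩

end Cfsg.Agent.S1509
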