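import Cfsg.Statements.S1510
import Cfsg.Agent.Lib.OddChar.CyclicTI2

set_option autoImplicit false
open Cfsg

namespace Cfsg.Agent.S1510

open Cfsg.Agent.Lib.Char Cfsg.Agent.Lib.OddChar

theorem isCyclic_sup_of_coprime {G : Type*} [Group G] {W₁ W₂ : Subgroup G}
    (hcomm : ∀ a ∈ W₁, ∀ b ∈ W₂, a * b = b * a) (h1 : IsCyclic W₁) (h2 : IsCyclic W₂)
    (hc : Nat.Coprime (Nat.card W₁) (Nat.card W₂)) : IsCyclic ↥(W₁ ⊔ W₂) := by
  have hp : IsCyclic (W₁ × W₂) := Group.isCyclic_prod_iff.mpr ⟨h1, h2, hc⟩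
  let f : W₁ × W₂ →* ↥(W₁ ⊔ W₂) :=
    { toFun := fun p => ⟨p.1 * p.2, mul_mem (le_sup_left (a := W₁) p.1.2) (le_sup_right (b := W₂) p.2.2)⟩
      map_one' := by ext; simp
      map_mul' := by
        intro p q
        ext
        simp only [Prod.fst_mul, Prod.snd_mul, Subgroup.coe_mul]
        calc (p.1 : G) * q.1 * (p.2 * q.2) = p.1 * (q.1 * p.2) * q.2 := by group
          _ = p.1 * (p.2 * q.1) * q.2 := by rw [hcomm q.1 q.1.2 p.2 p.2.2]
          _ = p.1 * p.2 * (q.1 * q.2) := by group }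
  refine isCyclic_of_surjective f ?_
  intro w
  obtain ⟨a, ha, b, hb, hab⟩ := W_decomp hcomm w
  exact ⟨(⟨a, ha⟩, ⟨b, hb⟩), Subtype.ext hab⟩

/-- Let L be a finite group with a normal subgroup K and a nontrivial cyclic subgroup W₁ of order coprime to its index, K ⊓ W₁ = ⊥ and K ⊔ W₁ = ⊤; let W₂ ≠ ⊥ be a cyclic subgroup of K with K ⊓ C_L(x) = W₂ for every non-identity x ∈ W₁, and suppose W₁ ⊔ W₂ has odd order. Then (W₁, W₂) is a self-normalising cyclic pair in L. -/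
theorem result {L : Type*} [Group L] [Fintype L] (K W₁ W₂ : Subgroup L) [hK : K.Normal] (hKW₁ : K ⊓ W₁ = ⊥) (hKW₁' : K ⊔ W₁ = ⊤) (hW₁ : W₁ ≠ ⊥) (hW₁c : IsCyclic W₁) (hHall : Nat.Coprime (Nat.card W₁) W₁.index) (hW₂ : W₂ ≠ ⊥) (hW₂c : IsCyclic W₂) (hW₂K : W₂ ≤ K) (hC : ∀ x ∈ W₁, x ≠ 1 → K ⊓ Subgroup.centralizer ({x} : Set L) = W₂) (hodd : Odd (Nat.card ↥(W₁ ⊔ W₂))) : Cfsg.IsSelfNormalizingCyclic W₁ W₂ := by
  classical
  have hdisj : W₁ ⊓ W₂ = ⊥ := by
    rw [eq_bot_iff]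
    intro a ha
    have : a ∈ K ⊓ W₁ := ⟨hW₂K ha.2, ha.1⟩
    rwa [hKW₁] at this
  have hcomm : ∀ a ∈ W₁, ∀ b ∈ W₂, a * b = b * a := by
    intro a ha b hb
    by_cases ha1 : a = 1
    · subst ha1; simp
    have hb' : b ∈ K ⊓ Subgroup.centralizer ({a} : Set L) := by
      rw [hC a ha ha1]; exact hb
    have := Subgroup.mem_centralizer_iff.mp hb'.2 a (by simp)
    exact this
  have hdecomp : ∀ g : L, ∃ k ∈ K, ∃ c ∈ W₁, k * c = g := by
    intro g
    have : g ∈ K ⊔ W₁ := by rw [hKW₁']; trivial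
    exact Subgroup.mem_sup_of_normal_left.mp this
  have hcompl : Subgroup.IsComplement' K W₁ := by
    refine Subgroup.isComplement'_of_disjoint_and_mul_eq_univ ?_ ?_
    · rw [disjoint_iff, hKW₁]
    · ext g
      simp only [Set.mem_mul, Set.mem_univ, iff_true, SetLike.mem_coe]
      obtain ⟨k, hk, c, hc, h⟩ := hdecomp g
      exact ⟨k, hk, c, hc, h⟩
  have hcop : Nat.Coprime (Nat.card W₁) (Nat.card K) := by
    rwa [← hcompl.index_eq_card]
  have hcop2 : Nat.Coprime (Nat.card W₁) (Nat.card W₂) :=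
    Nat.Coprime.coprime_dvd_right (Subgroup.card_dvd_of_le hW₂K) hcop
  refine ⟨hW₁, hW₂, hdisj, hcomm, isCyclic_sup_of_coprime hcomm hW₁c hW₂c hcop2, ?_⟩
  have hW₁comm : ∀ a ∈ W₁, ∀ b ∈ W₁, a * b = b * a := by
    intro a ha b hb
    letI := IsCyclic.commGroup (α := W₁)
    have := mul_comm (⟨a, ha⟩ : W₁) ⟨b, hb⟩
    exact congrArg Subtype.val this
  have hW₂comm : ∀ a ∈ W₂, ∀ b ∈ W₂, a * b = b * a := by
    intro a ha b hb
    letI := IsCyclic.commGroup (α := W₂)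
    have := mul_comm (⟨a, ha⟩ : W₂) ⟨b, hb⟩
    exact congrArg Subtype.val this
  have hWcomm := W_comm hcomm hW₁comm hW₂comm
  have hWcomm' : ∀ a ∈ W₁ ⊔ W₂, ∀ b ∈ W₁ ⊔ W₂, a * b = b * a := fun a ha b hb =>
    congrArg Subtype.val (hWcomm ⟨a, ha⟩ ⟨b, hb⟩)
  intro X hX hne
  apply le_antisymm
  · intro g hg
    have hmem : ∀ n, n ∈ X ↔ g * n * g⁻¹ ∈ X := hg
    obtain ⟨x, hx⟩ := hne
    obtain ⟨hxW, hxnot⟩ := hX hx
    obtain ⟨a, ha, b, hb, hab⟩ := W_decomp hcomm ⟨x, hxW⟩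
    have hx' := (hmem x).1 hx
    obtain ⟨a', ha', b', hb', hab'⟩ := W_decomp hcomm ⟨g * x * g⁻¹, (hX hx').1⟩
    simp only at hab hab'
    have ha1 : a ≠ 1 := by
      rintro rfl
      apply hxnot
      right
      rw [one_mul] at hab
      rw [← hab]
      exact hb
    obtain ⟨k, hk, c, hc, hkc⟩ := hdecomp g
    -- `a' = a`
    have haa : a' = a := by
      have h1 : a⁻¹ * (g * a * g⁻¹) ∈ K := by
        have : a⁻¹ * (g * a * g⁻¹) = (a⁻¹ * k * a) * k⁻¹ := by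
          rw [← hkc]
          have : c * a * c⁻¹ = a := by rw [hW₁comm c hc a ha]; group
          calc a⁻¹ * (k * c * a * (k * c)⁻¹) = a⁻¹ * (k * (c * a * c⁻¹) * k⁻¹) := by group
            _ = _ := by rw [this]; group
        rw [this]
        refine K.mul_mem ?_ (K.inv_mem hk)
        have := hK.conj_mem k hk a⁻¹
        simpa using this
      have h2 : g * b * g⁻¹ ∈ K := hK.conj_mem b (hW₂K hb) g
      have h3 : a⁻¹ * a' ∈ K := by
        have e : a⁻¹ * a' = (a⁻¹ * (g * a * g⁻¹)) * (g * b * g⁻¹) * b'⁻¹ := by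
          have : g * a * g⁻¹ * (g * b * g⁻¹) = a' * b' := by
            rw [hab', ← hab]; group
          calc a⁻¹ * a' = a⁻¹ * (a' * b') * b'⁻¹ := by group
            _ = _ := by rw [← this]; group
        rw [e]
        exact K.mul_mem (K.mul_mem h1 h2) (K.inv_mem (hW₂K hb'))
      have h4 : a⁻¹ * a' ∈ K ⊓ W₁ := ⟨h3, W₁.mul_mem (W₁.inv_mem ha) ha'⟩
      rw [hKW₁, Subgroup.mem_bot] at h4
      exact (inv_mul_eq_one.mp h4).symm
    subst haa
    -- a power of `x`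
    have hcrt : ∃ n : ℕ, n ≡ 1 [MOD Nat.card W₁] ∧ n ≡ 0 [MOD Nat.card W₂] :=
      let z := Nat.chineseRemainder hcop2 1 0
      ⟨z, z.2.1, z.2.2⟩
    obtain ⟨n, hn1, hn2⟩ := hcrt
    have hpow1 : ∀ u ∈ W₁, u ^ n = u := by
      intro u hu
      have : (⟨u, hu⟩ : W₁) ^ n = ⟨u, hu⟩ := by
        have := pow_eq_pow_iff_modEq.mpr ((Nat.ModEq.of_dvd (orderOf_dvd_natCard (⟨u, hu⟩ : W₁)) hn1))
        simpa using this
      exact congrArg Subtype.val this
    have hpow2 : ∀ u ∈ W₂, u ^ n = 1 := by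
      intro u hu
      have : (⟨u, hu⟩ : W₂) ^ n = 1 := by
        have := pow_eq_pow_iff_modEq.mpr ((Nat.ModEq.of_dvd (orderOf_dvd_natCard (⟨u, hu⟩ : W₂)) hn2))
        simpa using this
      exact congrArg Subtype.val this
    have hfix : g * a' * g⁻¹ = a' := by
      have h1 : (a' * b) ^ n = a' := by
        rw [(show Commute a' b from hcomm a' ha b hb).mul_pow, hpow1 _ ha, hpow2 _ hb, mul_one]
      have h2 : (a' * b') ^ n = a' := by
        rw [(show Commute a' b' from hcomm a' ha b' hb').mul_pow, hpow1 _ ha, hpow2 _ hb', mul_one]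
      have h3 : (g * (a' * b) * g⁻¹) ^ n = g * (a' * b) ^ n * g⁻¹ := by
        exact conj_pow
      rw [h1, hab, ← hab', h2] at h3
      exact h3.symm
    -- `k` centralises `a'`
    have hka : k * a' * k⁻¹ = a' := by
      have : c * a' * c⁻¹ = a' := by rw [hW₁comm c hc a' ha]; group
      rw [← hkc] at hfix
      calc k * a' * k⁻¹ = k * (c * a' * c⁻¹) * k⁻¹ := by rw [this]
        _ = k * c * a' * (k * c)⁻¹ := by group
        _ = a' := hfix
    have hkW : k ∈ W₂ := by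
      rw [← hC a' ha ha1]
      refine ⟨hk, Subgroup.mem_centralizer_iff.mpr ?_⟩
      intro y hy
      rw [Set.mem_singleton_iff] at hy
      subst hy
      exact (mul_inv_eq_iff_eq_mul.mp hka).symm
    rw [← hkc]
    exact Subgroup.mul_mem _ (le_sup_right (a := W₁) hkW) (le_sup_left (a := W₁) hc)
  · intro g hg
    have hmem : ∀ n, n ∈ X ↔ g * n * g⁻¹ ∈ X := by
      intro n
      constructor
      · intro hn
        have := hWcomm' g hg n (hX hn).1
        rwa [this, mul_inv_cancel_right]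
      · intro hn
        have := hWcomm' g⁻¹ (Subgroup.inv_mem _ hg) _ (hX hn).1
        have e : g⁻¹ * (g * n * g⁻¹) * g⁻¹⁻¹ = n := by group
        rw [this, mul_inv_cancel_right] at e
        rwa [e] at hn
    exact hmem

end Cfsg.Agent.S1510
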