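import Cfsg.Statements.S1511
import Cfsg.Agent.S1510
import Cfsg.Agent.Lib.OddChar.PLike2

set_option autoImplicit false
open Cfsg

namespace Cfsg.Agent.S1511

open Cfsg.Agent.Lib.Char Cfsg.Agent.Lib.OddChar Cfsg.Agent.Lib.OddChar.PLike

private theorem gen_of_char {X : Type*} [Group X] [Fintype X] {χ : X → ℂ} (hχ : IsCharacter X χ) :
    IsGeneralizedCharacter X χ :=
  ⟨χ, 0, hχ, ⟨0, ⟨1, by
    funext g
    simp [Representation.character]⟩⟩, by simp⟩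

/-- Let L be a finite group with K normal with complement W₁ ≠ 1 a cyclic Hall subgroup, and W₂ ≠ 1 a cyclic subgroup of K equal to C_K(x) for every non-identity x ∈ W₁, with W₁W₂ of odd order. Then there are a map μ from the linear characters of W = W₁ ⊔ W₂ to irreducible characters of L, injective, and a sign δ(ω) ∈ {1, −1} depending only on the values of ω on W₂, such that: for ω, ω' agreeing on W₂, the function induced to L from ω − ω' equals δ(ω) • (μ ω − μ ω'); μ ω x = δ(ω) ω x for x ∈ W outside W₂; every irreducible character of L not of the form μ ω vanishes on W outside W₂; and μ ω 1 − δ(ω) is an integer multiple of Nat.card W₁. -/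
theorem result {L : Type*} [Group L] [Fintype L] (K W₁ W₂ : Subgroup L) [hK : K.Normal] (hKW₁ : K ⊓ W₁ = ⊥) (hKW₁' : K ⊔ W₁ = ⊤) (hW₁ : W₁ ≠ ⊥) (hW₁c : IsCyclic W₁) (hHall : Nat.Coprime (Nat.card W₁) W₁.index) (hW₂ : W₂ ≠ ⊥) (hW₂c : IsCyclic W₂) (hW₂K : W₂ ≤ K) (hC : ∀ x ∈ W₁, x ≠ 1 → K ⊓ Subgroup.centralizer ({x} : Set L) = W₂) (hodd : Odd (Nat.card ↥(W₁ ⊔ W₂))) : ∃ (μ : (↥(W₁ ⊔ W₂) →* ℂˣ) → (L → ℂ)) (δ : (↥(W₁ ⊔ W₂) →* ℂˣ) → ℂ), Function.Injective μ ∧ (∀ ω, Cfsg.IsIrrCharacter L (μ ω)) ∧ (∀ ω, δ ω = 1 ∨ δ ω = -1) ∧ (∀ ω ω' : ↥(W₁ ⊔ W₂) →* ℂˣ, (∀ w : ↥(W₁ ⊔ W₂), (w : L) ∈ W₂ → ω w = ω' w) → δ ω = δ ω' ∧ Cfsg.indFun (W₁ ⊔ W₂) (fun w => (ω w : ℂ) - (ω' w : ℂ)) = δ ω • (μ ω - μ ω')) ∧ (∀ ω, ∀ w : ↥(W₁ ⊔ W₂), (w : L) ∉ W₂ → μ ω w = δ ω * (ω w : ℂ)) ∧ (∀ θ : L → ℂ, Cfsg.IsIrrCharacter L θ → (∀ ω, θ ≠ μ ω) → ∀ w : ↥(W₁ ⊔ W₂), (w : L) ∉ W₂ → θ w = 0) ∧ (∀ ω, ∃ n : ℤ, μ ω 1 - δ ω = n * (Nat.card W₁ : ℂ))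 := by
  classical
  have h : PLike K W₁ W₂ := ⟨hK, hKW₁, hKW₁', hW₁, hW₁c, hHall, hW₂, hW₂c, hW₂K, hC⟩
  have hW := Cfsg.Agent.S1510.result K W₁ W₂ hKW₁ hKW₁' hW₁ hW₁c hHall hW₂ hW₂c hW₂K hC hodd
  letI : Fintype ↥(W₁ ⊔ W₂) := Fintype.ofFinite _
  letI : Fintype W₁ := Fintype.ofFinite _
  haveI := finite_rowT hW
  haveI := finite_colT hW
  have hfam := fun c => h.exists_family hW c
  choose ε hε μ hirr hinj hτ using hfam
  let e := homEquiv hW
  have hpr : ∀ (r : RowT W₁ W₂) (c : ColT W₁ W₂), e.symm (r.1 * c.1) = (r, c) := fun r c =>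
    e.symm_apply_apply (r, c)
  have hval := fun c r v hv => family_values h hW c (hε c) (hirr c) (hinj c) (hτ c) r v hv
  have hcol : ∀ (r r' : RowT W₁ W₂) (c c' : ColT W₁ W₂),
      (∀ w : ↥(W₁ ⊔ W₂), (w : L) ∈ W₂ → (r.1 * c.1) w = (r'.1 * c'.1) w) → c = c' := by
    intro r r' c c' hag
    apply (col_iff hW (rowOne W₁ W₂) c c').mp
    intro w hw
    have h1 := hag w hw
    simp only [MonoidHom.mul_apply, r.2 w hw, r'.2 w hw, one_mul] at h1
    simp only [MonoidHom.mul_apply, MonoidHom.inv_apply, rowOne, MonoidHom.one_apply, one_mul, h1]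
    simp
  refine ⟨fun ω => μ (e.symm ω).2 (e.symm ω).1, fun ω => ε (e.symm ω).2, ?_, ?_, ?_, ?_, ?_, ?_, ?_⟩
  · -- injective
    intro ω ω' he
    obtain ⟨⟨r, c⟩, hrc⟩ := (homPair_bijective hW).2 ω
    obtain ⟨⟨r', c'⟩, hrc'⟩ := (homPair_bijective hW).2 ω'
    simp only at hrc hrc'
    subst hrc hrc'
    simp only [hpr] at he
    obtain ⟨⟨x, hx⟩, hx1⟩ := (Subgroup.ne_bot_iff_exists_ne_one).mp hW₁
    have hx1' : x ≠ 1 := fun h' => hx1 (Subtype.ext h')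
    let xx : ↥(W₁ ⊔ W₂) := ⟨x, le_sup_left (a := W₁) hx⟩
    have hvals : ∀ (ρ : RowT W₁ W₂) (d : ColT W₁ W₂) (w : ↥(W₁ ⊔ W₂)), (w : L) ∈ W₂ →
        (((ρ.1 * d.1) (xx * w) : ℂˣ) : ℂ) = ((ρ.1 xx : ℂˣ) : ℂ) * ((d.1 w : ℂˣ) : ℂ) := by
      intro ρ d w hw
      simp only [MonoidHom.mul_apply, map_mul, ρ.2 w hw, d.2 xx hx, Units.val_mul, Units.val_one]
      ring
    have hnot : ∀ w : ↥(W₁ ⊔ W₂), (w : L) ∈ W₂ → ((xx * w : ↥(W₁ ⊔ W₂)) : L) ∉ W₂ := by
      intro w hw hm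
      have h1 : x ∈ W₂ := by
        have e1 : x = ((xx * w : ↥(W₁ ⊔ W₂)) : L) * (w : L)⁻¹ := by
          simp [xx]
        rw [e1]
        exact W₂.mul_mem hm (W₂.inv_mem hw)
      have h2 : x ∈ W₁ ⊓ W₂ := ⟨hx, h1⟩
      rw [hW.2.2.1] at h2
      exact hx1' h2
    have hkey : ∀ w : ↥(W₁ ⊔ W₂), (w : L) ∈ W₂ → ε c * ((r.1 xx : ℂˣ) : ℂ) * ((c.1 w : ℂˣ) : ℂ) =
        ε c' * ((r'.1 xx : ℂˣ) : ℂ) * ((c'.1 w : ℂˣ) : ℂ) := by
      intro w hw
      have h1 := hval c r _ (hnot w hw)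
      have h2 := hval c' r' _ (hnot w hw)
      rw [he, h2, hvals r' c' w hw, hvals r c w hw] at h1
      linear_combination -h1
    have hbase := hkey 1 W₂.one_mem
    simp only [map_one, Units.val_one, mul_one] at hbase
    have hne0 : ε c * ((r.1 xx : ℂˣ) : ℂ) ≠ 0 := by
      refine mul_ne_zero ?_ (Units.ne_zero _)
      rcases hε c with e' | e' <;> rw [e'] <;> norm_num
    have hc : c = c' := by
      apply hcol r r' c c'
      intro w hw
      have h1 := hkey w hw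
      rw [← hbase] at h1
      have h2 := mul_left_cancel₀ hne0 h1
      have h3 : c.1 w = c'.1 w := Units.ext h2
      simp only [MonoidHom.mul_apply, r.2 w hw, r'.2 w hw, one_mul, h3]
    subst hc
    have hr : r = r' := hinj c he
    rw [hr]
  · intro ω
    exact hirr _ _
  · intro ω
    exact hε _
  · intro ω ω' hag
    obtain ⟨⟨r, c⟩, hrc⟩ := (homPair_bijective hW).2 ω
    obtain ⟨⟨r', c'⟩, hrc'⟩ := (homPair_bijective hW).2 ω'
    simp only at hrc hrc'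
    subst hrc hrc'
    obtain rfl := hcol r r' c c' hag
    refine ⟨by simp only [hpr], ?_⟩
    simp only [hpr]
    have hfun : (fun w : ↥(W₁ ⊔ W₂) => (((r.1 * c.1) w : ℂˣ) : ℂ) - (((r'.1 * c.1) w : ℂˣ) : ℂ)) =
        alphaRC r c - alphaRC r' c := by
      funext w
      simp [alphaRC]
    rw [hfun, indFun_sub, hτ, hτ, ← smul_sub]
    congr 1
    abel
  · intro ω w hw
    obtain ⟨⟨r, c⟩, hrc⟩ := (homPair_bijective hW).2 ω
    simp only at hrc
    subst hrc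
    simp only [hpr]
    exact hval c r w hw
  · intro θ hθ hne w hw
    refine eq_zero_of_orthogonal_alphaRC hW (fun u => θ u) ?_ w hw
    intro r c
    have h1 := classInner_indFun_left (W₁ ⊔ W₂) (alphaRC r c) θ
      (IsCharacter.isClassFunction (IsIrrCharacter.isCharacter hθ))
    rw [← h1, hτ, classInner_smul_left, classInner_sub_left]
    have hne' : ∀ r' : RowT W₁ W₂, μ c r' ≠ θ := by
      intro r' he
      apply hne (r'.1 * c.1)
      simp only [hpr]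
      exact he.symm
    rw [classInner_irr_of_ne (hirr c r) hθ (hne' r), classInner_irr_of_ne (hirr c _) hθ (hne' _)]
    simp
  · intro ω
    obtain ⟨⟨r, c⟩, hrc⟩ := (homPair_bijective hW).2 ω
    simp only at hrc
    subst hrc
    simp only [hpr]
    -- the function on `W₁`
    let ι : W₁ →* ↥(W₁ ⊔ W₂) := Subgroup.inclusion le_sup_left
    let ψ : W₁ →* ℂˣ := (r.1 * c.1).comp ι
    let g : W₁ → ℂ := (fun x : W₁ => μ c r x) - (ε c) • (fun x : W₁ => ((ψ x : ℂˣ) : ℂ))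
    have hchar : IsCharacter W₁ (fun x : W₁ => μ c r x) :=
      IsCharacter.comp (IsIrrCharacter.isCharacter (hirr c r)) W₁.subtype
    have hψ : IsCharacter W₁ (fun x => ((ψ x : ℂˣ) : ℂ)) :=
      IsIrrCharacter.isCharacter (isIrrCharacter_of_monoidHom ψ)
    have hg : IsGeneralizedCharacter W₁ g := by
      rcases hε c with e' | e'
      · simp only [g, e', one_smul]
        exact ⟨_, _, hchar, hψ, rfl⟩
      · simp only [g, e', neg_smul, one_smul, sub_neg_eq_add]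
        exact IsGeneralizedCharacter.add (gen_of_char hchar) (gen_of_char hψ)
    obtain ⟨n, hn⟩ := IsGeneralizedCharacter.classInner_int hg (gen_of_char (IsIrrCharacter.isCharacter
      (isIrrCharacter_one (G := W₁))))
    have hzero : ∀ x : W₁, x ≠ 1 → g x = 0 := by
      intro x hx
      have hx2 : ((ι x : ↥(W₁ ⊔ W₂)) : L) ∉ W₂ := by
        intro hm
        have h2 : (x : L) ∈ W₁ ⊓ W₂ := ⟨x.2, hm⟩
        rw [hW.2.2.1] at h2
        exact hx (Subtype.ext h2)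
      have h1 := hval c r (ι x) hx2
      simp only [g, Pi.sub_apply, Pi.smul_apply, smul_eq_mul]
      have h3 : (x : L) = ((ι x : ↥(W₁ ⊔ W₂)) : L) := rfl
      rw [h3, h1]
      simp [ψ]
    have hsum : Cfsg.classInner g (fun _ => 1) = (Nat.card W₁ : ℂ)⁻¹ * g 1 := by
      simp only [Cfsg.classInner, map_one, mul_one]
      congr 1
      refine Finset.sum_eq_single 1 (fun x _ hx => hzero x hx) (fun h' => absurd (Finset.mem_univ _) h')
    have hg1 : g 1 = μ c r 1 - ε c := by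
      simp [g, ψ]
    refine ⟨n, ?_⟩
    have hcard0 : (Nat.card W₁ : ℂ) ≠ 0 := by exact_mod_cast Nat.card_pos.ne'
    rw [hsum, hg1] at hn
    field_simp at hn
    linear_combination hn

end Cfsg.Agent.S1511
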