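import Cfsg.Statements.S1513
import Cfsg.Agent.S1491
import Cfsg.Agent.Lib.OddChar.PLike
import Cfsg.Agent.Lib.OddChar.PLike3
import Cfsg.Agent.Lib.OddChar.Inertia
import Cfsg.Agent.Lib.Char.IndNormal

set_option autoImplicit false
open Cfsg

namespace Cfsg.Agent.S1513

open Cfsg.Agent.Lib.Char Cfsg.Agent.Lib.OddChar Cfsg.Agent.Lib.OddChar.PLike

/-- Let L be a finite group with K normal with complement W₁ ≠ 1 a cyclic Hall subgroup, and W₂ ≠ 1 a cyclic subgroup of K equal to C_K(x) for every non-identity x ∈ W₁, with W₁W₂ of odd order. For an irreducible character θ of K: if θ is not fixed under conjugation by some element of W₁, then the function induced from θ to L is an irreducible character of L; and the irreducible characters of K fixed by all of W₁ are exactly Nat.card W₂ in number, each inducing to the sum of Nat.card W₁ pairwise distinct irreducible characters of L. -/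
theorem result {L : Type*} [Group L] [Fintype L] (K W₁ W₂ : Subgroup L) [hK : K.Normal] (hKW₁ : K ⊓ W₁ = ⊥) (hKW₁' : K ⊔ W₁ = ⊤) (hW₁ : W₁ ≠ ⊥) (hW₁c : IsCyclic W₁) (hHall : Nat.Coprime (Nat.card W₁) W₁.index) (hW₂ : W₂ ≠ ⊥) (hW₂c : IsCyclic W₂) (hW₂K : W₂ ≤ K) (hC : ∀ x ∈ W₁, x ≠ 1 → K ⊓ Subgroup.centralizer ({x} : Set L) = W₂) (hodd : Odd (Nat.card ↥(W₁ ⊔ W₂))) : (∀ θ : K → ℂ, Cfsg.IsIrrCharacter K θ → (∃ x ∈ W₁, (fun k : K => θ ⟨x * k * x⁻¹, hK.conj_mem (k : L) k.2 x⟩) ≠ θ) → Cfsg.IsIrrCharacter L (Cfsg.indFun K θ)) ∧ Nat.card {θ : Cfsg.IrrCharacter K // ∀ x ∈ W₁, (fun k : K => (θ : K → ℂ) ⟨x * k * x⁻¹, hK.conj_mem (k : L) k.2 x⟩) = θ} = Nat.card W₂ ∧ (∀ θ : K → ℂ, Cfsg.IsIrrCharacter K θ → (∀ x ∈ W₁, (fun k : K => θ ⟨x * k * x⁻¹, hK.conj_mem (k : L) k.2 x⟩) = θ) → ∃ C : Finset (L → ℂ), C.card = Nat.card W₁ ∧ (∀ μ ∈ C, Cfsg.IsIrrCharacter L μ) ∧ Cfsg.indFun K θ = ∑ μ ∈ C, μ) := by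
  classical
  have h : PLike K W₁ W₂ := ⟨hK, hKW₁, hKW₁', hW₁, hW₁c, hHall, hW₂, hW₂c, hW₂K, hC⟩
  letI : Fintype K := Fintype.ofFinite _
  haveI := hW₁c
  obtain ⟨⟨y, hyW⟩, hy⟩ := IsCyclic.exists_generator (α := W₁)
  have hW₁eq : ∀ x ∈ W₁, x ∈ Subgroup.zpowers y := by
    intro x hx
    obtain ⟨n, hn⟩ := hy ⟨x, hx⟩
    refine ⟨n, ?_⟩
    have := congrArg Subtype.val hn
    simpa using this
  have hy1 : y ≠ 1 := by
    rintro rfl
    apply hW₁
    rw [eq_bot_iff]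
    intro x hx
    have := hW₁eq x hx
    simpa using this
  have hord : ∀ x ∈ W₁, Nat.Coprime (orderOf x) (Nat.card K) := fun x hx =>
    Nat.Coprime.coprime_dvd_left (Subgroup.orderOf_dvd_natCard W₁ hx) h.coprime
  have hfixcard : ∀ x ∈ W₁, x ≠ 1 →
      Nat.card {χ : IrrCharacter K // (χ : K → ℂ) ∘ (MulAut.conjNormal x : MulAut K) = (χ : K → ℂ)} =
        Nat.card W₂ := by
    intro x hx hx1
    exact card_fixed_irr_eq K W₂ x hx1 (hord x hx)
      (fun z hz hz1 => hC z ((Subgroup.zpowers_le.mpr hx) hz) hz1) h.comm₂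
  have hα : ∀ (x : L) (k : K), (MulAut.conjNormal x : MulAut K) k =
      ⟨x * k * x⁻¹, hK.conj_mem _ k.2 x⟩ := fun x k => Subtype.ext (by simp)
  have hin : ∀ (x : L) (θ : K → ℂ), (θ ∘ (MulAut.conjNormal x : MulAut K) = θ) ↔ x ∈ inertia K θ := by
    intro x θ
    rw [mem_inertia_iff']
    constructor
    · intro e k
      have := congrFun e k
      rwa [Function.comp_apply, hα] at this
    · intro e
      funext k
      rw [Function.comp_apply, hα]
      exact e k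
  have hfun : ∀ (x : L) (θ : K → ℂ), ((fun k : K => θ ⟨x * k * x⁻¹, hK.conj_mem (k : L) k.2 x⟩) = θ) ↔
      x ∈ inertia K θ := by
    intro x θ
    rw [mem_inertia_iff']
    exact ⟨fun e k => congrFun e k, fun e => funext e⟩
  have hyx : ∀ x ∈ W₁, ∀ θ : K → ℂ, y ∈ inertia K θ → x ∈ inertia K θ := by
    intro x hx θ hθ
    exact (Subgroup.zpowers_le.mpr hθ) (hW₁eq x hx)
  have hxy : ∀ x ∈ W₁, x ≠ 1 → ∀ θ : K → ℂ, IsIrrCharacter K θ → x ∈ inertia K θ → y ∈ inertia K θ := by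
    intro x hx hx1 θ hθ hxθ
    let inj : {χ : IrrCharacter K // (χ : K → ℂ) ∘ (MulAut.conjNormal y : MulAut K) = (χ : K → ℂ)} →
        {χ : IrrCharacter K // (χ : K → ℂ) ∘ (MulAut.conjNormal x : MulAut K) = (χ : K → ℂ)} :=
      fun χ => ⟨χ.1, (hin x _).mpr (hyx x hx _ ((hin y _).mp χ.2))⟩
    have hinj : Function.Injective inj := fun a b e =>
      Subtype.ext (congrArg (fun r : {χ : IrrCharacter K // (χ : K → ℂ) ∘ (MulAut.conjNormal x : MulAut K) = (χ : K → ℂ)} => r.1) e)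
    have hfin1 : Finite {χ : IrrCharacter K // (χ : K → ℂ) ∘ (MulAut.conjNormal y : MulAut K) = (χ : K → ℂ)} := inferInstance
    have hfin2 : Finite {χ : IrrCharacter K // (χ : K → ℂ) ∘ (MulAut.conjNormal x : MulAut K) = (χ : K → ℂ)} := inferInstance
    have hbij := (Nat.bijective_iff_injective_and_card inj).mpr
      ⟨hinj, by rw [hfixcard x hx hx1, hfixcard y hyW hy1]⟩
    obtain ⟨χ, hχ⟩ := hbij.2 ⟨⟨θ, hθ⟩, (hin x θ).mpr hxθ⟩
    have h1 : (χ.1 : K → ℂ) = θ := congrArg (fun r : {χ : IrrCharacter K // (χ : K → ℂ) ∘ (MulAut.conjNormal x : MulAut K) = (χ : K → ℂ)} => ((r.1 : IrrCharacter K) : K → ℂ)) hχ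
    rw [← h1]
    exact (hin y _).mp χ.2
  have hallfix : ∀ θ : K → ℂ, IsIrrCharacter K θ → y ∈ inertia K θ → ∀ g : L, g ∈ inertia K θ := by
    intro θ hθ hyθ g
    obtain ⟨k, hk, c, hc, rfl⟩ := h.decomp g
    exact Subgroup.mul_mem _ (le_inertia_of_irr hθ hk) (hyx c hc θ hyθ)
  refine ⟨?_, ?_, ?_⟩
  · -- non-fixed characters induce irreducibly
    rintro θ hθ ⟨x₀, hx₀, hne⟩
    apply isIrrCharacter_indFun_of_inertia K hθ
    intro g hg
    obtain ⟨k, hk, c, hc, rfl⟩ := h.decomp g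
    have hcθ : c ∈ inertia K θ := by
      have h1 := (le_inertia_of_irr hθ hk)
      have := (inertia K θ).mul_mem ((inertia K θ).inv_mem h1) hg
      simpa using this
    by_cases hc1 : c = 1
    · rw [hc1, mul_one]
      exact hk
    · exfalso
      apply hne
      rw [hfun]
      exact hyx x₀ hx₀ θ (hxy c hc hc1 θ hθ hcθ)
  · -- the number of fixed characters
    rw [← hfixcard y hyW hy1]
    refine Nat.card_congr (Equiv.subtypeEquivRight fun θ => ?_)
    constructor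
    · intro e
      rw [hin]
      exact (hfun y _).mp (e y hyW)
    · intro e x hx
      rw [hfun]
      exact hyx x hx _ ((hin y _).mp e)
  · -- the fixed characters
    intro θ hθ hfix
    have hyθ : y ∈ inertia K θ := (hfun y θ).mp (hfix y hyW)
    have hT : ∀ g : L, g ∈ (⊤ : Subgroup L) ↔ ∀ k : K, θ ⟨g * k * g⁻¹, hK.conj_mem k k.2 g⟩ = θ k := by
      intro g
      constructor
      · intro _
        exact (mem_inertia_iff' K).mp (hallfix θ hθ hyθ g)
      · intro _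
        trivial
    have hab : ∀ a ∈ (⊤ : Subgroup L), ∀ b ∈ (⊤ : Subgroup L), a * b * a⁻¹ * b⁻¹ ∈ K := by
      intro a _ b _
      obtain ⟨k, hk, c, hc, rfl⟩ := h.decomp a
      obtain ⟨k', hk', c', hc', rfl⟩ := h.decomp b
      rw [← QuotientGroup.eq_one_iff]
      have hq : ∀ (u v : L), v ∈ K → ((u * v : L) : L ⧸ K) = (u : L ⧸ K) := by
        intro u v hv
        rw [QuotientGroup.mk_mul, (QuotientGroup.eq_one_iff v).mpr hv, mul_one]
      have hq' : ∀ (u v : L), u ∈ K → ((u * v : L) : L ⧸ K) = (v : L ⧸ K) := by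
        intro u v hu
        rw [QuotientGroup.mk_mul, (QuotientGroup.eq_one_iff u).mpr hu, one_mul]
      simp only [QuotientGroup.mk_mul, QuotientGroup.mk_inv, mul_inv_rev,
        (QuotientGroup.eq_one_iff k).mpr hk, (QuotientGroup.eq_one_iff k').mpr hk', one_mul, inv_one, mul_one]
      have hcc : (c : L ⧸ K) * (c' : L ⧸ K) = (c' : L ⧸ K) * (c : L ⧸ K) := by
        rw [← QuotientGroup.mk_mul, ← QuotientGroup.mk_mul, h.comm₁ c hc c' hc']
      rw [hcc]
      group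
    have hcop : Nat.Coprime (Nat.card K) (K.relIndex ⊤) := by
      rw [Subgroup.relIndex_top_right, h.index_K]
      exact h.coprime.symm
    obtain ⟨C, hC1, hC2, hC3, -⟩ := Cfsg.Agent.S1491.result K ⊤ θ hθ hT hab hcop
    refine ⟨C, ?_, hC1, hC3⟩
    rw [hC2, Subgroup.relIndex_top_right, h.index_K]

end Cfsg.Agent.S1513
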