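import Cfsg.Statements.S1525
import Cfsg.Agent.Lib.OddChar.Dade

set_option autoImplicit false
open Cfsg

namespace Cfsg.Agent.S1525

open Cfsg.Agent.Lib.OddChar

/-- Under the Dade hypothesis for (A, L, H), let χ be a class function of G and let ψ be a function on L whose value at each a ∈ A is the average of χ over the coset a·H(a). Then (1/|G|) Σ |χ g|² over the elements g of G conjugate into some coset a·H(a) with a ∈ A is at least (1/|L|) Σ_{a ∈ A ∩ L} |ψ a|². -/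
theorem result {G : Type*} [Group G] [Fintype G] (A : Set G) (L : Subgroup G) [Fintype L] (H : G → Subgroup G) (hD : Cfsg.DadeHypothesis A L H) (χ : G → ℂ) (hχ : Cfsg.IsClassFunction G χ) (ψ : L → ℂ) (hψ : ∀ a : L, (a : G) ∈ A → ψ a = (Nat.card (H a) : ℂ)⁻¹ * ∑ᶠ u ∈ (H a : Set G), χ (a * u)) : (Nat.card L : ℝ)⁻¹ * ∑ᶠ a ∈ {a : L | (a : G) ∈ A}, ‖ψ a‖ ^ 2 ≤ (Nat.card G : ℝ)⁻¹ * ∑ᶠ g ∈ {g : G | ∃ a ∈ A, ∃ u ∈ H a, ∃ x : G, x * g * x⁻¹ = a * u}, ‖χ g‖ ^ 2 := by
  classical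
  letI : ∀ a, Fintype (H a) := fun a => Fintype.ofFinite _
  set B : G → ℝ := fun a => (Nat.card (H a) : ℝ)⁻¹ * ∑ u : H a, ‖χ (a * u)‖ ^ 2 with hB
  have hle : ∀ a : L, (a : G) ∈ A → ‖ψ a‖ ^ 2 ≤ B a := by
    intro a ha
    have hpos : (0 : ℝ) < Nat.card (H a) := by exact_mod_cast Nat.card_pos
    rw [hψ a ha, finsum_mem_subgroup, norm_mul, norm_inv, Complex.norm_natCast]
    have h1 : ‖∑ u : H a, χ (a * u)‖ ≤ ∑ u : H a, ‖χ (a * u)‖ := norm_sum_le _ _
    have h2 := sq_sum_le_card_mul_sum_sq (s := (Finset.univ : Finset (H a)))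
      (f := fun u : H a => ‖χ (a * u)‖)
    rw [Finset.card_univ, ← Nat.card_eq_fintype_card] at h2
    simp only [hB]
    have h3 : ‖∑ u : H a, χ (a * u)‖ ^ 2 ≤ (Nat.card (H a) : ℝ) * ∑ u : H a, ‖χ (a * u)‖ ^ 2 :=
      (pow_le_pow_left₀ (norm_nonneg _) h1 2).trans h2
    rw [mul_pow, inv_pow]
    rw [inv_mul_le_iff₀ (by positivity)]
    calc ‖∑ u : H a, χ (a * u)‖ ^ 2 ≤ (Nat.card (H a) : ℝ) * ∑ u : H a, ‖χ (a * u)‖ ^ 2 := h3
      _ = _ := by field_simp
  have hset : {g : G | ∃ a ∈ A, ∃ u ∈ H a, ∃ x : G, x * g * x⁻¹ = a * u} = dadeSupport A H := rfl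
  rw [hset, finsum_mem_eq_sum_ite, finsum_mem_eq_sum_ite]
  -- the sum formula with real values
  have hf : IsClassFunction G (fun g => (((‖χ g‖ ^ 2 : ℝ)) : ℂ)) := by
    intro g h
    simp only
    rw [hχ g h]
  have hs := dade_sum hD (fun g => (((‖χ g‖ ^ 2 : ℝ)) : ℂ)) hf
  have hs' : (Nat.card L : ℝ) * ∑ g : G, (if g ∈ dadeSupport A H then ‖χ g‖ ^ 2 else 0) =
      (Nat.card G : ℝ) * ∑ a : G, if a ∈ A then B a else 0 := by
    have h6 : ∀ g : G, (if g ∈ dadeSupport A H then (((‖χ g‖ ^ 2 : ℝ)) : ℂ) else 0) =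
        (((if g ∈ dadeSupport A H then ‖χ g‖ ^ 2 else 0 : ℝ)) : ℂ) := by
      intro g
      split_ifs <;> simp
    have h7 : ∀ a : G, (if a ∈ A then (Nat.card (H a) : ℂ)⁻¹ * ∑ u : H a, (((‖χ (a * u)‖ ^ 2 : ℝ)) : ℂ) else 0) =
        (((if a ∈ A then B a else 0 : ℝ)) : ℂ) := by
      intro a
      split_ifs
      · simp only [hB]
        push_cast
        rfl
      · simp
    simp only [h6, h7] at hs
    exact_mod_cast hs
  have hGpos : (0 : ℝ) < Nat.card G := by exact_mod_cast Nat.card_pos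
  have hLpos : (0 : ℝ) < Nat.card L := by exact_mod_cast Nat.card_pos
  have h8 : ∑ a : L, (if a ∈ {a : L | (a : G) ∈ A} then ‖ψ a‖ ^ 2 else 0) ≤
      ∑ a : G, if a ∈ A then B a else 0 := by
    have hB0 : ∀ a : G, 0 ≤ B a := fun a => by
      simp only [hB]
      positivity
    have h9 : ∑ a : G, (if a ∈ A then B a else 0) = ∑ a : L, (if (a : G) ∈ A then B a else 0) := by
      have h10 : ∑ a : G, (if a ∈ A then B a else 0) =
          ∑ a ∈ Finset.univ.filter (· ∈ L), (if a ∈ A then B a else 0) := by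
        symm
        apply Finset.sum_subset (Finset.subset_univ _)
        intro a _ ha
        have haL : a ∉ L := by simpa using ha
        rw [if_neg (fun h => haL (hD.subset h))]
      rw [h10]
      exact Finset.sum_subtype _ (by simp) _
    rw [h9]
    refine Finset.sum_le_sum fun a _ => ?_
    by_cases ha : (a : G) ∈ A
    · simp only [Set.mem_setOf_eq]
      rw [if_pos ha, if_pos ha]
      exact hle a ha
    · simp only [Set.mem_setOf_eq]
      rw [if_neg ha, if_neg ha]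
  calc (Nat.card L : ℝ)⁻¹ * ∑ a : L, (if a ∈ {a : L | (a : G) ∈ A} then ‖ψ a‖ ^ 2 else 0)
      ≤ (Nat.card L : ℝ)⁻¹ * ∑ a : G, (if a ∈ A then B a else 0) :=
        mul_le_mul_of_nonneg_left h8 (by positivity)
    _ = (Nat.card G : ℝ)⁻¹ * ∑ g : G, (if g ∈ dadeSupport A H then ‖χ g‖ ^ 2 else 0) := by
        field_simp
        linarith

end Cfsg.Agent.S1525
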