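import Cfsg.Statements.S1527
import Mathlib
import Cfsg.Prelude.Def_OddOrderLocal

set_option autoImplicit false
open Cfsg

namespace Cfsg.Agent.S1527

private theorem card_ne_one (A : Type*) [Group A] [Finite A] :
    Nat.card {a : A // a ≠ 1} = Nat.card A - 1 := by
  classical
  have := Fintype.ofFinite A
  rw [Nat.card_eq_fintype_card, Nat.card_eq_fintype_card, Fintype.card_subtype_compl]
  simp

/-- Let G be a finite group and H i (i in a finite index type) subgroups of pairwise coprime orders, each of whose underlying sets is a TI-subset of G, such that every non-identity element of G is conjugate to an element of some H i. Then Nat.card G − 1 = Σ_i [G : N_G(H i)] · (Nat.card (H i) − 1). -/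
theorem result {G : Type*} [Group G] [Finite G] {ι : Type*} [Fintype ι] (H : ι → Subgroup G) (hcop : ∀ i j, i ≠ j → Nat.Coprime (Nat.card (H i)) (Nat.card (H j))) (hTI : ∀ i, Cfsg.IsTISubset (H i : Set G)) (hcover : ∀ g : G, g ≠ 1 → ∃ i, ∃ x : G, x * g * x⁻¹ ∈ H i) : Nat.card G - 1 = ∑ i, (Subgroup.normalizer (H i : Set G)).index * (Nat.card (H i) - 1) := by
  classical
  let N : ι → Subgroup G := fun i => Subgroup.normalizer (H i : Set G)
  let X := Σ i, (G ⧸ N i) × {h : H i // h ≠ 1}
  have hne : ∀ p : X, p.2.1.out * (p.2.2.1 : G) * p.2.1.out⁻¹ ≠ 1 := by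
    rintro ⟨i, q, h, hh⟩ he
    apply hh
    apply Subtype.ext
    have : q.out * (h : G) * q.out⁻¹ = q.out * 1 * q.out⁻¹ := by simpa using he
    simpa using mul_left_cancel (mul_right_cancel this)
  let f : X → {g : G // g ≠ 1} := fun p => ⟨_, hne p⟩
  have hf : Function.Bijective f := by
    constructor
    · rintro ⟨i, q, h, hh⟩ ⟨j, q', h', hh'⟩ he
      have he' : q.out * (h : G) * q.out⁻¹ = q'.out * (h' : G) * q'.out⁻¹ := congrArg Subtype.val he
      have e : q'.out⁻¹ * q.out * (h : G) * (q'.out⁻¹ * q.out)⁻¹ = (h' : G) := by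
        calc _ = q'.out⁻¹ * (q.out * (h : G) * q.out⁻¹) * q'.out := by group
          _ = _ := by rw [he']; group
      obtain rfl : i = j := by
        by_contra hij
        have h1 : (h : G) ^ Nat.card (H i) = 1 := by
          have h0 : h ^ Nat.card (H i) = 1 := pow_card_eq_one'
          have := congrArg Subtype.val h0
          rwa [Subgroup.coe_pow, Subgroup.coe_one] at this
        have h2 : orderOf (h' : G) ∣ Nat.card (H j) := Subgroup.orderOf_dvd_natCard _ h'.2
        have h3 : orderOf (h' : G) ∣ Nat.card (H i) := by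
          apply orderOf_dvd_of_pow_eq_one
          rw [← e, conj_pow, h1]
          group
        have h4 : orderOf (h' : G) = 1 := Nat.eq_one_of_dvd_coprimes (hcop i j hij) h3 h2
        exact hh' (Subtype.ext (orderOf_eq_one_iff.mp h4))
      have hg : q'.out⁻¹ * q.out ∈ N i := by
        by_contra hn
        have := hTI i _ hn (h : G) h.2 (by rw [e]; exact h'.2)
        exact hh (Subtype.ext this)
      have hq : q' = q := by
        have := QuotientGroup.eq.mpr hg
        simpa using this
      subst hq
      have : h = h' := by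
        apply Subtype.ext
        exact mul_left_cancel (mul_right_cancel he')
      subst this
      rfl
    · rintro ⟨x, hx⟩
      obtain ⟨i, y, hy⟩ := hcover x hx
      obtain ⟨n, hn⟩ := QuotientGroup.mk_out_eq_mul (N i) y⁻¹
      have hnm : (n : G)⁻¹ ∈ N i := (N i).inv_mem n.2
      have hh : (n : G)⁻¹ * (y * x * y⁻¹) * ((n : G)⁻¹)⁻¹ ∈ H i :=
        (Subgroup.mem_normalizer_iff.mp hnm _).mp hy
      have hh1 : (⟨_, hh⟩ : H i) ≠ 1 := by
        intro h0
        have h0' : (n : G)⁻¹ * (y * x * y⁻¹) * ((n : G)⁻¹)⁻¹ = 1 := congrArg Subtype.val h0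
        apply hx
        have : x = y⁻¹ * n * ((n : G)⁻¹ * (y * x * y⁻¹) * ((n : G)⁻¹)⁻¹) * (y⁻¹ * n)⁻¹ := by group
        rw [this, h0']
        group
      refine ⟨⟨i, (y⁻¹ : G), ⟨_, hh⟩, hh1⟩, ?_⟩
      apply Subtype.ext
      simp only [f, hn]
      group
  have e := Nat.card_congr (Equiv.ofBijective f hf)
  rw [card_ne_one] at e
  rw [← e, Nat.card_sigma]
  refine Finset.sum_congr rfl fun i _ => ?_
  rw [Nat.card_prod, card_ne_one]
  rfl

end Cfsg.Agent.S1527
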