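import Cfsg.Statements.S1530
import Cfsg.Agent.Lib.OddChar.Iso

set_option autoImplicit false
open Cfsg

namespace Cfsg.Agent.S1530

open Cfsg.Agent.Lib.Char Cfsg.Agent.Lib.OddChar

private theorem zapply {X : Type*} (n : ℤ) (f : X → ℂ) (x : X) : (n • f) x = (n : ℂ) * f x := by
  simp

/-- Let N be a subgroup of the finite group G and S₀ a finite set of irreducible characters of N, χ an irreducible character of N not in S₀, with degrees ξ 1 = d ξ. Let τ be a linear isometry on the integer combinations of S₀ ∪ {χ} vanishing at 1, with values virtual characters of G vanishing at 1, such that (S₀, N minus 1, τ) is coherent. If some ψ ∈ S₀ has d ψ dividing d χ and 2 · d ψ · d χ < Σ_{ξ ∈ S₀} (d ξ)², then (S₀ ∪ {χ}, N minus 1, τ) is coherent. -/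
theorem result {G : Type*} [Group G] [Fintype G] (N : Subgroup G) [Fintype N] (S₀ : Finset (N → ℂ)) (χ : N → ℂ) (hirr : ∀ ξ ∈ S₀, Cfsg.IsIrrCharacter N ξ) (hχ : Cfsg.IsIrrCharacter N χ) (hχS : χ ∉ S₀) (d : (N → ℂ) → ℕ) (hd : ∀ ξ ∈ insert χ S₀, ξ 1 = (d ξ : ℂ)) (τ : (N → ℂ) → (G → ℂ)) (hτ : Cfsg.IsLinearIsometryOn (Cfsg.zspanOn (↑(insert χ S₀) : Set (N → ℂ)) {1}ᶜ) τ) (hτ1 : ∀ α ∈ Cfsg.zspanOn (↑(insert χ S₀) : Set (N → ℂ)) {1}ᶜ, τ α 1 = 0) (hcoh : Cfsg.IsCoherent (↑S₀ : Set (N → ℂ)) {1}ᶜ τ) (ψ : N → ℂ) (hψ : ψ ∈ S₀) (hdvd : d ψ ∣ d χ) (hlt : 2 * d ψ * d χ < ∑ ξ ∈ S₀, d ξ ^ 2) : Cfsg.IsCoherent (↑(insert χ S₀) : Set (N → ℂ)) {1}ᶜ τ := by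
  classical
  obtain ⟨⟨α₀, hα₀, hα₀ne⟩, τ₁, hτ₁, hagree⟩ := hcoh
  -- notation
  set T : Set (N → ℂ) := (↑(insert χ S₀) : Set (N → ℂ)) with hT
  have hS₀T : (↑S₀ : Set (N → ℂ)) ⊆ T := by
    intro a ha
    simp only [hT, Finset.coe_insert]
    exact Or.inr ha
  have hχT : χ ∈ T := by simp [hT]
  have hτE : IsLinearIsometryOn ((zspanOnSub T {1}ᶜ : Submodule ℤ (N → ℂ)) : Set (N → ℂ)) τ := hτ
  have hτ₁E : IsLinearIsometryOn ((zspanSub (↑S₀ : Set (N → ℂ)) : Submodule ℤ (N → ℂ)) : Set (N → ℂ)) τ₁ := hτ₁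
  have hmemS : ∀ ξ ∈ S₀, ξ ∈ zspanSub (↑S₀ : Set (N → ℂ)) := fun ξ hξ => Submodule.subset_span hξ
  have hmemSz : ∀ ξ ∈ S₀, ξ ∈ zspan T := fun ξ hξ => zspan_mono hS₀T (hmemS ξ hξ)
  have hψS := hmemS ψ hψ
  have hd₀ : ∀ ξ ∈ S₀, ξ 1 = (d ξ : ℂ) := fun ξ hξ => hd ξ (Finset.mem_insert_of_mem hξ)
  have hdχ : χ 1 = (d χ : ℂ) := hd χ (Finset.mem_insert_self _ _)
  have hdpos : ∀ ξ ∈ S₀, 0 < d ξ := by
    intro ξ hξ
    have h1 := IsIrrCharacter.apply_one_ne_zero (hirr ξ hξ)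
    rw [hd₀ ξ hξ] at h1
    exact Nat.pos_of_ne_zero (fun h => h1 (by rw [h]; simp))
  have hdχpos : 0 < d χ := by
    have h1 := IsIrrCharacter.apply_one_ne_zero hχ
    rw [hdχ] at h1
    exact Nat.pos_of_ne_zero (fun h => h1 (by rw [h]; simp))
  obtain ⟨m, hm⟩ := hdvd
  have hmpos : 0 < m := by
    rcases Nat.eq_zero_or_pos m with h | h
    · rw [h, mul_zero] at hm
      omega
    · exact h
  have hd₁ := hdpos ψ hψ
  -- orthogonality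
  have hχξ : ∀ ξ ∈ S₀, Cfsg.classInner χ ξ = 0 := fun ξ hξ =>
    classInner_irr_of_ne hχ (hirr ξ hξ) (fun e => hχS (e ▸ hξ))
  have hξχ : ∀ ξ ∈ S₀, Cfsg.classInner ξ χ = 0 := fun ξ hξ => classInner_comm_zero (hχξ ξ hξ)
  have hψψ : Cfsg.classInner ψ ψ = 1 := classInner_irr_self (hirr ψ hψ)
  have hχχ : Cfsg.classInner χ χ = 1 := classInner_irr_self hχ
  -- the elements
  let β : N → ℂ := χ - (m : ℤ) • ψ
  have hβ : β ∈ zspanOnSub T {1}ᶜ := by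
    refine mem_zspanOn_of (sub_mem_zspan (mem_zspan_of_mem hχT) ?_) ?_
    · exact Submodule.smul_mem _ _ (hmemSz ψ hψ)
    · simp only [β, Pi.sub_apply, zapply, hdχ, hd₀ ψ hψ, hm]
      push_cast
      ring
  have hββ : Cfsg.classInner β β = 1 + (m : ℂ) ^ 2 := by
    simp only [β]
    simp only [classInner_sub_left, classInner_sub_right, classInner_zsmul_left, classInner_zsmul_right,
      hχχ, hχξ ψ hψ, hξχ ψ hψ, hψψ]
    push_cast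
    ring
  let X := τ β
  let y : G → ℂ := X + (m : ℤ) • τ₁ ψ
  have hτ₁ψ : IsGeneralizedCharacter G (τ₁ ψ) := IsoLat.virtual hτ₁E hψS
  have hX : IsGeneralizedCharacter G X := IsoLat.virtual hτE hβ
  have hzsmulvirt : ∀ (n : ℤ) {f : G → ℂ}, IsGeneralizedCharacter G f → IsGeneralizedCharacter G (n • f) := by
    intro n f hf
    obtain ⟨τ₃, hτ₃, hτ₃v⟩ := exists_isometry_zsmul (L := G) f f hf rfl
    have := IsoLat.virtual hτ₃ (Submodule.mem_span_singleton.mpr ⟨n, rfl⟩ : n • f ∈ Submodule.span ℤ {f})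
    rwa [hτ₃v] at this
  have hy : IsGeneralizedCharacter G y := IsGeneralizedCharacter.add hX (hzsmulvirt _ hτ₁ψ)
  have hinner₁ : ∀ ξ ∈ S₀, ∀ ξ' ∈ S₀, Cfsg.classInner (τ₁ ξ) (τ₁ ξ') = Cfsg.classInner ξ ξ' :=
    fun ξ hξ ξ' hξ' => IsoLat.inner hτ₁E (hmemS ξ hξ) (hmemS ξ' hξ')
  -- the key relation
  have hkey : ∀ ξ ∈ S₀, (d ψ : ℂ) * Cfsg.classInner y (τ₁ ξ) = (d ξ : ℂ) * Cfsg.classInner y (τ₁ ψ) := by
    intro ξ hξ
    let αξ : N → ℂ := (d ψ : ℤ) • ξ - (d ξ : ℤ) • ψ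
    have h1 : αξ ∈ zspanOn (↑S₀ : Set (N → ℂ)) {1}ᶜ := by
      refine mem_zspanOn_of (sub_mem_zspan (Submodule.smul_mem _ _ (hmemS ξ hξ))
        (Submodule.smul_mem _ _ hψS)) ?_
      simp only [αξ, Pi.sub_apply, zapply, hd₀ ξ hξ, hd₀ ψ hψ]
      push_cast
      ring
    have h2 : τ αξ = τ₁ αξ := (hagree αξ h1).symm
    have h3 : τ₁ αξ = (d ψ : ℤ) • τ₁ ξ - (d ξ : ℤ) • τ₁ ψ := by
      simp only [αξ]
      rw [IsoLat.map_sub hτ₁E (Submodule.smul_mem _ _ (hmemS ξ hξ)) (Submodule.smul_mem _ _ hψS),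
        IsoLat.map_zsmul hτ₁E (hmemS ξ hξ), IsoLat.map_zsmul hτ₁E hψS]
    have h4 := IsoLat.inner hτE hβ (zspanOn_mono hS₀T h1 : αξ ∈ zspanOnSub T {1}ᶜ)
    rw [h2, h3] at h4
    simp only [αξ, β] at h4
    simp only [classInner_sub_left, classInner_sub_right, classInner_zsmul_left, classInner_zsmul_right,
      hχξ ξ hξ, hχξ ψ hψ, hψψ] at h4
    simp only [y, classInner_add_left, classInner_zsmul_left, hinner₁ ψ hψ ξ hξ, hinner₁ ψ hψ ψ hψ, hψψ]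
    push_cast at h4 ⊢
    linear_combination h4
  -- integers
  have hint : ∀ ξ, ξ ∈ S₀ → ∃ a : ℤ, Cfsg.classInner y (τ₁ ξ) = a := fun ξ hξ =>
    IsGeneralizedCharacter.classInner_int hy (IsoLat.virtual hτ₁E (hmemS ξ hξ))
  choose! a ha using hint
  set b := a ψ with hb
  obtain ⟨s, hs⟩ := IsGeneralizedCharacter.classInner_int hX hτ₁ψ
  have hs' : Cfsg.classInner (τ₁ ψ) X = s := by
    rw [classInner_conj_symm, hs]
    simp
  have hbs : (b : ℂ) = s + m := by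
    rw [hb, ← ha ψ hψ]
    simp only [y, classInner_add_left, classInner_zsmul_left, hs, hinner₁ ψ hψ ψ hψ, hψψ]
    push_cast
    ring
  have hbs' : b = s + m := by exact_mod_cast hbs
  have hXX : Cfsg.classInner X X = 1 + (m : ℂ) ^ 2 := by
    rw [← hββ]
    exact IsoLat.inner hτE hβ hβ
  have hyy : Cfsg.classInner y y = ((1 + 2 * (m : ℤ) * b : ℤ) : ℂ) := by
    simp only [y, classInner_add_left, classInner_add_right, classInner_zsmul_left, classInner_zsmul_right,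
      hXX, hs, hs', hinner₁ ψ hψ ψ hψ, hψψ, hbs']
    push_cast
    ring
  have hrel : ∀ ξ ∈ S₀, (d ψ : ℤ) * a ξ = d ξ * b := by
    intro ξ hξ
    have h1 := hkey ξ hξ
    rw [ha ξ hξ, ha ψ hψ] at h1
    exact_mod_cast h1
  -- Bessel
  have horth : ∀ i ∈ S₀, ∀ j ∈ S₀, Cfsg.classInner (τ₁ i) (τ₁ j) = if i = j then ((1 : ℝ) : ℂ) else 0 := by
    intro i hi j hj
    rw [hinner₁ i hi j hj, classInner_irr (hirr i hi) (hirr j hj)]
    simp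
  have hbess := bessel S₀ τ₁ (fun _ => (1 : ℝ)) (fun _ _ => one_pos) horth y
  have hnormsq : ∀ ξ ∈ S₀, ‖Cfsg.classInner y (τ₁ ξ)‖ ^ 2 / (1 : ℝ) = ((a ξ ^ 2 : ℤ) : ℝ) := by
    intro ξ hξ
    rw [ha ξ hξ, Complex.norm_intCast, div_one, sq_abs]
    push_cast
    rfl
  have hsumN : ∑ ξ ∈ S₀, ‖Cfsg.classInner y (τ₁ ξ)‖ ^ 2 / (1 : ℝ) = ((∑ ξ ∈ S₀, a ξ ^ 2 : ℤ) : ℝ) := by
    push_cast
    exact Finset.sum_congr rfl fun ξ hξ => by rw [hnormsq ξ hξ]; push_cast; rfl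
  have hyyre : (Cfsg.classInner y y).re = ((1 + 2 * (m : ℤ) * b : ℤ) : ℝ) := by
    rw [hyy]
    simp
  rw [hsumN, hyyre] at hbess
  have hN : ∑ ξ ∈ S₀, a ξ ^ 2 ≤ 1 + 2 * (m : ℤ) * b := by exact_mod_cast hbess
  -- the sum of squares of degrees
  have hD : ((d ψ : ℤ)) ^ 2 * ∑ ξ ∈ S₀, a ξ ^ 2 = b ^ 2 * ∑ ξ ∈ S₀, (d ξ : ℤ) ^ 2 := by
    rw [Finset.mul_sum, Finset.mul_sum]
    refine Finset.sum_congr rfl fun ξ hξ => ?_
    have := hrel ξ hξ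
    calc (d ψ : ℤ) ^ 2 * a ξ ^ 2 = ((d ψ : ℤ) * a ξ) ^ 2 := by ring
      _ = b ^ 2 * (d ξ : ℤ) ^ 2 := by rw [this]; ring
  have hlt' : 2 * (m : ℤ) * (d ψ : ℤ) ^ 2 < ∑ ξ ∈ S₀, (d ξ : ℤ) ^ 2 := by
    have h1 : 2 * d ψ * (d ψ * m) < ∑ ξ ∈ S₀, d ξ ^ 2 := by
      rw [← hm]
      exact hlt
    have h2 : ((2 * d ψ * (d ψ * m) : ℕ) : ℤ) < ((∑ ξ ∈ S₀, d ξ ^ 2 : ℕ) : ℤ) := by exact_mod_cast h1
    push_cast at h2
    linarith
  have hd₁z : (0 : ℤ) < (d ψ : ℤ) := by exact_mod_cast hd₁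
  have hmz : (0 : ℤ) < (m : ℤ) := by exact_mod_cast hmpos
  have hb0 : b = 0 := by
    by_contra hb0
    have hb2 : 1 ≤ b ^ 2 := by
      have := sq_pos_of_ne_zero hb0
      omega
    have hgt : 2 * (m : ℤ) * b ^ 2 < ∑ ξ ∈ S₀, a ξ ^ 2 := by
      have h1 : (d ψ : ℤ) ^ 2 * (2 * (m : ℤ) * b ^ 2) < (d ψ : ℤ) ^ 2 * ∑ ξ ∈ S₀, a ξ ^ 2 := by
        rw [hD]
        have h2 : 0 < b ^ 2 := by omega
        nlinarith [mul_lt_mul_of_pos_left hlt' h2]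
      exact lt_of_mul_lt_mul_left h1 (by positivity)
    have hb1 : b = 1 := by
      have h1 : 2 * (m : ℤ) * b ^ 2 < 1 + 2 * (m : ℤ) * b := lt_of_lt_of_le hgt hN
      have h2 : 2 * (m : ℤ) * (b ^ 2 - b) < 1 := by linarith
      have h3 : b ^ 2 - b ≤ 0 := by
        by_contra hc
        push Not at hc
        have : 2 * (m : ℤ) * 1 ≤ 2 * (m : ℤ) * (b ^ 2 - b) :=
          mul_le_mul_of_nonneg_left (by omega) (by positivity)
        omega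
      have h4 : 0 ≤ b := by nlinarith
      have h5 : b ≤ 1 := by nlinarith
      omega
    rw [hb1] at hgt hN hD hrel
    have hNeq : ∑ ξ ∈ S₀, a ξ ^ 2 = 1 + 2 * (m : ℤ) := by
      have h1 : (2 : ℤ) * m < ∑ ξ ∈ S₀, a ξ ^ 2 := by simpa using hgt
      have h2 : ∑ ξ ∈ S₀, a ξ ^ 2 ≤ 1 + 2 * (m : ℤ) := by simpa using hN
      omega
    -- equality in Bessel
    have heq : (Cfsg.classInner y y).re ≤ ∑ i ∈ S₀, ‖Cfsg.classInner y (τ₁ i)‖ ^ 2 / (1 : ℝ) := by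
      rw [hsumN, hyyre, hNeq, hb1]
      simp
    have hexp := bessel_eq S₀ τ₁ (fun _ => (1 : ℝ)) (fun _ _ => one_pos) horth y heq
    have hval := congrFun hexp 1
    simp only [Finset.sum_apply, Pi.smul_apply, smul_eq_mul, Complex.ofReal_one, div_one] at hval
    -- values at one
    have hv1 : ∀ ξ ∈ S₀, (d ψ : ℂ) * τ₁ ξ 1 = (d ξ : ℂ) * τ₁ ψ 1 := by
      intro ξ hξ
      let αξ : N → ℂ := (d ψ : ℤ) • ξ - (d ξ : ℤ) • ψ
      have h1 : αξ ∈ zspanOn (↑S₀ : Set (N → ℂ)) {1}ᶜ := by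
        refine mem_zspanOn_of (sub_mem_zspan (Submodule.smul_mem _ _ (hmemS ξ hξ))
          (Submodule.smul_mem _ _ hψS)) ?_
        simp only [αξ, Pi.sub_apply, zapply, hd₀ ξ hξ, hd₀ ψ hψ]
        push_cast
        ring
      have h2 := hτ1 αξ (zspanOn_mono hS₀T h1)
      rw [← hagree αξ h1] at h2
      simp only [αξ] at h2
      rw [IsoLat.map_sub hτ₁E (Submodule.smul_mem _ _ (hmemS ξ hξ)) (Submodule.smul_mem _ _ hψS),
        IsoLat.map_zsmul hτ₁E (hmemS ξ hξ), IsoLat.map_zsmul hτ₁E hψS] at h2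
      simp only [Pi.sub_apply, zapply] at h2
      push_cast at h2
      linear_combination h2
    have hy1 : y 1 = (m : ℂ) * τ₁ ψ 1 := by
      have h1 : X 1 = 0 := hτ1 β hβ
      simp only [y, Pi.add_apply, zapply, h1, zero_add]
      push_cast
      rfl
    have hpm : IsPMIrr G (τ₁ ψ) := isPMIrr_of_norm_one hτ₁ψ (by rw [hinner₁ ψ hψ ψ hψ, hψψ])
    have hne1 := IsPMIrr.apply_one_ne_zero hpm
    have hsum : (d ψ : ℂ) ^ 2 * y 1 = ((∑ ξ ∈ S₀, (d ξ : ℤ) ^ 2 : ℤ) : ℂ) * τ₁ ψ 1 := by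
      rw [hval, Finset.mul_sum]
      push_cast
      rw [Finset.sum_mul]
      refine Finset.sum_congr rfl fun ξ hξ => ?_
      rw [ha ξ hξ]
      have h1 : (d ψ : ℂ) * (a ξ : ℂ) = (d ξ : ℂ) := by
        have := hrel ξ hξ
        rw [mul_one] at this
        exact_mod_cast this
      calc (d ψ : ℂ) ^ 2 * ((a ξ : ℂ) * τ₁ ξ 1) = ((d ψ : ℂ) * (a ξ : ℂ)) * ((d ψ : ℂ) * τ₁ ξ 1) := by ring
        _ = (d ξ : ℂ) * ((d ξ : ℂ) * τ₁ ψ 1) := by rw [h1, hv1 ξ hξ]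
        _ = _ := by ring
    rw [hy1] at hsum
    have h1 : ((d ψ : ℂ) ^ 2 * (m : ℂ) - ((∑ ξ ∈ S₀, (d ξ : ℤ) ^ 2 : ℤ) : ℂ)) * τ₁ ψ 1 = 0 := by
      linear_combination hsum
    have h2 := (mul_eq_zero.mp h1).resolve_right hne1
    have h3 : (d ψ : ℤ) ^ 2 * (m : ℤ) = ∑ ξ ∈ S₀, (d ξ : ℤ) ^ 2 := by
      have : (((d ψ : ℤ) ^ 2 * (m : ℤ) : ℤ) : ℂ) = ((∑ ξ ∈ S₀, (d ξ : ℤ) ^ 2 : ℤ) : ℂ) := by
        push_cast at h2 ⊢
        linear_combination h2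
      exact_mod_cast this
    have h4 : 0 < (d ψ : ℤ) ^ 2 * (m : ℤ) := by positivity
    linarith
  have ha0 : ∀ ξ ∈ S₀, a ξ = 0 := by
    intro ξ hξ
    have := hrel ξ hξ
    rw [hb0, mul_zero] at this
    exact (mul_eq_zero.mp this).resolve_left hd₁z.ne'
  have hyτ : ∀ ξ ∈ S₀, Cfsg.classInner y (τ₁ ξ) = 0 := by
    intro ξ hξ
    rw [ha ξ hξ, ha0 ξ hξ]
    simp
  have hyy1 : Cfsg.classInner y y = Cfsg.classInner χ χ := by
    rw [hyy, hb0, hχχ]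
    simp
  -- gluing
  obtain ⟨τ₃, hτ₃, hτ₃v⟩ := exists_isometry_zsmul χ y hy hyy1
  have hcross : ∀ u ∈ zspanSub (↑S₀ : Set (N → ℂ)), ∀ v ∈ Submodule.span ℤ {χ},
      Cfsg.classInner (τ₁ u) (τ₃ v) = Cfsg.classInner u v := by
    intro u hu v hv
    obtain ⟨n, rfl⟩ := Submodule.mem_span_singleton.mp hv
    rw [hτ₃v, classInner_zsmul_right, classInner_zsmul_right]
    have h1 : Cfsg.classInner u χ = 0 :=
      classInner_left_eq_zero_of_span (S := (↑S₀ : Set (N → ℂ))) (fun s hs => hξχ s hs) hu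
    have h2 : Cfsg.classInner y (τ₁ u) = 0 := by
      have := classInner_span_induction (S := (↑S₀ : Set (N → ℂ))) hτ₁ y 0 (by simp)
        (fun s hs => by simpa using hyτ s hs) hu
      simpa using this
    rw [classInner_conj_symm, h2, h1]
    simp
  obtain ⟨ρ, hρ, hρ₁, hρ₃⟩ := exists_isometry_sup _ _ τ₁ τ₃ hτ₁E hτ₃ hcross
  have hspan : zspan T = ((zspanSub (↑S₀ : Set (N → ℂ)) ⊔ Submodule.span ℤ {χ} : Submodule ℤ (N → ℂ)) : Set (N → ℂ)) := by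
    have h1 : T = insert χ (↑S₀ : Set (N → ℂ)) := by simp [hT]
    rw [h1, sup_comm, ← zspanSub_insert]
    rfl
  refine ⟨⟨α₀, zspanOn_mono hS₀T hα₀, hα₀ne⟩, ρ, hspan ▸ hρ, ?_⟩
  intro γ hγ
  have hγ' : γ ∈ (zspanSub (↑S₀ : Set (N → ℂ)) ⊔ Submodule.span ℤ {χ} : Submodule ℤ (N → ℂ)) := by
    have : γ ∈ zspan T := hγ.1
    rw [hspan] at this
    exact this
  obtain ⟨u, hu, v, hv, rfl⟩ := Submodule.mem_sup.mp hγ'
  obtain ⟨n, rfl⟩ := Submodule.mem_span_singleton.mp hv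
  have hγ1 : (u + n • χ) 1 = 0 := hγ.2 1 (by simp)
  simp only [Pi.add_apply, zapply, hdχ] at hγ1
  -- the decomposition
  let c : N → ℂ := u + (n * m : ℤ) • ψ
  have hcmem : c ∈ zspanOn (↑S₀ : Set (N → ℂ)) {1}ᶜ := by
    refine mem_zspanOn_of (Submodule.add_mem _ hu (Submodule.smul_mem _ _ hψS)) ?_
    simp only [c, Pi.add_apply, zapply, hd₀ ψ hψ]
    rw [hm] at hγ1
    push_cast at hγ1 ⊢
    linear_combination hγ1
  have hcmem' : c ∈ zspanOnSub T {1}ᶜ := zspanOn_mono hS₀T hcmem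
  have hdec : u + n • χ = n • β + c := by
    simp only [β, c]
    rw [smul_sub, smul_smul]
    abel
  rw [hdec, IsoLat.map_add hτE (Submodule.smul_mem _ _ hβ) hcmem', IsoLat.map_zsmul hτE hβ,
    ← hagree c hcmem]
  simp only [c]
  rw [IsoLat.map_add hτ₁E hu (Submodule.smul_mem _ _ hψS), IsoLat.map_zsmul hτ₁E hψS]
  have hρval : ρ (u + n • χ) = ρ u + ρ (n • χ) :=
    IsoLat.map_add hρ (Submodule.mem_sup_left hu)
      (Submodule.mem_sup_right (Submodule.mem_span_singleton.mpr ⟨n, rfl⟩))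
  have hρnext : ρ (n • β + (u + (n * m : ℤ) • ψ)) = ρ (u + n • χ) := by
    rw [← hdec]
  rw [hρnext, hρval, hρ₁ u hu, hρ₃ _ (Submodule.mem_span_singleton.mpr ⟨n, rfl⟩), hτ₃v]
  simp only [y, X]
  rw [smul_add, smul_smul]
  abel

end Cfsg.Agent.S1530
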