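import Cfsg.Statements.S1531
import Cfsg.Agent.S1529
import Cfsg.Agent.Lib.OddChar.Iso

set_option autoImplicit false
open Cfsg

namespace Cfsg.Agent.S1531

open Cfsg.Agent.Lib.Char Cfsg.Agent.Lib.OddChar

private theorem zapply {X : Type*} (n : ℤ) (f : X → ℂ) (x : X) : (n • f) x = (n : ℂ) * f x := by
  simp

private theorem apply_one_int {X : Type*} [Group X] {S : Set (X → ℂ)}
    (hS : ∀ s ∈ S, ∃ n : ℕ, s 1 = n) {a : X → ℂ} (ha : a ∈ Cfsg.zspan S) : ∃ u : ℤ, a 1 = u := by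
  refine Submodule.span_induction (p := fun (a : X → ℂ) _ => ∃ u : ℤ, a 1 = (u : ℂ)) ?_ ?_ ?_ ?_ ha
  · intro s hs
    obtain ⟨n, hn⟩ := hS s hs
    exact ⟨n, by rw [hn]; simp⟩
  · exact ⟨0, by simp⟩
  · rintro a b _ _ ⟨u, hu⟩ ⟨v, hv⟩
    exact ⟨u + v, by simp [hu, hv]⟩
  · rintro n a _ ⟨u, hu⟩
    exact ⟨n * u, by simp [hu]⟩

/-- Let N be a subgroup of the finite group G, S a set of irreducible characters of N, and α a linear isometry on the integer combinations of S vanishing at 1 with values virtual characters of G vanishing at 1. Let X, Y ⊆ S be disjoint, each with at least two members, and σ, τ linear isometries on ℤ[X], ℤ[Y] into virtual characters agreeing with α on the members vanishing at 1. Then ⟨σ χ, τ η⟩ = 0 for χ ∈ X, η ∈ Y; and if for some χ₀ ∈ X, η₀ ∈ Y with degrees c = χ₀ 1, e = η₀ 1 one has α (c • η₀ − e • χ₀) = c • τ η₀ − e • σ χ₀, then (X ∪ Y, N minus 1,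 α) is coherent. -/
theorem result {G : Type*} [Group G] [Fintype G] (N : Subgroup G) [Fintype N] (S X Y : Set (N → ℂ)) (hirr : ∀ ξ ∈ S, Cfsg.IsIrrCharacter N ξ) (hXS : X ⊆ S) (hYS : Y ⊆ S) (hXY : Disjoint X Y) (hX2 : ∃ a ∈ X, ∃ b ∈ X, a ≠ b) (hY2 : ∃ a ∈ Y, ∃ b ∈ Y, a ≠ b) (α : (N → ℂ) → (G → ℂ)) (hα : Cfsg.IsLinearIsometryOn (Cfsg.zspanOn S {1}ᶜ) α) (hα1 : ∀ θ ∈ Cfsg.zspanOn S {1}ᶜ, α θ 1 = 0) (σ τ : (N → ℂ) → (G → ℂ)) (hσ : Cfsg.IsLinearIsometryOn (Cfsg.zspan X) σ) (hσα : ∀ θ ∈ Cfsg.zspanOn X {1}ᶜ, σ θ = α θ) (hτ : Cfsg.IsLinearIsometryOn (Cfsg.zspan Y) τ) (hτα : ∀ θ ∈ Cfsg.zspanOn Y {1}ᶜ, τ θ = α θ) : (∀ χ ∈ X, ∀ η ∈ Y, Cfsg.classInner (σ χ) (τ η) = 0) ∧ ((∃ χ₀ ∈ X, ∃ η₀ ∈ Y, α (χ₀ 1 • η₀ - η₀ 1 • χ₀) = χ₀ 1 • τ η₀ - η₀ 1 • σ χ₀) → Cfsg.IsCoherent (X ∪ Y) {1}ᶜ α) := by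
  classical
  have hαE : IsLinearIsometryOn ((zspanOnSub S {1}ᶜ : Submodule ℤ (N → ℂ)) : Set (N → ℂ)) α := hα
  have hσE : IsLinearIsometryOn ((zspanSub X : Submodule ℤ (N → ℂ)) : Set (N → ℂ)) σ := hσ
  have hτE : IsLinearIsometryOn ((zspanSub Y : Submodule ℤ (N → ℂ)) : Set (N → ℂ)) τ := hτ
  have hXirr : ∀ ξ ∈ X, IsIrrCharacter N ξ := fun ξ h => hirr ξ (hXS h)
  have hYirr : ∀ ξ ∈ Y, IsIrrCharacter N ξ := fun ξ h => hirr ξ (hYS h)
  have hσ0 : ∀ θ ∈ Cfsg.zspan X, θ 1 = 0 → σ θ 1 = 0 := by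
    intro θ hθ h1
    have h2 := mem_zspanOn_of hθ h1
    rw [hσα θ h2]
    exact hα1 θ (zspanOn_mono hXS h2)
  have hτ0 : ∀ θ ∈ Cfsg.zspan Y, θ 1 = 0 → τ θ 1 = 0 := by
    intro θ hθ h1
    have h2 := mem_zspanOn_of hθ h1
    rw [hτα θ h2]
    exact hα1 θ (zspanOn_mono hYS h2)
  obtain ⟨ε₁, hε₁, hA, -⟩ := Cfsg.Agent.S1529.result N X hXirr hX2 σ hσ hσ0
  obtain ⟨ε₂, hε₂, hB, -⟩ := Cfsg.Agent.S1529.result N Y hYirr hY2 τ hτ hτ0
  have hε₁' : ε₁ * ε₁ = 1 := by rcases hε₁ with h | h <;> rw [h] <;> norm_num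
  have hε₂' : ε₂ * ε₂ = 1 := by rcases hε₂ with h | h <;> rw [h] <;> norm_num
  have hε₁c : (starRingEnd ℂ) ε₁ = ε₁ := by rcases hε₁ with h | h <;> rw [h] <;> simp
  have hε₂c : (starRingEnd ℂ) ε₂ = ε₂ := by rcases hε₂ with h | h <;> rw [h] <;> simp
  have hXY : ∀ ξ ∈ X, ∀ η ∈ Y, Cfsg.classInner ξ η = 0 := by
    intro ξ hξ η hη
    refine classInner_irr_of_ne (hXirr ξ hξ) (hYirr η hη) ?_
    rintro rfl
    exact Set.disjoint_left.mp hXY hξ hη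
  have hdeg : ∀ ξ ∈ S, ∃ n : ℕ, 0 < n ∧ ξ 1 = n := fun ξ h => IsIrrCharacter.apply_one (hirr ξ h)
  have hmemX : ∀ ξ ∈ X, ξ ∈ zspanSub X := fun ξ h => Submodule.subset_span h
  have hmemY : ∀ ξ ∈ Y, ξ ∈ zspanSub Y := fun ξ h => Submodule.subset_span h
  -- the first assertion
  have hfirst : ∀ χ ∈ X, ∀ η ∈ Y, Cfsg.classInner (σ χ) (τ η) = 0 := by
    intro χ hχ η hη
    obtain ⟨a₁, ha₁, b₁, hb₁, hab₁⟩ := hX2
    obtain ⟨χ', hχ', hχχ'⟩ : ∃ χ' ∈ X, χ' ≠ χ := by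
      by_cases h : a₁ = χ
      · exact ⟨b₁, hb₁, fun e => hab₁ (h.trans e.symm)⟩
      · exact ⟨a₁, ha₁, h⟩
    obtain ⟨a₂, ha₂, b₂, hb₂, hab₂⟩ := hY2
    obtain ⟨η', hη', hηη'⟩ : ∃ η' ∈ Y, η' ≠ η := by
      by_cases h : a₂ = η
      · exact ⟨b₂, hb₂, fun e => hab₂ (h.trans e.symm)⟩
      · exact ⟨a₂, ha₂, h⟩
    obtain ⟨n₁, hn₁, e₁⟩ := hdeg χ (hXS hχ)
    obtain ⟨n₂, hn₂, e₂⟩ := hdeg χ' (hXS hχ')
    obtain ⟨n₃, hn₃, e₃⟩ := hdeg η (hYS hη)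
    obtain ⟨n₄, hn₄, e₄⟩ := hdeg η' (hYS hη')
    let θ : N → ℂ := (n₁ : ℤ) • χ' - (n₂ : ℤ) • χ
    let φ : N → ℂ := (n₃ : ℤ) • η' - (n₄ : ℤ) • η
    have hθ : θ ∈ Cfsg.zspanOn X {1}ᶜ := by
      refine mem_zspanOn_of (sub_mem_zspan (Submodule.smul_mem _ _ (hmemX χ' hχ'))
        (Submodule.smul_mem _ _ (hmemX χ hχ))) ?_
      simp only [θ, Pi.sub_apply, zapply, e₁, e₂]
      push_cast
      ring
    have hφ : φ ∈ Cfsg.zspanOn Y {1}ᶜ := by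
      refine mem_zspanOn_of (sub_mem_zspan (Submodule.smul_mem _ _ (hmemY η' hη'))
        (Submodule.smul_mem _ _ (hmemY η hη))) ?_
      simp only [φ, Pi.sub_apply, zapply, e₃, e₄]
      push_cast
      ring
    have h1 := IsoLat.inner hαE (zspanOn_mono hXS hθ : θ ∈ zspanOnSub S {1}ᶜ)
      (zspanOn_mono hYS hφ : φ ∈ zspanOnSub S {1}ᶜ)
    rw [← hσα θ hθ, ← hτα φ hφ] at h1
    simp only [θ, φ] at h1
    rw [IsoLat.map_sub hσE (Submodule.smul_mem _ _ (hmemX χ' hχ')) (Submodule.smul_mem _ _ (hmemX χ hχ)),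
      IsoLat.map_sub hτE (Submodule.smul_mem _ _ (hmemY η' hη')) (Submodule.smul_mem _ _ (hmemY η hη)),
      IsoLat.map_zsmul hσE (hmemX χ' hχ'), IsoLat.map_zsmul hσE (hmemX χ hχ),
      IsoLat.map_zsmul hτE (hmemY η' hη'), IsoLat.map_zsmul hτE (hmemY η hη)] at h1
    simp only [classInner_sub_left, classInner_sub_right, classInner_zsmul_left, classInner_zsmul_right,
      hXY χ' hχ' η' hη', hXY χ' hχ' η hη, hXY χ hχ η' hη', hXY χ hχ η hη] at h1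
    -- passage to the irreducible characters
    have hsmul : ∀ u ∈ X, ∀ v ∈ Y, Cfsg.classInner (σ u) (τ v) = ε₁ * ε₂ * Cfsg.classInner (ε₁ • σ u) (ε₂ • τ v) := by
      intro u _ v _
      rw [classInner_smul_left, classInner_smul_right, hε₂c]
      linear_combination (-(ε₂ * ε₂) * Cfsg.classInner (σ u) (τ v)) * hε₁' - Cfsg.classInner (σ u) (τ v) * hε₂'
    by_contra hne
    have hne' : Cfsg.classInner (ε₁ • σ χ) (ε₂ • τ η) ≠ 0 := by
      intro h0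
      apply hne
      rw [hsmul χ hχ η hη, h0, mul_zero]
    have heq : ε₁ • σ χ = ε₂ • τ η := by
      by_contra hh
      exact hne' (classInner_irr_of_ne (hA χ hχ) (hB η hη) hh)
    have hval1 : Cfsg.classInner (ε₁ • σ χ) (ε₂ • τ η) = 1 := by
      rw [heq]
      exact classInner_irr_self (hB η hη)
    have hval2 : Cfsg.classInner (ε₁ • σ χ') (ε₂ • τ η) = 0 := by
      rw [← heq, classInner_smul_left, classInner_smul_right, hε₁c,
        IsoLat.inner hσE (hmemX χ' hχ') (hmemX χ hχ),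
        classInner_irr_of_ne (hXirr χ' hχ') (hXirr χ hχ) hχχ']
      simp
    have hval3 : Cfsg.classInner (ε₁ • σ χ) (ε₂ • τ η') = 0 := by
      rw [heq, classInner_smul_left, classInner_smul_right, hε₂c,
        IsoLat.inner hτE (hmemY η hη) (hmemY η' hη'),
        classInner_irr_of_ne (hYirr η hη) (hYirr η' hη') (fun e => hηη' e.symm)]
      simp
    rw [hsmul χ' hχ' η' hη', hsmul χ' hχ' η hη, hsmul χ hχ η' hη', hsmul χ hχ η hη, hval1, hval2, hval3] at h1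
    -- the remaining inner product is `0` or `1`
    have hε12 : ε₁ * ε₂ ≠ 0 := by
      rcases hε₁ with h | h <;> rcases hε₂ with h' | h' <;> rw [h, h'] <;> norm_num
    have h2 : ((n₁ : ℂ) * n₃ * Cfsg.classInner (ε₁ • σ χ') (ε₂ • τ η') + n₂ * n₄) = 0 := by
      apply mul_left_cancel₀ hε12
      push_cast at h1
      linear_combination h1
    rw [classInner_irr (hA χ' hχ') (hB η' hη')] at h2
    split_ifs at h2 with hcase
    · have h3 : ((n₁ * n₃ * 1 + n₂ * n₄ : ℕ) : ℂ) = 0 := by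
        push_cast
        exact h2
      have h4 : n₁ * n₃ * 1 + n₂ * n₄ = 0 := by exact_mod_cast h3
      have : 0 < n₂ * n₄ := Nat.mul_pos hn₂ hn₄
      omega
    · have h3 : ((n₁ * n₃ * 0 + n₂ * n₄ : ℕ) : ℂ) = 0 := by
        push_cast
        simpa using h2
      have h4 : n₁ * n₃ * 0 + n₂ * n₄ = 0 := by exact_mod_cast h3
      have : 0 < n₂ * n₄ := Nat.mul_pos hn₂ hn₄
      omega
  refine ⟨hfirst, ?_⟩
  rintro ⟨χ₀, hχ₀, η₀, hη₀, hyp⟩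
  obtain ⟨c, hc, ec⟩ := hdeg χ₀ (hXS hχ₀)
  obtain ⟨e, he, ee⟩ := hdeg η₀ (hYS hη₀)
  have hcross : ∀ a ∈ zspanSub X, ∀ b ∈ zspanSub Y, Cfsg.classInner (σ a) (τ b) = Cfsg.classInner a b := by
    intro a ha b hb
    have h1 : Cfsg.classInner a b = 0 := by
      have h2 : ∀ ξ ∈ X, Cfsg.classInner ξ b = 0 := by
        intro ξ hξ
        apply classInner_comm_zero
        exact classInner_left_eq_zero_of_span (fun s hs => classInner_comm_zero (hXY ξ hξ s hs)) hb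
      exact classInner_left_eq_zero_of_span h2 ha
    have h2 : Cfsg.classInner (τ b) (σ a) = 0 := by
      have h3 : ∀ s ∈ X, Cfsg.classInner (τ b) (σ s) = 0 := by
        intro s hs
        apply classInner_comm_zero
        have := classInner_span_induction (S := Y) hτ (σ s) 0 (by simp)
          (fun η hη => by simpa using hfirst s hs η hη) hb
        simpa using this
      have := classInner_span_induction (S := X) hσ (τ b) 0 (by simp)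
        (fun s hs => by simpa using h3 s hs) ha
      simpa using this
    rw [h1]
    exact classInner_comm_zero h2
  obtain ⟨ρ, hρ, hρ₁, hρ₂⟩ := exists_isometry_sup _ _ σ τ hσE hτE hcross
  have hspan : Cfsg.zspan (X ∪ Y) = ((zspanSub X ⊔ zspanSub Y : Submodule ℤ (N → ℂ)) : Set (N → ℂ)) := by
    have := Submodule.span_union (R := ℤ) X Y
    simp only [zspanSub, Cfsg.zspan, this]
  have hsubXY : X ∪ Y ⊆ S := Set.union_subset hXS hYS
  refine ⟨?_, ρ, hspan ▸ hρ, ?_⟩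
  · -- a nonzero element
    obtain ⟨a₁, ha₁, b₁, hb₁, hab₁⟩ := hX2
    obtain ⟨n₁, hn₁, e₁⟩ := hdeg a₁ (hXS ha₁)
    obtain ⟨n₂, hn₂, e₂⟩ := hdeg b₁ (hXS hb₁)
    let θ : N → ℂ := (n₂ : ℤ) • a₁ - (n₁ : ℤ) • b₁
    have hθ : θ ∈ Cfsg.zspanOn X {1}ᶜ := by
      refine mem_zspanOn_of (sub_mem_zspan (Submodule.smul_mem _ _ (hmemX a₁ ha₁))
        (Submodule.smul_mem _ _ (hmemX b₁ hb₁))) ?_
      simp only [θ, Pi.sub_apply, zapply, e₁, e₂]
      push_cast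
      ring
    refine ⟨θ, zspanOn_mono Set.subset_union_left hθ, ?_⟩
    intro h0
    have h1 : Cfsg.classInner θ a₁ = (n₂ : ℂ) := by
      simp only [θ, classInner_sub_left, classInner_zsmul_left, classInner_irr_self (hXirr a₁ ha₁),
        classInner_irr_of_ne (hXirr b₁ hb₁) (hXirr a₁ ha₁) (fun e => hab₁ e.symm)]
      push_cast
      ring
    rw [h0, classInner_zero_left] at h1
    have h2 : n₂ = 0 := by exact_mod_cast h1.symm
    omega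
  · intro θ hθ
    have hθ' : θ ∈ (zspanSub X ⊔ zspanSub Y : Submodule ℤ (N → ℂ)) := by
      have : θ ∈ Cfsg.zspan (X ∪ Y) := hθ.1
      rw [hspan] at this
      exact this
    obtain ⟨θ₁, hθ₁, θ₂, hθ₂, rfl⟩ := Submodule.mem_sup.mp hθ'
    have hθ1 : (θ₁ + θ₂) 1 = 0 := hθ.2 1 (by simp)
    obtain ⟨u, hu⟩ := apply_one_int (S := X) (fun s hs => by
      obtain ⟨n, _, h⟩ := hdeg s (hXS hs)
      exact ⟨n, h⟩) hθ₁
    have hu2 : θ₂ 1 = -(u : ℂ) := by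
      simp only [Pi.add_apply, hu] at hθ1
      linear_combination hθ1
    let A₁ : N → ℂ := (c : ℤ) • θ₁ - u • χ₀
    let A₂ : N → ℂ := (e : ℤ) • θ₂ + u • η₀
    let A₃ : N → ℂ := (e : ℤ) • χ₀ - (c : ℤ) • η₀
    have hA₁ : A₁ ∈ Cfsg.zspanOn X {1}ᶜ := by
      refine mem_zspanOn_of (sub_mem_zspan (Submodule.smul_mem _ _ hθ₁)
        (Submodule.smul_mem _ _ (hmemX χ₀ hχ₀))) ?_
      simp only [A₁, Pi.sub_apply, zapply, hu, ec]
      push_cast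
      ring
    have hA₂ : A₂ ∈ Cfsg.zspanOn Y {1}ᶜ := by
      refine mem_zspanOn_of (Submodule.add_mem _ (Submodule.smul_mem _ _ hθ₂)
        (Submodule.smul_mem _ _ (hmemY η₀ hη₀))) ?_
      simp only [A₂, Pi.add_apply, zapply, hu2, ee]
      push_cast
      ring
    have hA₃ : A₃ ∈ Cfsg.zspanOn S {1}ᶜ := by
      refine mem_zspanOn_of (sub_mem_zspan (Submodule.smul_mem _ _ (mem_zspan_of_mem (hXS hχ₀)))
        (Submodule.smul_mem _ _ (mem_zspan_of_mem (hYS hη₀)))) ?_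
      simp only [A₃, Pi.sub_apply, zapply, ec, ee]
      push_cast
      ring
    have hA₁' : A₁ ∈ zspanOnSub S {1}ᶜ := zspanOn_mono hXS hA₁
    have hA₂' : A₂ ∈ zspanOnSub S {1}ᶜ := zspanOn_mono hYS hA₂
    have hA₃' : A₃ ∈ zspanOnSub S {1}ᶜ := hA₃
    have hθS : θ₁ + θ₂ ∈ zspanOnSub S {1}ᶜ := zspanOn_mono hsubXY hθ
    have hdec : ((c : ℤ) * (e : ℤ)) • (θ₁ + θ₂) = (e : ℤ) • A₁ + (c : ℤ) • A₂ + u • A₃ := by
      simp only [A₁, A₂, A₃, smul_sub, smul_add, smul_smul]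
      have e1 : (e : ℤ) * (c : ℤ) = (c : ℤ) * e := mul_comm _ _
      have e2 : (c : ℤ) * u = u * c := mul_comm _ _
      have e3 : (e : ℤ) * u = u * e := mul_comm _ _
      rw [e1, e2, e3]
      abel
    have h1 := congrArg α hdec
    rw [IsoLat.map_zsmul hαE hθS, IsoLat.map_add hαE
      (Submodule.add_mem _ (Submodule.smul_mem _ _ hA₁') (Submodule.smul_mem _ _ hA₂'))
      (Submodule.smul_mem _ _ hA₃'), IsoLat.map_add hαE (Submodule.smul_mem _ _ hA₁')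
      (Submodule.smul_mem _ _ hA₂'), IsoLat.map_zsmul hαE hA₁', IsoLat.map_zsmul hαE hA₂',
      IsoLat.map_zsmul hαE hA₃', ← hσα A₁ hA₁, ← hτα A₂ hA₂] at h1
    have h2 : σ A₁ = (c : ℤ) • σ θ₁ - u • σ χ₀ := by
      simp only [A₁]
      rw [IsoLat.map_sub hσE (Submodule.smul_mem _ _ hθ₁) (Submodule.smul_mem _ _ (hmemX χ₀ hχ₀)),
        IsoLat.map_zsmul hσE hθ₁, IsoLat.map_zsmul hσE (hmemX χ₀ hχ₀)]
    have h3 : τ A₂ = (e : ℤ) • τ θ₂ + u • τ η₀ := by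
      simp only [A₂]
      rw [IsoLat.map_add hτE (Submodule.smul_mem _ _ hθ₂) (Submodule.smul_mem _ _ (hmemY η₀ hη₀)),
        IsoLat.map_zsmul hτE hθ₂, IsoLat.map_zsmul hτE (hmemY η₀ hη₀)]
    have h4 : α A₃ = (e : ℤ) • σ χ₀ - (c : ℤ) • τ η₀ := by
      have e1 : χ₀ 1 • η₀ - η₀ 1 • χ₀ = -A₃ := by
        funext x
        show χ₀ 1 * η₀ x - η₀ 1 * χ₀ x = -(((e : ℤ) • χ₀ - (c : ℤ) • η₀) x)
        rw [Pi.sub_apply, zapply, zapply, ec, ee]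
        push_cast
        ring
      rw [e1, IsoLat.map_neg hαE hA₃'] at hyp
      rw [← neg_neg (α A₃), hyp, ec, ee]
      funext x
      show -((c : ℂ) * τ η₀ x - (e : ℂ) * σ χ₀ x) = ((e : ℤ) • σ χ₀ - (c : ℤ) • τ η₀) x
      rw [Pi.sub_apply, zapply, zapply]
      push_cast
      ring
    rw [h2, h3, h4] at h1
    -- cancel
    have hce : (c : ℂ) * (e : ℂ) ≠ 0 := by
      have h5 : (c : ℂ) ≠ 0 := by exact_mod_cast hc.ne'
      have h6 : (e : ℂ) ≠ 0 := by exact_mod_cast he.ne'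
      exact mul_ne_zero h5 h6
    rw [IsoLat.map_add hρ (Submodule.mem_sup_left hθ₁) (Submodule.mem_sup_right hθ₂), hρ₁ θ₁ hθ₁, hρ₂ θ₂ hθ₂]
    funext x
    have h5 := congrFun h1 x
    simp only [Pi.add_apply, Pi.sub_apply, zapply] at h5 ⊢
    apply mul_left_cancel₀ hce
    push_cast at h5
    linear_combination -h5

end Cfsg.Agent.S1531
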