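import Cfsg.Statements.S1532
import Cfsg.Agent.S1522
import Cfsg.Agent.Lib.OddChar.FrobSys
import Cfsg.Agent.Lib.Char.Coherent
import Cfsg.Agent.Lib.Basic.Frobenius2

set_option autoImplicit false
open Cfsg

namespace Cfsg.Agent.S1532

open Cfsg.Agent.Lib.Char Cfsg.Agent.Lib.OddChar

private theorem main {G : Type*} [Group G] [Fintype G] (p : ℕ) [Fact p.Prime] (hp : p ≠ 2) (P₀ : Subgroup G)
    (hpP : IsPGroup p P₀) (hna : ¬ IsMulCommutative P₀) (N : Subgroup G) [Fintype N]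
    (hTI : ∀ g : G, g ∉ N → ∀ t ∈ P₀, g * t * g⁻¹ ∈ P₀ → t = 1) (hlt : P₀ < N)
    (hnorm : ∀ x ∈ N, ∀ k ∈ P₀, x * k * x⁻¹ ∈ P₀)
    (hC : ∀ k ∈ P₀, k ≠ 1 → Subgroup.centralizer ({k} : Set G) ≤ P₀)
    (Z : Subgroup G) (hZ1 : Z ≠ ⊥) (hZP : ∀ z ∈ Z, z ∈ P₀ ∧ ∀ y ∈ P₀, z * y = y * z)
    (hZn : ∀ x ∈ N, ∀ z ∈ Z, x * z * x⁻¹ ∈ Z) :
    Cfsg.IsCoherent {χ : N → ℂ | Cfsg.IsIrrCharacter N χ ∧ ∃ z : N, (z : G) ∈ Z ∧ χ z ≠ χ 1} {1}ᶜ
      (fun α => Cfsg.indFun N α) := by
  classical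
  let K : Subgroup N := P₀.subgroupOf N
  haveI hKn : K.Normal := by
    constructor
    intro n hn g
    rw [Subgroup.mem_subgroupOf] at hn ⊢
    exact hnorm g g.2 n hn
  haveI : Fintype K := Fintype.ofFinite _
  have hfpf : ∀ x : N, x ∉ K → ∀ k ∈ K, x * k = k * x → k = 1 := by
    intro x hx k hk hcomm
    by_contra hk1
    apply hx
    rw [Subgroup.mem_subgroupOf]
    have hkK : (k : G) ∈ P₀ := Subgroup.mem_subgroupOf.mp hk
    have hk1' : (k : G) ≠ 1 := fun h => hk1 (Subtype.ext h)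
    apply hC k hkK hk1'
    rw [Subgroup.mem_centralizer_iff]
    intro y hy
    have hy' : y = k := by simpa using hy
    rw [hy']
    exact (congrArg Subtype.val hcomm).symm
  have hpK : IsPGroup p K := IsPGroup.comap_of_injective hpP N.subtype N.subtype_injective
  have hnil : Group.IsNilpotent K := hpK.isNilpotent
  have hsolv : Group.IsSolvable K := inferInstance
  have hK1 : K ≠ ⊥ := by
    intro h
    apply hna
    have : P₀ = ⊥ := by
      rw [eq_bot_iff]
      intro x hx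
      have hxN : x ∈ N := hlt.le hx
      have : (⟨x, hxN⟩ : N) ∈ K := hx
      rw [h] at this
      have h2 : (⟨x, hxN⟩ : N) = 1 := this
      exact congrArg Subtype.val h2
    rw [this]
    exact ⟨⟨fun a b => Subsingleton.elim _ _⟩⟩
  have hodd : Odd (Nat.card N) := by
    by_contra hev
    rw [Nat.not_odd_iff_even] at hev
    obtain ⟨t, ht⟩ := exists_prime_orderOf_dvd_card' 2 hev.two_dvd
    have ht2 : t * t = 1 := by
      rw [← pow_two, ← ht]
      exact pow_orderOf_eq_one t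
    have ht1 : t ≠ 1 := by
      intro h
      rw [h, orderOf_one] at ht
      omega
    have htK : t ∉ K := by
      intro h
      obtain ⟨k, hk⟩ := hpK ⟨t, h⟩
      have h3 : t ^ p ^ k = 1 := by simpa using congrArg Subtype.val hk
      have h4 : 2 ∣ p ^ k := by
        rw [← ht]
        exact orderOf_dvd_of_pow_eq_one h3
      have h5 := (Nat.prime_two.dvd_of_dvd_pow h4)
      exact hp ((Nat.prime_dvd_prime_iff_eq Nat.prime_two (Fact.out)).mp h5).symm
    have hinf : K ⊓ Subgroup.centralizer {t} = ⊥ := by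
      rw [eq_bot_iff]
      intro k hk
      obtain ⟨hk1, hk2⟩ := Subgroup.mem_inf.mp hk
      have h3 := Subgroup.mem_centralizer_iff.mp hk2 t (Set.mem_singleton t)
      exact hfpf t htK k hk1 h3
    have hinv : ∀ k ∈ K, t * k * t⁻¹ = k⁻¹ := fun k hk =>
      Cfsg.Agent.Lib.Basic.inverts_of_fpf_involution ht2 hinf hk
    apply hna
    refine ⟨⟨fun a b => ?_⟩⟩
    have ha : (⟨a, hlt.le a.2⟩ : N) ∈ K := a.2
    have hb : (⟨b, hlt.le b.2⟩ : N) ∈ K := b.2
    have h1 := hinv _ ha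
    have h2 := hinv _ hb
    have h3 := hinv _ (K.mul_mem ha hb)
    have h4 : (⟨a, hlt.le a.2⟩ : N) * ⟨b, hlt.le b.2⟩ = ⟨b, hlt.le b.2⟩ * ⟨a, hlt.le a.2⟩ := by
      have e : t * ((⟨a, hlt.le a.2⟩ : N) * ⟨b, hlt.le b.2⟩) * t⁻¹ =
          (t * ⟨a, hlt.le a.2⟩ * t⁻¹) * (t * ⟨b, hlt.le b.2⟩ * t⁻¹) := by group
      rw [e, h1, h2, mul_inv_rev] at h3
      have := congrArg (fun x => x⁻¹) h3
      simpa using this.symm
    apply Subtype.ext
    have h5 := congrArg (Subtype.val : N → G) h4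
    exact h5
  obtain ⟨R, hS⟩ := exists_frob_system (K := K) hK1 hodd hfpf (P₀ : Set G)
    (fun x => Iff.rfl) hTI
  let Z' : Subgroup N := Z.subgroupOf N
  haveI hZ'n : Z'.Normal := by
    constructor
    intro n hn g
    rw [Subgroup.mem_subgroupOf] at hn ⊢
    exact hZn g g.2 n hn
  have hZ'K : Z' ≤ K := fun z hz => (hZP z (Subgroup.mem_subgroupOf.mp hz)).1
  have hZ'1 : Z' ≠ ⊥ := by
    intro h
    apply hZ1
    rw [eq_bot_iff]
    intro z hz
    have hzN : z ∈ N := hlt.le (hZP z hz).1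
    have : (⟨z, hzN⟩ : N) ∈ Z' := Subgroup.mem_subgroupOf.mpr hz
    rw [h] at this
    have h2 : (⟨z, hzN⟩ : N) = 1 := this
    exact congrArg Subtype.val h2
  have hcl : ⁅K, K⁆ < K := by
    have h1 : ⁅(⊤ : Subgroup K), (⊤ : Subgroup K)⁆ < ⊤ := by
      haveI : Nontrivial K := by
        obtain ⟨k, hk, hk1⟩ := (Subgroup.bot_or_exists_ne_one K).resolve_left hK1
        exact ⟨⟨⟨k, hk⟩, 1, fun h => hk1 (congrArg Subtype.val h)⟩⟩
      exact Group.IsSolvable.commutator_lt_top_of_nontrivial K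
    have h2 : ⁅K, K⁆ = (⁅(⊤ : Subgroup K), (⊤ : Subgroup K)⁆ : Subgroup K).map K.subtype := by
      rw [Subgroup.map_commutator, ← MonoidHom.range_eq_map, Subgroup.range_subtype]
    rw [h2]
    obtain ⟨k, -, hk⟩ := SetLike.exists_of_lt h1
    refine lt_of_le_of_ne ?_ ?_
    · rintro _ ⟨y, -, rfl⟩
      exact y.2
    · intro h
      apply hk
      have : (k : N) ∈ (⁅(⊤ : Subgroup K), (⊤ : Subgroup K)⁆ : Subgroup K).map K.subtype := by
        rw [h]
        exact k.2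
      obtain ⟨y, hy, hyk⟩ := this
      have : y = k := Subtype.ext hyk
      exact this ▸ hy
  have hKtop : K < ⊤ := by
    obtain ⟨x, hx, hx'⟩ := SetLike.exists_of_lt hlt
    refine lt_of_le_of_ne le_top fun h => hx' ?_
    have : (⟨x, hx⟩ : N) ∈ K := by rw [h]; trivial
    exact this
  have hmain := Cfsg.Agent.S1522.result K hsolv (fun α => indFun N α) R hS hodd hnil hcl hKtop
    (frob_quotient hfpf ⁅K, K⁆ (Subgroup.commutator_le_left K K)) Z' hZ'1 hZ'K
    (fun z hz k hk => Subtype.ext ((hZP z (Subgroup.mem_subgroupOf.mp hz)).2 k hk))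
    (fun χ hχ => frob_irr K hfpf hχ.1)
  have hset : {χ : N → ℂ | Cfsg.IsIrrCharacter N χ ∧ ∃ z : N, (z : G) ∈ Z ∧ χ z ≠ χ 1} =
      Cfsg.inducedIrrAbove K ⊥ \ Cfsg.inducedIrrAbove K Z' := by
    rw [hmain.1]
    rfl
  rw [hset]
  exact hmain.2

/-- Let G be a finite group, p an odd prime and P a Sylow p-subgroup that is non-abelian, whose underlying set is a TI-subset of G, with P properly contained in its set normaliser N and C_G(x) ≤ P for every non-identity x ∈ P. Let Z be a nontrivial subgroup of the centre of P normalised by N. Then the set of irreducible characters χ of N with χ z ≠ χ 1 for some z ∈ Z is coherent for the map induced by induction from N to G. -/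
theorem result {G : Type*} [Group G] [Fintype G] (p : ℕ) [Fact p.Prime] (hp : p ≠ 2) (P : Sylow p G) (hna : ¬ IsMulCommutative (P : Subgroup G)) (hTI : Cfsg.IsTISubset ((P : Subgroup G) : Set G)) (hlt : (P : Subgroup G) < Subgroup.normalizer ((P : Subgroup G) : Set G)) (hC : ∀ k ∈ (P : Subgroup G), k ≠ 1 → Subgroup.centralizer ({k} : Set G) ≤ (P : Subgroup G)) [Fintype ↥(Subgroup.normalizer ((P : Subgroup G) : Set G))] (Z : Subgroup G) (hZ1 : Z ≠ ⊥) (hZP : ∀ z ∈ Z, z ∈ (P : Subgroup G) ∧ ∀ y ∈ (P : Subgroup G), z * y = y * z) (hZn : ∀ x ∈ Subgroup.normalizer ((P : Subgroup G) : Set G), ∀ z ∈ Z, x * z * x⁻¹ ∈ Z) : Cfsg.IsCoherent {χ : ↥(Subgroup.normalizer ((P : Subgroup G) : Set G)) → ℂ | Cfsg.IsIrrCharacter ↥(Subgroup.normalizer ((P : Subgroup G) : Set G)) χ ∧ ∃ z : ↥(Subgroup.normalizer ((P : Subgroup G) : Set G)), (z : G) ∈ Z ∧ χ z ≠ χ 1} {1}ᶜ (fun α => Cfsg.indFun (Subgroup.normalizer ((P : Subgroup G) : Set G)) α) := by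
  exact main p hp (P : Subgroup G) P.isPGroup' hna _ (fun g hg t ht h => hTI g hg t ht h) hlt
    (fun x hx k hk => (Subgroup.mem_normalizer_iff.mp hx k).mp hk) hC Z hZ1 hZP hZn

end Cfsg.Agent.S1532
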