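import Cfsg.Statements.S1533
import Cfsg.Agent.Lib.OddChar.FrobEnd

set_option autoImplicit false
open Cfsg

namespace Cfsg.Agent.S1533

open Cfsg.Agent.Lib.Char Cfsg.Agent.Lib.OddChar

/-- Let G be a finite group, p an odd prime, and P a nontrivial Sylow p-subgroup whose underlying set is a TI-subset of G, with P properly contained in its set normaliser N and C_G(x) ≤ P for every non-identity x ∈ P. Let S be the set of irreducible characters χ of N with χ x ≠ χ 1 for some x ∈ P. Then either S has exactly one member, P is elementary abelian and Nat.card P = [N:P] + 1; or (S, N minus 1, induction to G) is coherent. -/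
theorem result {G : Type*} [Group G] [Fintype G] (p : ℕ) [Fact p.Prime] (hp : p ≠ 2) (P : Sylow p G) (hP1 : (P : Subgroup G) ≠ ⊥) (hTI : Cfsg.IsTISubset ((P : Subgroup G) : Set G)) (hlt : (P : Subgroup G) < Subgroup.normalizer ((P : Subgroup G) : Set G)) (hC : ∀ k ∈ (P : Subgroup G), k ≠ 1 → Subgroup.centralizer ({k} : Set G) ≤ (P : Subgroup G)) [Fintype ↥(Subgroup.normalizer ((P : Subgroup G) : Set G))] : (Nat.card {χ : ↥(Subgroup.normalizer ((P : Subgroup G) : Set G)) → ℂ // Cfsg.IsIrrCharacter ↥(Subgroup.normalizer ((P : Subgroup G) : Set G)) χ ∧ ∃ x : ↥(Subgroup.normalizer ((P : Subgroup G) : Set G)), (x : G) ∈ (P : Subgroup G) ∧ χ x ≠ χ 1} = 1 ∧ Cfsg.IsElementaryAbelian p (P : Subgroup G) ∧ Nat.card (P : Subgroup G) = ((P : Subgroup G).subgroupOf (Subgroup.normalizer ((P : Subgroup G) : Set G))).index + 1) ∨ Cfsg.IsCoherent {χ : ↥(Subgroup.normalizer ((P : Subgroup G) : Set G)) → ℂ | Cfsg.IsIrrCharacter ↥(Subgroup.normalizer ((P : Subgroup G)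 : Set G)) χ ∧ ∃ x : ↥(Subgroup.normalizer ((P : Subgroup G) : Set G)), (x : G) ∈ (P : Subgroup G) ∧ χ x ≠ χ 1} {1}ᶜ (fun α => Cfsg.indFun (Subgroup.normalizer ((P : Subgroup G) : Set G)) α) := by
  classical
  have hle := hlt.le
  have hpP := P.isPGroup'
  have hnil : Group.IsNilpotent (P : Subgroup G) := hpP.isNilpotent
  have hfact : p.Prime := Fact.out
  rcases ti_main (P : Subgroup G) _ hP1 hnil (fun g hg t ht h => hTI g hg t ht h) hle
    (fun x hx k hk => (Subgroup.mem_normalizer_iff.mp hx k).mp hk) hC with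
    ⟨h1, h2, h3, q, hq, h4⟩ | h | ⟨r, hr, ⟨m, hm⟩, hna, hx⟩
  · left
    refine ⟨h1, ⟨⟨⟨fun a b => Subtype.ext (h3 _ a.2 _ b.2)⟩⟩, ?_⟩, h2⟩
    obtain ⟨k₀, hk₀, hk₀1⟩ := (Subgroup.bot_or_exists_ne_one (P : Subgroup G)).resolve_left hP1
    have ho : orderOf (⟨k₀, hk₀⟩ : (P : Subgroup G)) = q := by
      haveI : Fact q.Prime := ⟨hq⟩
      refine orderOf_eq_prime ?_ ?_
      · apply Subtype.ext
        simpa using h4 k₀ hk₀
      · intro h
        exact hk₀1 (congrArg Subtype.val h)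
    obtain ⟨i, hi⟩ := IsPGroup.iff_orderOf.mp hpP ⟨k₀, hk₀⟩
    rw [ho] at hi
    have hqp : q = p := by
      have h5 : q ∣ p ^ i := by rw [hi]
      exact (Nat.prime_dvd_prime_iff_eq hq hfact).mp (hq.dvd_of_dvd_pow h5)
    intro a ha
    rw [← hqp]
    exact h4 a ha
  · right
    exact h
  · right
    refine ti_odd _ _ hP1 hnil hTI rfl hlt hC ?_ hna
    obtain ⟨n, hn⟩ := IsPGroup.iff_card.mp hpP
    rw [hn]
    intro h2
    have h3 := Nat.prime_two.dvd_of_dvd_pow h2
    exact hp ((Nat.prime_dvd_prime_iff_eq Nat.prime_two hfact).mp h3).symm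

end Cfsg.Agent.S1533
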