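import Cfsg.Statements.S1534
import Cfsg.Agent.Lib.OddChar.FrobEnd

set_option autoImplicit false
open Cfsg

namespace Cfsg.Agent.S1534

open Cfsg.Agent.Lib.Char Cfsg.Agent.Lib.OddChar

/-- Let G be a finite group and K a nontrivial nilpotent subgroup whose underlying set is a TI-subset of G, properly contained in its set normaliser N, with C_G(k) ≤ K for every non-identity k ∈ K; let e be the index of K in N and S the set of irreducible characters χ of N with χ k ≠ χ 1 for some k ∈ K. Then one of: S has exactly one member, Nat.card K = e + 1 and K is an elementary abelian p-group for some prime p; or K is a Sylow 2-subgroup of G (Nat.card K is the largest power of 2 dividing Nat.card G) and [K : [K,K]] < 4e²; or (S, N minus 1, induction to G) is coherent. -/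
theorem result {G : Type*} [Group G] [Fintype G] (K : Subgroup G) (hK1 : K ≠ ⊥) (hnil : Group.IsNilpotent K) (hTI : Cfsg.IsTISubset (K : Set G)) (hlt : K < Subgroup.normalizer (K : Set G)) (hC : ∀ k ∈ K, k ≠ 1 → Subgroup.centralizer ({k} : Set G) ≤ K) [Fintype ↥(Subgroup.normalizer (K : Set G))] : (Nat.card {χ : ↥(Subgroup.normalizer (K : Set G)) → ℂ // Cfsg.IsIrrCharacter ↥(Subgroup.normalizer (K : Set G)) χ ∧ ∃ k : ↥(Subgroup.normalizer (K : Set G)), (k : G) ∈ K ∧ χ k ≠ χ 1} = 1 ∧ Nat.card K = (K.subgroupOf (Subgroup.normalizer (K : Set G))).index + 1 ∧ ∃ p : ℕ, p.Prime ∧ Cfsg.IsElementaryAbelian p K) ∨ (Nat.card K = 2 ^ (Nat.card G).factorization 2 ∧ (⁅K, K⁆.subgroupOf K).index < 4 * (K.subgroupOf (Subgroup.normalizer (K : Set G))).index ^ 2) ∨ Cfsg.IsCoherent {χ : ↥(Subgroup.normalizer (K : Set G)) → ℂ | Cfsg.IsIrrCharacter ↥(Subgroup.normalizer (K : Set G)) χ ∧ ∃ k : ↥(Subgroup.normalizer (K : Set G)), (k : G) ∈ K ∧ χ k ≠ χ 1} {1}ᶜ (fun α => Cfsg.indFun (Subgroup.normalizer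 (K : Set G)) α) := by
  classical
  have hle := hlt.le
  rcases ti_main K _ hK1 hnil (fun g hg t ht h => hTI g hg t ht h) hle
    (fun x hx k hk => (Subgroup.mem_normalizer_iff.mp hx k).mp hk) hC with
    ⟨h1, h2, h3, q, hq, h4⟩ | h | ⟨r, hr, ⟨m, hm⟩, hna, hx⟩
  · left
    exact ⟨h1, h2, q, hq, ⟨⟨⟨fun a b => Subtype.ext (h3 _ a.2 _ b.2)⟩⟩, h4⟩⟩
  · right
    right
    exact h
  · by_cases hr2 : r = 2
    · subst hr2
      right
      left
      exact ti_two K _ hK1 rfl hlt hC hm hx (lt_of_le_of_ne ((Subgroup.commutator_le).mpr fun a ha b hb => K.mul_mem (K.mul_mem (K.mul_mem ha hb) (K.inv_mem ha)) (K.inv_mem hb)) (commutator_ne_self_of_nilpotent hnil le_rfl hK1))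
    · right
      right
      refine ti_odd K _ hK1 hnil hTI rfl hlt hC ?_ hna
      rw [hm]
      intro h2
      have h3 := Nat.prime_two.dvd_of_dvd_pow h2
      exact hr2 ((Nat.prime_dvd_prime_iff_eq Nat.prime_two hr).mp h3).symm

end Cfsg.Agent.S1534
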