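import Cfsg.Statements.S1536
import Cfsg.Agent.S1496
import Cfsg.Agent.Lib.Char.BrauerPerm

set_option autoImplicit false
open Cfsg

namespace Cfsg.Agent.S1536

open Cfsg.Agent.Lib.Char

/-- Let H be a normal subgroup of the finite group M whose order is coprime to its index. For x ∈ M: some non-principal irreducible character of H is unchanged under h ↦ θ(x h x⁻¹) if and only if some non-identity element of H commutes with x. -/
theorem result {M : Type*} [Group M] [Finite M] (H : Subgroup M) [hN : H.Normal] (hHall : Nat.Coprime (Nat.card H) H.index) (x : M) : (∃ θ : H → ℂ, Cfsg.IsIrrCharacter H θ ∧ θ ≠ (fun _ => 1) ∧ (fun h : H => θ ⟨x * h * x⁻¹, hN.conj_mem h h.2 x⟩) = θ) ↔ ∃ h ∈ H, h ≠ 1 ∧ x * h = h * x := by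
  classical
  let α : H ≃* H := MulAut.conjNormal x
  have hα : ∀ h : H, α h = ⟨x * h * x⁻¹, hN.conj_mem h h.2 x⟩ := fun h => Subtype.ext (by simp [α])
  have hfin : Finite H := inferInstance
  have hcard := card_fixed_conjClasses_eq_card_fixed_irr α
  have hfin1 : Finite {C : ConjClasses H // ConjClasses.map α.toMonoidHom C = C} := inferInstance
  have hfin2 : Finite {χ : IrrCharacter H // (χ : H → ℂ) ∘ α = (χ : H → ℂ)} := inferInstance
  have hnt : Nontrivial {C : ConjClasses H // ConjClasses.map α.toMonoidHom C = C} ↔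
      Nontrivial {χ : IrrCharacter H // (χ : H → ℂ) ∘ α = (χ : H → ℂ)} := by
    rw [← Finite.one_lt_card_iff_nontrivial, ← Finite.one_lt_card_iff_nontrivial, hcard]
  let C₀ : {C : ConjClasses H // ConjClasses.map α.toMonoidHom C = C} :=
    ⟨ConjClasses.mk 1, by
      show ConjClasses.mk (α 1) = _
      rw [map_one]⟩
  let χ₀ : {χ : IrrCharacter H // (χ : H → ℂ) ∘ α = (χ : H → ℂ)} :=
    ⟨⟨fun _ => 1, isIrrCharacter_one⟩, rfl⟩
  constructor
  · rintro ⟨θ, hθ, hθ1, hfix⟩
    -- nontrivial fixed irreducible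
    have hθfix : θ ∘ α = θ := by
      funext h
      rw [Function.comp_apply, hα]
      exact congrFun hfix h
    have hB : Nontrivial {χ : IrrCharacter H // (χ : H → ℂ) ∘ α = (χ : H → ℂ)} :=
      ⟨⟨⟨⟨θ, hθ⟩, hθfix⟩, χ₀, fun h => hθ1 (congrArg (fun r : {χ : IrrCharacter H // (χ : H → ℂ) ∘ α = (χ : H → ℂ)} => ((r : IrrCharacter H) : H → ℂ)) h)⟩⟩
    have hA := hnt.mpr hB
    obtain ⟨C, hC⟩ := exists_ne C₀
    obtain ⟨C, hCfix⟩ := C
    obtain ⟨k, rfl⟩ := ConjClasses.mk_surjective C
    have hk1 : k ≠ 1 := by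
      rintro rfl
      exact hC rfl
    by_cases hpow : x ^ H.index = 1
    · -- `x` has order coprime to `|H|`
      have hxc : Nat.Coprime (orderOf x) (Nat.card H) :=
        Nat.Coprime.coprime_dvd_left (orderOf_dvd_of_pow_eq_one hpow) hHall.symm
      have hxn : x ∈ Subgroup.normalizer (H : Set M) := by
        rw [Subgroup.mem_normalizer_iff]
        intro n
        constructor
        · intro h; exact hN.conj_mem n h x
        · intro h
          have := hN.conj_mem _ h x⁻¹
          simpa [mul_assoc] using this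
      have hfix' : ConjClasses.mk (α k) = ConjClasses.mk k := hCfix
      rw [ConjClasses.mk_eq_mk_iff_isConj, isConj_iff] at hfix'
      obtain ⟨u, hu⟩ := hfix'
      rw [Subtype.ext_iff, hα] at hu
      simp only [Subgroup.coe_mul, InvMemClass.coe_inv] at hu
      obtain ⟨t, ht, c, hc, hcx, hconj⟩ := Cfsg.Agent.S1496.result H x hxn hxc u u.2
      have hgk : Commute ((u : M) * x) (k : M) := by
        have : (u : M) * x * k = k * ((u : M) * x) := by
          nth_rw 2 [← hu]
          group
        exact this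
      obtain ⟨b, hb1, hb0⟩ := Nat.chineseRemainder hxc 1 0
      have hpow' : (c * x) ^ b = x := by
        rw [(show Commute c x from hcx).mul_pow]
        have h1 : c ^ b = 1 := orderOf_dvd_iff_pow_eq_one.mp
          ((Subgroup.orderOf_dvd_natCard H hc).trans ((Nat.modEq_zero_iff_dvd).mp hb0))
        have h2 : x ^ b = x ^ 1 := pow_eq_pow_iff_modEq.mpr hb1
        rw [h1, h2, one_mul, pow_one]
      have hxeq : t * ((u : M) * x) ^ b * t⁻¹ = x := by
        rw [← conj_pow, hconj, hpow']
      have hcomm : Commute x (t * k * t⁻¹) := by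
        rw [← hxeq]
        have h3 : Commute (((u : M) * x) ^ b) (k : M) := hgk.pow_left b
        change _ * _ = _ * _
        calc t * ((u : M) * x) ^ b * t⁻¹ * (t * k * t⁻¹) = t * (((u : M) * x) ^ b * k) * t⁻¹ := by group
          _ = t * (k * ((u : M) * x) ^ b) * t⁻¹ := by rw [h3.eq]
          _ = _ := by group
      refine ⟨t * k * t⁻¹, H.mul_mem (H.mul_mem ht k.2) (H.inv_mem ht), ?_, hcomm.eq⟩
      intro h
      apply hk1
      apply Subtype.ext
      have h5 : t * (k : M) * t⁻¹ = t * 1 * t⁻¹ := by simpa using h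
      simpa using mul_left_cancel (mul_right_cancel h5)
    · refine ⟨x ^ H.index, Subgroup.pow_index_mem H x, hpow, ?_⟩
      exact (Commute.pow_right (Commute.refl x) _).eq
  · rintro ⟨h, hh, hh1, hcomm⟩
    have hA : Nontrivial {C : ConjClasses H // ConjClasses.map α.toMonoidHom C = C} := by
      refine ⟨⟨⟨ConjClasses.mk ⟨h, hh⟩, ?_⟩, C₀, ?_⟩⟩
      · show ConjClasses.mk (α ⟨h, hh⟩) = _
        congr 1
        rw [hα]
        apply Subtype.ext
        simp only
        rw [hcomm]
        group
      · intro he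
        have he' : ConjClasses.mk (⟨h, hh⟩ : H) = ConjClasses.mk 1 := congrArg Subtype.val he
        rw [ConjClasses.mk_eq_mk_iff_isConj, isConj_one_left] at he'
        exact hh1 (congrArg Subtype.val he')
    have hB := hnt.mp hA
    obtain ⟨χ, hχ⟩ := exists_ne χ₀
    refine ⟨χ.1.1, χ.1.2, ?_, ?_⟩
    · intro h1
      exact hχ (Subtype.ext (Subtype.ext h1))
    · have := χ.2
      funext y
      have h2 := congrFun this y
      rw [Function.comp_apply, hα] at h2
      exact h2

end Cfsg.Agent.S1536
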