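import Cfsg.Statements.S1546
import Mathlib

set_option autoImplicit false
open Cfsg

namespace Cfsg.Agent.S1546

/-- Let p and q be odd primes and N = (p ^ q − 1) / (p − 1) = 1 + p + ⋯ + p^(q−1). Then N is odd; if p ≡ 1 (mod q) then q ∣ N; and if p is not ≡ 1 (mod q) then N is coprime to p − 1 and every divisor of N is ≡ 1 (mod q). -/
theorem result (p q : ℕ) (hp : p.Prime) (hq : q.Prime) (hp2 : p ≠ 2) (hq2 : q ≠ 2) : Odd ((p ^ q - 1) / (p - 1)) ∧ (p % q = 1 → q ∣ (p ^ q - 1) / (p - 1)) ∧ (p % q ≠ 1 → Nat.Coprime ((p ^ q - 1) / (p - 1)) (p - 1) ∧ ∀ x : ℕ, x ∣ (p ^ q - 1) / (p - 1) → x % q = 1) := by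
  obtain ⟨m, rfl⟩ : ∃ m, p = m + 1 := ⟨p - 1, by have := hp.pos; omega⟩
  have hm0 : 0 < m := by
    have := hp.two_le
    omega
  simp only [Nat.add_sub_cancel]
  set N := ∑ i ∈ Finset.range q, (m + 1) ^ i with hN
  have hgeom : (m + 1) ^ q - 1 = N * m := by
    have := Nat.geomSum_eq (m := m + 1) (by omega) q
    have h2 : ((m + 1) ^ q - 1) / m = N := by
      rw [hN, this]
      simp
    have h3 : m ∣ (m + 1) ^ q - 1 := by
      have := Nat.sub_dvd_pow_sub_pow (m + 1) 1 q
      simpa using this
    rw [← h2, Nat.div_mul_cancel h3]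
  have hdiv : ((m + 1) ^ q - 1) / m = N := by
    rw [hgeom]
    exact Nat.mul_div_cancel _ hm0
  rw [hdiv]
  -- `N` modulo `m`
  have hNm : N ≡ q [MOD m] := by
    rw [hN]
    have : ∀ i, (m + 1) ^ i ≡ 1 [MOD m] := by
      intro i
      have h1 : m + 1 ≡ 1 [MOD m] := by simp [Nat.ModEq]
      simpa using h1.pow i
    calc ∑ i ∈ Finset.range q, (m + 1) ^ i ≡ ∑ i ∈ Finset.range q, 1 [MOD m] := by
          rw [Nat.ModEq, Finset.sum_nat_mod, Finset.sum_nat_mod (f := fun _ => 1)]
          congr 1
          exact Finset.sum_congr rfl fun i _ => this i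
      _ = q := by simp
  refine ⟨?_, ?_, ?_⟩
  · -- `N` is odd
    have hodd : Odd (m + 1) := hp.odd_of_ne_two hp2
    have hqodd : Odd q := hq.odd_of_ne_two hq2
    rw [hN]
    have : ∀ i, Odd ((m + 1) ^ i) := fun i => hodd.pow
    rw [Nat.odd_iff, Finset.sum_nat_mod]
    have h1 : ∀ i ∈ Finset.range q, (m + 1) ^ i % 2 = 1 := fun i _ => Nat.odd_iff.mp (this i)
    rw [Finset.sum_congr rfl h1]
    simp only [Finset.sum_const, Finset.card_range, smul_eq_mul, mul_one]
    exact Nat.odd_iff.mp hqodd
  · -- `q ∣ N` when `p ≡ 1 (mod q)`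
    intro h
    have h1 : m + 1 ≡ 1 [MOD q] := by
      rw [Nat.ModEq, h, Nat.mod_eq_of_lt hq.one_lt]
    have h2 : N ≡ q [MOD q] := by
      rw [hN]
      have : ∀ i, (m + 1) ^ i ≡ 1 [MOD q] := by
        intro i
        simpa using h1.pow i
      calc ∑ i ∈ Finset.range q, (m + 1) ^ i ≡ ∑ i ∈ Finset.range q, 1 [MOD q] := by
            rw [Nat.ModEq, Finset.sum_nat_mod, Finset.sum_nat_mod (f := fun _ => 1)]
            congr 1
            exact Finset.sum_congr rfl fun i _ => this i
        _ = q := by simp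
    have h3 : N % q = 0 := by
      rw [h2, Nat.mod_self]
    exact Nat.dvd_of_mod_eq_zero h3
  · intro hne
    have hnq : ¬ q ∣ m := by
      intro hd
      apply hne
      have h1 : (m + 1) % q = 1 % q := by
        rw [Nat.add_mod, Nat.mod_eq_zero_of_dvd hd]
        simp
      rw [h1, Nat.mod_eq_of_lt hq.one_lt]
    constructor
    · -- coprime to `p - 1`
      have h1 : Nat.gcd N m = Nat.gcd q m := hNm.gcd_eq
      rw [Nat.Coprime, h1]
      exact (Nat.Prime.coprime_iff_not_dvd hq).mpr hnq
    · -- primes dividing `N`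
      have hNpos : N ≠ 0 := by
        rw [hN]
        apply ne_of_gt
        refine Finset.sum_pos (fun i _ => by positivity) ?_
        exact ⟨0, Finset.mem_range.mpr hq.pos⟩
      have hprime : ∀ r : ℕ, r.Prime → r ∣ N → r % q = 1 := by
        intro r hr hrN
        haveI : Fact r.Prime := ⟨hr⟩
        have h1 : r ∣ (m + 1) ^ q - 1 := by
          rw [hgeom]
          exact hrN.trans (Dvd.intro _ rfl)
        have hpow : ((m + 1 : ℕ) : ZMod r) ^ q = 1 := by
          have h2 : ((((m + 1) ^ q - 1 : ℕ)) : ZMod r) = 0 := (ZMod.natCast_eq_zero_iff _ _).mpr h1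
          rw [Nat.cast_sub (Nat.one_le_pow _ _ (by omega))] at h2
          push_cast at h2 ⊢
          exact sub_eq_zero.mp h2
        have hne0 : ((m + 1 : ℕ) : ZMod r) ≠ 0 := by
          intro h0
          rw [h0, zero_pow hq.ne_zero] at hpow
          exact zero_ne_one hpow
        have hord := orderOf_dvd_of_pow_eq_one hpow
        rcases (Nat.dvd_prime hq).mp hord with h1' | h1'
        · -- `p ≡ 1 (mod r)`
          exfalso
          have hone : ((m + 1 : ℕ) : ZMod r) = 1 := orderOf_eq_one_iff.mp h1'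
          have hmr : r ∣ m := by
            have h3 : ((m : ℕ) : ZMod r) = 0 := by
              push_cast at hone
              linear_combination hone
            exact (ZMod.natCast_eq_zero_iff _ _).mp h3
          have hNq : N ≡ q [MOD r] := hNm.of_dvd hmr
          have hrq : r ∣ q := by
            have h4 : N % r = 0 := Nat.mod_eq_zero_of_dvd hrN
            rw [Nat.ModEq, h4] at hNq
            exact Nat.dvd_of_mod_eq_zero hNq.symm
          have hrq' : r = q := (Nat.prime_dvd_prime_iff_eq hr hq).mp hrq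
          rw [hrq'] at hmr
          exact hnq hmr
        · have h5 : q ∣ r - 1 := by
            rw [← h1']
            exact ZMod.orderOf_dvd_card_sub_one hne0
          have h6 : r = (r - 1) + 1 := by
            have := hr.pos
            omega
          rw [h6, Nat.add_mod, Nat.mod_eq_zero_of_dvd h5]
          simp [Nat.mod_eq_of_lt hq.one_lt]
      intro x
      induction x using Nat.recOnMul with
      | zero =>
        intro h
        exact absurd (Nat.eq_zero_of_zero_dvd h) hNpos
      | one =>
        intro _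
        exact Nat.mod_eq_of_lt hq.one_lt
      | prime r hr => exact hprime r hr
      | mul a b ha hb =>
        intro h
        have h1 := ha ((Dvd.intro _ rfl).trans h)
        have h2 := hb ((Dvd.intro_left _ rfl).trans h)
        rw [Nat.mul_mod, h1, h2]
        simp [Nat.mod_eq_of_lt hq.one_lt]

end Cfsg.Agent.S1546
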