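import Cfsg.Statements.S1552
import Cfsg.Agent.Lib.M24.SextetOrb

set_option autoImplicit false
open scoped Pointwise
open Cfsg

namespace Cfsg.Agent.S1552

open Cfsg.Agent.Lib.Golay Cfsg.Agent.Lib.M24

/-- A sextet stabiliser has four orbits on the 1771 sextets, of sizes 1, 90, 240, 1440; and the stabiliser is a maximal proper subgroup. -/
theorem result (S : Finset (Finset Cfsg.GolayPt)) (hS : S ∈ Cfsg.sextets) : ∃ X₁ ∈ Cfsg.sextets, ∃ X₂ ∈ Cfsg.sextets, ∃ X₃ ∈ Cfsg.sextets, (MulAction.orbit ↥(MulAction.stabilizer Cfsg.M24 S) X₁).ncard = 90 ∧ (MulAction.orbit ↥(MulAction.stabilizer Cfsg.M24 S) X₂).ncard = 240 ∧ (MulAction.orbit ↥(MulAction.stabilizer Cfsg.M24 S) X₃).ncard = 1440 ∧ Cfsg.sextets = {S} ∪ MulAction.orbit ↥(MulAction.stabilizer Cfsg.M24 S) X₁ ∪ MulAction.orbit ↥(MulAction.stabilizer Cfsg.M24 S) X₂ ∪ MulAction.orbit ↥(MulAction.stabilizer Cfsg.M24 S) X₃ ∧ IsCoatom (MulAction.stabilizer Cfsg.M24 S)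 := by
  obtain ⟨k, hk⟩ := exists_to_s0 hS _ (qF_mem_sextets s0_mem)
  have hcon : ∀ g : ↥M24, g ∈ MulAction.stabilizer Cfsg.M24 S ↔ k * g * k⁻¹ ∈ MulAction.stabilizer Cfsg.M24 (qF s0) := by
    intro g
    rw [conj_mem_stabilizer k g S, hk]
  have hmem : ∀ x, x ∈ sexL → k⁻¹ • qF x ∈ sextets := fun x hx =>
    smul_sextet (M24.inv_mem k.2) (qF_mem_sextets hx)
  have hall : sextets = (fun y => k⁻¹ • y) '' sextets := by
    ext Y
    constructor
    · intro hY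
      exact ⟨k • Y, smul_sextet k.2 hY, inv_smul_smul _ _⟩
    · rintro ⟨Z, hZ, rfl⟩
      exact smul_sextet (M24.inv_mem k.2) hZ
  have hS0 : k⁻¹ • qF s0 = S := by
    rw [← hk, inv_smul_smul]
  have hor : ∀ (x : List ℕ) (v : ℕ), MulAction.orbit (MulAction.stabilizer M24 (qF s0)) (qF x) = qF '' {l | l ∈ sexL.filter (hasPat v)} →
      (MulAction.orbit ↥(MulAction.stabilizer Cfsg.M24 S) (k⁻¹ • qF x)) = (fun y => k⁻¹ • y) '' (qF '' {l | l ∈ sexL.filter (hasPat v)}) ∧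
      (MulAction.orbit ↥(MulAction.stabilizer Cfsg.M24 S) (k⁻¹ • qF x)).ncard = (sexL.filter (hasPat v)).length := by
    intro x v h
    have e := orbit_conj k hcon (qF x)
    rw [h] at e
    refine ⟨e, ?_⟩
    rw [e, Set.ncard_image_of_injective _ (MulAction.injective k⁻¹), ncard_filter]
  obtain ⟨e1, n1⟩ := hor l8 8 orbit8
  obtain ⟨e2, n2⟩ := hor l10 10 orbit10
  obtain ⟨e3, n3⟩ := hor l6 6 orbit6
  refine ⟨_, hmem l8 l8_mem, _, hmem l10 l10_mem, _, hmem l6 l6_mem, ?_, ?_, ?_, ?_, ?_⟩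
  · rw [n1, count8]
  · rw [n2, count10]
  · rw [n3, count6]
  · rw [e1, e2, e3]
    conv_lhs => rw [hall, sextets_union]
    rw [Set.image_union, Set.image_union, Set.image_union, Set.image_singleton, hS0]
  · apply isCoatom_stabilizer_of_smul (x := S) k
    rw [hk]
    exact coatom_s0

end Cfsg.Agent.S1552
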