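-- S1554: the octad stabiliser splits.
import Cfsg.Statements.S1554
import Cfsg.Agent.Lib.M24.OctadFix

set_option autoImplicit false
open scoped Pointwise
open Cfsg

namespace Cfsg.Agent.S1554

open Cfsg.Agent.Lib.Golay Cfsg.Agent.Lib.M24 MulAction

/-- The complement. -/
abbrev HO (o : Finset GolayPt) (p : GolayPt) : Subgroup (Equiv.Perm GolayPt) :=
  M24 ⊓ stabilizer (Equiv.Perm GolayPt) o ⊓ stabilizer (Equiv.Perm GolayPt) p

lemma mem_HO {o : Finset GolayPt} {p : GolayPt} {g : Equiv.Perm GolayPt} :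
    g ∈ HO o p ↔ g ∈ SO o ∧ g p = p :=
  ⟨fun h => ⟨h.1, h.2⟩, fun h => ⟨h.1, h.2⟩⟩

lemma HO_le (o : Finset GolayPt) (p : GolayPt) : HO o p ≤ SO o := fun _ h => (mem_HO.1 h).1

/-- Restriction of the complement. -/
noncomputable def rhoH (o : Finset GolayPt) (p : GolayPt) : HO o p →* Equiv.Perm ↥o :=
  (rho o).comp (Subgroup.inclusion (HO_le o p))

lemma rhoH_inj {o : Finset GolayPt} (ho : o ∈ octads) {p : GolayPt} (hp : p ∉ o) :
    Function.Injective (rhoH o p) := by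
  rw [injective_iff_map_eq_one]
  intro a ha
  have h1 : (⟨a.1, HO_le o p a.2⟩ : SO o) ∈ (rho o).ker := ha
  have h2 := (mem_ker_rho _).1 h1
  have h3 : a.1 = 1 := FO_free ho hp (mem_FO.2 ⟨(mem_SO.1 (HO_le o p a.2)).1, h2⟩) (mem_HO.1 a.2).2
  exact Subtype.ext h3

lemma exists_fix_move {o : Finset GolayPt} (ho : o ∈ octads) {p : GolayPt} (hp : p ∉ o) (x : SO o) :
    ∃ f ∈ FO o, f * x.1 ∈ HO o p := by
  have h1 : x.1 p ∉ o := (perm_iff_of_smul (mem_SO.1 x.2).2 p).not.2 hp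
  obtain ⟨f, hf, hf'⟩ := FO_transitive ho h1 hp
  exact ⟨f, hf, mem_HO.2 ⟨(SO o).mul_mem (FO_le_SO o hf) x.2, hf'⟩⟩

lemma range_rhoH {o : Finset GolayPt} (ho : o ∈ octads) {p : GolayPt} (hp : p ∉ o) :
    (rhoH o p).range = alternatingGroup ↥o := by
  rw [← range_rho ho]
  apply le_antisymm
  · rintro _ ⟨a, rfl⟩
    exact ⟨⟨a.1, HO_le o p a.2⟩, rfl⟩
  · rintro _ ⟨x, rfl⟩
    obtain ⟨f, hf, hfx⟩ := exists_fix_move ho hp x
    refine ⟨⟨_, hfx⟩, ?_⟩
    apply Equiv.ext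
    intro w
    apply Subtype.ext
    change f (x.1 w.1) = x.1 w.1
    exact (mem_FO.1 hf).2 _ ((perm_iff_of_smul (mem_SO.1 x.2).2 w.1).2 w.2)

/-- An octad stabiliser is a split extension: the joint stabiliser of the octad and a point outside it is a complement to the pointwise stabiliser of the octad, and is isomorphic to the alternating group of degree 8. -/
theorem result (o : Finset Cfsg.GolayPt) (ho : o ∈ Cfsg.octads) (p : Cfsg.GolayPt) (hp : p ∉ o) : (Cfsg.M24 ⊓ fixingSubgroup (Equiv.Perm Cfsg.GolayPt) (o : Set Cfsg.GolayPt)) ⊓ (Cfsg.M24 ⊓ MulAction.stabilizer (Equiv.Perm Cfsg.GolayPt) o ⊓ MulAction.stabilizer (Equiv.Perm Cfsg.GolayPt) p) = ⊥ ∧ (Cfsg.M24 ⊓ fixingSubgroup (Equiv.Perm Cfsg.GolayPt) (o : Set Cfsg.GolayPt)) ⊔ (Cfsg.M24 ⊓ MulAction.stabilizer (Equiv.Perm Cfsg.GolayPt) o ⊓ MulAction.stabilizer (Equiv.Perm Cfsg.GolayPt) p) = (Cfsg.M24 ⊓ MulAction.stabilizer (Equiv.Perm Cfsg.GolayPt)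 o) ∧ Nonempty (↥(Cfsg.M24 ⊓ MulAction.stabilizer (Equiv.Perm Cfsg.GolayPt) o ⊓ MulAction.stabilizer (Equiv.Perm Cfsg.GolayPt) p) ≃* alternatingGroup (Fin 8)) := by
  refine ⟨?_, ?_, ?_⟩
  · rw [eq_bot_iff]
    rintro g ⟨hg1, hg2⟩
    exact FO_free ho hp hg1 (mem_HO.1 hg2).2
  · change FO o ⊔ HO o p = SO o
    apply le_antisymm
    · exact sup_le (FO_le_SO o) (HO_le o p)
    · intro x hx
      obtain ⟨f, hf, hfx⟩ := exists_fix_move ho hp ⟨x, hx⟩
      have : x = f⁻¹ * (f * x) := by group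
      rw [this]
      exact Subgroup.mul_mem_sup ((FO o).inv_mem hf) hfx
  · have he : Fintype.card ↥o = Fintype.card (Fin 8) := by
      rw [Fintype.card_coe, octad_card ho, Fintype.card_fin]
    let e : ↥o ≃ Fin 8 := Fintype.equivOfCardEq he
    exact ⟨(MonoidHom.ofInjective (rhoH_inj ho hp)).trans
      ((MulEquiv.subgroupCongr (range_rhoH ho hp)).trans e.altCongrHom)⟩

end Cfsg.Agent.S1554
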