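-- S1595: Leech triangle of S(5, 6, 12).
import Cfsg.Statements.S1595
import Cfsg.Agent.Lib.Golay.Steiner

set_option autoImplicit false
open Cfsg

namespace Cfsg.Agent.S1595

open Finset Cfsg.Agent.Lib.Golay.Steiner

variable {α : Type*} [Fintype α] [DecidableEq α]

/-- The number of blocks meeting `b` in exactly `u`. -/
noncomputable def xC (B : Set (Finset α)) (b u : Finset α) : ℕ :=
  ((BF B).filter (fun c => b ∩ c = u)).card

lemma xC_eq_ncard (B : Set (Finset α)) (b u : Finset α) :
    {c : Finset α | c ∈ B ∧ b ∩ c = u}.ncard = xC B b u := by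
  unfold xC
  rw [← Set.ncard_coe_finset]
  congr 1
  ext c
  simp

/-- The number of blocks through `s` is the sum over the possible traces. -/
lemma through_eq_sum (B : Set (Finset α)) {b s : Finset α} (hs : s ⊆ b) :
    ((BF B).filter (s ⊆ ·)).card
      = ∑ t ∈ range (b.card + 1), ∑ u ∈ (powersetCard t b).filter (s ⊆ ·), xC B b u := by
  classical
  have h1 : ((BF B).filter (s ⊆ ·)).card
      = ∑ t ∈ range (b.card + 1), (((BF B).filter (s ⊆ ·)).filter
          (fun c => (b ∩ c).card = t)).card := by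
    apply Finset.card_eq_sum_card_fiberwise
    intro c _
    rw [mem_coe, mem_range]
    exact Nat.lt_succ_of_le (card_le_card inter_subset_left)
  rw [h1]
  apply Finset.sum_congr rfl
  intro t _
  unfold xC
  rw [← Finset.card_biUnion]
  · congr 1
    ext c
    simp only [mem_filter, mem_biUnion, mem_powersetCard, mem_BF]
    constructor
    · rintro ⟨⟨hc, hsc⟩, hct⟩
      exact ⟨b ∩ c, ⟨⟨inter_subset_left, hct⟩, subset_inter hs hsc⟩, hc, rfl⟩
    · rintro ⟨u, ⟨⟨_, hut⟩, hsu⟩, hc, rfl⟩
      exact ⟨⟨hc, hsu.trans inter_subset_right⟩, hut⟩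
  · intro u _ v _ huv
    rw [Function.onFun, disjoint_left]
    intro c hc hc'
    exact huv ((mem_filter.mp hc).2.symm.trans (mem_filter.mp hc').2)

variable {B : Set (Finset α)}

lemma xC_top (hB : IsSteinerSystem 5 6 B) {b : Finset α} (hb : b ∈ B) : xC B b b = 1 := by
  unfold xC
  rw [card_eq_one]
  refine ⟨b, ?_⟩
  ext c
  simp only [mem_filter, mem_BF, mem_singleton]
  constructor
  · rintro ⟨hc, hci⟩
    by_contra hcb
    have h1 := inter_lt hB hb hc (Ne.symm hcb)
    rw [hci, hB.1 b hb] at h1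
    omega
  · rintro rfl
    exact ⟨hb, inter_self _⟩

lemma xC_five (hB : IsSteinerSystem 5 6 B) {b u : Finset α} (hb : b ∈ B) (hu : u.card = 5) :
    xC B b u = 0 := by
  unfold xC
  rw [card_eq_zero, filter_eq_empty_iff]
  intro c hc hci
  have hcB := mem_BF.mp hc
  by_cases hbc : b = c
  · subst hbc
    rw [inter_self] at hci
    rw [← hci, hB.1 b hb] at hu
    omega
  · have := inter_lt hB hb hcB hbc
    rw [hci] at this
    omega

/-- Traces of size `k` contribute `x_k` times the number of sets between. -/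
lemma sum_const_of (b s : Finset α) (hs : s ⊆ b) (t : ℕ) (hst : s.card ≤ t) (f : Finset α → ℕ) (v : ℕ)
    (hf : ∀ u, u.card = t → s ⊆ u → u ⊆ b → f u = v) :
    ∑ u ∈ (powersetCard t b).filter (s ⊆ ·), f u = Nat.choose (b.card - s.card) (t - s.card) * v := by
  rw [Finset.sum_congr rfl (g := fun _ => v), sum_const, smul_eq_mul, card_between s b hs t hst]
  intro u hu
  obtain ⟨hu1, hu2⟩ := mem_filter.mp hu
  obtain ⟨hu3, hu4⟩ := mem_powersetCard.mp hu1
  exact hf u hu4 hu2 hu3

lemma filter_empty_of_lt (b s : Finset α) (t : ℕ) (hst : t < s.card) :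
    (powersetCard t b).filter (s ⊆ ·) = ∅ := by
  rw [filter_eq_empty_iff]
  intro u hu hsu
  have := card_le_card hsu
  rw [(mem_powersetCard.mp hu).2] at this
  omega

lemma xC_four (hα : Fintype.card α = 12) (hB : IsSteinerSystem 5 6 B) {b s : Finset α} (hb : b ∈ B)
    (hs : s ⊆ b) (h4 : s.card = 4) : xC B b s = 3 := by
  have hbc := hB.1 b hb
  have h1 := blocks_through_eq hB s (by omega) 4 (by rw [h4]; decide) (by rw [h4, hα]; decide)
  rw [through_eq_sum B hs, hbc] at h1
  simp only [sum_range_succ, sum_range_zero, zero_add] at h1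
  rw [filter_empty_of_lt b s 0 (by omega), filter_empty_of_lt b s 1 (by omega),
    filter_empty_of_lt b s 2 (by omega), filter_empty_of_lt b s 3 (by omega)] at h1
  rw [sum_const_of b s hs 4 (by omega) (xC B b) (xC B b s) (fun u hu hsu _ => by
    rw [Finset.eq_of_subset_of_card_le hsu (by omega)])] at h1
  rw [sum_const_of b s hs 5 (by omega) (xC B b) 0 (fun u hu _ _ => xC_five hB hb hu)] at h1
  rw [sum_const_of b s hs 6 (by omega) (xC B b) 1 (fun u hu _ hub => by
    rw [Finset.eq_of_subset_of_card_le hub (by omega)]; exact xC_top hB hb)] at h1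
  rw [hbc, h4] at h1
  norm_num [Nat.choose] at h1
  omega

lemma xC_three (hα : Fintype.card α = 12) (hB : IsSteinerSystem 5 6 B) {b s : Finset α} (hb : b ∈ B)
    (hs : s ⊆ b) (h3 : s.card = 3) : xC B b s = 2 := by
  have hbc := hB.1 b hb
  have h1 := blocks_through_eq hB s (by omega) 12 (by rw [h3]; decide) (by rw [h3, hα]; decide)
  rw [through_eq_sum B hs, hbc] at h1
  simp only [sum_range_succ, sum_range_zero, zero_add] at h1
  rw [filter_empty_of_lt b s 0 (by omega), filter_empty_of_lt b s 1 (by omega),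
    filter_empty_of_lt b s 2 (by omega)] at h1
  rw [sum_const_of b s hs 3 (by omega) (xC B b) (xC B b s) (fun u hu hsu _ => by
    rw [Finset.eq_of_subset_of_card_le hsu (by omega)])] at h1
  rw [sum_const_of b s hs 4 (by omega) (xC B b) 3 (fun u hu _ hub => xC_four hα hB hb hub hu)] at h1
  rw [sum_const_of b s hs 5 (by omega) (xC B b) 0 (fun u hu _ _ => xC_five hB hb hu)] at h1
  rw [sum_const_of b s hs 6 (by omega) (xC B b) 1 (fun u hu _ hub => by
    rw [Finset.eq_of_subset_of_card_le hub (by omega)]; exact xC_top hB hb)] at h1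
  rw [hbc, h3] at h1
  norm_num [Nat.choose] at h1
  omega

lemma xC_two (hα : Fintype.card α = 12) (hB : IsSteinerSystem 5 6 B) {b s : Finset α} (hb : b ∈ B)
    (hs : s ⊆ b) (h2 : s.card = 2) : xC B b s = 3 := by
  have hbc := hB.1 b hb
  have h1 := blocks_through_eq hB s (by omega) 30 (by rw [h2]; decide) (by rw [h2, hα]; decide)
  rw [through_eq_sum B hs, hbc] at h1
  simp only [sum_range_succ, sum_range_zero, zero_add] at h1
  rw [filter_empty_of_lt b s 0 (by omega), filter_empty_of_lt b s 1 (by omega)] at h1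
  rw [sum_const_of b s hs 2 (by omega) (xC B b) (xC B b s) (fun u hu hsu _ => by
    rw [Finset.eq_of_subset_of_card_le hsu (by omega)])] at h1
  rw [sum_const_of b s hs 3 (by omega) (xC B b) 2 (fun u hu _ hub => xC_three hα hB hb hub hu)] at h1
  rw [sum_const_of b s hs 4 (by omega) (xC B b) 3 (fun u hu _ hub => xC_four hα hB hb hub hu)] at h1
  rw [sum_const_of b s hs 5 (by omega) (xC B b) 0 (fun u hu _ _ => xC_five hB hb hu)] at h1
  rw [sum_const_of b s hs 6 (by omega) (xC B b) 1 (fun u hu _ hub => by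
    rw [Finset.eq_of_subset_of_card_le hub (by omega)]; exact xC_top hB hb)] at h1
  rw [hbc, h2] at h1
  norm_num [Nat.choose] at h1
  omega

/-- Leech triangle of S(5, 6, 12): blocks meet in 0, 2, 3 or 4 points, and a block is met exactly in a given 2-, 3- or 4-subset by 3, 2, 3 blocks respectively. -/
theorem result {α : Type*} [Fintype α] [DecidableEq α] (hα : Fintype.card α = 12) {B : Set (Finset α)} (hB : Cfsg.IsSteinerSystem 5 6 B) (b : Finset α) (hb : b ∈ B) : (∀ c ∈ B, c ≠ b → (b ∩ c).card = 0 ∨ (b ∩ c).card = 2 ∨ (b ∩ c).card = 3 ∨ (b ∩ c).card = 4) ∧ ∀ s ⊆ b, (s.card = 2 → {c : Finset α | c ∈ B ∧ b ∩ c = s}.ncard = 3) ∧ (s.card = 3 → {c : Finset α | c ∈ B ∧ b ∩ c = s}.ncard = 2) ∧ (s.card = 4 → {c : Finset α | c ∈ B ∧ b ∩ c = s}.ncard = 3) := by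
  refine ⟨fun c hc hcb => ?_, fun s hs => ⟨fun h => ?_, fun h => ?_, fun h => ?_⟩⟩
  · have h1 := (nI_5_6_12 hα hB hb).2.1
    have h2 := nI_eq_zero_iff h1 hc
    have h3 := inter_lt hB hb hc (Ne.symm hcb)
    omega
  · rw [xC_eq_ncard]; exact xC_two hα hB hb hs h
  · rw [xC_eq_ncard]; exact xC_three hα hB hb hs h
  · rw [xC_eq_ncard]; exact xC_four hα hB hb hs h

end Cfsg.Agent.S1595
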