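-- S1555: bottom row of the Leech triangle.
import Cfsg.Statements.S1555
import Cfsg.Agent.S1595
import Cfsg.Agent.Lib.M24.Sextet

set_option autoImplicit false
open Cfsg

namespace Cfsg.Agent.S1555

open Cfsg.Agent.Lib.Golay Cfsg.Agent.Lib.Golay.Steiner Cfsg.Agent.Lib.M24 Cfsg.Agent.S1595 Finset

lemma xC_top' {b : Finset GolayPt} (hb : b ∈ octads) : xC octads b b = 1 := by
  unfold xC
  rw [card_eq_one]
  refine ⟨b, ?_⟩
  ext c
  simp only [mem_filter, mem_BF, mem_singleton]
  constructor
  · rintro ⟨hc, hci⟩
    by_contra hcb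
    have h1 := inter_lt octads_steiner hb hc (Ne.symm hcb)
    rw [hci, octad_card hb] at h1
    omega
  · rintro rfl
    exact ⟨hb, inter_self _⟩

lemma xC_zero {b u : Finset GolayPt} (hb : b ∈ octads) (hu : u.card = 1 ∨ u.card = 3 ∨ u.card = 5 ∨ u.card = 6 ∨ u.card = 7) :
    xC octads b u = 0 := by
  unfold xC
  rw [card_eq_zero, filter_eq_empty_iff]
  intro c hc hci
  have hcB := mem_BF.mp hc
  by_cases hbc : b = c
  · subst hbc
    rw [inter_self] at hci
    rw [← hci, octad_card hb] at hu
    omega
  · have := inter_5_8_24 card_golayPt octads_steiner hb hcB hbc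
    rw [hci] at this
    omega

lemma xC_four' {b s : Finset GolayPt} (hb : b ∈ octads) (hs : s ⊆ b) (h4 : s.card = 4) :
    xC octads b s = 4 := by
  have hbc := octad_card hb
  have h1 := blocks_through_eq octads_steiner s (by omega) 5 (by rw [h4]; decide)
    (by rw [h4, card_golayPt]; decide)
  rw [through_eq_sum octads hs, hbc] at h1
  simp only [sum_range_succ, sum_range_zero, zero_add] at h1
  rw [filter_empty_of_lt b s 0 (by omega), filter_empty_of_lt b s 1 (by omega),
    filter_empty_of_lt b s 2 (by omega), filter_empty_of_lt b s 3 (by omega)] at h1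
  rw [sum_const_of b s hs 4 (by omega) (xC octads b) (xC octads b s) (fun u hu hsu _ => by
    rw [Finset.eq_of_subset_of_card_le hsu (by omega)])] at h1
  rw [sum_const_of b s hs 5 (by omega) (xC octads b) 0 (fun u hu _ _ => xC_zero hb (by omega))] at h1
  rw [sum_const_of b s hs 6 (by omega) (xC octads b) 0 (fun u hu _ _ => xC_zero hb (by omega))] at h1
  rw [sum_const_of b s hs 7 (by omega) (xC octads b) 0 (fun u hu _ _ => xC_zero hb (by omega))] at h1
  rw [sum_const_of b s hs 8 (by omega) (xC octads b) 1 (fun u hu _ hub => by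
    rw [Finset.eq_of_subset_of_card_le hub (by omega)]; exact xC_top' hb)] at h1
  rw [hbc, h4] at h1
  norm_num [Nat.choose] at h1
  omega

lemma xC_two' {b s : Finset GolayPt} (hb : b ∈ octads) (hs : s ⊆ b) (h2 : s.card = 2) :
    xC octads b s = 16 := by
  have hbc := octad_card hb
  have h1 := blocks_through_eq octads_steiner s (by omega) 77 (by rw [h2]; decide)
    (by rw [h2, card_golayPt]; decide)
  rw [through_eq_sum octads hs, hbc] at h1
  simp only [sum_range_succ, sum_range_zero, zero_add] at h1
  rw [filter_empty_of_lt b s 0 (by omega), filter_empty_of_lt b s 1 (by omega)] at h1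
  rw [sum_const_of b s hs 2 (by omega) (xC octads b) (xC octads b s) (fun u hu hsu _ => by
    rw [Finset.eq_of_subset_of_card_le hsu (by omega)])] at h1
  rw [sum_const_of b s hs 3 (by omega) (xC octads b) 0 (fun u hu _ _ => xC_zero hb (by omega))] at h1
  rw [sum_const_of b s hs 4 (by omega) (xC octads b) 4 (fun u hu _ hub => xC_four' hb hub hu)] at h1
  rw [sum_const_of b s hs 5 (by omega) (xC octads b) 0 (fun u hu _ _ => xC_zero hb (by omega))] at h1
  rw [sum_const_of b s hs 6 (by omega) (xC octads b) 0 (fun u hu _ _ => xC_zero hb (by omega))] at h1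
  rw [sum_const_of b s hs 7 (by omega) (xC octads b) 0 (fun u hu _ _ => xC_zero hb (by omega))] at h1
  rw [sum_const_of b s hs 8 (by omega) (xC octads b) 1 (fun u hu _ hub => by
    rw [Finset.eq_of_subset_of_card_le hub (by omega)]; exact xC_top' hb)] at h1
  rw [hbc, h2] at h1
  norm_num [Nat.choose] at h1
  omega

/-- Bottom row of the Leech triangle: an octad is met in a prescribed pair of its points by exactly 16 octads and in a prescribed 4-subset by exactly 4 octads. -/
theorem result (o : Finset Cfsg.GolayPt) (ho : o ∈ Cfsg.octads) (s : Finset Cfsg.GolayPt) (hs : s ⊆ o) : (s.card = 2 → {o' : Finset Cfsg.GolayPt | o' ∈ Cfsg.octads ∧ o ∩ o' = s}.ncard = 16) ∧ (s.card = 4 → {o' : Finset Cfsg.GolayPt | o' ∈ Cfsg.octads ∧ o ∩ o' = s}.ncard = 4) := by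
  constructor
  · intro h
    rw [xC_eq_ncard]
    exact xC_two' ho hs h
  · intro h
    rw [xC_eq_ncard]
    exact xC_four' ho hs h

end Cfsg.Agent.S1555
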