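import Cfsg.Statements.S1559
import Cfsg.Agent.Lib.M24.TrioOrb

set_option autoImplicit false
open scoped Pointwise
open Cfsg

namespace Cfsg.Agent.S1559

open Cfsg.Agent.Lib.Golay Cfsg.Agent.Lib.M24

theorem result (T : Finset (Finset Cfsg.GolayPt)) (hT : T ∈ Cfsg.trios) : ∃ X₁ ∈ Cfsg.trios, ∃ X₂ ∈ Cfsg.trios, ∃ X₃ ∈ Cfsg.trios, ∃ X₄ ∈ Cfsg.trios, (MulAction.orbit ↥(MulAction.stabilizer Cfsg.M24 T) X₁).ncard = 42 ∧ (MulAction.orbit ↥(MulAction.stabilizer Cfsg.M24 T) X₂).ncard = 56 ∧ (MulAction.orbit ↥(MulAction.stabilizer Cfsg.M24 T) X₃).ncard = 1008 ∧ (MulAction.orbit ↥(MulAction.stabilizer Cfsg.M24 T) X₄).ncard = 2688 ∧ Cfsg.trios = {T} ∪ MulAction.orbit ↥(MulAction.stabilizer Cfsg.M24 T) X₁ ∪ MulAction.orbit ↥(MulAction.stabilizer Cfsg.M24 T) X₂ ∪ MulAction.orbit ↥(MulAction.stabilizer Cfsg.M24 T) X₃ ∪ MulAction.orbit ↥(MulAction.stabilizer Cfsg.M24 T) X₄ ∧ IsCoatom (MulAction.stabilizer Cfsg.M24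 T) := by
  obtain ⟨k, hk⟩ := exists_to_t0 hT
  have hcon : ∀ g : ↥M24, g ∈ MulAction.stabilizer Cfsg.M24 T ↔ k * g * k⁻¹ ∈ MulAction.stabilizer Cfsg.M24 (qF t0) := by
    intro g
    rw [conj_mem_stabilizer k g T, hk]
  have hmem : ∀ x, x ∈ triL → k⁻¹ • qF x ∈ trios := fun x hx =>
    smul_trio (M24.inv_mem k.2) (triL_mem_trios hx)
  have hall : trios = (fun y => k⁻¹ • y) '' trios := by
    ext Y
    constructor
    · intro hY
      exact ⟨k • Y, smul_trio k.2 hY, inv_smul_smul _ _⟩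
    · rintro ⟨Z, hZ, rfl⟩
      exact smul_trio (M24.inv_mem k.2) hZ
  have hS0 : k⁻¹ • qF t0 = T := by
    rw [← hk, inv_smul_smul]
  have hor : ∀ (x : List ℕ) (v : ℕ), MulAction.orbit (MulAction.stabilizer M24 (qF t0)) (qF x) = qF '' {l | l ∈ filT v} →
      (MulAction.orbit ↥(MulAction.stabilizer Cfsg.M24 T) (k⁻¹ • qF x)) = (fun y => k⁻¹ • y) '' (qF '' {l | l ∈ filT v}) ∧
      (MulAction.orbit ↥(MulAction.stabilizer Cfsg.M24 T) (k⁻¹ • qF x)).ncard = (filT v).length := by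
    intro x v h
    have e := orbit_conj k hcon (qF x)
    rw [h] at e
    refine ⟨e, ?_⟩
    rw [e, Set.ncard_image_of_injective _ (MulAction.injective k⁻¹), ncard_filT]
  obtain ⟨e1, n1⟩ := hor l128 128 orbit128
  obtain ⟨e2, n2⟩ := hor l96 96 orbit96
  obtain ⟨e3, n3⟩ := hor l80 80 orbit80
  obtain ⟨e4, n4⟩ := hor l72 72 orbit72
  refine ⟨_, hmem l128 l128_mem, _, hmem l96 l96_mem, _, hmem l80 l80_mem, _, hmem l72 l72_mem, ?_, ?_, ?_, ?_, ?_, ?_⟩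
  · rw [n1]; exact count128
  · rw [n2]; exact count96
  · rw [n3]; exact count80
  · rw [n4]; exact count72
  · rw [e1, e2, e3, e4]
    conv_lhs => rw [hall, trios_union]
    rw [Set.image_union, Set.image_union, Set.image_union, Set.image_union, Set.image_singleton, hS0]
  · apply isCoatom_stabilizer_of_smul (x := T) k
    rw [hk]
    exact coatom_t0

end Cfsg.Agent.S1559
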