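-- S1561: dodecads meeting a fixed dodecad equally are in one orbit.
import Cfsg.Statements.S1561
import Cfsg.Agent.Lib.M24.DodecadStab

set_option autoImplicit false
open scoped Pointwise
open Cfsg

namespace Cfsg.Agent.S1561

/-- Two dodecads meeting a fixed dodecad in equally many points lie in one orbit of its stabiliser. -/
theorem result (d d' d'' : Finset Cfsg.GolayPt) (hd : d ∈ Cfsg.dodecads) (hd' : d' ∈ Cfsg.dodecads) (hd'' : d'' ∈ Cfsg.dodecads) (h : (d ∩ d').card = (d ∩ d'').card) : ∃ g : Equiv.Perm Cfsg.GolayPt, g ∈ Cfsg.M24 ∧ g • d = d ∧ g • d' = d'' :=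
  Cfsg.Agent.Lib.M24.dodecad_same_orbit hd hd' hd'' h

end Cfsg.Agent.S1561
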