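-- S1562: triads disjoint from a triad.
import Cfsg.Statements.S1562
import Cfsg.Agent.Lib.M24.SixPoint

set_option autoImplicit false
open scoped Pointwise
open Cfsg

namespace Cfsg.Agent.S1562

open Cfsg.Agent.Lib.Golay Cfsg.Agent.Lib.Golay.Steiner Cfsg.Agent.Lib.M24 Finset

lemma thru_card {T : Finset GolayPt} (hT : T.card = 3) : (thru T).card = 21 := by
  apply blocks_through_eq octads_steiner T (by omega) 21
  · rw [hT]; decide
  · rw [hT, card_golayPt]
    decide

/-- The triads in a common octad with `T`. -/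
lemma count_in {T : Finset GolayPt} (hT : T.card = 3) :
    {U : Finset GolayPt | U.card = 3 ∧ Disjoint T U ∧ (∃ o ∈ octads, T ∪ U ⊆ o)}.ncard = 210 := by
  classical
  have hdisj : ((thru T : Finset (Finset GolayPt)) : Set (Finset GolayPt)).PairwiseDisjoint
      (fun o => powersetCard 3 (o \ T)) := by
    intro o ho o' ho' hne
    rw [Function.onFun, disjoint_left]
    intro U hU hU'
    apply hne
    obtain ⟨h1, h2⟩ := mem_powersetCard.1 hU
    obtain ⟨h1', _⟩ := mem_powersetCard.1 hU'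
    have hd : Disjoint T U := by
      rw [disjoint_right]
      intro x hx
      exact (mem_sdiff.1 (h1 hx)).2
    obtain ⟨ho1, ho2⟩ := mem_thru.1 (mem_coe.1 ho)
    obtain ⟨ho1', ho2'⟩ := mem_thru.1 (mem_coe.1 ho')
    apply octad_eq_of_card_inter ho1 ho1'
    have hsub : T ∪ U ⊆ o ∩ o' := by
      apply union_subset (subset_inter ho2 ho2')
      intro x hx
      exact mem_inter.2 ⟨(mem_sdiff.1 (h1 hx)).1, (mem_sdiff.1 (h1' hx)).1⟩
    have := card_le_card hsub
    rw [card_union_of_disjoint hd, hT, h2] at this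
    omega
  have hS : {U : Finset GolayPt | U.card = 3 ∧ Disjoint T U ∧ (∃ o ∈ octads, T ∪ U ⊆ o)}
      = ↑((thru T).biUnion (fun o => powersetCard 3 (o \ T))) := by
    ext U
    simp only [Set.mem_ofPred_eq, coe_biUnion, Set.mem_iUnion, mem_coe, exists_prop, mem_powersetCard]
    constructor
    · rintro ⟨h3, hd, o, ho, hu⟩
      refine ⟨o, mem_thru.2 ⟨ho, subset_union_left.trans hu⟩, ?_, h3⟩
      intro x hx
      exact mem_sdiff.2 ⟨hu (mem_union_right _ hx), fun h => disjoint_left.1 hd h hx⟩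
    · rintro ⟨o, ho, h1, h3⟩
      obtain ⟨ho1, ho2⟩ := mem_thru.1 ho
      refine ⟨h3, ?_, o, ho1, union_subset ho2 (h1.trans sdiff_subset)⟩
      rw [disjoint_right]
      intro x hx
      exact (mem_sdiff.1 (h1 hx)).2
  rw [hS, Set.ncard_coe_finset, card_biUnion hdisj]
  have : ∀ o ∈ thru T, (powersetCard 3 (o \ T)).card = 10 := by
    intro o ho
    obtain ⟨ho1, ho2⟩ := mem_thru.1 ho
    rw [card_powersetCard, card_sdiff_of_subset ho2, octad_card ho1, hT]
    decide
  rw [Finset.sum_congr rfl this, sum_const, thru_card hT, smul_eq_mul]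

lemma count_all {T : Finset GolayPt} (hT : T.card = 3) :
    {U : Finset GolayPt | U.card = 3 ∧ Disjoint T U}.ncard = 1330 := by
  have h1 := ncard_subsets_inter T 3 0 (by omega)
  rw [hT, card_golayPt] at h1
  have : {U : Finset GolayPt | U.card = 3 ∧ Disjoint T U} = {t | t.card = 3 ∧ (T ∩ t).card = 0} := by
    ext U
    simp only [Set.mem_ofPred_eq, Finset.card_eq_zero, disjoint_iff_inter_eq_empty]
  rw [this, h1]
  decide

lemma count_not {T : Finset GolayPt} (hT : T.card = 3) :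
    {U : Finset GolayPt | U.card = 3 ∧ Disjoint T U ∧ ¬ (∃ o ∈ octads, T ∪ U ⊆ o)}.ncard = 1120 := by
  classical
  have h1 := count_in hT
  have h2 := count_all hT
  have h3 : {U : Finset GolayPt | U.card = 3 ∧ Disjoint T U} =
      {U : Finset GolayPt | U.card = 3 ∧ Disjoint T U ∧ (∃ o ∈ octads, T ∪ U ⊆ o)} ∪
      {U : Finset GolayPt | U.card = 3 ∧ Disjoint T U ∧ ¬ (∃ o ∈ octads, T ∪ U ⊆ o)} := by
    ext U
    simp only [Set.mem_ofPred_eq, Set.mem_union]
    constructor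
    · rintro ⟨h5, h6⟩
      by_cases hE : ∃ o ∈ octads, T ∪ U ⊆ o
      · exact Or.inl ⟨h5, h6, hE⟩
      · exact Or.inr ⟨h5, h6, hE⟩
    · rintro (⟨h5, h6, -⟩ | ⟨h5, h6, -⟩) <;> exact ⟨h5, h6⟩
  have h4 : Disjoint {U : Finset GolayPt | U.card = 3 ∧ Disjoint T U ∧ (∃ o ∈ octads, T ∪ U ⊆ o)}
      {U : Finset GolayPt | U.card = 3 ∧ Disjoint T U ∧ ¬ (∃ o ∈ octads, T ∪ U ⊆ o)} := by
    rw [Set.disjoint_left]
    rintro U ⟨_, _, h5⟩ ⟨_, _, h6⟩
    exact h6 h5
  rw [h3, Set.ncard_union_eq h4 (Set.toFinite _) (Set.toFinite _), h1] at h2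
  omega

/-- The orbit part. -/
theorem orbit_part (T : Finset GolayPt) (hT : T.card = 3) (U U' : Finset GolayPt) (hU : U.card = 3)
    (hU' : U'.card = 3) (hd : Disjoint T U) (hd' : Disjoint T U')
    (hp : (∃ o ∈ octads, T ∪ U ⊆ o) ↔ (∃ o ∈ octads, T ∪ U' ⊆ o)) :
    ∃ g : Equiv.Perm GolayPt, g ∈ M24 ∧ g • T = T ∧ g • U = U' := by
  classical
  obtain ⟨a, b, c, hab, hac, hbc, rfl⟩ := Finset.card_eq_three.1 hT
  obtain ⟨d, e, f, hde, hdf, hef, rfl⟩ := Finset.card_eq_three.1 hU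
  obtain ⟨d', e', f', hde', hdf', hef', rfl⟩ := Finset.card_eq_three.1 hU'
  simp only [disjoint_left, mem_insert, mem_singleton, forall_eq_or_imp, forall_eq, not_or] at hd hd'
  obtain ⟨⟨had, hae, haf⟩, ⟨hbd, hbe, hbf⟩, ⟨hcd, hce, hcf⟩⟩ := hd
  obtain ⟨⟨had', hae', haf'⟩, ⟨hbd', hbe', hbf'⟩, ⟨hcd', hce', hcf'⟩⟩ := hd'
  have hinj : ∀ {a b c d e : GolayPt}, a ≠ b → a ≠ c → a ≠ d → a ≠ e → b ≠ c → b ≠ d → b ≠ e →
      c ≠ d → c ≠ e → d ≠ e → Function.Injective ![a, b, c, d, e] := by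
    intro a b c d e h1 h2 h3 h4 h5 h6 h7 h8 h9 h10 i j hij
    fin_cases i <;> fin_cases j <;> first
      | rfl
      | (exfalso; simp at hij; first
          | exact h1 hij | exact h2 hij | exact h3 hij | exact h4 hij | exact h5 hij
          | exact h6 hij | exact h7 hij | exact h8 hij | exact h9 hij | exact h10 hij
          | exact h1 hij.symm | exact h2 hij.symm | exact h3 hij.symm | exact h4 hij.symm
          | exact h5 hij.symm | exact h6 hij.symm | exact h7 hij.symm | exact h8 hij.symm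
          | exact h9 hij.symm | exact h10 hij.symm)
  have hf1 := hinj hab hac had hae hbc hbd hbe hcd hce hde
  have hf2 := hinj hab hac had' hae' hbc hbd' hbe' hcd' hce' hde'
  have hx : ∀ i, f ≠ (![a, b, c, d, e] : Fin 5 → GolayPt) i := by
    intro i
    fin_cases i
    · exact Ne.symm haf
    · exact Ne.symm hbf
    · exact Ne.symm hcf
    · exact Ne.symm hdf
    · exact Ne.symm hef
  have hx' : ∀ i, f' ≠ (![a, b, c, d', e'] : Fin 5 → GolayPt) i := by
    intro i
    fin_cases i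
    · exact Ne.symm haf'
    · exact Ne.symm hbf'
    · exact Ne.symm hcf'
    · exact Ne.symm hdf'
    · exact Ne.symm hef'
  have hrw : ∀ (d e f : GolayPt) (o : Finset GolayPt), (({a, b, c} : Finset GolayPt) ∪ {d, e, f} ⊆ o) ↔
      ((∀ i, (![a, b, c, d, e] : Fin 5 → GolayPt) i ∈ o) ∧ f ∈ o) := by
    intro d e f o
    simp only [union_subset_iff, insert_subset_iff, singleton_subset_iff, Fin.forall_fin_succ]
    simp
    tauto
  obtain ⟨g, hg, hg1, hg2⟩ := six_point_transfer _ _ hf1 hf2 f f' hx hx' (by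
    simp only [← hrw]
    exact hp)
  have g0 : g a = a := hg1 0
  have g1 : g b = b := hg1 1
  have g2 : g c = c := hg1 2
  have g3 : g d = d' := hg1 3
  have g4 : g e = e' := hg1 4
  refine ⟨g, hg, ?_, ?_⟩
  · rw [smul_finset_insert, smul_finset_insert, smul_finset_singleton]
    change ({g a, g b, g c} : Finset GolayPt) = _
    rw [g0, g1, g2]
  · rw [smul_finset_insert, smul_finset_insert, smul_finset_singleton]
    change ({g d, g e, g f} : Finset GolayPt) = _
    rw [g3, g4, hg2]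

/-- Orbits of a triad stabiliser on the triads disjoint from it: the 210 triads inside a common octad with it form one orbit and the remaining 1120 another. -/
theorem result (T : Finset Cfsg.GolayPt) (hT : T.card = 3) : {U : Finset Cfsg.GolayPt | U.card = 3 ∧ Disjoint T U ∧ (∃ o ∈ Cfsg.octads, T ∪ U ⊆ o)}.ncard = 210 ∧ {U : Finset Cfsg.GolayPt | U.card = 3 ∧ Disjoint T U ∧ ¬ (∃ o ∈ Cfsg.octads, T ∪ U ⊆ o)}.ncard = 1120 ∧ ∀ U U' : Finset Cfsg.GolayPt, U.card = 3 → U'.card = 3 → Disjoint T U → Disjoint T U' → ((∃ o ∈ Cfsg.octads, T ∪ U ⊆ o) ↔ (∃ o ∈ Cfsg.octads, T ∪ U' ⊆ o)) → ∃ g : Equiv.Perm Cfsg.GolayPt, g ∈ Cfsg.M24 ∧ g • T = T ∧ g • U = U' :=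
  ⟨count_in hT, count_not hT, fun U U' hU hU' hd hd' hp => orbit_part T hT U U' hU hU' hd hd' hp⟩

end Cfsg.Agent.S1562
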