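-- S1563: the stabiliser of a pair of points is maximal.
import Cfsg.Statements.S1563
import Cfsg.Agent.Lib.M24.Tools

set_option autoImplicit false
open scoped Pointwise
open Cfsg

namespace Cfsg.Agent.S1563

open Cfsg.Agent.Lib.Golay Cfsg.Agent.Lib.M24 Finset MulAction

/-- The stabiliser of a pair of points (setwise) is a maximal proper subgroup of the group of the length-24 code. -/
theorem result (s : Finset Cfsg.GolayPt) (hs : s.card = 2) : IsCoatom (MulAction.stabilizer Cfsg.M24 s) := by
  classical
  have hcnt : ∀ i, i ≤ 2 → {t : Finset GolayPt | t.card = 2 ∧ (s ∩ t).card = i}.ncard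
      = Nat.choose 2 i * Nat.choose 22 (2 - i) := by
    intro i hi
    rw [ncard_subsets_inter s 2 i hi, hs, card_golayPt]
  have hs0 : (s ∩ s).card = 2 := by rw [inter_self, hs]
  refine isCoatom_of_classesN (k := 3) s {t | t.card = 2} ?_ (fun t => (s ∩ t).card) ?_ ![231, 44, 1] ?_ ?_ ?_ ?_ 2 hs0.symm (by decide +kernel)
  · intro t
    constructor
    · intro ht
      obtain ⟨g, hg, h⟩ := exists_map_set (s := s) (s' := t) (by omega) (by rw [hs]; exact ht.symm)
      exact ⟨⟨g, hg⟩, h⟩
    · rintro ⟨g, rfl⟩
      change (g.1 • s).card = 2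
      rw [Finset.card_smul_finset, hs]
  · intro t _
    have := card_le_card (inter_subset_left : s ∩ t ⊆ s)
    omega
  · intro i
    have := hcnt i (by omega)
    fin_cases i <;> simpa [Nat.choose] using this
  · intro t ht t' ht' h
    have ht2 : t.card = 2 := ht
    have ht2' : t'.card = 2 := ht'
    have hle : (s ∪ t).card ≤ 5 := (card_union_le _ _).trans (by omega)
    obtain ⟨g, hg, h1, h2⟩ := exists_map_pair (s := s) (t := t) (s' := s) (t' := t') hle rfl (by omega) h
    exact ⟨⟨g, hg⟩, mem_stabilizer_iff.2 h1, h2⟩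
  · intro t ht h
    have ht2 : t.card = 2 := ht
    have h1 : (s ∩ t).card = 2 := h.trans hs0
    have h2 : s ∩ t = s := Finset.eq_of_subset_of_card_le inter_subset_left (by omega)
    have h3 : s ∩ t = t := Finset.eq_of_subset_of_card_le inter_subset_right (by omega)
    rw [← h3, h2]
  · have h0 := hcnt 0 (by omega)
    have : {t : Finset GolayPt | t.card = 2 ∧ (s ∩ t).card = 0}.Nonempty := by
      rw [← Set.ncard_pos (Set.toFinite _), h0]
      decide
    obtain ⟨t, ht, ht0⟩ := this
    refine ⟨t, ht, ?_⟩
    rintro rfl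
    omega

end Cfsg.Agent.S1563
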