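-- S1564: the stabiliser of a triad is maximal.
import Cfsg.Statements.S1564
import Cfsg.Agent.S1562

set_option autoImplicit false
open scoped Pointwise
open Cfsg

namespace Cfsg.Agent.S1564

open Cfsg.Agent.Lib.Golay Cfsg.Agent.Lib.M24 Finset MulAction

open Classical in
/-- The class of a triad relative to `s`. -/
noncomputable def cT (s t : Finset GolayPt) : ℕ :=
  if (s ∩ t).card ≠ 0 then (s ∩ t).card else if ∃ o ∈ octads, s ∪ t ⊆ o then 0 else 4

/-- The stabiliser of a set of three points (setwise) is a maximal proper subgroup of the group of the length-24 code. -/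
theorem result (s : Finset Cfsg.GolayPt) (hs : s.card = 3) : IsCoatom (MulAction.stabilizer Cfsg.M24 s) := by
  classical
  have hcnt : ∀ i, i ≤ 3 → {t : Finset GolayPt | t.card = 3 ∧ (s ∩ t).card = i}.ncard
      = Nat.choose 3 i * Nat.choose 21 (3 - i) := by
    intro i hi
    rw [ncard_subsets_inter s 3 i hi, hs, card_golayPt]
  have hle : ∀ t : Finset GolayPt, (s ∩ t).card ≤ 3 := fun t => by
    have := card_le_card (inter_subset_left : s ∩ t ⊆ s)
    omega
  have hs0 : (s ∩ s).card = 3 := by rw [inter_self, hs]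
  have hcs : cT s s = 3 := by
    unfold cT
    rw [hs0]
    simp
  have hc1 : ∀ i, i ≠ 0 → ∀ t : Finset GolayPt, (s ∩ t).card = i → cT s t = i := by
    intro i hi t ht
    unfold cT
    rw [ht, if_pos hi]
  have hc2 : ∀ t : Finset GolayPt, cT s t ≠ 0 → cT s t ≠ 4 → (s ∩ t).card = cT s t := by
    intro t h0 h4
    unfold cT at h0 h4 ⊢
    by_cases h : (s ∩ t).card = 0
    · rw [h] at h0 h4 ⊢
      simp only [ne_eq, not_true_eq_false, if_false] at h0 h4 ⊢
      split_ifs at h0 h4 <;> omega
    · simp only [ne_eq, h, not_false_eq_true, if_true]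
  have hc3 : ∀ t : Finset GolayPt, cT s t = 0 → (s ∩ t).card = 0 ∧ ∃ o ∈ octads, s ∪ t ⊆ o := by
    intro t h0
    unfold cT at h0
    by_cases h : (s ∩ t).card = 0
    · simp only [h, ne_eq, not_true_eq_false, if_false] at h0
      refine ⟨h, ?_⟩
      by_contra hE
      rw [if_neg hE] at h0
      omega
    · rw [if_pos h] at h0
      exact absurd h0 h
  have hc4 : ∀ t : Finset GolayPt, cT s t = 4 → (s ∩ t).card = 0 ∧ ¬ ∃ o ∈ octads, s ∪ t ⊆ o := by
    intro t h0
    unfold cT at h0
    by_cases h : (s ∩ t).card = 0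
    · simp only [h, ne_eq, not_true_eq_false, if_false] at h0
      refine ⟨h, ?_⟩
      intro hE
      rw [if_pos hE] at h0
      omega
    · rw [if_pos h] at h0
      have := hle t
      omega
  have hdisj : ∀ t : Finset GolayPt, Disjoint s t ↔ (s ∩ t).card = 0 := fun t => by
    rw [Finset.card_eq_zero, disjoint_iff_inter_eq_empty]
  have hcount := Cfsg.Agent.S1562.result s hs
  refine isCoatom_of_classesN (k := 5) s {t | t.card = 3} ?_ (cT s) ?_ ![210, 630, 63, 1, 1120] ?_ ?_ ?_ ?_ 3 hcs.symm (by decide +kernel)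
  · intro t
    constructor
    · intro ht
      obtain ⟨g, hg, h⟩ := exists_map_set (s := s) (s' := t) (by omega) (by rw [hs]; exact ht.symm)
      exact ⟨⟨g, hg⟩, h⟩
    · rintro ⟨g, rfl⟩
      change (g.1 • s).card = 3
      rw [Finset.card_smul_finset, hs]
  · intro t _
    have := hle t
    unfold cT
    split_ifs <;> omega
  · intro i
    fin_cases i
    · change {y | y ∈ {t : Finset GolayPt | t.card = 3} ∧ cT s y = 0}.ncard = 210
      rw [← hcount.1]
      congr 1
      ext t
      constructor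
      · rintro ⟨h3, h0⟩
        obtain ⟨h1, h2⟩ := hc3 t h0
        exact ⟨h3, (hdisj t).2 h1, h2⟩
      · rintro ⟨h3, h1, h2⟩
        refine ⟨h3, ?_⟩
        unfold cT
        rw [if_neg (by simpa using (hdisj t).1 h1), if_pos h2]
    · change {y | y ∈ {t : Finset GolayPt | t.card = 3} ∧ cT s y = 1}.ncard = 630
      have := hcnt 1 (by omega)
      have h0 : {y | y ∈ {t : Finset GolayPt | t.card = 3} ∧ cT s y = 1} = {t : Finset GolayPt | t.card = 3 ∧ (s ∩ t).card = 1} := by
        ext t
        constructor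
        · rintro ⟨h3, h1⟩
          exact ⟨h3, (hc2 t (by omega) (by omega)).trans h1⟩
        · rintro ⟨h3, h1⟩
          exact ⟨h3, hc1 1 (by omega) t h1⟩
      rw [h0, this]
      decide
    · change {y | y ∈ {t : Finset GolayPt | t.card = 3} ∧ cT s y = 2}.ncard = 63
      have := hcnt 2 (by omega)
      have h0 : {y | y ∈ {t : Finset GolayPt | t.card = 3} ∧ cT s y = 2} = {t : Finset GolayPt | t.card = 3 ∧ (s ∩ t).card = 2} := by
        ext t
        constructor
        · rintro ⟨h3, h1⟩
          exact ⟨h3, (hc2 t (by omega) (by omega)).trans h1⟩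
        · rintro ⟨h3, h1⟩
          exact ⟨h3, hc1 2 (by omega) t h1⟩
      rw [h0, this]
      decide
    · change {y | y ∈ {t : Finset GolayPt | t.card = 3} ∧ cT s y = 3}.ncard = 1
      have := hcnt 3 (by omega)
      have h0 : {y | y ∈ {t : Finset GolayPt | t.card = 3} ∧ cT s y = 3} = {t : Finset GolayPt | t.card = 3 ∧ (s ∩ t).card = 3} := by
        ext t
        constructor
        · rintro ⟨h3, h1⟩
          exact ⟨h3, (hc2 t (by omega) (by omega)).trans h1⟩
        · rintro ⟨h3, h1⟩
          exact ⟨h3, hc1 3 (by omega) t h1⟩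
      rw [h0, this]
      decide
    · change {y | y ∈ {t : Finset GolayPt | t.card = 3} ∧ cT s y = 4}.ncard = 1120
      rw [← hcount.2.1]
      congr 1
      ext t
      constructor
      · rintro ⟨h3, h0⟩
        obtain ⟨h1, h2⟩ := hc4 t h0
        exact ⟨h3, (hdisj t).2 h1, h2⟩
      · rintro ⟨h3, h1, h2⟩
        refine ⟨h3, ?_⟩
        unfold cT
        rw [if_neg (by simpa using (hdisj t).1 h1), if_neg h2]
  · intro t ht t' ht' hc
    have ht3 : t.card = 3 := ht
    have ht3' : t'.card = 3 := ht'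
    by_cases h0 : cT s t = 0
    · obtain ⟨h1, h2⟩ := hc3 t h0
      obtain ⟨h1', h2'⟩ := hc3 t' (hc ▸ h0)
      obtain ⟨g, hg, hg1, hg2⟩ := hcount.2.2 t t' ht3 ht3' ((hdisj t).2 h1) ((hdisj t').2 h1')
        ⟨fun _ => h2', fun _ => h2⟩
      exact ⟨⟨g, hg⟩, mem_stabilizer_iff.2 hg1, hg2⟩
    · by_cases h4 : cT s t = 4
      · obtain ⟨h1, h2⟩ := hc4 t h4
        obtain ⟨h1', h2'⟩ := hc4 t' (hc ▸ h4)
        obtain ⟨g, hg, hg1, hg2⟩ := hcount.2.2 t t' ht3 ht3' ((hdisj t).2 h1) ((hdisj t').2 h1')
          ⟨fun h => absurd h h2, fun h => absurd h h2'⟩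
        exact ⟨⟨g, hg⟩, mem_stabilizer_iff.2 hg1, hg2⟩
      · have e1 := hc2 t h0 h4
        have e2 := hc2 t' (hc ▸ h0) (hc ▸ h4)
        have h1 : (s ∩ t).card ≠ 0 := by rw [e1]; exact h0
        have h5 : (s ∪ t).card ≤ 5 := by
          have := card_union_add_card_inter s t
          omega
        obtain ⟨g, hg, hg1, hg2⟩ := exists_map_pair (s := s) (t := t) (s' := s) (t' := t') h5 rfl
          (by omega) (by rw [e1, e2, hc])
        exact ⟨⟨g, hg⟩, mem_stabilizer_iff.2 hg1, hg2⟩
  · intro t ht h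
    have ht3 : t.card = 3 := ht
    rw [hcs] at h
    have h1 := hc2 t (by omega) (by omega)
    rw [h] at h1
    have h2 : s ∩ t = s := Finset.eq_of_subset_of_card_le inter_subset_left (by omega)
    have h3 : s ∩ t = t := Finset.eq_of_subset_of_card_le inter_subset_right (by omega)
    rw [← h3, h2]
  · have h0 := hcnt 0 (by omega)
    have : {t : Finset GolayPt | t.card = 3 ∧ (s ∩ t).card = 0}.Nonempty := by
      rw [← Set.ncard_pos (Set.toFinite _), h0]
      decide
    obtain ⟨t, ht, ht0⟩ := this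
    refine ⟨t, ht, ?_⟩
    rintro rfl
    omega

end Cfsg.Agent.S1564
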