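-- S1565: the stabiliser of an octad is maximal.
import Cfsg.Statements.S1565
import Cfsg.Agent.Lib.M24.OctadStab

set_option autoImplicit false
open scoped Pointwise
open Cfsg

namespace Cfsg.Agent.S1565

open Cfsg.Agent.Lib.Golay Cfsg.Agent.Lib.Golay.Steiner Cfsg.Agent.Lib.M24 Finset MulAction

/-- The stabiliser of an octad is a maximal proper subgroup of the group of the length-24 code. -/
theorem result (o : Finset Cfsg.GolayPt) (ho : o ∈ Cfsg.octads) : IsCoatom (MulAction.stabilizer Cfsg.M24 o) := by
  classical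
  have h8 : (o ∩ o).card = 8 := by rw [inter_self, octad_card ho]
  obtain ⟨n0, -, n2, -, n4⟩ := nI_5_8_24 card_golayPt octads_steiner ho
  have hnI : ∀ i, {t | t ∈ octads ∧ (o ∩ t).card = i}.ncard = nI octads o i := by
    intro i
    unfold nI
    rw [← Set.ncard_coe_finset]
    congr 1
    ext t
    simp
  have hle : ∀ t ∈ octads, (o ∩ t).card < 9 := fun t _ => by
    have := card_le_card (inter_subset_left : o ∩ t ⊆ o)
    rw [octad_card ho] at this
    omega
  have hself : ∀ t ∈ octads, (o ∩ t).card = 8 → t = o := by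
    intro t ht h
    have h3 : o ∩ t = t := Finset.eq_of_subset_of_card_le inter_subset_right (by rw [h, octad_card ht])
    have h2 : o ∩ t = o := Finset.eq_of_subset_of_card_le inter_subset_left (by rw [h, octad_card ho])
    rw [← h3, h2]
  refine isCoatom_of_classesN (k := 9) o octads ?_ (fun t => (o ∩ t).card) hle ![30, 0, 448, 0, 280, 0, 0, 0, 1] ?_ ?_ ?_ ?_ 8 h8.symm (by decide +kernel)
  · intro t
    constructor
    · intro ht
      obtain ⟨g, hg, h⟩ := exists_smul_octad ho ht
      exact ⟨⟨g, hg⟩, h⟩
    · rintro ⟨g, rfl⟩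
      exact smul_octad g.2 ho
  · intro i
    rw [hnI]
    have h1 : nI octads o 1 = 0 := (nI_5_8_24 card_golayPt octads_steiner ho).2.1
    have h3 : nI octads o 3 = 0 := (nI_5_8_24 card_golayPt octads_steiner ho).2.2.2.1
    have h5 := nI_eq_zero octads_steiner ho 5 (by norm_num) (by norm_num)
    have h6 := nI_eq_zero octads_steiner ho 6 (by norm_num) (by norm_num)
    have h7 := nI_eq_zero octads_steiner ho 7 (by norm_num) (by norm_num)
    have h8' := nI_top octads_steiner (by norm_num) ho
    fin_cases i
    · exact n0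
    · exact h1
    · exact n2
    · exact h3
    · exact n4
    · exact h5
    · exact h6
    · exact h7
    · exact h8'
  · intro t ht t' ht' h
    obtain ⟨g, hg, h1, h2⟩ := octad_same_orbit ho ht ht' h
    exact ⟨⟨g, hg⟩, mem_stabilizer_iff.2 h1, h2⟩
  · intro t ht h
    exact hself t ht (h.trans h8)
  · have hne : {t | t ∈ octads ∧ (o ∩ t).card = 0}.Nonempty := by
      rw [← Set.ncard_pos (Set.toFinite _), hnI, n0]
      norm_num
    obtain ⟨t, ht, ht0⟩ := hne
    refine ⟨t, ht, ?_⟩
    rintro rfl
    omega

end Cfsg.Agent.S1565
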