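-- S1639: the point stabiliser on the dodecads through the point.
import Cfsg.Statements.S1639
import Cfsg.Agent.Lib.M24.DodecadStab

set_option autoImplicit false
open scoped Pointwise
open Cfsg

namespace Cfsg.Agent.S1639

open Cfsg.Agent.Lib.Golay Cfsg.Agent.Lib.M24 Finset

def gensD1 : List (ℕ × ℕ) := [(353627285684781058626234560354292800, 813089144682328177572193599784027488), (109553356255510267762338137479808256, 317366912718305441350261679052840000)]

def repsD1 : List (ℕ × ℕ) := [(4, 520899), (6, 129431), (8, 28637), (12, 8916911)]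

lemma gens_ok : allL (genIn [d0, 1]) gensD1 = true := by decide +kernel

lemma class_ok : classCheck pimgT (tabsOf gensD1) clD repsD1 (dodCfg 1 0) = true := by decide +kernel

lemma count4 : countL clD 4 (dodCfg 1 0) = 165 := by decide +kernel

lemma count8 : countL clD 8 (dodCfg 1 0) = 330 := by decide +kernel

lemma count6 : countL clD 6 (dodCfg 1 0) = 792 := by decide +kernel

lemma pt0_iff (t : Finset GolayPt) : finOf 1 ⊆ t ↔ pt 0 ∈ t :=
  finOf_two_pow_subset_iff (a := 0) (by norm_num) t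

lemma count_std (v n : ℕ) (hc : countL clD v (dodCfg 1 0) = n) :
    {t : Finset GolayPt | t ∈ dodecads ∧ pt 0 ∈ t ∧ (finOf d0 ∩ t).card = v}.ncard = n := by
  apply ncard_dodCfg (by norm_num) (by norm_num) clD hc
  · exact fun s hs => hs.1
  · intro m hm
    simp only [Set.mem_ofPred_eq, pt0_iff, disjoint_finOf_zero, true_and, card_inter_D0]
    exact ⟨fun h => h.2, fun h => ⟨(mem_dodecads_iff _).2 ⟨m, hm, rfl⟩, h⟩⟩

/-- The point stabiliser acts on the 1288 dodecads through the point with rank 4 and subdegrees 1, 165, 330, 792, distinguished by intersection 4, 8, 6 with the fixed dodecad. -/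
theorem result (x : Cfsg.GolayPt) (d : Finset Cfsg.GolayPt) (hd : d ∈ Cfsg.dodecads) (hx : x ∈ d) : {d' : Finset Cfsg.GolayPt | d' ∈ Cfsg.dodecads ∧ x ∈ d' ∧ (d ∩ d').card = 4}.ncard = 165 ∧ {d' : Finset Cfsg.GolayPt | d' ∈ Cfsg.dodecads ∧ x ∈ d' ∧ (d ∩ d').card = 8}.ncard = 330 ∧ {d' : Finset Cfsg.GolayPt | d' ∈ Cfsg.dodecads ∧ x ∈ d' ∧ (d ∩ d').card = 6}.ncard = 792 ∧ ∀ d' d'' : Finset Cfsg.GolayPt, d' ∈ Cfsg.dodecads → d'' ∈ Cfsg.dodecads → x ∈ d' → x ∈ d'' → (d ∩ d').card = (d ∩ d'').card → ∃ g : Equiv.Perm Cfsg.GolayPt, g ∈ Cfsg.M24 ∧ g x = x ∧ g • d = d ∧ g • d' = d'' := by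
  obtain ⟨h, hh, hhd, hhx⟩ := exists_dodecad_point hd hx
  have key : ∀ t v, (t ∈ dodecads ∧ x ∈ t ∧ (d ∩ t).card = v) ↔
      (h • t ∈ dodecads ∧ pt 0 ∈ h • t ∧ (finOf d0 ∩ h • t).card = v) := by
    intro t v
    rw [dodecad_smul_iff hh, ← hhx, mem_smul_apply, ← hhd, inter_smul_card]
  refine ⟨?_, ?_, ?_, ?_⟩
  · rw [ncard_transport h (Q := fun t => t ∈ dodecads ∧ pt 0 ∈ t ∧ (finOf d0 ∩ t).card = 4) (fun t => key t 4)]
    exact count_std 4 165 count4
  · rw [ncard_transport h (Q := fun t => t ∈ dodecads ∧ pt 0 ∈ t ∧ (finOf d0 ∩ t).card = 8) (fun t => key t 8)]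
    exact count_std 8 330 count8
  · rw [ncard_transport h (Q := fun t => t ∈ dodecads ∧ pt 0 ∈ t ∧ (finOf d0 ∩ t).card = 6) (fun t => key t 6)]
    exact count_std 6 792 count6
  · intro o' o'' ho' ho'' hx' hx'' hc
    have k1 := (key o' _).1 ⟨ho', hx', rfl⟩
    have k2 := (key o'' _).1 ⟨ho'', hx'', rfl⟩
    obtain ⟨m1, hm1, e1⟩ := (mem_dodecads_iff _).1 k1.1
    obtain ⟨m2, hm2, e2⟩ := (mem_dodecads_iff _).1 k2.1
    have hm1' : m1 ∈ dodCfg 1 0 := (mem_dodCfg (by norm_num) (by norm_num)).2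
      ⟨hm1, by rw [pt0_iff, ← e1]; exact k1.2.1, disjoint_finOf_zero _⟩
    have hm2' : m2 ∈ dodCfg 1 0 := (mem_dodCfg (by norm_num) (by norm_num)).2
      ⟨hm2, by rw [pt0_iff, ← e2]; exact k2.2.1, disjoint_finOf_zero _⟩
    have hcl : clD m1 = clD m2 := by
      rw [← card_inter_D0, ← card_inter_D0, ← e1, ← e2, k1.2.2, k2.2.2, hc]
    obtain ⟨g, hg, hg'⟩ := reach_of_classCheck (tabIn_of_gens gens_ok) class_ok hm1' hm2' hcl
    obtain ⟨hg1, hg2⟩ := mem_SM.1 hg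
    have hg3 := hg2 d0 (by simp)
    have hg4 : g (pt 0) = pt 0 := by
      apply apply_eq_of_smul_single (by norm_num)
      simpa using hg2 1 (by simp)
    refine ⟨h⁻¹ * g * h, M24.mul_mem (M24.mul_mem (M24.inv_mem hh) hg1) hh, ?_, ?_, ?_⟩
    · change h⁻¹ (g (h x)) = x
      rw [hhx, hg4, Equiv.Perm.inv_eq_iff_eq, hhx]
    · rw [mul_smul, mul_smul, hhd, hg3, inv_smul_eq_iff, hhd]
    · rw [mul_smul, mul_smul, e1, hg', inv_smul_eq_iff, e2]

end Cfsg.Agent.S1639
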