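-- S1566: the stabiliser of a complementary pair of dodecads is maximal.
import Cfsg.Statements.S1566
import Cfsg.Agent.S1639

set_option autoImplicit false
open scoped Pointwise
open Cfsg

namespace Cfsg.Agent.S1566

open Cfsg.Agent.Lib.Golay Cfsg.Agent.Lib.M24 Finset MulAction

/-- Complement of a word. -/
lemma compl_dodecad {d : Finset GolayPt} (hd : d ∈ dodecads) : dᶜ ∈ dodecads := by
  obtain ⟨⟨w, hw, rfl⟩, h12⟩ := hd
  have h1 : (1 : GolayPt → ZMod 2) ∈ golayCode := by
    have := wordOf_ones_mem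
    rwa [wordOf_onesMask] at this
  have hs : support₂ (w + 1) = (support₂ w)ᶜ := by
    ext p
    rw [mem_compl, mem_support₂, mem_support₂]
    change w p + 1 ≠ 0 ↔ _
    generalize w p = a
    revert a
    decide
  rw [← hs]
  refine ⟨⟨_, golayCode.add_mem hw h1, rfl⟩, ?_⟩
  rw [hs, card_compl, card_golayPt, h12]

lemma smul_compl' (g : Equiv.Perm GolayPt) (a : Finset GolayPt) : g • aᶜ = (g • a)ᶜ := by
  ext x
  have hx : x = g • (g⁻¹ • x) := (smul_inv_smul g x).symm
  rw [hx, Finset.smul_mem_smul_finset_iff, mem_compl, mem_compl, Finset.smul_mem_smul_finset_iff]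

/-- The complementary pair. -/
def pair (a : Finset GolayPt) : Finset (Finset GolayPt) := {a, aᶜ}

lemma smul_pair (g : Equiv.Perm GolayPt) (a : Finset GolayPt) : g • pair a = pair (g • a) := by
  unfold pair
  rw [smul_finset_insert, smul_finset_singleton, smul_compl']

lemma mem_pair {a b : Finset GolayPt} : b ∈ pair a ↔ b = a ∨ b = aᶜ := by
  simp [pair]

lemma pair_compl (a : Finset GolayPt) : pair aᶜ = pair a := by
  unfold pair
  rw [compl_compl, pair_comm]

lemma inter_compl_card {d a : Finset GolayPt} (hd : d ∈ dodecads) :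
    (d ∩ aᶜ).card = 12 - (d ∩ a).card := by
  have h1 := card_sdiff_add_card_inter d a
  have h2 : d \ a = d ∩ aᶜ := by
    ext x
    simp
  rw [h2, dodecad_card hd] at h1
  omega

lemma pair_eq_iff {a b : Finset GolayPt} : pair a = pair b ↔ a = b ∨ a = bᶜ := by
  constructor
  · intro h
    have : a ∈ pair b := by
      rw [← h]
      exact mem_pair.2 (Or.inl rfl)
    exact mem_pair.1 this
  · rintro (rfl | rfl)
    · rfl
    · exact pair_compl b

open Classical in
/-- The class of a pair. -/
noncomputable def cP (d : Finset GolayPt) (P : Finset (Finset GolayPt)) : ℕ :=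
  if P = pair d then 0 else if ∃ a ∈ P, (d ∩ a).card = 6 then 2 else 1

lemma cP_self (d : Finset GolayPt) : cP d (pair d) = 0 := by
  simp [cP]

lemma cP_two {d a : Finset GolayPt} (hd : d ∈ dodecads) (h : (d ∩ a).card = 6) : cP d (pair a) = 2 := by
  have hne : pair a ≠ pair d := by
    intro h1
    rcases pair_eq_iff.1 h1 with rfl | rfl
    · rw [inter_self, dodecad_card hd] at h
      omega
    · have : d ∩ dᶜ = ∅ := by
        ext x
        simp
      rw [this] at h
      simp at h
  unfold cP
  rw [if_neg hne, if_pos ⟨a, mem_pair.2 (Or.inl rfl), h⟩]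

lemma cP_one {d a : Finset GolayPt} (hd : d ∈ dodecads) (h : (d ∩ a).card = 4 ∨ (d ∩ a).card = 8) :
    cP d (pair a) = 1 := by
  have hc := inter_compl_card (a := a) hd
  have hne : pair a ≠ pair d := by
    intro h1
    rcases pair_eq_iff.1 h1 with rfl | rfl
    · rw [inter_self, dodecad_card hd] at h
      omega
    · have : d ∩ dᶜ = ∅ := by
        ext x
        simp
      rw [this] at h
      simp at h
  unfold cP
  rw [if_neg hne, if_neg]
  rintro ⟨b, hb, hb6⟩
  rcases mem_pair.1 hb with rfl | rfl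
  · omega
  · omega

/-- The set of pairs. -/
def pairs : Set (Finset (Finset GolayPt)) := {P | ∃ a ∈ dodecads, P = pair a}

lemma cP_cases {d a : Finset GolayPt} (hd : d ∈ dodecads) (ha : a ∈ dodecads) :
    (pair a = pair d ∧ cP d (pair a) = 0) ∨ ((d ∩ a).card = 6 ∧ cP d (pair a) = 2) ∨
      (((d ∩ a).card = 4 ∨ (d ∩ a).card = 8) ∧ cP d (pair a) = 1) := by
  rcases dodecad_inter_values hd ha with h | h | h | h | h
  · left
    have h1 : Disjoint d a := by
      rw [disjoint_iff_inter_eq_empty, ← Finset.card_eq_zero]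
      exact h
    have h2 : a = dᶜ := by
      apply Finset.eq_of_subset_of_card_le
      · intro x hx
        rw [mem_compl]
        exact fun hx' => disjoint_left.1 h1 hx' hx
      · rw [card_compl, card_golayPt, dodecad_card hd, dodecad_card ha]
    subst h2
    rw [pair_compl]
    exact ⟨rfl, cP_self d⟩
  · exact Or.inr (Or.inr ⟨Or.inl h, cP_one hd (Or.inl h)⟩)
  · exact Or.inr (Or.inl ⟨h, cP_two hd h⟩)
  · exact Or.inr (Or.inr ⟨Or.inr h, cP_one hd (Or.inr h)⟩)
  · left
    rw [eq_of_inter_twelve hd ha h]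
    exact ⟨rfl, cP_self d⟩

/-- The setwise stabiliser of a dodecad together with its complement is a maximal proper subgroup of the group of the length-24 code. -/
theorem result (d : Finset Cfsg.GolayPt) (hd : d ∈ Cfsg.dodecads) : IsCoatom (MulAction.stabilizer Cfsg.M24 ({d, dᶜ} : Finset (Finset Cfsg.GolayPt))) := by
  classical
  have hdc := compl_dodecad hd
  obtain ⟨x, hx⟩ : d.Nonempty := card_pos.1 (by rw [dodecad_card hd]; norm_num)
  have hinj : ∀ A : Set (Finset GolayPt), (∀ a ∈ A, ∀ b ∈ A, a ≠ bᶜ) → Set.InjOn pair A := by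
    intro A hA a ha b hb h
    rcases pair_eq_iff.1 h with h1 | h1
    · exact h1
    · exact absurd h1 (hA a ha b hb)
  change IsCoatom (stabilizer M24 (pair d))
  refine isCoatom_of_classesN (k := 3) (pair d) pairs ?_ (cP d) ?_ ![1, 495, 792] ?_ ?_ ?_ ?_ 0 (cP_self d).symm (by decide +kernel)
  · intro P
    constructor
    · rintro ⟨a, ha, rfl⟩
      obtain ⟨g, hg, h⟩ := dodecad_transitive hd ha
      exact ⟨⟨g, hg⟩, by
        change g • pair d = pair a
        rw [smul_pair, h]⟩
    · rintro ⟨g, rfl⟩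
      refine ⟨g.1 • d, smul_dodecad g.2 hd, ?_⟩
      exact smul_pair g.1 d
  · rintro P ⟨a, ha, rfl⟩
    rcases cP_cases hd ha with h | h | h <;> omega
  · intro i
    fin_cases i
    · change {P | P ∈ pairs ∧ cP d P = 0}.ncard = 1
      rw [Set.ncard_eq_one]
      refine ⟨pair d, ?_⟩
      ext P
      constructor
      · rintro ⟨⟨a, ha, rfl⟩, h⟩
        rcases cP_cases hd ha with h1 | h1 | h1
        · exact h1.1
        · omega
        · omega
      · intro h
        rw [Set.mem_singleton_iff] at h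
        subst h
        exact ⟨⟨d, hd, rfl⟩, cP_self d⟩
    · change {P | P ∈ pairs ∧ cP d P = 1}.ncard = 495
      have hS : {P | P ∈ pairs ∧ cP d P = 1} =
          pair '' {a | a ∈ dodecads ∧ (d ∩ a).card = 4} := by
        ext P
        constructor
        · rintro ⟨⟨a, ha, rfl⟩, h⟩
          rcases cP_cases hd ha with h1 | h1 | h1
          · omega
          · omega
          · rcases h1.1 with h2 | h2
            · exact ⟨a, ⟨ha, h2⟩, rfl⟩
            · refine ⟨aᶜ, ⟨compl_dodecad ha, ?_⟩, pair_compl a⟩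
              rw [inter_compl_card hd, h2]
        · rintro ⟨a, ⟨ha, h⟩, rfl⟩
          exact ⟨⟨a, ha, rfl⟩, cP_one hd (Or.inl h)⟩
      rw [hS, (hinj _ ?_).ncard_image]
      · exact count_by_inter hd 4 495 countD4
      · rintro a ⟨_, ha⟩ b ⟨_, hb⟩ rfl
        rw [inter_compl_card hd, hb] at ha
        omega
    · change {P | P ∈ pairs ∧ cP d P = 2}.ncard = 792
      have hS : {P | P ∈ pairs ∧ cP d P = 2} =
          pair '' {a | a ∈ dodecads ∧ x ∈ a ∧ (d ∩ a).card = 6} := by
        ext P
        constructor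
        · rintro ⟨⟨a, ha, rfl⟩, h⟩
          rcases cP_cases hd ha with h1 | h1 | h1
          · omega
          · by_cases hxa : x ∈ a
            · exact ⟨a, ⟨ha, hxa, h1.1⟩, rfl⟩
            · refine ⟨aᶜ, ⟨compl_dodecad ha, mem_compl.2 hxa, ?_⟩, pair_compl a⟩
              rw [inter_compl_card hd, h1.1]
          · omega
        · rintro ⟨a, ⟨ha, -, h⟩, rfl⟩
          exact ⟨⟨a, ha, rfl⟩, cP_two hd h⟩
      rw [hS, (hinj _ ?_).ncard_image]
      · exact (Cfsg.Agent.S1639.result x d hd hx).2.2.1
      · rintro a ⟨_, ha, _⟩ b ⟨_, hb, _⟩ rfl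
        exact (mem_compl.1 ha) hb
  · rintro P ⟨a, ha, rfl⟩ P' ⟨a', ha', rfl⟩ hc
    rcases cP_cases hd ha with h1 | h1 | h1 <;> rcases cP_cases hd ha' with h2 | h2 | h2
    · exact ⟨1, Subgroup.one_mem _, by
        change (1 : Equiv.Perm GolayPt) • pair a = pair a'
        rw [one_smul, h1.1, h2.1]⟩
    · omega
    · omega
    · omega
    · obtain ⟨g, hg, hg1, hg2⟩ := dodecad_same_orbit hd ha ha' (h1.1.trans h2.1.symm)
      exact ⟨⟨g, hg⟩, mem_stabilizer_iff.2 (by
        change g • pair d = pair d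
        rw [smul_pair, hg1]), by
        change g • pair a = pair a'
        rw [smul_pair, hg2]⟩
    · omega
    · omega
    · omega
    · -- choose the members meeting `d` in four points
      have hb : ∃ b ∈ dodecads, pair b = pair a ∧ (d ∩ b).card = 4 := by
        rcases h1.1 with h3 | h3
        · exact ⟨a, ha, rfl, h3⟩
        · exact ⟨aᶜ, compl_dodecad ha, pair_compl a, by rw [inter_compl_card hd, h3]⟩
      have hb' : ∃ b ∈ dodecads, pair b = pair a' ∧ (d ∩ b).card = 4 := by
        rcases h2.1 with h3 | h3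
        · exact ⟨a', ha', rfl, h3⟩
        · exact ⟨a'ᶜ, compl_dodecad ha', pair_compl a', by rw [inter_compl_card hd, h3]⟩
      obtain ⟨b, hbm, hb1, hb2⟩ := hb
      obtain ⟨b', hbm', hb1', hb2'⟩ := hb'
      obtain ⟨g, hg, hg1, hg2⟩ := dodecad_same_orbit hd hbm hbm' (hb2.trans hb2'.symm)
      exact ⟨⟨g, hg⟩, mem_stabilizer_iff.2 (by
        change g • pair d = pair d
        rw [smul_pair, hg1]), by
        change g • pair a = pair a'
        rw [← hb1, ← hb1', smul_pair, hg2]⟩
  · rintro P ⟨a, ha, rfl⟩ h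
    rcases cP_cases hd ha with h1 | h1 | h1
    · exact h1.1
    · rw [cP_self] at h
      omega
    · rw [cP_self] at h
      omega
  · -- a second pair exists
    have h4 : {t | t ∈ dodecads ∧ (d ∩ t).card = 4}.ncard = 495 := count_by_inter hd 4 495 countD4
    have hne : {t | t ∈ dodecads ∧ (d ∩ t).card = 4}.Nonempty := by
      rw [← Set.ncard_pos (Set.toFinite _), h4]
      norm_num
    obtain ⟨a, ha, ha4⟩ := hne
    refine ⟨pair a, ⟨a, ha, rfl⟩, ?_⟩
    intro h
    have h1 := cP_one hd (a := a) (Or.inl ha4)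
    rw [h, cP_self] at h1
    omega

end Cfsg.Agent.S1566
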