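import Cfsg.Statements.S1587

set_option autoImplicit false
open scoped Pointwise
open Cfsg

namespace Cfsg.Agent.S1587

open Matrix

/-- First step of the characterisation of the rank-24 lattice: in an even lattice without roots, norm-8 vectors congruent modulo 2 are equal, opposite or orthogonal. -/
theorem result (B : Matrix (Fin 24) (Fin 24) ℤ) (hsymm : B.IsSymm) (hpos : ∀ x : Fin 24 → ℤ, x ≠ 0 → 0 < x ⬝ᵥ (B *ᵥ x)) (heven : ∀ x : Fin 24 → ℤ, (2 : ℤ) ∣ x ⬝ᵥ (B *ᵥ x)) (h2 : ∀ x : Fin 24 → ℤ, x ⬝ᵥ (B *ᵥ x) ≠ 2) (x y : Fin 24 → ℤ) (hx : x ⬝ᵥ (B *ᵥ x) = 8) (hy : y ⬝ᵥ (B *ᵥ y) = 8) (hc : ∀ i, (2 : ℤ) ∣ (x - y) i) : y = x ∨ y = -x ∨ x ⬝ᵥ (B *ᵥ y) = 0 := by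
  classical
  -- symmetric bilinear form
  have hsym : ∀ u v : Fin 24 → ℤ, u ⬝ᵥ (B *ᵥ v) = v ⬝ᵥ (B *ᵥ u) := by
    intro u v
    rw [Matrix.dotProduct_mulVec, dotProduct_comm, ← Matrix.mulVec_transpose, hsymm.eq]
  -- every nonzero vector has norm at least 4
  have hmin : ∀ z : Fin 24 → ℤ, z ≠ 0 → 4 ≤ z ⬝ᵥ (B *ᵥ z) := by
    intro z hz
    have h1 := hpos z hz
    obtain ⟨k, hk⟩ := heven z
    have h3 := h2 z
    rw [hk] at h1 h3 ⊢
    omega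
  choose a ha using hc
  set z : Fin 24 → ℤ := a with hz
  have hxy : x = y + (2 : ℤ) • z := by
    funext i
    have := ha i
    simp only [Pi.sub_apply] at this
    simp [hz]
    linarith
  -- x + y = 2 (y + z)
  set w : Fin 24 → ℤ := y + z with hw
  have hxy' : x + y = (2 : ℤ) • w := by
    rw [hxy, hw]
    funext i
    simp
    ring
  have hzN : (2 : ℤ) • z = x - y := by rw [hxy]; simp
  have hwN : (2 : ℤ) • w = x + y := hxy'.symm
  have e1 : ((2 : ℤ) • z) ⬝ᵥ (B *ᵥ ((2 : ℤ) • z)) = 4 * (z ⬝ᵥ (B *ᵥ z)) := by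
    rw [Matrix.mulVec_smul, smul_dotProduct, dotProduct_smul]
    simp only [smul_eq_mul]; ring
  have e2 : ((2 : ℤ) • w) ⬝ᵥ (B *ᵥ ((2 : ℤ) • w)) = 4 * (w ⬝ᵥ (B *ᵥ w)) := by
    rw [Matrix.mulVec_smul, smul_dotProduct, dotProduct_smul]
    simp only [smul_eq_mul]; ring
  have e3 : (x - y) ⬝ᵥ (B *ᵥ (x - y)) = 16 - 2 * (x ⬝ᵥ (B *ᵥ y)) := by
    rw [Matrix.mulVec_sub, sub_dotProduct, dotProduct_sub, dotProduct_sub, hx, hy, hsym y x]
    ring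
  have e4 : (x + y) ⬝ᵥ (B *ᵥ (x + y)) = 16 + 2 * (x ⬝ᵥ (B *ᵥ y)) := by
    rw [Matrix.mulVec_add, add_dotProduct, dotProduct_add, dotProduct_add, hx, hy, hsym y x]
    ring
  by_cases hz0 : z = 0
  · left
    rw [hxy, hz0]; simp
  by_cases hw0 : w = 0
  · right; left
    have : x + y = 0 := by rw [hxy', hw0]; simp
    exact eq_neg_of_add_eq_zero_right this
  right; right
  have h5 := hmin z hz0
  have h6 := hmin w hw0
  rw [hzN] at e1
  rw [hwN] at e2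
  rw [e1] at e3
  rw [e2] at e4
  omega

end Cfsg.Agent.S1587
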