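import Cfsg.Statements.S1588
import Cfsg.Agent.S1587

set_option autoImplicit false
open scoped Pointwise
open Cfsg

namespace Cfsg.Agent.S1588

open Matrix

/-- Reduction modulo two. -/
def red (v : Fin 24 → ℤ) : Fin 24 → ZMod 2 := fun i => (v i : ZMod 2)

lemma red_eq_iff (u v : Fin 24 → ℤ) : red u = red v ↔ ∀ i, (2 : ℤ) ∣ (u - v) i := by
  constructor
  · intro h i
    have := congrFun h i
    simp only [red] at this
    have h2 := (ZMod.intCast_eq_intCast_iff_dvd_sub (u i) (v i) 2).1 this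
    simp only [Pi.sub_apply]
    have : (2 : ℤ) ∣ u i - v i := by
      have h3 : u i - v i = -(v i - u i) := by ring
      rw [h3]
      exact (dvd_neg).2 (by exact_mod_cast h2)
    exact this
  · intro h
    funext i
    have h2 := h i
    simp only [Pi.sub_apply] at h2
    simp only [red]
    apply (ZMod.intCast_eq_intCast_iff_dvd_sub (u i) (v i) 2).2
    have h3 : v i - u i = -(u i - v i) := by ring
    rw [h3]
    exact (dvd_neg).2 (by exact_mod_cast h2)

section
variable (B : Matrix (Fin 24) (Fin 24) ℤ)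

/-- The quadratic form. -/
def nm (x : Fin 24 → ℤ) : ℤ := x ⬝ᵥ (B *ᵥ x)

variable {B}

lemma nm_two_smul (z : Fin 24 → ℤ) : nm B ((2 : ℤ) • z) = 4 * nm B z := by
  simp only [nm]
  rw [Matrix.mulVec_smul, smul_dotProduct, dotProduct_smul]
  simp only [smul_eq_mul]; ring

lemma nm_par (hsymm : B.IsSymm) (x y : Fin 24 → ℤ) :
    nm B (x - y) + nm B (x + y) = 2 * (nm B x + nm B y) := by
  have hsym : ∀ u v : Fin 24 → ℤ, u ⬝ᵥ (B *ᵥ v) = v ⬝ᵥ (B *ᵥ u) := by
    intro u v
    rw [Matrix.dotProduct_mulVec, dotProduct_comm, ← Matrix.mulVec_transpose, hsymm.eq]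
  simp only [nm]
  rw [Matrix.mulVec_sub, sub_dotProduct, dotProduct_sub, dotProduct_sub,
    Matrix.mulVec_add, add_dotProduct, dotProduct_add, dotProduct_add, hsym y x]
  ring

lemma key (hsymm : B.IsSymm) (hmin : ∀ z : Fin 24 → ℤ, z ≠ 0 → 4 ≤ nm B z)
    (u v : Fin 24 → ℤ) (h : red u = red v) (hlt : nm B u + nm B v < 16) : u = v ∨ u = -v := by
  have hc := (red_eq_iff u v).1 h
  choose z hz using hc
  have hu : u = v + (2 : ℤ) • z := by
    funext i
    have := hz i
    simp only [Pi.sub_apply] at this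
    simp
    linarith
  have hv : u + v = (2 : ℤ) • (v + z) := by
    rw [hu]
    funext i
    simp
    ring
  have hs : u - v = (2 : ℤ) • z := by rw [hu]; simp
  by_cases hz0 : z = 0
  · left; rw [hu, hz0]; simp
  by_cases hw0 : v + z = 0
  · right
    have : u + v = 0 := by rw [hv, hw0]; simp
    exact eq_neg_of_add_eq_zero_left this
  exfalso
  have h5 := hmin z hz0
  have h6 := hmin _ hw0
  have h7 := nm_par hsymm u v
  rw [hs, hv, nm_two_smul, nm_two_smul] at h7
  linarith

/-- Pairwise orthogonal nonzero vectors number at most 24. -/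
lemma orth_card_le (G : Finset (Fin 24 → ℤ)) (hne : ∀ g ∈ G, nm B g ≠ 0)
    (horth : ∀ g ∈ G, ∀ h ∈ G, g ≠ h → g ⬝ᵥ (B *ᵥ h) = 0) : G.card ≤ 24 := by
  classical
  have hli : LinearIndependent ℤ (fun g : G => (g : Fin 24 → ℤ)) := by
    rw [linearIndependent_iff']
    intro s c hsum i hi
    have h1 : (i : Fin 24 → ℤ) ⬝ᵥ (B *ᵥ ∑ j ∈ s, c j • (j : Fin 24 → ℤ)) = 0 := by
      rw [hsum]; simp
    rw [Matrix.mulVec_sum, dotProduct_sum] at h1
    rw [Finset.sum_eq_single i] at h1
    · rw [Matrix.mulVec_smul, dotProduct_smul] at h1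
      simp only [smul_eq_mul] at h1
      rcases mul_eq_zero.1 h1 with h | h
      · exact h
      · exact absurd h (hne i i.2)
    · intro j hj hji
      rw [Matrix.mulVec_smul, dotProduct_smul]
      have : (i : Fin 24 → ℤ) ⬝ᵥ (B *ᵥ (j : Fin 24 → ℤ)) = 0 :=
        horth i i.2 j j.2 (fun h => hji (Subtype.ext h.symm))
      simp [this]
    · intro h; exact absurd hi h
  have := hli.fintype_card_le_finrank
  simpa using this

/-- A finite set of vectors closed up to signs: pick representatives. -/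
lemma exists_reps (F : Finset (Fin 24 → ℤ))
    (hF : ∀ u ∈ F, ∀ v ∈ F, v = u ∨ v = -u ∨ u ⬝ᵥ (B *ᵥ v) = 0) :
    ∃ G ⊆ F, (∀ g ∈ G, ∀ h ∈ G, g ≠ h → g ⬝ᵥ (B *ᵥ h) = 0) ∧ ∀ u ∈ F, u ∈ G ∨ -u ∈ G := by
  classical
  induction F using Finset.induction_on with
  | empty => exact ⟨∅, by simp, by simp, by simp⟩
  | @insert a F ha ih =>
    obtain ⟨G, hGF, hG, hcov⟩ := ih (fun u hu v hv =>
      hF u (Finset.mem_insert_of_mem hu) v (Finset.mem_insert_of_mem hv))
    by_cases hag : a ∈ G ∨ -a ∈ G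
    · refine ⟨G, hGF.trans (Finset.subset_insert _ _), hG, ?_⟩
      intro u hu
      rcases Finset.mem_insert.1 hu with rfl | hu
      · exact hag
      · exact hcov u hu
    · push Not at hag
      refine ⟨insert a G, Finset.insert_subset_insert _ hGF, ?_, ?_⟩
      · have hsym : ∀ g ∈ G, a ⬝ᵥ (B *ᵥ g) = 0 := by
          intro g hg
          rcases hF a (Finset.mem_insert_self _ _) g (Finset.mem_insert_of_mem (hGF hg)) with h | h | h
          · exact absurd (h ▸ hg) hag.1
          · exact absurd (by rw [h] at hg; exact hg) hag.2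
          · exact h
        have hsym' : ∀ g ∈ G, g ⬝ᵥ (B *ᵥ a) = 0 := by
          intro g hg
          rcases hF g (Finset.mem_insert_of_mem (hGF hg)) a (Finset.mem_insert_self _ _) with h | h | h
          · exact absurd (h ▸ hg) hag.1
          · exfalso
            apply hag.2
            rw [h, neg_neg]; exact hg
          · exact h
        intro g hg h hh hgh
        rcases Finset.mem_insert.1 hg with hga | hg'
        · rcases Finset.mem_insert.1 hh with hha | hh'
          · exact absurd (hga.trans hha.symm) hgh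
          · rw [hga]; exact hsym h hh'
        · rcases Finset.mem_insert.1 hh with hha | hh'
          · rw [hha]; exact hsym' g hg'
          · exact hG g hg' h hh' hgh
      · intro u hu
        rcases Finset.mem_insert.1 hu with rfl | hu
        · left; exact Finset.mem_insert_self _ _
        · rcases hcov u hu with h | h
          · left; exact Finset.mem_insert_of_mem h
          · right; exact Finset.mem_insert_of_mem h

lemma fiber_le_48 (F : Finset (Fin 24 → ℤ)) (hne : ∀ g ∈ F, nm B g ≠ 0)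
    (hF : ∀ u ∈ F, ∀ v ∈ F, v = u ∨ v = -u ∨ u ⬝ᵥ (B *ᵥ v) = 0) : F.card ≤ 48 := by
  classical
  obtain ⟨G, hGF, hG, hcov⟩ := exists_reps (B := B) F hF
  have h24 := orth_card_le G (fun g hg => hne g (hGF hg)) hG
  have hsub : F ⊆ G ∪ G.image (fun g => -g) := by
    intro u hu
    rcases hcov u hu with h | h
    · exact Finset.mem_union_left _ h
    · refine Finset.mem_union_right _ (Finset.mem_image.2 ⟨-u, h, by simp⟩)
  calc F.card ≤ (G ∪ G.image (fun g => -g)).card := Finset.card_le_card hsub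
    _ ≤ G.card + (G.image (fun g => -g)).card := Finset.card_union_le _ _
    _ ≤ G.card + G.card := by
        exact Nat.add_le_add_left Finset.card_image_le _
    _ ≤ 48 := by omega

end

/-- Second step of the characterisation: under the vector counts of the rank-24 lattice, the norm-8 vectors fall into congruence classes of exactly 48 modulo twice the lattice. -/
theorem result (B : Matrix (Fin 24) (Fin 24) ℤ) (hsymm : B.IsSymm) (hpos : ∀ x : Fin 24 → ℤ, x ≠ 0 → 0 < x ⬝ᵥ (B *ᵥ x)) (heven : ∀ x : Fin 24 → ℤ, (2 : ℤ) ∣ x ⬝ᵥ (B *ᵥ x)) (h2 : ∀ x : Fin 24 → ℤ, x ⬝ᵥ (B *ᵥ x) ≠ 2) (h4 : {x : Fin 24 → ℤ | x ⬝ᵥ (B *ᵥ x) = 4}.ncard = 196560) (h6 : {x : Fin 24 → ℤ | x ⬝ᵥ (B *ᵥ x) = 6}.ncard = 16773120) (h8 : {x : Fin 24 → ℤ | x ⬝ᵥ (B *ᵥ x) = 8}.ncard = 398034000) (x : Fin 24 → ℤ) (hx : x ⬝ᵥ (B *ᵥ x) = 8) : {y : Fin 24 → ℤ | y ⬝ᵥ (B *ᵥ y) = 8 ∧ ∀ i, (2 : ℤ) ∣ (x - y) i}.ncard = 48 := by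
  classical
  have hmin : ∀ z : Fin 24 → ℤ, z ≠ 0 → 4 ≤ nm B z := by
    intro z hz
    have h1 := hpos z hz
    obtain ⟨k, hk⟩ := heven z
    have h3 := h2 z
    simp only [nm]
    rw [hk] at h1 h3 ⊢
    omega
  have hnm0 : nm B (0 : Fin 24 → ℤ) = 0 := by simp [nm]
  have fin4 : {x : Fin 24 → ℤ | x ⬝ᵥ (B *ᵥ x) = 4}.Finite :=
    Set.finite_of_ncard_ne_zero (by rw [h4]; norm_num)
  have fin6 : {x : Fin 24 → ℤ | x ⬝ᵥ (B *ᵥ x) = 6}.Finite :=
    Set.finite_of_ncard_ne_zero (by rw [h6]; norm_num)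
  have fin8 : {x : Fin 24 → ℤ | x ⬝ᵥ (B *ᵥ x) = 8}.Finite :=
    Set.finite_of_ncard_ne_zero (by rw [h8]; norm_num)
  set A4 := fin4.toFinset with hA4
  set A6 := fin6.toFinset with hA6
  set A8 := fin8.toFinset with hA8
  have c4 : A4.card = 196560 := by rw [← h4, Set.ncard_eq_toFinset_card _ fin4]
  have c6 : A6.card = 16773120 := by rw [← h6, Set.ncard_eq_toFinset_card _ fin6]
  have c8 : A8.card = 398034000 := by rw [← h8, Set.ncard_eq_toFinset_card _ fin8]
  have m4 : ∀ y, y ∈ A4 ↔ nm B y = 4 := by intro y; simp [hA4, nm]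
  have m6 : ∀ y, y ∈ A6 ↔ nm B y = 6 := by intro y; simp [hA6, nm]
  have m8 : ∀ y, y ∈ A8 ↔ nm B y = 8 := by intro y; simp [hA8, nm]
  -- a fibre of a norm ≤ 6 shell has at most two elements
  have two : ∀ A : Finset (Fin 24 → ℤ), (∀ u ∈ A, nm B u < 8) → A.card ≤ 2 * (A.image red).card := by
    intro A hA
    apply Finset.card_le_mul_card_image
    intro c hc
    obtain ⟨u, hu, rfl⟩ := Finset.mem_image.1 hc
    have hsub : A.filter (fun v => red v = red u) ⊆ {u, -u} := by
      intro v hv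
      obtain ⟨hv1, hv2⟩ := Finset.mem_filter.1 hv
      have := key hsymm hmin v u hv2 (by have := hA u hu; have := hA v hv1; linarith)
      simp only [Finset.mem_insert, Finset.mem_singleton]
      exact this
    calc _ ≤ ({u, -u} : Finset (Fin 24 → ℤ)).card := Finset.card_le_card hsub
      _ ≤ 2 := Finset.card_le_two
  have i4 : 98280 ≤ (A4.image red).card := by
    have := two A4 (fun u hu => by rw [(m4 u).1 hu]; norm_num)
    omega
  have i6 : 8386560 ≤ (A6.image red).card := by
    have := two A6 (fun u hu => by rw [(m6 u).1 hu]; norm_num)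
    omega
  -- disjointness of the images
  have sep : ∀ (u v : Fin 24 → ℤ), nm B u + nm B v < 16 → nm B u ≠ nm B v → red u ≠ red v := by
    intro u v hlt hne heq
    rcases key hsymm hmin u v heq hlt with h | h
    · exact hne (by rw [h])
    · apply hne
      rw [h]
      simp only [nm]
      rw [Matrix.mulVec_neg, neg_dotProduct, dotProduct_neg, neg_neg]
  have d46 : Disjoint (A4.image red) (A6.image red) := by
    rw [Finset.disjoint_left]
    intro c hc hc'
    obtain ⟨u, hu, rfl⟩ := Finset.mem_image.1 hc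
    obtain ⟨v, hv, hvu⟩ := Finset.mem_image.1 hc'
    exact sep u v (by rw [(m4 u).1 hu, (m6 v).1 hv]; norm_num) (by rw [(m4 u).1 hu, (m6 v).1 hv]; norm_num) hvu.symm
  have d48 : Disjoint (A4.image red) (A8.image red) := by
    rw [Finset.disjoint_left]
    intro c hc hc'
    obtain ⟨u, hu, rfl⟩ := Finset.mem_image.1 hc
    obtain ⟨v, hv, hvu⟩ := Finset.mem_image.1 hc'
    exact sep u v (by rw [(m4 u).1 hu, (m8 v).1 hv]; norm_num) (by rw [(m4 u).1 hu, (m8 v).1 hv]; norm_num) hvu.symm
  have d68 : Disjoint (A6.image red) (A8.image red) := by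
    rw [Finset.disjoint_left]
    intro c hc hc'
    obtain ⟨u, hu, rfl⟩ := Finset.mem_image.1 hc
    obtain ⟨v, hv, hvu⟩ := Finset.mem_image.1 hc'
    exact sep u v (by rw [(m6 u).1 hu, (m8 v).1 hv]; norm_num) (by rw [(m6 u).1 hu, (m8 v).1 hv]; norm_num) hvu.symm
  have zero_not : ∀ A : Finset (Fin 24 → ℤ), (∀ u ∈ A, nm B u = 4 ∨ nm B u = 6 ∨ nm B u = 8) →
      red 0 ∉ A.image red := by
    intro A hA hmem
    obtain ⟨u, hu, hu0⟩ := Finset.mem_image.1 hmem
    have hu' := hA u hu
    refine sep u 0 ?_ ?_ hu0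
    · rw [hnm0]; rcases hu' with h | h | h <;> rw [h] <;> norm_num
    · rw [hnm0]; rcases hu' with h | h | h <;> rw [h] <;> norm_num
  -- total count
  have total : ((A4.image red) ∪ (A6.image red) ∪ (A8.image red) ∪ {red 0}).card ≤ 2 ^ 24 := by
    have := Finset.card_le_univ ((A4.image red) ∪ (A6.image red) ∪ (A8.image red) ∪ {red 0})
    refine this.trans (le_of_eq ?_)
    simp [ZMod.card]
  have hcu : ((A4.image red) ∪ (A6.image red) ∪ (A8.image red) ∪ {red 0}).card
      = (A4.image red).card + (A6.image red).card + (A8.image red).card + 1 := by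
    rw [Finset.card_union_of_disjoint, Finset.card_union_of_disjoint, Finset.card_union_of_disjoint d46]
    · simp
    · rw [Finset.disjoint_union_left]; exact ⟨d48, d68⟩
    · rw [Finset.disjoint_singleton_right]
      simp only [Finset.mem_union, not_or]
      refine ⟨⟨zero_not A4 fun u hu => Or.inl ((m4 u).1 hu), zero_not A6 fun u hu => Or.inr (Or.inl ((m6 u).1 hu))⟩,
        zero_not A8 fun u hu => Or.inr (Or.inr ((m8 u).1 hu))⟩
  have i8 : (A8.image red).card ≤ 8292375 := by
    rw [hcu] at total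
    omega
  -- fibres of the norm-8 shell
  have f48 : ∀ c ∈ A8.image red, (A8.filter (fun v => red v = c)).card ≤ 48 := by
    intro c hc
    apply fiber_le_48 (B := B)
    · intro g hg
      rw [(m8 g).1 (Finset.mem_filter.1 hg).1]; norm_num
    · intro u hu v hv
      obtain ⟨hu1, hu2⟩ := Finset.mem_filter.1 hu
      obtain ⟨hv1, hv2⟩ := Finset.mem_filter.1 hv
      exact Cfsg.Agent.S1587.result B hsymm hpos heven h2 u v ((m8 u).1 hu1) ((m8 v).1 hv1)
        ((red_eq_iff u v).1 (hu2.trans hv2.symm))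
  have hsum : ∑ c ∈ A8.image red, (A8.filter (fun v => red v = c)).card = 398034000 := by
    rw [← c8]
    exact (Finset.card_eq_sum_card_image red A8).symm
  have hxm : red x ∈ A8.image red := Finset.mem_image.2 ⟨x, (m8 x).2 hx, rfl⟩
  -- the fibre of x has exactly 48 elements
  have hf : (A8.filter (fun v => red v = red x)).card = 48 := by
    by_contra hne
    have hlt : (A8.filter (fun v => red v = red x)).card < 48 := lt_of_le_of_ne (f48 _ hxm) hne
    have : ∑ c ∈ A8.image red, (A8.filter (fun v => red v = c)).card < ∑ _c ∈ A8.image red, 48 :=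
      Finset.sum_lt_sum f48 ⟨_, hxm, hlt⟩
    rw [hsum] at this
    simp only [Finset.sum_const, smul_eq_mul] at this
    omega
  rw [← hf]
  have hset : {y : Fin 24 → ℤ | y ⬝ᵥ (B *ᵥ y) = 8 ∧ ∀ i, (2 : ℤ) ∣ (x - y) i}
      = ↑(A8.filter (fun v => red v = red x)) := by
    ext y
    simp only [Set.mem_ofPred_eq, Finset.coe_filter, m8]
    constructor
    · rintro ⟨h1, h2⟩
      exact ⟨h1, ((red_eq_iff x y).2 h2).symm⟩
    · rintro ⟨h1, h2⟩
      exact ⟨h1, (red_eq_iff x y).1 h2.symm⟩
  rw [hset, Set.ncard_coe_finset]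

end Cfsg.Agent.S1588
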