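-- S1591: self-orthogonality of the length-12 ternary code.
import Cfsg.Statements.S1591
import Cfsg.Agent.Lib.Ternary.Count

set_option autoImplicit false
open Cfsg

namespace Cfsg.Agent.S1591

open Cfsg.Agent.Lib.Ternary

/-- Any two words of the length-12 ternary code have dot product zero. -/
theorem result (x y : Cfsg.ArrayPt → ZMod 3) (hx : x ∈ Cfsg.ternaryGolayCode) (hy : y ∈ Cfsg.ternaryGolayCode) : ∑ p, x p * y p = 0 := by
  obtain ⟨c, rfl⟩ := mem_code_iff.1 hx
  obtain ⟨d, rfl⟩ := mem_code_iff.1 hy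
  have hb : ∀ i j : Fin 6, ∑ p : ArrayPt, (![b0, b1, b2, b3, b4, b5] i) p * (![b0, b1, b2, b3, b4, b5] j) p = 0 := by
    decide +kernel
  have hmk : ∀ (c : C6) (p : ArrayPt), mk c p = ∑ i : Fin 6, (![c.1, c.2.1, c.2.2.1, c.2.2.2.1, c.2.2.2.2.1, c.2.2.2.2.2] i) * (![b0, b1, b2, b3, b4, b5] i) p := by
    intro c p
    rw [mk_apply, Fin.sum_univ_six]
    rfl
  simp only [hmk]
  generalize ![b0, b1, b2, b3, b4, b5] = B at hb
  generalize ![c.1, c.2.1, c.2.2.1, c.2.2.2.1, c.2.2.2.2.1, c.2.2.2.2.2] = a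
  generalize ![d.1, d.2.1, d.2.2.1, d.2.2.2.1, d.2.2.2.2.1, d.2.2.2.2.2] = e
  calc ∑ p, (∑ i, a i * B i p) * (∑ j, e j * B j p)
      = ∑ p, ∑ i, ∑ j, a i * e j * (B i p * B j p) := by
        refine Finset.sum_congr rfl fun p _ => ?_
        rw [Finset.sum_mul_sum]
        refine Finset.sum_congr rfl fun i _ => Finset.sum_congr rfl fun j _ => ?_
        ring
    _ = ∑ i, ∑ j, ∑ p, a i * e j * (B i p * B j p) := by
        rw [Finset.sum_comm]
        refine Finset.sum_congr rfl fun i _ => ?_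
        rw [Finset.sum_comm]
    _ = 0 := by
        refine Finset.sum_eq_zero fun i _ => Finset.sum_eq_zero fun j _ => ?_
        rw [← Finset.mul_sum, hb i j, mul_zero]

end Cfsg.Agent.S1591
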