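-- S1593: sign changes preserving the length-12 ternary code.
import Cfsg.Statements.S1593
import Cfsg.Agent.Lib.Ternary.Hexad

set_option autoImplicit false
open Cfsg

namespace Cfsg.Agent.S1593

open Cfsg.Agent.Lib.Ternary Finset

lemma unit_cases : ∀ u : (ZMod 3)ˣ, u = 1 ∨ u = -1 := by decide

lemma unit_neq : (1 : (ZMod 3)ˣ) ≠ -1 := by decide

lemma key1 : ∀ a : ZMod 3, a ≠ 0 → a + a ≠ 0 := by decide

/-- The only sign changes preserving the length-12 ternary code are the identity and negation of all coordinates. -/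
theorem result (c : Cfsg.ArrayPt → (ZMod 3)ˣ) (h : (∀ x ∈ Cfsg.ternaryGolayCode, Cfsg.monomialMap 1 c x ∈ Cfsg.ternaryGolayCode)) : (∀ p, c p = 1) ∨ (∀ p, c p = -1) := by
  classical
  by_contra hcon
  push Not at hcon
  obtain ⟨⟨p, hp⟩, ⟨q, hq⟩⟩ := hcon
  have hp' : c p = -1 := (unit_cases _).resolve_left hp
  have hq' : c q = 1 := (unit_cases _).resolve_right hq
  have hpq : p ≠ q := by
    rintro rfl
    rw [hp'] at hq'
    exact unit_neq hq'.symm
  have hcard2 : ({p, q} : Finset ArrayPt).card = 2 := card_pair hpq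
  obtain ⟨s, hs1, hs2⟩ := Finset.exists_superset_card_eq (s := ({p, q} : Finset ArrayPt)) (n := 5)
    (by omega) (by simp [ZMod.card])
  obtain ⟨b, ⟨hb, hsb⟩, -⟩ := hexads_steiner.2 s hs2
  obtain ⟨x, hx, rfl, hx6⟩ := hb
  have hpx : x p ≠ 0 := mem_support.1 (hsb (hs1 (by simp)))
  have hqx : x q ≠ 0 := mem_support.1 (hsb (hs1 (by simp)))
  have hy := h x hx
  have hval : ∀ r, monomialMap 1 c x r = (c r : ZMod 3) * x r := fun r => rfl
  set y := monomialMap 1 c x with hydef
  have hsum := ternaryGolayCode.add_mem hx hy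
  have hdiff := ternaryGolayCode.sub_mem hx hy
  set A := ternarySupport (x + y) with hA
  set D := ternarySupport (x - y) with hD
  have hdisj : Disjoint A D := by
    rw [disjoint_left]
    intro r hr hr'
    rw [hA, mem_support, Pi.add_apply, hval] at hr
    rw [hD, mem_support, Pi.sub_apply, hval] at hr'
    rcases unit_cases (c r) with h1 | h1
    · rw [h1] at hr'
      simp at hr'
    · rw [h1] at hr
      simp at hr
  have hsub : A ∪ D ⊆ ternarySupport x := by
    intro r hr
    rw [mem_union] at hr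
    rw [mem_support]
    intro hr0
    rcases hr with hr | hr
    · rw [hA, mem_support, Pi.add_apply, hval, hr0] at hr
      simp at hr
    · rw [hD, mem_support, Pi.sub_apply, hval, hr0] at hr
      simp at hr
  have hcardAD := card_le_card hsub
  rw [card_union_of_disjoint hdisj, hx6] at hcardAD
  have hqA : q ∈ A := by
    rw [hA, mem_support, Pi.add_apply, hval, hq']
    simpa using key1 _ hqx
  have hpD : p ∈ D := by
    rw [hD, mem_support, Pi.sub_apply, hval, hp']
    have := key1 _ hpx
    simpa using this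
  have hA1 : 1 ≤ A.card := card_pos.2 ⟨q, hqA⟩
  have hD1 : 1 ≤ D.card := card_pos.2 ⟨p, hpD⟩
  have hlt : A.card < 6 := by omega
  have h0 : x + y = 0 := min_weight hsum hlt
  rw [hA, h0, mem_support] at hqA
  exact hqA rfl

end Cfsg.Agent.S1593
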