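import Cfsg.Statements.S1596
import Cfsg.Agent.Lib.M24.Quartet

set_option autoImplicit false
open scoped Pointwise
open Cfsg

namespace Cfsg.Agent.S1596

/-- A quartet of a dodecad is determined by any two of its triples: two disjoint triples uniting to a hexad extend to exactly one quartet. -/
theorem result (d : Finset Cfsg.GolayPt) (hd : d ∈ Cfsg.dodecads) (t u : Finset Cfsg.GolayPt) (ht : t.card = 3) (hu : u.card = 3) (htu : Disjoint t u) (hh : t ∪ u ∈ Cfsg.hexadsOn d) : ∃! Q : Finset (Finset Cfsg.GolayPt), Q ∈ Cfsg.quartets d ∧ t ∈ Q ∧ u ∈ Q := by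
  have hne : t ≠ u := by
    rintro rfl
    rw [disjoint_self, Finset.bot_eq_empty] at htu
    rw [htu] at ht
    simp at ht
  obtain ⟨Q, hQ, h1, h2⟩ := Cfsg.Agent.Lib.M24.exists_quartet hd ht hu hh
  refine ⟨Q, ⟨hQ, h1, h2⟩, ?_⟩
  rintro Q' ⟨hQ', h3, h4⟩
  exact Cfsg.Agent.Lib.M24.quartet_unique hd hQ' hQ h3 h4 h1 h2 hne

end Cfsg.Agent.S1596
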