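import Cfsg.Statements.S1598
import Cfsg.Agent.Lib.M24.QuartetStab

set_option autoImplicit false
open scoped Pointwise
open Cfsg

namespace Cfsg.Agent.S1598

open Cfsg.Agent.Lib.Golay Cfsg.Agent.Lib.M24

/-- A quartet stabiliser inside the dodecad stabiliser has order 432, a normal subgroup of order 9 with quotient GL(2, 3), and is transitive on the dodecad. -/
theorem result (d : Finset Cfsg.GolayPt) (hd : d ∈ Cfsg.dodecads) (Q : Finset (Finset Cfsg.GolayPt)) (hQ : Q ∈ Cfsg.quartets d) : Nat.card ↥(MulAction.stabilizer Cfsg.M24 d ⊓ MulAction.stabilizer Cfsg.M24 Q) = 432 ∧ (∃ (N : Subgroup ↥(MulAction.stabilizer Cfsg.M24 d ⊓ MulAction.stabilizer Cfsg.M24 Q)) (_ : N.Normal), Nat.card N = 9 ∧ Nonempty (↥(MulAction.stabilizer Cfsg.M24 d ⊓ MulAction.stabilizer Cfsg.M24 Q) ⧸ N ≃* GL (Fin 2) (ZMod 3))) ∧ ∀ p ∈ d, ∀ q ∈ d, ∃ g ∈ (MulAction.stabilizer Cfsg.M24 d ⊓ MulAction.stabilizer Cfsg.M24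 Q), ((g : ↥Cfsg.M24) : Equiv.Perm Cfsg.GolayPt) p = q := by
  obtain ⟨k, h1, h2⟩ := exists_to_standard hd hQ
  let E := toQS h1 h2
  obtain ⟨φ, hφ⟩ := exists_QS_surj
  have hc : Nat.card ↥(MulAction.stabilizer Cfsg.M24 d ⊓ MulAction.stabilizer Cfsg.M24 Q) = 432 := by
    rw [Nat.card_congr E.toEquiv, card_QS]
  refine ⟨hc, ?_, ?_⟩
  · exact normal_nine_of_surjective (φ.comp E.toMonoidHom) hc (hφ.comp E.surjective)
  · intro p hp q hq
    have hp' : (k : Equiv.Perm GolayPt) p ∈ D0 := by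
      rw [← h1]; exact (mem_smul_apply _ _ _).2 hp
    have hq' : (k : Equiv.Perm GolayPt) q ∈ D0 := by
      rw [← h1]; exact (mem_smul_apply _ _ _).2 hq
    obtain ⟨g, hg, e⟩ := QS_transitive hp' hq'
    refine ⟨E.symm ⟨g, hg⟩, (E.symm ⟨g, hg⟩).2, ?_⟩
    show (k : Equiv.Perm GolayPt)⁻¹ ((g : Equiv.Perm GolayPt) ((k : Equiv.Perm GolayPt) p)) = q
    rw [e]
    simp

end Cfsg.Agent.S1598
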