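import Cfsg.Statements.S1599
import Cfsg.Agent.Lib.M24.QuartetOrb

set_option autoImplicit false
open scoped Pointwise
open Cfsg

namespace Cfsg.Agent.S1599

open Cfsg.Agent.Lib.Golay Cfsg.Agent.Lib.M24

/-- A quartet stabiliser has five orbits on the quartets of its dodecad, of sizes 1, 12, 27, 72, 108. -/
theorem result (d : Finset Cfsg.GolayPt) (hd : d ∈ Cfsg.dodecads) (Q : Finset (Finset Cfsg.GolayPt)) (hQ : Q ∈ Cfsg.quartets d) : ∃ X₁ ∈ Cfsg.quartets d, ∃ X₂ ∈ Cfsg.quartets d, ∃ X₃ ∈ Cfsg.quartets d, ∃ X₄ ∈ Cfsg.quartets d, (MulAction.orbit ↥(MulAction.stabilizer Cfsg.M24 d ⊓ MulAction.stabilizer Cfsg.M24 Q) X₁).ncard = 12 ∧ (MulAction.orbit ↥(MulAction.stabilizer Cfsg.M24 d ⊓ MulAction.stabilizer Cfsg.M24 Q) X₂).ncard = 27 ∧ (MulAction.orbit ↥(MulAction.stabilizer Cfsg.M24 d ⊓ MulAction.stabilizer Cfsg.M24 Q) X₃).ncard = 72 ∧ (MulAction.orbit ↥(MulAction.stabilizer Cfsg.M24 d ⊓ MulAction.stabilizer Cfsg.M24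 Q) X₄).ncard = 108 ∧ Cfsg.quartets d = {Q} ∪ MulAction.orbit ↥(MulAction.stabilizer Cfsg.M24 d ⊓ MulAction.stabilizer Cfsg.M24 Q) X₁ ∪ MulAction.orbit ↥(MulAction.stabilizer Cfsg.M24 d ⊓ MulAction.stabilizer Cfsg.M24 Q) X₂ ∪ MulAction.orbit ↥(MulAction.stabilizer Cfsg.M24 d ⊓ MulAction.stabilizer Cfsg.M24 Q) X₃ ∪ MulAction.orbit ↥(MulAction.stabilizer Cfsg.M24 d ⊓ MulAction.stabilizer Cfsg.M24 Q) X₄ := by
  obtain ⟨k, h1, h2⟩ := exists_to_standard hd hQ
  have hk1 : k • d = D0 := h1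
  have hk2 : k • Q = qF q0 := h2
  have hcon : ∀ g : ↥M24, g ∈ (MulAction.stabilizer Cfsg.M24 d ⊓ MulAction.stabilizer Cfsg.M24 Q) ↔ k * g * k⁻¹ ∈ QS := by
    intro g
    rw [Subgroup.mem_inf, QS, Subgroup.mem_inf, conj_mem_stabilizer k g d, conj_mem_stabilizer k g Q, hk1, hk2]
  have hd' : k⁻¹ • D0 = d := by rw [← hk1, inv_smul_smul]
  have hmem : ∀ x, x ∈ quartL → k⁻¹ • qF x ∈ quartets d := by
    intro x hx
    have := quartets_smul (M24.inv_mem k.2) (qF_mem_quartets (allL_spec quartL_ok x hx))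
    have e : ((k : Equiv.Perm GolayPt))⁻¹ • D0 = d := hd'
    rw [e] at this
    exact this
  have hor : ∀ (x : List ℕ) (O : List (List ℕ)), orbClosed x O = true → orbReached x O = true → (∀ y ∈ O, y ∈ quartL) → O.Nodup →
      (MulAction.orbit ↥(MulAction.stabilizer Cfsg.M24 d ⊓ MulAction.stabilizer Cfsg.M24 Q) (k⁻¹ • qF x)) = (fun y => k⁻¹ • y) '' (qF '' {y | y ∈ O}) ∧
      (MulAction.orbit ↥(MulAction.stabilizer Cfsg.M24 d ⊓ MulAction.stabilizer Cfsg.M24 Q) (k⁻¹ • qF x)).ncard = O.length := by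
    intro x O c r s n
    have e := orbit_conj k hcon (qF x)
    rw [orbit_QS_eq c r] at e
    refine ⟨e, ?_⟩
    rw [e, Set.ncard_image_of_injective _ (MulAction.injective k⁻¹), ncard_image_qF s n]
  have hall : quartets d = (fun y => k⁻¹ • y) '' quartets D0 := by
    ext Y
    constructor
    · intro hY
      refine ⟨k • Y, ?_, inv_smul_smul _ _⟩
      have := quartets_smul k.2 hY
      have e : (k : Equiv.Perm GolayPt) • d = D0 := h1
      rw [e] at this
      exact this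
    · rintro ⟨Z, hZ, rfl⟩
      have := quartets_smul (M24.inv_mem k.2) hZ
      have e : ((k : Equiv.Perm GolayPt))⁻¹ • D0 = d := hd'
      rw [e] at this
      exact this
  have hQ0 : k⁻¹ • qF q0 = Q := by
    rw [← hk2, inv_smul_smul]
  obtain ⟨e1, n1⟩ := hor x12 O12 O12_closed O12_reached (sub_quartL O12_sub) O12_nodup
  obtain ⟨e2, n2⟩ := hor x27 O27 O27_closed O27_reached (sub_quartL O27_sub) O27_nodup
  obtain ⟨e3, n3⟩ := hor x72 O72 O72_closed O72_reached (sub_quartL O72_sub) O72_nodup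
  obtain ⟨e4, n4⟩ := hor x108 O108 O108_closed O108_reached (sub_quartL O108_sub) O108_nodup
  refine ⟨_, hmem x12 (sub_quartL O12_sub _ x12_mem), _, hmem x27 (sub_quartL O27_sub _ x27_mem),
    _, hmem x72 (sub_quartL O72_sub _ x72_mem), _, hmem x108 (sub_quartL O108_sub _ x108_mem), ?_, ?_, ?_, ?_, ?_⟩
  · rw [n1, O12_len]
  · rw [n2, O27_len]
  · rw [n3, O72_len]
  · rw [n4, O108_len]
  · rw [e1, e2, e3, e4, hall, quartets_D0_union, Set.image_union, Set.image_union, Set.image_union, Set.image_union,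
      Set.image_singleton, hQ0]

end Cfsg.Agent.S1599
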