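-- S1600: the pointwise stabiliser of three points of a dodecad.
import Cfsg.Statements.S1600
import Cfsg.Agent.Lib.M24.QuartetStab

set_option autoImplicit false
open scoped Pointwise
open Cfsg

namespace Cfsg.Agent.S1600

open Cfsg.Agent.Lib.Golay Cfsg.Agent.Lib.M24 Finset MulAction

def L72 : List (ℕ × ℕ) := [(984818244535754528103549039458486304, 984818244535754528103549039458486304), (338246879765463657442817195771004960, 805552883944964492106277725076031520), (216357873600481717532560151321610272, 216357873600481717532560151321610272), (311078106373901547232964436654393376, 436991226255945814761745799619643424), (479539966697379831563923867680475168, 392568876102998002175655044702111776), (392568876102998002175655044702111776, 479539966697379831563923867680475168), (436991226255945814761745799619643424, 311078106373901547232964436654393376), (805552883944964492106277725076031520, 338246879765463657442817195771004960), (984202951082164080105044112956360736, 984202951082164080105044112956360736), (395231052396955937043977467475429408, 310896599915383769263361441080346656), (437994336898121979848713774716586016,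 479573277807134731044399091104909344), (815807018169703365381427364206118944, 436790225336073819964537553057712160), (152137538079020889563196619858544672, 216393429830494541365950712396875808), (351022968321770538357525358353483808, 392713421077382861182993231568537632), (462618596889474270321192502476048416, 804986384052533597385139112473004064), (314637344290830881350416936435091488, 338008087282750141315950279387613216), (341007105896639020902063516420376608, 484445732753376391532915568446605344), (224017063167896908813317035264280608, 439253913381744880979183220579141664), (402016831818963973964020563772147744, 402016831818963973964020563772147744), (151213739987376044668194079567480864, 358946177892485222462021091088631840), (972848450169392308864318595955656736, 972962623561235543520306723090434080), (436790225336073819964537553057712160, 815807018169703365381427364206118944), (811887524282483938211914395473381408, 225140753951900094494146594711275552), (462862679205840075138467210502309920, 314318192052353841326862679086041120), (401373798565910993051975955326961696, 424090305334608462328166294428944416),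 (976971125888013483762491137029572640, 976787280418045890055396795727841312), (225140753951900094494146594711275552, 811887524282483938211914395473381408), (438024449751195376269399060455360544, 351192755550436417599848577331693600), (477212354950352214118019726449051680, 227839098579723643606454133599799328), (319595757022854200922670435039184928, 319595757022854200922670435039184928), (148160752176346355640010647276881952, 389601229027707208606142622699587616), (804986384052533597385139112473004064, 462618596889474270321192502476048416), (340967999525498005854154095958722592, 340967999525498005854154095958722592), (439253913381744880979183220579141664, 224017063167896908813317035264280608), (227839098579723643606454133599799328, 477212354950352214118019726449051680), (479573277807134731044399091104909344, 437994336898121979848713774716586016), (815866401456463399508152989301114912, 395454678295225898896952154617645088), (320199326913821504630652049782245408, 818657913998318844614870987864115232), (142073426802678255848083659442915360, 309474413308962182501780893172729888), (961079787467313937456055785353414688,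 961327079413966076192995477454915616), (484445732753376391532915568446605344, 341007105896639020902063516420376608), (818051360478547945983202324811941920, 818051360478547945983202324811941920), (151233590047034880754245921341245472, 477070456304851339132614465728251936), (310896599915383769263361441080346656, 395231052396955937043977467475429408), (225279398245326554006175717600331808, 309646858936399084656727045925603360), (351192755550436417599848577331693600, 438024449751195376269399060455360544), (390174742082378470192295854772389920, 223453353708292325573610958588577824), (961327079413966076192995477454915616, 961079787467313937456055785353414688), (223453353708292325573610958588577824, 390174742082378470192295854772389920), (818657913998318844614870987864115232, 320199326913821504630652049782245408), (976787280418045890055396795727841312, 976971125888013483762491137029572640), (358903716781282181988452220828747808, 228002471306192630322376815182186528), (392713421077382861182993231568537632, 351022968321770538357525358353483808), (424043273478140390278561065263794208, 424043273478140390278561065263794208),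 (142185692490274292306689161303525408, 811829253787690324335090097923524640), (314318192052353841326862679086041120, 462862679205840075138467210502309920), (485099595312130825491057440306333728, 485099595312130825491057440306333728), (338008087282750141315950279387613216, 314637344290830881350416936435091488), (228002471306192630322376815182186528, 358903716781282181988452220828747808), (395454678295225898896952154617645088, 815866401456463399508152989301114912), (309646858936399084656727045925603360, 225279398245326554006175717600331808), (972962623561235543520306723090434080, 972848450169392308864318595955656736), (424090305334608462328166294428944416, 401373798565910993051975955326961696), (148489212369660957358880925666609184, 438927970152561242855691151477540896), (438927970152561242855691151477540896, 148489212369660957358880925666609184), (216393429830494541365950712396875808, 152137538079020889563196619858544672), (358946177892485222462021091088631840, 151213739987376044668194079567480864), (309474413308962182501780893172729888, 142073426802678255848083659442915360), (477070456304851339132614465728251936,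 151233590047034880754245921341245472), (152787753589164035962070554553059360, 152787753589164035962070554553059360), (811829253787690324335090097923524640, 142185692490274292306689161303525408), (389601229027707208606142622699587616, 148160752176346355640010647276881952)]

lemma L72_in : allL (genIn [d0, 1, 2, 4]) L72 = true := by decide +kernel

lemma L72_nodup : ((L72.map Prod.fst).map tabKey).Nodup := by decide +kernel

lemma L72_tup : allL (fun i => allL (fun j => Nat.beq i j || L72.any (fun p => Nat.beq (look p.1 0) 0 && Nat.beq (look p.1 1) 1 &&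
    Nat.beq (look p.1 2) 2 && Nat.beq (look p.1 7) i && Nat.beq (look p.1 8) j)) (bitsL (d0 ^^^ 7))) (bitsL (d0 ^^^ 7)) = true := by
  decide +kernel

lemma L72_trans : allL (fun i => allL (fun j => L72.any fun p => Nat.beq (look p.1 i) j) (bitsL (d0 ^^^ fullMask))) (bitsL (d0 ^^^ fullMask)) = true := by
  decide +kernel

/-- The standard subgroup. -/
def K3 : Subgroup ↥M24 :=
  stabilizer M24 D0 ⊓ stabilizer M24 (pt 0) ⊓ stabilizer M24 (pt 1) ⊓ stabilizer M24 (pt 2)

lemma mem_K3 {g : ↥M24} : g ∈ K3 ↔ (g : Equiv.Perm GolayPt) • D0 = D0 ∧ (g : Equiv.Perm GolayPt) (pt 0) = pt 0 ∧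
    (g : Equiv.Perm GolayPt) (pt 1) = pt 1 ∧ (g : Equiv.Perm GolayPt) (pt 2) = pt 2 := by
  simp only [K3, Subgroup.mem_inf, mem_stabilizer_iff, and_assoc]
  rfl

lemma K3_of_list {p : ℕ × ℕ} (hp : p ∈ L72) : ∃ g ∈ K3, Act p.1 (g : Equiv.Perm GolayPt) := by
  obtain ⟨g, ⟨hg1, hg2⟩, hT⟩ := tabIn_of_gens L72_in (mkTab p.1) (List.mem_map.2 ⟨p, hp, rfl⟩)
  have h1 := allL_spec L72_in p hp
  have h1' : (genOK p.1 p.2 && allL (fun m => Nat.beq (pimgT (mkTab p.1) m) m) [d0, 1, 2, 4]) = true := h1
  rw [Bool.and_eq_true] at h1'
  obtain ⟨g', hg', ha, -⟩ := exists_of_genOK h1'.1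
  have hT' := smul_finOf_of_act ha (tabOK_mkTab_of_genOK h1'.1)
  have hg2' : ∀ m ∈ [d0, 1, 2, 4], g' • finOf m = finOf m := fun m hm => by
    rw [hT', Nat.eq_of_beq_eq_true (allL_spec h1'.2 m hm)]
  refine ⟨⟨g', hg'⟩, mem_K3.2 ⟨hg2' d0 (by simp), ?_, ?_, ?_⟩, ha⟩
  · exact apply_eq_of_smul_single (i := 0) (by norm_num) (hg2' 1 (by simp))
  · exact apply_eq_of_smul_single (i := 1) (by norm_num) (hg2' 2 (by simp))
  · exact apply_eq_of_smul_single (i := 2) (by norm_num) (hg2' 4 (by simp))

lemma list_of_K3 {g : ↥M24} (hg : g ∈ K3) : ∃ p ∈ L72, Act p.1 (g : Equiv.Perm GolayPt) := by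
  obtain ⟨h0, h1, h2, h3⟩ := mem_K3.1 hg
  set γ : Equiv.Perm GolayPt := (g : Equiv.Perm GolayPt) with hγ
  have hm : γ ∈ M12B := mem_M12B_iff.2 ⟨g.2, h0⟩
  have hne : ∀ i j : ℕ, i < 24 → j < 24 → i ≠ j → idx (γ (pt i)) ≠ idx (γ (pt j)) := by
    intro i j hi hj hij e
    apply hij
    have := γ.injective (idx_injective e)
    rw [← idx_pt hi, ← idx_pt hj, this]
  have hin : ∀ i, i < 24 → d0.testBit i = true → i ≠ 0 → i ≠ 1 → i ≠ 2 → idx (γ (pt i)) ∈ bitsL (d0 ^^^ 7) := by
    intro i hi hb h00 h01 h02
    refine mem_bitsL.2 ⟨idx_lt _, ?_⟩
    have h5 : γ (pt i) ∈ finOf d0 := by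
      have : γ (pt i) ∈ γ • finOf d0 := (mem_smul_apply γ _ _).2 (pt_mem_finOf hi hb)
      rwa [show γ • finOf d0 = finOf d0 from h0] at this
    rw [Nat.testBit_xor, mem_finOf.1 h5]
    have h6 : ∀ t, t = 0 ∨ t = 1 ∨ t = 2 → (7 : ℕ).testBit t = true := by
      rintro t (rfl | rfl | rfl) <;> decide
    have h7 : (7 : ℕ).testBit (idx (γ (pt i))) = false := by
      have hl := idx_lt (γ (pt i))
      have n0 : idx (γ (pt i)) ≠ 0 := by
        have := hne i 0 hi (by norm_num) h00
        rw [h1, idx_pt (by norm_num)] at this
        exact this
      have n1 : idx (γ (pt i)) ≠ 1 := by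
        have := hne i 1 hi (by norm_num) h01
        rw [h2, idx_pt (by norm_num)] at this
        exact this
      have n2 : idx (γ (pt i)) ≠ 2 := by
        have := hne i 2 hi (by norm_num) h02
        rw [h3, idx_pt (by norm_num)] at this
        exact this
      have key : ∀ t : Fin 24, (t : ℕ) ≠ 0 → (t : ℕ) ≠ 1 → (t : ℕ) ≠ 2 → (7 : ℕ).testBit t = false := by decide
      exact key ⟨_, hl⟩ n0 n1 n2
    rw [h7]
    rfl
  have b := allL_spec (allL_spec L72_tup _ (hin 7 (by norm_num) (by decide) (by norm_num) (by norm_num) (by norm_num))) _
    (hin 8 (by norm_num) (by decide) (by norm_num) (by norm_num) (by norm_num))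
  rw [Bool.or_eq_true] at b
  rcases b with b | b
  · exact absurd (Nat.eq_of_beq_eq_true b) (hne 7 8 (by norm_num) (by norm_num) (by norm_num))
  obtain ⟨p, hp, hpe⟩ := List.any_eq_true.1 b
  simp only [Bool.and_eq_true] at hpe
  obtain ⟨⟨⟨⟨e0, e1⟩, e2⟩, e3⟩, e4⟩ := hpe
  obtain ⟨g', hg', ha⟩ := K3_of_list hp
  have hm' : (g' : Equiv.Perm GolayPt) ∈ M12B := mem_M12B_iff.2 ⟨g'.2, (mem_K3.1 hg').1⟩
  refine ⟨p, hp, act_of_agree_base hm hm' ha ?_ ?_ ?_ (Nat.eq_of_beq_eq_true e3) (Nat.eq_of_beq_eq_true e4)⟩
  · rw [h1, idx_pt (by norm_num)]; exact Nat.eq_of_beq_eq_true e0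
  · rw [h2, idx_pt (by norm_num)]; exact Nat.eq_of_beq_eq_true e1
  · rw [h3, idx_pt (by norm_num)]; exact Nat.eq_of_beq_eq_true e2

theorem card_K3 : Nat.card K3 = 72 := by
  have : Nat.card K3 = (L72.map Prod.fst).length := by
    apply card_of_list
    · intro a ha
      obtain ⟨p, hp, rfl⟩ := List.mem_map.1 ha
      exact K3_of_list hp
    · intro g hg
      obtain ⟨p, hp, h⟩ := list_of_K3 hg
      exact ⟨p.1, List.mem_map.2 ⟨p, hp, rfl⟩, h⟩
    · exact L72_nodup
  rw [this, List.length_map]
  decide +kernel

/-- Moving three points of the standard dodecad to the standard three points. -/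
theorem exists_three_std {a b c : GolayPt} (ha : a ∈ D0) (hb : b ∈ D0) (hc : c ∈ D0) (hab : a ≠ b) (hac : a ≠ c) (hbc : b ≠ c) :
    ∃ g ∈ M24, g • D0 = D0 ∧ g a = pt 0 ∧ g b = pt 1 ∧ g c = pt 2 := by
  classical
  have hcard : 1 < (D0 \ {a, b, c}).card := by
    have h1 : ({a, b, c} : Finset GolayPt) ⊆ D0 := by
      intro x hx
      simp only [mem_insert, mem_singleton] at hx
      rcases hx with rfl | rfl | rfl <;> assumption
    rw [Finset.card_sdiff_of_subset h1, D0_eq, D0_card, Finset.card_eq_three.2 ⟨a, b, c, hab, hac, hbc, rfl⟩]
    norm_num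
  obtain ⟨u, hu, v, hv, huv⟩ := Finset.one_lt_card.1 hcard
  simp only [mem_sdiff, mem_insert, mem_singleton, not_or] at hu hv
  have hp : ∀ i j : ℕ, i < 24 → j < 24 → i ≠ j → pt i ≠ pt j := by
    intro i j hi hj hij e
    apply hij
    rw [← idx_pt hi, ← idx_pt hj, e]
  let X : Fin 5 ↪ GolayPt := ⟨![a, b, c, u, v], inj5 hab hac (Ne.symm hu.2.1) (Ne.symm hv.2.1) hbc (Ne.symm hu.2.2.1) (Ne.symm hv.2.2.1)
    (Ne.symm hu.2.2.2) (Ne.symm hv.2.2.2) huv⟩
  let Y : Fin 5 ↪ GolayPt := ⟨![pt 0, pt 1, pt 2, pt 7, pt 8], by
    apply inj5 <;> (apply hp <;> norm_num)⟩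
  have hX : ∀ i, X i ∈ D0 := fun i => by
    fin_cases i
    · exact ha
    · exact hb
    · exact hc
    · exact hu.1
    · exact hv.1
  have hY : ∀ i, Y i ∈ D0 := fun i => by
    fin_cases i
    · exact pt_mem_finOf (m := d0) (i := 0) (by norm_num) (by decide)
    · exact pt_mem_finOf (m := d0) (i := 1) (by norm_num) (by decide)
    · exact pt_mem_finOf (m := d0) (i := 2) (by norm_num) (by decide)
    · exact pt_mem_finOf (m := d0) (i := 7) (by norm_num) (by decide)
    · exact pt_mem_finOf (m := d0) (i := 8) (by norm_num) (by decide)
  obtain ⟨⟨⟨g, hg⟩, hgs⟩, hgm, -⟩ := dodecad_sharply_five D0_mem X Y hX hY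
  exact ⟨g, hg, mem_stabilizer_iff.1 hgs, hgm 0, hgm 1, hgm 2⟩

/-- The pointwise stabiliser of three points of a dodecad inside the dodecad stabiliser (order 72) is transitive on the complementary dodecad. -/
theorem result (d : Finset Cfsg.GolayPt) (hd : d ∈ Cfsg.dodecads) (p q r : Cfsg.GolayPt) (hp : p ∈ d) (hq : q ∈ d) (hr : r ∈ d) (hpq : p ≠ q) (hpr : p ≠ r) (hqr : q ≠ r) : Nat.card ↥(MulAction.stabilizer Cfsg.M24 d ⊓ MulAction.stabilizer Cfsg.M24 p ⊓ MulAction.stabilizer Cfsg.M24 q ⊓ MulAction.stabilizer Cfsg.M24 r) = 72 ∧ ∀ x ∉ d, ∀ y ∉ d, ∃ g ∈ (MulAction.stabilizer Cfsg.M24 d ⊓ MulAction.stabilizer Cfsg.M24 p ⊓ MulAction.stabilizer Cfsg.M24 q ⊓ MulAction.stabilizer Cfsg.M24 r), ((g : ↥Cfsg.M24) : Equiv.Perm Cfsg.GolayPt) x = y := by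
  obtain ⟨k0, hk0, h0⟩ := dodecad_transitive hd D0_mem
  have inD : ∀ {x}, x ∈ d → k0 x ∈ D0 := fun {x} hx => by
    rw [← h0]; exact (mem_smul_apply _ _ _).2 hx
  obtain ⟨g, hg, h1, h2, h3, h4⟩ := exists_three_std (inD hp) (inD hq) (inD hr)
    (fun e => hpq (k0.injective e)) (fun e => hpr (k0.injective e)) (fun e => hqr (k0.injective e))
  let k : ↥M24 := ⟨g * k0, M24.mul_mem hg hk0⟩
  have e0 : k • d = D0 := by
    show (g * k0) • d = D0
    rw [mul_smul, h0, h1]
  have e1 : k • p = pt 0 := h2
  have e2 : k • q = pt 1 := h3
  have e3 : k • r = pt 2 := h4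
  have hcon : ∀ γ : ↥M24, γ ∈ (MulAction.stabilizer Cfsg.M24 d ⊓ MulAction.stabilizer Cfsg.M24 p ⊓ MulAction.stabilizer Cfsg.M24 q ⊓ MulAction.stabilizer Cfsg.M24 r) ↔ k * γ * k⁻¹ ∈ K3 := by
    intro γ
    simp only [K3, Subgroup.mem_inf]
    rw [conj_mem_stabilizer k γ d, conj_mem_stabilizer k γ p, conj_mem_stabilizer k γ q, conj_mem_stabilizer k γ r, e0, e1, e2, e3]
  let E := conjEquivOfIff k hcon
  refine ⟨by rw [Nat.card_congr E.toEquiv, card_K3], ?_⟩
  intro x hx y hy
  have out : ∀ {z}, z ∉ d → idx ((k : Equiv.Perm GolayPt) z) ∈ bitsL (d0 ^^^ fullMask) := fun {z} hz => by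
    have h5 : (k : Equiv.Perm GolayPt) z ∉ finOf d0 := by
      intro h6
      apply hz
      have h7 : (k : Equiv.Perm GolayPt) • d = finOf d0 := e0
      rw [← h7] at h6
      exact (mem_smul_apply _ _ _).1 h6
    apply idx_mem_bitsL
    rw [← compl_finOf, Finset.mem_compl]
    exact h5
  have h5 := allL_spec (allL_spec L72_trans _ (out hx)) _ (out hy)
  obtain ⟨l, hl, e⟩ := List.any_eq_true.1 h5
  obtain ⟨γ, hγ, ha⟩ := K3_of_list hl
  refine ⟨E.symm ⟨γ, hγ⟩, (E.symm ⟨γ, hγ⟩).2, ?_⟩
  show (k : Equiv.Perm GolayPt)⁻¹ ((γ : Equiv.Perm GolayPt) ((k : Equiv.Perm GolayPt) x)) = y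
  have h6 : (γ : Equiv.Perm GolayPt) ((k : Equiv.Perm GolayPt) x) = (k : Equiv.Perm GolayPt) y := by
    apply idx_injective
    rw [ha, Nat.eq_of_beq_eq_true e]
  rw [h6]
  simp

end Cfsg.Agent.S1600
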