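-- S1601: the point stabiliser of the smallest Mathieu group on the twelve points is PSL(2, 11).
import Cfsg.Statements.S1601
import Cfsg.Agent.Lib.M24.M11Data660
import Cfsg.Agent.Lib.PslRec.Instances

set_option autoImplicit false
open scoped Pointwise
open Cfsg

namespace Cfsg.Agent.S1601

open Cfsg.Agent.Lib.Golay Cfsg.Agent.Lib.M24 Finset MulAction

abbrev H660 : Subgroup (Equiv.Perm GolayPt) := SM [d0, 1, 16]

lemma hL : ∀ p ∈ L660, ∃ g ∈ H660, Act p.1 g ∧ Act p.2 g⁻¹ := fun p hp => exists_of_genIn (allL_spec L660_in p hp)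

lemma pt0_mem : pt 0 ∈ D0 := pt_mem_finOf (m := d0) (i := 0) (by norm_num) (by decide)

lemma pt4_not : pt 4 ∉ D0 := by
  intro h5
  have := mem_finOf.1 h5
  rw [idx_pt (by norm_num)] at this
  exact absurd this (by decide)

lemma conj_iff {d : Finset GolayPt} {p q : GolayPt} {k : ↥M24} (h1 : (k : Equiv.Perm GolayPt) • d = D0)
    (h2 : (k : Equiv.Perm GolayPt) p = pt 0) (h3 : (k : Equiv.Perm GolayPt) q = pt 4) (g : ↥M24) :
    g ∈ stabilizer M24 d ⊓ stabilizer M24 p ⊓ stabilizer M24 q ↔ ((k * g * k⁻¹ : ↥M24) : Equiv.Perm GolayPt) ∈ H660 := by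
  have e1 : k • d = finOf d0 := h1
  have e2 : k • p = pt 0 := h2
  have e3 : k • q = pt 4 := h3
  rw [Subgroup.mem_inf, Subgroup.mem_inf, conj_mem_stabilizer k g d, conj_mem_stabilizer k g p,
    conj_mem_stabilizer k g q, e1, e2, e3, mem_stab_mask, mem_stab_point (i := 0) (by norm_num),
    mem_stab_point (i := 4) (by norm_num), mem_SM]
  simp only [List.mem_cons, List.not_mem_nil, or_false, forall_eq_or_imp, forall_eq]
  constructor
  · rintro ⟨⟨h4, h5⟩, h6⟩
    exact ⟨(k * g * k⁻¹ : ↥M24).2, h4, h5, h6⟩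
  · rintro ⟨-, h4, h5, h6⟩
    exact ⟨⟨h4, h5⟩, h6⟩

theorem card_H660 : Nat.card H660 = 660 := by
  have e := toSM (l := [d0, 1, 16]) (K := stabilizer M24 D0 ⊓ stabilizer M24 (pt 0) ⊓ stabilizer M24 (pt 4)) 1
    (conj_iff (k := 1) (one_smul _ _) rfl rfl)
  rw [← Nat.card_congr e.toEquiv]
  exact card_M11_out D0_mem pt0_mem pt4_not

theorem hC : ∀ g ∈ H660, ∃ p ∈ L660, Act p.1 g :=
  list_complete (fun p hp => (hL p hp).imp fun _ h => ⟨h.1, h.2.1⟩) (nodup_of_ascL L660_asc) (by rw [card_H660, L660_len])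

theorem perfect : commutator H660 = ⊤ :=
  perfect_of_list hL hC L660_comm (by rw [L660_len, W660_len])

lemma mem_Y {a : GolayPt} : a ∈ ((D0.erase (pt 0) : Finset GolayPt) : Set GolayPt) ↔ a ∈ D0 ∧ a ≠ pt 0 := by
  rw [Finset.mem_coe, Finset.mem_erase]
  exact and_comm

lemma D0_smul {g : Equiv.Perm GolayPt} (hg : g ∈ H660) : g • D0 = D0 := hg.2 d0 (by simp)

lemma fix0 {g : Equiv.Perm GolayPt} (hg : g ∈ H660) : g (pt 0) = pt 0 :=
  apply_eq_of_smul_single (i := 0) (by norm_num) (hg.2 1 (by simp))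

theorem isSimple : IsSimpleGroup H660 := by
  have hYc : ((D0.erase (pt 0) : Finset GolayPt) : Set GolayPt).ncard = 11 := by
    rw [Set.ncard_coe_finset, Finset.card_erase_of_mem pt0_mem, show D0 = finOf d0 from rfl, D0_card]
  have hinD : ∀ {g : Equiv.Perm GolayPt}, g ∈ H660 → ∀ {y}, y ∈ D0 → g y ∈ D0 := by
    intro g hg y hy
    rw [← D0_smul hg]
    exact (mem_smul_apply _ _ _).2 hy
  apply simple_of_prime_degree_perm H660 ((D0.erase (pt 0) : Finset GolayPt) : Set GolayPt)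
  · intro g hg y hy
    obtain ⟨h1, h2⟩ := mem_Y.1 hy
    refine mem_Y.2 ⟨hinD hg h1, fun e => h2 (g.injective (e.trans (fix0 hg).symm))⟩
  · intro g hg hfix
    have key : ∀ i, i < 24 → d0.testBit i = true → i ≠ 0 → g (pt i) = pt i := by
      intro i hi hb h0
      apply hfix
      refine mem_Y.2 ⟨pt_mem_finOf hi hb, ?_⟩
      intro e
      apply h0
      rw [← idx_pt hi, e]
      exact idx_pt (by norm_num)
    exact eq_one_of_fix_base (mem_M12B_of_SM (by simp) hg) (fix0 hg)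
      (key 1 (by norm_num) (by decide) (by norm_num)) (key 2 (by norm_num) (by decide) (by norm_num))
      (key 7 (by norm_num) (by decide) (by norm_num)) (key 8 (by norm_num) (by decide) (by norm_num))
  · intro a ha b hb
    have hin : ∀ {c : GolayPt}, c ∈ ((D0.erase (pt 0) : Finset GolayPt) : Set GolayPt) → idx c ∈ bitsL (d0 ^^^ 1) := by
      intro c hc
      obtain ⟨h1, h2⟩ := mem_Y.1 hc
      apply idx_mem_bitsL
      rw [Cfsg.Agent.Lib.M24.finOf_xor, Finset.mem_symmDiff]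
      left
      refine ⟨h1, ?_⟩
      have e : finOf 1 = {pt 0} := mem_fixed_iff_single 0 (by norm_num)
      rw [e, Finset.mem_singleton]
      exact h2
    have h5 := allL_spec (allL_spec L660_trans _ (hin ha)) _ (hin hb)
    obtain ⟨l, hl, e⟩ := List.any_eq_true.1 h5
    obtain ⟨γ, hγ, h1, -⟩ := hL l hl
    refine ⟨γ, hγ, ?_⟩
    apply idx_injective
    rw [h1, Nat.eq_of_beq_eq_true e]
  · rw [hYc]; norm_num
  · rw [hYc, card_H660]; norm_num
  · exact perfect
  · exact Finite.one_lt_card_iff_nontrivial.1 (by rw [card_H660]; norm_num)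

/-- In the 3-transitive action of the smallest Mathieu group on the complementary dodecad, a point stabiliser is isomorphic to PSL(2, 11). -/
theorem result (d : Finset Cfsg.GolayPt) (hd : d ∈ Cfsg.dodecads) (p q : Cfsg.GolayPt) (hp : p ∈ d) (hq : q ∉ d) : Nonempty (↥(MulAction.stabilizer Cfsg.M24 d ⊓ MulAction.stabilizer Cfsg.M24 p ⊓ MulAction.stabilizer Cfsg.M24 q) ≃* Matrix.ProjectiveSpecialLinearGroup (Fin 2) (ZMod 11)) := by
  obtain ⟨k, h1, h2, h3⟩ := exists_std_in_out hd hp hq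
  have := isSimple
  obtain ⟨e⟩ := Cfsg.Agent.Lib.PslRec.psl_rec_11 card_H660
  exact ⟨(toSM k (conj_iff h1 h2 h3)).trans e⟩

end Cfsg.Agent.S1601
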