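-- S1604: the hexad stabiliser in the two-point stabiliser.
import Cfsg.Statements.S1604
import Cfsg.Agent.Lib.M24.Flags

set_option autoImplicit false
open scoped Pointwise
open Cfsg

namespace Cfsg.Agent.S1604

open Cfsg.Agent.Lib.Golay Cfsg.Agent.Lib.M24 Finset

def gensP4 : List (ℕ × ℕ) := [(559861123818067711746655341538057248, 397763740338643845733969755949636640), (629830440038302878450977401639872544, 714324418011970836895759906192362528)]

def repsP4 : List (ℕ × ℕ) := [(2, 352547), (4, 18147), (8, 5279)]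

lemma gens_ok : allL (genIn [o0, 1, 2]) gensP4 = true := by decide +kernel

lemma class_ok : classCheck pimgT (tabsOf gensP4) clO repsP4 (octCfg 3 0) = true := by decide +kernel

lemma count2 : countL clO 2 (octCfg 3 0) = 16 := by decide +kernel

lemma count4 : countL clO 4 (octCfg 3 0) = 60 := by decide +kernel

lemma pt0_mem : pt 0 ∈ finOf o0 := by
  rw [mem_finOf, idx_pt (by norm_num)]
  decide

lemma pt1_mem : pt 1 ∈ finOf o0 := by
  rw [mem_finOf, idx_pt (by norm_num)]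
  decide

lemma pt01_ne : pt 0 ≠ pt 1 := by decide

lemma pts_iff (t : Finset GolayPt) : finOf 3 ⊆ t ↔ pt 0 ∈ t ∧ pt 1 ∈ t := by
  have e : (3 : ℕ) = 2 ^ 0 ||| 2 ^ 1 := rfl
  rw [e, finOf_or, union_subset_iff, finOf_two_pow_subset_iff (by norm_num),
    finOf_two_pow_subset_iff (by norm_num)]

lemma count_std (v n : ℕ) (hc : countL clO v (octCfg 3 0) = n) :
    {t : Finset GolayPt | t ∈ octads ∧ pt 0 ∈ t ∧ pt 1 ∈ t ∧ (finOf o0 ∩ t).card = v}.ncard = n := by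
  apply ncard_octCfg (by norm_num) (by norm_num) clO hc
  · exact fun s hs => hs.1
  · intro m hm
    simp only [Set.mem_ofPred_eq, pts_iff, card_inter_O0, disjoint_finOf_zero, true_and]
    constructor
    · rintro ⟨_, h1, h2, h3⟩
      exact ⟨⟨h1, h2⟩, h3⟩
    · rintro ⟨⟨h1, h2⟩, h3⟩
      exact ⟨(mem_octads_iff _).2 ⟨m, hm, rfl⟩, h1, h2, h3⟩

/-- A hexad stabiliser in the two-point stabiliser has orbits of sizes 1, 16, 60 on the 77 hexads: the 16 hexads disjoint from it and the 60 meeting it in two points. -/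
theorem result (p q : Cfsg.GolayPt) (hpq : p ≠ q) (o o' o'' : Finset Cfsg.GolayPt) (ho : o ∈ Cfsg.octads) (ho' : o' ∈ Cfsg.octads) (ho'' : o'' ∈ Cfsg.octads) (hp : p ∈ o ∧ p ∈ o' ∧ p ∈ o'') (hq : q ∈ o ∧ q ∈ o' ∧ q ∈ o'') (h : (o ∩ o').card = (o ∩ o'').card) : {x : Finset Cfsg.GolayPt | x ∈ Cfsg.octads ∧ p ∈ x ∧ q ∈ x ∧ (o ∩ x).card = 2}.ncard = 16 ∧ {x : Finset Cfsg.GolayPt | x ∈ Cfsg.octads ∧ p ∈ x ∧ q ∈ x ∧ (o ∩ x).card = 4}.ncard = 60 ∧ ∃ g : Equiv.Perm Cfsg.GolayPt, g ∈ Cfsg.M24 ∧ g p = p ∧ g q = q ∧ g • o = o ∧ g • o' = o'' := by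
  obtain ⟨k, hk, hko, hkp, hkq⟩ := exists_octad_two_points ho O0_mem hp.1 hq.1 pt0_mem pt1_mem hpq pt01_ne
  have key : ∀ t v, (t ∈ octads ∧ p ∈ t ∧ q ∈ t ∧ (o ∩ t).card = v) ↔
      (k • t ∈ octads ∧ pt 0 ∈ k • t ∧ pt 1 ∈ k • t ∧ (finOf o0 ∩ k • t).card = v) := by
    intro t v
    rw [octad_smul_iff hk, ← hkp, ← hkq, mem_smul_apply, mem_smul_apply, ← hko, inter_smul_card]
  refine ⟨?_, ?_, ?_⟩
  · rw [ncard_transport k (Q := fun t => t ∈ octads ∧ pt 0 ∈ t ∧ pt 1 ∈ t ∧ (finOf o0 ∩ t).card = 2) (fun t => key t 2)]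
    exact count_std 2 16 count2
  · rw [ncard_transport k (Q := fun t => t ∈ octads ∧ pt 0 ∈ t ∧ pt 1 ∈ t ∧ (finOf o0 ∩ t).card = 4) (fun t => key t 4)]
    exact count_std 4 60 count4
  · have k1 := (key o' _).1 ⟨ho', hp.2.1, hq.2.1, rfl⟩
    have k2 := (key o'' _).1 ⟨ho'', hp.2.2, hq.2.2, rfl⟩
    obtain ⟨m1, hm1, e1⟩ := (mem_octads_iff _).1 k1.1
    obtain ⟨m2, hm2, e2⟩ := (mem_octads_iff _).1 k2.1
    have hm1' : m1 ∈ octCfg 3 0 := (mem_octCfg (by norm_num) (by norm_num)).2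
      ⟨hm1, by rw [pts_iff, ← e1]; exact ⟨k1.2.1, k1.2.2.1⟩, disjoint_finOf_zero _⟩
    have hm2' : m2 ∈ octCfg 3 0 := (mem_octCfg (by norm_num) (by norm_num)).2
      ⟨hm2, by rw [pts_iff, ← e2]; exact ⟨k2.2.1, k2.2.2.1⟩, disjoint_finOf_zero _⟩
    have hcl : clO m1 = clO m2 := by
      rw [← card_inter_O0, ← card_inter_O0, ← e1, ← e2, k1.2.2.2, k2.2.2.2, h]
    obtain ⟨g, hg, hg'⟩ := reach_of_classCheck (tabIn_of_gens gens_ok) class_ok hm1' hm2' hcl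
    obtain ⟨hg1, hg2⟩ := mem_SM.1 hg
    have hg3 := hg2 o0 (by simp)
    have hg4 : g (pt 0) = pt 0 := by
      apply apply_eq_of_smul_single (by norm_num)
      simpa using hg2 1 (by simp)
    have hg5 : g (pt 1) = pt 1 := by
      apply apply_eq_of_smul_single (by norm_num)
      simpa using hg2 2 (by simp)
    refine ⟨k⁻¹ * g * k, M24.mul_mem (M24.mul_mem (M24.inv_mem hk) hg1) hk, ?_, ?_, ?_, ?_⟩
    · change k⁻¹ (g (k p)) = p
      rw [hkp, hg4, Equiv.Perm.inv_eq_iff_eq, hkp]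
    · change k⁻¹ (g (k q)) = q
      rw [hkq, hg5, Equiv.Perm.inv_eq_iff_eq, hkq]
    · rw [mul_smul, mul_smul, hko, hg3, inv_smul_eq_iff, hko]
    · rw [mul_smul, mul_smul, e1, hg', inv_smul_eq_iff, e2]

end Cfsg.Agent.S1604
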