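-- S1605: the two-point stabiliser on the 176 octads.
import Cfsg.Statements.S1605
import Cfsg.Agent.Lib.M24.Flags

set_option autoImplicit false
open scoped Pointwise
open Cfsg

namespace Cfsg.Agent.S1605

open Cfsg.Agent.Lib.Golay Cfsg.Agent.Lib.M24 Finset

def gensP5a : List (ℕ × ℕ) := [(51207127692154277546870703747978304, 543997692317338465766193274733037280), (65331353531921689440592949377374880, 510192949662593323976405535436615392)]

def repsP5a : List (ℕ × ℕ) := [(0, 5279)]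

def gensP5b : List (ℕ × ℕ) := [(797491091319823760865494596808970560, 350005588281306878376196526854744192), (631531666190756661555686399604393088, 602655562638420928513831965251940416)]

def repsP5b : List (ℕ × ℕ) := [(2, 175681), (4, 39257), (8, 5279)]

lemma gensa_ok : allL (genIn [1, 32]) gensP5a = true := by decide +kernel

lemma gensb_ok : allL (genIn [o0, 1, 32]) gensP5b = true := by decide +kernel

lemma classa_ok : classCheck pimgT (tabsOf gensP5a) (fun _ => 0) repsP5a (octCfg 1 32) = true := by decide +kernel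

lemma classb_ok : classCheck pimgT (tabsOf gensP5b) clO repsP5b (octCfg 1 32) = true := by decide +kernel

lemma count_all : countL (fun _ => 0) 0 (octCfg 1 32) = 176 := by decide +kernel

lemma count2 : countL clO 2 (octCfg 1 32) = 70 := by decide +kernel

lemma count4 : countL clO 4 (octCfg 1 32) = 105 := by decide +kernel

lemma pt0_ne : pt 0 ≠ pt 5 := by decide

lemma pt0_iff (t : Finset GolayPt) : finOf 1 ⊆ t ↔ pt 0 ∈ t :=
  finOf_two_pow_subset_iff (a := 0) (by norm_num) t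

lemma pt5_iff (t : Finset GolayPt) : Disjoint (finOf 32) t ↔ pt 5 ∉ t :=
  finOf_two_pow_disjoint_iff (a := 5) (by norm_num) t

lemma mem_U {m : ℕ} (hm : m ∈ octadL) (h1 : pt 0 ∈ finOf m) (h2 : pt 5 ∉ finOf m) : m ∈ octCfg 1 32 :=
  (mem_octCfg (by norm_num) (by norm_num)).2 ⟨hm, (pt0_iff _).2 h1, (pt5_iff _).2 h2⟩

lemma o0_U : o0 ∈ octCfg 1 32 := by
  refine mem_U o0_mem ?_ ?_
  · rw [mem_finOf, idx_pt (by norm_num)]
    decide
  · rw [mem_finOf, idx_pt (by norm_num)]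
    decide

lemma count_std_all : {t : Finset GolayPt | t ∈ octads ∧ pt 0 ∈ t ∧ pt 5 ∉ t}.ncard = 176 := by
  apply ncard_octCfg (v := 0) (by norm_num) (by norm_num) (fun _ => 0) count_all
  · exact fun s hs => hs.1
  · intro m hm
    simp only [Set.mem_ofPred_eq, pt0_iff, pt5_iff, and_true]
    exact ⟨fun h => h.2, fun h => ⟨(mem_octads_iff _).2 ⟨m, hm, rfl⟩, h⟩⟩

lemma count_std (v n : ℕ) (hc : countL clO v (octCfg 1 32) = n) :
    {t : Finset GolayPt | (t ∈ octads ∧ pt 0 ∈ t ∧ pt 5 ∉ t) ∧ (finOf o0 ∩ t).card = v}.ncard = n := by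
  apply ncard_octCfg (by norm_num) (by norm_num) clO hc
  · exact fun s hs => hs.1.1
  · intro m hm
    simp only [Set.mem_ofPred_eq, pt0_iff, pt5_iff, card_inter_O0]
    constructor
    · rintro ⟨⟨_, h1, h2⟩, h3⟩
      exact ⟨h1, h2, h3⟩
    · rintro ⟨h1, h2, h3⟩
      exact ⟨⟨(mem_octads_iff _).2 ⟨m, hm, rfl⟩, h1, h2⟩, h3⟩

/-- Standard form of the two-point transitivity. -/
lemma std_trans {s s' : Finset GolayPt} (hs : s ∈ octads ∧ pt 0 ∈ s ∧ pt 5 ∉ s)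
    (hs' : s' ∈ octads ∧ pt 0 ∈ s' ∧ pt 5 ∉ s') : ∃ g ∈ SM [1, 32], g • s = s' := by
  obtain ⟨m, hm, rfl⟩ := (mem_octads_iff _).1 hs.1
  obtain ⟨m', hm', rfl⟩ := (mem_octads_iff _).1 hs'.1
  exact reach_of_classCheck (tabIn_of_gens gensa_ok) classa_ok (mem_U hm hs.2.1 hs.2.2)
    (mem_U hm' hs'.2.1 hs'.2.2) rfl

lemma fix0 {g : Equiv.Perm GolayPt} {l : List ℕ} (hg : g ∈ SM l) (h : (1 : ℕ) ∈ l) : g (pt 0) = pt 0 := by
  apply apply_eq_of_smul_single (by norm_num)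
  simpa using (mem_SM.1 hg).2 1 h

lemma fix5 {g : Equiv.Perm GolayPt} {l : List ℕ} (hg : g ∈ SM l) (h : (32 : ℕ) ∈ l) : g (pt 5) = pt 5 := by
  apply apply_eq_of_smul_single (by norm_num)
  have := (mem_SM.1 hg).2 32 h
  exact this

/-- The two-point stabiliser acts on the 176 octads through the first point avoiding the second with rank 3 and subdegrees 1, 70, 105 (intersections 8, 2, 4). -/
theorem result (p q : Cfsg.GolayPt) (hpq : p ≠ q) : {x : Finset Cfsg.GolayPt | (x ∈ Cfsg.octads ∧ p ∈ x ∧ q ∉ x)}.ncard = 176 ∧ (∀ o o' : Finset Cfsg.GolayPt, (o ∈ Cfsg.octads ∧ p ∈ o ∧ q ∉ o) → (o' ∈ Cfsg.octads ∧ p ∈ o' ∧ q ∉ o') → ∃ g : Equiv.Perm Cfsg.GolayPt, g ∈ Cfsg.M24 ∧ g p = p ∧ g q = q ∧ g • o = o') ∧ ∀ o : Finset Cfsg.GolayPt, (o ∈ Cfsg.octads ∧ p ∈ o ∧ q ∉ o) → {x : Finset Cfsg.GolayPt | (x ∈ Cfsg.octads ∧ p ∈ x ∧ q ∉ x) ∧ (o ∩ x).card = 2}.ncard = 70 ∧ {x : Finset Cfsg.GolayPt | (x ∈ Cfsg.octads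 ∧ p ∈ x ∧ q ∉ x) ∧ (o ∩ x).card = 4}.ncard = 105 ∧ ∀ o' o'' : Finset Cfsg.GolayPt, (o' ∈ Cfsg.octads ∧ p ∈ o' ∧ q ∉ o') → (o'' ∈ Cfsg.octads ∧ p ∈ o'' ∧ q ∉ o'') → (o ∩ o').card = (o ∩ o'').card → ∃ g : Equiv.Perm Cfsg.GolayPt, g ∈ Cfsg.M24 ∧ g p = p ∧ g q = q ∧ g • o = o ∧ g • o' = o'' := by
  obtain ⟨k, hk, hkp, hkq⟩ := exists_two_points hpq pt0_ne
  have key0 : ∀ t, (t ∈ octads ∧ p ∈ t ∧ q ∉ t) ↔ (k • t ∈ octads ∧ pt 0 ∈ k • t ∧ pt 5 ∉ k • t) := by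
    intro t
    rw [octad_smul_iff hk, ← hkp, ← hkq, mem_smul_apply, mem_smul_apply]
  have h0 : {x : Finset GolayPt | (x ∈ octads ∧ p ∈ x ∧ q ∉ x)}.ncard = 176 := by
    rw [ncard_transport k (Q := fun t => t ∈ octads ∧ pt 0 ∈ t ∧ pt 5 ∉ t) key0]
    exact count_std_all
  refine ⟨h0, ?_, ?_⟩
  · intro o o' ho ho'
    obtain ⟨g, hg, hg'⟩ := std_trans ((key0 o).1 ho) ((key0 o').1 ho')
    have hg1 := (mem_SM.1 hg).1
    refine ⟨k⁻¹ * g * k, M24.mul_mem (M24.mul_mem (M24.inv_mem hk) hg1) hk, ?_, ?_, ?_⟩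
    · change k⁻¹ (g (k p)) = p
      rw [hkp, fix0 hg (by simp), Equiv.Perm.inv_eq_iff_eq, hkp]
    · change k⁻¹ (g (k q)) = q
      rw [hkq, fix5 hg (by simp), Equiv.Perm.inv_eq_iff_eq, hkq]
    · rw [mul_smul, mul_smul, hg', inv_smul_smul]
  · intro o ho
    have hO : finOf o0 ∈ octads ∧ pt 0 ∈ finOf o0 ∧ pt 5 ∉ finOf o0 := by
      refine ⟨O0_mem, ?_, ?_⟩
      · rw [mem_finOf, idx_pt (by norm_num)]
        decide
      · rw [mem_finOf, idx_pt (by norm_num)]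
        decide
    obtain ⟨g1, hg1, hg1'⟩ := std_trans ((key0 o).1 ho) hO
    have hg1M := (mem_SM.1 hg1).1
    set h := g1 * k with hh
    have hhM : h ∈ M24 := M24.mul_mem hg1M hk
    have hho : h • o = finOf o0 := by rw [hh, mul_smul]; exact hg1'
    have hhp : h p = pt 0 := by
      change g1 (k p) = pt 0
      rw [hkp, fix0 hg1 (by simp)]
    have hhq : h q = pt 5 := by
      change g1 (k q) = pt 5
      rw [hkq, fix5 hg1 (by simp)]
    have key : ∀ t v, ((t ∈ octads ∧ p ∈ t ∧ q ∉ t) ∧ (o ∩ t).card = v) ↔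
        ((h • t ∈ octads ∧ pt 0 ∈ h • t ∧ pt 5 ∉ h • t) ∧ (finOf o0 ∩ h • t).card = v) := by
      intro t v
      rw [octad_smul_iff hhM, ← hhp, ← hhq, mem_smul_apply, mem_smul_apply, ← hho, inter_smul_card]
    refine ⟨?_, ?_, ?_⟩
    · rw [ncard_transport h (Q := fun t => (t ∈ octads ∧ pt 0 ∈ t ∧ pt 5 ∉ t) ∧ (finOf o0 ∩ t).card = 2) (fun t => key t 2)]
      exact count_std 2 70 count2
    · rw [ncard_transport h (Q := fun t => (t ∈ octads ∧ pt 0 ∈ t ∧ pt 5 ∉ t) ∧ (finOf o0 ∩ t).card = 4) (fun t => key t 4)]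
      exact count_std 4 105 count4
    · intro o' o'' ho' ho'' hc
      have k1 := (key o' _).1 ⟨ho', rfl⟩
      have k2 := (key o'' _).1 ⟨ho'', rfl⟩
      obtain ⟨m1, hm1, e1⟩ := (mem_octads_iff _).1 k1.1.1
      obtain ⟨m2, hm2, e2⟩ := (mem_octads_iff _).1 k2.1.1
      have hm1' : m1 ∈ octCfg 1 32 := mem_U hm1 (e1 ▸ k1.1.2.1) (e1 ▸ k1.1.2.2)
      have hm2' : m2 ∈ octCfg 1 32 := mem_U hm2 (e2 ▸ k2.1.2.1) (e2 ▸ k2.1.2.2)
      have hcl : clO m1 = clO m2 := by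
        rw [← card_inter_O0, ← card_inter_O0, ← e1, ← e2, k1.2, k2.2, hc]
      obtain ⟨g, hg, hg'⟩ := reach_of_classCheck (tabIn_of_gens gensb_ok) classb_ok hm1' hm2' hcl
      obtain ⟨hgM, hg2⟩ := mem_SM.1 hg
      have hg3 := hg2 o0 (by simp)
      refine ⟨h⁻¹ * g * h, M24.mul_mem (M24.mul_mem (M24.inv_mem hhM) hgM) hhM, ?_, ?_, ?_, ?_⟩
      · change h⁻¹ (g (h p)) = p
        rw [hhp, fix0 hg (by simp), Equiv.Perm.inv_eq_iff_eq, hhp]
      · change h⁻¹ (g (h q)) = q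
        rw [hhq, fix5 hg (by simp), Equiv.Perm.inv_eq_iff_eq, hhq]
      · rw [mul_smul, mul_smul, hho, hg3, inv_smul_eq_iff, hho]
      · rw [mul_smul, mul_smul, e1, hg', inv_smul_eq_iff, e2]

end Cfsg.Agent.S1605
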