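-- S1607: the point stabiliser on the heptads.
import Cfsg.Statements.S1607
import Cfsg.Agent.Lib.M24.Flags

set_option autoImplicit false
open scoped Pointwise
open Cfsg

namespace Cfsg.Agent.S1607

open Cfsg.Agent.Lib.Golay Cfsg.Agent.Lib.M24 Finset

def gensP7 : List (ℕ × ℕ) := [(610434002763867660555010672980764736, 278013894409078344230654927110767936), (764835372221438159431523851491750112, 801262205895469659075583184442036608)]

def repsP7 : List (ℕ × ℕ) := [(2, 52005), (4, 15777), (8, 5279)]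

lemma gens_ok : allL (genIn [o0, 1]) gensP7 = true := by decide +kernel

lemma class_ok : classCheck pimgT (tabsOf gensP7) clO repsP7 (octCfg 1 0) = true := by decide +kernel

lemma count2 : countL clO 2 (octCfg 1 0) = 112 := by decide +kernel

lemma count4 : countL clO 4 (octCfg 1 0) = 140 := by decide +kernel

lemma pt0_mem : pt 0 ∈ finOf o0 := by
  rw [mem_finOf, idx_pt (by norm_num)]
  decide

lemma pt0_iff (t : Finset GolayPt) : finOf 1 ⊆ t ↔ pt 0 ∈ t := by
  have := mem_fixed_iff_single 0 (by norm_num)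
  rw [pow_zero] at this
  rw [this, singleton_subset_iff]

lemma disj0 (t : Finset GolayPt) : Disjoint (finOf 0) t := by
  have h0 : finOf 0 = ∅ := by
    ext p
    simp [mem_finOf]
  rw [h0]
  exact disjoint_empty_left _

lemma count_std (v n : ℕ) (hc : countL clO v (octCfg 1 0) = n) :
    {t : Finset GolayPt | t ∈ octads ∧ pt 0 ∈ t ∧ (finOf o0 ∩ t).card = v}.ncard = n := by
  apply ncard_octCfg (by norm_num) (by norm_num) clO hc
  · exact fun s hs => hs.1
  · intro m hm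
    simp only [Set.mem_ofPred_eq, pt0_iff, disj0, true_and, card_inter_O0]
    exact ⟨fun h => h.2, fun h => ⟨(mem_octads_iff _).2 ⟨m, hm, rfl⟩, h⟩⟩

/-- The point stabiliser acts on the 253 heptads of its S(4, 7, 23) with rank 3 and subdegrees 1, 112, 140 (intersections 8, 2, 4). -/
theorem result (x : Cfsg.GolayPt) (o : Finset Cfsg.GolayPt) (ho : o ∈ Cfsg.octads) (hx : x ∈ o) : {o' : Finset Cfsg.GolayPt | o' ∈ Cfsg.octads ∧ x ∈ o' ∧ (o ∩ o').card = 2}.ncard = 112 ∧ {o' : Finset Cfsg.GolayPt | o' ∈ Cfsg.octads ∧ x ∈ o' ∧ (o ∩ o').card = 4}.ncard = 140 ∧ ∀ o' o'' : Finset Cfsg.GolayPt, o' ∈ Cfsg.octads → o'' ∈ Cfsg.octads → x ∈ o' → x ∈ o'' → (o ∩ o').card = (o ∩ o'').card → ∃ g : Equiv.Perm Cfsg.GolayPt, g ∈ Cfsg.M24 ∧ g x = x ∧ g • o = o ∧ g • o' = o'' := by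
  obtain ⟨h, hh, hho, hhx⟩ := exists_octad_point ho O0_mem hx pt0_mem
  have key : ∀ t v, (t ∈ octads ∧ x ∈ t ∧ (o ∩ t).card = v) ↔
      (h • t ∈ octads ∧ pt 0 ∈ h • t ∧ (finOf o0 ∩ h • t).card = v) := by
    intro t v
    rw [octad_smul_iff hh, ← hhx, mem_smul_apply, ← hho, inter_smul_card]
  refine ⟨?_, ?_, ?_⟩
  · rw [ncard_transport h (Q := fun t => t ∈ octads ∧ pt 0 ∈ t ∧ (finOf o0 ∩ t).card = 2) (fun t => key t 2)]
    exact count_std 2 112 count2
  · rw [ncard_transport h (Q := fun t => t ∈ octads ∧ pt 0 ∈ t ∧ (finOf o0 ∩ t).card = 4) (fun t => key t 4)]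
    exact count_std 4 140 count4
  · intro o' o'' ho' ho'' hx' hx'' hc
    have k1 := (key o' _).1 ⟨ho', hx', rfl⟩
    have k2 := (key o'' _).1 ⟨ho'', hx'', rfl⟩
    obtain ⟨m1, hm1, e1⟩ := (mem_octads_iff _).1 k1.1
    obtain ⟨m2, hm2, e2⟩ := (mem_octads_iff _).1 k2.1
    have hm1' : m1 ∈ octCfg 1 0 := (mem_octCfg (by norm_num) (by norm_num)).2
      ⟨hm1, by rw [pt0_iff, ← e1]; exact k1.2.1, disj0 _⟩
    have hm2' : m2 ∈ octCfg 1 0 := (mem_octCfg (by norm_num) (by norm_num)).2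
      ⟨hm2, by rw [pt0_iff, ← e2]; exact k2.2.1, disj0 _⟩
    have hcl : clO m1 = clO m2 := by
      rw [← card_inter_O0, ← card_inter_O0, ← e1, ← e2, k1.2.2, k2.2.2, hc]
    obtain ⟨g, hg, hg'⟩ := reach_of_classCheck (tabIn_of_gens gens_ok) class_ok hm1' hm2' hcl
    obtain ⟨hg1, hg2⟩ := mem_SM.1 hg
    have hg3 := hg2 o0 (by simp)
    have hg4 : g (pt 0) = pt 0 := by
      apply apply_eq_of_smul_single (by norm_num)
      simpa using hg2 1 (by simp)
    refine ⟨h⁻¹ * g * h, M24.mul_mem (M24.mul_mem (M24.inv_mem hh) hg1) hh, ?_, ?_, ?_⟩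
    · change h⁻¹ (g (h x)) = x
      rw [hhx, hg4, Equiv.Perm.inv_eq_iff_eq, hhx]
    · rw [mul_smul, mul_smul, hho, hg3, inv_smul_eq_iff, hho]
    · rw [mul_smul, mul_smul, e1, hg', inv_smul_eq_iff, e2]

end Cfsg.Agent.S1607
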