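-- S1608: the point stabiliser on the octads avoiding the point.
import Cfsg.Statements.S1608
import Cfsg.Agent.Lib.M24.Flags

set_option autoImplicit false
open scoped Pointwise
open Cfsg

namespace Cfsg.Agent.S1608

open Cfsg.Agent.Lib.Golay Cfsg.Agent.Lib.M24 Finset

def gensP8 : List (ℕ × ℕ) := [(610723902053732316373779422731383009, 776502484165153142475365240831872012), (717412172121192812896316286513154368, 260487566796942462292003321169447232)]

def repsP8 : List (ℕ × ℕ) := [(0, 1009728), (2, 31554), (4, 36294), (8, 5279)]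

lemma gens_ok : allL (genIn [o0, 32]) gensP8 = true := by decide +kernel

lemma class_ok : classCheck pimgT (tabsOf gensP8) clO repsP8 (octCfg 0 32) = true := by decide +kernel

lemma count0 : countL clO 0 (octCfg 0 32) = 15 := by decide +kernel

lemma count4 : countL clO 4 (octCfg 0 32) = 210 := by decide +kernel

lemma count2 : countL clO 2 (octCfg 0 32) = 280 := by decide +kernel

lemma pt5_iff (t : Finset GolayPt) : Disjoint (finOf 32) t ↔ pt 5 ∉ t :=
  finOf_two_pow_disjoint_iff (a := 5) (by norm_num) t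

lemma count_std (v n : ℕ) (hc : countL clO v (octCfg 0 32) = n) :
    {t : Finset GolayPt | t ∈ octads ∧ pt 5 ∉ t ∧ (finOf o0 ∩ t).card = v}.ncard = n := by
  apply ncard_octCfg (by norm_num) (by norm_num) clO hc
  · exact fun s hs => hs.1
  · intro m hm
    simp only [Set.mem_ofPred_eq, pt5_iff, card_inter_O0, empty_subset_finOf_zero, true_and]
    exact ⟨fun h => h.2, fun h => ⟨(mem_octads_iff _).2 ⟨m, hm, rfl⟩, h⟩⟩

/-- The point stabiliser acts on the 506 octads avoiding the point with rank 4 and subdegrees 1, 15, 210, 280, the suborbits being given by intersection size with the fixed octad. -/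
theorem result (x : Cfsg.GolayPt) (o : Finset Cfsg.GolayPt) (ho : o ∈ Cfsg.octads) (hx : x ∉ o) : {o' : Finset Cfsg.GolayPt | o' ∈ Cfsg.octads ∧ x ∉ o' ∧ (o ∩ o').card = 0}.ncard = 15 ∧ {o' : Finset Cfsg.GolayPt | o' ∈ Cfsg.octads ∧ x ∉ o' ∧ (o ∩ o').card = 4}.ncard = 210 ∧ {o' : Finset Cfsg.GolayPt | o' ∈ Cfsg.octads ∧ x ∉ o' ∧ (o ∩ o').card = 2}.ncard = 280 ∧ ∀ o' o'' : Finset Cfsg.GolayPt, o' ∈ Cfsg.octads → o'' ∈ Cfsg.octads → x ∉ o' → x ∉ o'' → (o ∩ o').card = (o ∩ o'').card → ∃ g : Equiv.Perm Cfsg.GolayPt, g ∈ Cfsg.M24 ∧ g x = x ∧ g • o = o ∧ g • o' = o'' := by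
  obtain ⟨h, hh, hho, hhx⟩ := exists_octad_outside ho hx
  have key : ∀ t v, (t ∈ octads ∧ x ∉ t ∧ (o ∩ t).card = v) ↔
      (h • t ∈ octads ∧ pt 5 ∉ h • t ∧ (finOf o0 ∩ h • t).card = v) := by
    intro t v
    rw [octad_smul_iff hh, ← hhx, mem_smul_apply, ← hho, inter_smul_card]
  refine ⟨?_, ?_, ?_, ?_⟩
  · rw [ncard_transport h (Q := fun t => t ∈ octads ∧ pt 5 ∉ t ∧ (finOf o0 ∩ t).card = 0) (fun t => key t 0)]
    exact count_std 0 15 count0
  · rw [ncard_transport h (Q := fun t => t ∈ octads ∧ pt 5 ∉ t ∧ (finOf o0 ∩ t).card = 4) (fun t => key t 4)]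
    exact count_std 4 210 count4
  · rw [ncard_transport h (Q := fun t => t ∈ octads ∧ pt 5 ∉ t ∧ (finOf o0 ∩ t).card = 2) (fun t => key t 2)]
    exact count_std 2 280 count2
  · intro o' o'' ho' ho'' hx' hx'' hc
    have k1 := (key o' _).1 ⟨ho', hx', rfl⟩
    have k2 := (key o'' _).1 ⟨ho'', hx'', rfl⟩
    obtain ⟨m1, hm1, e1⟩ := (mem_octads_iff _).1 k1.1
    obtain ⟨m2, hm2, e2⟩ := (mem_octads_iff _).1 k2.1
    have hm1' : m1 ∈ octCfg 0 32 := (mem_octCfg (by norm_num) (by norm_num)).2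
      ⟨hm1, empty_subset_finOf_zero _, by rw [pt5_iff, ← e1]; exact k1.2.1⟩
    have hm2' : m2 ∈ octCfg 0 32 := (mem_octCfg (by norm_num) (by norm_num)).2
      ⟨hm2, empty_subset_finOf_zero _, by rw [pt5_iff, ← e2]; exact k2.2.1⟩
    have hcl : clO m1 = clO m2 := by
      rw [← card_inter_O0, ← card_inter_O0, ← e1, ← e2, k1.2.2, k2.2.2, hc]
    obtain ⟨g, hg, hg'⟩ := reach_of_classCheck (tabIn_of_gens gens_ok) class_ok hm1' hm2' hcl
    obtain ⟨hg1, hg2⟩ := mem_SM.1 hg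
    have hg3 := hg2 o0 (by simp)
    have hg4 : g (pt 5) = pt 5 := by
      apply apply_eq_of_smul_single (by norm_num)
      simpa using hg2 32 (by simp)
    refine ⟨h⁻¹ * g * h, M24.mul_mem (M24.mul_mem (M24.inv_mem hh) hg1) hh, ?_, ?_, ?_⟩
    · change h⁻¹ (g (h x)) = x
      rw [hhx, hg4, Equiv.Perm.inv_eq_iff_eq, hhx]
    · rw [mul_smul, mul_smul, hho, hg3, inv_smul_eq_iff, hho]
    · rw [mul_smul, mul_smul, e1, hg', inv_smul_eq_iff, e2]

end Cfsg.Agent.S1608
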