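-- S1610: the hexacode: 64 words, weights.
import Cfsg.Statements.S1610
import Cfsg.Agent.Lib.Hexa.Basic

set_option autoImplicit false
open Cfsg

namespace Cfsg.Agent.S1610

open Cfsg.Agent.Lib.Hexa Finset

/-- The hexacode has 64 words, minimum weight 4, and weight distribution 0^1 4^45 6^18. -/
theorem result (F : Type*) [Field F] [Fintype F] [DecidableEq F] (hF : Fintype.card F = 4) (ω : F) (hω : ω ^ 2 + ω + 1 = 0) : Nat.card ↥(Cfsg.hexacode F ω) = 64 ∧ (∀ x ∈ Cfsg.hexacode F ω, x ≠ 0 → (Finset.univ.filter fun i => x i ≠ 0).card = 4 ∨ (Finset.univ.filter fun i => x i ≠ 0).card = 6) ∧ {x : Fin 6 → F | x ∈ Cfsg.hexacode F ω ∧ (Finset.univ.filter fun i => x i ≠ 0).card = 4}.ncard = 45 ∧ {x : Fin 6 → F | x ∈ Cfsg.hexacode F ω ∧ (Finset.univ.filter fun i => x i ≠ 0).card = 6}.ncard = 18 := by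
  refine ⟨card_hexacode hF hω, fun x hx hx0 => ?_, ?_, ?_⟩
  · obtain ⟨t, rfl⟩ := (mem_hexacode_iff hF hω).1 hx
    rw [support_word hF hω]
    rcases wtT_cases t with h | h | h
    · exfalso
      apply hx0
      have h2 := two_eq_zero (F := F) hF
      have ht := wtT_zero t h
      subst ht
      funext i
      have : wordT 0 i = 0 := by revert i; decide
      change emb ω (wordT 0 i) = 0
      rw [this]
      rfl
    · exact Or.inl h
    · exact Or.inr h
  · rw [ncard_weight hF hω, count4]
  · rw [ncard_weight hF hω, count6]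

end Cfsg.Agent.S1610
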