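import Cfsg.Statements.S1618
import Cfsg.Agent.Lib.ThreeTrans.ZStarP

set_option autoImplicit false
open Cfsg

namespace Cfsg.Agent.S1618

/-- A group generated by a class of involutions whose pairwise products (of distinct members) have p-power order for a fixed odd prime p has nilpotent derived subgroup. -/
theorem result {G : Type*} [Group G] [Finite G] (p : ℕ) (hp : p.Prime) (hodd : p ≠ 2) {D : Set G} (hinv : ∀ d ∈ D, orderOf d = 2) (hconj : ∃ d ∈ D, D = conjugatesOf d) (hgen : Subgroup.closure D = ⊤) (hprod : ∀ x ∈ D, ∀ y ∈ D, x ≠ y → ∃ k : ℕ, orderOf (x * y) = p ^ k) : Group.IsNilpotent ↥(commutator G) := by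
  classical
  have : Fact p.Prime := ⟨hp⟩
  obtain ⟨d, hd, rfl⟩ := hconj
  have hd2 := hinv d hd
  have hself : ∀ x ∈ conjugatesOf d, x * x = 1 := fun x hx =>
    Cfsg.Agent.Lib.ThreeTrans.ZS.invol_mul_self (hinv x hx)
  have hp' : ∀ a ∈ conjugatesOf d, ∀ b ∈ conjugatesOf d, ∃ k : ℕ, orderOf (a * b) = p ^ k := by
    intro a ha b hb
    by_cases hab : a = b
    · exact ⟨0, by rw [hab, hself b hb]; simp⟩
    · exact hprod a ha b hb hab
  have hmain := Cfsg.Agent.Lib.ThreeTrans.ZS.zstar_odd_prime hp hodd d hd2 hp'
  set Q := Cfsg.pCore p G with hQ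
  have hQn : Q.Normal := Cfsg.Agent.Lib.Basic.pCore_normal (G := G) p
  have hQp : IsPGroup p Q := Cfsg.Agent.Lib.Basic.pCore_isPGroup p
  -- the quotient is abelian
  have hcomm : commutator G ≤ Q := by
    have hcoset : ∀ g : G, (QuotientGroup.mk' Q) g = 1 ∨ (QuotientGroup.mk' Q) g = (QuotientGroup.mk' Q) d := by
      intro g
      have hg : g ∈ Subgroup.closure (conjugatesOf d) := by rw [hgen]; trivial
      have hdd : (QuotientGroup.mk' Q) d * (QuotientGroup.mk' Q) d = 1 := by
        rw [← map_mul, hself d (IsConj.refl d), map_one]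
      have hdi : ((QuotientGroup.mk' Q) d)⁻¹ = (QuotientGroup.mk' Q) d :=
        inv_eq_of_mul_eq_one_left hdd
      induction hg using Subgroup.closure_induction with
      | mem x hx =>
        right
        have h1 := hmain x hx d (IsConj.refl d)
        have h2 : (QuotientGroup.mk' Q) (x * d) = 1 := (QuotientGroup.eq_one_iff _).mpr h1
        rw [map_mul] at h2
        have h3 : (QuotientGroup.mk' Q) x = ((QuotientGroup.mk' Q) d)⁻¹ := eq_inv_of_mul_eq_one_left h2
        rw [h3, hdi]
      | one => left; simp
      | mul x y _ _ hx hy =>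
        rw [map_mul]
        rcases hx with hx | hx <;> rcases hy with hy | hy <;> rw [hx, hy]
        · left; simp
        · right; simp
        · right; simp
        · left; exact hdd
      | inv x _ hx =>
        rw [map_inv]
        rcases hx with hx | hx <;> rw [hx]
        · left; simp
        · right; exact hdi
    rw [commutator_def, Subgroup.commutator_le]
    intro g₁ _ g₂ _
    have h1 : (QuotientGroup.mk' Q) (g₁ * g₂ * g₁⁻¹ * g₂⁻¹) = 1 := by
      rw [map_mul, map_mul, map_mul, map_inv, map_inv]
      rcases hcoset g₁ with h | h <;> rcases hcoset g₂ with h' | h' <;> rw [h, h'] <;> simp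
    exact (QuotientGroup.eq_one_iff _).mp h1
  have hnil : Group.IsNilpotent Q := hQp.isNilpotent
  have h5 : Group.IsNilpotent ((commutator G).subgroupOf Q) := inferInstance
  exact (Group.isNilpotent_congr (Subgroup.subgroupOfEquivOfLe hcomm)).mp h5

end Cfsg.Agent.S1618
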