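-- S1635: coset leaders of the length-24 code.
import Cfsg.Statements.S1635
import Cfsg.Agent.Lib.M24.Words
import Cfsg.Agent.Lib.Golay.Steiner

set_option autoImplicit false
open Cfsg

namespace Cfsg.Agent.S1635

open Cfsg.Agent.Lib.Golay Cfsg.Agent.Lib.M24 Cfsg.Agent.Lib.Golay.Steiner Finset

lemma code_sub {a b v : GolayPt → ZMod 2} (ha : a - v ∈ golayCode) (hb : a - b ∈ golayCode) :
    v - b ∈ golayCode := by
  have : v - b = (a - b) - (a - v) := by abel
  rw [this]
  exact golayCode.sub_mem hb ha

lemma card_sub_le (v w : GolayPt → ZMod 2) :
    (support₂ (v - w)).card ≤ (support₂ v).card + (support₂ w).card := by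
  rw [sub_eq_add_word]
  exact card_support_add_le v w

lemma five_through {t : Finset GolayPt} (ht : t.card = 4) :
    ((BF octads).filter (t ⊆ ·)).card = 5 := by
  apply blocks_through_eq octads_steiner t (by omega) 5
  · rw [ht]; decide
  · rw [ht]
    have : Fintype.card GolayPt = 24 := by simp [ZMod.card]
    rw [this]
    decide

/-- Coset leaders of the length-24 code: a coset contains a unique word of weight ≤ 3, or else exactly six words of weight 4 and none lighter. -/
theorem result (w : Cfsg.GolayPt → ZMod 2) : ({v : Cfsg.GolayPt → ZMod 2 | hammingNorm v ≤ 4 ∧ w - v ∈ Cfsg.golayCode}.ncard = 1 ∧ ∃ v : Cfsg.GolayPt → ZMod 2, hammingNorm v ≤ 3 ∧ w - v ∈ Cfsg.golayCode) ∨ ({v : Cfsg.GolayPt → ZMod 2 | hammingNorm v ≤ 4 ∧ w - v ∈ Cfsg.golayCode}.ncard = 6 ∧ ∀ v : Cfsg.GolayPt → ZMod 2, w - v ∈ Cfsg.golayCode → hammingNorm v ≤ 4 → hammingNorm v = 4) := by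
  classical
  by_cases h3 : ∃ v : GolayPt → ZMod 2, hammingNorm v ≤ 3 ∧ w - v ∈ golayCode
  · left
    refine ⟨?_, h3⟩
    obtain ⟨v, hv3, hv⟩ := h3
    rw [Set.ncard_eq_one]
    refine ⟨v, ?_⟩
    ext v'
    simp only [Set.mem_ofPred_eq, Set.mem_singleton_iff]
    constructor
    · rintro ⟨hv'4, hv'⟩
      have hc := code_sub hv hv'
      have hle := card_sub_le v v'
      rw [hammingNorm_eq_support] at hv3 hv'4
      have h0 := code_min_weight hc (by omega)
      exact (sub_eq_zero.1 h0).symm
    · rintro rfl
      exact ⟨by omega, hv⟩
  · right
    push Not at h3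
    have hall : ∀ v : GolayPt → ZMod 2, w - v ∈ golayCode → hammingNorm v ≤ 4 → hammingNorm v = 4 := by
      intro v hv h4
      have : ¬ hammingNorm v ≤ 3 := fun h => h3 v h hv
      omega
    refine ⟨?_, hall⟩
    obtain ⟨v, hv4, hv⟩ := exists_leader _ w rfl
    have hv4' : (support₂ v).card = 4 := hall v hv hv4
    set O := (BF octads).filter (support₂ v ⊆ ·) with hO
    have hO5 : O.card = 5 := five_through hv4'
    let φ : Finset GolayPt → (GolayPt → ZMod 2) := fun o => v + wordOf (setMask o)
    have hS : {v' : GolayPt → ZMod 2 | hammingNorm v' ≤ 4 ∧ w - v' ∈ golayCode}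
        = ((insert v (O.image φ) : Finset _) : Set _) := by
      ext v'
      simp only [Set.mem_ofPred_eq, coe_insert, coe_image, Set.mem_insert_iff, Set.mem_image, mem_coe]
      constructor
      · rintro ⟨hv'4, hv'⟩
        by_cases hvv' : v' = v
        · exact Or.inl hvv'
        · right
          have hc := code_sub hv hv'
          have hle := card_sub_le v v'
          have hv'4' : (support₂ v').card = 4 := hall v' hv' hv'4
          rw [hv'4', hv4'] at hle
          have hne : v - v' ≠ 0 := fun h => hvv' (sub_eq_zero.1 h).symm
          have hwt : (support₂ (v - v')).card = 8 := by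
            rcases code_weight hc with h | h | h | h | h
            · exact absurd (eq_zero_of_support_card h) hne
            · exact h
            all_goals omega
          have hxo := octad_of_word hc hwt
          refine ⟨support₂ (v - v'), ?_, ?_⟩
          · rw [hO, mem_filter]
            refine ⟨mem_BF.2 hxo, ?_⟩
            rw [sub_eq_add_word, support_add] at hwt ⊢
            have h1 := card_symmDiff_eq (support₂ v) (support₂ v')
            rw [hwt, hv'4', hv4'] at h1
            have hd : (support₂ v ∩ support₂ v').card = 0 := by omega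
            rw [Finset.card_eq_zero] at hd
            intro p hp
            rw [Finset.mem_symmDiff]
            left
            refine ⟨hp, fun hp' => ?_⟩
            have : p ∈ support₂ v ∩ support₂ v' := mem_inter.2 ⟨hp, hp'⟩
            simp [hd] at this
          · simp only [φ]
            rw [wordOf_setMask_support, sub_eq_add_word]
            funext p
            simp only [Pi.add_apply]
            generalize v p = a
            generalize v' p = b
            revert a b
            decide
      · rintro (rfl | ⟨o, ho, rfl⟩)
        · exact ⟨by rw [hammingNorm_eq_support]; omega, hv⟩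
        · obtain ⟨ho1, hto⟩ := mem_filter.1 ho
          have ho2 := mem_BF.1 ho1
          obtain ⟨hx, hxo⟩ := octad_word ho2
          simp only [φ]
          constructor
          · rw [hammingNorm_eq_support, support_add, hxo]
            have h1 := card_symmDiff_eq (support₂ v) o
            rw [inter_eq_left.2 hto, octad_card ho2, hv4'] at h1
            omega
          · have : w - (v + wordOf (setMask o)) = (w - v) - wordOf (setMask o) := by abel
            rw [this]
            exact golayCode.sub_mem hv hx
    have hφ : Set.InjOn φ (O : Set (Finset GolayPt)) := by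
      intro o ho o' ho' h
      have h1 := add_left_cancel h
      have hoo := mem_BF.1 (mem_filter.1 (mem_coe.1 ho)).1
      have hoo' := mem_BF.1 (mem_filter.1 (mem_coe.1 ho')).1
      rw [← (octad_word hoo).2, ← (octad_word hoo').2, h1]
    have hnot : v ∉ O.image φ := by
      intro hm
      obtain ⟨o, ho, h⟩ := mem_image.1 hm
      have hoo := mem_BF.1 (mem_filter.1 ho).1
      have h0 : wordOf (setMask o) = 0 := by
        have h2 : v + wordOf (setMask o) = v + 0 := by rw [add_zero]; exact h
        exact add_left_cancel h2
      have h8 := octad_card hoo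
      have h1 := (octad_word hoo).2
      rw [h0] at h1
      rw [← h1] at h8
      simp [support₂] at h8
    rw [hS, Set.ncard_coe_finset, card_insert_of_notMem hnot, card_image_of_injOn hφ, hO5]

end Cfsg.Agent.S1635
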