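-- S1637: the punctured length-23 code is perfect.
import Cfsg.Statements.S1637
import Cfsg.Agent.Lib.M24.Punct

set_option autoImplicit false
open Cfsg

namespace Cfsg.Agent.S1637

open Cfsg.Agent.Lib.M24

/-- The punctured length-23 code is a perfect 3-error-correcting code: each word of length 23 is within distance 3 of exactly one codeword. -/
theorem result (u : ZMod 23 → ZMod 2) : ∃! c : ZMod 23 → ZMod 2, c ∈ {u : ZMod 23 → ZMod 2 | ∃ w ∈ Cfsg.golayCode, ∀ x : ZMod 23, u x = w (some x)} ∧ hammingDist u c ≤ 3 := by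
  obtain ⟨w, hw, hd⟩ := punct_covering u
  refine ⟨punct w, ⟨mem_punctCode.2 ⟨w, hw, rfl⟩, hd⟩, ?_⟩
  rintro c ⟨hc, hcd⟩
  obtain ⟨v, hv, rfl⟩ := mem_punctCode.1 hc
  rw [punct_unique hv hw hcd hd]

end Cfsg.Agent.S1637
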