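-- S1638: pairs relative to two points and a pair.
import Cfsg.Statements.S1638
import Cfsg.Agent.Lib.M24.SixPoint

set_option autoImplicit false
set_option linter.unusedSectionVars false
open scoped Pointwise
open Cfsg

namespace Cfsg.Agent.S1638

open Cfsg.Agent.Lib.Golay Cfsg.Agent.Lib.Golay.Steiner Cfsg.Agent.Lib.M24 Finset

section

variable {p q : GolayPt} (hpq : p ≠ q) {s : Finset GolayPt} (hs : s.card = 2 ∧ p ∉ s ∧ q ∉ s)

/-- The tetrad. -/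
def tet (p q : GolayPt) (s : Finset GolayPt) : Finset GolayPt := {p, q} ∪ s

include hpq hs

lemma tet_card : (tet p q s).card = 4 := by
  unfold tet
  rw [card_union_of_disjoint, card_pair hpq, hs.1]
  rw [disjoint_left]
  intro x hx
  simp only [mem_insert, mem_singleton] at hx
  rcases hx with rfl | rfl
  · exact hs.2.1
  · exact hs.2.2

lemma disjoint_tet_iff {t : Finset GolayPt} : Disjoint (tet p q s) t ↔ p ∉ t ∧ q ∉ t ∧ Disjoint s t := by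
  unfold tet
  rw [disjoint_union_left, disjoint_insert_left, disjoint_singleton_left, and_assoc]

lemma prop_iff {t o : Finset GolayPt} : (p ∈ o ∧ q ∈ o ∧ s ∪ t ⊆ o) ↔ (tet p q s ∪ t ⊆ o) := by
  unfold tet
  simp only [union_subset_iff, insert_subset_iff, singleton_subset_iff]
  tauto

lemma count_in : {t : Finset GolayPt | (t.card = 2 ∧ p ∉ t ∧ q ∉ t) ∧ Disjoint s t ∧ (∃ o ∈ octads, p ∈ o ∧ q ∈ o ∧ s ∪ t ⊆ o)}.ncard = 30 := by
  classical
  have hT := tet_card hpq hs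
  set T := tet p q s with hTdef
  have hdisj : ((thru T : Finset (Finset GolayPt)) : Set (Finset GolayPt)).PairwiseDisjoint
      (fun o => powersetCard 2 (o \ T)) := by
    intro o ho o' ho' hne
    rw [Function.onFun, disjoint_left]
    intro U hU hU'
    apply hne
    obtain ⟨h1, h2⟩ := mem_powersetCard.1 hU
    obtain ⟨h1', _⟩ := mem_powersetCard.1 hU'
    have hd : Disjoint T U := by
      rw [disjoint_right]
      intro x hx
      exact (mem_sdiff.1 (h1 hx)).2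
    obtain ⟨ho1, ho2⟩ := mem_thru.1 (mem_coe.1 ho)
    obtain ⟨ho1', ho2'⟩ := mem_thru.1 (mem_coe.1 ho')
    apply octad_eq_of_card_inter ho1 ho1'
    have hsub : T ∪ U ⊆ o ∩ o' := by
      apply union_subset (subset_inter ho2 ho2')
      intro x hx
      exact mem_inter.2 ⟨(mem_sdiff.1 (h1 hx)).1, (mem_sdiff.1 (h1' hx)).1⟩
    have := card_le_card hsub
    rw [card_union_of_disjoint hd, hT, h2] at this
    omega
  have hS : {t : Finset GolayPt | (t.card = 2 ∧ p ∉ t ∧ q ∉ t) ∧ Disjoint s t ∧ (∃ o ∈ octads, p ∈ o ∧ q ∈ o ∧ s ∪ t ⊆ o)}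
      = ↑((thru T).biUnion (fun o => powersetCard 2 (o \ T))) := by
    ext U
    simp only [Set.mem_ofPred_eq, coe_biUnion, Set.mem_iUnion, mem_coe, exists_prop, mem_powersetCard,
      prop_iff hpq hs]
    constructor
    · rintro ⟨⟨h3, h4, h5⟩, h6, o, ho, hu⟩
      have hd := (disjoint_tet_iff hpq hs).2 ⟨h4, h5, h6⟩
      refine ⟨o, mem_thru.2 ⟨ho, subset_union_left.trans hu⟩, ?_, h3⟩
      intro x hx
      exact mem_sdiff.2 ⟨hu (mem_union_right _ hx), fun h => disjoint_left.1 hd h hx⟩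
    · rintro ⟨o, ho, h1, h3⟩
      obtain ⟨ho1, ho2⟩ := mem_thru.1 ho
      have hd : Disjoint T U := by
        rw [disjoint_right]
        intro x hx
        exact (mem_sdiff.1 (h1 hx)).2
      obtain ⟨h4, h5, h6⟩ := (disjoint_tet_iff hpq hs).1 hd
      exact ⟨⟨h3, h4, h5⟩, h6, o, ho1, union_subset ho2 (h1.trans sdiff_subset)⟩
  rw [hS, Set.ncard_coe_finset, card_biUnion hdisj]
  have : ∀ o ∈ thru T, (powersetCard 2 (o \ T)).card = 6 := by
    intro o ho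
    obtain ⟨ho1, ho2⟩ := mem_thru.1 ho
    rw [card_powersetCard, card_sdiff_of_subset ho2, octad_card ho1, hT]
    decide
  rw [Finset.sum_congr rfl this, sum_const, card_thru hT, smul_eq_mul]

lemma count_all : {t : Finset GolayPt | (t.card = 2 ∧ p ∉ t ∧ q ∉ t) ∧ Disjoint s t}.ncard = 190 := by
  have hT := tet_card hpq hs
  have h1 := ncard_subsets_inter (tet p q s) 2 0 (by omega)
  rw [hT, card_golayPt] at h1
  have : {t : Finset GolayPt | (t.card = 2 ∧ p ∉ t ∧ q ∉ t) ∧ Disjoint s t} = {t | t.card = 2 ∧ (tet p q s ∩ t).card = 0} := by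
    ext U
    simp only [Set.mem_ofPred_eq, Finset.card_eq_zero, ← disjoint_iff_inter_eq_empty, disjoint_tet_iff hpq hs]
    tauto
  rw [this, h1]
  decide

lemma count_not : {t : Finset GolayPt | (t.card = 2 ∧ p ∉ t ∧ q ∉ t) ∧ Disjoint s t ∧ ¬ (∃ o ∈ octads, p ∈ o ∧ q ∈ o ∧ s ∪ t ⊆ o)}.ncard = 160 := by
  classical
  have h1 := count_in hpq hs
  have h2 := count_all hpq hs
  have h3 : {t : Finset GolayPt | (t.card = 2 ∧ p ∉ t ∧ q ∉ t) ∧ Disjoint s t} =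
      {t : Finset GolayPt | (t.card = 2 ∧ p ∉ t ∧ q ∉ t) ∧ Disjoint s t ∧ (∃ o ∈ octads, p ∈ o ∧ q ∈ o ∧ s ∪ t ⊆ o)} ∪
      {t : Finset GolayPt | (t.card = 2 ∧ p ∉ t ∧ q ∉ t) ∧ Disjoint s t ∧ ¬ (∃ o ∈ octads, p ∈ o ∧ q ∈ o ∧ s ∪ t ⊆ o)} := by
    ext U
    simp only [Set.mem_ofPred_eq, Set.mem_union]
    constructor
    · rintro ⟨h5, h6⟩
      by_cases hE : ∃ o ∈ octads, p ∈ o ∧ q ∈ o ∧ s ∪ U ⊆ o
      · exact Or.inl ⟨h5, h6, hE⟩
      · exact Or.inr ⟨h5, h6, hE⟩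
    · rintro (⟨h5, h6, -⟩ | ⟨h5, h6, -⟩) <;> exact ⟨h5, h6⟩
  have h4 : Disjoint {t : Finset GolayPt | (t.card = 2 ∧ p ∉ t ∧ q ∉ t) ∧ Disjoint s t ∧ (∃ o ∈ octads, p ∈ o ∧ q ∈ o ∧ s ∪ t ⊆ o)}
      {t : Finset GolayPt | (t.card = 2 ∧ p ∉ t ∧ q ∉ t) ∧ Disjoint s t ∧ ¬ (∃ o ∈ octads, p ∈ o ∧ q ∈ o ∧ s ∪ t ⊆ o)} := by
    rw [Set.disjoint_left]
    rintro U ⟨_, _, h5⟩ ⟨_, _, h6⟩
    exact h6 h5
  rw [h3, Set.ncard_union_eq h4 (Set.toFinite _) (Set.toFinite _), h1] at h2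
  omega

end

/-- The case of one common point. -/
lemma orbit_one {p q : GolayPt} (hpq : p ≠ q) {s : Finset GolayPt} (hs : s.card = 2 ∧ p ∉ s ∧ q ∉ s)
    {t t' : Finset GolayPt} (ht : t.card = 2 ∧ p ∉ t ∧ q ∉ t) (ht' : t'.card = 2 ∧ p ∉ t' ∧ q ∉ t')
    (h1 : (s ∩ t).card = 1) (h1' : (s ∩ t').card = 1) :
    ∃ g : Equiv.Perm GolayPt, g ∈ M24 ∧ g p = p ∧ g q = q ∧ g • s = s ∧ g • t = t' := by
  classical
  obtain ⟨a, ha⟩ := Finset.card_eq_one.1 h1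
  obtain ⟨a', ha'⟩ := Finset.card_eq_one.1 h1'
  have has : a ∈ s ∩ t := by rw [ha]; simp
  have has' : a' ∈ s ∩ t' := by rw [ha']; simp
  obtain ⟨b, hab, hb⟩ := exists_other hs.1 (mem_inter.1 has).1
  obtain ⟨c, hac, hc⟩ := exists_other ht.1 (mem_inter.1 has).2
  obtain ⟨b', hab', hb'⟩ := exists_other hs.1 (mem_inter.1 has').1
  obtain ⟨c', hac', hc'⟩ := exists_other ht'.1 (mem_inter.1 has').2
  have hcs : c ∉ s := by
    intro hcm
    have : c ∈ s ∩ t := mem_inter.2 ⟨hcm, by rw [hc]; simp⟩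
    rw [ha, mem_singleton] at this
    exact hac this.symm
  have hcs' : c' ∉ s := by
    intro hcm
    have : c' ∈ s ∩ t' := mem_inter.2 ⟨hcm, by rw [hc']; simp⟩
    rw [ha', mem_singleton] at this
    exact hac' this.symm
  have hP : ∀ {x : GolayPt}, x ∈ s → p ≠ x := fun {x} hx h => hs.2.1 (h ▸ hx)
  have hQ : ∀ {x : GolayPt}, x ∈ s → q ≠ x := fun {x} hx h => hs.2.2 (h ▸ hx)
  have hP' : ∀ {r x : GolayPt} {u : Finset GolayPt}, r ∉ u → x ∈ u → r ≠ x := fun {r} {x} {u} hp hx h => hp (h ▸ hx)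
  have hab1 : a ∈ s := by rw [hb]; simp
  have hbb1 : b ∈ s := by rw [hb]; simp
  have hab1' : a' ∈ s := by rw [hb']; simp
  have hbb1' : b' ∈ s := by rw [hb']; simp
  have hc1 : c ∈ t := by rw [hc]; simp
  have hc1' : c' ∈ t' := by rw [hc']; simp
  have hf := inj5 hpq (hP hab1) (hP hbb1) (hP' ht.2.1 hc1) (hQ hab1) (hQ hbb1) (hP' ht.2.2 hc1) hab
    (fun h => hcs (h ▸ hab1)) (fun h => hcs (h ▸ hbb1))
  have hf' := inj5 hpq (hP hab1') (hP hbb1') (hP' ht'.2.1 hc1') (hQ hab1') (hQ hbb1') (hP' ht'.2.2 hc1') hab'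
    (fun h => hcs' (h ▸ hab1')) (fun h => hcs' (h ▸ hbb1'))
  obtain ⟨g, hg, h⟩ := exists_map_five _ _ hf hf'
  have g0 : g p = p := h 0
  have g1 : g q = q := h 1
  have g2 : g a = a' := h 2
  have g3 : g b = b' := h 3
  have g4 : g c = c' := h 4
  refine ⟨g, hg, g0, g1, ?_, ?_⟩
  · nth_rewrite 1 [hb]
    rw [smul_finset_insert, smul_finset_singleton]
    change ({g a, g b} : Finset GolayPt) = _
    rw [g2, g3, ← hb']
  · rw [hc, smul_finset_insert, smul_finset_singleton]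
    change ({g a, g c} : Finset GolayPt) = _
    rw [g2, g4, ← hc']

lemma hrw_aux (p q a b c d : GolayPt) (o : Finset GolayPt) :
    (p ∈ o ∧ q ∈ o ∧ ({a, b} : Finset GolayPt) ∪ {c, d} ⊆ o) ↔
      ((∀ i, (![p, q, a, b, c] : Fin 5 → GolayPt) i ∈ o) ∧ d ∈ o) := by
  simp only [union_subset_iff, insert_subset_iff, singleton_subset_iff, Fin.forall_fin_succ]
  simp
  tauto

/-- The case of disjoint pairs. -/
lemma orbit_zero {p q : GolayPt} (hpq : p ≠ q) {s : Finset GolayPt} (hs : s.card = 2 ∧ p ∉ s ∧ q ∉ s)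
    {t t' : Finset GolayPt} (ht : t.card = 2 ∧ p ∉ t ∧ q ∉ t) (ht' : t'.card = 2 ∧ p ∉ t' ∧ q ∉ t')
    (h1 : Disjoint s t) (h1' : Disjoint s t')
    (hp : (∃ o ∈ octads, p ∈ o ∧ q ∈ o ∧ s ∪ t ⊆ o) ↔ (∃ o ∈ octads, p ∈ o ∧ q ∈ o ∧ s ∪ t' ⊆ o)) :
    ∃ g : Equiv.Perm GolayPt, g ∈ M24 ∧ g p = p ∧ g q = q ∧ g • s = s ∧ g • t = t' := by
  classical
  obtain ⟨a, b, hab, hs2⟩ := Finset.card_eq_two.1 hs.1
  obtain ⟨c, d, hcd, ht2⟩ := Finset.card_eq_two.1 ht.1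
  obtain ⟨c', d', hcd', ht2'⟩ := Finset.card_eq_two.1 ht'.1
  have has : a ∈ s := by rw [hs2]; simp
  have hbs : b ∈ s := by rw [hs2]; simp
  have hct : c ∈ t := by rw [ht2]; simp
  have hdt : d ∈ t := by rw [ht2]; simp
  have hct' : c' ∈ t' := by rw [ht2']; simp
  have hdt' : d' ∈ t' := by rw [ht2']; simp
  have ne1 : ∀ {x y : GolayPt} {u v : Finset GolayPt}, Disjoint u v → x ∈ u → y ∈ v → x ≠ y :=
    fun h hx hy e => disjoint_left.1 h hx (e ▸ hy)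
  have hpS : ∀ {x : GolayPt}, x ∈ s → p ≠ x := fun {x} hx h => hs.2.1 (h ▸ hx)
  have hqS : ∀ {x : GolayPt}, x ∈ s → q ≠ x := fun {x} hx h => hs.2.2 (h ▸ hx)
  have hpT : ∀ {x : GolayPt}, x ∈ t → p ≠ x := fun {x} hx h => ht.2.1 (h ▸ hx)
  have hqT : ∀ {x : GolayPt}, x ∈ t → q ≠ x := fun {x} hx h => ht.2.2 (h ▸ hx)
  have hpT' : ∀ {x : GolayPt}, x ∈ t' → p ≠ x := fun {x} hx h => ht'.2.1 (h ▸ hx)
  have hqT' : ∀ {x : GolayPt}, x ∈ t' → q ≠ x := fun {x} hx h => ht'.2.2 (h ▸ hx)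
  have hf := inj5 hpq (hpS has) (hpS hbs) (hpT hct) (hqS has) (hqS hbs) (hqT hct) hab
    (ne1 h1 has hct) (ne1 h1 hbs hct)
  have hf' := inj5 hpq (hpS has) (hpS hbs) (hpT' hct') (hqS has) (hqS hbs) (hqT' hct') hab
    (ne1 h1' has hct') (ne1 h1' hbs hct')
  have hx : ∀ i, d ≠ (![p, q, a, b, c] : Fin 5 → GolayPt) i := by
    intro i
    fin_cases i
    · exact (hpT hdt).symm
    · exact (hqT hdt).symm
    · exact (ne1 h1 has hdt).symm
    · exact (ne1 h1 hbs hdt).symm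
    · exact hcd.symm
  have hx' : ∀ i, d' ≠ (![p, q, a, b, c'] : Fin 5 → GolayPt) i := by
    intro i
    fin_cases i
    · exact (hpT' hdt').symm
    · exact (hqT' hdt').symm
    · exact (ne1 h1' has hdt').symm
    · exact (ne1 h1' hbs hdt').symm
    · exact hcd'.symm
  have hrw : ∀ (c d : GolayPt) (o : Finset GolayPt), (p ∈ o ∧ q ∈ o ∧ s ∪ {c, d} ⊆ o) ↔
      ((∀ i, (![p, q, a, b, c] : Fin 5 → GolayPt) i ∈ o) ∧ d ∈ o) := by
    intro c d o
    rw [hs2]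
    exact hrw_aux p q a b c d o
  have hp2 : (∃ o ∈ octads, p ∈ o ∧ q ∈ o ∧ s ∪ {c, d} ⊆ o) ↔ (∃ o ∈ octads, p ∈ o ∧ q ∈ o ∧ s ∪ {c', d'} ⊆ o) := by
    rw [← ht2, ← ht2']
    exact hp
  obtain ⟨g, hg, hg1, hg2⟩ := six_point_transfer _ _ hf hf' d d' hx hx' (by
    constructor
    · rintro ⟨o, ho, h⟩
      obtain ⟨o', ho', h'⟩ := hp2.1 ⟨o, ho, (hrw c d o).2 h⟩
      exact ⟨o', ho', (hrw c' d' o').1 h'⟩
    · rintro ⟨o, ho, h⟩
      obtain ⟨o', ho', h'⟩ := hp2.2 ⟨o, ho, (hrw c' d' o).2 h⟩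
      exact ⟨o', ho', (hrw c d o').1 h'⟩)
  have g0 : g p = p := hg1 0
  have g1 : g q = q := hg1 1
  have g2 : g a = a := hg1 2
  have g3 : g b = b := hg1 3
  have g4 : g c = c' := hg1 4
  refine ⟨g, hg, g0, g1, ?_, ?_⟩
  · nth_rewrite 1 [hs2]
    rw [smul_finset_insert, smul_finset_singleton]
    change ({g a, g b} : Finset GolayPt) = _
    rw [g2, g3, ← hs2]
  · rw [ht2, smul_finset_insert, smul_finset_singleton]
    change ({g c, g d} : Finset GolayPt) = _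
    rw [g4, hg2, ← ht2']

/-- Fix two points p ≠ q and a pair s of two further points. Among the pairs avoiding p, q and disjoint from s, exactly 30 lie in an octad together with p, q and s and exactly 160 do not; and any two pairs other than s that meet s in equally many points and agree on that octad property are carried to one another by an element of the group of the length-24 code fixing p, q and s. -/
theorem result (p q : Cfsg.GolayPt) (hpq : p ≠ q) (s : Finset Cfsg.GolayPt) (hs : (s.card = 2 ∧ p ∉ s ∧ q ∉ s)) : {t : Finset Cfsg.GolayPt | (t.card = 2 ∧ p ∉ t ∧ q ∉ t) ∧ Disjoint s t ∧ (∃ o ∈ Cfsg.octads, p ∈ o ∧ q ∈ o ∧ s ∪ t ⊆ o)}.ncard = 30 ∧ {t : Finset Cfsg.GolayPt | (t.card = 2 ∧ p ∉ t ∧ q ∉ t) ∧ Disjoint s t ∧ ¬ (∃ o ∈ Cfsg.octads, p ∈ o ∧ q ∈ o ∧ s ∪ t ⊆ o)}.ncard = 160 ∧ ∀ t t' : Finset Cfsg.GolayPt, (t.card = 2 ∧ p ∉ t ∧ q ∉ t) → (t'.card = 2 ∧ p ∉ t' ∧ q ∉ t') → t ≠ s →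 t' ≠ s → (s ∩ t).card = (s ∩ t').card → ((∃ o ∈ Cfsg.octads, p ∈ o ∧ q ∈ o ∧ s ∪ t ⊆ o) ↔ (∃ o ∈ Cfsg.octads, p ∈ o ∧ q ∈ o ∧ s ∪ t' ⊆ o)) → ∃ g : Equiv.Perm Cfsg.GolayPt, g ∈ Cfsg.M24 ∧ g p = p ∧ g q = q ∧ g • s = s ∧ g • t = t' := by
  refine ⟨count_in hpq hs, count_not hpq hs, ?_⟩
  intro t t' ht ht' hts hts' hc hp
  have hle : (s ∩ t).card ≤ 2 := (card_le_card inter_subset_left).trans hs.1.le
  have hcases : (s ∩ t).card = 0 ∨ (s ∩ t).card = 1 ∨ (s ∩ t).card = 2 := by omega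
  rcases hcases with h | h | h
  · have h1 : Disjoint s t := by
      rw [disjoint_iff_inter_eq_empty, ← Finset.card_eq_zero]
      exact h
    have h1' : Disjoint s t' := by
      rw [disjoint_iff_inter_eq_empty, ← Finset.card_eq_zero, ← hc]
      exact h
    exact orbit_zero hpq hs ht ht' h1 h1' hp
  · exact orbit_one hpq hs ht ht' h (hc ▸ h)
  · exfalso
    apply hts
    have h2 : s ∩ t = s := Finset.eq_of_subset_of_card_le inter_subset_left (by rw [h, hs.1])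
    have h3 : s ∩ t = t := Finset.eq_of_subset_of_card_le inter_subset_right (by rw [h, ht.1])
    rw [← h3, h2]

end Cfsg.Agent.S1638
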