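import Mathlib
import Cfsg.Statements.S1691
-- import your own Cfsg.Agent.* helpers here

set_option autoImplicit false
open Cfsg

namespace Cfsg.Agent.S1691

open Cfsg.Spor Cfsg.Spor.Fi24


abbrev rels : Set (FreeGroup Gen) := coxRelators edges ∪ {r | r ∈ extra}

abbrev G := PresentedGroup rels

theorem inv_of (x : Gen) (hx : x ∈ coxNodes edges) {A : Type*} [CommGroup A] (α : G →* A) :
    α (PresentedGroup.of x) * α (PresentedGroup.of x) = 1 := by
  have h : (FreeGroup.of x * FreeGroup.of x) ^ coxLabel edges x x ∈ rels := Or.inl ⟨x, hx, x, hx, rfl⟩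
  have h1 := PresentedGroup.one_of_mem h
  have h2 : coxLabel edges x x = 1 := by
    simp [coxLabel]
  rw [h2, pow_one, map_mul] at h1
  have h3 := congrArg α h1
  rw [map_mul, map_one] at h3
  exact h3

theorem edge_eq (x y : Gen) (hx : x ∈ coxNodes edges) (hy : y ∈ coxNodes edges) (hl : coxLabel edges x y = 3)
    {A : Type*} [CommGroup A] (α : G →* A) : α (PresentedGroup.of x) = α (PresentedGroup.of y) := by
  have h : (FreeGroup.of x * FreeGroup.of y) ^ coxLabel edges x y ∈ rels := Or.inl ⟨x, hx, y, hy, rfl⟩
  have h1 := PresentedGroup.one_of_mem h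
  rw [hl, map_pow, map_mul] at h1
  have h3 := congrArg α h1
  rw [map_pow, map_mul, map_one] at h3
  have h4 := inv_of x hx α
  have h5 := inv_of y hy α
  set u := α (PresentedGroup.of x)
  set v := α (PresentedGroup.of y)
  have u3 : u ^ 3 = u := by rw [pow_succ, pow_two, h4, one_mul]
  have v3 : v ^ 3 = v := by rw [pow_succ, pow_two, h5, one_mul]
  have h7 : u ^ 3 * v ^ 3 = 1 := by
    rw [← mul_pow]
    exact h3
  have h6 : u * v = 1 := by
    rw [u3, v3] at h7
    exact h7
  calc u = u * (v * v) := by rw [h5, mul_one]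
    _ = (u * v) * v := by rw [mul_assoc]
    _ = v := by rw [h6, one_mul]

/-- The sign of a word. -/
def χf (_ : Gen) : Multiplicative (ZMod 2) := Multiplicative.ofAdd 1

theorem hχ : ∀ r ∈ rels, FreeGroup.lift χf r = 1 := by
  rintro r (⟨x, _, y, _, rfl⟩ | hr)
  · have h : χf x * χf y = 1 := by
      show (Multiplicative.ofAdd (1 : ZMod 2)) * Multiplicative.ofAdd 1 = 1
      decide
    rw [map_pow, map_mul, FreeGroup.lift_apply_of, FreeGroup.lift_apply_of, h, one_pow]
  · have h : ∀ r ∈ extra, FreeGroup.lift χf r = 1 := by decide +kernel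
    exact h r hr

noncomputable def χ : G →* Multiplicative (ZMod 2) := PresentedGroup.toGroup hχ

theorem card_ab : Nat.card (Abelianization G) = 2 := by
  let α : G →* Abelianization G := Abelianization.of
  have hnodes : ∀ x : Gen, x ∈ coxNodes edges := by
    intro x
    cases x <;> decide
  have e1 := edge_eq .l .k (hnodes _) (hnodes _) (by decide) α
  have e2 := edge_eq .k .a (hnodes _) (hnodes _) (by decide) α
  have e3 := edge_eq .a .b (hnodes _) (hnodes _) (by decide) α
  have e4 := edge_eq .b .c (hnodes _) (hnodes _) (by decide) α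
  have e5 := edge_eq .c .d (hnodes _) (hnodes _) (by decide) α
  have e6 := edge_eq .d .e (hnodes _) (hnodes _) (by decide) α
  have e7 := edge_eq .e .f (hnodes _) (hnodes _) (by decide) α
  have e8 := edge_eq .f .g (hnodes _) (hnodes _) (by decide) α
  have e9 := edge_eq .g .j (hnodes _) (hnodes _) (by decide) α
  have e10 := edge_eq .d .h (hnodes _) (hnodes _) (by decide) α
  have e11 := edge_eq .h .i (hnodes _) (hnodes _) (by decide) α
  have hall : ∀ x : Gen, α (PresentedGroup.of x) = α (PresentedGroup.of .l) := by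
    intro x
    cases x
    · rfl
    · exact e1.symm
    · rw [← e2, e1]
    · rw [← e3, ← e2, e1]
    · rw [← e4, ← e3, ← e2, e1]
    · rw [← e5, ← e4, ← e3, ← e2, e1]
    · rw [← e6, ← e5, ← e4, ← e3, ← e2, e1]
    · rw [← e7, ← e6, ← e5, ← e4, ← e3, ← e2, e1]
    · rw [← e8, ← e7, ← e6, ← e5, ← e4, ← e3, ← e2, e1]
    · rw [← e9, ← e8, ← e7, ← e6, ← e5, ← e4, ← e3, ← e2, e1]
    · rw [← e10, ← e5, ← e4, ← e3, ← e2, e1]
    · rw [← e11, ← e10, ← e5, ← e4, ← e3, ← e2, e1]
  set z := α (PresentedGroup.of .l) with hz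
  have hzz : z * z = 1 := inv_of .l (hnodes _) α
  -- the values on generators
  let χ' : Abelianization G →* Multiplicative (ZMod 2) := Abelianization.lift χ
  have hχz : χ' z = Multiplicative.ofAdd 1 := by
    rw [hz]
    show χ' (Abelianization.of _) = _
    rw [Abelianization.lift_apply_of]
    show PresentedGroup.toGroup hχ (PresentedGroup.of .l) = _
    rw [PresentedGroup.toGroup.of]
    rfl
  have hz1 : z ≠ 1 := by
    intro h
    rw [h, map_one] at hχz
    exact absurd hχz (by decide)
  have hcases : ∀ y : Abelianization G, y = 1 ∨ y = z := by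
    intro y
    obtain ⟨g, rfl⟩ := QuotientGroup.mk_surjective y
    show α g = 1 ∨ α g = z
    have hmem : g ∈ (⊤ : Subgroup G) := trivial
    rw [← PresentedGroup.closure_range_of rels] at hmem
    induction hmem using Subgroup.closure_induction with
    | mem x hx =>
      obtain ⟨q, rfl⟩ := hx
      exact Or.inr (hall q)
    | one => exact Or.inl (map_one α)
    | mul u v _ _ iha ihb =>
      rw [map_mul]
      rcases iha with h | h <;> rcases ihb with h2 | h2 <;> rw [h, h2]
      · exact Or.inl (one_mul 1)
      · exact Or.inr (one_mul z)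
      · exact Or.inr (mul_one z)
      · exact Or.inl hzz
    | inv u _ iha =>
      rw [map_inv]
      rcases iha with h | h <;> rw [h]
      · exact Or.inl inv_one
      · right
        exact inv_eq_of_mul_eq_one_left hzz
  rw [Nat.card_eq_two_iff]
  refine ⟨1, z, hz1.symm, ?_⟩
  ext y
  simp only [Set.mem_insert_iff, Set.mem_singleton_iff, Set.mem_univ, iff_true]
  exact hcases y

/-- The commutator subgroup of the presented group Fi₂₄ has index 2 (the presented group is Fi₂₄′:2 with Fi₂₄′ its derived subgroup). -/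
theorem result : (commutator Cfsg.Spor.Fi24).index = 2 :=
  card_ab

end Cfsg.Agent.S1691
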