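import Cfsg.Statements.S1753
import Mathlib

set_option autoImplicit false
universe u
open Cfsg

namespace Cfsg.Agent.S1753

open Cfsg in
theorem kproper_of_smaller.{v} (K : ∀ (X : Type v) [Group X], Prop) (G : Type v) [Group G] [Finite G]
    (h : ∀ (X : Type v) [Group X] [Finite X],
      IsSimpleGroup X → ¬ IsMulCommutative X → Nat.card X < Nat.card G → K X) :
    Cfsg.IsKProperWith K G := by
  intro H hH H' N _ hs hc
  apply h _ hs hc
  have h1 : Nat.card (↥H' ⧸ N) ≤ Nat.card H' := by
    apply Nat.le_of_dvd Nat.card_pos
    exact Subgroup.card_quotient_dvd_card N
  have h2 : Nat.card H' ≤ Nat.card H := Subgroup.card_le_card_group H'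
  have h3 : Nat.card H ≤ Nat.card G := Subgroup.card_le_card_group H
  have h4 : Nat.card H ≠ Nat.card G := by
    intro h5
    exact hH (Subgroup.eq_top_of_card_eq H h5)
  omega

/-- Let K be any property of groups. (1) If G is a minimal counterexample relative to K — a finite non-abelian simple group not satisfying K such that every finite non-abelian simple group of smaller order satisfies K — then every proper subgroup of G is a K-group (all its non-abelian simple sections satisfy K), since such sections have smaller order than G. (2) Consequently (induction on the order), if every finite non-abelian simple group all of whose proper subgroups are K-groups satisfies K, then every finite non-abelian simple group satisfies K. -/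
theorem result (K : ∀ (X : Type u) [Group X], Prop) :
    (∀ (G : Type u) [Group G], Cfsg.IsMinCounterexampleWith K G → Cfsg.IsKProperWith K G) ∧
      ((∀ (X : Type u) [Group X] [Finite X], IsSimpleGroup X → ¬ IsMulCommutative X → Cfsg.IsKProperWith K X → K X) →
        ∀ (G : Type u) [Group G] [Finite G], IsSimpleGroup G → ¬ IsMulCommutative G → K G) := by

  constructor
  · intro G _ hG
    obtain ⟨hf, _, _, _, hmin⟩ := hG
    haveI := hf
    exact kproper_of_smaller K G hmin
  · intro hK
    have main : ∀ n : ℕ, ∀ (G : Type u) [Group G] [Finite G], Nat.card G = n → IsSimpleGroup G →
        ¬ IsMulCommutative G → K G := by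
      intro n
      induction n using Nat.strong_induction_on with
      | _ n ih =>
        intro G _ _ hn hs hc
        apply hK G hs hc
        apply kproper_of_smaller K G
        intro X _ _ hXs hXc hcard
        exact ih (Nat.card X) (hn ▸ hcard) X rfl hXs hXc
    intro G _ _ hs hc
    exact main _ G rfl hs hc

end Cfsg.Agent.S1753
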