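import Cfsg.Statements.S1754
import Mathlib
import Cfsg.Agent.Lib.TwoFusion.Basic2
import Cfsg.Agent.Lib.Components.Quasi

set_option autoImplicit false
open Cfsg

namespace Cfsg.Agent.S1754



/-- Let A be a standard subgroup of the finite group G (A quasisimple, C_G(A) tightly embedded of even order, A commuting elementwise with no other conjugate of itself, and N_G(A) = N_G(C_G(A))), and let t be an involution of G centralizing A. Then the centralizer of t lies in the normalizer of A; in particular A, viewed inside C_G(t), is a component of C_G(t). -/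
theorem result {G : Type*} [Group G] [Finite G]
    (A : Subgroup G) (hA : Cfsg.IsStandardSubgroup A) (t : G) (ht : orderOf t = 2) (htA : t ∈ Subgroup.centralizer (A : Set G)) :
    Subgroup.centralizer ({t} : Set G) ≤ Subgroup.normalizer (A : Set G) ∧
      Cfsg.IsComponent (A.subgroupOf (Subgroup.centralizer ({t} : Set G))) := by

  classical
  obtain ⟨hq, hte, _, hn⟩ := hA
  have hCt : Subgroup.centralizer ({t} : Set G) ≤ Subgroup.normalizer (A : Set G) := by
    intro h hh
    rw [hn]
    by_contra hnot
    have hodd := hte.2 h hnot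
    have hh' : h * t = t * h := Subgroup.mem_centralizer_singleton_iff.mp hh
    have hmem : t ∈ Subgroup.centralizer (A : Set G) ⊓
        (Subgroup.centralizer (A : Set G)).map (MulAut.conj h).toMonoidHom := by
      refine Subgroup.mem_inf.mpr ⟨htA, ?_⟩
      rw [Cfsg.Agent.Lib.TwoFusion.mem_conj_map]
      have : h⁻¹ * t * h = t := by
        rw [mul_assoc, ← hh']; group
      rwa [this]
    have h1 := orderOf_dvd_natCard (⟨t, hmem⟩ : ↥(Subgroup.centralizer (A : Set G) ⊓
        (Subgroup.centralizer (A : Set G)).map (MulAut.conj h).toMonoidHom))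
    rw [Subgroup.orderOf_mk, ht] at h1
    exact (Nat.not_even_iff_odd.mpr hodd) (even_iff_two_dvd.mpr h1)
  refine ⟨hCt, ?_⟩
  have hAC : A ≤ Subgroup.centralizer ({t} : Set G) := by
    intro a ha
    rw [Subgroup.mem_centralizer_singleton_iff]
    exact Subgroup.mem_centralizer_iff.mp htA a ha
  refine ⟨?_, ?_⟩
  · apply Subgroup.Normal.isSubnormal
    refine ⟨?_⟩
    intro x hx c
    rw [Subgroup.mem_subgroupOf] at hx ⊢
    exact (Subgroup.mem_normalizer_iff.mp (hCt c.2) x).mp hx
  · exact Cfsg.Agent.Lib.Components.qs_of_mulEquiv hq (Subgroup.subgroupOfEquivOfLe hAC).symm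

end Cfsg.Agent.S1754
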