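import Cfsg.Statements.S1755
import Mathlib
import Cfsg.Agent.Lib.TwoFusion.Basic2
import Cfsg.Agent.Lib.Components.Layer
import Cfsg.Agent.Lib.Transfer.Frattini

set_option autoImplicit false
open Cfsg

namespace Cfsg.Agent.S1755

theorem inv_unique {H : Type*} [Group H] [Finite H] [IsCyclic H] {a b : H} (ha : a ^ 2 = 1)
    (hb : b ^ 2 = 1) (ha1 : a ≠ 1) (hb1 : b ≠ 1) : a = b := by
  classical
  haveI := Fintype.ofFinite H
  by_contra hab
  have h1 := IsCyclic.card_pow_eq_one_le (α := H) (n := 2) (by norm_num)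
  have hsub : ({1, a, b} : Finset H) ⊆ Finset.univ.filter (fun x : H => x ^ 2 = 1) := by
    intro x hx
    simp only [Finset.mem_insert, Finset.mem_singleton] at hx
    rw [Finset.mem_filter]
    refine ⟨Finset.mem_univ _, ?_⟩
    rcases hx with rfl | rfl | rfl
    · simp
    · exact ha
    · exact hb
  have h2 := Finset.card_le_card hsub
  have h3 : ({1, a, b} : Finset H).card = 3 := by
    rw [Finset.card_eq_three]
    exact ⟨1, a, b, ha1.symm, hb1.symm, hab, rfl⟩
  omega

theorem aux {G : Type*} [Group G] [Finite G] (z : G) (hz : orderOf z = 2) (C : Subgroup G)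
    (hC : ∀ g : G, g ∈ C ↔ g * z = z * g) (Q : Subgroup ↥C) [hQn : Q.Normal]
    (hzQ : (⟨z, (hC z).mpr rfl⟩ : ↥C) ∈ Q) (hQ : Cfsg.IsOfSymplecticType ↥Q)
    (B : Subgroup ↥Q) (hBc : B.Characteristic) (hBa : IsMulCommutative ↥B) (g : G) :
    ((B.map Q.subtype).map C.subtype).map (MulAut.conj g).toMonoidHom =
        (B.map Q.subtype).map C.subtype ∨
      ((B.map Q.subtype).map C.subtype).map (MulAut.conj g).toMonoidHom ⊓
        (B.map Q.subtype).map C.subtype = ⊥ := by
  classical
  have hB' : (B.map Q.subtype).map C.subtype = B.map (C.subtype.comp Q.subtype) :=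
    Subgroup.map_map _ _ _
  rw [hB']
  set ι : ↥Q →* G := C.subtype.comp Q.subtype with hι
  have hιinj : Function.Injective ι := by
    intro a b hab
    exact Subtype.ext (Subtype.ext hab)
  have hz1 : z ≠ 1 := by
    rintro rfl
    simp at hz
  have hz2 : z ^ 2 = 1 := by rw [← hz, pow_orderOf_eq_one]
  let z₂ : ↥Q := ⟨⟨z, (hC z).mpr rfl⟩, hzQ⟩
  have hιz : ι z₂ = z := rfl
  have hz₂1 : z₂ ≠ 1 := by
    intro h
    apply hz1
    rw [← hιz, h, map_one]
  have hz₂2 : z₂ ^ 2 = 1 := by
    apply hιinj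
    rw [map_pow, hιz, hz2, map_one]
  have hz₂c : z₂ ∈ Subgroup.center ↥Q := by
    rw [Subgroup.mem_center_iff]
    intro y
    apply hιinj
    rw [map_mul, map_mul, hιz]
    have : ι y ∈ C := (y : ↥C).2
    exact ((hC _).mp this).symm ▸ rfl
  have hcyc : IsCyclic ↥(Subgroup.center ↥Q) := hQ.2 _ inferInstance inferInstance
  have hcycB : IsCyclic ↥B := hQ.2 B hBc hBa
  -- uniqueness in the centre
  have uniqC : ∀ a ∈ Subgroup.center ↥Q, a ^ 2 = 1 → a ≠ 1 → a = z₂ := by
    intro a ha ha2 ha1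
    have := inv_unique (H := ↥(Subgroup.center ↥Q)) (a := ⟨a, ha⟩) (b := ⟨z₂, hz₂c⟩)
      (Subtype.ext ha2) (Subtype.ext hz₂2) (fun h => ha1 (congrArg Subtype.val h))
      (fun h => hz₂1 (congrArg Subtype.val h))
    exact congrArg Subtype.val this
  have hBn : B.Normal := inferInstance
  by_cases hBbot : B = ⊥
  · right
    rw [hBbot]
    simp
  have hz₂B : z₂ ∈ B := by
    haveI : Fact (Nat.Prime 2) := ⟨Nat.prime_two⟩
    obtain ⟨j, hjB, hj1, hjc, hj2⟩ :=
      Cfsg.Agent.Lib.Transfer.exists_central_of_normal (p := 2) hQ.1 (N := B) hBbot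
    have hjC : j ∈ Subgroup.center ↥Q := by
      rw [Subgroup.mem_center_iff]
      exact hjc
    rw [← uniqC j hjC hj2 hj1]
    exact hjB
  -- uniqueness in `B`
  have uniqB : ∀ a ∈ B, a ^ 2 = 1 → a ≠ 1 → a = z₂ := by
    intro a ha ha2 ha1
    have := inv_unique (H := ↥B) (a := ⟨a, ha⟩) (b := ⟨z₂, hz₂B⟩)
      (Subtype.ext ha2) (Subtype.ext hz₂2) (fun h => ha1 (congrArg Subtype.val h))
      (fun h => hz₂1 (congrArg Subtype.val h))
    exact congrArg Subtype.val this
  have uniqI : ∀ x ∈ B.map ι, x ^ 2 = 1 → x ≠ 1 → x = z := by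
    rintro _ ⟨a, ha, rfl⟩ hx2 hx1
    have ha2 : a ^ 2 = 1 := by
      apply hιinj
      rw [map_pow, hx2, map_one]
    have ha1 : a ≠ 1 := by
      rintro rfl
      exact hx1 (map_one _)
    rw [uniqB a ha ha2 ha1, hιz]
  -- normality in `C`
  have hnorm : ∀ h ∈ C, ∀ x ∈ B.map ι, h * x * h⁻¹ ∈ B.map ι := by
    rintro h hh _ ⟨b, hb, rfl⟩
    let ϕ : MulAut ↥Q := MulAut.conjNormal (⟨h, hh⟩ : ↥C)
    have h1 : ϕ b ∈ B := by
      have := hBc.fixed ϕ
      have h2 : b ∈ B.comap ϕ.toMonoidHom := by rw [this]; exact hb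
      exact h2
    refine ⟨ϕ b, h1, ?_⟩
    simp [ϕ, hι, MulAut.conjNormal_apply]
  by_cases hgC : g ∈ C
  · left
    ext x
    rw [Cfsg.Agent.Lib.TwoFusion.mem_conj_map]
    constructor
    · intro hx
      have := hnorm g hgC _ hx
      have e : g * (g⁻¹ * x * g) * g⁻¹ = x := by group
      rwa [e] at this
    · intro hx
      have := hnorm g⁻¹ (C.inv_mem hgC) x hx
      rwa [inv_inv] at this
  · right
    rw [eq_bot_iff]
    intro x hx
    rw [Subgroup.mem_bot]
    by_contra hx1
    obtain ⟨hx₁, hx₂⟩ := Subgroup.mem_inf.mp hx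
    rw [Cfsg.Agent.Lib.TwoFusion.mem_conj_map] at hx₁
    -- an involution in `⟨x⟩`
    have hxQ : ∃ k : ℕ, orderOf x = 2 ^ k := by
      obtain ⟨b, _, rfl⟩ := hx₂
      obtain ⟨k, hk⟩ := IsPGroup.iff_orderOf.mp hQ.1 b
      refine ⟨k, ?_⟩
      rw [orderOf_injective ι hιinj, hk]
    obtain ⟨k, hk⟩ := hxQ
    have hk0 : k ≠ 0 := by
      rintro rfl
      simp at hk
      exact hx1 hk
    obtain ⟨m, rfl⟩ := Nat.exists_eq_succ_of_ne_zero hk0
    set y := x ^ 2 ^ m with hy
    have hy1 : y ≠ 1 := by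
      intro h1
      have h2 := orderOf_dvd_of_pow_eq_one h1
      rw [hk] at h2
      have := Nat.le_of_dvd (by positivity) h2
      rw [pow_succ] at this
      have : 0 < 2 ^ m := by positivity
      omega
    have hy2 : y ^ 2 = 1 := by
      rw [hy, ← pow_mul, ← pow_succ, ← hk, pow_orderOf_eq_one]
    have hyB : y ∈ B.map ι := Subgroup.pow_mem _ hx₂ _
    have cp : ∀ (a : G) (n : ℕ), (g⁻¹ * a * g) ^ n = g⁻¹ * a ^ n * g := by
      intro a n
      have := conj_pow (a := g⁻¹) (b := a) (i := n)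
      simpa using this
    have hyB' : g⁻¹ * y * g ∈ B.map ι := by
      have e : g⁻¹ * y * g = (g⁻¹ * x * g) ^ 2 ^ m := by
        rw [hy, cp]
      rw [e]
      exact Subgroup.pow_mem _ hx₁ _
    have e1 : y = z := uniqI y hyB hy2 hy1
    have e2 : g⁻¹ * y * g = z := by
      apply uniqI _ hyB'
      · rw [cp, hy2]
        simp
      · intro h
        apply hy1
        have : y = g * (g⁻¹ * y * g) * g⁻¹ := by group
        rw [this, h]
        group
    apply hgC
    rw [hC]
    rw [e1] at e2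
    calc g * z = g * (g⁻¹ * z * g) := by rw [e2]
      _ = z * g := by group

/-- Let G be a finite group and let z be an involution of G such that Q, the generalized Fitting subgroup of the centralizer C of z, is a 2-group of symplectic type (every characteristic abelian subgroup of Q is cyclic). Let B be a characteristic abelian subgroup of Q, viewed as a subgroup of G. Then for every g in G, the conjugate of B by g either equals B or meets B trivially. -/
theorem result {G : Type*} [Group G] [Finite G] (z : G) (hz : orderOf z = 2) (hQ : Cfsg.IsOfSymplecticType ↥(Cfsg.generalizedFittingSubgroup ↥(Subgroup.centralizer ({z} : Set G))))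
    (B : Subgroup ↥(Cfsg.generalizedFittingSubgroup ↥(Subgroup.centralizer ({z} : Set G)))) (hBc : B.Characteristic) (hBa : IsMulCommutative ↥B) (g : G) :
    ((B.map (Cfsg.generalizedFittingSubgroup ↥(Subgroup.centralizer ({z} : Set G))).subtype).map (Subgroup.centralizer ({z} : Set G)).subtype).map (MulAut.conj g).toMonoidHom =
        (B.map (Cfsg.generalizedFittingSubgroup ↥(Subgroup.centralizer ({z} : Set G))).subtype).map (Subgroup.centralizer ({z} : Set G)).subtype ∨
      ((B.map (Cfsg.generalizedFittingSubgroup ↥(Subgroup.centralizer ({z} : Set G))).subtype).map (Subgroup.centralizer ({z} : Set G)).subtype).map (MulAut.conj g).toMonoidHom ⊓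
        (B.map (Cfsg.generalizedFittingSubgroup ↥(Subgroup.centralizer ({z} : Set G))).subtype).map (Subgroup.centralizer ({z} : Set G)).subtype = ⊥ := by

  classical
  have hC : ∀ g : G, g ∈ Subgroup.centralizer ({z} : Set G) ↔ g * z = z * g := fun g => by
    rw [Subgroup.mem_centralizer_singleton_iff]
  have hzQ : (⟨z, (hC z).mpr rfl⟩ : ↥(Subgroup.centralizer ({z} : Set G))) ∈
      Cfsg.generalizedFittingSubgroup ↥(Subgroup.centralizer ({z} : Set G)) := by
    apply Cfsg.Agent.Lib.Components.centralizer_gfit_le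
    rw [Subgroup.mem_centralizer_iff]
    intro h _
    apply Subtype.ext
    exact ((hC _).mp h.2)
  exact aux z hz _ hC _ hzQ hQ B hBc hBa g

end Cfsg.Agent.S1755
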