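import Cfsg.Statements.S1756
import Mathlib
import Cfsg.Agent.Lib.Basic.Frattini

set_option autoImplicit false
open Cfsg

namespace Cfsg.Agent.S1756

theorem sum_eq_zero_of_hom {X : Type*} [Group X] [Fintype X] (f : X → ℤ)
    (hm : ∀ a b, f (a * b) = f a * f b) (x₀ : X) (h : f x₀ = -1) : ∑ x, f x = 0 := by
  have h1 : ∑ x, f x = ∑ x, f (x₀ * x) :=
    (Equiv.sum_comp (Equiv.mulLeft x₀) f).symm
  have h2 : ∑ x, f (x₀ * x) = - ∑ x, f x := by
    rw [← Finset.sum_neg_distrib]
    apply Finset.sum_congr rfl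
    intro x _
    rw [hm, h]; ring
  omega

theorem exists_inner {Q : Type*} [Group Q] [Finite Q]
    (hZ : Nat.card (Subgroup.center Q) = 2)
    (hc : ∀ a b : Q, a * b * a⁻¹ * b⁻¹ ∈ Subgroup.center Q)
    (lam : Q → Q) (hl : ∀ y, lam y ∈ Subgroup.center Q)
    (hlm : ∀ y y', lam (y * y') = lam y * lam y')
    (hlz : ∀ y ∈ Subgroup.center Q, lam y = 1) :
    ∃ w : Q, ∀ y, w * y * w⁻¹ * y⁻¹ = lam y := by
  classical
  haveI := Fintype.ofFinite Q
  -- the centre has exactly two elements
  have huniq : ∀ a ∈ Subgroup.center Q, a ≠ 1 → ∀ b ∈ Subgroup.center Q, b ≠ 1 → a = b := by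
    intro a ha ha1 b hb hb1
    by_contra hab
    haveI : Fintype (Subgroup.center Q) := Fintype.ofFinite _
    have h1 : Fintype.card (Subgroup.center Q) = 2 := by rw [← Nat.card_eq_fintype_card, hZ]
    have h2 : ({1, ⟨a, ha⟩, ⟨b, hb⟩} : Finset (Subgroup.center Q)).card = 3 := by
      rw [Finset.card_eq_three]
      refine ⟨1, ⟨a, ha⟩, ⟨b, hb⟩, ?_, ?_, ?_, rfl⟩
      · intro h; exact ha1 (congrArg Subtype.val h).symm
      · intro h; exact hb1 (congrArg Subtype.val h).symm
      · intro h; exact hab (congrArg Subtype.val h)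
    have h3 := Finset.card_le_univ ({1, ⟨a, ha⟩, ⟨b, hb⟩} : Finset (Subgroup.center Q))
    omega
  have hsq : ∀ a ∈ Subgroup.center Q, a * a = 1 := by
    intro a ha
    by_contra h
    have ha1 : a ≠ 1 := by
      rintro rfl
      exact h (mul_one 1)
    have := huniq (a * a) (Subgroup.mul_mem _ ha ha) h a ha ha1
    exact ha1 (by simpa using this)
  let s : Q → ℤ := fun u => if u = 1 then 1 else -1
  have hs1 : s 1 = 1 := by simp [s]
  have hsne : ∀ u, u ≠ 1 → s u = -1 := by
    intro u hu; simp [s, hu]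
  have hsval : ∀ u, s u = 1 ∨ s u = -1 := by
    intro u
    by_cases h : u = 1
    · left; simp [s, h]
    · right; simp [s, h]
  have hsm : ∀ a ∈ Subgroup.center Q, ∀ b ∈ Subgroup.center Q, s (a * b) = s a * s b := by
    intro a ha b hb
    by_cases ha1 : a = 1
    · subst ha1; simp [hs1]
    by_cases hb1 : b = 1
    · subst hb1; simp [hs1]
    have hab := huniq a ha ha1 b hb hb1
    subst hab
    rw [hsq a ha, hs1, hsne a ha1]
    norm_num
  have hsinj : ∀ a ∈ Subgroup.center Q, ∀ b ∈ Subgroup.center Q, s a = s b → a = b := by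
    intro a ha b hb h
    by_cases ha1 : a = 1
    · by_cases hb1 : b = 1
      · rw [ha1, hb1]
      · rw [ha1, hs1, hsne b hb1] at h
        norm_num at h
    · by_cases hb1 : b = 1
      · rw [hb1, hs1, hsne a ha1] at h
        norm_num at h
      · exact huniq a ha ha1 b hb hb1
  have hcent : ∀ z ∈ Subgroup.center Q, ∀ u : Q, z * u = u * z := by
    intro z hz u
    exact (Subgroup.mem_center_iff.mp hz u).symm
  have c1 : ∀ w w' y : Q, (w * w') * y * (w * w')⁻¹ * y⁻¹ =
      (w * y * w⁻¹ * y⁻¹) * (w' * y * w'⁻¹ * y⁻¹) := by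
    intro w w' y
    have h1 := hcent _ (hc w' y) w
    calc (w * w') * y * (w * w')⁻¹ * y⁻¹
        = w * ((w' * y * w'⁻¹ * y⁻¹) * y) * w⁻¹ * y⁻¹ := by group
      _ = (w * (w' * y * w'⁻¹ * y⁻¹)) * (y * w⁻¹ * y⁻¹) := by group
      _ = ((w' * y * w'⁻¹ * y⁻¹) * w) * (y * w⁻¹ * y⁻¹) := by rw [h1]
      _ = (w' * y * w'⁻¹ * y⁻¹) * (w * y * w⁻¹ * y⁻¹) := by group
      _ = (w * y * w⁻¹ * y⁻¹) * (w' * y * w'⁻¹ * y⁻¹) :=
        hcent _ (hc w' y) _
  have c2 : ∀ w y y' : Q, w * (y * y') * w⁻¹ * (y * y')⁻¹ =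
      (w * y * w⁻¹ * y⁻¹) * (w * y' * w⁻¹ * y'⁻¹) := by
    intro w y y'
    have h1 := hcent _ (hc w y') y⁻¹
    calc w * (y * y') * w⁻¹ * (y * y')⁻¹
        = (w * y * w⁻¹) * ((w * y' * w⁻¹ * y'⁻¹) * y⁻¹) := by group
      _ = (w * y * w⁻¹) * (y⁻¹ * (w * y' * w⁻¹ * y'⁻¹)) := by rw [h1]
      _ = (w * y * w⁻¹ * y⁻¹) * (w * y' * w⁻¹ * y'⁻¹) := by group
  let F : Q → Q → ℤ := fun w y => s (w * y * w⁻¹ * y⁻¹) * s (lam y)
  have hFy : ∀ w y y', F w (y * y') = F w y * F w y' := by
    intro w y y'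
    show s _ * s _ = (s _ * s _) * (s _ * s _)
    rw [c2, hlm, hsm _ (hc w y) _ (hc w y'), hsm _ (hl y) _ (hl y')]
    ring
  have hFw : ∀ y w w', s ((w * w') * y * (w * w')⁻¹ * y⁻¹) =
      s (w * y * w⁻¹ * y⁻¹) * s (w' * y * w'⁻¹ * y⁻¹) := by
    intro y w w'
    rw [c1, hsm _ (hc w y) _ (hc w' y)]
  have htotal : ∑ w, ∑ y, F w y ≠ 0 := by
    rw [Finset.sum_comm]
    have hg : ∀ y : Q, ∑ w, F w y = (if y ∈ Subgroup.center Q then (Fintype.card Q : ℤ) else 0) := by
      intro y
      by_cases hy : y ∈ Subgroup.center Q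
      · rw [if_pos hy]
        have : ∀ w, F w y = 1 := by
          intro w
          show s _ * s _ = 1
          have e : w * y * w⁻¹ * y⁻¹ = 1 := by
            rw [← hcent y hy w]; group
          rw [e, hlz y hy, hs1]; norm_num
        simp [this]
      · rw [if_neg hy]
        have : ∀ w, F w y = s (w * y * w⁻¹ * y⁻¹) * s (lam y) := fun w => rfl
        simp only [this]
        rw [← Finset.sum_mul]
        obtain ⟨w₀, hw₀⟩ : ∃ w₀ : Q, w₀ * y ≠ y * w₀ := by
          by_contra hcon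
          push Not at hcon
          exact hy (Subgroup.mem_center_iff.mpr hcon)
        have h0 : s (w₀ * y * w₀⁻¹ * y⁻¹) = -1 := by
          apply hsne
          intro h
          apply hw₀
          calc w₀ * y = (w₀ * y * w₀⁻¹ * y⁻¹) * (y * w₀) := by group
            _ = y * w₀ := by rw [h, one_mul]
        rw [sum_eq_zero_of_hom (fun w => s (w * y * w⁻¹ * y⁻¹)) (hFw y) w₀ h0, zero_mul]
    simp only [hg]
    have hpos : 0 < ∑ y : Q, (if y ∈ Subgroup.center Q then (Fintype.card Q : ℤ) else 0) := by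
      apply Finset.sum_pos'
      · intro y _
        split_ifs <;> positivity
      · refine ⟨1, Finset.mem_univ _, ?_⟩
        rw [if_pos (Subgroup.one_mem _)]
        exact_mod_cast Fintype.card_pos
    exact hpos.ne'
  obtain ⟨w, hw⟩ : ∃ w, ∑ y, F w y ≠ 0 := by
    by_contra hcon
    push Not at hcon
    apply htotal
    exact Finset.sum_eq_zero (fun w _ => hcon w)
  refine ⟨w, fun y => ?_⟩
  have hFval : F w y = 1 := by
    have h1 : F w y = 1 ∨ F w y = -1 := by
      show s _ * s _ = 1 ∨ s _ * s _ = -1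
      rcases hsval (w * y * w⁻¹ * y⁻¹) with h | h <;> rcases hsval (lam y) with h' | h' <;>
        rw [h, h'] <;> norm_num
    rcases h1 with h1 | h1
    · exact h1
    · exact absurd (sum_eq_zero_of_hom (F w) (hFy w) y h1) hw
  apply hsinj _ (hc w y) _ (hl y)
  have hFval' : s (w * y * w⁻¹ * y⁻¹) * s (lam y) = 1 := hFval
  rcases hsval (w * y * w⁻¹ * y⁻¹) with h | h <;> rcases hsval (lam y) with h' | h' <;>
    rw [h, h'] at hFval' ⊢ <;> first | rfl | (norm_num at hFval')

theorem lam_central {Q : Type*} [Group Q] (τ : Q →* Q) (hτ2 : ∀ a, τ (τ a) = a)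
    (hZfix : ∀ z ∈ Subgroup.center Q, τ z = z)
    (hcomm : ∀ a b : Q, a * b * a⁻¹ * b⁻¹ ∈ Subgroup.center Q)
    (hsq : ∀ a : Q, a * a ∈ Subgroup.center Q)
    (hprod : ∀ x x' : Q, τ x ≠ x → τ x' ≠ x' → τ (x * x') = x * x') (x : Q) :
    τ x * x⁻¹ ∈ Subgroup.center Q := by
  by_cases hx : τ x = x
  · rw [hx, mul_inv_cancel]
    exact Subgroup.one_mem _
  set d := τ x * x⁻¹ with hd
  have e0 : τ x = d * x := by rw [hd]; group
  have e1 : τ (d * x) = x := by rw [← e0, hτ2]
  have e2 : τ d = d := by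
    by_contra h
    have h1 := hprod d x h hx
    rw [e1] at h1
    have : d = 1 := by
      have h2 : 1 * x = d * x := by rw [one_mul]; exact h1
      exact (mul_right_cancel h2).symm
    rw [this, map_one] at h
    exact h rfl
  have e3 : d * d = 1 := by
    have h1 : τ (d * x) = d * (d * x) := by rw [map_mul, e2, e0]
    rw [e1] at h1
    have h2 : (d * d) * x = 1 * x := by
      rw [one_mul, mul_assoc]; exact h1.symm
    exact mul_right_cancel h2
  have dinv : d⁻¹ = d := inv_eq_of_mul_eq_one_left e3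
  have e4 : d * x = x * d := by
    have h1 := hZfix _ (hsq x)
    rw [map_mul, e0] at h1
    have h2 : d * x * d * x = x * x := by rw [← h1]; group
    have h3 : d * x * d = x := by
      have : (d * x * d) * x = x * x := h2
      exact mul_right_cancel this
    calc d * x = d * x * (d * d) := by rw [e3, mul_one]
      _ = (d * x * d) * d := by group
      _ = x * d := by rw [h3]
  have e5 : ∀ y, τ y = y → d * y = y * d := by
    intro y hy
    set c := x * y * x⁻¹ * y⁻¹ with hc
    have hcZ : c ∈ Subgroup.center Q := hcomm x y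
    have h1 : τ c = c := hZfix c hcZ
    have h2 : τ c = d * (x * y * x⁻¹) * d⁻¹ * y⁻¹ := by
      rw [hc]
      simp only [map_mul, map_inv, e0, hy]
      group
    have h3 : x * y * x⁻¹ = c * y := by rw [hc]; group
    rw [h3] at h2
    have h4 : d * (c * y) * d⁻¹ * y⁻¹ = c * (d * y * d⁻¹ * y⁻¹) := by
      have hcd : d * c = c * d := (Subgroup.mem_center_iff.mp hcZ d)
      calc d * (c * y) * d⁻¹ * y⁻¹ = (d * c) * y * d⁻¹ * y⁻¹ := by group
        _ = (c * d) * y * d⁻¹ * y⁻¹ := by rw [hcd]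
        _ = c * (d * y * d⁻¹ * y⁻¹) := by group
    rw [h4, h1] at h2
    have h5 : d * y * d⁻¹ * y⁻¹ = 1 := by
      have : c * 1 = c * (d * y * d⁻¹ * y⁻¹) := by rw [mul_one]; exact h2
      exact (mul_left_cancel this).symm
    calc d * y = (d * y * d⁻¹ * y⁻¹) * (y * d) := by group
      _ = y * d := by rw [h5, one_mul]
  rw [Subgroup.mem_center_iff]
  intro q
  by_cases hq : τ q = q
  · exact (e5 q hq).symm
  · have h1 := hprod x q hx hq
    have h2 := e5 _ h1
    have h3 : d * q = q * d := by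
      have : q = x⁻¹ * (x * q) := by group
      calc d * q = d * (x⁻¹ * (x * q)) := by rw [← this]
        _ = (d * x⁻¹) * (x * q) := by group
        _ = (x⁻¹ * d) * (x * q) := by
          have : d * x⁻¹ = x⁻¹ * d := by
            have := (Commute.inv_right (show Commute d x from e4)).eq
            exact this
          rw [this]
        _ = x⁻¹ * (d * (x * q)) := by group
        _ = x⁻¹ * ((x * q) * d) := by rw [h2]
        _ = q * d := by group
    exact h3.symm

/-- Let Q be an extraspecial 2-subgroup of the finite group G (special with centre of order 2) and t an involution of G normalizing Q such that the centralizer of t in Q has index at most 2 in Q. Then t lies in the product of Q with the centralizer of Q. -/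
theorem result {G : Type*} [Group G] [Finite G] (Q : Subgroup G)
    (hQ : Cfsg.IsExtraspecial 2 ↥Q) (t : G) (ht : orderOf t = 2) (htN : t ∈ Subgroup.normalizer (Q : Set G))
    (hi : (Subgroup.centralizer ({t} : Set G) ⊓ Q).relIndex Q ≤ 2) :
    t ∈ Q ⊔ Subgroup.centralizer (Q : Set G) := by

  classical
  haveI : Finite ↥Q := inferInstance
  obtain ⟨⟨hp, hfr, hcm⟩, hZ⟩ := hQ
  haveI : Fact (Nat.Prime 2) := ⟨Nat.prime_two⟩
  have ht2 : t * t = 1 := by rw [← pow_two, ← ht, pow_orderOf_eq_one]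
  have tinv : t⁻¹ = t := inv_eq_of_mul_eq_one_left ht2
  have hmem : ∀ q : ↥Q, t * (q : G) * t⁻¹ ∈ Q := fun q =>
    (Subgroup.mem_normalizer_iff.mp htN q).mp q.2
  let τ : ↥Q →* ↥Q :=
    { toFun := fun q => ⟨t * (q : G) * t⁻¹, hmem q⟩
      map_one' := by apply Subtype.ext; simp
      map_mul' := by
        intro a b
        apply Subtype.ext
        show t * ((a : G) * (b : G)) * t⁻¹ = (t * (a : G) * t⁻¹) * (t * (b : G) * t⁻¹)
        group }
  have hτ : ∀ q : ↥Q, ((τ q : ↥Q) : G) = t * (q : G) * t⁻¹ := fun _ => rfl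
  have hτ2 : ∀ a, τ (τ a) = a := by
    intro a
    apply Subtype.ext
    rw [hτ, hτ, tinv]
    calc t * (t * (a : G) * t) * t = (t * t) * a * (t * t) := by group
      _ = a := by rw [ht2]; group
  have hτinj : Function.Injective τ := fun a b h => by
    have := congrArg τ h
    rwa [hτ2, hτ2] at this
  have hτsurj : Function.Surjective τ := fun a => ⟨τ a, hτ2 a⟩
  -- the centre
  have huniq : ∀ a ∈ Subgroup.center ↥Q, a ≠ 1 → ∀ b ∈ Subgroup.center ↥Q, b ≠ 1 → a = b := by
    intro a ha ha1 b hb hb1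
    by_contra hab
    haveI : Fintype (Subgroup.center ↥Q) := Fintype.ofFinite _
    have h1 : Fintype.card (Subgroup.center ↥Q) = 2 := by rw [← Nat.card_eq_fintype_card, hZ]
    have h2 : ({1, ⟨a, ha⟩, ⟨b, hb⟩} : Finset (Subgroup.center ↥Q)).card = 3 := by
      rw [Finset.card_eq_three]
      refine ⟨1, ⟨a, ha⟩, ⟨b, hb⟩, ?_, ?_, ?_, rfl⟩
      · intro h; exact ha1 (congrArg Subtype.val h).symm
      · intro h; exact hb1 (congrArg Subtype.val h).symm
      · intro h; exact hab (congrArg Subtype.val h)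
    have h3 := Finset.card_le_univ ({1, ⟨a, ha⟩, ⟨b, hb⟩} : Finset (Subgroup.center ↥Q))
    omega
  have hZfix : ∀ z ∈ Subgroup.center ↥Q, τ z = z := by
    intro z hz
    by_cases hz1 : z = 1
    · rw [hz1, map_one]
    have h1 : τ z ∈ Subgroup.center ↥Q := by
      rw [Subgroup.mem_center_iff]
      intro y
      obtain ⟨y', rfl⟩ := hτsurj y
      rw [← map_mul, ← map_mul, Subgroup.mem_center_iff.mp hz y']
    have h2 : τ z ≠ 1 := by
      intro h
      apply hz1
      apply hτinj
      rw [h, map_one]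
    exact huniq _ h1 h2 _ hz hz1
  have hcomm : ∀ a b : ↥Q, a * b * a⁻¹ * b⁻¹ ∈ Subgroup.center ↥Q := by
    intro a b
    rw [← hcm]
    exact Subgroup.commutator_mem_commutator (Subgroup.mem_top a) (Subgroup.mem_top b)
  have hsq : ∀ a : ↥Q, a * a ∈ Subgroup.center ↥Q := by
    intro a
    rw [← hfr, ← pow_two]
    exact Cfsg.Agent.Lib.Basic.pow_mem_frattini_of_isPGroup hp a
  -- index
  let C : Subgroup ↥Q := (Subgroup.centralizer ({t} : Set G)).subgroupOf Q
  have hC : ∀ q : ↥Q, q ∈ C ↔ τ q = q := by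
    intro q
    rw [Subgroup.mem_subgroupOf, Subgroup.mem_centralizer_singleton_iff]
    constructor
    · intro h
      apply Subtype.ext
      rw [hτ, ← h]
      group
    · intro h
      have := congrArg Subtype.val h
      rw [hτ] at this
      calc (q : G) * t = (t * (q : G) * t⁻¹) * t := by rw [this]
        _ = t * q := by group
  have hidx : C.index ≤ 2 := by
    have e : (Subgroup.centralizer ({t} : Set G) ⊓ Q).subgroupOf Q = C := by
      rw [Subgroup.inf_subgroupOf_right]
    have : (Subgroup.centralizer ({t} : Set G) ⊓ Q).relIndex Q = C.index := by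
      rw [Subgroup.relIndex, e]
    omega
  have hprod : ∀ x x' : ↥Q, τ x ≠ x → τ x' ≠ x' → τ (x * x') = x * x' := by
    intro x x' hx hx'
    have hxC : x ∉ C := fun h => hx ((hC x).mp h)
    have hx'C : x' ∉ C := fun h => hx' ((hC x').mp h)
    have h0 : C.index ≠ 0 := Subgroup.index_ne_zero_of_finite
    have h1 : C.index ≠ 1 := by
      intro h
      rw [Subgroup.index_eq_one] at h
      apply hxC
      rw [h]
      trivial
    have h2 : C.index = 2 := by omega
    apply (hC _).mp
    rw [Subgroup.mul_mem_iff_of_index_two h2]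
    simp [hxC, hx'C]
  have hlam : ∀ x, τ x * x⁻¹ ∈ Subgroup.center ↥Q :=
    lam_central τ hτ2 hZfix hcomm hsq hprod
  obtain ⟨w, hw⟩ := exists_inner hZ hcomm (fun y => τ y * y⁻¹) hlam
    (by
      intro y y'
      have h1 := (Subgroup.mem_center_iff.mp (hlam y') y⁻¹)
      calc τ (y * y') * (y * y')⁻¹ = τ y * (τ y' * y'⁻¹) * y⁻¹ := by
            rw [map_mul]; group
        _ = τ y * ((τ y' * y'⁻¹) * y⁻¹) := by group
        _ = τ y * (y⁻¹ * (τ y' * y'⁻¹)) := by rw [h1]
        _ = τ y * y⁻¹ * (τ y' * y'⁻¹) := by group)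
    (by
      intro y hy
      show τ y * y⁻¹ = 1
      rw [hZfix y hy, mul_inv_cancel])
  have hwy : ∀ y : ↥Q, τ y = w * y * w⁻¹ := by
    intro y
    have := hw y
    have h2 : w * y * w⁻¹ * y⁻¹ * y = τ y * y⁻¹ * y := by rw [this]
    simpa using h2.symm
  have hcen : (w : G)⁻¹ * t ∈ Subgroup.centralizer (Q : Set G) := by
    rw [Subgroup.mem_centralizer_iff]
    intro q hq
    have h1 := congrArg Subtype.val (hwy ⟨q, hq⟩)
    rw [hτ] at h1
    simp only [Subgroup.coe_mul, Subgroup.coe_inv] at h1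
    have h2 : t * q = (w : G) * q * (w : G)⁻¹ * t := by
      rw [← h1]; group
    calc q * ((w : G)⁻¹ * t) = (w : G)⁻¹ * ((w : G) * q * (w : G)⁻¹ * t) := by group
      _ = (w : G)⁻¹ * (t * q) := by rw [h2]
      _ = (w : G)⁻¹ * t * q := by group
  have : t = (w : G) * ((w : G)⁻¹ * t) := by group
  rw [this]
  exact Subgroup.mul_mem_sup w.2 hcen

end Cfsg.Agent.S1756
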