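import Cfsg.Statements.S1780


set_option autoImplicit false
open Cfsg

namespace Cfsg.Agent.S1780



/-- Let A be a finite abelian 2-group and t an automorphism of A whose order is a power of 2. If every element of A fixed by t² is fixed by t, then t fixes every element of A. -/
theorem result {A : Type*} [CommGroup A] [Finite A]
    (hA : IsPGroup 2 A) (t : MulAut A) (ht : ∃ k : ℕ, orderOf t = 2 ^ k) (hC : ∀ a : A, t (t a) = a → t a = a) :
    ∀ a : A, t a = a := by

  classical
  haveI := Fintype.ofFinite A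
  obtain ⟨k, hk⟩ := ht
  by_contra hcon
  push Not at hcon
  obtain ⟨a₀, ha₀⟩ := hcon
  let f : A →* A :=
    { toFun := fun a => t a / a
      map_one' := by simp
      map_mul' := by intro a b; simp [mul_div_mul_comm] }
  have hfa : ∀ a, f a = t a / a := fun _ => rfl
  let B : Subgroup A := f.range
  have hB : ∀ b ∈ B, t b ∈ B := by
    rintro _ ⟨a, rfl⟩
    exact ⟨t a, by simp [hfa]⟩
  let g : Function.End B := fun b => ⟨t b, hB b b.2⟩
  have hgn : ∀ n (b : B), (((g ^ n) b : B) : A) = (t ^ n) b.1 := by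
    intro n
    induction n with
    | zero => intro b; simp only [pow_zero]; rfl
    | succ n ih =>
      intro b
      rw [pow_succ', pow_succ']
      have : ((g * g ^ n) b : B) = g ((g ^ n) b) := rfl
      rw [this]
      show t (((g ^ n) b : B) : A) = _
      rw [ih]
      rfl
  have hg1 : g ^ 2 ^ k = 1 := by
    funext b
    apply Subtype.ext
    rw [hgn, ← hk, pow_orderOf_eq_one]
    rfl
  haveI : Fact (Nat.Prime 2) := ⟨Nat.prime_two⟩
  haveI : Fintype B := Fintype.ofFinite _
  have hmod := Equiv.Perm.card_fixedPoints_modEq (p := 2) hg1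
  have hBp : IsPGroup 2 B := hA.to_subgroup B
  have hne : Nontrivial B := by
    refine ⟨⟨⟨f a₀, ⟨a₀, rfl⟩⟩, 1, ?_⟩⟩
    intro h
    have : t a₀ / a₀ = 1 := congrArg Subtype.val h
    exact ha₀ (div_eq_one.mp this)
  have hBe : 2 ∣ Fintype.card B := by
    obtain ⟨m, hm⟩ := hBp.exists_card_eq
    rw [← Nat.card_eq_fintype_card, hm]
    have hm0 : m ≠ 0 := by
      rintro rfl
      have : Nat.card B = 1 := by simpa using hm
      exact (Finite.one_lt_card (α := B)).ne' this
    exact dvd_pow_self 2 hm0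
  have hfe : 2 ∣ Fintype.card (Function.fixedPoints g) :=
    (Nat.ModEq.dvd_iff hmod (dvd_refl 2)).mp hBe
  have hone : (1 : B) ∈ Function.fixedPoints g := by
    show g 1 = 1
    apply Subtype.ext
    show t 1 = 1
    simp
  have h2 : 1 < Fintype.card (Function.fixedPoints g) := by
    have hpos : 0 < Fintype.card (Function.fixedPoints g) :=
      Fintype.card_pos_iff.mpr ⟨⟨1, hone⟩⟩
    omega
  obtain ⟨⟨b, hb⟩, hb1⟩ := Fintype.exists_ne_of_one_lt_card h2 ⟨1, hone⟩
  have hb1' : b ≠ 1 := fun h => hb1 (Subtype.ext h)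
  have hbt : t b.1 = b.1 := congrArg Subtype.val hb
  obtain ⟨j, hj⟩ := hBp.exists_card_eq
  have hob : ∃ m, orderOf b = 2 ^ m := by
    obtain ⟨m, hm⟩ := (Nat.dvd_prime_pow Nat.prime_two).mp (hj ▸ orderOf_dvd_natCard b)
    exact ⟨m, hm.2⟩
  obtain ⟨m, hm⟩ := hob
  have hm0 : m ≠ 0 := by
    rintro rfl
    simp at hm
    exact hb1' hm
  obtain ⟨m, rfl⟩ := Nat.exists_eq_succ_of_ne_zero hm0
  set c : B := b ^ 2 ^ m with hc
  have hc1 : c ≠ 1 := by
    intro h
    have := orderOf_dvd_of_pow_eq_one h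
    rw [hm] at this
    have := Nat.le_of_dvd (by positivity) this
    rw [pow_succ] at this
    have : 0 < 2 ^ m := by positivity
    omega
  have hc2 : c.1 * c.1 = 1 := by
    have : c * c = 1 := by
      rw [hc, ← pow_two, ← pow_mul, ← pow_succ, ← hm, pow_orderOf_eq_one]
    exact congrArg Subtype.val this
  have hct : t c.1 = c.1 := by
    have : c.1 = b.1 ^ 2 ^ m := by simp [hc]
    rw [this, map_pow, hbt]
  obtain ⟨a, ha⟩ := c.2
  have hta : t a = c.1 * a := by
    rw [← ha, hfa]; simp
  have htta : t (t a) = a := by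
    rw [hta, map_mul, hct, hta, ← mul_assoc, hc2, one_mul]
  have h := hC a htta
  apply hc1
  apply Subtype.ext
  rw [← ha, hfa, h, div_self']
  rfl

end Cfsg.Agent.S1780
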