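import Cfsg.Statements.S1781
import Mathlib
import Cfsg.Agent.Lib.TwoFusion.TI
import Cfsg.Agent.S1780

set_option autoImplicit false
open Cfsg

namespace Cfsg.Agent.S1781



/-- Let A be an abelian 2-subgroup of the finite group G such that every conjugate of A equals A or meets A trivially, and let g ∈ G with g A g⁻¹ ≠ A. Then either the subgroup of those elements of A that normalize g A g⁻¹ is an elementary abelian 2-group, or A and g A g⁻¹ commute elementwise. -/
theorem result {G : Type*} [Group G] [Finite G] (A : Subgroup G)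
    (hA2 : IsPGroup 2 ↥A) (hAa : IsMulCommutative ↥A)
    (hti : ∀ h : G, A.map (MulAut.conj h).toMonoidHom = A ∨ A.map (MulAut.conj h).toMonoidHom ⊓ A = ⊥)
    (g : G) (hg : A.map (MulAut.conj g).toMonoidHom ≠ A) :
    Cfsg.IsElementaryAbelian 2 (A ⊓ Subgroup.normalizer ((A.map (MulAut.conj g).toMonoidHom : Subgroup G) : Set G)) ∨
      ⁅A, A.map (MulAut.conj g).toMonoidHom⁆ = ⊥ := by

  classical
  set B := A.map (MulAut.conj g).toMonoidHom with hB
  have hdisj : B ⊓ A = ⊥ := (hti g).resolve_left hg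
  have hdisj' : A ⊓ B = ⊥ := by rw [inf_comm]; exact hdisj
  have hBcomm : ∀ x ∈ B, ∀ y ∈ B, x * y = y * x := by
    rintro _ ⟨x, hx, rfl⟩ _ ⟨y, hy, rfl⟩
    have : x * y = y * x := congrArg Subtype.val (mul_comm' (⟨x, hx⟩ : A) ⟨y, hy⟩)
    rw [← map_mul, ← map_mul, this]
  have hAcomm : ∀ x ∈ A, ∀ y ∈ A, x * y = y * x := by
    intro x hx y hy
    exact congrArg Subtype.val (mul_comm' (⟨x, hx⟩ : A) ⟨y, hy⟩)
  -- C(a) ≤ N(A) for a ≠ 1
  have hCN : ∀ a ∈ A, a ≠ 1 → Subgroup.centralizer ({a} : Set G) ≤ Subgroup.normalizer (A : Set G) := by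
    intro a ha ha1 h hh
    have hh' : h * a = a * h := Subgroup.mem_centralizer_singleton_iff.mp hh
    rcases hti h with h1 | h1
    · exact Cfsg.Agent.Lib.TwoFusion.mem_normalizer_of_conj_eq h1
    · exfalso
      apply ha1
      have hin : a ∈ A.map (MulAut.conj h).toMonoidHom ⊓ A := by
        refine Subgroup.mem_inf.mpr ⟨?_, ha⟩
        rw [Cfsg.Agent.Lib.TwoFusion.mem_conj_map]
        have : h⁻¹ * a * h = a := by
          rw [mul_assoc, ← hh']; group
        rwa [this]
      rw [h1] at hin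
      simpa using hin
  by_cases hel : ∀ x ∈ A ⊓ Subgroup.normalizer ((A.map (MulAut.conj g).toMonoidHom : Subgroup G) : Set G), x ^ 2 = 1
  · left
    refine ⟨?_, ?_⟩
    · refine ⟨⟨?_⟩⟩
      intro x y
      apply Subtype.ext
      exact hAcomm _ (Subgroup.mem_inf.mp x.2).1 _ (Subgroup.mem_inf.mp y.2).1
    · exact hel
  right
  push Not at hel
  obtain ⟨a, ha, ha2⟩ := hel
  have haA : a ∈ A := (Subgroup.mem_inf.mp ha).1
  have haN : a ∈ Subgroup.normalizer (B : Set G) := (Subgroup.mem_inf.mp ha).2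
  have ha21 : a * a ≠ 1 := by rwa [← pow_two]
  have ha1 : a ≠ 1 := by
    rintro rfl
    simp at ha21
  -- `a` centralizes `B`
  letI : CommGroup B :=
    { (inferInstance : Group B) with
      mul_comm := fun x y => Subtype.ext (hBcomm _ x.2 _ y.2) }
  have hBp : IsPGroup 2 B := hA2.map _
  have haNB : ∀ x : B, a * (x : G) * a⁻¹ ∈ B := fun x =>
    (Subgroup.mem_normalizer_iff.mp haN x).mp x.2
  let t : MulAut B := B.normalizerMonoidHom ⟨a, haN⟩
  have ht : ∀ x : B, ((t x : B) : G) = a * (x : G) * a⁻¹ := fun x => rfl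
  have hord : ∃ k : ℕ, orderOf t = 2 ^ k := by
    obtain ⟨n, hn⟩ := hA2 ⟨a, haA⟩
    have hn' : a ^ 2 ^ n = 1 := congrArg Subtype.val hn
    have h1 : t ^ 2 ^ n = 1 := by
      have : (⟨a, haN⟩ : Subgroup.normalizer (B : Set G)) ^ 2 ^ n = 1 := by
        apply Subtype.ext
        simpa using hn'
      show (B.normalizerMonoidHom ⟨a, haN⟩) ^ 2 ^ n = 1
      rw [← map_pow, this, map_one]
    obtain ⟨k, _, hk⟩ := (Nat.dvd_prime_pow Nat.prime_two).mp (orderOf_dvd_of_pow_eq_one h1)
    exact ⟨k, hk⟩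
  have hfix : ∀ x : B, t x = x := by
    apply Cfsg.Agent.S1780.result hBp t hord
    intro x hx
    have h1 : a * (a * (x : G) * a⁻¹) * a⁻¹ = x := by
      have := congrArg Subtype.val hx
      rwa [ht, ht] at this
    have h2 : (a * a) * (x : G) = x * (a * a) := by
      calc (a * a) * (x : G) = (a * (a * (x : G) * a⁻¹) * a⁻¹) * (a * a) := by group
        _ = x * (a * a) := by rw [h1]
    have hxN : (x : G) ∈ Subgroup.normalizer (A : Set G) :=
      hCN (a * a) (A.mul_mem haA haA) ha21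
        (Subgroup.mem_centralizer_singleton_iff.mpr h2.symm)
    have h3 : a * (x : G) = x * a :=
      Cfsg.Agent.Lib.TwoFusion.commute_of_normalizing hdisj' haA x.2 haN hxN
    apply Subtype.ext
    rw [ht, h3]
    group
  have hBN : B ≤ Subgroup.normalizer (A : Set G) := by
    intro x hx
    apply hCN a haA ha1
    rw [Subgroup.mem_centralizer_singleton_iff]
    have := congrArg Subtype.val (hfix ⟨x, hx⟩)
    rw [ht] at this
    simp only at this
    calc x * a = (a * x * a⁻¹) * a := by rw [this]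
      _ = a * x := by group
  have hcard : Nat.card A ≤ Nat.card B := by
    apply le_of_eq
    exact (Nat.card_congr (Subgroup.equivMapOfInjective A _ (MulAut.conj g).injective).toEquiv)
  refine Cfsg.Agent.Lib.TwoFusion.commutator_eq_bot_of_TI hA2 hBp hcard hdisj' hBN ?_
  intro c _
  rcases hti (g⁻¹ * c * g) with h1 | h1
  · left
    rw [hB, Cfsg.Agent.Lib.TwoFusion.conj_map_mul]
    have : c * g = g * (g⁻¹ * c * g) := by group
    rw [this, ← Cfsg.Agent.Lib.TwoFusion.conj_map_mul, h1]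
  · right
    rw [eq_bot_iff]
    intro x hx
    obtain ⟨hx1, hx2⟩ := Subgroup.mem_inf.mp hx
    rw [hB, Cfsg.Agent.Lib.TwoFusion.mem_conj_map] at hx2
    rw [hB, Cfsg.Agent.Lib.TwoFusion.conj_map_mul, Cfsg.Agent.Lib.TwoFusion.mem_conj_map] at hx1
    have h2 : g⁻¹ * x * g ∈ A.map (MulAut.conj (g⁻¹ * c * g)).toMonoidHom ⊓ A := by
      refine Subgroup.mem_inf.mpr ⟨?_, hx2⟩
      rw [Cfsg.Agent.Lib.TwoFusion.mem_conj_map]
      have : (g⁻¹ * c * g)⁻¹ * (g⁻¹ * x * g) * (g⁻¹ * c * g) = (c * g)⁻¹ * x * (c * g) := by group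
      rwa [this]
    rw [h1, Subgroup.mem_bot] at h2
    rw [Subgroup.mem_bot]
    have : x = g * (g⁻¹ * x * g) * g⁻¹ := by group
    rw [this, h2]
    group

end Cfsg.Agent.S1781
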