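import Cfsg.Statements.S1782
import Mathlib
import Cfsg.Agent.Lib.TwoFusion.TIPair

set_option autoImplicit false
open Cfsg

namespace Cfsg.Agent.S1782

open Cfsg.Agent.Lib.TwoFusion in
theorem exists_sq_ne_one {H : Type*} [Group H] [Finite H] (h : frattini H ≠ ⊥) :
    ∃ x : H, x * x ≠ 1 := by
  by_contra hcon
  push Not at hcon
  apply h
  rw [eq_bot_iff]
  apply Cfsg.Agent.Lib.Basic.frattini_le_of_commutator_le_of_pow_mem Nat.prime_two
  · rw [commutator_def, Subgroup.commutator_le]
    intro a _ b _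
    have hinv : ∀ x : H, x⁻¹ = x := fun x => inv_eq_of_mul_eq_one_left (hcon x)
    rw [Subgroup.mem_bot, commutatorElement_def, hinv a, hinv b]
    have := hcon (a * b)
    calc a * b * a * b = (a * b) * (a * b) := by group
      _ = 1 := this
  · intro x
    rw [Subgroup.mem_bot, pow_two]
    exact hcon x

/-- Let S be a finite 2-group and Δ a set of subgroups of S closed under conjugation by S, all of the same order, each with nontrivial Frattini subgroup, and such that two distinct members of Δ meet trivially. Then any two distinct members of Δ commute elementwise. -/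
theorem result {S : Type*} [Group S] [Finite S] (hS : IsPGroup 2 S)
    (Δ : Set (Subgroup S)) (hinv : ∀ s : S, ∀ R ∈ Δ, R.map (MulAut.conj s).toMonoidHom ∈ Δ)
    (hΦ : ∀ R ∈ Δ, frattini ↥R ≠ ⊥) (hord : ∀ R ∈ Δ, ∀ T ∈ Δ, Nat.card ↥R = Nat.card ↥T)
    (hti : ∀ R ∈ Δ, ∀ T ∈ Δ, R = T ∨ R ⊓ T = ⊥) :
    ∀ R ∈ Δ, ∀ T ∈ Δ, R ≠ T → ⁅R, T⁆ = ⊥ := by

  classical
  -- reformulate TI-type facts
  have hnormTI : ∀ A ∈ Δ, ∀ s : S, s ∉ Subgroup.normalizer (A : Set S) →
      ∀ x ∈ A, s * x = x * s → x = 1 := by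
    intro A hA s hs x hx hsx
    rcases hti _ (hinv s A hA) A hA with h1 | h1
    · exact absurd (Cfsg.Agent.Lib.TwoFusion.mem_normalizer_of_conj_eq h1) hs
    · have hin : x ∈ A.map (MulAut.conj s).toMonoidHom ⊓ A := by
        refine Subgroup.mem_inf.mpr ⟨?_, hx⟩
        rw [Cfsg.Agent.Lib.TwoFusion.mem_conj_map]
        have : s⁻¹ * x * s = x := by
          rw [mul_assoc, ← hsx]; group
        rwa [this]
      rw [h1] at hin
      simpa using hin
  have hTIconj : ∀ A ∈ Δ, ∀ s : S, A.map (MulAut.conj s).toMonoidHom = A ∨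
      A.map (MulAut.conj s).toMonoidHom ⊓ A = ⊥ := fun A hA s => hti _ (hinv s A hA) A hA
  have hcardconj : ∀ A : Subgroup S, ∀ s : S, Nat.card (A.map (MulAut.conj s).toMonoidHom) = Nat.card A :=
    fun A s => (Nat.card_congr (Subgroup.equivMapOfInjective A _ (MulAut.conj s).injective).toEquiv).symm
  have main : ∀ n : ℕ, ∀ R ∈ Δ, ∀ T ∈ Δ, R ≠ T → Nat.card ↥(R ⊔ T) ≤ n → ⁅R, T⁆ = ⊥ := by
    intro n
    induction n with
    | zero =>
      intro R _ T _ _ hn
      exfalso
      have : 0 < Nat.card ↥(R ⊔ T) := Nat.card_pos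
      omega
    | succ n ih =>
      intro R hR T hT hRT hn
      have key : ∀ A ∈ Δ, ∀ B ∈ Δ, A ≠ B → Nat.card ↥(A ⊔ B) ≤ n + 1 →
          ∀ s ∈ B, s ∉ Subgroup.normalizer (A : Set S) → ∀ x ∈ A, ∀ y ∈ A,
            x * (s * y * s⁻¹) = (s * y * s⁻¹) * x := by
        intro A hA B hB hAB hcard s hs hsN x hx y hy
        have hX : IsPGroup 2 ↥(A ⊔ B) := hS.to_subgroup _
        have hne : A ≠ A ⊔ B := by
          intro h
          have hBA : B ≤ A := by rw [h]; exact le_sup_right
          exact hAB (Subgroup.eq_of_le_of_card_ge hBA (le_of_eq (hord A hA B hB))).symm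
        obtain ⟨M, hAM, hMX, hMne, hXM⟩ := Cfsg.Agent.Lib.TwoFusion.exists_normal_ne hX le_sup_left hne
        have hAs : A.map (MulAut.conj s).toMonoidHom ≤ M := by
          rintro _ ⟨a, ha, rfl⟩
          exact (Subgroup.mem_normalizer_iff.mp (hXM ((le_sup_right : B ≤ A ⊔ B) hs)) a).mp (hAM ha)
        have hsup : A ⊔ A.map (MulAut.conj s).toMonoidHom ≤ M := sup_le hAM hAs
        have hcardlt : Nat.card ↥(A ⊔ A.map (MulAut.conj s).toMonoidHom) ≤ n := by
          have h1 : Nat.card M ≤ Nat.card ↥(A ⊔ B) := Subgroup.card_le_of_le hMX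
          have h2 : Nat.card M ≠ Nat.card ↥(A ⊔ B) := by
            intro h
            exact hMne (Subgroup.eq_of_le_of_card_ge hMX (le_of_eq h.symm))
          have h3 := Subgroup.card_le_of_le hsup
          omega
        have hne2 : A ≠ A.map (MulAut.conj s).toMonoidHom := by
          intro h
          exact hsN (Cfsg.Agent.Lib.TwoFusion.mem_normalizer_of_conj_eq h.symm)
        have hc := ih A hA _ (hinv s A hA) hne2 hcardlt
        have hmem : s * y * s⁻¹ ∈ A.map (MulAut.conj s).toMonoidHom :=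
          Cfsg.Agent.Lib.TwoFusion.conj_mem_conj_map hy
        rw [Subgroup.commutator_eq_bot_iff_le_centralizer] at hc
        exact ((Subgroup.mem_centralizer_iff.mp (hc hx)) _ hmem).symm
      have hdisj : R ⊓ T = ⊥ := (hti R hR T hT).resolve_left hRT
      have hd : Cfsg.Agent.Lib.TwoFusion.PairData R T :=
        { disj := hdisj
          F1 := fun r _ hrN x hx hc => hnormTI T hT r hrN x hx hc
          F2 := fun t _ htN x hx hc => hnormTI R hR t htN x hx hc
          C1 := fun r hr hrN x hx y hy => key T hT R hR hRT.symm (by rwa [sup_comm]) r hr hrN x hx y hy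
          C2 := fun t ht htN x hx y hy => key R hR T hT hRT hn t ht htN x hx y hy
          pR := hS.to_subgroup R
          pT := hS.to_subgroup T }
      have hxR : ∃ x ∈ R, x * x ≠ 1 := by
        obtain ⟨x, hx⟩ := exists_sq_ne_one (hΦ R hR)
        refine ⟨x, x.2, fun h => hx (Subtype.ext h)⟩
      have hyT : ∃ x ∈ T, x * x ≠ 1 := by
        obtain ⟨x, hx⟩ := exists_sq_ne_one (hΦ T hT)
        refine ⟨x, x.2, fun h => hx (Subtype.ext h)⟩
      by_cases h1 : R ≤ Subgroup.normalizer (T : Set S)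
      · have := Cfsg.Agent.Lib.TwoFusion.commutator_eq_bot_of_TI (p := 2) (A := T) (B := R)
          (hS.to_subgroup T) (hS.to_subgroup R) (le_of_eq (hord T hT R hR))
          (by rw [inf_comm]; exact hdisj) h1 (fun a _ => hTIconj R hR a)
        rw [Subgroup.commutator_comm]
        exact this
      by_cases h2 : T ≤ Subgroup.normalizer (R : Set S)
      · exact Cfsg.Agent.Lib.TwoFusion.commutator_eq_bot_of_TI (p := 2) (A := R) (B := T)
          (hS.to_subgroup R) (hS.to_subgroup T) (le_of_eq (hord R hR T hT))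
          hdisj h2 (fun a _ => hTIconj T hT a)
      exfalso
      obtain ⟨r, hr, hrN⟩ := SetLike.not_le_iff_exists.mp h1
      obtain ⟨t, ht, htN⟩ := SetLike.not_le_iff_exists.mp h2
      exact hd.core hxR hyT hr hrN ht htN
  intro R hR T hT hRT
  exact main _ R hR T hT hRT le_rfl

end Cfsg.Agent.S1782
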