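import Cfsg.Statements.S1783
import Mathlib
import Cfsg.Agent.Lib.TwoFusion.TIFamily
import Cfsg.Agent.Lib.Basic.CoprimeAction2
import Cfsg.Agent.Lib.Components.Layer

set_option autoImplicit false
open Cfsg

namespace Cfsg.Agent.S1783

open Cfsg.Agent.Lib.TwoFusion Cfsg.Agent.Lib.Basic

/-- The subgroup acting trivially on `Q/Φ(Q)` is a normal 2-subgroup if `C(Q) ≤ Q`. -/
theorem mem_of_trivial_on_frattini {X : Type*} [Group X] [Finite X] (Q : Subgroup X) [hQn : Q.Normal]
    (hQ2 : IsPGroup 2 Q)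
    (hQmax : ∀ N : Subgroup X, N.Normal → IsPGroup 2 N → N ≤ Q)
    (hC : Subgroup.centralizer (Q : Set X) ≤ Q) (b : X)
    (hb : ∀ k ∈ Q, b * k * b⁻¹ * k⁻¹ ∈ (frattini ↥Q).map Q.subtype) : b ∈ Q := by
  classical
  haveI : Fact (Nat.Prime 2) := ⟨Nat.prime_two⟩
  set F : Subgroup X := (frattini ↥Q).map Q.subtype with hF
  -- conjugation preserves the Frattini subgroup
  have hFn : ∀ g : X, ∀ x ∈ F, g * x * g⁻¹ ∈ F := by
    intro g x hx
    have hgN : g ∈ Subgroup.normalizer (Q : Set X) := by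
      rw [Subgroup.normalizer_eq_top_iff.mpr hQn]; trivial
    have := Cfsg.Agent.Lib.Basic.le_normalizer_map_of_characteristic (K := Q) (frattini ↥Q) hgN
    exact (Subgroup.mem_normalizer_iff.mp this x).mp hx
  let K : Subgroup X :=
    { carrier := {x | ∀ k ∈ Q, x * k * x⁻¹ * k⁻¹ ∈ F}
      one_mem' := by
        intro k _
        simp only [one_mul, inv_one, mul_one, mul_inv_cancel]
        exact F.one_mem
      mul_mem' := by
        intro x y hx hy k hk
        have h1 := hFn x _ (hy k hk)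
        have h2 := hx k hk
        have e : (x * y) * k * (x * y)⁻¹ * k⁻¹ =
            (x * (y * k * y⁻¹ * k⁻¹) * x⁻¹) * (x * k * x⁻¹ * k⁻¹) := by group
        rw [e]
        exact F.mul_mem h1 h2
      inv_mem' := by
        intro x hx k hk
        have hk' : x⁻¹ * k * x ∈ Q := by
          have := hQn.conj_mem k hk x⁻¹
          simpa using this
        have h1 := hx _ hk'
        have e1 : x * (x⁻¹ * k * x) * x⁻¹ * (x⁻¹ * k * x)⁻¹ = k * (x⁻¹ * k⁻¹ * x) := by group
        rw [e1] at h1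
        have h2 := hFn x⁻¹ _ (F.inv_mem h1)
        have e2 : x⁻¹ * (k * (x⁻¹ * k⁻¹ * x))⁻¹ * x⁻¹⁻¹ =
            x⁻¹ * (x⁻¹ * k * x * k⁻¹) * x := by
          simp only [inv_inv]; group
        rw [e2] at h2
        have h3 := hFn x _ h2
        have e3 : x * (x⁻¹ * (x⁻¹ * k * x * k⁻¹) * x) * x⁻¹ = x⁻¹ * k * x⁻¹⁻¹ * k⁻¹ := by
          simp only [inv_inv]; group
        rw [e3] at h3
        exact h3 }
  have hKmem : ∀ x, x ∈ K ↔ ∀ k ∈ Q, x * k * x⁻¹ * k⁻¹ ∈ F := fun _ => Iff.rfl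
  have hKn : K.Normal := by
    refine ⟨fun x hx g => ?_⟩
    rw [hKmem] at hx ⊢
    intro k hk
    have hk' : g⁻¹ * k * g ∈ Q := by
      have := hQn.conj_mem k hk g⁻¹
      simpa using this
    have h1 := hFn g _ (hx _ hk')
    have e : g * (x * (g⁻¹ * k * g) * x⁻¹ * (g⁻¹ * k * g)⁻¹) * g⁻¹ =
        g * x * g⁻¹ * k * (g * x * g⁻¹)⁻¹ * k⁻¹ := by group
    rwa [e] at h1
  have hKp : IsPGroup 2 K := by
    rw [IsPGroup.iff_orderOf]
    intro x
    have hne : orderOf (x : X) ≠ 0 := (orderOf_pos (x : X)).ne'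
    obtain ⟨e, m, hm, he⟩ := Nat.exists_eq_two_pow_mul_odd hne
    set w : X := (x : X) ^ 2 ^ e with hw
    have hwK : w ∈ K := K.pow_mem x.2 _
    have hwo : orderOf w = m := by
      rw [hw, orderOf_pow_of_dvd (by positivity) (by rw [he]; exact dvd_mul_right _ _), he]
      exact Nat.mul_div_cancel_left _ (by positivity)
    have hcard : Nat.card (Subgroup.zpowers w) = m := by
      rw [Nat.card_zpowers, hwo]
    have hwC : Subgroup.zpowers w ≤ Subgroup.centralizer (Q : Set X) := by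
      apply Cfsg.Agent.Lib.Basic.le_centralizer_of_trivial_on_frattini
      · intro y _
        rw [Subgroup.normalizer_eq_top_iff.mpr hQn]; trivial
      · rw [hcard]
        obtain ⟨n, hn⟩ := IsPGroup.iff_card.mp (hQ2.to_subgroup (frattini ↥Q))
        rw [hn]
        apply Nat.Coprime.pow_right
        exact Nat.coprime_two_right.mpr hm
      · intro a ha k hk
        have : a ∈ K := by
          obtain ⟨i, rfl⟩ := Subgroup.mem_zpowers_iff.mp ha
          exact K.zpow_mem hwK i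
        exact this k hk
    have hwQ : w ∈ Q := hC (hwC (Subgroup.mem_zpowers w))
    obtain ⟨n, hn⟩ := IsPGroup.iff_orderOf.mp hQ2 ⟨w, hwQ⟩
    have hn' : orderOf w = 2 ^ n := by
      rw [← hn]; exact (Subgroup.orderOf_mk w hwQ).symm
    have hm1 : m = 1 := by
      rw [hwo] at hn'
      have : m ∣ 2 ^ n := by rw [hn']
      have hcop : Nat.Coprime m (2 ^ n) :=
        Nat.Coprime.pow_right n (Nat.coprime_two_right.mpr hm)
      exact Nat.Coprime.eq_one_of_dvd hcop this
    refine ⟨e, ?_⟩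
    rw [← Subgroup.orderOf_coe, he, hm1, mul_one]
  exact hQmax K hKn hKp hb

/-- Let X be a finite group whose generalized Fitting subgroup equals its largest normal 2-subgroup Q, and let A be an abelian 2-subgroup of X such that every conjugate of A equals A or meets A trivially. Let B be the subgroup generated by the squares of the elements of A. Then B lies in Q, and if B is not an elementary abelian 2-group then the normal closure of B in X is commutative. -/
theorem result {X : Type*} [Group X] [Finite X]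
    (hX : Cfsg.generalizedFittingSubgroup X = Cfsg.pCore 2 X) (A : Subgroup X) (hA2 : IsPGroup 2 ↥A) (hAa : IsMulCommutative ↥A)
    (hti : ∀ h : X, A.map (MulAut.conj h).toMonoidHom = A ∨ A.map (MulAut.conj h).toMonoidHom ⊓ A = ⊥) :
    Subgroup.closure ((fun a : X => a ^ 2) '' (A : Set X)) ≤ Cfsg.pCore 2 X ∧
      (¬ Cfsg.IsElementaryAbelian 2 (Subgroup.closure ((fun a : X => a ^ 2) '' (A : Set X))) →
        IsMulCommutative ↥(Subgroup.normalClosure ((fun a : X => a ^ 2) '' (A : Set X)))) := by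

  classical
  haveI : Fact (Nat.Prime 2) := ⟨Nat.prime_two⟩
  set Q : Subgroup X := Cfsg.pCore 2 X with hQdef
  haveI hQn : Q.Normal := Cfsg.Agent.Lib.Basic.pCore_normal 2
  have hQ2 : IsPGroup 2 Q := Cfsg.Agent.Lib.Basic.pCore_isPGroup 2
  have hQmax : ∀ N : Subgroup X, N.Normal → IsPGroup 2 N → N ≤ Q := fun N h1 h2 =>
    Cfsg.Agent.Lib.Basic.le_pCore h1 h2
  have hC : Subgroup.centralizer (Q : Set X) ≤ Q := by
    have := Cfsg.Agent.Lib.Components.centralizer_gfit_le (G := X)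
    rwa [hX] at this
  -- the conjugate family
  have hconj : ∀ g h : X, (A.map (MulAut.conj g).toMonoidHom = A.map (MulAut.conj h).toMonoidHom) ∨
      A.map (MulAut.conj g).toMonoidHom ⊓ A.map (MulAut.conj h).toMonoidHom = ⊥ := by
    intro g h
    rcases hti (h⁻¹ * g) with h1 | h1
    · left
      have : g = h * (h⁻¹ * g) := by group
      rw [this, ← conj_map_mul, h1]
    · right
      rw [eq_bot_iff]
      intro x hx
      obtain ⟨hx1, hx2⟩ := Subgroup.mem_inf.mp hx
      rw [mem_conj_map] at hx1 hx2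
      have h2 : h⁻¹ * x * h ∈ A.map (MulAut.conj (h⁻¹ * g)).toMonoidHom ⊓ A := by
        refine Subgroup.mem_inf.mpr ⟨?_, hx2⟩
        rw [mem_conj_map]
        have : (h⁻¹ * g)⁻¹ * (h⁻¹ * x * h) * (h⁻¹ * g) = g⁻¹ * x * g := by group
        rwa [this]
      rw [h1, Subgroup.mem_bot] at h2
      rw [Subgroup.mem_bot]
      have : x = h * (h⁻¹ * x * h) * h⁻¹ := by group
      rw [this, h2]
      group
  have hAcomm : ∀ x ∈ A, ∀ y ∈ A, x * y = y * x := by
    intro x hx y hy
    exact congrArg Subtype.val (mul_comm' (⟨x, hx⟩ : A) ⟨y, hy⟩)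
  have hcardconj : ∀ (C : Subgroup X) (s : X),
      Nat.card (C.map (MulAut.conj s).toMonoidHom) = Nat.card C :=
    fun C s => (Nat.card_congr (Subgroup.equivMapOfInjective C _ (MulAut.conj s).injective).toEquiv).symm
  have hAQ : A ≤ Subgroup.normalizer (Q : Set X) := by
    intro a _
    rw [Subgroup.normalizer_eq_top_iff.mpr hQn]; trivial
  have hP2 : IsPGroup 2 ↥(A ⊔ Q) := IsPGroup.to_sup_of_normal_right' hA2 hQ2 hAQ
  -- squares lie in `Q`
  have hsq : ∀ a ∈ A, a ^ 2 ∈ Q := by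
    by_cases hA1 : ∀ x ∈ A, x * x = 1
    · intro a ha
      rw [pow_two, hA1 a ha]
      exact Q.one_mem
    push Not at hA1
    obtain ⟨x₀, hx₀, hx₀1⟩ := hA1
    -- `A` commutes with its `Q`-conjugates
    have hfam : ∀ R ∈ {R : Subgroup X | ∃ p ∈ A ⊔ Q, R = A.map (MulAut.conj p).toMonoidHom},
        ∀ T ∈ {R : Subgroup X | ∃ p ∈ A ⊔ Q, R = A.map (MulAut.conj p).toMonoidHom},
        R ≠ T → ⁅R, T⁆ = ⊥ := by
      apply commute_family (A ⊔ Q) hP2
      · rintro _ ⟨p, hp, rfl⟩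
        rintro _ ⟨a, ha, rfl⟩
        exact (A ⊔ Q).mul_mem ((A ⊔ Q).mul_mem hp ((le_sup_left : A ≤ A ⊔ Q) ha)) ((A ⊔ Q).inv_mem hp)
      · rintro s hs _ ⟨p, hp, rfl⟩
        exact ⟨s * p, (A ⊔ Q).mul_mem hs hp, conj_map_mul _ _ _⟩
      · rintro _ ⟨p, hp, rfl⟩
        refine ⟨p * x₀ * p⁻¹, conj_mem_conj_map hx₀, ?_⟩
        intro h
        apply hx₀1
        have e : p * x₀ * p⁻¹ * (p * x₀ * p⁻¹) = p * (x₀ * x₀) * p⁻¹ := by group
        rw [e] at h
        have : x₀ * x₀ = p⁻¹ * (p * (x₀ * x₀) * p⁻¹) * p := by group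
        rw [this, h]
        group
      · rintro _ ⟨p, hp, rfl⟩ _ ⟨p', hp', rfl⟩
        rw [hcardconj, hcardconj]
      · rintro _ ⟨p, hp, rfl⟩ _ ⟨p', hp', rfl⟩
        exact hconj p p'
    have hcomm : ∀ q ∈ Q, ∀ a ∈ A, ∀ a' ∈ A, a' * (q * a * q⁻¹) = (q * a * q⁻¹) * a' := by
      intro q hq a ha a' ha'
      have hqm : q ∈ A ⊔ Q := (le_sup_right : Q ≤ A ⊔ Q) hq
      have h1m : (1 : X) ∈ A ⊔ Q := Subgroup.one_mem _
      by_cases he : A = A.map (MulAut.conj q).toMonoidHom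
      · have : q * a * q⁻¹ ∈ A := by
          have := conj_mem_conj_map (g := q) ha
          rwa [← he] at this
        exact hAcomm _ ha' _ this
      · have h2 := hfam A ⟨1, h1m, (conj_map_one A).symm⟩ _ ⟨q, hqm, rfl⟩ he
        rw [Subgroup.commutator_eq_bot_iff_le_centralizer] at h2
        have h3 := Subgroup.mem_centralizer_iff.mp (h2 ha') (q * a * q⁻¹) (conj_mem_conj_map ha)
        exact h3.symm
    intro a ha
    rw [pow_two]
    apply mem_of_trivial_on_frattini Q hQ2 hQmax hC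
    intro q hq
    set c := a * q * a⁻¹ * q⁻¹ with hc
    have hcQ : c ∈ Q := by
      have : c = (a * q * a⁻¹) * q⁻¹ := rfl
      rw [this]
      exact Q.mul_mem (hQn.conj_mem q hq a) (Q.inv_mem hq)
    have hca : a * c = c * a := by
      have h1 := hcomm q hq a⁻¹ (A.inv_mem ha) a ha
      calc a * c = a * (a * (q * a⁻¹ * q⁻¹)) := by rw [hc]; group
        _ = a * ((q * a⁻¹ * q⁻¹) * a) := by rw [h1]
        _ = c * a := by rw [hc]; group
    have e : a * a * q * (a * a)⁻¹ * q⁻¹ = c * c := by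
      have e1 : a * q * a⁻¹ = c * q := by rw [hc]; group
      calc a * a * q * (a * a)⁻¹ * q⁻¹ = a * (a * q * a⁻¹) * a⁻¹ * q⁻¹ := by group
        _ = a * (c * q) * a⁻¹ * q⁻¹ := by rw [e1]
        _ = (a * c) * q * a⁻¹ * q⁻¹ := by group
        _ = (c * a) * q * a⁻¹ * q⁻¹ := by rw [hca]
        _ = c * (a * q * a⁻¹) * q⁻¹ := by group
        _ = c * (c * q) * q⁻¹ := by rw [e1]
        _ = c * c := by group
    rw [e]
    have hpow := Cfsg.Agent.Lib.Basic.pow_mem_frattini_of_isPGroup hQ2 (⟨c, hcQ⟩ : ↥Q)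
    refine ⟨_, hpow, ?_⟩
    simp [pow_two]
  set B : Subgroup X := Subgroup.closure ((fun a : X => a ^ 2) '' (A : Set X)) with hB
  have hBQ : B ≤ Q := by
    rw [hB, Subgroup.closure_le]
    rintro _ ⟨a, ha, rfl⟩
    exact hsq a ha
  refine ⟨hBQ, ?_⟩
  intro hnotel
  have hBA : B ≤ A := by
    rw [hB, Subgroup.closure_le]
    rintro _ ⟨a, ha, rfl⟩
    simp only [SetLike.mem_coe]
    rw [pow_two]
    exact A.mul_mem ha ha
  have hBcomm : ∀ x ∈ B, ∀ y ∈ B, x * y = y * x := fun x hx y hy => hAcomm x (hBA hx) y (hBA hy)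
  have hnotsq : ∃ x ∈ B, x * x ≠ 1 := by
    by_contra hcon
    push Not at hcon
    apply hnotel
    refine ⟨⟨⟨fun x y => Subtype.ext (hBcomm _ x.2 _ y.2)⟩⟩, ?_⟩
    intro x hx
    rw [pow_two]
    exact hcon x hx
  obtain ⟨x₀, hx₀, hx₀1⟩ := hnotsq
  -- the family of conjugates of `B`
  have hBconj : ∀ g h : X, A.map (MulAut.conj g).toMonoidHom = A.map (MulAut.conj h).toMonoidHom →
      B.map (MulAut.conj g).toMonoidHom = B.map (MulAut.conj h).toMonoidHom := by
    intro g h hgh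
    have key : ∀ g : X, B.map (MulAut.conj g).toMonoidHom =
        Subgroup.closure ((fun a : X => a ^ 2) '' ((A.map (MulAut.conj g).toMonoidHom : Subgroup X) : Set X)) := by
      intro g
      rw [hB, MonoidHom.map_closure]
      congr 1
      ext x
      simp only [Set.mem_image, SetLike.mem_coe, Subgroup.mem_map, exists_exists_and_eq_and]
      constructor
      · rintro ⟨a, ha, rfl⟩
        exact ⟨a, ha, by simp [pow_two]⟩
      · rintro ⟨a, ha, rfl⟩
        exact ⟨a, ha, by simp [pow_two]⟩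
    rw [key g, key h, hgh]
  have hfam : ∀ R ∈ {R : Subgroup X | ∃ g : X, R = B.map (MulAut.conj g).toMonoidHom},
      ∀ T ∈ {R : Subgroup X | ∃ g : X, R = B.map (MulAut.conj g).toMonoidHom},
      R ≠ T → ⁅R, T⁆ = ⊥ := by
    apply commute_family Q hQ2
    · rintro _ ⟨g, rfl⟩
      rintro _ ⟨a, ha, rfl⟩
      exact hQn.conj_mem _ (hBQ ha) g
    · rintro s _ _ ⟨g, rfl⟩
      exact ⟨s * g, conj_map_mul _ _ _⟩
    · rintro _ ⟨g, rfl⟩
      refine ⟨g * x₀ * g⁻¹, conj_mem_conj_map hx₀, ?_⟩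
      intro h
      apply hx₀1
      have e : g * x₀ * g⁻¹ * (g * x₀ * g⁻¹) = g * (x₀ * x₀) * g⁻¹ := by group
      rw [e] at h
      have : x₀ * x₀ = g⁻¹ * (g * (x₀ * x₀) * g⁻¹) * g := by group
      rw [this, h]
      group
    · rintro _ ⟨g, rfl⟩ _ ⟨h, rfl⟩
      rw [hcardconj, hcardconj]
    · rintro _ ⟨g, rfl⟩ _ ⟨h, rfl⟩
      rcases hconj g h with h1 | h1
      · left; exact hBconj g h h1
      · right
        rw [eq_bot_iff]
        intro x hx
        obtain ⟨hx1, hx2⟩ := Subgroup.mem_inf.mp hx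
        rw [mem_conj_map] at hx1 hx2
        have : x ∈ A.map (MulAut.conj g).toMonoidHom ⊓ A.map (MulAut.conj h).toMonoidHom := by
          refine Subgroup.mem_inf.mpr ⟨?_, ?_⟩
          · rw [mem_conj_map]; exact hBA hx1
          · rw [mem_conj_map]; exact hBA hx2
        rwa [h1] at this
  -- commutation of the generators
  have hgen : ∀ x ∈ Group.conjugatesOfSet ((fun a : X => a ^ 2) '' (A : Set X)),
      ∀ y ∈ Group.conjugatesOfSet ((fun a : X => a ^ 2) '' (A : Set X)), x * y = y * x := by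
    intro x hx y hy
    rw [Group.mem_conjugatesOfSet_iff] at hx hy
    obtain ⟨s, hs, hsx⟩ := hx
    obtain ⟨s', hs', hsy⟩ := hy
    obtain ⟨g, rfl⟩ := isConj_iff.mp hsx
    obtain ⟨h, rfl⟩ := isConj_iff.mp hsy
    have hsB : s ∈ B := Subgroup.subset_closure hs
    have hs'B : s' ∈ B := Subgroup.subset_closure hs'
    have m1 : g * s * g⁻¹ ∈ B.map (MulAut.conj g).toMonoidHom := conj_mem_conj_map hsB
    have m2 : h * s' * h⁻¹ ∈ B.map (MulAut.conj h).toMonoidHom := conj_mem_conj_map hs'B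
    by_cases he : B.map (MulAut.conj g).toMonoidHom = B.map (MulAut.conj h).toMonoidHom
    · rw [← he] at m2
      rw [mem_conj_map] at m1 m2
      have h3 := hBcomm _ m1 _ m2
      have e1 : g⁻¹ * (g * s * g⁻¹) * g * (g⁻¹ * (h * s' * h⁻¹) * g) =
          g⁻¹ * ((g * s * g⁻¹) * (h * s' * h⁻¹)) * g := by group
      have e2 : g⁻¹ * (h * s' * h⁻¹) * g * (g⁻¹ * (g * s * g⁻¹) * g) =
          g⁻¹ * ((h * s' * h⁻¹) * (g * s * g⁻¹)) * g := by group
      rw [e1, e2] at h3
      exact mul_left_cancel (mul_right_cancel h3)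
    · have h2 := hfam _ ⟨g, rfl⟩ _ ⟨h, rfl⟩ he
      rw [Subgroup.commutator_eq_bot_iff_le_centralizer] at h2
      exact (Subgroup.mem_centralizer_iff.mp (h2 m1) _ m2).symm
  have hcl : ∀ x ∈ Subgroup.closure (Group.conjugatesOfSet ((fun a : X => a ^ 2) '' (A : Set X))),
      ∀ y ∈ Subgroup.closure (Group.conjugatesOfSet ((fun a : X => a ^ 2) '' (A : Set X))),
      x * y = y * x := by
    let c := Subgroup.closureCommGroupOfComm hgen
    intro x hx y hy
    exact congrArg Subtype.val (c.mul_comm ⟨x, hx⟩ ⟨y, hy⟩)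
  refine ⟨⟨fun x y => Subtype.ext (hcl _ x.2 _ y.2)⟩⟩

end Cfsg.Agent.S1783
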