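import Cfsg.Statements.S1784
import Mathlib
import Cfsg.Agent.Lib.TwoFusion.Extraspecial
import Cfsg.Agent.Lib.Components.Layer

set_option autoImplicit false
open Cfsg

namespace Cfsg.Agent.S1784

open Subgroup Cfsg.Agent.Lib.TwoFusion

theorem mem_zpowers_iff_of_sq {G : Type*} [Group G] {z x : G} (hz : z * z = 1) :
    x ∈ Subgroup.zpowers z ↔ x = 1 ∨ x = z := by
  constructor
  · rintro ⟨k, rfl⟩
    have hf' : z ^ (2 : ℤ) = 1 := by
      rw [zpow_two]; exact hz
    rcases Int.even_or_odd' k with ⟨m, rfl | rfl⟩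
    · left
      show z ^ (2 * m) = 1
      rw [zpow_mul, hf', one_zpow]
    · right
      show z ^ (2 * m + 1) = z
      rw [zpow_add, zpow_mul, hf', one_zpow, one_mul, zpow_one]
  · rintro (rfl | rfl)
    · exact Subgroup.one_mem _
    · exact Subgroup.mem_zpowers _

theorem aux {G : Type*} [Group G] [Finite G] {Q : Subgroup G} {z : G} (h : ES Q z) (α : G)
    (hα2 : α * α = 1) (hαN : ∀ q ∈ Q, α * q * α⁻¹ ∈ Q) (hαz : α * z = z * α)
    (hnon : ∃ q ∈ Q, α * q ≠ q * α) (Q₀ : Subgroup G)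
    (hQ₀ : ∀ q : G, q ∈ Q₀ ↔ (q ∈ Q ∧ α * q * α⁻¹ * q⁻¹ ∈ Subgroup.zpowers z)) :
    Subgroup.closure ((fun q : G => α * q * α⁻¹ * q⁻¹) '' (Q : Set G)) =
        (Subgroup.center ↥Q₀).map Q₀.subtype ∧
      (¬ Q₀ ≤ (Q ⊓ Subgroup.centralizer ({α} : Set G)) ⊔ Subgroup.zpowers z →
        ∃ q ∈ Q, q * α * q⁻¹ = α * z) := by
  classical
  have αi : α⁻¹ = α := inv_eq_of_mul_eq_one_left hα2
  have hzm : ∀ {x : G}, x ∈ Subgroup.zpowers z ↔ x = 1 ∨ x = z := mem_zpowers_iff_of_sq h.z_sq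
  have zi : z⁻¹ = z := inv_eq_of_mul_eq_one_left h.z_sq
  set f : G → G := fun q : G => α * q * α⁻¹ * q⁻¹ with hf
  have hfv : ∀ q, f q = α * q * α⁻¹ * q⁻¹ := fun _ => rfl
  have hfQ : ∀ q ∈ Q, f q ∈ Q := fun q hq => Q.mul_mem (hαN q hq) (Q.inv_mem hq)
  have hαq : ∀ q, α * q * α⁻¹ = f q * q := by
    intro q; rw [hfv]; group
  have hcen : ∀ {x : G}, (x = 1 ∨ x = z) → ∀ q ∈ Q, q * x = x * q := by
    rintro x (rfl | rfl) q hq
    · group
    · exact h.z_central q hq
  have hzQ₀ : z ∈ Q₀ := by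
    rw [hQ₀]
    refine ⟨h.z_mem, ?_⟩
    rw [hzm]; left
    rw [hαz]; group
  -- elements `f q` are in `Q₀`
  have hfQ₀ : ∀ q ∈ Q, f q ∈ Q₀ := by
    intro q hq
    rw [hQ₀]
    refine ⟨hfQ q hq, ?_⟩
    set y := f q with hy
    have e1 : α * y * α⁻¹ = y⁻¹ := by
      rw [hy, hfv, αi]
      have : (α * q * α * q⁻¹)⁻¹ = q * α * q⁻¹ * α := by
        simp only [mul_inv_rev, inv_inv, αi]; group
      rw [this]
      calc α * (α * q * α * q⁻¹) * α = (α * α) * q * α * q⁻¹ * α := by group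
        _ = q * α * q⁻¹ * α := by rw [hα2, one_mul]
    rw [e1, hzm]
    have e2 : y⁻¹ * y⁻¹ = (y * y)⁻¹ := by group
    rw [e2]
    rcases h.sq y (hfQ q hq) with e | e
    · left; rw [e, inv_one]
    · right; rw [e, zi]
  -- `f q` commutes with `Q₀`
  have hfcomm : ∀ q ∈ Q, ∀ q₀ ∈ Q₀, q₀ * f q = f q * q₀ := by
    intro q hq q₀ hq₀
    obtain ⟨hq₀Q, hd⟩ := (hQ₀ q₀).mp hq₀
    set y := f q with hy
    have hyQ : y ∈ Q := hfQ q hq
    set c := q * q₀ * q⁻¹ * q₀⁻¹ with hc
    have hcv := h.comm q hq q₀ hq₀Q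
    have hcc : ∀ p ∈ Q, p * c = c * p := fun p hp => hcen hcv p hp
    have hαc : α * c * α⁻¹ = c := by
      rcases hcv with e | e
      · rw [show c = 1 from e]; group
      · rw [show c = z from e, hαz]; group
    set d := α * q₀ * α⁻¹ * q₀⁻¹ with hd'
    have hdv : d = 1 ∨ d = z := hzm.mp hd
    have hdc : ∀ p ∈ Q, p * d = d * p := fun p hp => hcen hdv p hp
    have e3 : α * c * α⁻¹ = (α * q * α⁻¹) * (α * q₀ * α⁻¹) * (α * q * α⁻¹)⁻¹ * (α * q₀ * α⁻¹)⁻¹ := by
      rw [hc]; group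
    have e4 : α * q₀ * α⁻¹ = d * q₀ := by rw [hd']; group
    rw [hαq q, e4] at e3
    have e5 : (y * q) * (d * q₀) * (y * q)⁻¹ * (d * q₀)⁻¹ = y * (q * q₀ * q⁻¹) * y⁻¹ * q₀⁻¹ := by
      have h1 : (y * q) * d = d * (y * q) := hdc _ (Q.mul_mem hyQ hq)
      calc (y * q) * (d * q₀) * (y * q)⁻¹ * (d * q₀)⁻¹
          = ((y * q) * d) * q₀ * (y * q)⁻¹ * q₀⁻¹ * d⁻¹ := by group
        _ = (d * (y * q)) * q₀ * (y * q)⁻¹ * q₀⁻¹ * d⁻¹ := by rw [h1]
        _ = d * ((y * q) * q₀ * (y * q)⁻¹ * q₀⁻¹) * d⁻¹ := by group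
        _ = ((y * q) * q₀ * (y * q)⁻¹ * q₀⁻¹) * d * d⁻¹ := by
          have := hdc ((y * q) * q₀ * (y * q)⁻¹ * q₀⁻¹)
            (Q.mul_mem (Q.mul_mem (Q.mul_mem (Q.mul_mem hyQ hq) hq₀Q) (Q.inv_mem (Q.mul_mem hyQ hq))) (Q.inv_mem hq₀Q))
          rw [this]
        _ = y * (q * q₀ * q⁻¹) * y⁻¹ * q₀⁻¹ := by group
    rw [e5, hαc] at e3
    have e6 : q * q₀ * q⁻¹ = c * q₀ := by rw [hc]; group
    rw [e6] at e3
    have hyc := hcc y hyQ
    have e7 : y * (c * q₀) * y⁻¹ * q₀⁻¹ = c * (y * q₀ * y⁻¹ * q₀⁻¹) := by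
      calc y * (c * q₀) * y⁻¹ * q₀⁻¹ = (y * c) * q₀ * y⁻¹ * q₀⁻¹ := by group
        _ = (c * y) * q₀ * y⁻¹ * q₀⁻¹ := by rw [hyc]
        _ = c * (y * q₀ * y⁻¹ * q₀⁻¹) := by group
    rw [e7] at e3
    have e8 : y * q₀ * y⁻¹ * q₀⁻¹ = 1 := by
      have : c * 1 = c * (y * q₀ * y⁻¹ * q₀⁻¹) := by rw [mul_one]; exact e3
      exact (mul_left_cancel this).symm
    calc q₀ * y = (y * q₀ * y⁻¹ * q₀⁻¹)⁻¹ * (y * q₀) := by
          simp only [mul_inv_rev, inv_inv]; group
      _ = y * q₀ := by rw [e8]; group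
  set J : Subgroup G := Subgroup.closure (f '' (Q : Set G)) with hJ
  have hJQ : J ≤ Q := by
    rw [hJ, Subgroup.closure_le]
    rintro _ ⟨q, hq, rfl⟩
    exact hfQ q hq
  have hfJ : ∀ q ∈ Q, f q ∈ J := fun q hq => Subgroup.subset_closure ⟨q, hq, rfl⟩
  have hmemZ : ∀ x : G, x ∈ (Subgroup.center ↥Q₀).map Q₀.subtype ↔ x ∈ Q₀ ∧ ∀ q₀ ∈ Q₀, q₀ * x = x * q₀ := by
    intro x
    constructor
    · rintro ⟨a, ha, rfl⟩
      refine ⟨a.2, ?_⟩
      intro q₀ hq₀
      exact congrArg Subtype.val (Subgroup.mem_center_iff.mp ha ⟨q₀, hq₀⟩)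
    · rintro ⟨h1, h2⟩
      refine ⟨⟨x, h1⟩, ?_, rfl⟩
      show _ ∈ Subgroup.center ↥Q₀
      rw [Subgroup.mem_center_iff]
      intro g
      exact Subtype.ext (h2 g g.2)
  have hJZ : J ≤ (Subgroup.center ↥Q₀).map Q₀.subtype := by
    rw [hJ, Subgroup.closure_le]
    rintro _ ⟨q, hq, rfl⟩
    exact (hmemZ _).mpr ⟨hfQ₀ q hq, fun q₀ hq₀ => hfcomm q hq q₀ hq₀⟩
  -- `z ∈ J`
  have hf_mul : ∀ p q : G, f (p * q) = f p * (p * f q * p⁻¹) := by
    intro p q
    simp only [hfv]
    group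
  have hzJ : z ∈ J := by
    obtain ⟨q, hq, hne⟩ := hnon
    have hy1 : f q ≠ 1 := by
      intro e
      apply hne
      calc α * q = (f q) * (q * α) := by rw [hfv]; group
        _ = q * α := by rw [e, one_mul]
    by_cases hyz : f q = z
    · rw [← hyz]; exact hfJ q hq
    have hnc : ¬ ∀ p ∈ Q, p * f q = f q * p := by
      intro hc
      rcases h.center _ (hfQ q hq) hc with e | e
      · exact hy1 e
      · exact hyz e
    push Not at hnc
    obtain ⟨p, hp, hne2⟩ := hnc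
    have e1 : p * f q * p⁻¹ ∈ J := by
      have h1 := hf_mul p q
      have h2 : p * f q * p⁻¹ = (f p)⁻¹ * f (p * q) := by rw [h1]; group
      rw [h2]
      exact J.mul_mem (J.inv_mem (hfJ p hp)) (hfJ _ (Q.mul_mem hp hq))
    have e2 := h.comm p hp _ (hfQ q hq)
    rcases e2 with e2 | e2
    · exfalso
      apply hne2
      calc p * f q = (p * f q * p⁻¹ * (f q)⁻¹) * (f q * p) := by group
        _ = f q * p := by rw [e2, one_mul]
    · rw [← e2]
      exact J.mul_mem e1 (J.inv_mem (hfJ q hq))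
  -- the count
  have hperp := h.card_centralizer_mul Q₀ (fun x hx => ((hQ₀ x).mp hx).1) hzQ₀
  have hcount : 2 * Nat.card Q ≤ Nat.card Q₀ * Nat.card J := by
    let N' : Subgroup ↥J := (Subgroup.zpowers z).subgroupOf J
    have hN'mem : ∀ x : ↥J, x ∈ N' ↔ (x : G) = 1 ∨ (x : G) = z := by
      intro x
      rw [Subgroup.mem_subgroupOf, hzm]
    haveI hN'n : N'.Normal := by
      refine ⟨fun x hx g => ?_⟩
      rw [hN'mem] at hx ⊢
      simp only [Subgroup.coe_mul, Subgroup.coe_inv]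
      rcases hx with e | e
      · left; rw [e]; group
      · right
        rw [e, hcen (Or.inr rfl) _ (hJQ g.2)]
        group
    let g : ↥Q →* ↥J ⧸ N' :=
      { toFun := fun q => QuotientGroup.mk ⟨f q, hfJ q q.2⟩
        map_one' := by
          have : (⟨f ((1 : ↥Q) : G), hfJ _ (1 : ↥Q).2⟩ : ↥J) = 1 := by
            apply Subtype.ext
            simp [hfv]
          rw [this]
          rfl
        map_mul' := by
          intro p q
          rw [← QuotientGroup.mk_mul, QuotientGroup.eq, hN'mem]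
          simp only [Subgroup.coe_mul, Subgroup.coe_inv]
          have hc := h.comm p p.2 (f q) (hfQ q q.2)
          set c := (p : G) * f q * (p : G)⁻¹ * (f q)⁻¹ with hcdef
          have e1 : f ((p : G) * q) = f p * (c * f q) := by
            rw [hf_mul, hcdef]; group
          have hcc := hcen hc
          have e2 : (f ((p : G) * q))⁻¹ * (f p * f q) = c⁻¹ := by
            rw [e1]
            have h3 : (c⁻¹) * f q = f q * c⁻¹ := by
              have := (Commute.inv_left (show Commute c (f q) from (hcc _ (hfQ q q.2)).symm)).eq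
              exact this
            calc (f (p : G) * (c * f q))⁻¹ * (f (p : G) * f q) = (f q)⁻¹ * (c⁻¹ * f q) := by group
              _ = (f q)⁻¹ * (f q * c⁻¹) := by rw [h3]
              _ = c⁻¹ := by group
          rw [e2]
          rcases hc with e | e
          · left; rw [e, inv_one]
          · right; rw [e, zi] }
    have hgker : ∀ x : ↥Q, x ∈ g.ker ↔ (x : G) ∈ Q₀ := by
      intro x
      rw [MonoidHom.mem_ker, hQ₀]
      show (QuotientGroup.mk ⟨f x, hfJ x x.2⟩ : ↥J ⧸ N') = 1 ↔ _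
      rw [QuotientGroup.eq_one_iff, hN'mem]
      constructor
      · intro hx
        exact ⟨x.2, hzm.mpr hx⟩
      · intro hx
        exact hzm.mp hx.2
    have c1 : Nat.card g.ker * g.ker.index = Nat.card Q := Subgroup.card_mul_index g.ker
    have c2 : g.ker.index = Nat.card g.range := Subgroup.index_ker g
    have c3 : Nat.card g.range ≤ Nat.card (↥J ⧸ N') := Subgroup.card_le_card_group _
    have c4 : Nat.card g.ker ≤ Nat.card Q₀ := by
      refine Nat.card_le_card_of_injective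
        (fun x : g.ker => (⟨((x : ↥Q) : G), (hgker x).mp x.2⟩ : ↥Q₀)) ?_
      intro x y hxy
      have := congrArg Subtype.val hxy
      exact Subtype.ext (Subtype.ext this)
    have c5 : Nat.card J = Nat.card (↥J ⧸ N') * Nat.card N' :=
      Subgroup.card_eq_card_quotient_mul_card_subgroup N'
    have c6 : 2 ≤ Nat.card N' := by
      have hne : N' ≠ ⊥ := by
        intro hb
        have : (⟨z, hzJ⟩ : ↥J) ∈ N' := (hN'mem _).mpr (Or.inr rfl)
        rw [hb, Subgroup.mem_bot] at this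
        exact h.z_ne (congrArg Subtype.val this)
      exact (Subgroup.one_lt_card_iff_ne_bot N').mpr hne
    calc 2 * Nat.card Q = 2 * (Nat.card g.ker * Nat.card g.range) := by rw [← c1, c2]
      _ ≤ 2 * (Nat.card Q₀ * Nat.card (↥J ⧸ N')) := by gcongr
      _ = Nat.card Q₀ * (Nat.card (↥J ⧸ N') * 2) := by ring
      _ ≤ Nat.card Q₀ * (Nat.card (↥J ⧸ N') * Nat.card N') := by gcongr
      _ = Nat.card Q₀ * Nat.card J := by rw [← c5]
  constructor
  · apply Subgroup.eq_of_le_of_card_ge hJZ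
    have hle : (Subgroup.center ↥Q₀).map Q₀.subtype ≤ Q ⊓ Subgroup.centralizer (Q₀ : Set G) := by
      intro x hx
      obtain ⟨h1, h2⟩ := (hmemZ x).mp hx
      refine Subgroup.mem_inf.mpr ⟨((hQ₀ x).mp h1).1, ?_⟩
      rw [Subgroup.mem_centralizer_iff]
      intro q₀ hq₀
      exact h2 q₀ hq₀
    have h1 := Subgroup.card_le_of_le hle
    have hQ₀pos : 0 < Nat.card Q₀ := Nat.card_pos
    have h2 : Nat.card ↥(Q ⊓ Subgroup.centralizer (Q₀ : Set G)) ≤ Nat.card J := by
      have : Nat.card ↥(Q ⊓ Subgroup.centralizer (Q₀ : Set G)) * Nat.card Q₀ ≤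
          Nat.card J * Nat.card Q₀ := by
        rw [hperp, mul_comm (Nat.card J)]
        exact hcount
      exact Nat.le_of_mul_le_mul_right this hQ₀pos
    exact h1.trans h2
  · intro hnot
    obtain ⟨q₀, hq₀, hq₀n⟩ := SetLike.not_le_iff_exists.mp hnot
    obtain ⟨hq₀Q, hd⟩ := (hQ₀ q₀).mp hq₀
    have hd' : α * q₀ * α⁻¹ * q₀⁻¹ = z := by
      rcases hzm.mp hd with e | e
      · exfalso
        apply hq₀n
        apply (le_sup_left : Q ⊓ Subgroup.centralizer ({α} : Set G) ≤ _)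
        refine Subgroup.mem_inf.mpr ⟨hq₀Q, ?_⟩
        rw [Subgroup.mem_centralizer_singleton_iff]
        calc q₀ * α = (α * q₀ * α⁻¹ * q₀⁻¹)⁻¹ * (α * q₀) := by
              simp only [mul_inv_rev, inv_inv]; group
          _ = α * q₀ := by rw [e]; group
      · exact e
    refine ⟨q₀⁻¹, Q.inv_mem hq₀Q, ?_⟩
    have e1 : α * q₀ = z * (q₀ * α) := by
      rw [← hd']; group
    have hzq := h.z_central q₀ hq₀Q
    calc q₀⁻¹ * α * q₀⁻¹⁻¹ = q₀⁻¹ * (α * q₀) := by group
      _ = q₀⁻¹ * (z * (q₀ * α)) := by rw [e1]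
      _ = q₀⁻¹ * ((z * q₀) * α) := by group
      _ = q₀⁻¹ * ((q₀ * z) * α) := by rw [hzq]
      _ = z * α := by group
      _ = α * z := hαz.symm

/-- Let G be a finite group and let z be an involution of G such that Q, the generalized Fitting subgroup of the centralizer C of z, is a 2-group of symplectic type (every characteristic abelian subgroup of Q is cyclic); suppose Q is extraspecial, and view Q inside G. Let α be an involution of C that is not in Q, and let Q₀ be the subgroup of those q ∈ Q whose commutator with α lies in the subgroup generated by z. Then (a) the subgroup generated by the commutators α q α⁻¹ q⁻¹, q ∈ Q, equals the centre of Q₀; and (b) if Q₀ is not contained in the product of the centralizer of α in Q with the subgroup generated by z, then some element of Q conjugates α to α z. -/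
theorem result {G : Type*} [Group G] [Finite G] (z : G) (hz : orderOf z = 2) (hQ : Cfsg.IsOfSymplecticType ↥(Cfsg.generalizedFittingSubgroup ↥(Subgroup.centralizer ({z} : Set G)))) (hE : Cfsg.IsExtraspecial 2 ↥(Cfsg.generalizedFittingSubgroup ↥(Subgroup.centralizer ({z} : Set G))))
    (α : G) (hα : orderOf α = 2) (hαC : α ∈ Subgroup.centralizer ({z} : Set G)) (hαQ : α ∉ (Cfsg.generalizedFittingSubgroup ↥(Subgroup.centralizer ({z} : Set G))).map (Subgroup.centralizer ({z} : Set G)).subtype)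
    (Q₀ : Subgroup G) (hQ₀ : ∀ q : G, q ∈ Q₀ ↔ (q ∈ (Cfsg.generalizedFittingSubgroup ↥(Subgroup.centralizer ({z} : Set G))).map (Subgroup.centralizer ({z} : Set G)).subtype ∧ α * q * α⁻¹ * q⁻¹ ∈ Subgroup.zpowers z)) :
    Subgroup.closure ((fun q : G => α * q * α⁻¹ * q⁻¹) '' ((Cfsg.generalizedFittingSubgroup ↥(Subgroup.centralizer ({z} : Set G))).map (Subgroup.centralizer ({z} : Set G)).subtype : Set G)) = (Subgroup.center ↥Q₀).map Q₀.subtype ∧
      (¬ Q₀ ≤ ((Cfsg.generalizedFittingSubgroup ↥(Subgroup.centralizer ({z} : Set G))).map (Subgroup.centralizer ({z} : Set G)).subtype ⊓ Subgroup.centralizer ({α} : Set G)) ⊔ Subgroup.zpowers z →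
        ∃ q ∈ (Cfsg.generalizedFittingSubgroup ↥(Subgroup.centralizer ({z} : Set G))).map (Subgroup.centralizer ({z} : Set G)).subtype, q * α * q⁻¹ = α * z) := by

  classical
  set C : Subgroup G := Subgroup.centralizer ({z} : Set G) with hCdef
  set Qh : Subgroup ↥C := Cfsg.generalizedFittingSubgroup ↥C with hQh
  have hC : ∀ g : G, g ∈ C ↔ g * z = z * g := fun g => by
    rw [hCdef, Subgroup.mem_centralizer_singleton_iff]
  have hzC : z ∈ C := (hC z).mpr rfl
  have hzQ : (⟨z, hzC⟩ : ↥C) ∈ Qh := by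
    apply Cfsg.Agent.Lib.Components.centralizer_gfit_le
    rw [Subgroup.mem_centralizer_iff]
    intro h _
    apply Subtype.ext
    exact ((hC _).mp h.2)
  have hz1 : z ≠ 1 := by
    rintro rfl
    simp at hz
  have hz2 : z * z = 1 := by rw [← pow_two, ← hz, pow_orderOf_eq_one]
  have hα2 : α * α = 1 := by rw [← pow_two, ← hα, pow_orderOf_eq_one]
  let ι : ↥Qh →* G := C.subtype.comp Qh.subtype
  have hιinj : Function.Injective ι := fun a b hab => Subtype.ext (Subtype.ext hab)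
  have hrange : Qh.map C.subtype = ι.range := by
    rw [MonoidHom.range_eq_map, ← Subgroup.map_map]
    congr 1
    rw [← MonoidHom.range_eq_map, Subgroup.range_subtype]
  have hES : ES (Qh.map C.subtype) z :=
    ES.of_extraspecial hE ι hιinj hrange (t₀ := ⟨⟨z, hzC⟩, hzQ⟩) rfl
      (by
        intro t
        apply hιinj
        show ι t * z = z * ι t
        exact (hC _).mp (t : ↥C).2)
      (by
        intro h
        apply hz1
        have h' : ι ⟨⟨z, hzC⟩, hzQ⟩ = ι 1 := congrArg ι h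
        rw [map_one] at h'
        exact h')
  haveI hQn : Qh.Normal := Cfsg.Agent.Lib.Components.gfit_normal
  apply aux hES α hα2
  · rintro _ ⟨q, hq, rfl⟩
    have := hQn.conj_mem q hq ⟨α, hαC⟩
    exact ⟨_, this, rfl⟩
  · have := (hC α).mp hαC
    exact this
  · by_contra hcon
    push Not at hcon
    apply hαQ
    have : (⟨α, hαC⟩ : ↥C) ∈ Qh := by
      apply Cfsg.Agent.Lib.Components.centralizer_gfit_le
      rw [Subgroup.mem_centralizer_iff]
      intro q hq
      apply Subtype.ext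
      exact (hcon _ ⟨q, hq, rfl⟩).symm
    exact ⟨_, this, rfl⟩
  · exact hQ₀

end Cfsg.Agent.S1784
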