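import Cfsg.Statements.S1785
import Mathlib
import Cfsg.Agent.Lib.TwoFusion.ElemAb

set_option autoImplicit false
open Cfsg

namespace Cfsg.Agent.S1785

open Subgroup Cfsg.Agent.Lib.TwoFusion

variable {X : Type*} [Group X]

/-- A subgroup that is abelian of exponent 2. -/
def EA (W : Subgroup X) : Prop := (∀ x ∈ W, ∀ y ∈ W, x * y = y * x) ∧ ∀ x ∈ W, x * x = 1

theorem ea_iff (W : Subgroup X) : Cfsg.IsElementaryAbelian 2 W ↔ EA W := by
  constructor
  · rintro ⟨h1, h2⟩
    refine ⟨fun x hx y hy => congrArg Subtype.val (mul_comm' (⟨x, hx⟩ : W) ⟨y, hy⟩), ?_⟩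
    intro x hx
    rw [← pow_two]
    exact h2 x hx
  · rintro ⟨h1, h2⟩
    refine ⟨⟨⟨fun x y => Subtype.ext (h1 _ x.2 _ y.2)⟩⟩, ?_⟩
    intro x hx
    rw [pow_two]
    exact h2 x hx

theorem ea_sup {W : Subgroup X} {f : X} (hW : EA W) (hf2 : f * f = 1) (hc : ∀ w ∈ W, f * w = w * f) :
    EA (W ⊔ Subgroup.zpowers f) := by
  rw [← ea_iff]
  apply Cfsg.Agent.Lib.OddLocal.isElementaryAbelian_sup_zpowers
  · rw [ea_iff]; exact hW
  · rw [pow_two]; exact hf2
  · exact hc

theorem ea_mono {W V : Subgroup X} (hW : EA W) (h : V ≤ W) : EA V :=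
  ⟨fun x hx y hy => hW.1 x (h hx) y (h hy), fun x hx => hW.2 x (h hx)⟩

/-- The iterated fixed point bound. -/
theorem fixed_bound [Finite X] (E : Subgroup X) [hEn : E.Normal] (hE : EA E) (n : ℕ) :
    ∀ W : Subgroup X, IsPGroup 2 W → EA W → Nat.card W ≤ Nat.card ↥(W ⊓ E) * 2 ^ n →
      Nat.card E ≤ Nat.card ↥(E ⊓ centralizer (W : Set X)) ^ 2 ^ n := by
  induction n with
  | zero =>
    intro W _ _ hle
    have h1 : W ⊓ E = W := by
      apply Subgroup.eq_of_le_of_card_ge inf_le_left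
      simpa using hle
    have hWE : W ≤ E := inf_eq_left.mp h1
    have : E ⊓ centralizer (W : Set X) = E := by
      apply inf_eq_left.mpr
      intro x hx
      rw [Subgroup.mem_centralizer_iff]
      intro w hw
      exact hE.1 _ (hWE hw) _ hx
    rw [this]
    simp
  | succ n ih =>
    intro W hWp hW hle
    by_cases hWE : W ≤ E
    · have : E ⊓ centralizer (W : Set X) = E := by
        apply inf_eq_left.mpr
        intro x hx
        rw [Subgroup.mem_centralizer_iff]
        intro w hw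
        exact hE.1 _ (hWE hw) _ hx
      rw [this]
      exact Nat.le_self_pow (by positivity) _
    have hne : W ⊓ E ≠ W := fun h => hWE (inf_eq_left.mp h)
    obtain ⟨M, hDM, hMW, hcard, hprod⟩ := exists_hyperplane hWp inf_le_left hne
    have hME : M ⊓ E = W ⊓ E := by
      apply le_antisymm
      · exact inf_le_inf_right _ hMW
      · exact le_inf hDM inf_le_right
    have hMp : IsPGroup 2 M := hWp.to_le hMW
    have hMle : Nat.card M ≤ Nat.card ↥(M ⊓ E) * 2 ^ n := by
      rw [hME]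
      rw [pow_succ, ← mul_assoc] at hle
      omega
    have h1 := ih M hMp (ea_mono hW hMW) hMle
    -- choose `u`
    have hMne : M ≠ W := by
      intro h
      rw [h] at hcard
      have : 0 < Nat.card W := Nat.card_pos
      omega
    obtain ⟨u, huW, huM⟩ : ∃ u ∈ W, u ∉ M := by
      by_contra hcon
      push Not at hcon
      exact hMne (le_antisymm hMW hcon)
    set F := E ⊓ centralizer (M : Set X) with hF
    have hFmem : ∀ x, x ∈ F ↔ x ∈ E ∧ ∀ m ∈ M, m * x = x * m := by
      intro x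
      rw [hF, Subgroup.mem_inf, Subgroup.mem_centralizer_iff]
      rfl
    have h2 := card_le_fixed_sq F
      (fun x hx y hy => hE.1 x ((hFmem x).mp hx).1 y ((hFmem y).mp hy).1)
      (fun x hx => hE.2 x ((hFmem x).mp hx).1) u
      (by
        intro x hx
        rw [hFmem] at hx ⊢
        refine ⟨hEn.conj_mem x hx.1 u, ?_⟩
        intro m hm
        have h3 : m * u = u * m := hW.1 _ (hMW hm) _ huW
        have h4 := hx.2 m hm
        calc m * (u * x * u⁻¹) = (m * u) * x * u⁻¹ := by group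
          _ = u * (m * x) * u⁻¹ := by rw [h3]; group
          _ = u * (x * m) * u⁻¹ := by rw [h4]
          _ = u * x * (m * u⁻¹) := by group
          _ = u * x * (u⁻¹ * m) := by
            have : m * u⁻¹ = u⁻¹ * m := by
              have := (Commute.inv_right (show Commute m u from h3)).eq
              exact this
            rw [this]
          _ = u * x * u⁻¹ * m := by group)
      (hW.2 u huW)
    have h3 : Nat.card ↥(F ⊓ centralizer ({u} : Set X)) ≤ Nat.card ↥(E ⊓ centralizer (W : Set X)) := by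
      apply Subgroup.card_le_of_le
      intro x hx
      obtain ⟨hxF, hxu⟩ := Subgroup.mem_inf.mp hx
      rw [hFmem] at hxF
      have hxu' : x * u = u * x := Subgroup.mem_centralizer_singleton_iff.mp hxu
      refine Subgroup.mem_inf.mpr ⟨hxF.1, ?_⟩
      rw [Subgroup.mem_centralizer_iff]
      intro w hw
      by_cases hwM : w ∈ M
      · exact hxF.2 w hwM
      · have h4 := hprod w hw u huW hwM huM
        have h5 := hxF.2 _ h4
        -- w * u commutes with x
        have h6 : w * x = x * w := by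
          have e1 : (w * u) * x = x * (w * u) := h5
          calc w * x = (w * u) * (u⁻¹ * x) := by group
            _ = (w * u) * (x * u⁻¹) := by
              have : u⁻¹ * x = x * u⁻¹ := by
                have := (Commute.inv_left (show Commute u x from hxu'.symm)).eq
                exact this
              rw [this]
            _ = ((w * u) * x) * u⁻¹ := by group
            _ = (x * (w * u)) * u⁻¹ := by rw [e1]
            _ = x * w := by group
        exact h6
    calc Nat.card E ≤ Nat.card F ^ 2 ^ n := h1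
      _ ≤ (Nat.card ↥(F ⊓ centralizer ({u} : Set X)) ^ 2) ^ 2 ^ n := Nat.pow_le_pow_left h2 _
      _ ≤ (Nat.card ↥(E ⊓ centralizer (W : Set X)) ^ 2) ^ 2 ^ n :=
        Nat.pow_le_pow_left (Nat.pow_le_pow_left h3 _) _
      _ = Nat.card ↥(E ⊓ centralizer (W : Set X)) ^ 2 ^ (n + 1) := by
        rw [← pow_mul, pow_succ 2 n, mul_comm]

/-- An elementary abelian subgroup of order at most 8 does not contain its centralizer in `E`. -/
theorem exists_commuting [Finite X] (hX : IsPGroup 2 X) (E : Subgroup X) [hEn : E.Normal]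
    (hE : EA E) (hE32 : 32 ≤ Nat.card ↥E) (W : Subgroup X) (hW : EA W) (h8 : Nat.card W ≤ 8) :
    ∃ f ∈ E, f ∉ W ∧ ∀ w ∈ W, f * w = w * f := by
  by_contra hcon
  push Not at hcon
  have hle : E ⊓ centralizer (W : Set X) ≤ W ⊓ E := by
    intro x hx
    obtain ⟨h1, h2⟩ := Subgroup.mem_inf.mp hx
    rw [Subgroup.mem_centralizer_iff] at h2
    refine Subgroup.mem_inf.mpr ⟨?_, h1⟩
    by_contra h3
    obtain ⟨w, hw, hw2⟩ := hcon x h1 h3
    exact hw2 (h2 w hw).symm
  have hWp : IsPGroup 2 W := hX.to_subgroup W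
  -- `|W| = d 2^j`
  have hd : Nat.card ↥(W ⊓ E) ∣ Nat.card W := Subgroup.card_dvd_of_le inf_le_left
  obtain ⟨a, ha⟩ := IsPGroup.iff_card.mp hWp
  rw [ha] at hd
  obtain ⟨i, hi, hid⟩ := (Nat.dvd_prime_pow Nat.prime_two).mp hd
  have hWcard : Nat.card W = Nat.card ↥(W ⊓ E) * 2 ^ (a - i) := by
    rw [ha, hid, ← pow_add]
    congr 1
    omega
  have h1 := fixed_bound E hE (a - i) W hWp hW (le_of_eq hWcard)
  have h2 : Nat.card ↥(E ⊓ centralizer (W : Set X)) ≤ Nat.card ↥(W ⊓ E) := Subgroup.card_le_of_le hle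
  have h3 : Nat.card E ≤ (2 ^ i) ^ 2 ^ (a - i) := by
    calc Nat.card E ≤ _ := h1
      _ ≤ _ := Nat.pow_le_pow_left (by rw [← hid]; exact h2) _
  have ha3 : a ≤ 3 := by
    by_contra h
    have : 2 ^ 4 ≤ 2 ^ a := Nat.pow_le_pow_right (by norm_num) (by omega)
    rw [ha] at h8
    omega
  have h4 : (2 ^ i) ^ 2 ^ (a - i) < 32 := by
    interval_cases a <;> interval_cases i <;> norm_num
  omega

/-- Extension to order 8 by a commuting element of `E` -/
theorem exists_step [Finite X] (hX : IsPGroup 2 X) (E : Subgroup X) [hEn : E.Normal]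
    (hE : EA E) (hE32 : 32 ≤ Nat.card ↥E) (A : Subgroup X) (hA : EA A) (hA8 : Nat.card A = 8)
    (hAE : ¬ A ≤ E) :
    ∃ A' : Subgroup X, EA A' ∧ Nat.card A' = 8 ∧ ⁅A, A'⁆ = ⊥ ∧
      Nat.card ↥(A ⊓ E) < Nat.card ↥(A' ⊓ E) := by
  obtain ⟨f, hfE, hfA, hfc⟩ := exists_commuting hX E hE hE32 A hA (le_of_eq hA8)
  have hAp : IsPGroup 2 A := hX.to_subgroup A
  have hne : A ⊓ E ≠ A := fun h => hAE (inf_eq_left.mp h)
  obtain ⟨M, hDM, hMA, hcard, -⟩ := exists_hyperplane hAp inf_le_left hne
  have hfM : f ∉ M := fun h => hfA (hMA h)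
  have hf2 := hE.2 f hfE
  have hMcomm : ∀ w ∈ M, f * w = w * f := fun w hw => hfc w (hMA hw)
  have hsup : EA (A ⊔ Subgroup.zpowers f) := ea_sup hA hf2 hfc
  have hle : M ⊔ Subgroup.zpowers f ≤ A ⊔ Subgroup.zpowers f := sup_le_sup_right hMA _
  refine ⟨M ⊔ Subgroup.zpowers f, ea_mono hsup hle, ?_, ?_, ?_⟩
  · rw [card_sup_zpowers hf2 hfM hMcomm, hcard, hA8]
  · rw [Subgroup.commutator_eq_bot_iff_le_centralizer]
    intro a ha
    rw [Subgroup.mem_centralizer_iff]
    intro x hx
    exact hsup.1 _ (hle hx) _ ((le_sup_left : A ≤ A ⊔ Subgroup.zpowers f) ha)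
  · have hsub : A ⊓ E ≤ (M ⊔ Subgroup.zpowers f) ⊓ E := by
      intro x hx
      exact Subgroup.mem_inf.mpr ⟨(le_sup_left : M ≤ M ⊔ Subgroup.zpowers f) (hDM hx),
        (Subgroup.mem_inf.mp hx).2⟩
    apply lt_of_le_of_ne (Subgroup.card_le_of_le hsub)
    intro heq
    have h5 := Subgroup.eq_of_le_of_card_ge hsub (le_of_eq heq.symm)
    have h6 : f ∈ (M ⊔ Subgroup.zpowers f) ⊓ E :=
      Subgroup.mem_inf.mpr ⟨(le_sup_right : Subgroup.zpowers f ≤ M ⊔ Subgroup.zpowers f)
        (Subgroup.mem_zpowers f), hfE⟩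
    rw [← h5] at h6
    exact hfA (Subgroup.mem_inf.mp h6).1

/-- Let X be a finite 2-group having a normal elementary abelian subgroup of order at least 32. Then (a) for any two elementary abelian subgroups A, B of X of order 8 there is a chain A = A₁, A₂, …, Aₙ = B of elementary abelian subgroups of order 8 in which consecutive members commute elementwise; and (b) every elementary abelian subgroup of X of order 4 is contained in an elementary abelian subgroup of order 8. -/
theorem result {X : Type*} [Group X] [Finite X]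
    (hX : IsPGroup 2 X) (E : Subgroup X) [E.Normal] (hE : Cfsg.IsElementaryAbelian 2 E) (hE32 : 32 ≤ Nat.card ↥E) :
    (∀ A B : Subgroup X, Cfsg.IsElementaryAbelian 2 A → Nat.card ↥A = 8 → Cfsg.IsElementaryAbelian 2 B → Nat.card ↥B = 8 →
        Relation.ReflTransGen
          (fun C D : Subgroup X => Cfsg.IsElementaryAbelian 2 C ∧ Nat.card ↥C = 8 ∧ Cfsg.IsElementaryAbelian 2 D ∧ Nat.card ↥D = 8 ∧ ⁅C, D⁆ = ⊥)
          A B) ∧
      (∀ V : Subgroup X, Cfsg.IsElementaryAbelian 2 V → Nat.card ↥V = 4 →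
        ∃ A : Subgroup X, V ≤ A ∧ Cfsg.IsElementaryAbelian 2 A ∧ Nat.card ↥A = 8) := by

  have hE' : EA E := (ea_iff E).mp hE
  constructor
  · let R : Subgroup X → Subgroup X → Prop := fun C D =>
      Cfsg.IsElementaryAbelian 2 C ∧ Nat.card ↥C = 8 ∧ Cfsg.IsElementaryAbelian 2 D ∧
        Nat.card ↥D = 8 ∧ ⁅C, D⁆ = ⊥
    have hsymm : ∀ {C D : Subgroup X}, R C D → R D C := by
      rintro C D ⟨h1, h2, h3, h4, h5⟩
      refine ⟨h3, h4, h1, h2, ?_⟩
      rw [Subgroup.commutator_comm]
      exact h5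
    have hrev : ∀ {C D : Subgroup X}, Relation.ReflTransGen R C D → Relation.ReflTransGen R D C := by
      intro C D h
      induction h with
      | refl => exact Relation.ReflTransGen.refl
      | tail _ h2 ih => exact Relation.ReflTransGen.head (hsymm h2) ih
    have reach : ∀ n : ℕ, ∀ A : Subgroup X, Cfsg.IsElementaryAbelian 2 A → Nat.card ↥A = 8 →
        8 - Nat.card ↥(A ⊓ E) ≤ n →
        ∃ A₀ : Subgroup X, A₀ ≤ E ∧ Cfsg.IsElementaryAbelian 2 A₀ ∧ Nat.card ↥A₀ = 8 ∧
          Relation.ReflTransGen R A A₀ := by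
      intro n
      induction n with
      | zero =>
        intro A hA hA8 hn
        refine ⟨A, ?_, hA, hA8, Relation.ReflTransGen.refl⟩
        have h1 : A ⊓ E = A := by
          apply Subgroup.eq_of_le_of_card_ge inf_le_left
          omega
        exact inf_eq_left.mp h1
      | succ n ih =>
        intro A hA hA8 hn
        by_cases hAE : A ≤ E
        · exact ⟨A, hAE, hA, hA8, Relation.ReflTransGen.refl⟩
        obtain ⟨A', hA', hA'8, hcomm, hlt⟩ := exists_step hX E hE' hE32 A ((ea_iff A).mp hA) hA8 hAE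
        have hA'i : Cfsg.IsElementaryAbelian 2 A' := (ea_iff A').mpr hA'
        have hle : Nat.card ↥(A' ⊓ E) ≤ 8 := by
          rw [← hA'8]
          exact Subgroup.card_le_of_le inf_le_left
        obtain ⟨A₀, h1, h2, h3, h4⟩ := ih A' hA'i hA'8 (by omega)
        exact ⟨A₀, h1, h2, h3, Relation.ReflTransGen.head ⟨hA, hA8, hA'i, hA'8, hcomm⟩ h4⟩
    intro A B hA hA8 hB hB8
    obtain ⟨A₀, hA₀E, hA₀, hA₀8, hAchain⟩ := reach _ A hA hA8 le_rfl
    obtain ⟨B₀, hB₀E, hB₀, hB₀8, hBchain⟩ := reach _ B hB hB8 le_rfl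
    have hcomm : ⁅A₀, B₀⁆ = ⊥ := by
      rw [Subgroup.commutator_eq_bot_iff_le_centralizer]
      intro a ha
      rw [Subgroup.mem_centralizer_iff]
      intro b hb
      exact hE'.1 _ (hB₀E hb) _ (hA₀E ha)
    have hstep : R A₀ B₀ := ⟨hA₀, hA₀8, hB₀, hB₀8, hcomm⟩
    exact (hAchain.tail hstep).trans (hrev hBchain)
  · intro V hV hV4
    have hV' := (ea_iff V).mp hV
    obtain ⟨f, hfE, hfV, hfc⟩ := exists_commuting hX E hE' hE32 V hV' (by omega)
    have hf2 := hE'.2 f hfE
    refine ⟨V ⊔ Subgroup.zpowers f, le_sup_left, (ea_iff _).mpr (ea_sup hV' hf2 hfc), ?_⟩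
    rw [card_sup_zpowers hf2 hfV hfc, hV4]

end Cfsg.Agent.S1785
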