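import Cfsg.Statements.S1850
import Mathlib
import Cfsg.Agent.Lib.TwoFusion.QTSetup

set_option autoImplicit false
open Cfsg

namespace Cfsg.Agent.S1850

open Cfsg.Agent.Lib.TwoFusion Cfsg.Agent.Lib.Components

/-- Let G be a non-abelian finite simple QTKE-group and T a Sylow 2-subgroup of G. If U is a nontrivial 2-subgroup of G with U ∩ Z(T) ≠ 1, then F*(N_G(U)) = O₂(N_G(U)). -/
theorem result {G : Type*} [Group G] [Finite G] [IsSimpleGroup G]
    (hG : ¬ IsMulCommutative G) (hQ : Cfsg.IsQTKE G) (T : Sylow 2 G) (U : Subgroup G)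
    (hU : IsPGroup 2 ↥U) (hZ : U ⊓ ((T : Subgroup G) ⊓ Subgroup.centralizer ((T : Subgroup G) : Set G)) ≠ ⊥) :
    Subgroup.normalizer (U : Set G) ∈ Cfsg.calHe G := by

  classical
  haveI : Fact (Nat.Prime 2) := ⟨Nat.prime_two⟩
  obtain ⟨⟨z, hzU, hzT, hzc⟩, hz1⟩ := (Subgroup.ne_bot_iff_exists_ne_one).mp hZ
  have hz1' : z ≠ 1 := fun h => hz1 (Subtype.ext h)
  have hWU : Subgroup.zpowers z ≤ U := by
    rw [Subgroup.zpowers_le]
    exact hzU
  have hWp : IsPGroup 2 ↥(Subgroup.zpowers z) := hU.to_le hWU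
  have hW1 : Subgroup.zpowers z ≠ ⊥ := by
    rw [Ne, Subgroup.zpowers_eq_bot]
    exact hz1'
  have hTN : (T : Subgroup G) ≤ Subgroup.normalizer ((Subgroup.zpowers z : Subgroup G) : Set G) := by
    intro t ht
    apply Subgroup.centralizer_le_normalizer
    rw [Subgroup.mem_centralizer_iff]
    rintro _ ⟨n, rfl⟩
    have h1 : t * z = z * t := (Subgroup.mem_centralizer_iff.mp hzc t ht)
    exact ((Commute.zpow_left h1.symm n) : Commute _ _)
  have hlocal : Cfsg.IsTwoLocal (Subgroup.normalizer ((Subgroup.zpowers z : Subgroup G) : Set G)) :=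
    ⟨_, hWp, hW1, rfl⟩
  have hchar := hQ.2.2 _ hlocal ⟨T, hTN⟩
  have h1 : IsPType 2 ↥(Subgroup.normalizer ((Subgroup.zpowers z : Subgroup G) : Set G)) :=
    isPType_of_centralizer_pCore_le hchar
  have h2 := isPType_normalizer_tower _ _ U hU hWU rfl h1
  exact isPType_iff.mp h2

end Cfsg.Agent.S1850
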