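import Cfsg.Statements.S1966
import Cfsg.Agent.Lib.Basic.Core

set_option autoImplicit false
open Cfsg

namespace Cfsg.Agent.S1966

open Cfsg.Agent.Lib.Basic

/-- Let p be a prime, G a finite group with Sylow p-subgroup S and 𝓕 a conjugation family for S in G. Then the members of 𝓕 containing O_p(G) still form a conjugation family for S in G. -/
theorem result {G : Type*} [Group G] [Finite G] {p : ℕ} [Fact p.Prime] (S : Sylow p G) (𝓕 : Set (Subgroup G)) (h : Cfsg.IsConjugationFamily 𝓕 (S : Subgroup G)) : Cfsg.IsConjugationFamily {T : Subgroup G | T ∈ 𝓕 ∧ Cfsg.pCore p G ≤ T} (S : Subgroup G) := by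
  refine ⟨fun T hT => h.1 T hT.1, ?_⟩
  intro A g hA hAS hAg
  have hOS : ((Cfsg.pCore p G : Subgroup G) : Set G) ⊆ (S : Subgroup G) := pCore_le_sylow S
  have hO : ∀ x ∈ Cfsg.pCore p G, ∀ y : G, y⁻¹ * x * y ∈ Cfsg.pCore p G := by
    intro x hx y
    have := (pCore_normal (G := G) p).conj_mem x hx y⁻¹
    simpa using this
  obtain ⟨n, T, x, h1, h2, h3, h4, h5⟩ := h.2 (A ∪ (Cfsg.pCore p G : Subgroup G)) g (hA.mono Set.subset_union_left)
    (Set.union_subset hAS hOS) (by
      rintro _ ⟨a, ha | ha, rfl⟩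
      · exact hAg ⟨a, ha, rfl⟩
      · exact hOS (hO a ha g))
  refine ⟨n, T, x, h1, ?_, h3, ?_, ?_⟩
  · intro i
    refine ⟨h2 i, ?_⟩
    -- every member of the chain contains `O_p(G)`
    rcases hi : i.val with _ | j
    · have h0 : 0 < n := by have := i.2; omega
      have hi' : i = ⟨0, h0⟩ := Fin.ext hi
      rw [hi']
      intro y hy
      exact h4 h0 (Set.mem_union_right _ hy)
    · have hj : j + 1 < n := by have := i.2; omega
      have hi' : i = ⟨j + 1, hj⟩ := Fin.ext hi
      rw [hi']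
      intro y hy
      have := h5 ⟨j, by omega⟩ hj
      have h6 := @this (((List.ofFn x).take (j + 1)).prod⁻¹ * (((List.ofFn x).take (j + 1)).prod * y * ((List.ofFn x).take (j + 1)).prod⁻¹) * ((List.ofFn x).take (j + 1)).prod) ⟨_, Set.mem_union_right _ ((pCore_normal (G := G) p).conj_mem y hy _), rfl⟩
      simpa [mul_assoc] using h6
  · intro h0
    exact fun a ha => h4 h0 (Set.mem_union_left _ ha)
  · intro i hi
    rintro _ ⟨a, ha, rfl⟩
    exact h5 i hi ⟨a, Set.mem_union_left _ ha, rfl⟩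

end Cfsg.Agent.S1966
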