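import Cfsg.Statements.S1967
import Cfsg.Agent.Lib.Tech.Basic

set_option autoImplicit false
open Cfsg

namespace Cfsg.Agent.S1967

open Cfsg.Agent.Lib.Coprime Cfsg.Agent.Lib.Tech

/-- Let p be a prime, G a finite group with Sylow p-subgroup S and W a conjugacy functor for p on G. Then W controls strong fusion in G if and only if, whenever T ≤ S and g ∈ G satisfy gTg⁻¹ ≤ S, one can write g = n c with n ∈ N_G(W(S)) and c ∈ C_G(T). -/
theorem result {G : Type*} [Group G] [Finite G] {p : ℕ} [Fact p.Prime] (S : Sylow p G) (W : Subgroup G → Subgroup G) (hW : Cfsg.IsConjugacyFunctor p W) : Cfsg.ControlsStrongFusionIn p W ⊤ ↔ ∀ (T : Subgroup G) (g : G), T ≤ (S : Subgroup G) → T.map (MulAut.conj g).toMonoidHom ≤ (S : Subgroup G) → ∃ n ∈ Subgroup.normalizer ((W (S : Subgroup G) : Subgroup G) : Set G), ∃ c ∈ Subgroup.centralizer (T : Set G), g = n * c := by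
  constructor
  · rintro ⟨T₀, -, hT₀p, hT₀i, hctl⟩ T g hTS hgT
    -- `T₀` is a Sylow subgroup, conjugate to `S`.
    have hidx : ¬ p ∣ T₀.index := by
      rwa [Subgroup.relIndex_top_right] at hT₀i
    let Q : Sylow p G := hT₀p.toSylow hidx
    have hQ : (Q : Subgroup G) = T₀ := IsPGroup.toSylow_coe _ _
    obtain ⟨x, hx⟩ := exists_conj_sylow Q S
    -- conjugate everything by `x⁻¹`
    have hmem : ∀ t : G, t ∈ T₀ ↔ x * t * x⁻¹ ∈ (S : Subgroup G) := by
      intro t
      rw [hx, ← hQ]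
      simp [mul_assoc]
    have hmem' : ∀ t : G, t ∈ (S : Subgroup G) ↔ x⁻¹ * t * x ∈ T₀ := by
      intro t
      rw [hmem]
      simp [mul_assoc]
    have hW0 : T₀ = (S : Subgroup G).map (MulAut.conj x⁻¹).toMonoidHom := by
      ext t
      rw [mem_conj_map, hmem]
      simp
    obtain ⟨y, hy, hyA⟩ := hctl ((fun t => x⁻¹ * t * x) '' (T : Set G)) (x⁻¹ * g * x) trivial (by
        rintro _ ⟨t, ht, rfl⟩
        exact (hmem' t).1 (hTS ht)) (by
        rintro _ ⟨_, ⟨t, ht, rfl⟩, rfl⟩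
        have : g * t * g⁻¹ ∈ (S : Subgroup G) := hgT ⟨t, ht, rfl⟩
        have h2 := (hmem' _).1 this
        have h3 : x⁻¹ * g * x * (x⁻¹ * t * x) * (x⁻¹ * g * x)⁻¹ = x⁻¹ * (g * t * g⁻¹) * x := by group
        show x⁻¹ * g * x * (x⁻¹ * t * x) * (x⁻¹ * g * x)⁻¹ ∈ T₀
        rw [h3]
        exact h2)
    have hyN : y ∈ Subgroup.normalizer ((W T₀ : Subgroup G) : Set G) := hy.2
    have hWT₀ : W T₀ = (W (S : Subgroup G)).map (MulAut.conj x⁻¹).toMonoidHom := by
      rw [hW0]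
      exact (hW _ S.isPGroup').2.2 x⁻¹
    have hn : x * y * x⁻¹ ∈ Subgroup.normalizer ((W (S : Subgroup G) : Subgroup G) : Set G) := by
      rw [hWT₀, ← conj_map_eq_iff_mem_normalizer, conj_map_conj_map] at hyN
      have h := congrArg (fun K : Subgroup G => K.map (MulAut.conj x).toMonoidHom) hyN
      simp only [conj_map_conj_map, mul_inv_cancel, conj_map_one] at h
      rw [← conj_map_eq_iff_mem_normalizer, mul_assoc]
      exact h
    refine ⟨x * y * x⁻¹, hn, (x * y * x⁻¹)⁻¹ * g, ?_, by group⟩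
    rw [Subgroup.mem_centralizer_iff]
    intro t ht
    have h1 := hyA (x⁻¹ * t * x) ⟨t, ht, rfl⟩
    have h2 : (x * y * x⁻¹) * t * (x * y * x⁻¹)⁻¹ = g * t * g⁻¹ := by
      have h3 : (x * y * x⁻¹) * t * (x * y * x⁻¹)⁻¹ = x * (y * (x⁻¹ * t * x) * y⁻¹) * x⁻¹ := by group
      rw [h3, h1]
      group
    generalize x * y * x⁻¹ = n at h2 ⊢
    calc t * (n⁻¹ * g) = n⁻¹ * (n * t * n⁻¹) * g := by group
      _ = n⁻¹ * (g * t * g⁻¹) * g := by rw [h2]
      _ = n⁻¹ * g * t := by group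
  · intro h
    refine ⟨S, le_top, S.isPGroup', ?_, ?_⟩
    · rw [Subgroup.relIndex_top_right]
      exact S.not_dvd_index
    · intro A g _ hAS hAg
      have h1 : (Subgroup.closure A) ≤ (S : Subgroup G) := (Subgroup.closure_le _).2 hAS
      have h2 : (Subgroup.closure A).map (MulAut.conj g).toMonoidHom ≤ (S : Subgroup G) := by
        rw [MonoidHom.map_closure, Subgroup.closure_le]
        rintro _ ⟨a, ha, rfl⟩
        exact hAg ⟨a, ha, rfl⟩
      obtain ⟨n, hn, c, hc, hg⟩ := h _ g h1 h2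
      refine ⟨n, ⟨trivial, hn⟩, fun a ha => ?_⟩
      have hca : c * a = a * c := by
        have := Subgroup.mem_centralizer_iff.1 hc a (Subgroup.subset_closure ha)
        exact this.symm
      rw [hg]
      calc n * a * n⁻¹ = n * (c * a * c⁻¹) * n⁻¹ := by rw [hca]; group
        _ = n * c * a * (n * c)⁻¹ := by group

end Cfsg.Agent.S1967
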