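import Cfsg.Statements.S1968
import Cfsg.Agent.Lib.Tech.Family
-- import your own Cfsg.Agent.* helpers here

set_option autoImplicit false
open Cfsg

namespace Cfsg.Agent.S1968

/-- Let p be a prime, G a finite group with Sylow p-subgroup S and W a conjugacy functor for p on G with Z(P) ≤ W(P) for every p-subgroup P. Let A be a subgroup of Z(S) normalized by N_G(W(S)) that is not weakly closed in S with respect to G. Then there is a subgroup T of S, well placed in S with respect to W, such that: A ≤ T; N_G(W(N_S(T))) normalizes A; N_S(T) is a Sylow p-subgroup of N_G(T); A ≤ Z(N_S(T)); and A is not weakly closed in N_S(T) with respect to N_G(T), that is, some N_G(T)-conjugate of A other than A lies in N_S(T). -/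
theorem result {G : Type*} [Group G] [Finite G] {p : ℕ} [Fact p.Prime] (S : Sylow p G) (W : Subgroup G → Subgroup G) (hW : Cfsg.IsConjugacyFunctor p W) (hWZ : ∀ P : Subgroup G, IsPGroup p ↥P → P ⊓ Subgroup.centralizer (P : Set G) ≤ W P) (A : Subgroup G) (hAZ : A ≤ (S : Subgroup G) ⊓ Subgroup.centralizer ((S : Subgroup G) : Set G)) (hAN : Subgroup.normalizer ((W (S : Subgroup G) : Subgroup G) : Set G) ≤ Subgroup.normalizer ((A : Subgroup G) : Set G)) (hnwc : ¬ Cfsg.IsWeaklyClosed A (S : Subgroup G)) : ∃ T : Subgroup G, Cfsg.IsWellPlaced p W (S : Subgroup G) T ∧ A ≤ T ∧ Subgroup.normalizer ((W ((S : Subgroup G) ⊓ Subgroup.normalizer ((T : Subgroup G) : Set G)) : Subgroup G) : Set G) ≤ Subgroup.normalizer ((A : Subgroup G) : Set G) ∧ ¬ p ∣ ((S : Subgroup G) ⊓ Subgroup.normalizer ((T : Subgroup G) : Set G)).relIndex (Subgroup.normalizer ((T : Subgroup G) : Set G)) ∧ A ≤ Subgroup.centralizer (((S : Subgroup G) ⊓ Subgroup.normalizer ((T : Subgroup G) : Set G) : Subgroup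 G) : Set G) ∧ ∃ g ∈ Subgroup.normalizer ((T : Subgroup G) : Set G), A.map (MulAut.conj g).toMonoidHom ≤ (S : Subgroup G) ⊓ Subgroup.normalizer ((T : Subgroup G) : Set G) ∧ A.map (MulAut.conj g).toMonoidHom ≠ A := by
  classical
  have hSp := S.isPGroup'
  set S' : Subgroup G := (S : Subgroup G) with hS'
  have hAS : A ≤ S' := hAZ.trans inf_le_left
  have hAC : A ≤ Subgroup.centralizer (S' : Set G) := hAZ.trans inf_le_right
  -- a first witness
  let P : Set (Subgroup G) := {T | Cfsg.IsWellPlaced p W S' T ∧ A ≤ T ∧ ∃ g ∈ Subgroup.normalizer (T : Set G), A.map (MulAut.conj g).toMonoidHom ≠ A}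
  have hstep : ∀ (B : Set G) (x : G), Cfsg.Agent.Lib.Tech.Chain {T : Subgroup G | Cfsg.IsWellPlaced p W S' T} B x → B = (A : Set G) →
      Cfsg.Agent.Lib.Tech.rc x B ≠ B → P.Nonempty := by
    intro B x hC
    induction hC with
    | nil B => intro _ h; simp at h
    | @cons B y x T hT hy hBT _ ih =>
      intro hB hne
      by_cases h1 : Cfsg.Agent.Lib.Tech.rc y B = B
      · refine ih (h1.trans hB) ?_
        rw [Cfsg.Agent.Lib.Tech.rc_rc, h1]
        exact hne
      · refine ⟨T, hT, ?_, y⁻¹, Subgroup.inv_mem _ hy, ?_⟩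
        · rw [hB] at hBT
          exact hBT
        · intro h2
          apply h1
          rw [hB, Cfsg.Agent.Lib.Tech.rc_coe, h2]
  have hne : P.Nonempty := by
    by_contra hcon
    apply hnwc
    refine ⟨hAS, fun g hg => ?_⟩
    by_contra hgne
    apply hcon
    have hA1 : (A : Set G) ⊆ S' := hAS
    have hA2 : (fun a => (g⁻¹)⁻¹ * a * g⁻¹) '' (A : Set G) ⊆ S' := by
      rintro _ ⟨a, ha, rfl⟩
      exact hg ⟨a, ha, by simp [MulAut.conj_apply]⟩
    refine hstep _ _ (Cfsg.Agent.Lib.Tech.chain_wellPlaced S hW hA1 hA2) rfl ?_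
    rw [Cfsg.Agent.Lib.Tech.rc_coe, inv_inv]
    intro h
    exact hgne (SetLike.coe_injective h)
  -- a maximal witness
  obtain ⟨T, hT, hmax⟩ := Set.exists_max_image P (fun T => Nat.card ↥(S' ⊓ Subgroup.normalizer (T : Set G))) (Set.toFinite P) hne
  obtain ⟨hwp, hAT, g, hg, hgne⟩ := hT
  have hext : Cfsg.Agent.Lib.Tech.Ext p S' T := hwp.2 0
  set Q : Subgroup G := S' ⊓ Subgroup.normalizer (T : Set G) with hQ
  have hTQ : T ≤ Q := le_inf hwp.1 Subgroup.le_normalizer
  have hQS : Q ≤ S' := inf_le_left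
  have hQp : IsPGroup p Q := hSp.to_le hQS
  have hAQ : A ≤ Q := hAT.trans hTQ
  refine ⟨T, hwp, hAT, ?_, hext, ?_, g, hg, ?_, hgne⟩
  · intro y hy₀
    have hy : y ∈ Subgroup.normalizer ((W Q : Subgroup G) : Set G) := hy₀
    by_cases hQeq : Q = S'
    · rw [hQeq] at hy
      exact hAN hy
    have hQlt : Q < S' := lt_of_le_of_ne hQS hQeq
    by_contra hyA
    have hU : W Q ∈ P := by
      refine ⟨((Cfsg.Agent.Lib.Tech.isWellPlaced_iff hW hSp).1 hwp).2.2, ?_, y, hy, ?_⟩
      · refine le_trans (le_inf hAQ ?_) (hWZ Q hQp)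
        exact hAC.trans (Subgroup.centralizer_le hQS)
      · intro h
        exact hyA ((Cfsg.Agent.Lib.Coprime.conj_map_eq_iff_mem_normalizer A y).1 h)
    have h1 := hmax _ hU
    have h2 := Cfsg.Agent.Lib.Tech.card_lt_of_lt' (Cfsg.Agent.Lib.Tech.lt_normalizer_functor hW hSp hQlt)
    exact absurd h1 (not_le_of_gt h2)
  · exact hAC.trans (Subgroup.centralizer_le hQS)
  · have h1 : A.map (MulAut.conj g).toMonoidHom ≤ T.map (MulAut.conj g).toMonoidHom := Subgroup.map_mono hAT
    rw [(Cfsg.Agent.Lib.Coprime.conj_map_eq_iff_mem_normalizer T g).2 hg] at h1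
    exact h1.trans hTQ

end Cfsg.Agent.S1968
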