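import Cfsg.Statements.S1982
import Cfsg.Agent.Lib.Tech.ChiefQuad
-- import your own Cfsg.Agent.* helpers here

set_option autoImplicit false
universe u
open Cfsg

namespace Cfsg.Agent.S1982

/-- Let p be a prime, G a finite group with Sylow p-subgroup S, T = O_p(G), and A a characteristic subgroup of T with A/Z(A) elementary abelian, [T, A] ≤ Z(A), C_T(A) = Z(A), and such that every automorphism of T of order prime to p fixing A elementwise is trivial (a critical subgroup of T). Suppose that the lower or the upper K-infinity subgroup of S is not normal in G. Then there is an element g of S outside T with [A, g, g, g] ≤ Z(A) and [Z(A), g, g] = 1, and such that if moreover C_G(T) ≤ T then some chief factor X/Y of G with X ≤ A satisfies [X, g, g] ≤ Y but [X, g] ≰ Y. -/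
theorem result {G : Type u} [Group G] [Finite G] {p : ℕ} [Fact p.Prime] (S : Sylow p G) (A : Subgroup G) (hAT : A ≤ (Cfsg.pCore p G)) (hAchar : (A.subgroupOf (Cfsg.pCore p G)).Characteristic) (hA1 : ∀ a ∈ A, a ^ p ∈ A ⊓ Subgroup.centralizer ((A : Subgroup G) : Set G)) (hA2 : ⁅A, A⁆ ≤ Subgroup.centralizer ((A : Subgroup G) : Set G)) (hA3 : ⁅(Cfsg.pCore p G), A⁆ ≤ A ⊓ Subgroup.centralizer ((A : Subgroup G) : Set G)) (hA4 : (Cfsg.pCore p G) ⊓ Subgroup.centralizer ((A : Subgroup G) : Set G) = A ⊓ Subgroup.centralizer ((A : Subgroup G) : Set G)) (hA5 : ∀ φ : MulAut ↥(Cfsg.pCore p G), (orderOf φ).Coprime p → (∀ a : ↥(Cfsg.pCore p G), (a : G) ∈ A → φ a = a) → φ = 1) (hK : ¬ (Cfsg.inducedFunctor Cfsg.kInfLower (S : Subgroup G)).Normal ∨ ¬ (Cfsg.inducedFunctor Cfsg.kInfUpper (S : Subgroup G)).Normal) : ∃ g : G, g ∈ (S : Subgroup G) ∧ g ∉ (Cfsg.pCore p G) ∧ Cfsg.iterCommutator A (Subgroup.zpowers g) 3 ≤ A ⊓ Subgroup.centralizer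 ((A : Subgroup G) : Set G) ∧ ⁅⁅A ⊓ Subgroup.centralizer ((A : Subgroup G) : Set G), (Subgroup.zpowers g)⁆, (Subgroup.zpowers g)⁆ = ⊥ ∧ (Subgroup.centralizer (((Cfsg.pCore p G) : Subgroup G) : Set G) ≤ (Cfsg.pCore p G) → ∃ U V : Subgroup G, Cfsg.IsChiefFactor U V ∧ U ≤ A ∧ ⁅⁅U, (Subgroup.zpowers g)⁆, (Subgroup.zpowers g)⁆ ≤ V ∧ ¬ ⁅U, (Subgroup.zpowers g)⁆ ≤ V) := by
  classical
  have hTn : (Cfsg.pCore p G).Normal := Cfsg.Agent.Lib.Basic.pCore_normal p
  have hAn : A.Normal := Cfsg.Agent.Lib.Tech.normal_of_char_subgroupOf hTn hAT hAchar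
  have hSp : IsPGroup p (S : Subgroup G) := S.isPGroup'
  have hSi : ¬ p ∣ (S : Subgroup G).index := S.not_dvd_index
  obtain ⟨B, hBS, hBT, hB⟩ := Cfsg.Agent.Lib.Tech.exists_good hSp hSi hAn hAT hA2 hA3 hK
  by_cases hCT : Subgroup.centralizer ((Cfsg.pCore p G : Subgroup G) : Set G) ≤ Cfsg.pCore p G
  · have hCA : Subgroup.centralizer ((A : Subgroup G) : Set G) ≤ Cfsg.pCore p G := by
      have hCn : (Subgroup.centralizer ((A : Subgroup G) : Set G)).Normal := Subgroup.normal_centralizer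
      apply Cfsg.Agent.Lib.Basic.le_pCore hCn
      apply Cfsg.Agent.Lib.LocalEven.isPGroup_subgroup_of_forall_coprime
      intro y hy hyc
      -- conjugation by `y` on `O_p(G)`
      let f : MulAut ↥(Cfsg.pCore p G) := MulAut.conjNormal y
      have hfo : orderOf f ∣ orderOf y := by
        apply orderOf_dvd_of_pow_eq_one
        rw [← map_pow, pow_orderOf_eq_one, map_one]
      have hf : f = 1 := hA5 f (Nat.Coprime.coprime_dvd_left hfo hyc) (by
        intro a ha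
        apply Subtype.ext
        show y * (a : G) * y⁻¹ = a
        rw [Subgroup.mem_centralizer_iff.1 hy _ ha |>.symm]
        group)
      have hyT : y ∈ Subgroup.centralizer ((Cfsg.pCore p G : Subgroup G) : Set G) := by
        rw [Subgroup.mem_centralizer_iff]
        intro t ht
        have h1 : f ⟨t, ht⟩ = ⟨t, ht⟩ := by rw [hf]; rfl
        have h2 : y * t * y⁻¹ = t := congrArg Subtype.val h1
        calc t * y = (y * t * y⁻¹) * y := by rw [h2]
          _ = y * t := by group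
      obtain ⟨k, hk⟩ := Cfsg.Agent.Lib.LocalEven.orderOf_of_mem_isPGroup (Cfsg.Agent.Lib.Basic.pCore_isPGroup p) (hCT hyT)
      exact Cfsg.Agent.Lib.LocalEven.eq_one_of_coprime_of_pPower ⟨k, hk⟩ hyc
    have hpack : ∀ b : G, b ∈ (S : Subgroup G) → Cfsg.iterCommutator A (Subgroup.zpowers b) 3 = ⊥ →
        ⁅⁅A ⊓ Subgroup.centralizer ((A : Subgroup G) : Set G), (Subgroup.zpowers b)⁆, (Subgroup.zpowers b)⁆ = ⊥ →
        ∀ U V : Subgroup G, Cfsg.IsChiefFactor U V → U ≤ A → ⁅⁅U, (Subgroup.zpowers b)⁆, (Subgroup.zpowers b)⁆ ≤ V →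
        ¬ ⁅U, (Subgroup.zpowers b)⁆ ≤ V → ∃ g : G, g ∈ (S : Subgroup G) ∧ g ∉ (Cfsg.pCore p G) ∧ Cfsg.iterCommutator A (Subgroup.zpowers g) 3 ≤ A ⊓ Subgroup.centralizer ((A : Subgroup G) : Set G) ∧ ⁅⁅A ⊓ Subgroup.centralizer ((A : Subgroup G) : Set G), (Subgroup.zpowers g)⁆, (Subgroup.zpowers g)⁆ = ⊥ ∧ (Subgroup.centralizer (((Cfsg.pCore p G) : Subgroup G) : Set G) ≤ (Cfsg.pCore p G) → ∃ U V : Subgroup G, Cfsg.IsChiefFactor U V ∧ U ≤ A ∧ ⁅⁅U, (Subgroup.zpowers g)⁆, (Subgroup.zpowers g)⁆ ≤ V ∧ ¬ ⁅U, (Subgroup.zpowers g)⁆ ≤ V) := by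
      intro b hbS h1 h2 U V hUV hUA h3 h4
      have hbT : b ∉ Cfsg.pCore p G := Cfsg.Agent.Lib.Tech.not_mem_of_chief_nontrivial hTn
        (Cfsg.Agent.Lib.Basic.pCore_isPGroup p) hUV (hUA.trans hAT) h4
      exact ⟨b, hbS, hbT, h1.le.trans bot_le, h2, fun _ => ⟨U, V, hUV, hUA, h3, h4⟩⟩
    rcases hB with hB | hB
    · obtain ⟨b, hb, U, V, hUV, hUA, h1, h2⟩ := hB.third_part hCA hSp hSi hBS hBT
      exact hpack b (hBS hb) (hB.cubic hb) (hB.quad_zee hb) U V hUV hUA h1 h2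
    · obtain ⟨b, hb, U, V, hUV, hUA, h1, h2⟩ := hB.third_part hCA hBT
      exact hpack b (hBS hb) (hB.cubic hb) (hB.quad_zee hb) U V hUV hUA h1 h2
  · obtain ⟨b, hb, hbT⟩ := SetLike.not_le_iff_exists.1 hBT
    rcases hB with hB | hB
    · exact ⟨b, hBS hb, hbT, (hB.cubic hb).le.trans bot_le, hB.quad_zee hb, fun h => absurd h hCT⟩
    · exact ⟨b, hBS hb, hbT, (hB.cubic hb).le.trans bot_le, hB.quad_zee hb, fun h => absurd h hCT⟩

end Cfsg.Agent.S1982
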