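import Cfsg.Statements.S1987
import Cfsg.Agent.Lib.Tech.PStableFusion
-- import your own Cfsg.Agent.* helpers here

set_option autoImplicit false
universe u
open Cfsg

namespace Cfsg.Agent.S1987

/-- Let p be an odd prime and G a finite group every section of which is p-stable in the normalizer form (in each section, an element of the normalizer of a p-subgroup Q acting quadratically on Q maps into O_p of N(Q)/C(Q)). Then for every Sylow p-subgroup S of G the lower K-infinity subgroup of S controls strong fusion in G. -/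
theorem result {G : Type u} [Group G] [Finite G] {p : ℕ} [Fact p.Prime] (hp : p ≠ 2) (hst : ∀ (K R : Subgroup G) [hR : (R.subgroupOf K).Normal], Cfsg.IsNormalizerPStable p (↥K ⧸ R.subgroupOf K)) (S : Sylow p G) : Cfsg.ControlsStrongFusion p (Cfsg.inducedFunctor Cfsg.kInfLower (S : Subgroup G)) := by
  have hW := Cfsg.Agent.Lib.Tech.kInfLower_isCharPFunctor.{u} p
  have hW' : ∀ W' ∈ ({Cfsg.kInfLower} : Set (∀ (Q : Type u) [Group Q], Subgroup Q)), Cfsg.IsCharPFunctor.{u} p W' := by
    rintro _ rfl
    exact hW
  haveI : ((⊥ : Subgroup G).subgroupOf (⊤ : Subgroup G)).Normal := by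
    rw [Subgroup.bot_subgroupOf]
    infer_instance
  exact Cfsg.Agent.Lib.Tech.controlsStrongFusion_of_fsx hW
    (Cfsg.Agent.Lib.Tech.fsx_top_of_section hW' (Cfsg.Agent.Lib.Tech.kInfLower_controls_of_pStable hst ⊤ ⊥)) S

end Cfsg.Agent.S1987
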