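import Cfsg.Statements.S1993
import Cfsg.Agent.Lib.Tech.PStableFusion
-- import your own Cfsg.Agent.* helpers here

set_option autoImplicit false
universe u
open Cfsg

namespace Cfsg.Agent.S1993

/-- Let p be a prime, G a finite group with Sylow p-subgroup S, and K the upper K-infinity subgroup of S. If p ≥ 5 then S ∩ G' = S ∩ (N_G(K))'; and if p is odd and every section of G is p-stable in the normalizer form, then K controls strong fusion in G. -/
theorem result {G : Type u} [Group G] [Finite G] {p : ℕ} [Fact p.Prime] (S : Sylow p G) : (5 ≤ p → (S : Subgroup G) ⊓ commutator G = (S : Subgroup G) ⊓ ⁅Subgroup.normalizer ((Cfsg.inducedFunctor Cfsg.kInfUpper (S : Subgroup G) : Subgroup G) : Set G), Subgroup.normalizer ((Cfsg.inducedFunctor Cfsg.kInfUpper (S : Subgroup G) : Subgroup G) : Set G)⁆) ∧ (p ≠ 2 → (∀ (K R : Subgroup G) [hR : (R.subgroupOf K).Normal], Cfsg.IsNormalizerPStable p (↥K ⧸ R.subgroupOf K)) → Cfsg.ControlsStrongFusion p (Cfsg.inducedFunctor Cfsg.kInfUpper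 (S : Subgroup G))) := by
  have hW := Cfsg.Agent.Lib.Tech.kInfUpper_isCharPFunctor.{u} p
  refine ⟨fun hp5 => ?_, fun _ hst => ?_⟩
  · exact Cfsg.Agent.Lib.Tech.ctl_eq_of_sylow Cfsg.kInfUpper hW
      (Cfsg.Agent.Lib.Tech.ctl_top_of_sections _ hW (fun K R _ => Cfsg.Agent.Lib.Tech.kInfUpper_ctl_sections hp5 K R))
      S.isPGroup' S.not_dvd_index
  · have hW' : ∀ W' ∈ ({Cfsg.kInfUpper} : Set (∀ (Q : Type u) [Group Q], Subgroup Q)), Cfsg.IsCharPFunctor.{u} p W' := by
      rintro _ rfl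
      exact hW
    haveI : ((⊥ : Subgroup G).subgroupOf (⊤ : Subgroup G)).Normal := by
      rw [Subgroup.bot_subgroupOf]
      infer_instance
    exact Cfsg.Agent.Lib.Tech.controlsStrongFusion_of_fsx hW
      (Cfsg.Agent.Lib.Tech.fsx_top_of_section hW' (Cfsg.Agent.Lib.Tech.kInfUpper_controls_of_pStable hst ⊤ ⊥)) S

end Cfsg.Agent.S1993
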