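import Cfsg.Statements.S2007
import Cfsg.Agent.Lib.Transfer.Basic
import Cfsg.Agent.Lib.Coprime.Conj
import Cfsg.Agent.Lib.Tech.KSeq
-- import your own Cfsg.Agent.* helpers here

set_option autoImplicit false
open Cfsg

namespace Cfsg.Agent.S2007

/-- Let p be a prime, G a finite group with Sylow p-subgroup S, and T a normal subgroup of S containing C_S(T). If N_G(T)/C_G(T) is a p-group (every element of N_G(T) of order prime to p centralizes T), then N_G(T) has a normal p-complement. -/
theorem result {G : Type*} [Group G] [Finite G] {p : ℕ} [Fact p.Prime] (S : Sylow p G) (T : Subgroup G) (hTS : T ≤ (S : Subgroup G)) (hTn : (S : Subgroup G) ≤ Subgroup.normalizer ((T : Subgroup G) : Set G)) (hC : (S : Subgroup G) ⊓ Subgroup.centralizer ((T : Subgroup G) : Set G) ≤ T) (hN : ∀ g ∈ Subgroup.normalizer ((T : Subgroup G) : Set G), (orderOf g).Coprime p → g ∈ Subgroup.centralizer ((T : Subgroup G) : Set G)) : Cfsg.HasNormalPComplement p ↥(Subgroup.normalizer ((T : Subgroup G) : Set G)) :=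 by
  classical
  have hp : p.Prime := Fact.out
  open Cfsg.Agent.Lib.Transfer Cfsg.Agent.Lib.Coprime in
  set N : Subgroup G := Subgroup.normalizer ((T : Subgroup G) : Set G) with hNdef
  set Cz : Subgroup G := Subgroup.centralizer ((T : Subgroup G) : Set G) with hCz
  have hCzN : Cz ≤ N := Subgroup.centralizer_le_normalizer _
  have hC'n : (Cz.subgroupOf N).Normal := by
    refine ⟨fun x hx g => ?_⟩
    rw [Subgroup.mem_subgroupOf] at hx ⊢
    exact Cfsg.Agent.Lib.Tech.KSeq.conj_mem_centralizer g.2 hx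
  have hres : Cfsg.pResidual p ↥N ≤ Cz.subgroupOf N := by
    rw [Cfsg.pResidual, Subgroup.closure_le]
    intro x hx
    rw [SetLike.mem_coe, Subgroup.mem_subgroupOf]
    exact hN x x.2 (by simpa [Subgroup.orderOf_coe] using hx)
  have hk : ∃ k, (Cz.subgroupOf N).index = p ^ k := by
    obtain ⟨k, hk⟩ := index_eq_pow_of_isPGroup_quotient (isPGroup_quotient_pResidual (p := p) (G := N))
    have h1 := Subgroup.index_dvd_of_le hres
    rw [hk] at h1
    obtain ⟨j, -, hj⟩ := (Nat.dvd_prime_pow hp).1 h1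
    exact ⟨j, hj⟩
  obtain ⟨k, hk⟩ := hk
  apply hasNormalPComplement_of_normal_of_index hk
  let S' : Sylow p N := S.subtype hTn
  obtain ⟨R, hR⟩ := exists_sylow_map_eq_inf S' (Cz.subgroupOf N)
  have hRc : ∀ r ∈ (R : Subgroup ↥(Cz.subgroupOf N)), ∀ c : ↥(Cz.subgroupOf N), c * r = r * c := by
    intro r hr c
    have h1 : (r : N) ∈ (R : Subgroup ↥(Cz.subgroupOf N)).map (Cz.subgroupOf N).subtype := ⟨r, hr, rfl⟩
    rw [hR] at h1
    have h2 : ((r : N) : G) ∈ (S : Subgroup G) ⊓ Cz := by
      refine Subgroup.mem_inf.2 ⟨?_, ?_⟩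
      · have := (Subgroup.mem_inf.1 h1).1
        rwa [Sylow.coe_subtype, Subgroup.mem_subgroupOf] at this
      · have := (Subgroup.mem_inf.1 h1).2
        rwa [Subgroup.mem_subgroupOf] at this
    have h3 : ((r : N) : G) ∈ T := hC h2
    have hc2 : ((c : N) : G) ∈ Cz := Subgroup.mem_subgroupOf.1 c.2
    have h4 := Subgroup.mem_centralizer_iff.1 hc2 _ h3
    apply Subtype.ext
    apply Subtype.ext
    exact h4.symm
  have hP : Subgroup.normalizer ((R : Subgroup ↥(Cz.subgroupOf N)) : Set ↥(Cz.subgroupOf N)) ≤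
      Subgroup.centralizer ((R : Subgroup ↥(Cz.subgroupOf N)) : Set ↥(Cz.subgroupOf N)) := by
    intro c _
    rw [Subgroup.mem_centralizer_iff]
    intro r hr
    exact (hRc r hr c).symm
  exact ⟨R, (MonoidHom.transferSylow R hP).ker, inferInstance, MonoidHom.ker_transferSylow_isComplement' R hP⟩

end Cfsg.Agent.S2007
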