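import Cfsg.Statements.S2008
import Mathlib

set_option autoImplicit false
open Cfsg

namespace Cfsg.Agent.S2008

/-- Let H be a finite group and z an involution such that every proper normal subgroup of H meets the centralizer of z trivially, and suppose z lies in a Klein four-subgroup E of H all three of whose involutions are conjugate to z in H. Then H has no non-trivial abelian normal subgroup. -/
theorem result {H : Type*} [Group H] [Finite H] (z : H) (hz : orderOf z = 2) (hN : ∀ N : Subgroup H, N.Normal → N ≠ ⊤ → N ⊓ Subgroup.centralizer ({z} : Set H) = ⊥) (E : Subgroup H) (hE : IsKleinFour ↥E) (hzE : z ∈ E) (hc : ∀ e ∈ E, e ≠ 1 → IsConj z e) (N : Subgroup H) [N.Normal] (hab : IsMulCommutative ↥N) : N = ⊥ := by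
  have hz2 : z * z = 1 := by
    have := pow_orderOf_eq_one z
    rw [hz, pow_two] at this
    exact this
  have hz1 : z ≠ 1 := by
    rintro rfl
    simp at hz
  have hEexp : ∀ e ∈ E, e * e = 1 := by
    intro e he
    have h1 : (⟨e, he⟩ : E) ^ 2 = 1 := by
      rw [← hE.exponent_two]
      exact Monoid.pow_exponent_eq_one _
    have h2 := congrArg Subtype.val h1
    simpa [pow_two] using h2
  -- another element of `E`
  obtain ⟨e, heE, he1, hez⟩ : ∃ e ∈ E, e ≠ 1 ∧ e ≠ z := by
    by_contra hcon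
    push Not at hcon
    have h1 : (Set.univ : Set E) ⊆ {1, ⟨z, hzE⟩} := by
      rintro ⟨x, hx⟩ -
      by_cases hx1 : x = 1
      · left; exact Subtype.ext hx1
      · right; exact Subtype.ext (hcon x hx hx1)
    have h2 : (Set.univ : Set E).ncard ≤ ({1, ⟨z, hzE⟩} : Set E).ncard := Set.ncard_le_ncard h1 (Set.toFinite _)
    rw [Set.ncard_univ, hE.card_four] at h2
    have h3 := Set.ncard_insert_le (1 : E) ({⟨z, hzE⟩} : Set E)
    rw [Set.ncard_singleton] at h3
    omega
  have hNtop : N ≠ ⊤ := by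
    rintro rfl
    obtain ⟨c, hc'⟩ := isConj_iff.1 (hc e heE he1)
    have h1 : c * z = z * c := by
      have := hab.is_comm.comm ⟨c, trivial⟩ ⟨z, trivial⟩
      exact congrArg Subtype.val this
    apply hez
    rw [← hc', h1]
    group
  have h0 := hN N inferInstance hNtop
  have hcomm : ∀ a ∈ N, ∀ b ∈ N, a * b = b * a := by
    intro a ha b hb
    have := hab.is_comm.comm ⟨a, ha⟩ ⟨b, hb⟩
    exact congrArg Subtype.val this
  -- fixed points of conjugates of `z` on `N`
  have hfix : ∀ a : H, IsConj z a → ∀ n ∈ N, a * n = n * a → n = 1 := by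
    intro a ha n hn hna
    obtain ⟨c, rfl⟩ := isConj_iff.1 ha
    have h1 : c⁻¹ * n * c ∈ N ⊓ Subgroup.centralizer ({z} : Set H) := by
      refine Subgroup.mem_inf.2 ⟨?_, ?_⟩
      · have := (inferInstance : N.Normal).conj_mem n hn c⁻¹
        simpa using this
      · rw [Subgroup.mem_centralizer_singleton_iff]
        have h2 : c⁻¹ * n * c * z = c⁻¹ * (n * (c * z * c⁻¹)) * c := by group
        have h3 : z * (c⁻¹ * n * c) = c⁻¹ * ((c * z * c⁻¹) * n) * c := by group
        rw [h2, h3, hna]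
    rw [h0] at h1
    have h2 : c⁻¹ * n * c = 1 := by simpa using h1
    calc n = c * (c⁻¹ * n * c) * c⁻¹ := by group
      _ = 1 := by rw [h2]; group
  have hinv : ∀ a : H, IsConj z a → a * a = 1 → ∀ n ∈ N, a * n * a⁻¹ = n⁻¹ := by
    intro a ha ha2 n hn
    have hainv : a⁻¹ = a := by
      rw [inv_eq_iff_mul_eq_one]; exact ha2
    have hnN : a * n * a⁻¹ ∈ N := (inferInstance : N.Normal).conj_mem n hn a
    have hx : n * (a * n * a⁻¹) = 1 := by
      apply hfix a ha _ (N.mul_mem hn hnN)
      have h1 : a * (n * (a * n * a⁻¹)) = (a * n * a⁻¹) * (a * (a * n * a⁻¹) * a⁻¹) * a := by group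
      have h2 : a * (a * n * a⁻¹) * a⁻¹ = n := by
        calc a * (a * n * a⁻¹) * a⁻¹ = (a * a) * n * (a⁻¹ * a⁻¹) := by group
          _ = n := by rw [ha2, hainv, ha2]; group
      rw [h1, h2, hcomm _ hnN _ hn]
    exact (inv_eq_of_mul_eq_one_right hx).symm
  have hfE : z * e ∈ E := E.mul_mem hzE heE
  have hf1 : z * e ≠ 1 := by
    intro h
    apply hez
    have h1 : z⁻¹ = z := by rw [inv_eq_iff_mul_eq_one]; exact hz2
    rw [← h1]
    exact eq_inv_of_mul_eq_one_right h
  have he2 := hEexp e heE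
  rw [eq_bot_iff]
  intro n hn
  rw [Subgroup.mem_bot]
  apply hfix (z * e) (hc _ hfE hf1) n hn
  have h1 := hinv z (IsConj.refl z) hz2 n hn
  have h2 := hinv e (hc e heE he1) he2 n hn
  have h3 := hinv z (IsConj.refl z) hz2 n⁻¹ (N.inv_mem hn)
  have h4 : (z * e) * n * (z * e)⁻¹ = n := by
    calc (z * e) * n * (z * e)⁻¹ = z * (e * n * e⁻¹) * z⁻¹ := by group
      _ = z * n⁻¹ * z⁻¹ := by rw [h2]
      _ = n := by rw [h3]; group
  calc (z * e) * n = (z * e) * n * (z * e)⁻¹ * (z * e) := by group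
    _ = n * (z * e) := by rw [h4]

end Cfsg.Agent.S2008
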