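import Cfsg.Statements.S2009
import Cfsg.Agent.S2008

set_option autoImplicit false
open Cfsg

namespace Cfsg.Agent.S2009

/-- Let H be a finite group and z an involution such that every proper normal subgroup of H meets the centralizer of z trivially, and suppose z lies in a Klein four-subgroup E of H all three of whose involutions are conjugate to z in H. Then H is simple. -/
theorem result {H : Type*} [Group H] [Finite H] (z : H) (hz : orderOf z = 2) (hN : ∀ N : Subgroup H, N.Normal → N ≠ ⊤ → N ⊓ Subgroup.centralizer ({z} : Set H) = ⊥) (E : Subgroup H) (hE : IsKleinFour ↥E) (hzE : z ∈ E) (hc : ∀ e ∈ E, e ≠ 1 → IsConj z e) : IsSimpleGroup H := by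
  have hz2 : z * z = 1 := by
    have := pow_orderOf_eq_one z
    rw [hz, pow_two] at this
    exact this
  have hz1 : z ≠ 1 := by
    rintro rfl
    simp at hz
  have hzinv : z⁻¹ = z := by rw [inv_eq_iff_mul_eq_one]; exact hz2
  have : Nontrivial H := ⟨⟨z, 1, hz1⟩⟩
  refine ⟨fun N hNn => ?_⟩
  by_cases hNtop : N = ⊤
  · exact Or.inr hNtop
  left
  have h0 := hN N hNn hNtop
  have hconj : ∀ x ∈ N, z * x * z⁻¹ ∈ N := fun x hx => hNn.conj_mem x hx z
  let f : N → N := fun x => ⟨x⁻¹ * (z * x * z⁻¹), N.mul_mem (N.inv_mem x.2) (hconj x x.2)⟩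
  have hfinj : Function.Injective f := by
    rintro ⟨x, hx⟩ ⟨y, hy⟩ hxy
    have h1 : x⁻¹ * (z * x * z⁻¹) = y⁻¹ * (z * y * z⁻¹) := congrArg Subtype.val hxy
    have h2 : y * x⁻¹ ∈ N ⊓ Subgroup.centralizer ({z} : Set H) := by
      refine Subgroup.mem_inf.2 ⟨N.mul_mem hy (N.inv_mem hx), ?_⟩
      rw [Subgroup.mem_centralizer_singleton_iff]
      have h3 : y * x⁻¹ * (z * x * z⁻¹) = z * y * z⁻¹ := by
        calc y * x⁻¹ * (z * x * z⁻¹) = y * (x⁻¹ * (z * x * z⁻¹)) := by group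
          _ = y * (y⁻¹ * (z * y * z⁻¹)) := by rw [h1]
          _ = z * y * z⁻¹ := by group
      calc y * x⁻¹ * z = (y * x⁻¹ * (z * x * z⁻¹)) * (z * x⁻¹ * z⁻¹) * z := by group
        _ = (z * y * z⁻¹) * (z * x⁻¹ * z⁻¹) * z := by rw [h3]
        _ = z * (y * x⁻¹) := by group
    rw [h0] at h2
    have h3 : y * x⁻¹ = 1 := by simpa using h2
    apply Subtype.ext
    exact (mul_inv_eq_one.1 h3).symm
  have hfsurj : Function.Surjective f := Finite.surjective_of_injective hfinj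
  have hinv : ∀ w ∈ N, z * w * z⁻¹ = w⁻¹ := by
    intro w hw
    obtain ⟨⟨x, hx⟩, hxw⟩ := hfsurj ⟨w, hw⟩
    have h1 : w = x⁻¹ * (z * x * z⁻¹) := (congrArg Subtype.val hxw).symm
    subst h1
    calc z * (x⁻¹ * (z * x * z⁻¹)) * z⁻¹ = (z * x⁻¹ * z⁻¹) * (z * z) * x * (z⁻¹ * z⁻¹) := by group
      _ = (z * x⁻¹ * z⁻¹) * x := by
        have h4 : z⁻¹ * z⁻¹ = 1 := by rw [hzinv]; exact hz2
        rw [hz2, h4]; group
      _ = (x⁻¹ * (z * x * z⁻¹))⁻¹ := by group
  have hab : IsMulCommutative ↥N := by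
    refine ⟨⟨fun a b => ?_⟩⟩
    apply Subtype.ext
    have h1 := hinv (a * b) (N.mul_mem a.2 b.2)
    have h2 := hinv a a.2
    have h3 := hinv b b.2
    have h4 : z * ((a : H) * b) * z⁻¹ = (z * a * z⁻¹) * (z * b * z⁻¹) := by group
    rw [h4, h2, h3, mul_inv_rev] at h1
    have h5 := congrArg (fun x => (x)⁻¹) h1
    exact (by simpa using h5 : (b : H) * a = a * b).symm
  exact Cfsg.Agent.S2008.result z hz hN E hE hzE hc N hab

end Cfsg.Agent.S2009
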