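-- Statement S2039: the Schur multiplier of J1 is trivial.
import Cfsg.Statements.S2039
import Cfsg.Agent.Lib.KnownSimple.J1Group
import Cfsg.Agent.Lib.KnownSimple.SchurLocal

set_option autoImplicit false
open Cfsg

namespace Cfsg.Agent.S2039

open Cfsg.Agent.Lib.KnownSimple.J1Base Cfsg.Agent.Lib.KnownSimple.J1Group Cfsg.Agent.Lib.KnownSimple.SchurLocal
open scoped commutatorElement

section abstract

variable {Γ : Type*} [Group Γ]

theorem comm_mul_central {x y k l : Γ} (hk : ∀ g : Γ, g * k = k * g) (hl : ∀ g : Γ, g * l = l * g) :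
    ⁅x * k, y * l⁆ = ⁅x, y⁆ := by
  simp only [commutatorElement_def, mul_inv_rev]
  have h1 : k * (y * l) = (y * l) * k := (hk _).symm
  have h2 : k⁻¹ * x⁻¹ = x⁻¹ * k⁻¹ := by
    rw [eq_comm, ← mul_inv_rev, ← mul_inv_rev, hk]
  have h3 : l * (k⁻¹ * x⁻¹) = (k⁻¹ * x⁻¹) * l := (hl _).symm
  calc x * k * (y * l) * (k⁻¹ * x⁻¹) * (l⁻¹ * y⁻¹)
      = x * (k * (y * l)) * (k⁻¹ * x⁻¹) * (l⁻¹ * y⁻¹) := by group
    _ = x * (y * l * k) * (k⁻¹ * x⁻¹) * (l⁻¹ * y⁻¹) := by rw [h1]
    _ = x * y * (l * (x⁻¹)) * (l⁻¹ * y⁻¹) := by group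
    _ = x * y * (l * (k⁻¹ * k * x⁻¹)) * (l⁻¹ * y⁻¹) := by group
    _ = x * y * x⁻¹ * y⁻¹ := by
      have h4 : l * x⁻¹ = x⁻¹ * l := (hl _).symm
      calc x * y * (l * (k⁻¹ * k * x⁻¹)) * (l⁻¹ * y⁻¹) = x * y * (l * x⁻¹) * (l⁻¹ * y⁻¹) := by group
        _ = x * y * (x⁻¹ * l) * (l⁻¹ * y⁻¹) := by rw [h4]
        _ = x * y * x⁻¹ * y⁻¹ := by group

/-- The commutator form on a lift of an elementary abelian group of order `8` with an automorphism of
order `7` vanishes. -/
theorem lifts_commute {H : Type*} [Group H] {σ : Γ →* H} (hK : σ.ker ≤ Subgroup.center Γ) {A B C S : Γ}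
    (h12 : σ A * σ B = σ B * σ A) (h13 : σ A * σ C = σ C * σ A) (h23 : σ B * σ C = σ C * σ B)
    (hs1 : σ S * σ A * (σ S)⁻¹ = σ B) (hs2 : σ S * σ B * (σ S)⁻¹ = σ C)
    (hs3 : σ S * σ C * (σ S)⁻¹ = σ A * σ C) :
    A * B = B * A ∧ A * C = C * A ∧ B * C = C * B := by
  have hker : ∀ x y : Γ, σ x = σ y → ∃ k ∈ σ.ker, x = y * k := by
    intro x y hxy
    refine ⟨y⁻¹ * x, ?_, by group⟩
    rw [MonoidHom.mem_ker, map_mul, map_inv, hxy, inv_mul_cancel]
  have hc : ∀ k ∈ σ.ker, ∀ g : Γ, g * k = k * g := fun k hk g => Subgroup.mem_center_iff.mp (hK hk) g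
  have hcomm : ∀ x y : Γ, σ x * σ y = σ y * σ x → ⁅x, y⁆ ∈ σ.ker := by
    intro x y hxy
    rw [MonoidHom.mem_ker, map_commutatorElement, commutatorElement_eq_one_iff_mul_comm]
    exact hxy
  obtain ⟨k1, hk1, e1⟩ := hker (S * A * S⁻¹) B (by simpa using hs1)
  obtain ⟨k2, hk2, e2⟩ := hker (S * B * S⁻¹) C (by simpa using hs2)
  obtain ⟨k3, hk3, e3⟩ := hker (S * C * S⁻¹) (A * C) (by simpa using hs3)
  have hconj : ∀ x y : Γ, ⁅x, y⁆ ∈ σ.ker → ⁅S * x * S⁻¹, S * y * S⁻¹⁆ = ⁅x, y⁆ := by
    intro x y hxy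
    have h1 : ⁅S * x * S⁻¹, S * y * S⁻¹⁆ = S * ⁅x, y⁆ * S⁻¹ := by
      simp only [commutatorElement_def]
      group
    rw [h1, hc _ hxy S]
    group
  have f12 := hcomm A B h12
  have f13 := hcomm A C h13
  have f23 := hcomm B C h23
  have r1 : ⁅A, B⁆ = ⁅B, C⁆ := by
    rw [← hconj A B f12, e1, e2]
    exact comm_mul_central (hc _ hk1) (hc _ hk2)
  have hexp1 : ⁅B, A * C⁆ = ⁅B, A⁆ * ⁅B, C⁆ := by
    have h1 : ⁅B, A * C⁆ = ⁅B, A⁆ * (A * ⁅B, C⁆ * A⁻¹) := by
      simp only [commutatorElement_def]; group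
    rw [h1, hc _ f23 A]
    group
  have hBA : ⁅B, A⁆ = ⁅A, B⁆⁻¹ := (commutatorElement_inv _ _).symm
  have r3 : ⁅A, C⁆ = 1 := by
    have h2 : ⁅A, C⁆ = ⁅B, A * C⁆ := by
      rw [← hconj A C f13, e1, e3]
      exact comm_mul_central (hc _ hk1) (hc _ hk3)
    rw [h2, hexp1, hBA, r1]
    group
  have r2 : ⁅B, C⁆ = 1 := by
    have h2 : ⁅B, C⁆ = ⁅C, A * C⁆ := by
      rw [← hconj B C f23, e2, e3]
      exact comm_mul_central (hc _ hk2) (hc _ hk3)
    rw [h2]
    have h3 : ⁅C, A * C⁆ = ⁅C, A⁆ := by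
      simp only [commutatorElement_def]; group
    rw [h3, ← commutatorElement_inv, r3, inv_one]
  have r4 : ⁅A, B⁆ = 1 := r1.trans r2
  exact ⟨commutatorElement_eq_one_iff_mul_comm.mp r4, commutatorElement_eq_one_iff_mul_comm.mp r3,
    commutatorElement_eq_one_iff_mul_comm.mp r2⟩

end abstract

/-- The Schur multiplier of the Janko group J₁ (the group generated by two explicit 7 × 7 matrices over the integers modulo 11) is trivial; here the Schur multiplier is described through stem extensions, as in the definitions: surjective homomorphisms onto the group from a finite group, whose kernel is central in that finite group and contained in that finite group's commutator subgroup. -/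
theorem result : Cfsg.HasCyclicSchurMultiplier ↥Cfsg.Spor.J1 1 := by
  apply hasCyclicSchurMultiplier_one_of_prime
  intro Γ _ _ σ hσ hp
  obtain ⟨z, hz, hz1, hzo⟩ := exists_elt_of_prime_kernel hp
  obtain ⟨hs, hK, hK'⟩ := hσ
  set r := Nat.card σ.ker with hr
  have hN : Nat.card G = 175560 := card_G
  have hcyc : ∀ (g : G), r ∣ orderOf g → ¬ r ^ 2 ∣ 175560 → False := by
    intro g hg h2
    apply hz1
    refine eq_one_of_cyclic hs hK hK' g hz ?_
    rw [hzo]
    exact coprime_index_zpowers hp hN (by norm_num) h2 g hg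
  have hdiv : r ∣ 175560 ∨ ¬ r ∣ 175560 := em _
  rcases hdiv with hd | hd
  · have hfac : (175560 : ℕ) = 2 ^ 3 * (3 * (5 * (7 * (11 * 19)))) := by norm_num
    rw [hfac] at hd
    rcases (Nat.Prime.dvd_mul hp).mp hd with h2 | hd
    · -- `r = 2`
      have hr2 : r = 2 := (Nat.prime_dvd_prime_iff_eq hp Nat.prime_two).mp (hp.dvd_of_dvd_pow h2)
      have hco : Nat.Coprime (orderOf z) Tg.index := by
        rw [hzo, hr2]
        have h1 := Subgroup.card_mul_index Tg
        rw [card_Tg, hN] at h1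
        have h3 : Tg.index = 21945 := by omega
        rw [h3]
        norm_num
      have h1 := Cfsg.Agent.Lib.KnownSimple.mem_commutator_comap hs hK hK' Tg hz hco
      obtain ⟨A, hA⟩ := hs tG
      obtain ⟨B, hB⟩ := hs e2G
      obtain ⟨C, hC⟩ := hs e3G
      obtain ⟨S, hS⟩ := hs xG
      have hc := lifts_commute (σ := σ) hK (A := A) (B := B) (C := C) (S := S)
        (by rw [hA, hB]; exact comm_12) (by rw [hA, hC]; exact comm_13) (by rw [hB, hC]; exact comm_23)
        (by rw [hA, hB, hS]; rfl) (by rw [hB, hC, hS]; rfl) (by rw [hA, hC, hS]; exact rel_e3)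
      obtain ⟨cAB, cAC, cBC⟩ := hc
      have hle : Tg.comap σ ≤ Subgroup.closure (({A, B, C} : Set Γ) ∪ (σ.ker : Set Γ)) := by
        have h2 := comap_closure_le σ ({A, B, C} : Set Γ)
        have h3 : σ '' ({A, B, C} : Set Γ) = {x | x ∈ [tG, e2G, e3G]} := by
          ext x
          simp [hA, hB, hC, eq_comm]
        rwa [h3] at h2
      have hbot : ⁅Subgroup.closure (({A, B, C} : Set Γ) ∪ (σ.ker : Set Γ)),
          Subgroup.closure (({A, B, C} : Set Γ) ∪ (σ.ker : Set Γ))⁆ ≤ ⊥ := by
        refine Cfsg.Agent.Lib.KnownSimple.commutator_closure_le _ _ ?_ ?_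
        · intro x _
          rw [Subgroup.mem_normalizer_iff]
          intro h
          simp only [Subgroup.mem_bot]
          constructor
          · rintro rfl
            simp
          · intro h1
            have h2 : h = x⁻¹ * (x * h * x⁻¹) * x := by group
            rw [h2, h1]
            group
        · intro s hs' t ht'
          rw [Subgroup.mem_bot, commutatorElement_eq_one_iff_mul_comm]
          have hcen : ∀ k ∈ σ.ker, ∀ g : Γ, g * k = k * g := fun k hk g => Subgroup.mem_center_iff.mp (hK hk) g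
          rcases hs' with hs' | hs'
          · rcases ht' with ht' | ht'
            · simp only [Set.mem_insert_iff, Set.mem_singleton_iff] at hs' ht'
              rcases hs' with rfl | rfl | rfl <;> rcases ht' with rfl | rfl | rfl
              · rfl
              · exact cAB
              · exact cAC
              · exact cAB.symm
              · rfl
              · exact cBC
              · exact cAC.symm
              · exact cBC.symm
              · rfl
            · exact hcen _ ht' _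
          · exact (hcen _ hs' _).symm
      exact hz1 (by
        have h4 := hbot (Subgroup.commutator_mono hle hle h1)
        simpa using h4)
    · rcases (Nat.Prime.dvd_mul hp).mp hd with h2 | hd
      · have := (Nat.prime_dvd_prime_iff_eq hp (by norm_num)).mp h2
        exact hcyc g3G (by rw [ord3, this]) (by rw [this]; norm_num)
      · rcases (Nat.Prime.dvd_mul hp).mp hd with h2 | hd
        · have := (Nat.prime_dvd_prime_iff_eq hp (by norm_num)).mp h2
          exact hcyc g5G (by rw [ord5, this]) (by rw [this]; norm_num)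
        · rcases (Nat.Prime.dvd_mul hp).mp hd with h2 | hd
          · have := (Nat.prime_dvd_prime_iff_eq hp (by norm_num)).mp h2
            exact hcyc xG (by rw [ord7, this]) (by rw [this]; norm_num)
          · rcases (Nat.Prime.dvd_mul hp).mp hd with h2 | h2
            · have := (Nat.prime_dvd_prime_iff_eq hp (by norm_num)).mp h2
              exact hcyc g11G (by rw [ord11, this]) (by rw [this]; norm_num)
            · have := (Nat.prime_dvd_prime_iff_eq hp (by norm_num)).mp h2
              exact hcyc aG (by rw [ord19, this]) (by rw [this]; norm_num)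
  · apply hz1
    refine eq_one_of_cyclic hs hK hK' 1 hz ?_
    rw [hzo]
    exact coprime_index_one hN hp hd

end Cfsg.Agent.S2039
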