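import Cfsg.Statements.S2396
import Cfsg.Agent.Lib.Chev.Cov.Stein5
import Cfsg.Agent.Lib.Chev.All5
-- import your own Cfsg.Agent.* helpers here

set_option autoImplicit false
open scoped MatrixGroups
open Cfsg

namespace Cfsg.Agent.S2396

open Cfsg Cfsg.Lie Cfsg.Agent.Lib.Chev in
/-- The map onto the Chevalley group. -/
noncomputable def thetaDC {D : ChevalleyDatum} (G : Good5 D) (K : Type*) [Field K] : D.SteinbergCover K →* ↥(D.group K) :=
  G.thetaGC.codRestrict (D.group K) (fun z => by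
    rw [← G.theta_rangeC]
    exact ⟨z, rfl⟩)

/-- For each of the types G₂, B₂, D₄, F₄, E₆, E₇, E₈ and any field `K` (for types B₂ and G₂ the field must have more than two elements — the cases where the Chevalley group is not simple are set aside), the group presented by the generators x̄_r(t) subject only to (R1) and (R2) maps onto the Chevalley group by x̄_r(t) ↦ x_r(t), and this homomorphism is a central extension: it is surjective with kernel contained in the centre. -/
theorem result {K : Type*} [Field K] (D : Cfsg.Lie.ChevalleyDatum) (hD : D ∈ [Cfsg.Lie.chevG2, Cfsg.Lie.chevB2, Cfsg.Lie.chevD4, Cfsg.Lie.chevF4, Cfsg.Lie.chevE6, Cfsg.Lie.chevE7, Cfsg.Lie.chevE8]) (hK : D ∈ [Cfsg.Lie.chevB2, Cfsg.Lie.chevG2] → ∃ x : K, x ≠ 0 ∧ x ≠ 1) :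
    ∃ θ : D.SteinbergCover K →* ↥(D.group K), Function.Surjective θ ∧ θ.ker ≤ Subgroup.center (D.SteinbergCover K) ∧
      ∀ (r : ℕ) (t : K), r < D.nroots → ((θ (D.scGen K r t) : GL D.Idx K) : Matrix D.Idx D.Idx K) = D.x K r t := by
  obtain ⟨G, M, hM⟩ := Cfsg.Agent.Lib.Chev.good5_of_mem hD
  refine ⟨thetaDC G K, ?_, ?_, ?_⟩
  · rintro ⟨x, hx⟩
    rw [← G.theta_rangeC] at hx
    obtain ⟨y, rfl⟩ := hx
    exact ⟨y, rfl⟩
  · intro z hz
    have h1 : G.thetaGC z = 1 := congrArg Subtype.val hz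
    exact G.central_of_kerC (G.ker_le_HBC M hM h1) h1
  · intro r t hr
    show ((G.thetaGC (D.scGen K r t) : GL D.Idx K) : Matrix D.Idx D.Idx K) = D.x K r t
    rw [G.thetaG_genC, G.xgt_valC]

end Cfsg.Agent.S2396
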