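import Cfsg.Statements.S2397
import Cfsg.Agent.Lib.Chev.Cov.R3
import Cfsg.Agent.Lib.Chev.All5
-- import your own Cfsg.Agent.* helpers here

set_option autoImplicit false
open Cfsg

namespace Cfsg.Agent.S2397

theorem lift_of_eq_mk {α : Type*} (rels : Set (FreeGroup α)) (g : FreeGroup α) :
    FreeGroup.lift (fun p => PresentedGroup.mk rels (FreeGroup.of p)) g = PresentedGroup.mk rels g := by
  have : FreeGroup.lift (fun p => PresentedGroup.mk rels (FreeGroup.of p)) = (PresentedGroup.mk rels : FreeGroup α →* _) :=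
    FreeGroup.ext_hom _ _ (fun a => by simp)
  exact DFunLike.congr_fun this g

/-- Over a finite field the relators (R3) h̄_r(t₁) h̄_r(t₂) = h̄_r(t₁ t₂) are consequences of (R1) and (R2): for each of the types G₂, B₂, D₄, F₄, E₆, E₇, E₈ (for types B₂ and G₂ the field must have more than two elements — the cases where the Chevalley group is not simple are set aside) the group presented by (R1), (R2) is canonically isomorphic to the one presented by (R1)–(R3), by an isomorphism matching the generators x̄_r(t). -/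
theorem result {K : Type*} [Field K] [Finite K] (D : Cfsg.Lie.ChevalleyDatum) (hD : D ∈ [Cfsg.Lie.chevG2, Cfsg.Lie.chevB2, Cfsg.Lie.chevD4, Cfsg.Lie.chevF4, Cfsg.Lie.chevE6, Cfsg.Lie.chevE7, Cfsg.Lie.chevE8]) (hK : D ∈ [Cfsg.Lie.chevB2, Cfsg.Lie.chevG2] → ∃ x : K, x ≠ 0 ∧ x ≠ 1) :
    ∃ e : D.SteinbergCover K ≃* D.SteinbergGroup K, ∀ (r : ℕ) (t : K), e (D.scGen K r t) = D.stGen K r t := by
  obtain ⟨G, M, hM⟩ := Cfsg.Agent.Lib.Chev.good5_of_mem hD
  have h1 : ∀ g ∈ D.steinbergRelsAB K, FreeGroup.lift (fun p => PresentedGroup.mk (D.steinbergRels K) (FreeGroup.of p)) g = 1 := by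
    intro g hg
    rw [lift_of_eq_mk]
    exact PresentedGroup.one_of_mem (Or.inl hg)
  have h2 : ∀ g ∈ D.steinbergRels K, FreeGroup.lift (fun p => PresentedGroup.mk (D.steinbergRelsAB K) (FreeGroup.of p)) g = 1 := by
    intro g hg
    rw [lift_of_eq_mk]
    rcases hg with hg | ⟨r, t, u, hr, ht, hu, rfl⟩
    · exact PresentedGroup.one_of_mem hg
    · have e : ∀ t : K, PresentedGroup.mk (D.steinbergRelsAB K) (D.stH r t) = Cfsg.Agent.Lib.Chev.hBC D K r t := fun t =>
        Cfsg.Agent.Lib.Chev.mk_stWordC _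
      rw [map_mul, map_mul, map_inv, e, e, e, mul_inv_eq_one]
      exact G.R3_allC M hM hr ht hu
  let f : D.SteinbergCover K →* D.SteinbergGroup K := PresentedGroup.toGroup h1
  let b : D.SteinbergGroup K →* D.SteinbergCover K := PresentedGroup.toGroup h2
  have hf : ∀ w, f (PresentedGroup.mk _ w) = PresentedGroup.mk _ w := fun w => lift_of_eq_mk _ w
  have hb : ∀ w, b (PresentedGroup.mk _ w) = PresentedGroup.mk _ w := fun w => lift_of_eq_mk _ w
  refine ⟨MonoidHom.toMulEquiv f b ?_ ?_, fun r t => hf _⟩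
  · ext x
    show b (f (PresentedGroup.mk _ (FreeGroup.of x))) = PresentedGroup.mk _ (FreeGroup.of x)
    rw [hf, hb]
  · ext x
    show f (b (PresentedGroup.mk _ (FreeGroup.of x))) = PresentedGroup.mk _ (FreeGroup.of x)
    rw [hb, hf]

end Cfsg.Agent.S2397
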