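import Cfsg.Statements.S2395
import Cfsg.Agent.Lib.Chev.Sub.CoverPerf
import Cfsg.Agent.Lib.Chev.All2
-- import your own Cfsg.Agent.* helpers here

set_option autoImplicit false
open Cfsg

namespace Cfsg.Agent.S2395

theorem chk_D4 : Cfsg.Agent.Lib.Chev.Cov.chkP1 (Cfsg.Agent.Lib.Chev.tblOf Cfsg.Lie.chevD4) = true :=
  Cfsg.Agent.Lib.Chev.TabD4.tbl_eq ▸ (by decide +kernel : Cfsg.Agent.Lib.Chev.Cov.chkP1 Cfsg.Agent.Lib.Chev.TabD4.fd.tbl = true)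

theorem chk_F4 : Cfsg.Agent.Lib.Chev.Cov.chkP1 (Cfsg.Agent.Lib.Chev.tblOf Cfsg.Lie.chevF4) = true :=
  Cfsg.Agent.Lib.Chev.TabF4.tbl_eq ▸ (by decide +kernel : Cfsg.Agent.Lib.Chev.Cov.chkP1 Cfsg.Agent.Lib.Chev.TabF4.fd.tbl = true)

theorem chk_E6 : Cfsg.Agent.Lib.Chev.Cov.chkP1 (Cfsg.Agent.Lib.Chev.tblOf Cfsg.Lie.chevE6) = true :=
  Cfsg.Agent.Lib.Chev.TabE6.tbl_eq ▸ (by decide +kernel : Cfsg.Agent.Lib.Chev.Cov.chkP1 Cfsg.Agent.Lib.Chev.TabE6.fd.tbl = true)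

theorem chk_E7 : Cfsg.Agent.Lib.Chev.Cov.chkP1 (Cfsg.Agent.Lib.Chev.tblOf Cfsg.Lie.chevE7) = true :=
  Cfsg.Agent.Lib.Chev.TabE7.tbl_eq ▸ (by decide +kernel : Cfsg.Agent.Lib.Chev.Cov.chkP1 Cfsg.Agent.Lib.Chev.TabE7.fd.tbl = true)

theorem chk_E8 : Cfsg.Agent.Lib.Chev.Cov.chkP1 (Cfsg.Agent.Lib.Chev.tblOf Cfsg.Lie.chevE8) = true :=
  Cfsg.Agent.Lib.Chev.TabE8.tbl_eq ▸ (by decide +kernel : Cfsg.Agent.Lib.Chev.Cov.chkP1 Cfsg.Agent.Lib.Chev.TabE8.fd.tbl = true)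

set_option maxRecDepth 100000 in
theorem chk_G2 : ∀ r, r < Cfsg.Lie.chevG2.nroots → Cfsg.Agent.Lib.Chev.Cov.lvlStep2 Cfsg.Lie.chevG2
    (Cfsg.Agent.Lib.Chev.Cov.lvlStep Cfsg.Lie.chevG2 (fun _ => false)) r = true := by
  decide +kernel

set_option maxRecDepth 100000 in
theorem chk_B2 : ∀ r, r < Cfsg.Lie.chevB2.nroots → Cfsg.Agent.Lib.Chev.Cov.lvlStep Cfsg.Lie.chevB2
    (Cfsg.Agent.Lib.Chev.Cov.lvlStep2 Cfsg.Lie.chevB2 (fun _ => false)) r = true := by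
  decide +kernel


/-- The group presented by Steinberg's generators x̄_r(t) subject only to (R1) (additivity) and (R2) (the commutator formula) is perfect, for each of the types G₂, B₂, D₄, F₄, E₆, E₇, E₈ over any field (for types B₂ and G₂ the field must have more than two elements — the cases where the Chevalley group is not simple are set aside). -/
theorem result {K : Type*} [Field K] (D : Cfsg.Lie.ChevalleyDatum) (hD : D ∈ [Cfsg.Lie.chevG2, Cfsg.Lie.chevB2, Cfsg.Lie.chevD4, Cfsg.Lie.chevF4, Cfsg.Lie.chevE6, Cfsg.Lie.chevE7, Cfsg.Lie.chevE8]) (hK : D ∈ [Cfsg.Lie.chevB2, Cfsg.Lie.chevG2] → ∃ x : K, x ≠ 0 ∧ x ≠ 1) :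
    commutator (D.SteinbergCover K) = ⊤ := by

  simp only [List.mem_cons, List.not_mem_nil, or_false] at hD
  rcases hD with rfl | rfl | rfl | rfl | rfl | rfl | rfl
  · obtain ⟨x, h0, h1⟩ := hK (by simp)
    apply Cfsg.Agent.Lib.Chev.Cov.perfect_of
    intro r hr
    refine Cfsg.Agent.Lib.Chev.Cov.lvlStep2_sound ?_ h0 h1 r (chk_G2 r hr)
    exact Cfsg.Agent.Lib.Chev.Cov.lvlStep_sound (fun r h => Bool.noConfusion h)
  · obtain ⟨x, h0, h1⟩ := hK (by simp)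
    apply Cfsg.Agent.Lib.Chev.Cov.perfect_of
    intro r hr
    refine Cfsg.Agent.Lib.Chev.Cov.lvlStep_sound ?_ r (chk_B2 r hr)
    exact Cfsg.Agent.Lib.Chev.Cov.lvlStep2_sound (fun r h => Bool.noConfusion h) h0 h1
  · exact Cfsg.Agent.Lib.Chev.Cov.perfect_of_chk chk_D4
  · exact Cfsg.Agent.Lib.Chev.Cov.perfect_of_chk chk_F4
  · exact Cfsg.Agent.Lib.Chev.Cov.perfect_of_chk chk_E6
  · exact Cfsg.Agent.Lib.Chev.Cov.perfect_of_chk chk_E7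
  · exact Cfsg.Agent.Lib.Chev.Cov.perfect_of_chk chk_E8

end Cfsg.Agent.S2395
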