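import Cfsg.Statements.S2398
import Cfsg.Agent.Lib.Chev.Cov.Uni5
import Cfsg.Agent.Lib.Chev.All5
import Cfsg.Agent.S2395
-- import your own Cfsg.Agent.* helpers here

set_option autoImplicit false
open Cfsg

namespace Cfsg.Agent.S2398

open Cfsg.Lie Cfsg.Agent.Lib.Chev

theorem hself_B2 : ∀ c, c < chevB2.nroots → (∃ l, l < chevB2.nroots ∧ (chevB2.pairing l c = 1 ∨ chevB2.pairing l c = -1)) ∨ HLong chevB2 c := by
  intro c hc
  have hc' : c < 8 := hc
  interval_cases c
  · right
    refine ⟨2, 3, 1, 1, -1, 3, ?_⟩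
    decide +kernel
  · exact Or.inl ⟨0, by decide +kernel, by decide +kernel⟩
  · exact Or.inl ⟨0, by decide +kernel, by decide +kernel⟩
  · right
    refine ⟨5, 0, 1, -1, -1, 0, ?_⟩
    decide +kernel
  · right
    refine ⟨2, 7, 6, 1, -1, 0, ?_⟩
    decide +kernel
  · exact Or.inl ⟨0, by decide +kernel, by decide +kernel⟩
  · exact Or.inl ⟨0, by decide +kernel, by decide +kernel⟩
  · right
    refine ⟨5, 4, 6, -1, -1, 3, ?_⟩
    decide +kernel

set_option maxRecDepth 100000 in
theorem sepG2 : chkSep (tblOf chevG2) = true := TabG2.tbl_eq ▸ (by decide +kernel : chkSep TabG2.fd.tbl = true)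
set_option maxRecDepth 100000 in
theorem sepB2 : chkSep (tblOf chevB2) = true := TabB2.tbl_eq ▸ (by decide +kernel : chkSep TabB2.fd.tbl = true)
set_option maxRecDepth 100000 in
theorem sepD4 : chkSep (tblOf chevD4) = true := TabD4.tbl_eq ▸ (by decide +kernel : chkSep TabD4.fd.tbl = true)
set_option maxRecDepth 100000 in
theorem sepF4 : chkSep (tblOf chevF4) = true := TabF4.tbl_eq ▸ (by decide +kernel : chkSep TabF4.fd.tbl = true)
set_option maxRecDepth 100000 in
theorem sepE6 : chkSep (tblOf chevE6) = true := TabE6.tbl_eq ▸ (by decide +kernel : chkSep TabE6.fd.tbl = true)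
set_option maxRecDepth 100000 in
theorem sepE7 : chkSep (tblOf chevE7) = true := TabE7.tbl_eq ▸ (by decide +kernel : chkSep TabE7.fd.tbl = true)
set_option maxRecDepth 100000 in
theorem sepE8 : chkSep (tblOf chevE8) = true := TabE8.tbl_eq ▸ (by decide +kernel : chkSep TabE8.fd.tbl = true)
set_option maxRecDepth 100000 in
theorem parG2 : chkPart (tblOf chevG2) = true := TabG2.tbl_eq ▸ (by decide +kernel : chkPart TabG2.fd.tbl = true)
set_option maxRecDepth 100000 in
theorem parD4 : chkPart (tblOf chevD4) = true := TabD4.tbl_eq ▸ (by decide +kernel : chkPart TabD4.fd.tbl = true)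
set_option maxRecDepth 100000 in
theorem parF4 : chkPart (tblOf chevF4) = true := TabF4.tbl_eq ▸ (by decide +kernel : chkPart TabF4.fd.tbl = true)
set_option maxRecDepth 100000 in
theorem parE6 : chkPart (tblOf chevE6) = true := TabE6.tbl_eq ▸ (by decide +kernel : chkPart TabE6.fd.tbl = true)
set_option maxRecDepth 100000 in
theorem parE7 : chkPart (tblOf chevE7) = true := TabE7.tbl_eq ▸ (by decide +kernel : chkPart TabE7.fd.tbl = true)
set_option maxRecDepth 100000 in
theorem parE8 : chkPart (tblOf chevE8) = true := TabE8.tbl_eq ▸ (by decide +kernel : chkPart TabE8.fd.tbl = true)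

/-- Universality of the group Δ presented by Steinberg's generators with relators (R1), (R2), over a field with more than four elements (types G₂, B₂, D₄, F₄, E₆, E₇, E₈): for every central extension `π₁ : E → G₁` (surjective, central kernel) and every homomorphism `σ : Δ → G₁` there is exactly one homomorphism `τ : Δ → E` with `π₁ ∘ τ = σ`. In particular every central extension of Δ splits; together with the fact that Δ maps onto the Chevalley group with central kernel, this makes Δ the universal central extension of the Chevalley group. -/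
theorem result {K : Type*} [Field K] (hK5 : ∃ s : Finset K, 4 < s.card) (D : Cfsg.Lie.ChevalleyDatum) (hD : D ∈ [Cfsg.Lie.chevG2, Cfsg.Lie.chevB2, Cfsg.Lie.chevD4, Cfsg.Lie.chevF4, Cfsg.Lie.chevE6, Cfsg.Lie.chevE7, Cfsg.Lie.chevE8])
    {G₁ E : Type*} [Group G₁] [Group E] (π₁ : E →* G₁) (hπ : Function.Surjective π₁) (hc : π₁.ker ≤ Subgroup.center E)
    (σ : D.SteinbergCover K →* G₁) : ∃! τ : D.SteinbergCover K →* E, π₁.comp τ = σ := by
  have hK : D ∈ [chevB2, chevG2] → ∃ x : K, x ≠ 0 ∧ x ≠ 1 := by
    intro _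
    obtain ⟨t, h0, h1⟩ := Cfsg.Agent.Lib.CT.exists_pow_ne hK5 (m := 1) (by norm_num) (by norm_num)
    exact ⟨t, h0, by simpa using h1⟩
  have hperf := Cfsg.Agent.S2395.result D hD hK
  simp only [List.mem_cons, List.not_mem_nil, or_false] at hD
  rcases hD with rfl | rfl | rfl | rfl | rfl | rfl | rfl
  · exact universal_of TabG2.good5 hK5 (fun c hc => Or.inl (part_of_chk parG2 c hc)) (sep_of_chk sepG2) hperf hπ hc σ
  · exact universal_of TabB2.good5 hK5 hself_B2 (sep_of_chk sepB2) hperf hπ hc σ
  · exact universal_of TabD4.good5 hK5 (fun c hc => Or.inl (part_of_chk parD4 c hc)) (sep_of_chk sepD4) hperf hπ hc σ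
  · exact universal_of TabF4.good5 hK5 (fun c hc => Or.inl (part_of_chk parF4 c hc)) (sep_of_chk sepF4) hperf hπ hc σ
  · exact universal_of TabE6.good5 hK5 (fun c hc => Or.inl (part_of_chk parE6 c hc)) (sep_of_chk sepE6) hperf hπ hc σ
  · exact universal_of TabE7.good5 hK5 (fun c hc => Or.inl (part_of_chk parE7 c hc)) (sep_of_chk sepE7) hperf hπ hc σ
  · exact universal_of TabE8.good5 hK5 (fun c hc => Or.inl (part_of_chk parE8 c hc)) (sep_of_chk sepE8) hperf hπ hc σ

end Cfsg.Agent.S2398
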