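import Cfsg.Statements.S2100
import Cfsg.Agent.S2398
import Cfsg.Agent.S2397
import Cfsg.Agent.S2396
import Cfsg.Agent.S1077
import Cfsg.Agent.S1078
-- import your own Cfsg.Agent.* helpers here

set_option autoImplicit false
open Cfsg

namespace Cfsg.Agent.S2100

open Cfsg.Lie Cfsg.Agent.Lib.Chev Cfsg.Agent.Lib.CT

/-- Schur multipliers of the Chevalley groups of type G₂: over a field with q ≥ 5 elements the Schur multiplier of G₂(q) is trivial (here the Schur multiplier is described through stem extensions, as in the definitions); the cases q = 3 and q = 4 are exceptional and q = 2 gives a non-simple group. -/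
theorem result {F : Type*} [Field F] [Fintype F] (hF : 5 ≤ Fintype.card F) : Cfsg.HasCyclicSchurMultiplier ↥(Cfsg.Lie.chevG2.group F) 1 := by
  have hFin : Finite F := inferInstance
  have hK5 : ∃ s : Finset F, 4 < s.card := ⟨Finset.univ, by
    rw [Finset.card_univ]
    omega⟩
  have hD : chevG2 ∈ [chevG2, chevB2, chevD4, chevF4, chevE6, chevE7, chevE8] := by simp
  have hK : chevG2 ∈ [chevB2, chevG2] → ∃ x : F, x ≠ 0 ∧ x ≠ 1 := by
    intro _
    obtain ⟨t, h0, h1⟩ := exists_pow_ne hK5 (m := 1) (by norm_num) (by norm_num)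
    exact ⟨t, h0, by simpa using h1⟩
  obtain ⟨θ, hθs, hθk, hθg⟩ := Cfsg.Agent.S2396.result chevG2 hD hK
  obtain ⟨θ', hθ's, hθ'k, hθ'g⟩ := Cfsg.Agent.S1077.result (K := F) chevG2 hD
  obtain ⟨e, he⟩ := Cfsg.Agent.S2397.result chevG2 hD hK
  have hcen := Cfsg.Agent.S1078.result (K := F) chevG2 (by simp)
  have hcomp : θ'.comp e.toMonoidHom = θ := by
    apply PresentedGroup.ext
    intro x
    rw [of_eq_stGenC]
    apply Subtype.ext
    apply Units.ext
    simp only [MonoidHom.comp_apply, MulEquiv.coe_toMonoidHom]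
    rw [he, hθ'g _ _ x.1.isLt, hθg _ _ x.1.isLt]
  have hinj : ∀ y, θ y = 1 → y = 1 := by
    intro y hy
    have h1 : θ' (e y) = 1 := by
      rw [← hy, ← hcomp]
      rfl
    have h2 : e y ∈ θ'.ker := MonoidHom.mem_ker.mpr h1
    rw [hθ'k, hcen, Subgroup.mem_bot] at h2
    exact (map_eq_one_iff e e.injective).mp h2
  constructor
  · refine ⟨↥(chevG2.group F), inferInstance, inferInstance, MonoidHom.id _, ⟨Function.surjective_id, ?_, ?_⟩, ?_⟩
    · rw [MonoidHom.ker_id]
      exact bot_le
    · rw [MonoidHom.ker_id]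
      exact bot_le
    · rw [MonoidHom.ker_id]
      refine ⟨{ toFun := fun _ => 1, invFun := fun _ => 1, left_inv := ?_, right_inv := ?_, map_mul' := ?_ }⟩
      · intro x
        exact Subsingleton.elim _ _
      · intro x
        exact Subsingleton.elim _ _
      · intro x y
        exact Subsingleton.elim _ _
  · intro Γ' _ _ σ hσ
    refine ⟨1, ?_⟩
    intro x
    obtain ⟨τ, hτ, -⟩ := Cfsg.Agent.S2398.result hK5 chevG2 hD σ hσ.1 hσ.2.1 θ
    have hz : ∀ z, σ z = 1 → ∀ w, z * w = w * z := by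
      intro z hzz w
      exact (Subgroup.mem_center_iff.mp (hσ.2.1 (MonoidHom.mem_ker.mpr hzz)) w).symm
    have hτv : ∀ y, σ (τ y) = θ y := fun y => DFunLike.congr_fun hτ y
    have hdec : ∀ g : Γ', ∃ (z : Γ') (y : chevG2.SteinbergCover F), (∀ w, z * w = w * z) ∧ g = z * τ y := by
      intro g
      obtain ⟨y, hy⟩ := hθs (σ g)
      refine ⟨g * (τ y)⁻¹, y, hz _ ?_, by group⟩
      rw [map_mul, map_inv, hτv, hy, mul_inv_cancel]
    have hcomm : commutator Γ' ≤ τ.range := by
      rw [commutator_def, Subgroup.commutator_le]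
      intro a _ b _
      obtain ⟨z, y, hz1, rfl⟩ := hdec a
      obtain ⟨z', y', hz2, rfl⟩ := hdec b
      have e1 : cc (z * τ y) (z' * τ y') ∈ τ.range := by
        rw [cc_central_left hz1, cc_central_right hz2, ← map_cc]
        exact ⟨_, rfl⟩
      exact e1
    have hx : (x : Γ') = 1 := by
      obtain ⟨y, hy⟩ := hcomm (hσ.2.2 x.2)
      have h1 : θ y = 1 := by
        rw [← hτv, hy]
        exact x.2
      rw [← hy, hinj y h1, map_one]
    exact ⟨1, Subtype.ext hx.symm⟩

end Cfsg.Agent.S2100
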