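import Cfsg.Statements.S2103
import Cfsg.Agent.Lib.Chev.Cov.Uni7
import Cfsg.Agent.S2398
import Cfsg.Agent.S2397
import Cfsg.Agent.S2395
import Cfsg.Agent.S1077
import Cfsg.Agent.S1078
-- import your own Cfsg.Agent.* helpers here

set_option autoImplicit false
open Cfsg

namespace Cfsg.Agent.S2103

open Cfsg.Lie Cfsg.Agent.Lib.Chev


/-- Schur multipliers of the Chevalley groups of type F₄: over a finite field with more than 2 elements the Schur multiplier of F₄(q) is trivial (here the Schur multiplier is described through stem extensions, as in the definitions); q = 2 is exceptional. -/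
theorem result {F : Type*} [Field F] [Fintype F] (hF : 3 ≤ Fintype.card F) : Cfsg.HasCyclicSchurMultiplier ↥(Cfsg.Lie.chevF4.group F) 1 := by
  classical
  have hD : chevF4 ∈ [chevG2, chevB2, chevD4, chevF4, chevE6, chevE7, chevE8] := by simp
  have hcard : (({0, 1} : Finset F)).card < (Finset.univ : Finset F).card := by
    rw [Finset.card_univ]
    have : (({0, 1} : Finset F)).card ≤ 2 := Finset.card_le_two
    omega
  have hK : chevF4 ∈ [chevB2, chevG2] → ∃ x : F, x ≠ 0 ∧ x ≠ 1 := by
    intro _
    obtain ⟨t, -, ht⟩ := Finset.exists_mem_notMem_of_card_lt_card hcard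
    simp only [Finset.mem_insert, Finset.mem_singleton, not_or] at ht
    exact ⟨t, ht.1, ht.2⟩
  obtain ⟨θ', hθ's, hθ'k, -⟩ := Cfsg.Agent.S1077.result (K := F) chevF4 hD
  obtain ⟨e, -⟩ := Cfsg.Agent.S2397.result chevF4 hD hK
  have hcen := Cfsg.Agent.S1078.result (K := F) chevF4 (by simp)
  have hperf := Cfsg.Agent.S2395.result chevF4 hD hK
  refine schur_one_of_lift (θ'.comp e.toMonoidHom) (hθ's.comp e.surjective) ?_ ?_
  · intro y hy
    have h2 : e y ∈ θ'.ker := MonoidHom.mem_ker.mpr hy
    rw [hθ'k, hcen, Subgroup.mem_bot] at h2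
    exact (map_eq_one_iff e e.injective).mp h2
  · intro Γ _ _ σ hσ
    have huniq : ∃! τ : chevF4.SteinbergCover F →* Γ, σ.comp τ = θ'.comp e.toMonoidHom := by
      by_cases h3 : Fintype.card F = 3
      · obtain ⟨h1, h2, h4⟩ := card3_facts h3
        exact universal_3 TabF4.good5 h1 h2 h4 sumF4 Cfsg.Agent.S2398.parF4 swF4 sep3F4 hperf hσ.1 hσ.2.1
      · refine universal_ge4 TabF4.good5 ⟨Finset.univ, ?_⟩ sumF4 Cfsg.Agent.S2398.parF4 sep2F4 hperf hσ.1 hσ.2.1
        rw [Finset.card_univ]
        omega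
    exact huniq.exists

end Cfsg.Agent.S2103
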