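import Cfsg.Statements.S2105
import Cfsg.Agent.Lib.CT.RE6
-- import your own Cfsg.Agent.* helpers here

set_option autoImplicit false
open Cfsg

namespace Cfsg.Agent.S2105

open Cfsg.Agent.Lib.Chev Cfsg.Agent.Lib.CT


/-- Schur multipliers of the (adjoint, simple) Chevalley groups of type E₆: over a field with q elements the Schur multiplier is cyclic of order gcd(3, q − 1) (here the Schur multiplier is described through stem extensions, as in the definitions). -/
theorem result {F : Type*} [Field F] [Fintype F] {q : ℕ} (hF : Fintype.card F = q) : Cfsg.HasCyclicSchurMultiplier ↥(Cfsg.Lie.chevE6.group F) (Nat.gcd 3 (q - 1)) := by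
  have hM : ∀ i j : Fin Cfsg.Lie.chevE6.rank, TabE6.good5.cm i j = CoxeterMatrix.E₆ i j :=
    (by set_option backward.isDefEq.respectTransparency false in decide +kernel)
  obtain ⟨e⟩ := SchT.ker_iso TabE6.good5 TabE6.torD hF TabE6.repD rfl CoxeterMatrix.E₆ hM
  exact SchT.schur_of TabE6.good5 TabE6.schData TabE6.ctData TabE6.schF CoxeterMatrix.E₆ hM e

end Cfsg.Agent.S2105
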