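import Cfsg.Statements.S2107
import Cfsg.Agent.Lib.CT.SE8
import Cfsg.Agent.Lib.Chev.All5
import Cfsg.Agent.Lib.Chev.Stein7
-- import your own Cfsg.Agent.* helpers here

set_option autoImplicit false
open Cfsg

namespace Cfsg.Agent.S2107

open Cfsg.Agent.Lib.Chev Cfsg.Agent.Lib.CT


/-- Schur multipliers of the Chevalley groups of type E₈: over every finite field the Schur multiplier of E₈(q) is trivial (here the Schur multiplier is described through stem extensions, as in the definitions). -/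
theorem result {F : Type*} [Field F] [Fintype F] : Cfsg.HasCyclicSchurMultiplier ↥(Cfsg.Lie.chevE8.group F) 1 := by
  have hM : ∀ i j : Fin Cfsg.Lie.chevE8.rank, TabE8.good5.cm i j = CoxeterMatrix.E₈ i j :=
    (by set_option backward.isDefEq.respectTransparency false in decide +kernel)
  have hc := TabE8.good5.center_trivial (K := F) CoxeterMatrix.E₈ hM
    (Cfsg.Agent.Lib.Chev.matOf 8 [[4, 5, 7, 10, 8, 6, 4, 2], [5, 8, 10, 15, 12, 9, 6, 3], [7, 10, 14, 20, 16, 12, 8, 4], [10, 15, 20, 30, 24, 18, 12, 6], [8, 12, 16, 24, 20, 15, 10, 5], [6, 9, 12, 18, 15, 12, 8, 4], [4, 6, 8, 12, 10, 8, 6, 3], [2, 3, 4, 6, 5, 4, 3, 2]]) (by decide +kernel)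
  refine schur_trivial TabE8.good5 TabE8.schData TabE8.ctData TabE8.schF ?_
  intro y hy
  have h1 := TabE8.good5.central_of_ker (TabE8.good5.ker_le_HB CoxeterMatrix.E₈ hM hy) hy
  rw [hc] at h1
  exact Subgroup.mem_bot.mp h1

end Cfsg.Agent.S2107
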