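import Cfsg.Statements.S2111
import Cfsg.Agent.Lib.Suzuki.MultB

set_option autoImplicit false
open Cfsg

namespace Cfsg.Agent.S2111

open Cfsg.Agent.Lib.Suzuki in
open scoped commutatorElement in
/-- No stem extension with kernel of prime order. -/
theorem no_stem_prime {F : Type*} [Field F] [Fintype F] {m : ℕ} (hm : 2 ≤ m) (hF : Fintype.card F = 2 ^ (2 * m + 1))
    {Γ : Type*} [Group Γ] [Finite Γ] (σ : Γ →* Cfsg.Sz F m) (hσ : Cfsg.IsStemExtension σ)
    (hp : (Nat.card σ.ker).Prime) : False := by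
  obtain ⟨hs, hK, hK'⟩ := hσ
  have hm1 : 1 ≤ m := by omega
  obtain ⟨y, hyk, hy1, hyo⟩ := Cfsg.Agent.Lib.KnownSimple.SchurLocal.exists_elt_of_prime_kernel hp
  by_cases h2 : Nat.card σ.ker = 2
  · have hY : ∀ w ∈ σ.ker, w = 1 ∨ w = y := by
      intro w hw
      obtain ⟨u, -, hu⟩ := (Nat.card_eq_two_iff' (1 : σ.ker)).mp h2
      by_cases hw1 : w = 1
      · exact Or.inl hw1
      · right
        have e1 : (⟨w, hw⟩ : σ.ker) = u := hu _ (fun h => hw1 (congrArg Subtype.val h))
        have e2 : (⟨y, hyk⟩ : σ.ker) = u := hu _ (fun h => hy1 (congrArg Subtype.val h))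
        exact congrArg Subtype.val (e1.trans e2.symm)
    have hco : Nat.Coprime (orderOf y) (UU hF hm1).index := by
      rw [hyo, h2]
      exact (Nat.Prime.coprime_iff_not_dvd Nat.prime_two).mpr (odd_index_UU hF hm1)
    exact not_mem_commutator hF hm1 hs hK hy1 hyk hY (by omega)
      (Cfsg.Agent.Lib.KnownSimple.mem_commutator_comap hs hK hK' _ hyk hco)
  · haveI := finite_Sz hF hm1
    haveI : Fact (Nat.card σ.ker).Prime := ⟨hp⟩
    let P : Sylow (Nat.card σ.ker) (Cfsg.Sz F m) := default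
    haveI hc := sylow_cyclic hF hm1 h2 P
    obtain ⟨⟨g, hgP⟩, hg⟩ := IsCyclic.exists_generator (α := P)
    have e : Subgroup.zpowers g = (P : Subgroup (Cfsg.Sz F m)) := by
      apply le_antisymm
      · rw [Subgroup.zpowers_le]
        exact hgP
      · intro x hx
        obtain ⟨k, hk⟩ := hg ⟨x, hx⟩
        exact ⟨k, congrArg Subtype.val hk⟩
    have hco : Nat.Coprime (orderOf y) (Subgroup.zpowers g).index := by
      rw [hyo, e]
      exact (Nat.Prime.coprime_iff_not_dvd hp).mpr P.not_dvd_index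
    exact hy1 (Cfsg.Agent.Lib.KnownSimple.SchurLocal.eq_one_of_cyclic hs hK hK' g hyk hco)


/-- Schur multipliers of the Suzuki groups: for q = 2^(2m+1) with m ≥ 2 the Schur multiplier of Sz(q) is trivial (here the Schur multiplier is described through stem extensions, as in the definitions); q = 8 is exceptional. -/
theorem result {F : Type*} [Field F] [Fintype F] {m : ℕ} (hm : 2 ≤ m) (hF : Fintype.card F = 2 ^ (2 * m + 1)) : Cfsg.HasCyclicSchurMultiplier ↥(Cfsg.Lie.Sz F (2 ^ (m + 1))) 1 := by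
  have hm1 : 1 ≤ m := by omega
  let e := Cfsg.Agent.Lib.Suzuki.szEquiv hF hm1
  haveI := Cfsg.Agent.Lib.Suzuki.finite_Sz hF hm1
  haveI : Finite ↥(Cfsg.Lie.Sz F (2 ^ (m + 1))) := Finite.of_equiv _ e.toEquiv
  apply Cfsg.Agent.Lib.KnownSimple.SchurLocal.hasCyclicSchurMultiplier_one_of_prime
  intro Γ _ _ σ hσ hp
  let σ' : Γ →* Cfsg.Sz F m := e.symm.toMonoidHom.comp σ
  have hker : σ'.ker = σ.ker := by
    ext x
    simp [MonoidHom.mem_ker, σ']
  refine no_stem_prime hm hF σ' ?_ ?_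
  · refine ⟨e.symm.surjective.comp hσ.1, ?_, ?_⟩
    · rw [hker]; exact hσ.2.1
    · rw [hker]; exact hσ.2.2
  · rw [hker]; exact hp

end Cfsg.Agent.S2111
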