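import Cfsg.Statements.S2113
import Cfsg.Agent.Lib.Ree.SchD
import Cfsg.Agent.Lib.Ree.CycAll

set_option autoImplicit false
open Cfsg

namespace Cfsg.Agent.S2113




/-- Schur multipliers of the small Ree groups: for q = 3^(2m+1) with m ≥ 1 the Schur multiplier of ²G₂(q) is trivial (here the Schur multiplier is described through stem extensions, as in the definitions). -/
theorem result {K : Type*} [Field K] [Fintype K] {m : ℕ} (hm : 1 ≤ m) (hK : Fintype.card K = 3 ^ (2 * m + 1)) : Cfsg.HasCyclicSchurMultiplier ↥(Cfsg.Lie.twistedG2 K (3 ^ m)) 1 := by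
  open Cfsg.Agent.Lib.Chev Cfsg.Agent.Lib.Chev.TwG2 Cfsg.Agent.Lib.Ree in
  have h3 : Nat.Prime 3 := Nat.prime_three
  have hn : 2 * m + 1 ≠ 0 := by omega
  have := charP_of_card h3 hn hK
  obtain ⟨f, hf⟩ := frobP h3 hn hK m
  have hf3 := frob_sq hK f hf
  have hc : ringChar K ≠ 2 := by rw [ringChar.eq K 3]; norm_num
  have hsq := sq_or_neg hK hc
  have hcyc : ∀ (r : ℕ), r.Prime → 3 < r → ∀ P : Subgroup ↥(Cfsg.Lie.twistedG2 K (3 ^ m)), IsPGroup r P → IsCyclic P :=
    fun r hr hr3 P hP => cyc_twisted hm hK r hr hr3 P hP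
  revert hcyc
  rw [← AA_eq f hf3 hf]
  intro hcyc
  have hG := card_G f hf3 hK hc
  have hq : 2 ≤ Fintype.card K := Fintype.one_lt_card
  haveI hfin : Finite ↥((TT f).AA JJ) := Nat.finite_of_card_ne_zero (by
    rw [hG]
    have h1 : 0 < Fintype.card K - 1 := by omega
    have h2 : 0 < Fintype.card K := by omega
    positivity)
  have hmod : Nat.card ↥((TT f).AA JJ) % 16 = 8 := by
    rw [hG, hK]
    exact card_mod
  have hns : ∀ x : K, x * x ≠ -1 := by
    intro x hx
    have h4 : IsSquare (-1 : K) := ⟨x, hx.symm⟩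
    rw [FiniteField.isSquare_neg_one_iff, hK] at h4
    apply h4
    rw [pow_succ, pow_mul]
    norm_num [Nat.mul_mod, Nat.pow_mod]
  apply Cfsg.Agent.Lib.KnownSimple.SchurLocal.hasCyclicSchurMultiplier_one_of_prime
  intro Γ _ _ σ hσ hp
  obtain ⟨hs, hK', hK''⟩ := hσ
  obtain ⟨y, hyk, hy1, hyo⟩ := Cfsg.Agent.Lib.KnownSimple.SchurLocal.exists_elt_of_prime_kernel hp
  by_cases h2 : Nat.card σ.ker = 2
  · -- the prime two
    have hY : ∀ w ∈ σ.ker, w = 1 ∨ w = y := by
      intro w hw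
      obtain ⟨u, -, hu⟩ := (Nat.card_eq_two_iff' (1 : σ.ker)).mp h2
      by_cases hw1 : w = 1
      · exact Or.inl hw1
      · right
        have e1 : (⟨w, hw⟩ : σ.ker) = u := hu _ (fun h => hw1 (congrArg Subtype.val h))
        have e2 : (⟨y, hyk⟩ : σ.ker) = u := hu _ (fun h => hy1 (congrArg Subtype.val h))
        exact congrArg Subtype.val (e1.trans e2.symm)
    have hy2 : y * y = 1 := by
      rw [← pow_two, ← h2, ← hyo]
      exact pow_orderOf_eq_one y
    haveI : Fact (Nat.Prime 2) := ⟨Nat.prime_two⟩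
    let S : Sylow 2 ↥((TT f).AA JJ) := default
    have hL := rl f hf3 hsq
    have hS8 := sylow_card_of_mod hmod S
    have hSq : ∀ x ∈ (S : Subgroup ↥((TT f).AA JJ)), x * x = 1 := fun x hx => (rl f hf3 hsq).sylow_sq hmod S hx
    obtain ⟨hCS, hNS⟩ := (rl f hf3 hsq).sylow_N hsq hns hG hq hmod S
    haveI : Fact (Nat.Prime 7) := ⟨by norm_num⟩
    obtain ⟨r, hr⟩ := exists_prime_orderOf_dvd_card' (G := Subgroup.normalizer ((S : Subgroup ↥((TT f).AA JJ)) : Set ↥((TT f).AA JJ))) 7 (by rw [hNS]; norm_num)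
    have hrN := Subgroup.mem_normalizer_iff.mp r.2
    have hr7 : (r : ↥((TT f).AA JJ)) ^ 7 = 1 := by
      rw [← Subgroup.orderOf_coe] at hr
      rw [← hr]
      exact pow_orderOf_eq_one _
    have hco : Nat.Coprime (orderOf y) (S : Subgroup ↥((TT f).AA JJ)).index := by
      rw [hyo, h2]
      exact (Nat.Prime.coprime_iff_not_dvd Nat.prime_two).mpr S.not_dvd_index
    refine hy1 (no_two hs hK' S hS8 hSq r (fun x hx => (hrN x).mp hx) ?_ hr7 ?_ hyk hy2 hY
      (Cfsg.Agent.Lib.KnownSimple.mem_commutator_comap hs hK' hK'' _ hyk hco))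
    · intro x hx
      apply (hrN _).mpr
      have : (r : ↥((TT f).AA JJ)) * ((r : ↥((TT f).AA JJ))⁻¹ * x * r) * (r : ↥((TT f).AA JJ))⁻¹ = x := by group
      rw [this]
      exact hx
    · by_contra hcon
      push Not at hcon
      have h1 : (r : ↥((TT f).AA JJ)) ∈ Subgroup.centralizer ((S : Subgroup ↥((TT f).AA JJ)) : Set ↥((TT f).AA JJ)) := by
        rw [Subgroup.mem_centralizer_iff]
        intro x hx
        have := hcon x hx
        calc x * r = (r * x * (r : ↥((TT f).AA JJ))⁻¹) * r := by rw [this]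
          _ = r * x := by group
      rw [hCS] at h1
      have h4 := hSq _ h1
      have h5 : orderOf (r : ↥((TT f).AA JJ)) ∣ 2 := orderOf_dvd_of_pow_eq_one (by rw [pow_two]; exact h4)
      rw [Subgroup.orderOf_coe, hr] at h5
      omega
  by_cases h3' : Nat.card σ.ker = 3
  · -- the prime three
    have hk3 : ∀ z ∈ σ.ker, z ^ 3 = 1 := by
      intro z hz
      have := pow_card_eq_one' (x := (⟨z, hz⟩ : σ.ker))
      rw [h3'] at this
      exact congrArg Subtype.val this
    obtain ⟨t, ht⟩ : ∃ t : K, t ≠ 0 ∧ t ≠ 1 ∧ t ≠ -1 := by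
      classical
      have hcard : ({0, 1, -1} : Finset K).card < Fintype.card K := by
        have h1 : ({0, 1, -1} : Finset K).card ≤ 3 := Finset.card_le_three
        have h2' : 3 ^ 3 ≤ 3 ^ (2 * m + 1) := Nat.pow_le_pow_right (by norm_num) (by omega)
        rw [hK]
        omega
      obtain ⟨t, -, ht⟩ := Finset.exists_mem_notMem_of_card_lt_card (s := ({0, 1, -1} : Finset K)) (t := Finset.univ) (by simpa using hcard)
      simp only [Finset.mem_insert, Finset.mem_singleton, not_or] at ht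
      exact ⟨t, ht.1, ht.2.1, ht.2.2⟩
    have hSX : SX (rd f hf3 hsq) σ := ⟨hs, hK', hk3, hns, ⟨t, ht⟩⟩
    have hco : Nat.Coprime (orderOf y) (rd f hf3 hsq).U.index := by
      rw [hyo, h3']
      exact (Nat.Prime.coprime_iff_not_dvd Nat.prime_three).mpr ((rd f hf3 hsq).not_three_index hK hG)
    exact hy1 (hSX.no_three hyk (Cfsg.Agent.Lib.KnownSimple.mem_commutator_comap hs hK' hK'' _ hyk hco))
  · -- the primes above three
    have hp3 : 3 < Nat.card σ.ker := by
      have := hp.two_le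
      omega
    haveI : Fact (Nat.card σ.ker).Prime := ⟨hp⟩
    let P : Sylow (Nat.card σ.ker) ↥((TT f).AA JJ) := default
    haveI hc' : IsCyclic (P : Subgroup ↥((TT f).AA JJ)) := hcyc _ hp hp3 _ P.isPGroup'
    obtain ⟨⟨g, hgP⟩, hg⟩ := IsCyclic.exists_generator (α := P)
    have e : Subgroup.zpowers g = (P : Subgroup ↥((TT f).AA JJ)) := by
      apply le_antisymm
      · rw [Subgroup.zpowers_le]
        exact hgP
      · intro x hx
        obtain ⟨k, hk⟩ := hg ⟨x, hx⟩
        exact ⟨k, congrArg Subtype.val hk⟩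
    have hco : Nat.Coprime (orderOf y) (Subgroup.zpowers g).index := by
      rw [hyo, e]
      exact (Nat.Prime.coprime_iff_not_dvd hp).mpr P.not_dvd_index
    exact hy1 (Cfsg.Agent.Lib.KnownSimple.SchurLocal.eq_one_of_cyclic hs hK' hK'' g hyk hco)

end Cfsg.Agent.S2113
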