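import Cfsg.Statements.S2125
import Cfsg.Agent.Lib.Chev.Aut.OE8
-- import your own Cfsg.Agent.* helpers here

set_option autoImplicit false
open Cfsg

namespace Cfsg.Agent.S2125

/-- Outer automorphisms of the Chevalley groups of type E₈: over a field with p^f elements, p prime, the outer automorphism group of E₈(p^f) has order f (field automorphisms only). -/
theorem result {F : Type*} [Field F] [Fintype F] (p f : ℕ) [Fact p.Prime] [CharP F p] (hF : Fintype.card F = p ^ f) : Nat.card (Cfsg.Out ↥(Cfsg.Lie.chevE8.group F)) = f := by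
  open Cfsg.Agent.Lib.Chev Cfsg.Agent.Lib.Chev.TabE8 in
  have h := good5.out_card_formula aut_hrc (fun i j hi hj h => aut_hT1' i hi j hj h) aut_hfin p f hF 1 (aut_Hcard hF)
  open Cfsg.Agent.Lib.Chev Cfsg.Agent.Lib.Chev.TabE8 in
  have hGP : Nat.card (GP good5 F) = 1 := good5.GP_card_one (fun i j hi hj h => aut_hT1' i hi j hj h) aut_rigid_one
  rw [h, hGP]
  simp

end Cfsg.Agent.S2125
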