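import Cfsg.Statements.S2127
import Cfsg.Agent.Lib.Ree.Gal

set_option autoImplicit false
open Cfsg

namespace Cfsg.Agent.S2127




/-- Outer automorphisms of the small Ree groups: for q = 3^(2m+1) with m ≥ 1 the outer automorphism group of ²G₂(q) has order 2m + 1 (field automorphisms only). -/
theorem result {K : Type*} [Field K] [Fintype K] {m : ℕ} (hm : 1 ≤ m) (hK : Fintype.card K = 3 ^ (2 * m + 1)) : Nat.card (Cfsg.Out ↥(Cfsg.Lie.twistedG2 K (3 ^ m))) = 2 * m + 1 := by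
  open Cfsg.Agent.Lib.Chev Cfsg.Agent.Lib.Chev.TwG2 Cfsg.Agent.Lib.Ree in
  have h3 : Nat.Prime 3 := Nat.prime_three
  have hn : 2 * m + 1 ≠ 0 := by omega
  have := charP_of_card h3 hn hK
  obtain ⟨f, hf⟩ := frobP h3 hn hK m
  have hf3 := frob_sq hK f hf
  have hc : ringChar K ≠ 2 := by
    rw [ringChar.eq K 3]
    norm_num
  have hsq := sq_or_neg hK hc
  rw [← AA_eq f hf3 hf]
  have hcc : ∀ (φ : K ≃+* K) (x : K), φ (f x) = f (φ x) := by
    intro φ x
    rw [hf, hf, map_pow]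
  exact (rd f hf3 hsq).card_out hm hK hcc (card_G f hf3 hK hc) (galAct f hf3 hcc hsq)

end Cfsg.Agent.S2127
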