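-- Statement S2131: J1 has an involution with centraliser Z2 × A5.
import Cfsg.Statements.S2131
import Cfsg.Agent.Lib.KnownSimple.J1Group

set_option autoImplicit false
open Cfsg

namespace Cfsg.Agent.S2131

open Cfsg.Agent.Lib.KnownSimple.J1Base Cfsg.Agent.Lib.KnownSimple.J1Data Cfsg.Agent.Lib.KnownSimple.J1Data2
open Cfsg.Agent.Lib.KnownSimple.J1Checks Cfsg.Agent.Lib.KnownSimple.J1Group

/-- The target group. -/
abbrev Z := Multiplicative (ZMod 2) × ↥(alternatingGroup (Fin 5))

def fα : Fin 5 → Fin 5 := ![3, 2, 0, 4, 1]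
def gα : Fin 5 → Fin 5 := ![2, 4, 1, 0, 3]
def fβ : Fin 5 → Fin 5 := ![1, 3, 2, 0, 4]
def gβ : Fin 5 → Fin 5 := ![3, 0, 2, 1, 4]

def pα : Equiv.Perm (Fin 5) := ⟨fα, gα, by decide, by decide⟩
def pβ : Equiv.Perm (Fin 5) := ⟨fβ, gβ, by decide, by decide⟩

theorem hpα : pα ∈ alternatingGroup (Fin 5) := by
  rw [Equiv.Perm.mem_alternatingGroup]
  decide +kernel
theorem hpβ : pβ ∈ alternatingGroup (Fin 5) := by
  rw [Equiv.Perm.mem_alternatingGroup]
  decide +kernel

noncomputable def alC : ↥Cg := ⟨alG, Subgroup.subset_closure (by simp)⟩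
noncomputable def beC : ↥Cg := ⟨beG, Subgroup.subset_closure (by simp)⟩
noncomputable def tC : ↥Cg := ⟨tG, Subgroup.subset_closure (by simp)⟩

noncomputable def d1 : ↥Cg × Z := (alC, (1, ⟨pα, hpα⟩))
noncomputable def d2 : ↥Cg × Z := (beC, (1, ⟨pβ, hpβ⟩))
noncomputable def d3 : ↥Cg × Z := (tC, (Multiplicative.ofAdd 1, 1))

/-- The graph of the isomorphism. -/
noncomputable def DD : Subgroup (↥Cg × Z) := Subgroup.closure {d1, d2, d3}

/-- The `k`-th row of the table describes `q`. -/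
def RowR (q : ↥Cg × Z) (k : ℕ) : Prop :=
  k < 120 ∧ MRep q.1.1 (Cl.getD k []) ∧ ((Multiplicative.toAdd q.2.1).val = (rowsC.getD k (0, [])).1) ∧
    ∀ i : Fin 5, ((q.2.2.1 i : Fin 5) : ℕ) = (rowsC.getD k (0, [])).2.getD i 0

/-- Data of the generators. -/
def gen3 : List (Mat × ℕ × List ℕ) := [(alM, 0, [3, 2, 0, 4, 1]), (beM, 0, [1, 3, 2, 0, 4]), (tM, 1, [0, 1, 2, 3, 4])]

/-- The effect of a generator on rows. -/
def rowStep (g : Mat × ℕ × List ℕ) (k : ℕ) : ℕ × List ℕ :=
  let r := rowsC.getD k (0, [])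
  ((g.2.1 + r.1) % 2, r.2.map fun x => g.2.2.getD x 0)

def rowsClosedP (i : ℕ) : Bool :=
  gen3.all fun g =>
    let k' := Cl.idxOf (mulM g.1 (Cl.getD i []))
    decide (k' < 120) && decide (rowsC.getD k' (0, []) = rowStep g i)

def rowsTreeP (i : ℕ) : Bool :=
  (i == 0 && decide (rowsC.getD 0 (0, []) = (0, [0, 1, 2, 3, 4]))) ||
    (let p := parC.getD i (0, 0)
     decide (rowsC.getD i (0, []) = rowStep (gen3.getD p.1 ([], 0, [])) p.2))

theorem rowsClosed : allR rowsClosedP 0 120 = true := by decide +kernel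
theorem rowsTree : allR rowsTreeP 0 120 = true := by decide +kernel
theorem rowsND : rowsC.Nodup := by decide +kernel
theorem rowsLen : rowsC.length = 120 := by decide +kernel
theorem rowsPerm : ∀ r ∈ rowsC, r.2.length = 5 ∧ r.1 < 2 ∧ ∀ x ∈ r.2, x < 5 := by decide +kernel

theorem toAdd_val_step (a b : ZMod 2) : (a + b).val = (a.val + b.val) % 2 := ZMod.val_add a b

theorem gen_step {q : ↥Cg × Z} {k : ℕ} (h : RowR q k) {g : ↥Cg × Z} {gd : Mat × ℕ × List ℕ} (hgd : gd ∈ gen3)
    (hg1 : MRep g.1.1 gd.1) (hg2 : (Multiplicative.toAdd g.2.1).val = gd.2.1)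
    (hg3 : ∀ i : Fin 5, ((g.2.2.1 i : Fin 5) : ℕ) = gd.2.2.getD i 0)
    (hg4 : okM gd.1 = true) :
    ∃ k', RowR (g * q) k' := by
  obtain ⟨hk, hr1, hr2, hr3⟩ := h
  have hkC : k < Cl.length := by rw [lenC]; exact hk
  have hokC : okM (Cl.getD k []) = true := by
    rw [List.getD_eq_getElem _ _ hkC]
    exact List.all_eq_true.mp okC _ (List.getElem_mem _)
  have h1 := of_allR rowsClosed (i := k) (by omega) (by omega)
  have h2 := List.all_eq_true.mp h1 gd hgd
  simp only [Bool.and_eq_true, decide_eq_true_eq] at h2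
  obtain ⟨h3, h4⟩ := h2
  set k' := Cl.idxOf (mulM gd.1 (Cl.getD k [])) with hk'
  refine ⟨k', h3, ?_, ?_, ?_⟩
  · have h5 : Cl.getD k' [] = mulM gd.1 (Cl.getD k []) := by
      rw [List.getD_eq_getElem _ _ (by rw [lenC]; exact h3)]
      apply List.getElem_idxOf
    rw [h5]
    exact hg1.mul hr1 hg4 hokC
  · rw [h4]
    show (Multiplicative.toAdd g.2.1 + Multiplicative.toAdd q.2.1).val = _
    rw [ZMod.val_add, hg2, hr2]
    rfl
  · intro i
    rw [h4]
    show ((g.2.2.1 (q.2.2.1 i) : Fin 5) : ℕ) = _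
    rw [hg3, hr3 i]
    simp only [rowStep]
    have hi5 := rowsPerm (rowsC.getD k (0, [])) (by
      rw [List.getD_eq_getElem _ _ (by rw [rowsLen]; exact hk)]
      exact List.getElem_mem _)
    rw [getD_map' _ _ 0 0 _ (by rw [hi5.1]; exact i.2)]

theorem rep_al' : MRep (alC : G) alM := rep_al
theorem rep_be' : MRep (beC : G) beM := rep_be
theorem rep_t' : MRep (tC : G) tM := rep_t

theorem d1_step {q : ↥Cg × Z} (h : ∃ k, RowR q k) : ∃ k, RowR (d1 * q) k := by
  obtain ⟨k, hk⟩ := h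
  refine gen_step hk (gd := (alM, 0, [3, 2, 0, 4, 1])) (by simp [gen3]) rep_al rfl ?_ okal
  intro i
  fin_cases i <;> rfl

theorem d2_step {q : ↥Cg × Z} (h : ∃ k, RowR q k) : ∃ k, RowR (d2 * q) k := by
  obtain ⟨k, hk⟩ := h
  refine gen_step hk (gd := (beM, 0, [1, 3, 2, 0, 4])) (by simp [gen3]) rep_be rfl ?_ okbe
  intro i
  fin_cases i <;> rfl

theorem d3_step {q : ↥Cg × Z} (h : ∃ k, RowR q k) : ∃ k, RowR (d3 * q) k := by
  obtain ⟨k, hk⟩ := h
  refine gen_step hk (gd := (tM, 1, [0, 1, 2, 3, 4])) (by simp [gen3]) rep_t rfl ?_ okt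
  intro i
  fin_cases i <;> rfl

theorem row_one : RowR (1 : ↥Cg × Z) 0 := by
  refine ⟨by norm_num, ?_, ?_, ?_⟩
  · rw [show Cl.getD 0 [] = idM by decide +kernel]
    exact rep_one
  · rw [show rowsC.getD 0 (0, []) = (0, [0, 1, 2, 3, 4]) by decide +kernel]
    rfl
  · rw [show rowsC.getD 0 (0, []) = (0, [0, 1, 2, 3, 4]) by decide +kernel]
    intro i
    fin_cases i <;> rfl

/-- Everything in `DD` is in the table. -/
theorem DD_table (q : ↥Cg × Z) (hq : q ∈ DD) : ∃ k, RowR q k := by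
  refine closure_subset_of_closed (S := {q | ∃ k, RowR q k}) ⟨0, row_one⟩ ?_ q hq
  rintro g (rfl | rfl | hg) s hs
  · exact d1_step hs
  · exact d2_step hs
  · rw [Set.mem_singleton_iff] at hg
    subst hg
    exact d3_step hs

/-- Everything in the table is in `DD`. -/
theorem table_DD : ∀ k, k < 120 → ∃ q ∈ DD, RowR q k := by
  intro k
  induction k using Nat.strong_induction_on with
  | _ k ih =>
    intro hk
    have h1 := of_allR rowsTree (i := k) (by omega) (by omega)
    have htree := treeC k (by rw [lenC]; exact hk)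
    simp only [rowsTreeP, treeP, Bool.or_eq_true, Bool.and_eq_true, beq_iff_eq, decide_eq_true_eq] at h1 htree
    rcases htree with ⟨rfl, -⟩ | ⟨h2, h3⟩
    · exact ⟨1, DD.one_mem, row_one⟩
    · have hk0 : k ≠ 0 := by omega
      rcases h1 with ⟨h4, -⟩ | h1
      · exact absurd h4 hk0
      set p := parC.getD k (0, 0) with hp
      have hpmem : p ∈ parC := by
        rw [hp, List.getD_eq_getElem _ _ (by rw [parLenC, lenC]; exact hk)]
        exact List.getElem_mem _
      have hp3 := parBoundC p hpmem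
      obtain ⟨q, hq, hqR⟩ := ih p.2 h2 (by omega)
      have hgd : ∀ d ∈ ({d1, d2, d3} : Set (↥Cg × Z)), ∀ (gi : ℕ),
          (gi = 0 → d = d1) → (gi = 1 → d = d2) → (gi = 2 → d = d3) → True := fun _ _ _ _ _ _ => trivial
      obtain ⟨g, hgm, hg1, hg2, hg3⟩ : ∃ g ∈ DD, MRep g.1.1 (gen3.getD p.1 ([], 0, [])).1 ∧
          (Multiplicative.toAdd g.2.1).val = (gen3.getD p.1 ([], 0, [])).2.1 ∧
          ∀ i : Fin 5, ((g.2.2.1 i : Fin 5) : ℕ) = (gen3.getD p.1 ([], 0, [])).2.2.getD i 0 := by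
        have : p.1 = 0 ∨ p.1 = 1 ∨ p.1 = 2 := by omega
        rcases this with h | h | h
        · rw [h]
          refine ⟨d1, Subgroup.subset_closure (by simp), rep_al, rfl, ?_⟩
          intro i; fin_cases i <;> rfl
        · rw [h]
          refine ⟨d2, Subgroup.subset_closure (by simp), rep_be, rfl, ?_⟩
          intro i; fin_cases i <;> rfl
        · rw [h]
          refine ⟨d3, Subgroup.subset_closure (by simp), rep_t, rfl, ?_⟩
          intro i; fin_cases i <;> rfl
      have hgen3 : (gen3.getD p.1 ([], 0, [])).1 = [alM, beM, tM].getD p.1 [] := by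
        have : p.1 = 0 ∨ p.1 = 1 ∨ p.1 = 2 := by omega
        rcases this with h | h | h <;> rw [h] <;> rfl
      refine ⟨g * q, DD.mul_mem hgm hq, hk, ?_, ?_, ?_⟩
      · rw [h3, ← hgen3]
        refine hg1.mul hqR.2.1 ?_ ?_
        · have h5 : gen3.getD p.1 ([], 0, []) ∈ gen3 := by
            rw [List.getD_eq_getElem _ _ (by simpa [gen3] using hp3)]
            exact List.getElem_mem _
          have := List.all_eq_true.mp (show gen3.all (fun g => okM g.1) = true by decide +kernel) _ h5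
          exact this
        · have h6 := hqR.1
          rw [List.getD_eq_getElem _ _ (by rw [lenC]; exact h6)]
          exact List.all_eq_true.mp okC _ (List.getElem_mem _)
      · rw [h1]
        show (Multiplicative.toAdd g.2.1 + Multiplicative.toAdd q.2.1).val = _
        rw [ZMod.val_add, hg2, hqR.2.2.1]
        rfl
      · intro i
        rw [h1]
        show ((g.2.2.1 (q.2.2.1 i) : Fin 5) : ℕ) = _
        rw [hg3, hqR.2.2.2 i]
        simp only [rowStep]
        have hi5 := rowsPerm (rowsC.getD p.2 (0, [])) (by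
          rw [List.getD_eq_getElem _ _ (by rw [rowsLen]; exact hqR.1)]
          exact List.getElem_mem _)
        rw [getD_map' _ _ 0 0 _ (by rw [hi5.1]; exact i.2)]

theorem row_fst_inj {q q' : ↥Cg × Z} {k k' : ℕ} (h : RowR q k) (h' : RowR q' k') (he : q.1 = q'.1) : k = k' := by
  have h1 := h.2.1
  rw [he] at h1
  have hok : ∀ j, j < 120 → okM (Cl.getD j []) = true := by
    intro j hj
    rw [List.getD_eq_getElem _ _ (by rw [lenC]; exact hj)]
    exact List.all_eq_true.mp okC _ (List.getElem_mem _)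
  have h2 := rep_eq h1 (hok _ h.1) (hok _ h'.1) h'.2.1
  have hkl : k < Cl.length := by rw [lenC]; exact h.1
  have hkl' : k' < Cl.length := by rw [lenC]; exact h'.1
  rw [List.getD_eq_getElem _ _ hkl, List.getD_eq_getElem _ _ hkl'] at h2
  exact (List.Nodup.getElem_inj_iff ndC).mp h2

theorem row_snd_inj {q q' : ↥Cg × Z} {k k' : ℕ} (h : RowR q k) (h' : RowR q' k') (he : q.2 = q'.2) : k = k' := by
  have h1 := h.2.2.1
  rw [he] at h1
  have h2 := h.2.2.2
  rw [he] at h2
  have h3 := h'.2.2.1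
  have h4 := h'.2.2.2
  have hlen : ∀ j, j < 120 → (rowsC.getD j (0, [])).2.length = 5 := by
    intro j hj
    refine (rowsPerm _ ?_).1
    rw [List.getD_eq_getElem _ _ (by rw [rowsLen]; exact hj)]
    exact List.getElem_mem _
  have hrow : rowsC.getD k (0, []) = rowsC.getD k' (0, []) := by
    apply Prod.ext
    · rw [← h1, h3]
    · apply List.ext_getElem (by rw [hlen _ h.1, hlen _ h'.1])
      intro i hi hi'
      have hi5 : i < 5 := by rwa [hlen _ h.1] at hi
      have h5 := h2 ⟨i, hi5⟩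
      have h6 := h4 ⟨i, hi5⟩
      rw [List.getD_eq_getElem _ _ hi] at h5
      rw [List.getD_eq_getElem _ _ hi'] at h6
      rw [← h5, h6]
  have hkl : k < rowsC.length := by rw [rowsLen]; exact h.1
  have hkl' : k' < rowsC.length := by rw [rowsLen]; exact h'.1
  rw [List.getD_eq_getElem _ _ hkl, List.getD_eq_getElem _ _ hkl'] at hrow
  exact (List.Nodup.getElem_inj_iff rowsND).mp hrow

theorem row_eq_of_fst {q q' : ↥Cg × Z} {k : ℕ} (h : RowR q k) (h' : RowR q' k) : q.2 = q'.2 := by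
  apply Prod.ext
  · have h1 : (Multiplicative.toAdd q.2.1).val = (Multiplicative.toAdd q'.2.1).val := by rw [h.2.2.1, h'.2.2.1]
    exact ZMod.val_injective 2 h1
  · apply Subtype.ext
    ext i
    have h1 := h.2.2.2 i
    have h2 := h'.2.2.2 i
    rw [h1, h2]

theorem row_eq_of_snd {q q' : ↥Cg × Z} {k : ℕ} (h : RowR q k) (h' : RowR q' k) : q.1 = q'.1 :=
  Subtype.ext (rep_inj h.2.1 h'.2.1)

/-- The projection to the table. -/
noncomputable def pr1 : ↥DD →* ↥Cg := (MonoidHom.fst _ _).comp DD.subtype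
noncomputable def pr2 : ↥DD →* Z := (MonoidHom.snd _ _).comp DD.subtype

theorem pr1_bij : Function.Bijective pr1 := by
  constructor
  · rintro ⟨q, hq⟩ ⟨q', hq'⟩ he
    have he' : q.1 = q'.1 := he
    obtain ⟨k, hk⟩ := DD_table q hq
    obtain ⟨k', hk'⟩ := DD_table q' hq'
    have hkk := row_fst_inj hk hk' he'
    subst hkk
    exact Subtype.ext (Prod.ext he' (row_eq_of_fst hk hk'))
  · rintro ⟨c, hc⟩
    obtain ⟨A, hA, hcR⟩ := (Cg_spec c).mp hc
    obtain ⟨k, hk, rfl⟩ := List.getElem_of_mem hA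
    obtain ⟨q, hq, hqR⟩ := table_DD k (by rwa [lenC] at hk)
    refine ⟨⟨q, hq⟩, Subtype.ext ?_⟩
    have h1 := hqR.2.1
    rw [List.getD_eq_getElem _ _ hk] at h1
    exact rep_inj h1 hcR

theorem card_Z : Nat.card Z = 120 := by
  rw [Nat.card_prod, nat_card_alternatingGroup]
  simp [Nat.card_eq_fintype_card]
  decide

theorem pr2_bij : Function.Bijective pr2 := by
  have hinj : Function.Injective pr2 := by
    rintro ⟨q, hq⟩ ⟨q', hq'⟩ he
    have he' : q.2 = q'.2 := he
    obtain ⟨k, hk⟩ := DD_table q hq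
    obtain ⟨k', hk'⟩ := DD_table q' hq'
    have hkk := row_snd_inj hk hk' he'
    subst hkk
    exact Subtype.ext (Prod.ext (row_eq_of_snd hk hk') he')
  have hcard : Nat.card ↥DD = 120 := by
    rw [Nat.card_congr (Equiv.ofBijective _ pr1_bij)]
    exact card_Cg
  have : Nat.card Z ≤ Nat.card ↥DD := by rw [hcard, card_Z]
  exact hinj.bijective_of_nat_card_le this

/-- The Janko group J₁ (the group generated by two explicit 7 × 7 matrices over the integers modulo 11) has an involution whose centraliser is isomorphic to the direct product of a group of order 2 with the alternating group of degree 5. -/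
theorem result : ∃ t : ↥Cfsg.Spor.J1, orderOf t = 2 ∧ Nonempty (↥(Subgroup.centralizer ({t} : Set ↥Cfsg.Spor.J1)) ≃* Multiplicative (ZMod 2) × ↥(alternatingGroup (Fin 5))) := by
  refine ⟨tG, ord2, ⟨?_⟩⟩
  exact (MulEquiv.subgroupCongr centralizer_eq).trans
    ((MulEquiv.ofBijective pr1 pr1_bij).symm.trans (MulEquiv.ofBijective pr2 pr2_bij))

end Cfsg.Agent.S2131
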