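import Cfsg.Statements.S2140
import Mathlib
import Cfsg.Agent.Lib.MinIndex.Main

set_option autoImplicit false
open Cfsg

namespace Cfsg.Agent.S2140

/-- Minimal index of a proper subgroup of the linear groups: for n ≥ 3 and a field F with q elements, (n, q) ≠ (4, 2), every proper subgroup of PSL_n(F) has index at least (q^n − 1)/(q − 1), and some subgroup has exactly that index (the stabiliser of a point of the projective space). -/
theorem result {F : Type*} [Field F] [Fintype F] {q : ℕ} (hF : Fintype.card F = q) (n : ℕ) (hn : 3 ≤ n) (hexc : ¬ (n = 4 ∧ q = 2)) : (∀ H : Subgroup (Matrix.ProjectiveSpecialLinearGroup (Fin n) F), H ≠ ⊤ → (q ^ n - 1) / (q - 1) ≤ H.index) ∧ (∃ H : Subgroup (Matrix.ProjectiveSpecialLinearGroup (Fin n) F), H.index = (q ^ n - 1) / (q - 1)) := by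
  subst hF
  have hc : Fintype.card (Fin n) = n := Fintype.card_fin n
  constructor
  · intro H hH
    have h1 := Cfsg.Agent.Lib.MinIndex.sl_index_ge (ι := Fin n) (F := F) (by rw [hc]; exact hn)
      (by rw [hc]; exact hexc)
      (H.comap (QuotientGroup.mk' (Subgroup.center (Matrix.SpecialLinearGroup (Fin n) F)))) ?_
    · rw [Subgroup.index_comap_of_surjective _ (QuotientGroup.mk'_surjective _), hc] at h1
      exact h1
    · intro htop
      apply hH
      rw [eq_top_iff]
      intro x _
      obtain ⟨s, rfl⟩ := QuotientGroup.mk'_surjective _ x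
      have : s ∈ H.comap (QuotientGroup.mk' (Subgroup.center (Matrix.SpecialLinearGroup (Fin n) F))) := by
        rw [htop]; trivial
      exact this
  · have hne : (Pi.single (⟨0, by omega⟩ : Fin n) (1 : F) : Fin n → F) ≠ 0 := by
      intro h
      have := congrFun h ⟨0, by omega⟩
      simp at this
    refine ⟨Cfsg.Agent.Lib.AutPSL.P (Projectivization.mk F _ hne), ?_⟩
    rw [Cfsg.Agent.Lib.AutPSL.index_P, Projectivization.card'']
    simp [Nat.card_eq_fintype_card]

end Cfsg.Agent.S2140
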