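import Cfsg.Statements.S2159
import Cfsg.Agent.Lib.Chev.Aut.OD4
import Cfsg.Agent.Lib.Chev.Aut.OE6
import Cfsg.Agent.Lib.Chev.Aut.OE7
import Cfsg.Agent.Lib.Chev.Aut.OE8
import Cfsg.Agent.Lib.Chev.Aut.TG2
import Cfsg.Agent.Lib.Chev.Aut.TB2
import Cfsg.Agent.Lib.Chev.Aut.TF4
-- import your own Cfsg.Agent.* helpers here

set_option autoImplicit false
open Cfsg

namespace Cfsg.Agent.S2159

open Cfsg.Agent.Lib.Chev in
/-- At most one non-trivial realised symmetry. -/
theorem GP_card_le2 {D : Cfsg.Lie.ChevalleyDatum} {F : Type*} [Field F] (G : Good5 D)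
    (h : ∀ ρ ρ' : Equiv.Perm (Fin D.rank), ρ ∈ GP G F → ρ' ∈ GP G F → ρ ≠ 1 → ρ' ≠ 1 → ρ = ρ') :
    Nat.card (GP G F) = 1 ∨ Nat.card (GP G F) = 2 := by
  classical
  by_cases h0 : ∃ ρ₀, ρ₀ ∈ GP G F ∧ ρ₀ ≠ 1
  · obtain ⟨ρ₀, h1, h2⟩ := h0
    right
    have e : GP G F = {1, ρ₀} := by
      ext ρ
      constructor
      · intro hρ
        by_cases h3 : ρ = 1
        · exact Or.inl h3
        · exact Or.inr (h _ _ hρ h1 h3 h2)
      · rintro (rfl | rfl)
        · exact G.one_mem_GP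
        · exact h1
    rw [e, Nat.card_eq_fintype_card]
    simp [Set.card_insert, h2.symm]
  · left
    have e : GP G F = {1} := by
      ext ρ
      constructor
      · intro hρ
        by_contra h3
        exact h0 ⟨ρ, hρ, h3⟩
      · rintro rfl
        exact G.one_mem_GP
    rw [e]
    simp

/-- Structure of the outer automorphism group of the Chevalley group `G` of type G₂, B₂, D₄, F₄, E₆, E₇ or E₈ over a finite field. Let `D̄` be the image in `Out(G)` of the subgroup generated by the diagonal automorphisms and `F̄` the image of the subgroup generated by the field automorphisms. Then `D̄` is a normal abelian subgroup of `Out(G)`, `F̄` is cyclic, `D̄F̄` is a normal subgroup, and the quotient of `Out(G)` by `D̄F̄` is trivial, of order 2, or non-abelian of order 6 (so isomorphic to the symmetric group on three letters): its index is 1 or 2, or it is 6 with the commutator subgroup of `Out(G)` not inside `D̄F̄`. -/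
theorem result {F : Type*} [Field F] [Finite F] (D : Cfsg.Lie.ChevalleyDatum) (hD : D ∈ [Cfsg.Lie.chevG2, Cfsg.Lie.chevB2, Cfsg.Lie.chevD4, Cfsg.Lie.chevF4, Cfsg.Lie.chevE6, Cfsg.Lie.chevE7, Cfsg.Lie.chevE8])
    (Dbar Fbar : Subgroup (Cfsg.Out ↥(D.group F)))
    (hDbar : Dbar = (Subgroup.closure {φ : MulAut ↥(D.group F) | D.IsDiagonalAut φ}).map (QuotientGroup.mk' (Cfsg.Inn ↥(D.group F))))
    (hFbar : Fbar = (Subgroup.closure {φ : MulAut ↥(D.group F) | D.IsFieldAut φ}).map (QuotientGroup.mk' (Cfsg.Inn ↥(D.group F)))) :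
    Dbar.Normal ∧ IsMulCommutative ↥Dbar ∧ IsCyclic ↥Fbar ∧ (Dbar ⊔ Fbar).Normal ∧
      ((Dbar ⊔ Fbar).index = 1 ∨ (Dbar ⊔ Fbar).index = 2 ∨
        ((Dbar ⊔ Fbar).index = 6 ∧ ¬ commutator (Cfsg.Out ↥(D.group F)) ≤ Dbar ⊔ Fbar)) := by
  open Cfsg.Agent.Lib.Chev in
  have hc := Cfsg.Agent.Lib.KnownSimple.chainChkAll_of_mem hD
  simp only [List.mem_cons, List.not_mem_nil, or_false] at hD
  rcases hD with rfl | rfl | rfl | rfl | rfl | rfl | rfl
  · open Cfsg.Agent.Lib.Chev Cfsg.Agent.Lib.Chev.TabG2 in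
    obtain ⟨h1, h2, h3, h4, h5⟩ := good5.out_struct aut_hrc (fun i j hi hj h => aut_hT1' i hi j hj h) aut_hfin hc Dbar Fbar hDbar hFbar
    refine ⟨h1, h2, h3, h4, ?_⟩
    rw [h5]
    open Cfsg.Agent.Lib.Chev Cfsg.Agent.Lib.Chev.TabG2 in
    rcases GP_card_le2 (F := F) good5 (by
      intro ρ ρ' _ _ h6 h7
      rcases aut_perm ρ with h8 | h8
      · exact absurd h8 h6
      rcases aut_perm ρ' with h9 | h9
      · exact absurd h9 h7
      apply Equiv.ext
      intro i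
      rcases aut_fin i with rfl | rfl
      · rw [h8.1, h9.1]
      · rw [h8.2, h9.2]) with h | h
    · exact Or.inl h
    · exact Or.inr (Or.inl h)
  · open Cfsg.Agent.Lib.Chev Cfsg.Agent.Lib.Chev.TabB2 in
    obtain ⟨h1, h2, h3, h4, h5⟩ := good5.out_struct aut_hrc (fun i j hi hj h => aut_hT1' i hi j hj h) aut_hfin hc Dbar Fbar hDbar hFbar
    refine ⟨h1, h2, h3, h4, ?_⟩
    rw [h5]
    open Cfsg.Agent.Lib.Chev Cfsg.Agent.Lib.Chev.TabB2 in
    rcases GP_card_le2 (F := F) good5 (by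
      intro ρ ρ' _ _ h6 h7
      rcases aut_perm ρ with h8 | h8
      · exact absurd h8 h6
      rcases aut_perm ρ' with h9 | h9
      · exact absurd h9 h7
      apply Equiv.ext
      intro i
      rcases aut_fin i with rfl | rfl
      · rw [h8.1, h9.1]
      · rw [h8.2, h9.2]) with h | h
    · exact Or.inl h
    · exact Or.inr (Or.inl h)
  · open Cfsg.Agent.Lib.Chev Cfsg.Agent.Lib.Chev.TabD4 in
    obtain ⟨h1, h2, h3, h4, h5⟩ := good5.out_struct aut_hrc aut_hT1 aut_hfin hc Dbar Fbar hDbar hFbar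
    refine ⟨h1, h2, h3, h4, Or.inr (Or.inr ⟨?_, ?_⟩)⟩
    · rw [h5]
      open Cfsg.Agent.Lib.Chev Cfsg.Agent.Lib.Chev.TabD4 in
      exact aut_GP_card
    · rw [good5.closure_diag aut_hrc hc] at hDbar
      rw [good5.closure_field] at hFbar
      rw [hDbar, hFbar]
      open Cfsg.Agent.Lib.Chev Cfsg.Agent.Lib.Chev.TabD4 in
      exact aut_comm_not_le
  · open Cfsg.Agent.Lib.Chev Cfsg.Agent.Lib.Chev.TabF4 in
    obtain ⟨h1, h2, h3, h4, h5⟩ := good5.out_struct aut_hrc (fun i j hi hj h => aut_hT1' i hi j hj h) aut_hfin hc Dbar Fbar hDbar hFbar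
    refine ⟨h1, h2, h3, h4, ?_⟩
    rw [h5]
    open Cfsg.Agent.Lib.Chev Cfsg.Agent.Lib.Chev.TabF4 in
    rcases GP_card_le2 (F := F) good5 (by
      intro ρ ρ' h8' h9' h6 h7
      have hZ := (good5.GP_rel (fun i j hi hj h => aut_hT1' i hi j hj h) h8').1
      have hZ' := (good5.GP_rel (fun i j hi hj h => aut_hT1' i hi j hj h) h9').1
      rcases aut_perm ρ hZ with h8 | h8
      · exact absurd h8 h6
      rcases aut_perm ρ' hZ' with h9 | h9
      · exact absurd h9 h7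
      apply Equiv.ext
      intro i
      apply Fin.ext
      rw [h8, h9]) with h | h
    · exact Or.inl h
    · exact Or.inr (Or.inl h)
  · open Cfsg.Agent.Lib.Chev Cfsg.Agent.Lib.Chev.TabE6 in
    obtain ⟨h1, h2, h3, h4, h5⟩ := good5.out_struct aut_hrc (fun i j hi hj h => aut_hT1' i hi j hj h) aut_hfin hc Dbar Fbar hDbar hFbar
    refine ⟨h1, h2, h3, h4, Or.inr (Or.inl ?_)⟩
    rw [h5]
    open Cfsg.Agent.Lib.Chev Cfsg.Agent.Lib.Chev.TabE6 in
    exact good5.GP_card_two (fun i j hi hj h => aut_hT1' i hi j hj h) aut_flip_ne aut_flip_mem aut_rigid_two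
  · open Cfsg.Agent.Lib.Chev Cfsg.Agent.Lib.Chev.TabE7 in
    obtain ⟨h1, h2, h3, h4, h5⟩ := good5.out_struct aut_hrc (fun i j hi hj h => aut_hT1' i hi j hj h) aut_hfin hc Dbar Fbar hDbar hFbar
    refine ⟨h1, h2, h3, h4, Or.inl ?_⟩
    rw [h5]
    open Cfsg.Agent.Lib.Chev Cfsg.Agent.Lib.Chev.TabE7 in
    exact good5.GP_card_one (fun i j hi hj h => aut_hT1' i hi j hj h) aut_rigid_one
  · open Cfsg.Agent.Lib.Chev Cfsg.Agent.Lib.Chev.TabE8 in
    obtain ⟨h1, h2, h3, h4, h5⟩ := good5.out_struct aut_hrc (fun i j hi hj h => aut_hT1' i hi j hj h) aut_hfin hc Dbar Fbar hDbar hFbar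
    refine ⟨h1, h2, h3, h4, Or.inl ?_⟩
    rw [h5]
    open Cfsg.Agent.Lib.Chev Cfsg.Agent.Lib.Chev.TabE8 in
    exact good5.GP_card_one (fun i j hi hj h => aut_hT1' i hi j hj h) aut_rigid_one

end Cfsg.Agent.S2159
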