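import Cfsg.Statements.S2299
import Cfsg.Agent.Lib.Known.SL2IrrOdd3

set_option autoImplicit false
open Cfsg

namespace Cfsg.Agent.S2299

open Cfsg.Agent.Lib.Known Cfsg.Agent.Lib.Char

/-- Over a finite field F with q elements, q odd, every irreducible complex character of SL₂ has degree 1, q, q + 1, q − 1, (q + 1)/2 or (q − 1)/2; and when q ≥ 5 (so that these six numbers are distinct) there are exactly one irreducible character of degree 1, one of degree q, (q − 3)/2 of degree q + 1, (q − 1)/2 of degree q − 1, two of degree (q + 1)/2 and two of degree (q − 1)/2. -/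
theorem result {F : Type*} [Field F] [Fintype F] (hodd : Odd (Fintype.card F)) :
    (∀ χ : Matrix.SpecialLinearGroup (Fin 2) F → ℂ, Cfsg.IsIrrCharacter (Matrix.SpecialLinearGroup (Fin 2) F) χ →
      χ 1 = 1 ∨ χ 1 = (Fintype.card F : ℂ) ∨ χ 1 = (Fintype.card F : ℂ) + 1 ∨ χ 1 = (Fintype.card F : ℂ) - 1 ∨
        χ 1 = (((Fintype.card F + 1) / 2 : ℕ) : ℂ) ∨ χ 1 = (((Fintype.card F - 1) / 2 : ℕ) : ℂ)) ∧
    (5 ≤ Fintype.card F →
      Nat.card {χ : Cfsg.IrrCharacter (Matrix.SpecialLinearGroup (Fin 2) F) // (χ : Matrix.SpecialLinearGroup (Fin 2) F → ℂ) 1 = 1} = 1 ∧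
      Nat.card {χ : Cfsg.IrrCharacter (Matrix.SpecialLinearGroup (Fin 2) F) // (χ : Matrix.SpecialLinearGroup (Fin 2) F → ℂ) 1 = (Fintype.card F : ℂ)} = 1 ∧
      Nat.card {χ : Cfsg.IrrCharacter (Matrix.SpecialLinearGroup (Fin 2) F) // (χ : Matrix.SpecialLinearGroup (Fin 2) F → ℂ) 1 = (Fintype.card F : ℂ) + 1} = (Fintype.card F - 3) / 2 ∧
      Nat.card {χ : Cfsg.IrrCharacter (Matrix.SpecialLinearGroup (Fin 2) F) // (χ : Matrix.SpecialLinearGroup (Fin 2) F → ℂ) 1 = (Fintype.card F : ℂ) - 1} = (Fintype.card F - 1) / 2 ∧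
      Nat.card {χ : Cfsg.IrrCharacter (Matrix.SpecialLinearGroup (Fin 2) F) // (χ : Matrix.SpecialLinearGroup (Fin 2) F → ℂ) 1 = (((Fintype.card F + 1) / 2 : ℕ) : ℂ)} = 2 ∧
      Nat.card {χ : Cfsg.IrrCharacter (Matrix.SpecialLinearGroup (Fin 2) F) // (χ : Matrix.SpecialLinearGroup (Fin 2) F → ℂ) 1 = (((Fintype.card F - 1) / 2 : ℕ) : ℂ)} = 2) := by
  classical
  obtain ⟨D⟩ := exists_SL2OddData (F := F) hodd
  obtain ⟨r, hr⟩ := SL2OddData.odd_eq (F := F) hodd
  have e1 : (Fintype.card F + 1) / 2 = r + 2 := by omega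
  have e2 : (Fintype.card F - 1) / 2 = r + 1 := by omega
  have e3 : (Fintype.card F : ℂ) = ((2 * r + 3 : ℕ) : ℂ) := by rw [hr]
  have hcases := D.irrDeg_cases hodd r hr
  refine ⟨?_, ?_⟩
  · intro χ hχ
    rw [e1, e2, e3]
    have h1 := hcases ⟨χ, hχ⟩
    have hs := irrDeg_spec (⟨χ, hχ⟩ : IrrCharacter (SL2 F))
    change χ 1 = _ at hs
    rw [hs]
    rcases h1 with ⟨_, h⟩ | ⟨_, h⟩ | ⟨_, h⟩ | ⟨_, h⟩ | ⟨_, h⟩ | ⟨_, h⟩ <;> rw [h] <;> push_cast
    · left; rfl
    · right; left; rfl
    · right; right; left; ring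
    · right; right; right; right; left; rfl
    · right; right; right; left; ring
    · right; right; right; right; right; rfl
  · intro hq
    have hr1 : 1 ≤ r := by omega
    obtain ⟨c11, c10, c01⟩ := D.card_cusp_types hodd r hr
    obtain ⟨hT, _⟩ := D.counting hodd r hr
    obtain ⟨a, b, c, d, e⟩ := D.four_distinct hodd
    have hcases' : ∀ χ : IrrCharacter (SL2 F), _ := hcases
    refine ⟨?_, ?_, ?_, ?_, ?_, ?_⟩
    · rw [card_filter_deg {SL2OddData.o F} 1 1 (by simp)]
      · simp
      · intro χ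
        simp only [Finset.mem_singleton]
        constructor
        · rintro rfl; exact SL2OddData.irrDeg_o
        · intro h
          rcases hcases χ with ⟨h1, _⟩ | ⟨_, h1⟩ | ⟨_, h1⟩ | ⟨_, h1⟩ | ⟨_, h1⟩ | ⟨_, h1⟩
          · exact h1
          all_goals omega
    · rw [card_filter_deg {SL2OddData.s F} (2 * r + 3) _ e3]
      · simp
      · intro χ
        simp only [Finset.mem_singleton]
        constructor
        · rintro rfl; rw [SL2OddData.irrDeg_s, hr]
        · intro h
          rcases hcases χ with ⟨_, h1⟩ | ⟨h1, _⟩ | ⟨_, h1⟩ | ⟨_, h1⟩ | ⟨_, h1⟩ | ⟨_, h1⟩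
          · omega
          · exact h1
          all_goals omega
    · rw [card_filter_deg (SL2OddData.indSet F) (2 * r + 4) _ (by rw [e3]; push_cast; ring)]
      · rw [hT]; omega
      · intro χ
        constructor
        · intro h; rw [SL2OddData.irrDeg_ind h, hr]
        · intro h
          rcases hcases χ with ⟨_, h1⟩ | ⟨_, h1⟩ | ⟨h1, _⟩ | ⟨_, h1⟩ | ⟨_, h1⟩ | ⟨_, h1⟩
          · omega
          · omega
          · exact h1
          all_goals omega
    · rw [card_filter_deg D.C11 (2 * r + 2) _ (by rw [e3]; push_cast; ring)]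
      · rw [c11]; omega
      · intro χ
        constructor
        · intro h; exact D.mem_C11_deg hodd h r hr
        · intro h
          rcases hcases χ with ⟨_, h1⟩ | ⟨_, h1⟩ | ⟨_, h1⟩ | ⟨_, h1⟩ | ⟨h1, _⟩ | ⟨_, h1⟩
          · omega
          · omega
          · omega
          · omega
          · exact h1
          · omega
    · rw [card_filter_deg {D.x₁, D.x₂} (r + 2) _ (by rw [e1])]
      · exact Finset.card_pair D.x₁_ne_x₂
      · intro χ
        simp only [Finset.mem_insert, Finset.mem_singleton]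
        constructor
        · rintro (rfl | rfl)
          · rw [D.irrDeg_x₁ hodd, e1]
          · rw [D.irrDeg_x₂ hodd, e1]
        · intro h
          rcases hcases χ with ⟨_, h1⟩ | ⟨_, h1⟩ | ⟨_, h1⟩ | ⟨h1, _⟩ | ⟨_, h1⟩ | ⟨_, h1⟩
          · omega
          · omega
          · omega
          · exact h1
          · omega
          · omega
    · have hdisj : Disjoint D.C10 D.C01 := by
        rw [Finset.disjoint_left]
        intro χ h1 h2
        simp only [SL2OddData.C10, SL2OddData.C01, Finset.mem_filter] at h1 h2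
        omega
      rw [card_filter_deg (D.C10 ∪ D.C01) (r + 1) _ (by rw [e2])]
      · rw [Finset.card_union_of_disjoint hdisj, c10, c01]
      · intro χ
        simp only [Finset.mem_union]
        constructor
        · rintro (h | h)
          · exact D.mem_C10_deg hodd h r hr
          · exact D.mem_C01_deg hodd h r hr
        · intro h
          rcases hcases χ with ⟨_, h1⟩ | ⟨_, h1⟩ | ⟨_, h1⟩ | ⟨_, h1⟩ | ⟨_, h1⟩ | ⟨h1, _⟩
          · omega
          · omega
          · omega
          · omega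
          · omega
          · exact h1

end Cfsg.Agent.S2299
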