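import Cfsg.Statements.S2300
import Cfsg.Agent.Lib.Known.SL2IrrEven

set_option autoImplicit false
open Cfsg

namespace Cfsg.Agent.S2300

open Cfsg.Agent.Lib.Known Cfsg.Agent.Lib.Char

/-- Over a finite field F with q elements, q even, every irreducible complex character of SL₂ has degree 1, q − 1, q or q + 1; and when q ≥ 4 (so that these four numbers are distinct) there are exactly one irreducible character of degree 1, one of degree q, (q − 2)/2 of degree q + 1 and q/2 of degree q − 1. -/
theorem result {F : Type*} [Field F] [Fintype F] [CharP F 2] :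
    (∀ χ : Matrix.SpecialLinearGroup (Fin 2) F → ℂ, Cfsg.IsIrrCharacter (Matrix.SpecialLinearGroup (Fin 2) F) χ →
      χ 1 = 1 ∨ χ 1 = (Fintype.card F : ℂ) - 1 ∨ χ 1 = (Fintype.card F : ℂ) ∨ χ 1 = (Fintype.card F : ℂ) + 1) ∧
    (4 ≤ Fintype.card F →
      Nat.card {χ : Cfsg.IrrCharacter (Matrix.SpecialLinearGroup (Fin 2) F) // (χ : Matrix.SpecialLinearGroup (Fin 2) F → ℂ) 1 = 1} = 1 ∧
      Nat.card {χ : Cfsg.IrrCharacter (Matrix.SpecialLinearGroup (Fin 2) F) // (χ : Matrix.SpecialLinearGroup (Fin 2) F → ℂ) 1 = (Fintype.card F : ℂ)} = 1 ∧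
      Nat.card {χ : Cfsg.IrrCharacter (Matrix.SpecialLinearGroup (Fin 2) F) // (χ : Matrix.SpecialLinearGroup (Fin 2) F → ℂ) 1 = (Fintype.card F : ℂ) + 1} = (Fintype.card F - 2) / 2 ∧
      Nat.card {χ : Cfsg.IrrCharacter (Matrix.SpecialLinearGroup (Fin 2) F) // (χ : Matrix.SpecialLinearGroup (Fin 2) F → ℂ) 1 = (Fintype.card F : ℂ) - 1} = Fintype.card F / 2) := by
  classical
  have hq2 : 2 ≤ Fintype.card F := Fintype.one_lt_card
  refine ⟨?_, ?_⟩
  · intro χ hχ
    rcases sl2_irr_cases_even' hχ with rfl | rfl | ⟨α, _, rfl⟩ | ⟨_, hd⟩
    · left; rfl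
    · right; right; left; exact sl2St_apply_one
    · right; right; right; exact sl2Ind_apply_one α
    · right; left; exact hd
  · intro hq
    have hq1 : (Fintype.card F : ℂ) ≠ 1 := by
      intro h
      have : Fintype.card F = 1 := by exact_mod_cast h
      omega
    have hq2' : (Fintype.card F : ℂ) ≠ 2 := by
      intro h
      have : Fintype.card F = 2 := by exact_mod_cast h
      omega
    have hq0 : (Fintype.card F : ℂ) ≠ 0 := card_ne_zero_complex
    refine ⟨?_, ?_, ?_, ?_⟩
    · rw [Nat.subtype_card {(⟨sl2One F, isIrr_sl2One⟩ : IrrCharacter (SL2 F))}]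
      · simp
      · intro χ
        simp only [Finset.mem_singleton]
        constructor
        · rintro rfl; rfl
        · intro h
          rcases sl2_irr_cases_even' χ.2 with h1 | h1 | ⟨α, _, h1⟩ | ⟨_, h1⟩
          · exact Subtype.ext h1
          · rw [h1, sl2St_apply_one] at h
            exact absurd h hq1
          · rw [h1, sl2Ind_apply_one] at h
            exfalso; apply hq0; linear_combination h
          · rw [h1] at h
            exfalso; apply hq2'; linear_combination h
    · rw [Nat.subtype_card {(⟨sl2St F, isIrr_sl2St⟩ : IrrCharacter (SL2 F))}]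
      · simp
      · intro χ
        simp only [Finset.mem_singleton]
        constructor
        · rintro rfl; exact sl2St_apply_one
        · intro h
          rcases sl2_irr_cases_even' χ.2 with h1 | h1 | ⟨α, _, h1⟩ | ⟨_, h1⟩
          · rw [h1, sl2One_apply_one] at h
            exact absurd h.symm hq1
          · exact Subtype.ext h1
          · rw [h1, sl2Ind_apply_one] at h
            exfalso; apply one_ne_zero (α := ℂ); linear_combination h
          · rw [h1] at h
            exfalso; apply one_ne_zero (α := ℂ); linear_combination -h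
    · have h5 := card_sl2IndSetEven (F := F)
      have h6 : (Fintype.card F - 2) / 2 = (sl2IndSetEven F).card := by omega
      rw [h6, Nat.subtype_card (sl2IndSetEven F)]
      intro χ
      constructor
      · intro h
        simp only [sl2IndSetEven, Finset.mem_filter, Finset.mem_univ, true_and] at h
        obtain ⟨α, _, h⟩ := h
        rw [h]; exact sl2Ind_apply_one α
      · intro h
        rcases sl2_irr_cases_even' χ.2 with h1 | h1 | ⟨α, hα, h1⟩ | ⟨_, h1⟩
        · rw [h1, sl2One_apply_one] at h
          exfalso; apply hq0; linear_combination -h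
        · rw [h1, sl2St_apply_one] at h
          exfalso; apply one_ne_zero (α := ℂ); linear_combination -h
        · simp only [sl2IndSetEven, Finset.mem_filter, Finset.mem_univ, true_and]
          exact ⟨α, fun h' => hα (mulChar_sq_eq_one_of_char_two _ h'), h1⟩
        · rw [h1] at h
          exfalso
          have : (2 : ℂ) = 0 := by linear_combination -h
          norm_num at this
    · have h5 := (sl2CuspSet_card_and_deg_even (F := F)).1
      have h6 : Fintype.card F / 2 = (sl2CuspSet F).card := by omega
      rw [h6, Nat.subtype_card (sl2CuspSet F)]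
      intro χ
      constructor
      · intro h
        have hc : sl2Cusp (χ : SL2 F → ℂ) := by simpa [sl2CuspSet] using h
        exact sl2Cusp_apply_one_even χ.2 hc
      · intro h
        rcases sl2_irr_cases_even' χ.2 with h1 | h1 | ⟨α, hα, h1⟩ | ⟨hc, _⟩
        · rw [h1, sl2One_apply_one] at h
          exfalso; apply hq2'; linear_combination -h
        · rw [h1, sl2St_apply_one] at h
          exfalso; apply one_ne_zero (α := ℂ); linear_combination h
        · rw [h1, sl2Ind_apply_one] at h
          exfalso
          have : (2 : ℂ) = 0 := by linear_combination h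
          norm_num at this
        · simpa [sl2CuspSet] using hc

end Cfsg.Agent.S2300
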