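import Cfsg.Statements.S2301
import Cfsg.Agent.Lib.Known.SL2Unip

set_option autoImplicit false
open Cfsg

namespace Cfsg.Agent.S2301

open Cfsg.Agent.Lib.Known

theorem entry_eq_sl2U {F : Type*} [Field F] (g : Matrix.SpecialLinearGroup (Fin 2) F)
    (h00 : (g : Matrix (Fin 2) (Fin 2) F) 0 0 = 1) (h11 : (g : Matrix (Fin 2) (Fin 2) F) 1 1 = 1)
    (h10 : (g : Matrix (Fin 2) (Fin 2) F) 1 0 = 0) : g = sl2U ((g : Matrix (Fin 2) (Fin 2) F) 0 1) := by
  apply sl2_ext <;> simp [h00, h11, h10]

/-- Over a finite field with q elements of odd characteristic p, the elements of order p of SL₂ (the non-identity unipotent elements) fall into exactly two conjugacy classes, each of size (q² − 1)/2; two upper unitriangular matrices with non-zero off-diagonal entries b and b′ are conjugate exactly when bb′ is a square. -/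
theorem result {F : Type*} [Field F] [Fintype F] (p : ℕ) [Fact p.Prime] [CharP F p] (hp : p ≠ 2) :
    Nat.card {C : ConjClasses (Matrix.SpecialLinearGroup (Fin 2) F) // ∃ g : Matrix.SpecialLinearGroup (Fin 2) F, orderOf g = p ∧ ConjClasses.mk g = C} = 2 ∧
    (∀ g : Matrix.SpecialLinearGroup (Fin 2) F, orderOf g = p → Nat.card (ConjClasses.mk g).carrier = (Fintype.card F ^ 2 - 1) / 2) ∧
    ∀ g h : Matrix.SpecialLinearGroup (Fin 2) F, (g : Matrix (Fin 2) (Fin 2) F) 0 0 = 1 → (g : Matrix (Fin 2) (Fin 2) F) 1 1 = 1 → (g : Matrix (Fin 2) (Fin 2) F) 1 0 = 0 → (g : Matrix (Fin 2) (Fin 2) F) 0 1 ≠ 0 →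
      (h : Matrix (Fin 2) (Fin 2) F) 0 0 = 1 → (h : Matrix (Fin 2) (Fin 2) F) 1 1 = 1 → (h : Matrix (Fin 2) (Fin 2) F) 1 0 = 0 → (h : Matrix (Fin 2) (Fin 2) F) 0 1 ≠ 0 →
      (IsConj g h ↔ IsSquare ((g : Matrix (Fin 2) (Fin 2) F) 0 1 * (h : Matrix (Fin 2) (Fin 2) F) 0 1)) := by
  have hpp : p.Prime := Fact.out
  have h2 : (2 : F) ≠ 0 := by
    intro h
    have : p ∣ 2 := by
      have := (CharP.cast_eq_zero_iff F p 2).mp (by exact_mod_cast h)
      exact this
    exact hp ((Nat.prime_dvd_prime_iff_eq hpp Nat.prime_two).mp this)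
  have hrc : ringChar F ≠ 2 := by
    rw [ringChar.eq F p]; exact hp
  obtain ⟨ν, hν⟩ := FiniteField.exists_nonsquare hrc
  have hν0 : ν ≠ 0 := by
    rintro rfl
    exact hν (IsSquare.zero)
  have hcls : ∀ x : SL2 F, orderOf x = p → IsConj x (sl2U 1) ∨ IsConj x (sl2U ν) := by
    intro x hx
    obtain ⟨b, hb, hxb⟩ := sl2_order_p_conj_U (p := p) x hx
    by_cases hs : IsSquare b
    · left
      refine hxb.trans ((isConj_sl2U_iff hb one_ne_zero).mpr ?_)
      rwa [mul_one]
    · right
      refine hxb.trans ((isConj_sl2U_iff hb hν0).mpr ?_)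
      -- product of two non-squares is a square
      have hb' : b ^ (Fintype.card F / 2) = -1 := by
        have h3 := FiniteField.pow_dichotomy hrc hb
        rcases h3 with h3 | h3
        · exact absurd ((FiniteField.isSquare_iff hrc hb).mpr h3) hs
        · exact h3
      have hν' : ν ^ (Fintype.card F / 2) = -1 := by
        have h3 := FiniteField.pow_dichotomy hrc hν0
        rcases h3 with h3 | h3
        · exact absurd ((FiniteField.isSquare_iff hrc hν0).mpr h3) hν
        · exact h3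
      rw [FiniteField.isSquare_iff hrc (mul_ne_zero hb hν0), mul_pow, hb', hν']
      ring
  have hsize : ∀ b : F, b ≠ 0 → Nat.card (ConjClasses.mk (sl2U b)).carrier = (Fintype.card F ^ 2 - 1) / 2 := by
    intro b hb
    have h1 := card_carrier_sl2U hb
    rw [card_sqrt_one_of_two_ne_zero h2] at h1
    have hq : 0 < Fintype.card F := Fintype.card_pos
    have h3 : Nat.card (ConjClasses.mk (sl2U b)).carrier * 2 = Fintype.card F ^ 2 - 1 := by
      apply Nat.eq_of_mul_eq_mul_left hq
      linarith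
    omega
  refine ⟨?_, ?_, ?_⟩
  · rw [Nat.card_eq_two_iff]
    refine ⟨⟨ConjClasses.mk (sl2U 1), sl2U 1, orderOf_sl2U one_ne_zero, rfl⟩,
      ⟨ConjClasses.mk (sl2U ν), sl2U ν, orderOf_sl2U hν0, rfl⟩, ?_, ?_⟩
    · intro h
      have h' : ConjClasses.mk (sl2U (1 : F)) = ConjClasses.mk (sl2U ν) := congrArg Subtype.val h
      have h'' := ConjClasses.mk_eq_mk_iff_isConj.mp h'
      have := (isConj_sl2U_iff one_ne_zero hν0).mp h''
      rw [one_mul] at this
      exact hν this
    · ext ⟨C, g, hg, rfl⟩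
      simp only [Set.mem_insert_iff, Set.mem_singleton_iff, Set.mem_univ, iff_true, Subtype.mk.injEq]
      rcases hcls g hg with h | h
      · left; exact ConjClasses.mk_eq_mk_iff_isConj.mpr h
      · right; exact ConjClasses.mk_eq_mk_iff_isConj.mpr h
  · intro g hg
    obtain ⟨b, hb, hxb⟩ := sl2_order_p_conj_U (p := p) g hg
    rw [ConjClasses.mk_eq_mk_iff_isConj.mpr hxb]
    exact hsize b hb
  · intro g h g00 g11 g10 g01 h00 h11 h10 h01
    conv_lhs => rw [entry_eq_sl2U g g00 g11 g10, entry_eq_sl2U h h00 h11 h10]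
    exact isConj_sl2U_iff g01 h01

end Cfsg.Agent.S2301
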