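import Cfsg.Statements.S2302
import Cfsg.Agent.Lib.Known.SL2Unip

set_option autoImplicit false
open Cfsg

namespace Cfsg.Agent.S2302

open Cfsg.Agent.Lib.Known

/-- Over a finite field with q elements of characteristic 2, the involutions of SL₂ (the non-identity unipotent elements) form a single conjugacy class, of size q² − 1. -/
theorem result {F : Type*} [Field F] [Fintype F] [CharP F 2] (g h : Matrix.SpecialLinearGroup (Fin 2) F) (hg : orderOf g = 2) (hh : orderOf h = 2) :
    IsConj g h ∧ Nat.card (ConjClasses.mk g).carrier = Fintype.card F ^ 2 - 1 := by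
  have hc : ∀ x : SL2 F, orderOf x = 2 → IsConj x (sl2U (1 : F)) := by
    intro x hx
    obtain ⟨b, hb, hxb⟩ := sl2_order_p_conj_U (p := 2) x hx
    refine hxb.trans ((isConj_sl2U_iff hb one_ne_zero).mpr ?_)
    rw [mul_one]
    exact FiniteField.isSquare_of_char_two (ringChar.eq F 2) b
  refine ⟨(hc g hg).trans (hc h hh).symm, ?_⟩
  rw [ConjClasses.mk_eq_mk_iff_isConj.mpr (hc g hg)]
  have h1 := card_carrier_sl2U (one_ne_zero : (1 : F) ≠ 0)
  rw [card_sqrt_one_of_char_two, one_mul, mul_comm] at h1
  exact Nat.eq_of_mul_eq_mul_left Fintype.card_pos h1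

end Cfsg.Agent.S2302
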