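import Cfsg.Statements.S2303
import Cfsg.Agent.Lib.Known.GL2Classes

set_option autoImplicit false
open Cfsg

namespace Cfsg.Agent.S2303

open Cfsg.Agent.Lib.Known

theorem gl_mul_apply {F : Type*} [Field F] (g h : Matrix.GeneralLinearGroup (Fin 2) F) (i j : Fin 2) :
    ((g * h : Matrix.GeneralLinearGroup (Fin 2) F) : Matrix (Fin 2) (Fin 2) F) i j =
      (g : Matrix (Fin 2) (Fin 2) F) i 0 * (h : Matrix (Fin 2) (Fin 2) F) 0 j +
      (g : Matrix (Fin 2) (Fin 2) F) i 1 * (h : Matrix (Fin 2) (Fin 2) F) 1 j := by
  rw [Units.val_mul, Matrix.mul_apply, Fin.sum_univ_two]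

theorem gl_ext {F : Type*} [Field F] {g h : Matrix.GeneralLinearGroup (Fin 2) F}
    (h00 : (g : Matrix (Fin 2) (Fin 2) F) 0 0 = (h : Matrix (Fin 2) (Fin 2) F) 0 0)
    (h01 : (g : Matrix (Fin 2) (Fin 2) F) 0 1 = (h : Matrix (Fin 2) (Fin 2) F) 0 1)
    (h10 : (g : Matrix (Fin 2) (Fin 2) F) 1 0 = (h : Matrix (Fin 2) (Fin 2) F) 1 0)
    (h11 : (g : Matrix (Fin 2) (Fin 2) F) 1 1 = (h : Matrix (Fin 2) (Fin 2) F) 1 1) : g = h := by
  apply Units.ext
  ext a b
  fin_cases a <;> fin_cases b <;> assumption

theorem gl_det_ne {F : Type*} [Field F] (g : Matrix.GeneralLinearGroup (Fin 2) F) :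
    (g : Matrix (Fin 2) (Fin 2) F) 0 0 * (g : Matrix (Fin 2) (Fin 2) F) 1 1 -
      (g : Matrix (Fin 2) (Fin 2) F) 0 1 * (g : Matrix (Fin 2) (Fin 2) F) 1 0 ≠ 0 := by
  rw [← Matrix.det_fin_two]
  exact ((Matrix.isUnit_iff_isUnit_det _).mp g.isUnit).ne_zero

/-- The diagonal element. -/
noncomputable def glD {F : Type*} [Field F] (u v : Fˣ) : Matrix.GeneralLinearGroup (Fin 2) F :=
  Matrix.GeneralLinearGroup.mkOfDetNeZero !![(u : F), 0; 0, (v : F)] (by
    rw [Matrix.det_fin_two_of]; simp)

theorem glD_coe {F : Type*} [Field F] (u v : Fˣ) :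
    ((glD u v : Matrix.GeneralLinearGroup (Fin 2) F) : Matrix (Fin 2) (Fin 2) F) = !![(u : F), 0; 0, (v : F)] := rfl

theorem commute_iff {F : Type*} [Field F] (g h : Matrix.GeneralLinearGroup (Fin 2) F) :
    h ∈ Subgroup.centralizer ({g} : Set (Matrix.GeneralLinearGroup (Fin 2) F)) ↔ h * g = g * h :=
  Subgroup.mem_centralizer_singleton_iff

/-- Over a finite field with q elements: a diagonal element of GL₂ with two distinct diagonal entries has centralizer of order (q − 1)² (so q(q + 1) conjugates), and an element of GL₂ with no eigenvector in F² has centralizer of order q² − 1 (so q(q − 1) conjugates). -/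
theorem result {F : Type*} [Field F] [Fintype F] (g : Matrix.GeneralLinearGroup (Fin 2) F) :
    ((g : Matrix (Fin 2) (Fin 2) F) 0 1 = 0 → (g : Matrix (Fin 2) (Fin 2) F) 1 0 = 0 → (g : Matrix (Fin 2) (Fin 2) F) 0 0 ≠ (g : Matrix (Fin 2) (Fin 2) F) 1 1 →
      Nat.card (Subgroup.centralizer ({g} : Set (Matrix.GeneralLinearGroup (Fin 2) F))) = (Fintype.card F - 1) ^ 2) ∧
    ((∀ (c : F) (v : Fin 2 → F), v ≠ 0 → (g : Matrix (Fin 2) (Fin 2) F).mulVec v ≠ c • v) →
      Nat.card (Subgroup.centralizer ({g} : Set (Matrix.GeneralLinearGroup (Fin 2) F))) = Fintype.card F ^ 2 - 1) := by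
  classical
  constructor
  · intro h01 h10 hne
    have hm : (Nat.card (Subgroup.centralizer ({g} : Set (Matrix.GeneralLinearGroup (Fin 2) F)))) =
        Nat.card (Fˣ × Fˣ) := by
      apply Nat.card_congr
      symm
      refine Equiv.ofBijective (fun x : Fˣ × Fˣ => (⟨glD x.1 x.2, ?_⟩ : Subgroup.centralizer ({g} : Set (Matrix.GeneralLinearGroup (Fin 2) F)))) ⟨?_, ?_⟩
      · rw [commute_iff]
        apply gl_ext <;> simp [gl_mul_apply, glD_coe, h01, h10]
        · ring
        · ring
      · rintro ⟨u, v⟩ ⟨u', v'⟩ h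
        have h' := congrArg Subtype.val h
        have e00 := congrArg (fun g : Matrix.GeneralLinearGroup (Fin 2) F => (g : Matrix (Fin 2) (Fin 2) F) 0 0) h'
        have e11 := congrArg (fun g : Matrix.GeneralLinearGroup (Fin 2) F => (g : Matrix (Fin 2) (Fin 2) F) 1 1) h'
        simp [glD_coe] at e00 e11
        rw [Units.ext e00, Units.ext e11]
      · rintro ⟨h, hh⟩
        have hc := (commute_iff g h).mp hh
        have e01 := congrArg (fun g : Matrix.GeneralLinearGroup (Fin 2) F => (g : Matrix (Fin 2) (Fin 2) F) 0 1) hc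
        have e10 := congrArg (fun g : Matrix.GeneralLinearGroup (Fin 2) F => (g : Matrix (Fin 2) (Fin 2) F) 1 0) hc
        simp only [gl_mul_apply, h01, h10] at e01 e10
        have hd : (g : Matrix (Fin 2) (Fin 2) F) 0 0 - (g : Matrix (Fin 2) (Fin 2) F) 1 1 ≠ 0 := sub_ne_zero.mpr hne
        have z01 : (h : Matrix (Fin 2) (Fin 2) F) 0 1 = 0 := by
          have : ((g : Matrix (Fin 2) (Fin 2) F) 0 0 - (g : Matrix (Fin 2) (Fin 2) F) 1 1) * (h : Matrix (Fin 2) (Fin 2) F) 0 1 = 0 := by
            linear_combination -e01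
          exact (mul_eq_zero.mp this).resolve_left hd
        have z10 : (h : Matrix (Fin 2) (Fin 2) F) 1 0 = 0 := by
          have : ((g : Matrix (Fin 2) (Fin 2) F) 0 0 - (g : Matrix (Fin 2) (Fin 2) F) 1 1) * (h : Matrix (Fin 2) (Fin 2) F) 1 0 = 0 := by
            linear_combination e10
          exact (mul_eq_zero.mp this).resolve_left hd
        have hdet := gl_det_ne h
        rw [z01, z10] at hdet
        have h00 : (h : Matrix (Fin 2) (Fin 2) F) 0 0 ≠ 0 := by
          intro h0; rw [h0] at hdet; simp at hdet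
        have h11 : (h : Matrix (Fin 2) (Fin 2) F) 1 1 ≠ 0 := by
          intro h0; rw [h0] at hdet; simp at hdet
        refine ⟨(Units.mk0 _ h00, Units.mk0 _ h11), ?_⟩
        apply Subtype.ext
        apply gl_ext <;> simp [glD_coe, z01, z10]
    rw [hm, Nat.card_prod, Nat.card_units, Nat.card_eq_fintype_card, pow_two]
  · intro hno
    -- basic facts
    have hg10 : (g : Matrix (Fin 2) (Fin 2) F) 1 0 ≠ 0 := by
      intro h10
      apply hno ((g : Matrix (Fin 2) (Fin 2) F) 0 0) ![1, 0]
      · intro h
        have := congrFun h 0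
        simp at this
      · funext i
        fin_cases i <;> simp [Matrix.mulVec, dotProduct, Fin.sum_univ_two, h10]
    -- x + y g invertible for (x,y) ≠ 0
    have hinv : ∀ p : {p : F × F // p ≠ 0}, (p.1.1 • (1 : Matrix (Fin 2) (Fin 2) F) + p.1.2 • (g : Matrix (Fin 2) (Fin 2) F)).det ≠ 0 := by
      rintro ⟨⟨x, y⟩, hxy⟩ hd
      obtain ⟨v, hv0, hv⟩ := Matrix.exists_mulVec_eq_zero_iff.mpr hd
      simp only at hv
      have hv2 : x • v + y • (g : Matrix (Fin 2) (Fin 2) F).mulVec v = 0 := by
        rw [Matrix.add_mulVec, Matrix.smul_mulVec, Matrix.smul_mulVec, Matrix.one_mulVec] at hv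
        exact hv
      by_cases hy : y = 0
      · subst hy
        have hx : x ≠ 0 := by
          intro hx
          apply hxy
          simp [hx]
        simp only [zero_smul, add_zero] at hv2
        rcases smul_eq_zero.mp hv2 with h | h
        · exact hx h
        · exact hv0 h
      · apply hno (-(x / y)) v hv0
        have : y • (g : Matrix (Fin 2) (Fin 2) F).mulVec v = -(x • v) := by
          rw [eq_neg_iff_add_eq_zero, add_comm]; exact hv2
        funext i
        have hi := congrFun this i
        simp only [Pi.smul_apply, smul_eq_mul, Pi.neg_apply] at hi ⊢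
        field_simp
        linear_combination hi
    have hm : Nat.card (Subgroup.centralizer ({g} : Set (Matrix.GeneralLinearGroup (Fin 2) F))) =
        Nat.card {p : F × F // p ≠ 0} := by
      apply Nat.card_congr
      symm
      refine Equiv.ofBijective (fun p : {p : F × F // p ≠ 0} => (⟨Matrix.GeneralLinearGroup.mkOfDetNeZero _ (hinv p), ?_⟩ : Subgroup.centralizer ({g} : Set (Matrix.GeneralLinearGroup (Fin 2) F)))) ⟨?_, ?_⟩
      · rw [commute_iff]
        apply Units.ext
        change (p.1.1 • (1 : Matrix (Fin 2) (Fin 2) F) + p.1.2 • (g : Matrix (Fin 2) (Fin 2) F)) * (g : Matrix (Fin 2) (Fin 2) F) =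
          (g : Matrix (Fin 2) (Fin 2) F) * (p.1.1 • (1 : Matrix (Fin 2) (Fin 2) F) + p.1.2 • (g : Matrix (Fin 2) (Fin 2) F))
        simp [add_mul, mul_add]
      · rintro ⟨⟨x, y⟩, hxy⟩ ⟨⟨x', y'⟩, hxy'⟩ h
        have h' : (x • (1 : Matrix (Fin 2) (Fin 2) F) + y • (g : Matrix (Fin 2) (Fin 2) F)) =
            (x' • (1 : Matrix (Fin 2) (Fin 2) F) + y' • (g : Matrix (Fin 2) (Fin 2) F)) :=
          congrArg (fun z : Subgroup.centralizer ({g} : Set (Matrix.GeneralLinearGroup (Fin 2) F)) => ((z : Matrix.GeneralLinearGroup (Fin 2) F) : Matrix (Fin 2) (Fin 2) F)) h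
        have e10 := congrFun (congrFun h' 1) 0
        have e00 := congrFun (congrFun h' 0) 0
        simp at e10 e00
        have hy : y = y' := by
          rcases e10 with h | h
          · exact h
          · exact absurd h hg10
        subst hy
        have hx : x = x' := by
          have := e00
          linear_combination this
        subst hx
        rfl
      · rintro ⟨h, hh⟩
        have hc := (commute_iff g h).mp hh
        have e00 := congrArg (fun g : Matrix.GeneralLinearGroup (Fin 2) F => (g : Matrix (Fin 2) (Fin 2) F) 0 0) hc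
        have e01 := congrArg (fun g : Matrix.GeneralLinearGroup (Fin 2) F => (g : Matrix (Fin 2) (Fin 2) F) 0 1) hc
        have e10 := congrArg (fun g : Matrix.GeneralLinearGroup (Fin 2) F => (g : Matrix (Fin 2) (Fin 2) F) 1 0) hc
        simp only [gl_mul_apply] at e00 e01 e10
        set a := (g : Matrix (Fin 2) (Fin 2) F) 0 0
        set b := (g : Matrix (Fin 2) (Fin 2) F) 0 1
        set c := (g : Matrix (Fin 2) (Fin 2) F) 1 0
        set d := (g : Matrix (Fin 2) (Fin 2) F) 1 1
        set x := (h : Matrix (Fin 2) (Fin 2) F) 0 0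
        set y := (h : Matrix (Fin 2) (Fin 2) F) 0 1
        set z := (h : Matrix (Fin 2) (Fin 2) F) 1 0
        set w := (h : Matrix (Fin 2) (Fin 2) F) 1 1
        let s := z / c
        have hs : s * c = z := by simp only [s]; field_simp
        have hy : y = s * b := by
          have : c * y = c * (s * b) := by
            have : c * (s * b) = (s * c) * b := by ring
            rw [this, hs]
            linear_combination e00
          exact mul_left_cancel₀ hg10 this
        have hw : w = x + s * (d - a) := by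
          have : c * w = c * (x + s * (d - a)) := by
            have : c * (x + s * (d - a)) = c * x + (s * c) * (d - a) := by ring
            rw [this, hs]
            linear_combination e10
          exact mul_left_cancel₀ hg10 this
        have hne : (x - s * a, s) ≠ (0 : F × F) := by
          intro h0
          have h1 : x - s * a = 0 := congrArg Prod.fst h0
          have h2 : s = 0 := congrArg Prod.snd h0
          have hdet := gl_det_ne h
          apply hdet
          have hz : z = 0 := by rw [← hs, h2]; ring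
          have hy0 : y = 0 := by rw [hy, h2]; ring
          have hx0 : x = 0 := by
            rw [h2] at h1
            linear_combination h1
          change x * w - y * z = 0
          rw [hz, hx0]; ring
        refine ⟨⟨(x - s * a, s), hne⟩, ?_⟩
        apply Subtype.ext
        apply gl_ext
        · change (((x - s * a) • (1 : Matrix (Fin 2) (Fin 2) F) + s • (g : Matrix (Fin 2) (Fin 2) F)) 0 0) = x
          simp
          ring
        · change (((x - s * a) • (1 : Matrix (Fin 2) (Fin 2) F) + s • (g : Matrix (Fin 2) (Fin 2) F)) 0 1) = y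
          simp only [Matrix.add_apply, Matrix.smul_apply, smul_eq_mul, Matrix.one_apply_ne (show (0 : Fin 2) ≠ 1 by decide)]
          rw [hy]; simp only [b]; ring
        · change (((x - s * a) • (1 : Matrix (Fin 2) (Fin 2) F) + s • (g : Matrix (Fin 2) (Fin 2) F)) 1 0) = z
          simp only [Matrix.add_apply, Matrix.smul_apply, smul_eq_mul, Matrix.one_apply_ne (show (1 : Fin 2) ≠ 0 by decide)]
          rw [← hs]; simp only [c]; ring
        · change (((x - s * a) • (1 : Matrix (Fin 2) (Fin 2) F) + s • (g : Matrix (Fin 2) (Fin 2) F)) 1 1) = w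
          simp [hw]
          ring
    rw [hm, Nat.card_eq_fintype_card, Fintype.card_subtype_compl, Fintype.card_prod]
    simp [pow_two]

end Cfsg.Agent.S2303
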