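import Cfsg.Statements.S2305
import Cfsg.Agent.Lib.Known.Mackey

set_option autoImplicit false
open Cfsg

namespace Cfsg.Agent.S2305

open Cfsg.Agent.Lib.Known

/-- Over a finite field F, for multiplicative characters α, β, α′, β′ of F, the characters of GL₂ induced from the linear characters b ↦ α(b₁₁) β(b₂₂) and b ↦ α′(b₁₁) β′(b₂₂) of the upper triangular subgroup coincide exactly when {α, β} = {α′, β′} as unordered pairs. -/
theorem result {F : Type*} [Field F] [Fintype F] [DecidableEq F] (α β α' β' : MulChar F ℂ) :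
    Cfsg.indFun (Cfsg.upperTriangularGL 2 F) (fun b => α (((b : Matrix.GeneralLinearGroup (Fin 2) F) : Matrix (Fin 2) (Fin 2) F) 0 0) * β (((b : Matrix.GeneralLinearGroup (Fin 2) F) : Matrix (Fin 2) (Fin 2) F) 1 1)) = Cfsg.indFun (Cfsg.upperTriangularGL 2 F) (fun b => α' (((b : Matrix.GeneralLinearGroup (Fin 2) F) : Matrix (Fin 2) (Fin 2) F) 0 0) * β' (((b : Matrix.GeneralLinearGroup (Fin 2) F) : Matrix (Fin 2) (Fin 2) F) 1 1)) ↔
      (α = α' ∧ β = β') ∨ (α = β' ∧ β = α') := by
  classical
  change Cfsg.indFun _ (gl2Theta α β) = Cfsg.indFun _ (gl2Theta α' β') ↔ _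
  constructor
  · intro h
    have h1 := classInner_indFun_gl2 α β α' β'
    rw [← h, classInner_indFun_gl2, if_pos rfl, if_pos rfl] at h1
    by_contra hc
    push Not at hc
    have h2 : ¬ (α = α' ∧ β = β') := fun hh => hc.1 hh.1 hh.2
    have h3 : ¬ (α = β' ∧ β = α') := fun hh => hc.2 hh.1 hh.2
    have h4 : ((if α = α' then (1 : ℂ) else 0) * (if β = β' then 1 else 0) + (if α = β' then 1 else 0) * (if β = α' then 1 else 0)) = 0 := by
      by_cases a1 : α = α' <;> by_cases a2 : β = β' <;> by_cases a3 : α = β' <;> by_cases a4 : β = α' <;> simp_all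
    rw [h4] at h1
    by_cases a5 : α = β
    · subst a5
      simp at h1
    · simp [a5, Ne.symm a5] at h1
  · rintro (⟨rfl, rfl⟩ | ⟨rfl, rfl⟩)
    · rfl
    · -- swapping α and β does not change the induced character
      have key : ∀ f : Matrix.GeneralLinearGroup (Fin 2) F → ℂ, Cfsg.classInner f f = 0 → f = 0 := by
        intro f hf
        simp only [Cfsg.classInner] at hf
        have hG : (Nat.card (Matrix.GeneralLinearGroup (Fin 2) F) : ℂ)⁻¹ ≠ 0 := by
          apply inv_ne_zero
          exact_mod_cast Nat.card_pos.ne'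
        have h0 := (mul_eq_zero.mp hf).resolve_left hG
        have h1 : ∀ g, f g * (starRingEnd ℂ) (f g) = ((Complex.normSq (f g) : ℝ) : ℂ) := fun g => Complex.mul_conj _
        simp only [h1] at h0
        have h2 : ∑ g, Complex.normSq (f g) = 0 := by exact_mod_cast h0
        funext g
        have h3 := (Finset.sum_eq_zero_iff_of_nonneg (fun g _ => Complex.normSq_nonneg (f g))).mp h2 g (Finset.mem_univ g)
        simpa using h3
      have h0 := key (Cfsg.indFun (Cfsg.upperTriangularGL 2 F) (gl2Theta α β) - Cfsg.indFun (Cfsg.upperTriangularGL 2 F) (gl2Theta β α)) (by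
        rw [Cfsg.Agent.Lib.Char.classInner_sub_left, Cfsg.Agent.Lib.Char.classInner_sub_right, Cfsg.Agent.Lib.Char.classInner_sub_right,
          classInner_indFun_gl2, classInner_indFun_gl2, classInner_indFun_gl2, classInner_indFun_gl2]
        by_cases a : α = β
        · subst a; simp
        · simp [a, Ne.symm a])
      exact sub_eq_zero.mp h0

end Cfsg.Agent.S2305
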