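import Cfsg.Statements.S2307
import Cfsg.Agent.Lib.Known.SL2IrrOdd3

set_option autoImplicit false
open Cfsg

namespace Cfsg.Agent.S2307

open Cfsg.Agent.Lib.Known Cfsg.Agent.Lib.Char

/-- Over a finite field F with q elements, q odd, let α be the multiplicative character of F of order 2. The character of SL₂ induced from the linear character b ↦ α(b₁₁) of the upper triangular subgroup is the sum of two distinct irreducible characters, each of degree (q + 1)/2, which are conjugate under GL₂: some fixed element of GL₂ conjugates the one into the other. -/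
theorem result {F : Type*} [Field F] [Fintype F] [DecidableEq F] (hodd : Odd (Fintype.card F)) (α : MulChar F ℂ)
    (hα : α ^ 2 = 1) (hα1 : α ≠ 1) :
    ∃ χ₁ χ₂ : Matrix.SpecialLinearGroup (Fin 2) F → ℂ, Cfsg.IsIrrCharacter (Matrix.SpecialLinearGroup (Fin 2) F) χ₁ ∧ Cfsg.IsIrrCharacter (Matrix.SpecialLinearGroup (Fin 2) F) χ₂ ∧ χ₁ ≠ χ₂ ∧
      Cfsg.indFun ((Cfsg.upperTriangularGL 2 F).comap Matrix.SpecialLinearGroup.toGL) (fun b => α (((b : Matrix.SpecialLinearGroup (Fin 2) F) : Matrix (Fin 2) (Fin 2) F) 0 0)) = χ₁ + χ₂ ∧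
      χ₁ 1 = (((Fintype.card F + 1) / 2 : ℕ) : ℂ) ∧ χ₂ 1 = (((Fintype.card F + 1) / 2 : ℕ) : ℂ) ∧
      ∃ x : Matrix.GeneralLinearGroup (Fin 2) F, ∀ g h : Matrix.SpecialLinearGroup (Fin 2) F,
        Matrix.SpecialLinearGroup.toGL h = x * Matrix.SpecialLinearGroup.toGL g * x⁻¹ → χ₂ h = χ₁ g := by
  classical
  obtain ⟨D⟩ := exists_SL2OddData (F := F) hodd
  have hα' : α = quadC F := (mulChar_sq_one_cases hodd α hα).resolve_left hα1
  subst hα'
  refine ⟨D.ξ₁, D.ξ₂, D.irr₁, D.irr₂, D.ne, D.sum, D.apply_one₁ hodd, D.apply_one₂ hodd, gl2BorelMk D.ε 1 0, ?_⟩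
  intro g h hh
  have hh' : ((Matrix.SpecialLinearGroup.toGL h : Matrix.GeneralLinearGroup (Fin 2) F) : Matrix (Fin 2) (Fin 2) F) =
      ((gl2BorelMk D.ε 1 0 * Matrix.SpecialLinearGroup.toGL g * (gl2BorelMk D.ε 1 0)⁻¹ : Matrix.GeneralLinearGroup (Fin 2) F) : Matrix (Fin 2) (Fin 2) F) := by
    rw [hh]
  have hinv : (((gl2BorelMk D.ε 1 0)⁻¹ : Matrix.GeneralLinearGroup (Fin 2) F) : Matrix (Fin 2) (Fin 2) F) =
      !![((D.ε⁻¹ : Fˣ) : F), -((D.ε⁻¹ : Fˣ) : F) * 0 * (((1 : Fˣ)⁻¹ : Fˣ) : F); 0, (((1 : Fˣ)⁻¹ : Fˣ) : F)] := rfl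
  rw [Units.val_mul, Units.val_mul, hinv, gl2BorelMk_coe] at hh'
  have hcoe : ∀ k : Matrix.SpecialLinearGroup (Fin 2) F, ((Matrix.SpecialLinearGroup.toGL k : Matrix.GeneralLinearGroup (Fin 2) F) : Matrix (Fin 2) (Fin 2) F) = (k : Matrix (Fin 2) (Fin 2) F) := fun _ => rfl
  rw [hcoe, hcoe] at hh'
  have hd : (D.ε : F) * ((D.ε⁻¹ : Fˣ) : F) = 1 := by simp
  have e : h = sl2Twist D.ε g := by
    apply sl2_ext
    · have := congrFun (congrFun hh' 0) 0
      simp [Matrix.mul_apply, Fin.sum_univ_two, Matrix.vecMul, dotProduct] at this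
      rw [sl2Twist_00, this]
      field_simp
    · have := congrFun (congrFun hh' 0) 1
      simp [Matrix.mul_apply, Fin.sum_univ_two, Matrix.vecMul, dotProduct] at this
      rw [sl2Twist_01, this]
    · have := congrFun (congrFun hh' 1) 0
      simp [Matrix.mul_apply, Fin.sum_univ_two, Matrix.vecMul, dotProduct] at this
      rw [sl2Twist_10, this]
      simp [mul_comm]
    · have := congrFun (congrFun hh' 1) 1
      simp [Matrix.mul_apply, Fin.sum_univ_two, Matrix.vecMul, dotProduct] at this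
      rw [sl2Twist_11, this]
  rw [e]
  exact congrFun D.swap₂ g

end Cfsg.Agent.S2307
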