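import Cfsg.Statements.S2308
import Cfsg.Agent.Lib.Known.Coset

set_option autoImplicit false
open Cfsg

namespace Cfsg.Agent.S2308

open Cfsg.Agent.Lib.Known

/-- Values of the permutation character of GL₂ over a finite field F with q elements on the cosets of its upper triangular subgroup (equivalently, the number of lines of F² that an element maps to themselves): q + 1 at a scalar matrix, 2 at a diagonal matrix with two different diagonal entries, 0 at an element with no eigenvector in F², and 1 at an upper triangular matrix with equal diagonal entries and non-zero upper right entry. -/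
theorem result {F : Type*} [Field F] [Fintype F] (g : Matrix.GeneralLinearGroup (Fin 2) F) :
    ((∃ a : F, (g : Matrix (Fin 2) (Fin 2) F) = a • (1 : Matrix (Fin 2) (Fin 2) F)) → Cfsg.fixedPointCharacter (Cfsg.upperTriangularGL 2 F) g = Fintype.card F + 1) ∧
    ((g : Matrix (Fin 2) (Fin 2) F) 0 1 = 0 → (g : Matrix (Fin 2) (Fin 2) F) 1 0 = 0 → (g : Matrix (Fin 2) (Fin 2) F) 0 0 ≠ (g : Matrix (Fin 2) (Fin 2) F) 1 1 →
      Cfsg.fixedPointCharacter (Cfsg.upperTriangularGL 2 F) g = 2) ∧
    ((∀ (c : F) (v : Fin 2 → F), v ≠ 0 → (g : Matrix (Fin 2) (Fin 2) F).mulVec v ≠ c • v) → Cfsg.fixedPointCharacter (Cfsg.upperTriangularGL 2 F) g = 0) ∧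
    ((g : Matrix (Fin 2) (Fin 2) F) 1 0 = 0 → (g : Matrix (Fin 2) (Fin 2) F) 0 0 = (g : Matrix (Fin 2) (Fin 2) F) 1 1 → (g : Matrix (Fin 2) (Fin 2) F) 0 1 ≠ 0 →
      Cfsg.fixedPointCharacter (Cfsg.upperTriangularGL 2 F) g = 1) := by
  classical
  have key : ∀ S : Finset (Option F), (∀ ℓ : Option F, ℓ ∈ S ↔ gl2Fix g ℓ) →
      Cfsg.fixedPointCharacter (Cfsg.upperTriangularGL 2 F) g = (S.card : ℂ) := by
    intro S hS
    unfold Cfsg.fixedPointCharacter
    rw [card_fixedBy_gl2]
    congr 1
    rw [Nat.subtype_card S hS]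
  refine ⟨?_, ?_, ?_, ?_⟩
  · rintro ⟨a, ha⟩
    rw [key Finset.univ]
    · simp [Finset.card_univ]
    · intro ℓ
      simp only [Finset.mem_univ, true_iff]
      cases ℓ <;> simp [ha, gl2Fix]
  · intro h01 h10 hne
    rw [key {none, some 0}]
    · rw [Finset.card_insert_of_notMem (by simp), Finset.card_singleton]; norm_num
    · intro ℓ
      have hd : (g : Matrix (Fin 2) (Fin 2) F) 1 1 - (g : Matrix (Fin 2) (Fin 2) F) 0 0 ≠ 0 :=
        sub_ne_zero.mpr (Ne.symm hne)
      cases ℓ with
      | none => simp [h10, gl2Fix]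
      | some t => simp [h10, h01, hd, gl2Fix]
  · intro hno
    have hg10 : (g : Matrix (Fin 2) (Fin 2) F) 1 0 ≠ 0 := by
      intro h10
      apply hno ((g : Matrix (Fin 2) (Fin 2) F) 0 0) ![1, 0]
      · intro h
        have := congrFun h 0
        simp at this
      · funext i
        fin_cases i <;> simp [Matrix.mulVec, dotProduct, Fin.sum_univ_two, h10]
    rw [key ∅]
    · simp
    · intro ℓ
      cases ℓ with
      | none => simp [hg10, gl2Fix]
      | some t =>
        simp only [Finset.notMem_empty, false_iff]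
        intro hroot
        simp only [gl2Fix] at hroot
        apply hno ((g : Matrix (Fin 2) (Fin 2) F) 1 0 * t + (g : Matrix (Fin 2) (Fin 2) F) 1 1) ![t, 1]
        · intro h
          have := congrFun h 1
          simp at this
        · funext i
          fin_cases i
          · simp [Matrix.mulVec, dotProduct, Fin.sum_univ_two]
            linear_combination -hroot
          · simp [Matrix.mulVec, dotProduct, Fin.sum_univ_two]
  · intro h10 h00 h01
    rw [key {none}]
    · simp
    · intro ℓ
      cases ℓ with
      | none => simp [h10, gl2Fix]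
      | some t => simp [h10, h00, h01, gl2Fix]

end Cfsg.Agent.S2308
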