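import Cfsg.Statements.S2309
import Cfsg.Agent.Lib.Known.GL2Count

set_option autoImplicit false
open Cfsg

namespace Cfsg.Agent.S2309

open Cfsg.Agent.Lib.Known

/-- Over a finite field F with q elements: every irreducible complex character of GL₂ of degree q − 1 vanishes at every diagonal matrix with two distinct entries, and every irreducible complex character of degree q + 1 vanishes at every element with no eigenvector in F². -/
theorem result {F : Type*} [Field F] [Fintype F] (χ : Matrix.GeneralLinearGroup (Fin 2) F → ℂ) (hχ : Cfsg.IsIrrCharacter (Matrix.GeneralLinearGroup (Fin 2) F) χ) (g : Matrix.GeneralLinearGroup (Fin 2) F) :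
    (χ 1 = (Fintype.card F : ℂ) - 1 → (g : Matrix (Fin 2) (Fin 2) F) 0 1 = 0 → (g : Matrix (Fin 2) (Fin 2) F) 1 0 = 0 → (g : Matrix (Fin 2) (Fin 2) F) 0 0 ≠ (g : Matrix (Fin 2) (Fin 2) F) 1 1 → χ g = 0) ∧
    (χ 1 = (Fintype.card F : ℂ) + 1 → (∀ (c : F) (v : Fin 2 → F), v ≠ 0 → (g : Matrix (Fin 2) (Fin 2) F).mulVec v ≠ c • v) → χ g = 0) := by
  classical
  have hq2 : 2 ≤ Fintype.card F := Fintype.one_lt_card
  refine ⟨?_, ?_⟩
  · intro hd h01 h10 hne
    obtain ⟨a, d, v, hg, ha, hd', hv⟩ := gl2_exists_borelMk g h10
    have hv0 : v = 0 := by rw [hv]; exact h01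
    subst hv0
    have had : (a : F) ≠ d := by rw [ha, hd']; exact hne
    rcases gl2_irr_cases' hχ with ⟨α, hα⟩ | ⟨α, hα⟩ | ⟨α, β, hab, hα⟩ | ⟨hc, _⟩
    · exfalso
      rw [hα, gl2Lin_apply_one] at hd
      have h1 : (Fintype.card F : ℂ) = 2 := by linear_combination -hd
      have h2 : Fintype.card F = 2 := by exact_mod_cast h1
      -- in a field with two elements all units are equal
      have h3 : ∀ x y : Fˣ, x = y := by
        have : Fintype.card Fˣ = 1 := by rw [Fintype.card_units, h2]
        have := Fintype.card_le_one_iff.mp this.le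
        exact this
      exact had (congrArg _ (h3 a d))
    · exfalso
      rw [hα, gl2St_apply_one] at hd
      have : (1 : ℂ) = 0 := by linear_combination hd
      exact one_ne_zero this
    · exfalso
      rw [hα, gl2Ind_apply_one] at hd
      have : (2 : ℂ) = 0 := by linear_combination hd
      norm_num at this
    · have hclass := Cfsg.Agent.Lib.Char.IsCharacter.isClassFunction (Cfsg.Agent.Lib.Char.IsIrrCharacter.isCharacter hχ)
      have hsum := gl2Cusp_sum hclass hc a d
      have hall : ∀ v : F, χ (gl2BorelMk a d v) = χ (gl2BorelMk a d 0) := fun v =>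
        (Cfsg.Agent.Lib.Char.IsClassFunction.congr_isConj hclass (gl2_regular_isConj a d had v)).symm
      simp only [hall, Finset.sum_const, Finset.card_univ, nsmul_eq_mul] at hsum
      rw [hg]
      exact (mul_eq_zero.mp hsum).resolve_left card_ne_zero_complex
  · intro hd hno
    rcases gl2_irr_cases' hχ with ⟨α, hα⟩ | ⟨α, hα⟩ | ⟨α, β, hab, hα⟩ | ⟨hc, hdc⟩
    · exfalso
      rw [hα, gl2Lin_apply_one] at hd
      have : (Fintype.card F : ℂ) = 0 := by linear_combination -hd
      exact card_ne_zero_complex this
    · exfalso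
      rw [hα, gl2St_apply_one] at hd
      have : (1 : ℂ) = 0 := by linear_combination -hd
      exact one_ne_zero this
    · rw [hα]
      exact gl2Ind_no_eigenvector α β g hno
    · exfalso
      rw [hdc] at hd
      have : (2 : ℂ) = 0 := by linear_combination -hd
      norm_num at this

end Cfsg.Agent.S2309
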