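import Cfsg.Statements.S2310
import Cfsg.Agent.Lib.Known.GL2Count

set_option autoImplicit false
open Cfsg

namespace Cfsg.Agent.S2310

open Cfsg.Agent.Lib.Known

/-- Over a finite field F with q ≥ 3 elements, let u be the upper unitriangular matrix of GL₂ with off-diagonal entry 1. An irreducible complex character χ of GL₂ takes at u the value 1 if χ has degree 1 or q + 1, the value −1 if χ has degree q − 1, and the value 0 if χ has degree q. -/
theorem result {F : Type*} [Field F] [Fintype F] (hq : 3 ≤ Fintype.card F) (χ : Matrix.GeneralLinearGroup (Fin 2) F → ℂ) (hχ : Cfsg.IsIrrCharacter (Matrix.GeneralLinearGroup (Fin 2) F) χ)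
    (u : Matrix.GeneralLinearGroup (Fin 2) F) (hu : (u : Matrix (Fin 2) (Fin 2) F) = !![1, 1; 0, 1]) :
    (χ 1 = 1 → χ u = 1) ∧ (χ 1 = (Fintype.card F : ℂ) + 1 → χ u = 1) ∧
    (χ 1 = (Fintype.card F : ℂ) - 1 → χ u = -1) ∧ (χ 1 = (Fintype.card F : ℂ) → χ u = 0) := by
  classical
  have hu' : u = gl2BorelMk (1 : Fˣ) 1 1 := by
    apply Units.ext
    rw [hu, gl2BorelMk_coe]
    simp
  subst hu'
  rcases gl2_irr_cases' hχ with ⟨α, hα⟩ | ⟨α, hα⟩ | ⟨α, β, hab, hα⟩ | ⟨hc, hdc⟩
  · have hv : χ (gl2BorelMk (1 : Fˣ) 1 1) = 1 := by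
      rw [hα, gl2Lin_BorelMk]; simp
    have h1 : χ 1 = 1 := by rw [hα, gl2Lin_apply_one]
    refine ⟨fun _ => hv, fun h => ?_, fun h => ?_, fun h => ?_⟩
    · exact hv
    · exfalso
      rw [h1] at h
      have h2 : (Fintype.card F : ℂ) = 2 := by linear_combination -h
      have h3 : Fintype.card F = 2 := by exact_mod_cast h2
      omega
    · exfalso
      rw [h1] at h
      have h3 : Fintype.card F = 1 := by exact_mod_cast h.symm
      omega
  · have h1 : χ 1 = (Fintype.card F : ℂ) := by rw [hα, gl2St_apply_one]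
    have hv : χ (gl2BorelMk (1 : Fˣ) 1 1) = 0 := by
      rw [hα]
      simp only [gl2St, Pi.sub_apply, gl2Ind_unip, gl2Lin_BorelMk]
      simp
    refine ⟨fun h => ?_, fun h => ?_, fun h => ?_, fun _ => hv⟩
    · exfalso
      rw [h1] at h
      have h3 : Fintype.card F = 1 := by exact_mod_cast h
      omega
    · exfalso
      rw [h1] at h
      have : (1 : ℂ) = 0 := by linear_combination -h
      exact one_ne_zero this
    · exfalso
      rw [h1] at h
      have : (1 : ℂ) = 0 := by linear_combination h
      exact one_ne_zero this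
  · have h1 : χ 1 = (Fintype.card F : ℂ) + 1 := by rw [hα, gl2Ind_apply_one]
    have hv : χ (gl2BorelMk (1 : Fˣ) 1 1) = 1 := by rw [hα, gl2Ind_unip]
    refine ⟨fun _ => hv, fun _ => hv, fun h => ?_, fun h => ?_⟩
    · exfalso
      rw [h1] at h
      have : (2 : ℂ) = 0 := by linear_combination h
      norm_num at this
    · exfalso
      rw [h1] at h
      have : (1 : ℂ) = 0 := by linear_combination h
      exact one_ne_zero this
  · have hclass := Cfsg.Agent.Lib.Char.IsCharacter.isClassFunction (Cfsg.Agent.Lib.Char.IsIrrCharacter.isCharacter hχ)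
    have hsum := gl2Cusp_unip hclass hc
    rw [hdc] at hsum
    have hv : χ (gl2BorelMk (1 : Fˣ) 1 1) = -1 := by
      have h2 := card_sub_one_ne_zero_complex (F := F)
      have h3 : ((Fintype.card F : ℂ) - 1) * (χ (gl2BorelMk (1 : Fˣ) 1 1) + 1) = 0 := by linear_combination hsum
      have h4 := (mul_eq_zero.mp h3).resolve_left h2
      linear_combination h4
    refine ⟨fun h => ?_, fun h => ?_, fun _ => hv, fun h => ?_⟩
    · exfalso
      rw [hdc] at h
      have h2 : (Fintype.card F : ℂ) = 2 := by linear_combination h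
      have h3 : Fintype.card F = 2 := by exact_mod_cast h2
      omega
    · exfalso
      rw [hdc] at h
      have : (2 : ℂ) = 0 := by linear_combination -h
      norm_num at this
    · exfalso
      rw [hdc] at h
      have : (1 : ℂ) = 0 := by linear_combination -h
      exact one_ne_zero this

end Cfsg.Agent.S2310
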