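import Cfsg.Statements.S2316
import Cfsg.Agent.Lib.Known.SpU

set_option autoImplicit false
open Cfsg

namespace Cfsg.Agent.S2316

/-- Steinberg's count of unipotent elements for the symplectic group: over a finite field with q elements of characteristic p, the number of elements of Sp_{2m} of p-power order is q^(2m²). -/
theorem result {F : Type*} [Field F] [Fintype F] (p : ℕ) [Fact p.Prime] [CharP F p] (m : ℕ) :
    Nat.card {g : ↥(Matrix.symplecticGroup (Fin m) F) // ∃ k : ℕ, orderOf g = p ^ k} = Fintype.card F ^ (2 * m ^ 2) := by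
  rcases m with _ | k
  · have hs : Subsingleton ↥(Matrix.symplecticGroup (Fin 0) F) := ⟨fun a b => Subtype.ext (Matrix.ext fun i j => by
      rcases i with i | i <;> exact i.elim0)⟩
    have h1 : Nat.card {g : ↥(Matrix.symplecticGroup (Fin 0) F) // ∃ k : ℕ, orderOf g = p ^ k} = 1 :=
      Nat.card_eq_one_iff_unique.2 ⟨inferInstance, ⟨⟨1, 0, by simp⟩⟩⟩
    rw [h1]
    simp
  · exact Cfsg.Agent.Lib.Known.SpU.sp_count p k

end Cfsg.Agent.S2316
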