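import Cfsg.Statements.S2320
import Cfsg.Agent.Lib.Known.GL2Count

set_option autoImplicit false
open Cfsg

namespace Cfsg.Agent.S2320

open Cfsg.Agent.Lib.Known

/-- Over a finite field F with q elements, every irreducible complex character of GL₂ of degree q takes a value of absolute value 1 at every diagonal matrix with two different diagonal entries and at every element with no eigenvector in F². -/
theorem result {F : Type*} [Field F] [Fintype F] (χ : Matrix.GeneralLinearGroup (Fin 2) F → ℂ) (hχ : Cfsg.IsIrrCharacter (Matrix.GeneralLinearGroup (Fin 2) F) χ) (hdeg : χ 1 = (Fintype.card F : ℂ)) (g : Matrix.GeneralLinearGroup (Fin 2) F) :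
    ((g : Matrix (Fin 2) (Fin 2) F) 0 1 = 0 → (g : Matrix (Fin 2) (Fin 2) F) 1 0 = 0 → (g : Matrix (Fin 2) (Fin 2) F) 0 0 ≠ (g : Matrix (Fin 2) (Fin 2) F) 1 1 → ‖χ g‖ = 1) ∧
    ((∀ (c : F) (v : Fin 2 → F), v ≠ 0 → (g : Matrix (Fin 2) (Fin 2) F).mulVec v ≠ c • v) → ‖χ g‖ = 1) := by
  classical
  have hq2 : 2 ≤ Fintype.card F := Fintype.one_lt_card
  have hst : ∃ α, χ = gl2St α := by
    rcases gl2_irr_cases' hχ with ⟨α, hα⟩ | ⟨α, hα⟩ | ⟨α, β, hab, hα⟩ | ⟨hc, hdc⟩
    · exfalso
      rw [hα, gl2Lin_apply_one] at hdeg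
      have h3 : Fintype.card F = 1 := by exact_mod_cast hdeg.symm
      omega
    · exact ⟨α, hα⟩
    · exfalso
      rw [hα, gl2Ind_apply_one] at hdeg
      have : (1 : ℂ) = 0 := by linear_combination hdeg
      exact one_ne_zero this
    · exfalso
      rw [hdc] at hdeg
      have : (1 : ℂ) = 0 := by linear_combination -hdeg
      exact one_ne_zero this
  obtain ⟨α, rfl⟩ := hst
  refine ⟨?_, ?_⟩
  · intro h01 h10 hne
    obtain ⟨a, d, v, hg, ha, hd', hv⟩ := gl2_exists_borelMk g h10
    have hv0 : v = 0 := by rw [hv]; exact h01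
    subst hv0
    have had : (a : F) ≠ d := by rw [ha, hd']; exact hne
    rw [hg]
    simp only [gl2St, Pi.sub_apply, gl2Ind_regular α α a d had, gl2Lin_BorelMk]
    have : α (a : F) * α (d : F) + α (d : F) * α (a : F) - α (a : F) * α (d : F) = α ((a * d : Fˣ) : F) := by
      push_cast
      rw [map_mul]
      ring
    rw [this]
    exact mulChar_norm α _
  · intro hno
    simp only [gl2St, Pi.sub_apply, gl2Ind_no_eigenvector α α g hno, zero_sub, norm_neg]
    simp only [gl2Lin]
    have hdet : IsUnit (g : Matrix (Fin 2) (Fin 2) F).det :=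
      (Matrix.isUnit_iff_isUnit_det _).mp g.isUnit
    obtain ⟨u, hu⟩ := hdet
    rw [← hu]
    exact mulChar_norm α u

end Cfsg.Agent.S2320
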