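import Cfsg.Statements.S2322
import Cfsg.Agent.Lib.Known.Discrete8

set_option autoImplicit false
open Cfsg

namespace Cfsg.Agent.S2322

open Cfsg.Agent.Lib.Known Cfsg.Agent.Lib.Char

/-- Over a finite field F with q elements, q odd: every irreducible complex character of SL₂ of degree q − 1 or (q − 1)/2 vanishes at every diagonal matrix whose diagonal entry a has a² ≠ 1, and every irreducible complex character of degree q + 1 or (q + 1)/2 vanishes at every element with no eigenvector in F². -/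
theorem result {F : Type*} [Field F] [Fintype F] (hodd : Odd (Fintype.card F)) (χ : Matrix.SpecialLinearGroup (Fin 2) F → ℂ) (hχ : Cfsg.IsIrrCharacter (Matrix.SpecialLinearGroup (Fin 2) F) χ) (g : Matrix.SpecialLinearGroup (Fin 2) F) :
    ((χ 1 = (Fintype.card F : ℂ) - 1 ∨ χ 1 = (((Fintype.card F - 1) / 2 : ℕ) : ℂ)) →
      (g : Matrix (Fin 2) (Fin 2) F) 0 1 = 0 → (g : Matrix (Fin 2) (Fin 2) F) 1 0 = 0 → (g : Matrix (Fin 2) (Fin 2) F) 0 0 ^ 2 ≠ 1 → χ g = 0) ∧
    ((χ 1 = (Fintype.card F : ℂ) + 1 ∨ χ 1 = (((Fintype.card F + 1) / 2 : ℕ) : ℂ)) →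
      (∀ (c : F) (v : Fin 2 → F), v ≠ 0 → (g : Matrix (Fin 2) (Fin 2) F).mulVec v ≠ c • v) → χ g = 0) := by
  classical
  obtain ⟨D⟩ := exists_SL2OddData (F := F) hodd
  have hcl := IsCharacter.isClassFunction (IsIrrCharacter.isCharacter hχ)
  refine ⟨?_, ?_⟩
  · intro hd h01 h10 ha
    obtain ⟨a, rfl, e⟩ := sl2_diag_eq_borelMk h01 h10
    rw [← e] at ha
    have hq5 := five_le_of_regular hodd a.ne_zero ha
    have hc : sl2Cusp χ := by
      rcases hd with hd | hd
      · exact D.mem_cusp_of_C11 (χ := ⟨χ, hχ⟩) (D.deg_sub_one hodd hq5 hχ hd)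
      · rcases D.deg_half_minus hodd hq5 hχ hd with h | h
        · exact D.mem_cusp_of_C10 (χ := ⟨χ, hχ⟩) h
        · exact D.mem_cusp_of_C01 (χ := ⟨χ, hχ⟩) h
    exact cusp_regular_zero hcl hc a ha
  · intro hd hno
    have hg : sl2NoEig g := hno
    rcases hd with hd | hd
    · obtain ⟨α, rfl⟩ := sl2_eq_Ind_of_deg hχ hd
      exact sl2Ind_no_eigenvector α g hno
    · by_cases hq5 : 5 ≤ Fintype.card F
      · rcases D.deg_half_plus hodd hq5 hχ hd with rfl | rfl
        · exact (D.xi_noEig hg).1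
        · exact (D.xi_noEig hg).2
      · obtain ⟨r, hr⟩ := SL2OddData.odd_eq (F := F) hodd
        have h3 : Fintype.card F = 3 := by omega
        have hr0 : r = 0 := by omega
        have hdeg : irrDeg (⟨χ, hχ⟩ : IrrCharacter (SL2 F)) = 2 := by
          rw [irrDeg_eq_iff]
          change χ 1 = _
          rw [hd, h3]
        rcases D.irrDeg_cases hodd r hr ⟨χ, hχ⟩ with ⟨_, h1⟩ | ⟨_, h1⟩ | ⟨_, h1⟩ | ⟨h1, _⟩ | ⟨h1, _⟩ | ⟨_, h1⟩
        · omega
        · omega
        · omega
        · rcases h1 with h1 | h1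
          · have : χ = D.ξ₁ := congrArg Subtype.val h1
            rw [this]
            exact (D.xi_noEig hg).1
          · have : χ = D.ξ₂ := congrArg Subtype.val h1
            rw [this]
            exact (D.xi_noEig hg).2
        · exact D.C11_noEig_three hodd h3 hg h1
        · omega

end Cfsg.Agent.S2322
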