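import Cfsg.Statements.S2323
import Cfsg.Agent.Lib.Known.SL2Values

set_option autoImplicit false
open Cfsg

namespace Cfsg.Agent.S2323

open Cfsg.Agent.Lib.Known Cfsg.Agent.Lib.Char

/-- Over a finite field F with q ≥ 4 elements, let u be the upper unitriangular matrix of SL₂ with off-diagonal entry 1. An irreducible complex character of SL₂ takes at u the value 1 if its degree is q + 1 and the value −1 if its degree is q − 1. -/
theorem result {F : Type*} [Field F] [Fintype F] (hq : 4 ≤ Fintype.card F) (χ : Matrix.SpecialLinearGroup (Fin 2) F → ℂ) (hχ : Cfsg.IsIrrCharacter (Matrix.SpecialLinearGroup (Fin 2) F) χ)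
    (u : Matrix.SpecialLinearGroup (Fin 2) F) (hu : (u : Matrix (Fin 2) (Fin 2) F) = !![1, 1; 0, 1]) :
    (χ 1 = (Fintype.card F : ℂ) + 1 → χ u = 1) ∧ (χ 1 = (Fintype.card F : ℂ) - 1 → χ u = -1) := by
  classical
  have hu' : u = sl2U 1 := by
    apply sl2_ext <;> simp [hu]
  subst hu'
  refine ⟨?_, ?_⟩
  · intro hd
    obtain ⟨α, rfl⟩ := sl2_eq_Ind_of_deg hχ hd
    exact sl2Ind_U α one_ne_zero
  · intro hd
    rcases sl2_char_parity_or (F := F) with hodd | hchar
    · obtain ⟨D⟩ := exists_SL2OddData (F := F) hodd
      have hq5 : 5 ≤ Fintype.card F := by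
        obtain ⟨k, hk⟩ := hodd
        omega
      exact D.value_C11 hodd (D.deg_sub_one hodd hq5 hχ hd)
    · haveI : CharP F 2 := ringChar.of_eq hchar
      rcases sl2_irr_cases_even' hχ with h1 | h1 | ⟨α, _, h1⟩ | ⟨hc, h1⟩
      · exfalso
        rw [h1, sl2One_apply_one] at hd
        have h2 : (Fintype.card F : ℂ) = 2 := by linear_combination -hd
        have : Fintype.card F = 2 := by exact_mod_cast h2
        omega
      · exfalso
        rw [h1, sl2St_apply_one] at hd
        apply one_ne_zero (α := ℂ)
        linear_combination hd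
      · exfalso
        rw [h1, sl2Ind_apply_one] at hd
        have : (2 : ℂ) = 0 := by linear_combination hd
        norm_num at this
      · have hsum := sl2Cusp_unip_even (IsCharacter.isClassFunction (IsIrrCharacter.isCharacter hχ)) hc
        rw [h1] at hsum
        have h2 := card_sub_one_ne_zero_complex (F := F)
        have h3 : ((Fintype.card F : ℂ) - 1) * (χ (sl2U 1) + 1) = 0 := by linear_combination hsum
        have h4 := (mul_eq_zero.mp h3).resolve_left h2
        linear_combination h4

end Cfsg.Agent.S2323
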