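import Cfsg.Statements.S2324
import Cfsg.Agent.Lib.Known.SL2Values

set_option autoImplicit false
open Cfsg

namespace Cfsg.Agent.S2324

open Cfsg.Agent.Lib.Known Cfsg.Agent.Lib.Char

/-- Over a finite field F with q elements, q odd and q ≥ 5, let u be the upper unitriangular matrix of SL₂ with off-diagonal entry 1 and let δ = (−1)^((q−1)/2). Every irreducible complex character χ of SL₂ of degree (q + 1)/2 satisfies (2χ(u) − 1)² = δq, and every irreducible complex character χ of degree (q − 1)/2 satisfies (2χ(u) + 1)² = δq; that is, χ(u) = (1 ± √(δq))/2 in the first case and χ(u) = (−1 ± √(δq))/2 in the second. Moreover two different irreducible characters of degree (q + 1)/2 take the two different values (their values at u add up to 1), and likewise for degree (q − 1)/2 (values adding up to −1). -/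
theorem result {F : Type*} [Field F] [Fintype F] (hodd : Odd (Fintype.card F)) (hq : 5 ≤ Fintype.card F)
    (u : Matrix.SpecialLinearGroup (Fin 2) F) (hu : (u : Matrix (Fin 2) (Fin 2) F) = !![1, 1; 0, 1]) :
    (∀ χ : Matrix.SpecialLinearGroup (Fin 2) F → ℂ, Cfsg.IsIrrCharacter (Matrix.SpecialLinearGroup (Fin 2) F) χ → χ 1 = (((Fintype.card F + 1) / 2 : ℕ) : ℂ) → (2 * χ u - 1) ^ 2 = (-1 : ℂ) ^ ((Fintype.card F - 1) / 2) * (Fintype.card F : ℂ)) ∧
    (∀ χ : Matrix.SpecialLinearGroup (Fin 2) F → ℂ, Cfsg.IsIrrCharacter (Matrix.SpecialLinearGroup (Fin 2) F) χ → χ 1 = (((Fintype.card F - 1) / 2 : ℕ) : ℂ) → (2 * χ u + 1) ^ 2 = (-1 : ℂ) ^ ((Fintype.card F - 1) / 2) * (Fintype.card F : ℂ)) ∧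
    (∀ χ₁ χ₂ : Matrix.SpecialLinearGroup (Fin 2) F → ℂ, Cfsg.IsIrrCharacter (Matrix.SpecialLinearGroup (Fin 2) F) χ₁ → Cfsg.IsIrrCharacter (Matrix.SpecialLinearGroup (Fin 2) F) χ₂ → χ₁ ≠ χ₂ →
      χ₁ 1 = (((Fintype.card F + 1) / 2 : ℕ) : ℂ) → χ₂ 1 = (((Fintype.card F + 1) / 2 : ℕ) : ℂ) → χ₁ u + χ₂ u = 1) ∧
    (∀ χ₁ χ₂ : Matrix.SpecialLinearGroup (Fin 2) F → ℂ, Cfsg.IsIrrCharacter (Matrix.SpecialLinearGroup (Fin 2) F) χ₁ → Cfsg.IsIrrCharacter (Matrix.SpecialLinearGroup (Fin 2) F) χ₂ → χ₁ ≠ χ₂ →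
      χ₁ 1 = (((Fintype.card F - 1) / 2 : ℕ) : ℂ) → χ₂ 1 = (((Fintype.card F - 1) / 2 : ℕ) : ℂ) → χ₁ u + χ₂ u = -1) := by
  classical
  have hu' : u = sl2U 1 := by
    apply sl2_ext <;> simp [hu]
  subst hu'
  obtain ⟨D⟩ := exists_SL2OddData (F := F) hodd
  have hG := quadGauss_sq hodd D.φ D.hφ
  obtain ⟨r, hr⟩ := SL2OddData.odd_eq (F := F) hodd
  obtain ⟨c11, c10, c01⟩ := D.card_cusp_types hodd r hr
  have hv1 := D.value_x₁ hodd
  have hv2 := D.value_x₂ hodd
  have hd1 : ∀ χ : IrrCharacter (SL2 F), χ ∈ D.C10 → χ ∈ D.C10 := fun _ h => h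
  refine ⟨?_, ?_, ?_, ?_⟩
  · intro χ hχ hd
    rcases D.deg_half_plus hodd hq hχ hd with rfl | rfl
    · rw [hv1, ← hG]; ring
    · rw [hv2, ← hG]; ring
  · intro χ hχ hd
    rcases D.deg_half_minus hodd hq hχ hd with h | h
    · have := D.value_C10 hodd h
      change χ _ = _ at this
      rw [this, ← hG]; ring
    · have := D.value_C01 hodd h
      change χ _ = _ at this
      rw [this, ← hG]; ring
  · intro χ₁ χ₂ h1 h2 hne d1 d2
    rcases D.deg_half_plus hodd hq h1 d1 with rfl | rfl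
    · rcases D.deg_half_plus hodd hq h2 d2 with rfl | rfl
      · exact absurd rfl hne
      · rw [hv1, hv2]; ring
    · rcases D.deg_half_plus hodd hq h2 d2 with rfl | rfl
      · rw [hv1, hv2]; ring
      · exact absurd rfl hne
  · intro χ₁ χ₂ h1 h2 hne d1 d2
    have huniq : ∀ (S : Finset (IrrCharacter (SL2 F))), S.card = 1 → ∀ {a b : IrrCharacter (SL2 F)}, a ∈ S → b ∈ S → a = b := by
      intro S hS a b ha hb
      exact Finset.card_le_one.mp hS.le a ha b hb
    rcases D.deg_half_minus hodd hq h1 d1 with a1 | a1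
    · rcases D.deg_half_minus hodd hq h2 d2 with a2 | a2
      · exact absurd (congrArg Subtype.val (huniq _ c10 a1 a2)) hne
      · have e1 := D.value_C10 hodd a1
        have e2 := D.value_C01 hodd a2
        change χ₁ _ = _ at e1
        change χ₂ _ = _ at e2
        rw [e1, e2]; ring
    · rcases D.deg_half_minus hodd hq h2 d2 with a2 | a2
      · have e1 := D.value_C01 hodd a1
        have e2 := D.value_C10 hodd a2
        change χ₁ _ = _ at e1
        change χ₂ _ = _ at e2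
        rw [e1, e2]; ring
      · exact absurd (congrArg Subtype.val (huniq _ c01 a1 a2)) hne

end Cfsg.Agent.S2324
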