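import Cfsg.Statements.S2326
import Cfsg.Agent.Lib.Chev.Order
import Cfsg.Agent.Lib.Chev.All2
import Cfsg.Agent.Lib.Chev.TorusCard

set_option autoImplicit false
open Cfsg

namespace Cfsg.Agent.S2326

/-- In a Chevalley group of type G₂, B₂, D₄, F₄, E₆, E₇ or E₈ over a finite field of characteristic p, the subgroup U generated by the positive root elements is a Sylow p-subgroup. -/
theorem result {F : Type*} [Field F] [Fintype F] (p : ℕ) [Fact p.Prime] [CharP F p] (D : Cfsg.Lie.ChevalleyDatum) (hD : D ∈ [Cfsg.Lie.chevG2, Cfsg.Lie.chevB2, Cfsg.Lie.chevD4, Cfsg.Lie.chevF4, Cfsg.Lie.chevE6, Cfsg.Lie.chevE7, Cfsg.Lie.chevE8]) :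
    ∃ P : Sylow p ↥(D.group F), (P : Subgroup ↥(D.group F)) = (D.posUnipotent F).subgroupOf (D.group F) := by
  classical
  obtain ⟨G⟩ := Cfsg.Agent.Lib.Chev.good2_of_mem hD
  obtain ⟨k, hp, hk⟩ := FiniteField.card F p
  set q := Fintype.card F with hq
  haveI : Fact p.Prime := ⟨hp⟩
  have hpq : p ∣ q := by
    rw [hk]
    exact dvd_pow_self p k.pos.ne'
  -- the sum is prime to p
  have hsum : ¬ p ∣ G.SumJ (List.range D.rank) q := by
    unfold Cfsg.Agent.Lib.Chev.Good2.SumJ
    have h1 : (1 : Equiv.Perm (Fin D.nroots)) ∈ Finset.univ.filter (fun w => w ∈ G.WJ (List.range D.rank)) := by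
      simp [Subgroup.one_mem]
    rw [← Finset.add_sum_erase _ _ h1, Cfsg.Agent.Lib.Chev.Good2.lenN_one G, pow_zero]
    intro hdvd
    have h2 : p ∣ ∑ w ∈ (Finset.univ.filter (fun w => w ∈ G.WJ (List.range D.rank))).erase 1,
        q ^ Cfsg.Agent.Lib.Chev.Good2.lenN D w := by
      apply Finset.dvd_sum
      intro w hw
      rw [Finset.mem_erase, Finset.mem_filter] at hw
      obtain ⟨hw1, -, hw2⟩ := hw
      have hw3 : w ∈ G.WP := by
        rw [← G.WJ_all]
        exact hw2
      obtain ⟨l, rfl⟩ := G.mem_WP_iff.mp hw3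
      have h3 : Cfsg.Agent.Lib.Chev.Good2.lenN D (G.pp l) ≠ 0 := by
        intro h0
        obtain ⟨l', -, h5, h6⟩ := G.exists_word_lenN (fun _ => True) l (fun _ _ => trivial)
        rw [h0] at h6
        have := List.eq_nil_of_length_eq_zero h6
        subst this
        apply hw1
        rw [← h5]
        rfl
      exact hpq.trans (dvd_pow_self q h3)
    have h4 := (Nat.dvd_add_left h2).mp hdvd
    exact hp.one_lt.ne' (Nat.dvd_one.mp h4)
  -- the torus is prime to p
  have hH : ¬ p ∣ Nat.card (D.diagonalSubgroup F) := by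
    have h1 : Nat.card (D.diagonalSubgroup F) ∣ Nat.card (Fin D.rank → Fˣ) := by
      rw [← G.torusHom_range]
      exact Subgroup.card_dvd_of_surjective G.torusHom.rangeRestrict G.torusHom.rangeRestrict_surjective
    have h2 : Nat.card (Fin D.rank → Fˣ) = (q - 1) ^ D.rank := by
      rw [Nat.card_eq_fintype_card, Fintype.card_fun, Fintype.card_units, Fintype.card_fin]
    rw [h2] at h1
    intro h3
    have h4 := hp.dvd_of_dvd_pow (h3.trans h1)
    have h5 : 1 ≤ q := Fintype.card_pos
    have h6 := (Nat.dvd_sub hpq h4)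
    have h7 : q - (q - 1) = 1 := by omega
    rw [h7] at h6
    exact hp.one_lt.ne' (Nat.dvd_one.mp h6)
  have hcard := G.card_group (F := F) hq
  have hUcard : Nat.card ((D.posUnipotent F).subgroupOf (D.group F)) = q ^ (D.nroots / 2) := by
    rw [Nat.card_congr (Subgroup.subgroupOfEquivOfLe (G.U_le_B.trans G.B_le_group)).toEquiv]
    exact G.card_U
  have hfin : Finite ↥(D.group F) := by
    haveI : Finite F := inferInstance
    infer_instance
  have hfac : q ^ (D.nroots / 2) = p ^ (Nat.card ↥(D.group F)).factorization p := by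
    have h0 : G.SumJ (List.range D.rank) q ≠ 0 := fun h => hsum (h ▸ dvd_zero p)
    have h00 : Nat.card (D.diagonalSubgroup F) ≠ 0 := fun h => hH (h ▸ dvd_zero p)
    have hq0 : q ≠ 0 := Fintype.card_ne_zero
    have h1 : (Nat.card ↥(D.group F)).factorization p = k * (D.nroots / 2) := by
      have e : Cfsg.Agent.Lib.Chev.Good2.NN D = D.nroots / 2 := rfl
      rw [hcard, e, Nat.factorization_mul h0 (mul_ne_zero (pow_ne_zero _ hq0) h00),
        Nat.factorization_mul (pow_ne_zero _ hq0) h00]
      simp only [Finsupp.coe_add, Pi.add_apply]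
      rw [Nat.factorization_eq_zero_of_not_dvd hsum, Nat.factorization_eq_zero_of_not_dvd hH, hk,
        Nat.factorization_pow, Nat.factorization_pow, hp.factorization]
      simp [mul_comm]
    rw [h1, hk, pow_mul]
  refine ⟨Sylow.ofCard _ (hUcard.trans hfac), ?_⟩
  exact Sylow.coe_ofCard _ _

end Cfsg.Agent.S2326
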