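import Cfsg.Statements.S2329
import Cfsg.Agent.Lib.Known.M2

set_option autoImplicit false
open Cfsg

namespace Cfsg.Agent.S2329

open Cfsg.Agent.Lib.Known

/-- Normal form in GL₂. -/
theorem conj_normal {F : Type*} [Field F] (p : ℕ) [Fact p.Prime] [CharP F p] (g : Matrix.GeneralLinearGroup (Fin 2) F)
    (hg : orderOf g = p) :
    ∃ P : Matrix (Fin 2) (Fin 2) F, IsUnit P.det ∧ P * (g : Matrix (Fin 2) (Fin 2) F) = !![1, 1; 0, 1] * P := by
  have hp : p.Prime := Fact.out
  have hg1 : g ≠ 1 := by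
    intro h
    rw [h, orderOf_one] at hg
    exact hp.ne_one hg.symm
  have hne : (g : Matrix (Fin 2) (Fin 2) F) - 1 ≠ 0 := by
    intro h
    apply hg1
    ext1
    simpa [sub_eq_zero] using h
  have hN : ((g : Matrix (Fin 2) (Fin 2) F) - 1) * ((g : Matrix (Fin 2) (Fin 2) F) - 1) = 0 := by
    apply m2_sq_eq_zero_of_nilpotent
    refine ⟨p, ?_⟩
    have h1 : g ^ p = 1 := by rw [← hg]; exact pow_orderOf_eq_one g
    have h2 : ((g : Matrix (Fin 2) (Fin 2) F)) ^ p = 1 := by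
      have := congrArg (fun x : Matrix.GeneralLinearGroup (Fin 2) F => (x : Matrix (Fin 2) (Fin 2) F)) h1
      simpa using this
    have : CharP (Matrix (Fin 2) (Fin 2) F) p := Matrix.charP p
    have h3 := sub_pow_char_of_commute (p := p) (Commute.one_right (g : Matrix (Fin 2) (Fin 2) F))
    rw [h3, h2, one_pow, sub_self]
  obtain ⟨P, hP, hPN⟩ := m2_nilp_normal_form _ hne hN
  refine ⟨P, hP, ?_⟩
  have : (!![1, 1; 0, 1] : Matrix (Fin 2) (Fin 2) F) = 1 + !![0, 1; 0, 0] := by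
    ext i j
    fin_cases i <;> fin_cases j <;> simp
  rw [this, add_mul, one_mul, ← hPN, mul_sub, mul_one]
  abel

/-- Over a finite field of characteristic p, any two elements of order p of GL₂ are conjugate: there is a single conjugacy class of non-identity unipotent elements. -/
theorem result {F : Type*} [Field F] [Fintype F] (p : ℕ) [Fact p.Prime] [CharP F p] (g h : Matrix.GeneralLinearGroup (Fin 2) F)
    (hg : orderOf g = p) (hh : orderOf h = p) : IsConj g h := by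
  obtain ⟨P, hP, hPg⟩ := conj_normal p g hg
  obtain ⟨Q, hQ, hQh⟩ := conj_normal p h hh
  have hPu : IsUnit P := (Matrix.isUnit_iff_isUnit_det P).mpr hP
  have hQu : IsUnit Q := (Matrix.isUnit_iff_isUnit_det Q).mpr hQ
  obtain ⟨P', rfl⟩ := hPu
  obtain ⟨Q', rfl⟩ := hQu
  rw [isConj_iff]
  refine ⟨Q'⁻¹ * P', ?_⟩
  rw [mul_inv_eq_iff_eq_mul]
  ext1
  -- Q'⁻¹ P' g = h Q'⁻¹ P'
  have e : (P' : Matrix (Fin 2) (Fin 2) F) * g = Q' * h * ((Q'⁻¹ * P' : Matrix.GeneralLinearGroup (Fin 2) F) : Matrix (Fin 2) (Fin 2) F) := by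
    rw [hPg, hQh]
    simp only [Units.val_mul, mul_assoc, Units.mul_inv_cancel_left]
  have e2 : ((Q'⁻¹ * P' * g : Matrix.GeneralLinearGroup (Fin 2) F) : Matrix (Fin 2) (Fin 2) F) =
      ((Q'⁻¹ : Matrix.GeneralLinearGroup (Fin 2) F) : Matrix (Fin 2) (Fin 2) F) * ((P' : Matrix (Fin 2) (Fin 2) F) * g) := by
    simp only [Units.val_mul, mul_assoc]
  rw [e2, e]
  simp only [Units.val_mul, mul_assoc, Units.inv_mul_cancel_left]

end Cfsg.Agent.S2329
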