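import Cfsg.Statements.S2362
import Cfsg.Agent.Lib.Known.BC5

set_option autoImplicit false
open Cfsg

namespace Cfsg.Agent.S2362

/-- Let F be a finite field of odd order and n ≥ 3. The simple orthogonal group PΩ(2n+1, F) (type B_n) and the projective symplectic group PSp(2n, F) (type C_n), which have the same order, do not have the same set of element orders. -/
theorem result {F : Type*} [Field F] [Fintype F] (hodd : Odd (Fintype.card F)) (n : ℕ) (hn : 3 ≤ n) :
    Set.range (orderOf : Cfsg.POmega F (Cfsg.quadFormOdd n F) → ℕ) ≠ Set.range (orderOf : Cfsg.PSp n F → ℕ) := by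
  classical
  obtain ⟨p, hp⟩ := CharP.exists F
  haveI := hp
  haveI : Fact p.Prime := ⟨CharP.char_is_prime F p⟩
  obtain ⟨k, rfl⟩ : ∃ k, n = k + 1 := ⟨n - 1, by omega⟩
  obtain ⟨g, hg⟩ := Cfsg.Agent.Lib.Known.BC.psp_has_order (F := F) p hodd k (by omega)
  intro heq
  have h1 : p * (Fintype.card F ^ k + 1) ∈ Set.range (orderOf : Cfsg.PSp (k + 1) F → ℕ) := ⟨g, hg⟩
  rw [← heq] at h1
  obtain ⟨g', hg'⟩ := h1
  have h2 : (2 : F) ≠ 0 := by
    intro h
    have hqF : ((Fintype.card F : ℕ) : F) = 0 := Nat.cast_card_eq_zero F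
    have hpq : p ∣ Fintype.card F := (CharP.cast_eq_zero_iff F p _).1 hqF
    have hpodd : Odd p := Odd.of_dvd_nat hodd hpq
    have h3 : ((2 : ℕ) : F) = 0 := by exact_mod_cast h
    have h4 := (CharP.cast_eq_zero_iff F p 2).1 h3
    have h5 := Nat.le_of_dvd (by omega) h4
    have h6 := (Fact.out : p.Prime).two_le
    have h7 : p = 2 := by omega
    rw [h7] at hpodd
    exact absurd hpodd (by decide)
  refine Cfsg.Agent.Lib.Known.BC.omega_no_order p (Cfsg.Agent.Lib.Classical.ndq_odd h2 (k + 1)) (k := k) (by omega) ?_ hodd g' hg'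
  simp only [Fintype.card_sum, Fintype.card_unit, Fintype.card_fin]
  ring

end Cfsg.Agent.S2362
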