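import Cfsg.Statements.S2364
import Cfsg.Agent.Lib.Known.PG3

set_option autoImplicit false
open Cfsg

namespace Cfsg.Agent.S2364

open Cfsg.Agent.Lib.Known

/-- Let F be a finite field of characteristic p, n ≥ 4, and let a, b be commuting elements of PSL(n, F) with a of order p. Then every prime divisor of the order of b divides the order of SL(n − 2, F). -/
theorem result {F : Type*} [Field F] [Fintype F] (p : ℕ) [Fact p.Prime] [CharP F p] (n : ℕ) (hn : 4 ≤ n)
    (a b : Matrix.ProjectiveSpecialLinearGroup (Fin n) F) (ha : orderOf a = p) (hab : Commute a b) :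
    (orderOf b).primeFactors ⊆ (Nat.card (Matrix.SpecialLinearGroup (Fin (n - 2)) F)).primeFactors := by
  intro r hr'
  rw [Nat.mem_primeFactors] at hr' ⊢
  obtain ⟨hr, hdvd, hne⟩ := hr'
  haveI : Fact r.Prime := ⟨hr⟩
  refine ⟨hr, ?_, Nat.card_pos.ne'⟩
  by_cases hrp : r = p
  · subst hrp
    exact PG.p_dvd_card_SL r (n - 2) (by omega)
  have hb' : orderOf (b ^ (orderOf b / r)) = r := orderOf_pow_orderOf_div hne hdvd
  obtain ⟨u, s, hu, hu0, hcomm, hs, -, -, -⟩ :=
    PG.exists_lift p (by omega : 0 < n) hr hrp a (b ^ (orderOf b / r)) ha hb' (hab.pow_right _)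
  by_cases he : 2 ≤ orderOf ((Fintype.card F : ℕ) : ZMod r)
  · have h1 := PG.add_two_le_of_lift p hrp (by omega : 0 < n) he u s hu hu0 hcomm hs
    exact PG.dvd_card_SL_of_e p hrp (n - 2) he (by omega)
  · have h1 := PG.e_pos (F := F) p hrp
    have h2 : orderOf ((Fintype.card F : ℕ) : ZMod r) = 1 := by omega
    have h3 := (PG.dvd_card_sub_one_iff (F := F)).2 h2
    exact h3.trans (PG.sub_one_dvd_card_SL (n - 2) (by omega))

end Cfsg.Agent.S2364
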