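import Cfsg.Statements.S2368
import Mathlib

set_option autoImplicit false
open Cfsg

namespace Cfsg.Agent.S2368

/-- Let F be a finite field of characteristic p and m ≥ 1. Every element of GL(m, F) of p-power order has order less than p·m, and GL(m, F) has an element of p-power order at least m; so the largest order of a p-element of GL(m, F) is the least power of p that is at least m. -/
theorem result {F : Type*} [Field F] [Fintype F] (p : ℕ) [Fact p.Prime] [CharP F p] (m : ℕ) (hm : 1 ≤ m) :
    (∀ g : Matrix.GeneralLinearGroup (Fin m) F, (∃ j : ℕ, orderOf g = p ^ j) → orderOf g < p * m) ∧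
      ∃ g : Matrix.GeneralLinearGroup (Fin m) F, (∃ j : ℕ, orderOf g = p ^ j) ∧ m ≤ orderOf g := by
  classical
  have hp1 : 1 < p := (Fact.out : p.Prime).one_lt
  -- key: powers of `1 + N`
  have hpow : ∀ (N : Matrix (Fin m) (Fin m) F) (k : ℕ), (1 + N) ^ p ^ k = 1 + N ^ p ^ k := by
    intro N k
    haveI : Nonempty (Fin m) := ⟨⟨0, hm⟩⟩
    have := add_pow_char_pow_of_commute (R := Matrix (Fin m) (Fin m) F) (p := p) (n := k) (x := 1) (y := N) (Commute.one_left N)
    rw [this, one_pow]
  constructor
  · intro g hg
    obtain ⟨j, hj⟩ := hg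
    set A : Matrix (Fin m) (Fin m) F := (g : Matrix (Fin m) (Fin m) F) with hA
    have hg1 : g ^ p ^ j = 1 := by rw [← hj]; exact pow_orderOf_eq_one g
    have hA1 : A ^ p ^ j = 1 := by
      have := congrArg (fun x : Matrix.GeneralLinearGroup (Fin m) F => (x : Matrix (Fin m) (Fin m) F)) hg1
      simpa using this
    set N : Matrix (Fin m) (Fin m) F := A - 1 with hN
    have hAN : A = 1 + N := by rw [hN]; abel
    have hNnil : N ^ p ^ j = 0 := by
      have := hpow N j
      rw [← hAN, hA1] at this
      simpa using this.symm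
    have hNm : N ^ m = 0 := by
      have h1 : IsNilpotent N := ⟨_, hNnil⟩
      have h2 := Matrix.isNilpotent_charpoly_sub_pow_of_isNilpotent h1
      have h3 : N.charpoly = Polynomial.X ^ Fintype.card (Fin m) :=
        sub_eq_zero.mp h2.eq_zero
      have h4 := Matrix.aeval_self_charpoly N
      rw [h3] at h4
      simpa using h4
    set c := Nat.clog p m with hc
    have hc1 : m ≤ p ^ c := Nat.le_pow_clog hp1 m
    have hc2 : p ^ c < p * m := by
      rcases Nat.lt_or_ge 1 m with h | h
      · have hc3 : 0 < c := Nat.clog_pos hp1 h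
        have h5 := Nat.pow_pred_clog_lt_self hp1 h
        have : p ^ c = p * p ^ (c - 1) := by
          obtain ⟨d, hd⟩ : ∃ d, c = d + 1 := ⟨c - 1, by omega⟩
          rw [hd, pow_succ]; simp [mul_comm]
        rw [this]
        exact Nat.mul_lt_mul_of_pos_left h5 (by omega)
      · have hm1 : m = 1 := by omega
        simp [hc, hm1, hp1]
    have hgc : g ^ p ^ c = 1 := by
      apply Units.ext
      have h1 : A ^ p ^ c = 1 := by
        rw [hAN, hpow, pow_eq_zero_of_le hc1 hNm, add_zero]
      simpa using h1
    calc orderOf g ≤ p ^ c := Nat.le_of_dvd (by positivity) (orderOf_dvd_of_pow_eq_one hgc)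
      _ < p * m := hc2
  · -- the regular unipotent
    let N : Matrix (Fin m) (Fin m) F := fun i j => if (j : ℕ) = i + 1 then 1 else 0
    have hNk : ∀ (k : ℕ) (i j : Fin m), (N ^ k) i j = if (j : ℕ) = i + k then 1 else 0 := by
      intro k
      induction k with
      | zero =>
        intro i j
        simp [Matrix.one_apply, Fin.ext_iff, eq_comm]
      | succ k ih =>
        intro i j
        rw [pow_succ, Matrix.mul_apply]
        simp only [ih, N]
        by_cases h : (j : ℕ) = i + (k + 1)
        · rw [if_pos h]
          have hl : (i : ℕ) + k < m := by have := j.2; omega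
          rw [Finset.sum_eq_single (⟨i + k, hl⟩ : Fin m)]
          · simp [h, add_assoc]
          · intro b _ hb
            have : ¬ ((b : ℕ) = i + k) := fun h' => hb (Fin.ext h')
            simp [this]
          · simp
        · rw [if_neg h]
          apply Finset.sum_eq_zero
          intro l _
          by_cases h1 : (l : ℕ) = i + k
          · have : ¬ ((j : ℕ) = l + 1) := by omega
            simp [this]
          · simp [h1]
    have hNm : N ^ m = 0 := by
      ext i j
      rw [hNk]
      have : ¬ ((j : ℕ) = i + m) := by have := j.2; omega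
      simp [this]
    have hu : IsUnit (1 + N) := (IsNilpotent.isUnit_one_add ⟨m, hNm⟩)
    set g : Matrix.GeneralLinearGroup (Fin m) F := hu.unit with hg
    have hgv : ∀ k, ((g ^ p ^ k : Matrix.GeneralLinearGroup (Fin m) F) : Matrix (Fin m) (Fin m) F) = 1 + N ^ p ^ k := by
      intro k
      rw [Units.val_pow_eq_pow_val, hg, IsUnit.unit_spec, hpow]
    set c := Nat.clog p m with hc
    have hc1 : m ≤ p ^ c := Nat.le_pow_clog hp1 m
    have hgc : g ^ p ^ c = 1 := by
      apply Units.ext
      rw [hgv, pow_eq_zero_of_le hc1 hNm, add_zero]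
      rfl
    have hodvd : orderOf g ∣ p ^ c := orderOf_dvd_of_pow_eq_one hgc
    obtain ⟨j, _, hj⟩ := (Nat.dvd_prime_pow Fact.out).mp hodvd
    refine ⟨g, ⟨j, hj⟩, ?_⟩
    by_contra hlt
    push Not at hlt
    have hg1 : g ^ p ^ j = 1 := by rw [← hj]; exact pow_orderOf_eq_one g
    have h2 := hgv j
    rw [hg1] at h2
    have h3 : N ^ p ^ j = 0 := by
      have : (1 : Matrix (Fin m) (Fin m) F) = 1 + N ^ p ^ j := by simpa using h2
      simpa using this.symm
    rw [hj] at hlt
    have h4 := congrFun (congrFun h3 ⟨0, by omega⟩) ⟨p ^ j, hlt⟩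
    rw [hNk] at h4
    simp at h4

end Cfsg.Agent.S2368
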