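import Cfsg.Statements.S2369
import Cfsg.Agent.Lib.Chev.Tw.F4St
import Cfsg.Agent.Lib.Chev.Tw.Frob

set_option autoImplicit false
open Cfsg

namespace Cfsg.Agent.S2369




/-- Let q = 2^(2m+1) with m ≥ 1 and let a, b be commuting elements of the large Ree group ²F₄(q) with a an involution. Then every prime divisor of the order of b divides q(q⁴ − 1). -/
theorem result {K : Type*} [Field K] [Fintype K] (m : ℕ) (hm : 1 ≤ m) (hK : Fintype.card K = 2 ^ (2 * m + 1))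
    (a b : ↥(Cfsg.Lie.twistedF4 K (2 ^ m))) (ha : orderOf a = 2) (hab : Commute a b) :
    (orderOf b).primeFactors ⊆ (2 ^ (2 * m + 1) * ((2 ^ (2 * m + 1)) ^ 4 - 1)).primeFactors := by
  intro r hr
  have hr1 := Nat.mem_primeFactors.mp hr
  have hq : 1 ≤ 2 ^ (2 * m + 1) := Nat.one_le_two_pow
  have hlt : 1 < (2 ^ (2 * m + 1)) ^ 4 := Nat.one_lt_pow (by norm_num) (Nat.one_lt_two_pow (by omega))
  refine Nat.mem_primeFactors.mpr ⟨hr1.1, ?_, ?_⟩
  · haveI hc : CharP K 2 := Cfsg.Agent.Lib.Chev.charP_of_card Nat.prime_two (by omega) hK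
    obtain ⟨f, hf⟩ := Cfsg.Agent.Lib.Chev.frobP Nat.prime_two (by omega) hK m
    have hf2 := Cfsg.Agent.Lib.Chev.frob_sq hK f hf
    have hAA := Cfsg.Agent.Lib.Chev.TwF4.AA_eq f hf2 hf
    have key : ∀ (H : Subgroup (Matrix.GeneralLinearGroup Cfsg.Lie.chevF4.Idx K)), (Cfsg.Agent.Lib.Chev.TwF4.TT f).AA Cfsg.Agent.Lib.Chev.TwF4.JJ = H → ∀ (a b : ↥H), orderOf a = 2 → Commute a b → r ∣ orderOf b →
        r ∣ 2 ^ (2 * m + 1) * ((2 ^ (2 * m + 1)) ^ 4 - 1) := by
      intro H hH a b ha hab hrb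
      subst hH
      have h0 : orderOf b ≠ 0 := orderOf_ne_zero_iff.mpr (isOfFinOrder_of_finite b)
      have h1 := Cfsg.Agent.Lib.Chev.TwF4.prime_dvd_of_commute f hf2 (n := 2 * m + 1) (by omega) hK ha
        (hab.pow_right (orderOf b / r)) hr1.1 (orderOf_pow_orderOf_div h0 hrb)
      rwa [hK] at h1
    exact key _ hAA a b ha hab hr1.2.1
  · exact Nat.mul_ne_zero (by positivity) (by omega)

end Cfsg.Agent.S2369
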