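import Cfsg.Statements.S2370
import Cfsg.Agent.Lib.Chev.Tw.F4Two
import Cfsg.Agent.Lib.Chev.Tw.Frob

set_option autoImplicit false
open Cfsg

namespace Cfsg.Agent.S2370




/-- Let q = 2^(2m+1) with m ≥ 1. Every element of 2-power order of the large Ree group ²F₄(q) has order at most 32. -/
theorem result {K : Type*} [Field K] [Fintype K] (m : ℕ) (hm : 1 ≤ m) (hK : Fintype.card K = 2 ^ (2 * m + 1))
    (x : ↥(Cfsg.Lie.twistedF4 K (2 ^ m))) (hx : ∃ j : ℕ, orderOf x = 2 ^ j) : orderOf x ≤ 32 := by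
  haveI hc : CharP K 2 := Cfsg.Agent.Lib.Chev.charP_of_card Nat.prime_two (by omega) hK
  have h := Cfsg.Agent.Lib.Chev.TwF4.two_elt_pow_32 (F := K)
    (Cfsg.Agent.Lib.Chev.TwF4.twistedF4_le_group (2 ^ m) x.2) (by
      obtain ⟨j, hj⟩ := hx
      refine ⟨j, ?_⟩
      rw [← hj]
      exact (Subgroup.orderOf_coe x))
  have h1 : x ^ 32 = 1 := Subtype.ext (by simpa using h)
  exact Nat.le_of_dvd (by norm_num) (orderOf_dvd_of_pow_eq_one h1)

end Cfsg.Agent.S2370
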