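import Cfsg.Statements.S2389
import Mathlib
import Cfsg.Agent.Lib.Known.GLConj
import Cfsg.Agent.Lib.NormH90.SpConj

set_option autoImplicit false
open Cfsg

namespace Cfsg.Agent.S2389

/-- In the symplectic group `Sp_{2n}(q)`, `q` a power of the prime `p`, two elements of order prime to `p` with the same characteristic polynomial are conjugate in `Sp_{2n}(q)`. -/
theorem result {F : Type*} [Field F] [Fintype F] (p : ℕ) [Fact p.Prime] [CharP F p] (n : ℕ)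
    (g h : ↥(Matrix.symplecticGroup (Fin n) F)) (hg : (orderOf g).Coprime p) (hh : (orderOf h).Coprime p)
    (hc : (g : Matrix (Fin n ⊕ Fin n) (Fin n ⊕ Fin n) F).charpoly = (h : Matrix (Fin n ⊕ Fin n) (Fin n ⊕ Fin n) F).charpoly) :
    IsConj g h := by
  have pw : ∀ k : ↥(Matrix.symplecticGroup (Fin n) F),
      (k : Matrix (Fin n ⊕ Fin n) (Fin n ⊕ Fin n) F) ^ orderOf k = 1 := by
    intro k
    rw [← SubmonoidClass.coe_pow, pow_orderOf_eq_one]
    rfl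
  have sg := Cfsg.Agent.Lib.Known.GLConj.isSemisimple_toLin' (g : Matrix (Fin n ⊕ Fin n) (Fin n ⊕ Fin n) F)
    (Cfsg.Agent.Lib.Known.GLConj.cast_ne_zero_of_coprime p hg) (pw g)
  have sh := Cfsg.Agent.Lib.Known.GLConj.isSemisimple_toLin' (h : Matrix (Fin n ⊕ Fin n) (Fin n ⊕ Fin n) F)
    (Cfsg.Agent.Lib.Known.GLConj.cast_ne_zero_of_coprime p hh) (pw h)
  obtain ⟨e, he⟩ := Cfsg.Agent.Lib.Known.GLConj.matrix_conj _ _ sg sh hc
  let x : GL (Fin n ⊕ Fin n) F := ⟨_, _, Cfsg.Agent.Lib.Known.GLConj.toMatrix'_equiv_mul e,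
    Cfsg.Agent.Lib.Known.GLConj.toMatrix'_symm_mul e⟩
  rw [Cfsg.Agent.Lib.NormH90.SpConj.isConj_sp g h hg]
  exact ⟨x, Cfsg.Agent.Lib.Known.GLConj.toMatrix'_semiconj (e : (Fin n ⊕ Fin n → F) →ₗ[F] (Fin n ⊕ Fin n → F)) _ _ he⟩

end Cfsg.Agent.S2389
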