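import Cfsg.Statements.S2391
import Cfsg.Agent.Lib.Known.Flag

set_option autoImplicit false
open Cfsg

namespace Cfsg.Agent.S2391

open Cfsg.Agent.Lib.Known

/-- The Borel–Tits property of `SL_n(q)` in flag form: for a field `F` of characteristic `p` with finitely many elements and a non-trivial `p`-subgroup `U` of `SL_n(F)`, there is a flag `0 = V₀ < V₁ < ⋯ < V_{k+1} = F^n` with at least one proper non-zero member such that every element of the normaliser of `U` maps each `V_i` onto itself and every element of `U` acts trivially on each quotient `V_{i+1}/V_i` (so the normaliser lies in the parabolic subgroup of the flag and `U` in its unipotent radical). -/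
theorem result {F : Type*} [Field F] [Fintype F] (p : ℕ) [Fact p.Prime] [CharP F p] (n : ℕ)
    (U : Subgroup (Matrix.SpecialLinearGroup (Fin n) F)) (hU : IsPGroup p ↥U) (hne : U ≠ ⊥) :
    ∃ (k : ℕ) (V : Fin (k + 2) → Submodule F (Fin n → F)), 1 ≤ k ∧ StrictMono V ∧ V 0 = ⊥ ∧ V (Fin.last (k + 1)) = ⊤ ∧
      (∀ g ∈ Subgroup.normalizer (U : Set (Matrix.SpecialLinearGroup (Fin n) F)), ∀ i, (V i).map (Matrix.mulVecLin (g : Matrix (Fin n) (Fin n) F)) = V i) ∧
      (∀ u ∈ U, ∀ i : Fin (k + 1), ∀ v ∈ V i.succ, (u : Matrix (Fin n) (Fin n) F).mulVec v - v ∈ V (Fin.castSucc i)) := by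
  classical
  have h0 : flagW U 0 = ⊥ := rfl
  -- `U` acts nontrivially
  have hW1 : flagW U 1 ≠ ⊤ := by
    intro htop
    apply hne
    rw [Subgroup.eq_bot_iff_forall]
    intro u hu
    apply Subtype.ext
    have h1 : ∀ v : Fin n → F, (u : Matrix (Fin n) (Fin n) F).mulVec v = v := by
      intro v
      have hv : v ∈ flagW U 1 := by rw [htop]; trivial
      have := hv u hu
      exact sub_eq_zero.mp this
    change (u : Matrix (Fin n) (Fin n) F) = 1
    apply Matrix.ext_of_mulVec_single
    intro i
    rw [h1, Matrix.one_mulVec]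
  have hW0 : flagW U 0 ≠ ⊤ := by
    intro h
    apply hW1
    exact top_le_iff.mp (h ▸ flagW_le_succ U 0)
  have hex := flagW_eventually_top p U hU
  set K := Nat.find hex with hK
  have hKtop : flagW U K = ⊤ := Nat.find_spec hex
  have hKlt : ∀ i, i < K → flagW U i ≠ ⊤ := fun i hi => Nat.find_min hex hi
  have hK2 : 2 ≤ K := by
    by_contra hlt
    have : K = 0 ∨ K = 1 := by omega
    rcases this with h | h
    · rw [h] at hKtop; exact hW0 hKtop
    · rw [h] at hKtop; exact hW1 hKtop
  obtain ⟨k, hk⟩ : ∃ k, K = k + 1 := ⟨K - 1, by omega⟩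
  refine ⟨k, fun j => flagW U j, by omega, ?_, rfl, ?_, ?_, ?_⟩
  · rw [Fin.strictMono_iff_lt_succ]
    intro i
    simp only [Fin.val_castSucc, Fin.val_succ]
    exact flagW_lt_succ p U hU _ (hKlt _ (by have := i.2; omega))
  · simpa [hk] using hKtop
  · intro g hg i
    exact flagW_map_normalizer U _ hg
  · intro u hu i v hv
    exact hv u hu

end Cfsg.Agent.S2391
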