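import Cfsg.Statements.S2394
import Cfsg.Agent.Lib.LocalEven.Zsig
import Cfsg.Agent.Lib.Classical.SpOrder

set_option autoImplicit false
open scoped MatrixGroups
open Cfsg

namespace Cfsg.Agent.S2394

/-- The smallest degree of a faithful representation of the symplectic group `Sp_{2n}(q)` over its own field `F_q` is `2n`: every injective homomorphism from `Sp_{2n}(F)` to `GL_d(F)`, `F` the field with `q` elements, has `d ≥ 2n`. -/
theorem result {F : Type*} [Field F] [Fintype F] (n : ℕ) {d : ℕ}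
    (ρ : ↥(Matrix.symplecticGroup (Fin n) F) →* GL (Fin d) F) (hρ : Function.Injective ρ) : 2 * n ≤ d := by
  classical
  set q := Fintype.card F with hq
  have hq2 : 2 ≤ q := Fintype.one_lt_card
  by_contra hlt
  push Not at hlt
  have hdvd : Nat.card (Matrix.symplecticGroup (Fin n) F) ∣ Nat.card (GL (Fin d) F) := by
    have h1 : Nat.card ρ.range = Nat.card (Matrix.symplecticGroup (Fin n) F) :=
      Nat.card_congr (MonoidHom.ofInjective hρ).toEquiv.symm
    rw [← h1]
    exact Subgroup.card_subgroup_dvd_card _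
  rw [Cfsg.Agent.Lib.Classical.card_sp hq.symm n, Matrix.card_GL_field (𝔽 := F) d] at hdvd
  rw [← hq] at hdvd
  -- `n ≠ 0`
  have hn0 : n ≠ 0 := by
    rintro rfl
    omega
  by_cases hn1 : n = 1
  · subst hn1
    have hd1 : d ≤ 1 := by omega
    have h1 : q ^ 1 ^ 2 * ∏ i ∈ Finset.range 1, (q ^ (2 * (i + 1)) - 1) ∣ ∏ i : Fin d, (q ^ d - q ^ (i : ℕ)) := hdvd
    simp only [Finset.prod_range_one] at h1
    have h3 : 1 ≤ q ^ (2 * (0 + 1)) - 1 := by
      have : 2 ^ 2 ≤ q ^ 2 := Nat.pow_le_pow_left hq2 2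
      have e : 2 * (0 + 1) = 2 := rfl
      rw [e]
      omega
    interval_cases d
    · simp at h1
      omega
    · simp at h1
      have h4 := Nat.le_of_dvd (by omega) h1
      have h5 : q * 1 ≤ q * (q ^ 2 - 1) := Nat.mul_le_mul_left _ (by
        have : 2 ^ 2 ≤ q ^ 2 := Nat.pow_le_pow_left hq2 2
        omega)
      omega
  by_cases h26 : q = 2 ∧ 2 * n = 6
  · obtain ⟨h1, h2⟩ := h26
    have hn3 : n = 3 := by omega
    subst hn3
    rw [h1] at hdvd
    have hd5 : d ≤ 5 := by omega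
    have h81 : 81 ∣ 2 ^ 3 ^ 2 * ∏ i ∈ Finset.range 3, (2 ^ (2 * (i + 1)) - 1) := by
      norm_num [Finset.prod_range_succ]
    have h5 := dvd_trans h81 hdvd
    interval_cases d <;> simp [Fin.prod_univ_succ] at h5 <;> omega
  · -- the primitive prime divisor
    obtain ⟨r, hr, hr1, hr2⟩ := Cfsg.Agent.Lib.LocalEven.Zsig.main_S2904 q (2 * n) (by omega) (by omega) h26
      (by rintro ⟨h, _⟩; omega)
    have hrq : ¬ r ∣ q := by
      intro h
      have h1 : r ∣ q ^ (2 * n) := dvd_pow h (by omega)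
      have h2 : r ∣ 1 := by
        have h3 : 1 ≤ q ^ (2 * n) := Nat.one_le_pow _ _ (by omega)
        exact (Nat.dvd_sub_iff_right h3 h1).mp hr1
      exact hr.one_lt.ne' (Nat.dvd_one.mp h2)
    have h1 : r ∣ ∏ i ∈ Finset.range n, (q ^ (2 * (i + 1)) - 1) := by
      have : n - 1 ∈ Finset.range n := Finset.mem_range.mpr (by omega)
      refine dvd_trans ?_ (Finset.dvd_prod_of_mem _ this)
      have e : 2 * (n - 1 + 1) = 2 * n := by
        have : n - 1 + 1 = n := by omega
        rw [this]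
      rw [e]
      exact hr1
    have h2 : r ∣ ∏ i : Fin d, (q ^ d - q ^ (i : ℕ)) := dvd_trans (dvd_mul_of_dvd_right h1 _) hdvd
    obtain ⟨i, _, hi⟩ := (Prime.dvd_finset_prod_iff (Nat.Prime.prime hr) _).mp h2
    have hid : (i : ℕ) < d := i.2
    have e1 : q ^ d - q ^ (i : ℕ) = q ^ (i : ℕ) * (q ^ (d - i) - 1) := by
      rw [Nat.mul_sub, mul_one, ← pow_add]
      congr 2
      omega
    rw [e1] at hi
    rcases (Nat.Prime.dvd_mul hr).mp hi with h3 | h3
    · exact hrq (hr.dvd_of_dvd_pow h3)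
    · exact hr2 (d - i) (by omega) (by omega) h3

end Cfsg.Agent.S2394
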