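import Cfsg.Statements.S2399
import Cfsg.Agent.Lib.Chev.Cov.PGL
import Cfsg.Agent.Lib.Chev.All5
import Cfsg.Agent.S2398
import Cfsg.Agent.S2395
-- import your own Cfsg.Agent.* helpers here

set_option autoImplicit false
open scoped MatrixGroups
open Cfsg

namespace Cfsg.Agent.S2399

open Cfsg.Lie Cfsg.Agent.Lib.Chev Cfsg.Agent.Lib.CT


/-- Projective representations in the natural characteristic lift: for each of the types G₂, B₂, D₄, F₄, E₆, E₇, E₈ over any field `K` (for types B₂ and G₂ the field must have more than two elements — the cases where the Chevalley group is not simple are set aside), every homomorphism from the Chevalley group to `PGL_n(L) = GL_n(L)/Z`, `L` a field of the same characteristic as `K`, lifts uniquely to a homomorphism from the group Δ presented by (R1), (R2) to `GL_n(L)`, compatibly with the projection Δ → Chevalley group sending x̄_r(t) to x_r(t). -/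
theorem result {K : Type*} [Field K] (D : Cfsg.Lie.ChevalleyDatum) (hD : D ∈ [Cfsg.Lie.chevG2, Cfsg.Lie.chevB2, Cfsg.Lie.chevD4, Cfsg.Lie.chevF4, Cfsg.Lie.chevE6, Cfsg.Lie.chevE7, Cfsg.Lie.chevE8]) (hK : D ∈ [Cfsg.Lie.chevB2, Cfsg.Lie.chevG2] → ∃ x : K, x ≠ 0 ∧ x ≠ 1)
    (θ : D.SteinbergCover K →* ↥(D.group K))
    (hθ : ∀ (r : ℕ) (t : K), r < D.nroots → ((θ (D.scGen K r t) : GL D.Idx K) : Matrix D.Idx D.Idx K) = D.x K r t)
    {L : Type*} [Field L] (hL : ringChar L = ringChar K) {n : ℕ}
    (φ : ↥(D.group K) →* GL (Fin n) L ⧸ Subgroup.center (GL (Fin n) L)) :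
    ∃! ψ : D.SteinbergCover K →* GL (Fin n) L, (QuotientGroup.mk' (Subgroup.center (GL (Fin n) L))).comp ψ = φ.comp θ := by
  have hperf := Cfsg.Agent.S2395.result D hD hK
  set mk := QuotientGroup.mk' (Subgroup.center (GL (Fin n) L)) with hmk
  set σ := φ.comp θ with hσ
  have hc : mk.ker ≤ Subgroup.center (GL (Fin n) L) := by
    rw [hmk, QuotientGroup.ker_mk']
  have hs : Function.Surjective mk := QuotientGroup.mk'_surjective _
  have hex : ∃ ψ : D.SteinbergCover K →* GL (Fin n) L, mk.comp ψ = σ := by
    by_cases hp : ringChar K = 0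
    · have hch : CharP K 0 := hp ▸ ringChar.charP K
      have hcz : CharZero K := CharP.charP_to_charZero K
      have hK5 : ∃ s : Finset K, 4 < s.card := by
        classical
        refine ⟨(Finset.range 5).image (fun i : ℕ => (i : K)), ?_⟩
        rw [Finset.card_image_of_injective _ Nat.cast_injective, Finset.card_range]
        norm_num
      exact (Cfsg.Agent.S2398.result hK5 D hD mk hs hc σ).exists
    · set p := ringChar K with hpdef
      have hch : CharP K p := ringChar.charP K
      have hpr : p.Prime := (CharP.char_is_prime_or_zero K p).resolve_right hp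
      have : Fact p.Prime := ⟨hpr⟩
      have hchL : CharP L p := hL ▸ ringChar.charP L
      obtain ⟨G, M, hM⟩ := good5_of_mem hD
      have hp0 : ((p : ℕ) : K) = 0 := CharP.cast_eq_zero K p
      have hl : ∀ a, ∃ e : slK L n, piSL L n e = σ a := by
        have hle : commutator (D.SteinbergCover K) ≤ ((piSL L n).range).comap σ := by
          rw [commutator_def, Subgroup.commutator_le]
          intro a _ b _
          show σ (cc a b) ∈ (piSL L n).range
          rw [map_cc]
          obtain ⟨g, hg⟩ := hs (σ a)
          obtain ⟨h, hh⟩ := hs (σ b)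
          have hm : cc g h ∈ slK L n := by
            rw [MonoidHom.mem_ker, map_cc]
            unfold cc
            rw [mul_comm (Matrix.GeneralLinearGroup.det g)]
            group
          refine ⟨⟨cc g h, hm⟩, ?_⟩
          show mk (cc g h) = _
          rw [map_cc, hg, hh]
        rw [hperf] at hle
        intro a
        obtain ⟨e, he⟩ := hle (Subgroup.mem_top a)
        exact ⟨e, he⟩
      obtain ⟨τ, hτ⟩ := lift_p G hp0 (π := piSL L n) (σ := σ) piSL_central hl piSL_U piSL_D
      refine ⟨(slK L n).subtype.comp τ, ?_⟩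
      exact hτ
  obtain ⟨ψ, hψ⟩ := hex
  refine ⟨ψ, hψ, fun ψ' hψ' => ?_⟩
  have hpt : ∀ x, mk (ψ' x) = mk (ψ x) := by
    intro x
    have h1 := DFunLike.congr_fun hψ x
    have h2 := DFunLike.congr_fun hψ' x
    simp only [MonoidHom.comp_apply] at h1 h2
    rw [h1, h2]
  have hle : commutator (D.SteinbergCover K) ≤ MonoidHom.eqLocus ψ' ψ := by
    rw [commutator_def, Subgroup.commutator_le]
    intro a _ b _
    show ψ' (cc a b) = ψ (cc a b)
    rw [map_cc, map_cc]
    exact cc_lf0 hc (hpt a) (hpt b)
  rw [hperf] at hle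
  refine PresentedGroup.ext fun x => ?_
  exact hle (Subgroup.mem_top (PresentedGroup.of x))

end Cfsg.Agent.S2399
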