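import Cfsg.Statements.S2400
import Cfsg.Agent.Lib.Chev.Cov.StU
import Cfsg.Agent.Lib.Chev.Cov.UniB4
import Cfsg.Agent.Lib.CT.RE6
import Cfsg.Agent.Lib.CT.RE7
import Cfsg.Agent.S2398
import Cfsg.Agent.S2397
import Cfsg.Agent.S2395
-- import your own Cfsg.Agent.* helpers here

set_option autoImplicit false
open Cfsg

namespace Cfsg.Agent.S2400

open Cfsg.Lie Cfsg.Agent.Lib.Chev Cfsg.Agent.Lib.CT

theorem card4_two {F : Type*} [Field F] [Fintype F] (h : Fintype.card F = 4) : (2 : F) = 0 := by
  obtain ⟨p, hp⟩ := CharP.exists F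
  obtain ⟨n, hpr, hn⟩ := FiniteField.card F p
  rw [h] at hn
  have hd : p ∣ 2 ^ 2 := by
    have : (2 : ℕ) ^ 2 = 4 := by norm_num
    rw [this, hn]
    exact dvd_pow_self p n.ne_zero
  have hp2 : p = 2 := (Nat.prime_dvd_prime_iff_eq hpr Nat.prime_two).mp (hpr.dvd_of_dvd_pow hd)
  subst hp2
  have h3 : ((2 : ℕ) : F) = 0 := CharP.cast_eq_zero F 2
  exact_mod_cast h3

theorem not_small {F : Type*} [Field F] (D : ChevalleyDatum) (h1 : D.rank ≠ chevB2.rank) (h2 : D.rank ≠ chevG2.rank) :
    D ∈ [chevB2, chevG2] → ∃ x : F, x ≠ 0 ∧ x ≠ 1 := by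
  intro h
  simp only [List.mem_cons, List.not_mem_nil, or_false] at h
  rcases h with h | h
  · exact absurd (congrArg ChevalleyDatum.rank h) h1
  · exact absurd (congrArg ChevalleyDatum.rank h) h2

theorem exists_big {F : Type*} [Field F] [Fintype F] (h : 3 ≤ Fintype.card F) : ∃ x : F, x ≠ 0 ∧ x ≠ 1 := by
  classical
  have hcard : (({0, 1} : Finset F)).card < (Finset.univ : Finset F).card := by
    rw [Finset.card_univ]
    have : (({0, 1} : Finset F)).card ≤ 2 := Finset.card_le_two
    omega
  obtain ⟨t, -, ht⟩ := Finset.exists_mem_notMem_of_card_lt_card hcard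
  simp only [Finset.mem_insert, Finset.mem_singleton, not_or] at ht
  exact ⟨t, ht.1, ht.2⟩


/-- Over a finite field `K`, the group presented by Steinberg's relators (R1)–(R3) (the universal Chevalley group) of type E₆ or E₇, or of type B₂ or D₄ with `K` of more than two elements, has trivial Schur multiplier: every finite stem extension of it is an isomorphism (Schur multiplier described through stem extensions as in the definitions). Types G₂, F₄ and E₈ are not covered here. -/
theorem result {K : Type*} [Field K] [Fintype K] (e : Cfsg.Lie.ChevalleyDatum × ℕ)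
    (he : e ∈ [(Cfsg.Lie.chevE6, 0), (Cfsg.Lie.chevE7, 0), (Cfsg.Lie.chevB2, 2), (Cfsg.Lie.chevD4, 2)]) (hK : Fintype.card K ≠ e.2) :
    Cfsg.HasCyclicSchurMultiplier (e.1.SteinbergGroup K) 1 := by
  have hq2 : 2 ≤ Fintype.card K := Fintype.one_lt_card
  simp only [List.mem_cons, List.not_mem_nil, or_false] at he
  rcases he with rfl | rfl | rfl | rfl
  · have hD : chevE6 ∈ [chevG2, chevB2, chevD4, chevF4, chevE6, chevE7, chevE8] := by simp
    have hK' := not_small (F := K) chevE6 (by decide +kernel) (by decide +kernel)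
    have hM : ∀ i j : Fin chevE6.rank, TabE6.good5.cm i j = CoxeterMatrix.E₆ i j :=
      (by set_option backward.isDefEq.respectTransparency false in decide +kernel)
    have hfin := SchT.st_finite TabE6.good5 (K := K) CoxeterMatrix.E₆ hM
    obtain ⟨e, -⟩ := Cfsg.Agent.S2397.result chevE6 hD hK'
    refine schur_one_of_lift e.toMonoidHom e.surjective (fun y hy => (map_eq_one_iff e e.injective).mp hy) ?_
    intro Γ _ _ σ hσ
    obtain ⟨φ, hφ⟩ := st_split TabE6.good5 TabE6.schData TabE6.ctData TabE6.schF _ hM σ hσ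
    exact ⟨φ.comp e.toMonoidHom, by rw [← MonoidHom.comp_assoc, hφ]; rfl⟩
  · have hD : chevE7 ∈ [chevG2, chevB2, chevD4, chevF4, chevE6, chevE7, chevE8] := by simp
    have hK' := not_small (F := K) chevE7 (by decide +kernel) (by decide +kernel)
    have hM : ∀ i j : Fin chevE7.rank, TabE7.good5.cm i j = CoxeterMatrix.E₇ i j :=
      (by set_option backward.isDefEq.respectTransparency false in decide +kernel)
    have hfin := SchT.st_finite TabE7.good5 (K := K) CoxeterMatrix.E₇ hM
    obtain ⟨e, -⟩ := Cfsg.Agent.S2397.result chevE7 hD hK'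
    refine schur_one_of_lift e.toMonoidHom e.surjective (fun y hy => (map_eq_one_iff e e.injective).mp hy) ?_
    intro Γ _ _ σ hσ
    obtain ⟨φ, hφ⟩ := st_split TabE7.good5 TabE7.schData TabE7.ctData TabE7.schF _ hM σ hσ
    exact ⟨φ.comp e.toMonoidHom, by rw [← MonoidHom.comp_assoc, hφ]; rfl⟩
  · have hq : 3 ≤ Fintype.card K := by
      have : Fintype.card K ≠ 2 := hK
      omega
    have hD : chevB2 ∈ [chevG2, chevB2, chevD4, chevF4, chevE6, chevE7, chevE8] := by simp
    have hK' : chevB2 ∈ [chevB2, chevG2] → ∃ x : K, x ≠ 0 ∧ x ≠ 1 := fun _ => exists_big hq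
    have hM : ∀ i j : Fin chevB2.rank, TabB2.good5.cm i j = (CoxeterMatrix.B 2) i j :=
      (by set_option backward.isDefEq.respectTransparency false in decide +kernel)
    have hfin := SchT.st_finite TabB2.good5 (K := K) (CoxeterMatrix.B 2) hM
    obtain ⟨e, -⟩ := Cfsg.Agent.S2397.result chevB2 hD hK'
    have hperf := Cfsg.Agent.S2395.result chevB2 hD hK'
    refine schur_one_of_lift e.toMonoidHom e.surjective (fun y hy => (map_eq_one_iff e e.injective).mp hy) ?_
    intro Γ _ _ σ hσ
    have huniq : ∃! τ : chevB2.SteinbergCover K →* Γ, σ.comp τ = e.toMonoidHom := by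
      by_cases h3 : Fintype.card K = 3
      · obtain ⟨h1, h2, h4⟩ := card3_facts h3
        exact universal_B2_3 h1 h2 h4 hperf hσ.1 hσ.2.1
      · by_cases h4 : Fintype.card K = 4
        · refine universal_B2_4 ⟨Finset.univ, ?_⟩ (card4_two h4) hperf hσ.1 hσ.2.1
          rw [Finset.card_univ]
          omega
        · refine Cfsg.Agent.S2398.result ⟨Finset.univ, ?_⟩ chevB2 hD σ hσ.1 hσ.2.1 _
          rw [Finset.card_univ]
          omega
    exact huniq.exists
  · have hq : 3 ≤ Fintype.card K := by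
      have : Fintype.card K ≠ 2 := hK
      omega
    have hD : chevD4 ∈ [chevG2, chevB2, chevD4, chevF4, chevE6, chevE7, chevE8] := by simp
    have hK' : chevD4 ∈ [chevB2, chevG2] → ∃ x : K, x ≠ 0 ∧ x ≠ 1 := fun _ => exists_big hq
    have hM : ∀ i j : Fin chevD4.rank, TabD4.good5.cm i j = Cfsg.Lie.coxeterD4 i j :=
      (by set_option backward.isDefEq.respectTransparency false in decide +kernel)
    have hfin := SchT.st_finite TabD4.good5 (K := K) Cfsg.Lie.coxeterD4 hM
    obtain ⟨e, -⟩ := Cfsg.Agent.S2397.result chevD4 hD hK'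
    have hperf := Cfsg.Agent.S2395.result chevD4 hD hK'
    refine schur_one_of_lift e.toMonoidHom e.surjective (fun y hy => (map_eq_one_iff e e.injective).mp hy) ?_
    intro Γ _ _ σ hσ
    have huniq : ∃! τ : chevD4.SteinbergCover K →* Γ, σ.comp τ = e.toMonoidHom := by
      by_cases h3 : Fintype.card K = 3
      · obtain ⟨h1, h2, h4⟩ := card3_facts h3
        exact universal_3 TabD4.good5 h1 h2 h4 sumD4 Cfsg.Agent.S2398.parD4 swD4 sep3D4 hperf hσ.1 hσ.2.1
      · refine universal_ge4 TabD4.good5 ⟨Finset.univ, ?_⟩ sumD4 Cfsg.Agent.S2398.parD4 sep2D4 hperf hσ.1 hσ.2.1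
        rw [Finset.card_univ]
        omega
    exact huniq.exists

end Cfsg.Agent.S2400
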