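import Cfsg.Statements.S2403
import Cfsg.Agent.Lib.Known.SteinbergGen

set_option autoImplicit false
open Cfsg

namespace Cfsg.Agent.S2403

open Cfsg.Agent.Lib.Known

/-- Explicit two-element generation of `PSL_{n+1}(K)` over the fields with two or three elements: with `x = 1 + E₁₂` and `w` the monomial matrix with entries `1` in positions `(i, i+1)` and `(−1)^n` in position `(n+1, 1)`, the elements `x` and `w` generate `SL_{n+1}(K)` modulo its centre. -/
theorem result {K : Type*} [Field K] [Fintype K] (hK : Fintype.card K ≤ 3) (n : ℕ) (hn : 1 ≤ n)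
    (x w : Matrix.SpecialLinearGroup (Fin (n + 1)) K)
    (hx : (x : Matrix (Fin (n + 1)) (Fin (n + 1)) K) = Matrix.transvection (0 : Fin (n + 1)) (1 : Fin (n + 1)) 1)
    (hw : (w : Matrix (Fin (n + 1)) (Fin (n + 1)) K) =
      Matrix.of (fun i j => if j.val = i.val + 1 then 1 else if i.val = n ∧ j.val = 0 then (-1) ^ n else 0)) :
    Subgroup.closure ({x, w} : Set (Matrix.SpecialLinearGroup (Fin (n + 1)) K)) ⊔
      Subgroup.center (Matrix.SpecialLinearGroup (Fin (n + 1)) K) = ⊤ := by
  classical
  have h01 : (0 : Fin (n + 1)) ≠ 1 := zero_ne_one_fin hn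
  have hX : x = Matrix.SpecialLinearGroup.transvection h01 1 := Subtype.ext hx
  have hW := isW_of hn w hw
  have hK3 : ∀ t : K, t = 0 ∨ t = 1 ∨ t = -1 := by
    intro t
    by_contra hcon
    push Not at hcon
    obtain ⟨h0, h1, h3⟩ := hcon
    have hsub : ({0, 1, t} : Finset K) = Finset.univ := by
      apply Finset.eq_univ_of_card
      have : ({0, 1, t} : Finset K).card = 3 := by
        rw [Finset.card_eq_three]
        exact ⟨0, 1, t, zero_ne_one, h0.symm, h1.symm, rfl⟩
      have h5 := Finset.card_le_univ ({0, 1, t} : Finset K)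
      omega
    have hm : (1 + t) ∈ ({0, 1, t} : Finset K) := by
      rw [hsub]
      exact Finset.mem_univ _
    simp only [Finset.mem_insert, Finset.mem_singleton] at hm
    rcases hm with hm | hm | hm
    · exact h3 (by linear_combination hm)
    · exact h0 (by linear_combination hm)
    · exact one_ne_zero (α := K) (by linear_combination hm)
  have hxA : x ∈ Subgroup.closure ({x, w} : Set (Matrix.SpecialLinearGroup (Fin (n + 1)) K)) :=
    Subgroup.subset_closure (by simp)
  have hwA : w ∈ Subgroup.closure ({x, w} : Set (Matrix.SpecialLinearGroup (Fin (n + 1)) K)) :=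
    Subgroup.subset_closure (by simp)
  have hc := eq_top_of_w_root hn _ w hW hwA h01 (fun t => by
    rcases hK3 t with rfl | rfl | rfl
    · rw [Matrix.SpecialLinearGroup.transvection_coeff_zero]
      exact one_mem _
    · rw [← hX]
      exact hxA
    · rw [← Matrix.SpecialLinearGroup.transvection_inv, ← hX]
      exact inv_mem hxA)
  rw [hc, top_sup_eq]

end Cfsg.Agent.S2403
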