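import Cfsg.Statements.S2409
import Cfsg.Agent.Lib.Ree.Gal

set_option autoImplicit false
open Cfsg

namespace Cfsg.Agent.S2409


namespace RDX

open Cfsg.Agent.Lib.Ree Cfsg.Agent.Lib.Ree.RD

variable {K : Type*} [Field K] [CharP K 3] {f : K ≃+* K} {G : Type*} [Group G] (R : RD K f G)

include R in
theorem two_gen [Fintype K] {m : ℕ} (hm : 1 ≤ m) (hK : Fintype.card K = 3 ^ (2 * m + 1))
    (hsq : ∀ u : Kˣ, (∃ v, u = v * v) ∨ (∃ v, u = -1 * (v * v))) :
    ∃ a b : G, Subgroup.closure ({a, b} : Set G) = ⊤ := by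
  have hf3 := R.hf3
  obtain ⟨ω, hω⟩ := IsCyclic.exists_generator (α := Kˣ)
  refine ⟨R.h ω, R.t 1 0 0 * R.n, ?_⟩
  set L := Subgroup.closure ({R.h ω, R.t 1 0 0 * R.n} : Set G) with hL
  have ha : R.h ω ∈ L := Subgroup.subset_closure (by simp)
  have hb : R.t 1 0 0 * R.n ∈ L := Subgroup.subset_closure (by simp)
  have hH : ∀ s, R.h s ∈ L := by
    intro s
    obtain ⟨k, rfl⟩ := Subgroup.mem_zpowers_iff.mp (hω s)
    rw [map_zpow]
    exact L.zpow_mem ha k
  -- an element with nonzero first coordinate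
  obtain ⟨y, hy⟩ := c1_surj hf3 (Units.mk0 (-1 : K) (by simp))
  have hy' : ((c1 f y : Kˣ) : K) = -1 := by rw [hy, Units.val_mk0]
  have hv : ∀ s : Kˣ, ∃ b c, R.t (((c1 f s : Kˣ) : K) - 1) b c ∈ L := by
    intro s
    have e1 : R.h s * ((R.t 1 0 0 * R.n) * R.h s * (R.t 1 0 0 * R.n)⁻¹) ∈ L :=
      L.mul_mem (hH s) (L.mul_mem (L.mul_mem hb (hH s)) (L.inv_mem hb))
    have e2 : R.h s * ((R.t 1 0 0 * R.n) * R.h s * (R.t 1 0 0 * R.n)⁻¹) = R.h s * R.t 1 0 0 * (R.h s)⁻¹ * (R.t 1 0 0)⁻¹ := by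
      have e3 : R.n * R.h s * R.n⁻¹ = (R.h s)⁻¹ := by
        rw [R.n_h, map_inv]
      calc R.h s * ((R.t 1 0 0 * R.n) * R.h s * (R.t 1 0 0 * R.n)⁻¹)
          = R.h s * R.t 1 0 0 * (R.n * R.h s * R.n⁻¹) * (R.t 1 0 0)⁻¹ := by group
        _ = _ := by rw [e3]
    rw [e2, R.h_t', R.t_inv, R.t_mul] at e1
    have key : ∀ {x y z a : K}, R.t x y z ∈ L → x = a → ∃ b c, R.t a b c ∈ L := by
      rintro x y z a h rfl
      exact ⟨y, z, h⟩
    exact key e1 (by ring)
  -- the action of the torus on L ∩ U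
  have hconj : ∀ (s : Kˣ) {x : G}, x ∈ L → R.h s * x * (R.h s)⁻¹ ∈ L := fun s x hx =>
    L.mul_mem (L.mul_mem (hH s) hx) (L.inv_mem (hH s))
  have hne1 : ∃ s₀ : Kˣ, ((c1 f s₀ : Kˣ) : K) - 1 ≠ 0 := by
    refine ⟨y, ?_⟩
    rw [hy']
    intro h
    have h2 : (3 : K) = 0 := three_eq
    have h3 : (1 : K) = 0 := by linear_combination h2 + h
    have h4 := two_ne (K := K)
    exact h4 (by linear_combination -h)
  obtain ⟨s₀, hs₀⟩ := hne1
  have hfst : ∀ a : K, ∃ b c, R.t a b c ∈ L := by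
    intro a
    by_cases ha0 : a = 0
    · subst ha0
      exact ⟨0, 0, by rw [R.t_zero]; exact L.one_mem⟩
    · obtain ⟨b₀, c₀, h₀⟩ := hv s₀
      have hu : a / (((c1 f s₀ : Kˣ) : K) - 1) ≠ 0 := div_ne_zero ha0 hs₀
      obtain ⟨s, hs⟩ := c1_surj hf3 (Units.mk0 _ hu)
      have e := hconj s h₀
      rw [R.h_t', hs, Units.val_mk0] at e
      have e2 : a / (((c1 f s₀ : Kˣ) : K) - 1) * (((c1 f s₀ : Kˣ) : K) - 1) = a := div_mul_cancel₀ _ hs₀
      rw [e2] at e
      exact ⟨_, _, e⟩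
  -- the centre
  have hZ₀ : ∃ c₀ : K, c₀ ≠ 0 ∧ R.t 0 0 c₀ ∈ L := by
    obtain ⟨b, c, h⟩ := hfst 1
    have h2 := L.pow_mem h 3
    rw [R.t_cube] at h2
    refine ⟨_, ?_, h2⟩
    simp
  obtain ⟨c₀, hc₀, hc₀L⟩ := hZ₀
  have hZ : ∀ c : K, R.t 0 0 c ∈ L := by
    intro c
    by_cases hc : c = 0
    · subst hc
      rw [R.t_zero]
      exact L.one_mem
    · have hu : c / c₀ ≠ 0 := div_ne_zero hc hc₀
      obtain ⟨w, hw⟩ := tau_surj hf3 (c / c₀)
      have hw0 : w ≠ 0 := by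
        rintro rfl
        exact hu (by rw [← hw, tau_zero])
      have e := hconj (Units.mk0 w hw0) hc₀L
      rw [R.h_t] at e
      simp only [Units.val_mk0, mul_zero] at e
      have e2 : f w ^ 3 * c₀ = c := by
        have : f w ^ 3 = c / c₀ := hw
        rw [this]
        field_simp
      rw [e2] at e
      exact e
  -- the middle
  obtain ⟨a₁, ha₁⟩ := exists_tau_ne hf3 hm hK
  have hM₀ : ∃ b₀ : K, b₀ ≠ 0 ∧ R.t 0 b₀ 0 ∈ L := by
    obtain ⟨b, c, h⟩ := hfst 1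
    obtain ⟨b', c', h'⟩ := hfst a₁
    have e1 := L.mul_mem (L.mul_mem h h') (L.inv_mem (L.mul_mem h' h))
    rw [R.t_mul, R.t_mul, R.t_inv, R.t_mul] at e1
    have e3 : ∃ c'', R.t 0 (tau f a₁ * (-1) + a₁) c'' ∈ L := by
      have key : ∀ {x y z a b : K}, R.t x y z ∈ L → x = a → y = b → ∃ c, R.t a b c ∈ L := by
        rintro x y z a b h rfl rfl
        exact ⟨z, h⟩
      refine key e1 (by ring) ?_
      have e5 : ∀ x : K, f (-x) ^ 3 = -(f x) ^ 3 := fun x => by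
        rw [map_neg]
        exact Odd.neg_pow (by decide) _
      have e6 : (1 : K) + a₁ = a₁ + 1 := add_comm _ _
      simp only [tau, e5, e6, map_one, one_pow]
      ring
    obtain ⟨c'', h3⟩ := e3
    refine ⟨tau f a₁ * (-1) + a₁, ?_, ?_⟩
    · intro h4
      apply ha₁
      linear_combination -h4
    · have e4 := L.mul_mem h3 (hZ (-c''))
      rw [R.t_mul] at e4
      simpa using e4
  obtain ⟨b₀, hb₀, hb₀L⟩ := hM₀
  have hsc : ∀ v : Kˣ, R.t 0 ((v : K) * (v : K) * b₀) 0 ∈ L := by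
    intro v
    have hv0 : (v : K) ≠ 0 := v.ne_zero
    have hτ0 : tau f (v : K) ≠ 0 := tau_ne_zero f hv0
    have hy0 : tau f (v : K) * (v : K)⁻¹ ≠ 0 := mul_ne_zero hτ0 (inv_ne_zero hv0)
    obtain ⟨s, hs⟩ := c1_surj hf3 (Units.mk0 _ hy0)
    have e := hconj s hb₀L
    rw [R.h_t', hs, Units.val_mk0, mul_zero, mul_zero] at e
    have e2 : tau f (v : K) * (v : K)⁻¹ * tau f (tau f (v : K) * (v : K)⁻¹) = (v : K) * (v : K) := by
      rw [tau_mul, tau_inv, tau_tau hf3]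
      field_simp
    rw [e2] at e
    exact e
  have hneg : ∀ b : K, R.t 0 b 0 ∈ L → R.t 0 (-b) 0 ∈ L := by
    intro b h
    have := L.inv_mem h
    rw [R.t_inv] at this
    simpa using this
  have hM : ∀ b : K, R.t 0 b 0 ∈ L := by
    intro b
    by_cases hb : b = 0
    · subst hb
      rw [R.t_zero]
      exact L.one_mem
    · have hu : b / b₀ ≠ 0 := div_ne_zero hb hb₀
      rcases hsq (Units.mk0 _ hu) with ⟨v, hv⟩ | ⟨v, hv⟩
      · have e := congrArg Units.val hv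
        simp only [Units.val_mk0, Units.val_mul] at e
        have e2 : (v : K) * (v : K) * b₀ = b := by
          rw [← e]
          field_simp
        have := hsc v
        rwa [e2] at this
      · have e := congrArg Units.val hv
        simp only [Units.val_mk0, Units.val_mul, Units.val_neg, Units.val_one] at e
        have e2 : -((v : K) * (v : K) * b₀) = b := by
          have : (v : K) * (v : K) = -(b / b₀) := by
            rw [e]
            ring
          rw [this]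
          field_simp
        have := hneg _ (hsc v)
        rwa [e2] at this
  have hU : ∀ a b c : K, R.t a b c ∈ L := by
    intro a b c
    obtain ⟨b', c', h⟩ := hfst a
    have e := L.mul_mem (L.mul_mem h (hM (b - b'))) (hZ (c - c'))
    rw [R.t_mul, R.t_mul] at e
    convert e using 2
    · ring
    · simp
    · simp
  have hn : R.n ∈ L := by
    have := L.mul_mem (L.inv_mem (hU 1 0 0)) hb
    simpa using this
  rw [eq_top_iff]
  intro g _
  rcases R.bruhat g with ⟨a, b, c, s, rfl⟩ | ⟨a, b, c, a', b', c', s, rfl⟩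
  · exact L.mul_mem (hU _ _ _) (hH _)
  · exact L.mul_mem (L.mul_mem (hU _ _ _) hn) (L.mul_mem (hU _ _ _) (hH _))

end RDX


/-- The small Ree group ²G₂(3^(2m+1)) with `m ≥ 1` is generated by two of its elements. -/
theorem result {K : Type*} [Field K] [Fintype K] {m : ℕ} (hm : 1 ≤ m) (hK : Fintype.card K = 3 ^ (2 * m + 1)) :
    ∃ a b : ↥(Cfsg.Lie.twistedG2 K (3 ^ m)), Subgroup.closure ({a, b} : Set ↥(Cfsg.Lie.twistedG2 K (3 ^ m))) = ⊤ := by
  open Cfsg.Agent.Lib.Chev Cfsg.Agent.Lib.Chev.TwG2 Cfsg.Agent.Lib.Ree in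
  have h3 : Nat.Prime 3 := Nat.prime_three
  have hn : 2 * m + 1 ≠ 0 := by omega
  have := charP_of_card h3 hn hK
  obtain ⟨f, hf⟩ := frobP h3 hn hK m
  have hf3 := frob_sq hK f hf
  have hc : ringChar K ≠ 2 := by
    rw [ringChar.eq K 3]
    norm_num
  have hsq := sq_or_neg hK hc
  rw [← AA_eq f hf3 hf]
  exact RDX.two_gen (rd f hf3 hsq) hm hK hsq

end Cfsg.Agent.S2409
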