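import Cfsg.Statements.S2410
import Cfsg.Agent.Lib.Suzuki.TwoGen

set_option autoImplicit false
open Cfsg

namespace Cfsg.Agent.S2410




/-- The Suzuki group over the field with `2^(2m+1)` elements, `m ≥ 1` (realised as the stabiliser in `SL₄` of the Suzuki–Tits ovoid), is generated by two of its elements. -/
theorem result {F : Type*} [Field F] [Fintype F] {m : ℕ} (hm : 1 ≤ m) (hF : Fintype.card F = 2 ^ (2 * m + 1)) :
    ∃ a b : ↥(Cfsg.Sz F m), Subgroup.closure ({a, b} : Set ↥(Cfsg.Sz F m)) = ⊤ := by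
---PRE
  exact Cfsg.Agent.Lib.Suzuki.two_gen hF hm

end Cfsg.Agent.S2410
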