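import Cfsg.Statements.S2411
import Cfsg.Agent.Lib.Known.PSpGen

set_option autoImplicit false
open Cfsg

namespace Cfsg.Agent.S2411

/-- The projective symplectic group `PSp_{2m}(q)` with `m ≥ 2` (and `q > 2` if `m = 2`) is generated by two of its elements. -/
theorem result {F : Type*} [Field F] [Fintype F] (m : ℕ) (hm : 2 ≤ m) (hF : m = 2 → 2 < Fintype.card F) :
    ∃ a b : Cfsg.PSp m F, Subgroup.closure ({a, b} : Set (Cfsg.PSp m F)) = ⊤ := by
  classical
  obtain ⟨a, b, hab⟩ := Cfsg.Agent.Lib.Known.Sp3.two_gen (F := F) hm hF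
  refine ⟨QuotientGroup.mk' _ a, QuotientGroup.mk' _ b, ?_⟩
  have h1 : ({QuotientGroup.mk' (Subgroup.center (Matrix.symplecticGroup (Fin m) F)) a,
      QuotientGroup.mk' (Subgroup.center (Matrix.symplecticGroup (Fin m) F)) b} : Set (Cfsg.PSp m F)) =
      QuotientGroup.mk' (Subgroup.center (Matrix.symplecticGroup (Fin m) F)) '' ({a, b} : Set (Matrix.symplecticGroup (Fin m) F)) := by
    rw [Set.image_pair]
  rw [h1, ← MonoidHom.map_closure, hab]
  exact Subgroup.map_top_of_surjective _ (QuotientGroup.mk'_surjective _)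

end Cfsg.Agent.S2411
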