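import Cfsg.Statements.S2416
import Cfsg.Agent.Lib.Chev.Sub.GenPM
import Cfsg.Prelude.Def_ChevAutomorphisms
-- import your own Cfsg.Agent.* helpers here

set_option autoImplicit false
open scoped MatrixGroups
open Cfsg

namespace Cfsg.Agent.S2416

set_option maxRecDepth 100000 in
set_option synthInstance.maxSize 1000 in
set_option synthInstance.maxHeartbeats 200000 in
set_option backward.isDefEq.respectTransparency false in
theorem chk_D4 : ∀ i, i < Cfsg.Lie.chevD4.rank → ∀ d ∈ Cfsg.Agent.Lib.Chev.TabD4.good2.dom,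
      d = Cfsg.Agent.Lib.Chev.climbW Cfsg.Agent.Lib.Chev.TabD4.good2.W Cfsg.Lie.chevD4.rank 60 (Cfsg.Lie.chevD4.simple i) := by
  decide +kernel

set_option maxRecDepth 100000 in
set_option synthInstance.maxSize 1000 in
set_option synthInstance.maxHeartbeats 200000 in
set_option backward.isDefEq.respectTransparency false in
theorem chk_E6 : ∀ i, i < Cfsg.Lie.chevE6.rank → ∀ d ∈ Cfsg.Agent.Lib.Chev.TabE6.good2.dom,
      d = Cfsg.Agent.Lib.Chev.climbW Cfsg.Agent.Lib.Chev.TabE6.good2.W Cfsg.Lie.chevE6.rank 60 (Cfsg.Lie.chevE6.simple i) := by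
  decide +kernel

set_option maxRecDepth 100000 in
set_option synthInstance.maxSize 1000 in
set_option synthInstance.maxHeartbeats 200000 in
set_option backward.isDefEq.respectTransparency false in
theorem chk_E7 : ∀ i, i < Cfsg.Lie.chevE7.rank → ∀ d ∈ Cfsg.Agent.Lib.Chev.TabE7.good2.dom,
      d = Cfsg.Agent.Lib.Chev.climbW Cfsg.Agent.Lib.Chev.TabE7.good2.W Cfsg.Lie.chevE7.rank 60 (Cfsg.Lie.chevE7.simple i) := by
  decide +kernel

set_option maxRecDepth 100000 in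
set_option synthInstance.maxSize 1000 in
set_option synthInstance.maxHeartbeats 200000 in
set_option backward.isDefEq.respectTransparency false in
theorem chk_E8 : ∀ i, i < Cfsg.Lie.chevE8.rank → ∀ d ∈ Cfsg.Agent.Lib.Chev.TabE8.good2.dom,
      d = Cfsg.Agent.Lib.Chev.climbW Cfsg.Agent.Lib.Chev.TabE8.good2.W Cfsg.Lie.chevE8.rank 60 (Cfsg.Lie.chevE8.simple i) := by
  decide +kernel

set_option maxRecDepth 100000 in
set_option synthInstance.maxSize 1000 in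
set_option synthInstance.maxHeartbeats 200000 in
set_option backward.isDefEq.respectTransparency false in
theorem chk_B2 : ∀ i, i < Cfsg.Lie.chevB2.rank → Cfsg.Lie.chevB2.isLong (Cfsg.Lie.chevB2.simple i) = false →
    Cfsg.Agent.Lib.Chev.climbW Cfsg.Agent.Lib.Chev.TabB2.good2.W Cfsg.Lie.chevB2.rank 60 1 = Cfsg.Agent.Lib.Chev.climbW Cfsg.Agent.Lib.Chev.TabB2.good2.W Cfsg.Lie.chevB2.rank 60 (Cfsg.Lie.chevB2.simple i) ∧
    Cfsg.Agent.Lib.Chev.climbW Cfsg.Agent.Lib.Chev.TabB2.good2.W Cfsg.Lie.chevB2.rank 60 2 = Cfsg.Agent.Lib.Chev.climbW Cfsg.Agent.Lib.Chev.TabB2.good2.W Cfsg.Lie.chevB2.rank 60 (Cfsg.Lie.chevB2.simple i) ∧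
    ∀ d ∈ Cfsg.Agent.Lib.Chev.TabB2.good2.dom,
      d = Cfsg.Agent.Lib.Chev.climbW Cfsg.Agent.Lib.Chev.TabB2.good2.W Cfsg.Lie.chevB2.rank 60 (Cfsg.Lie.chevB2.simple i) ∨
      d = Cfsg.Agent.Lib.Chev.climbW Cfsg.Agent.Lib.Chev.TabB2.good2.W Cfsg.Lie.chevB2.rank 60 0 := by
  decide +kernel

theorem comm_B2 : Cfsg.Lie.chevB2.commTerms 1 2 = [(0, 2, 1, 1)] ∧ 1 < Cfsg.Lie.chevB2.nroots ∧ 2 < Cfsg.Lie.chevB2.nroots ∧ 0 < Cfsg.Lie.chevB2.nroots ∧ 2 ≠ Cfsg.Lie.chevB2.neg 1 := by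
  decide +kernel

set_option maxRecDepth 100000 in
set_option synthInstance.maxSize 1000 in
set_option synthInstance.maxHeartbeats 200000 in
set_option backward.isDefEq.respectTransparency false in
theorem chk_G2 : ∀ i, i < Cfsg.Lie.chevG2.rank → Cfsg.Lie.chevG2.isLong (Cfsg.Lie.chevG2.simple i) = false →
    Cfsg.Agent.Lib.Chev.climbW Cfsg.Agent.Lib.Chev.TabG2.good2.W Cfsg.Lie.chevG2.rank 60 2 = Cfsg.Agent.Lib.Chev.climbW Cfsg.Agent.Lib.Chev.TabG2.good2.W Cfsg.Lie.chevG2.rank 60 (Cfsg.Lie.chevG2.simple i) ∧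
    Cfsg.Agent.Lib.Chev.climbW Cfsg.Agent.Lib.Chev.TabG2.good2.W Cfsg.Lie.chevG2.rank 60 3 = Cfsg.Agent.Lib.Chev.climbW Cfsg.Agent.Lib.Chev.TabG2.good2.W Cfsg.Lie.chevG2.rank 60 (Cfsg.Lie.chevG2.simple i) ∧
    ∀ d ∈ Cfsg.Agent.Lib.Chev.TabG2.good2.dom,
      d = Cfsg.Agent.Lib.Chev.climbW Cfsg.Agent.Lib.Chev.TabG2.good2.W Cfsg.Lie.chevG2.rank 60 (Cfsg.Lie.chevG2.simple i) ∨
      d = Cfsg.Agent.Lib.Chev.climbW Cfsg.Agent.Lib.Chev.TabG2.good2.W Cfsg.Lie.chevG2.rank 60 0 := by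
  decide +kernel

theorem comm_G2 : Cfsg.Lie.chevG2.commTerms 2 3 = [(0, 3, 1, 1)] ∧ 2 < Cfsg.Lie.chevG2.nroots ∧ 3 < Cfsg.Lie.chevG2.nroots ∧ 0 < Cfsg.Lie.chevG2.nroots ∧ 3 ≠ Cfsg.Lie.chevG2.neg 2 := by
  decide +kernel

set_option maxRecDepth 100000 in
set_option synthInstance.maxSize 1000 in
set_option synthInstance.maxHeartbeats 200000 in
set_option backward.isDefEq.respectTransparency false in
theorem chk_F4 : ∀ i, i < Cfsg.Lie.chevF4.rank → Cfsg.Lie.chevF4.isLong (Cfsg.Lie.chevF4.simple i) = false →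
    Cfsg.Agent.Lib.Chev.climbW Cfsg.Agent.Lib.Chev.TabF4.good2.W Cfsg.Lie.chevF4.rank 60 3 = Cfsg.Agent.Lib.Chev.climbW Cfsg.Agent.Lib.Chev.TabF4.good2.W Cfsg.Lie.chevF4.rank 60 (Cfsg.Lie.chevF4.simple i) ∧
    Cfsg.Agent.Lib.Chev.climbW Cfsg.Agent.Lib.Chev.TabF4.good2.W Cfsg.Lie.chevF4.rank 60 18 = Cfsg.Agent.Lib.Chev.climbW Cfsg.Agent.Lib.Chev.TabF4.good2.W Cfsg.Lie.chevF4.rank 60 (Cfsg.Lie.chevF4.simple i) ∧
    ∀ d ∈ Cfsg.Agent.Lib.Chev.TabF4.good2.dom,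
      d = Cfsg.Agent.Lib.Chev.climbW Cfsg.Agent.Lib.Chev.TabF4.good2.W Cfsg.Lie.chevF4.rank 60 (Cfsg.Lie.chevF4.simple i) ∨
      d = Cfsg.Agent.Lib.Chev.climbW Cfsg.Agent.Lib.Chev.TabF4.good2.W Cfsg.Lie.chevF4.rank 60 0 := by
  decide +kernel

theorem comm_F4 : Cfsg.Lie.chevF4.commTerms 3 18 = [(0, 2, 1, 1)] ∧ 3 < Cfsg.Lie.chevF4.nroots ∧ 18 < Cfsg.Lie.chevF4.nroots ∧ 0 < Cfsg.Lie.chevF4.nroots ∧ 18 ≠ Cfsg.Lie.chevF4.neg 3 := by
  decide +kernel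

theorem two_ne {K : Type*} [Field K] (h : ringChar K ≠ 2) : (((2 : ℤ) : K)) ≠ 0 := by
  have := Ring.two_ne_zero h
  simpa using this

theorem three_ne {K : Type*} [Field K] (h : ringChar K ≠ 3) : (((3 : ℤ) : K)) ≠ 0 := by
  intro h0
  have h1 : ((3 : ℕ) : K) = 0 := by simpa using h0
  have h2 := (CharP.cast_eq_zero_iff K (ringChar K) 3).mp h1
  rcases (Nat.dvd_prime Nat.prime_three).mp h2 with h3 | h3
  · exact CharP.ringChar_ne_one h3
  · exact h h3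


/-- A Chevalley group of type G₂, B₂, D₄, F₄, E₆, E₇ or E₈ over a finite field lies in (indeed equals) the subgroup generated by its monomial subgroup `N` and a single fundamental root subgroup `X_p`, where `p` is a short fundamental root if there are two root lengths (any fundamental root otherwise), provided the characteristic is not 2 for types B₂, F₄ and not 3 for type G₂ (and the field has more than two elements for B₂, G₂). -/
theorem result {K : Type*} [Field K] [Finite K] (D : Cfsg.Lie.ChevalleyDatum) (hD : D ∈ [Cfsg.Lie.chevG2, Cfsg.Lie.chevB2, Cfsg.Lie.chevD4, Cfsg.Lie.chevF4, Cfsg.Lie.chevE6, Cfsg.Lie.chevE7, Cfsg.Lie.chevE8])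
    (hK : D ∈ [Cfsg.Lie.chevB2, Cfsg.Lie.chevG2] → ∃ x : K, x ≠ 0 ∧ x ≠ 1)
    (h2 : D ∈ [Cfsg.Lie.chevB2, Cfsg.Lie.chevF4] → ringChar K ≠ 2) (h3 : D = Cfsg.Lie.chevG2 → ringChar K ≠ 3)
    (i : ℕ) (hi : i < D.rank) (hshort : D.isLong (D.simple i) = false) :
    D.group K ≤ D.monomialSubgroup K ⊔ D.rootSubgroup K (D.simple i) := by
  simp only [List.mem_cons, List.not_mem_nil, or_false] at hD
  rcases hD with rfl | rfl | rfl | rfl | rfl | rfl | rfl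
  · obtain ⟨e1, e2, e3, e4, e5⟩ := comm_G2
    obtain ⟨c1, c2, c3⟩ := chk_G2 i hi hshort
    exact Cfsg.Agent.Lib.Chev.gen_short Cfsg.Agent.Lib.Chev.TabG2.good2 hi e2 e3 (by decide) e5 (three_ne (h3 rfl)) e1 e4 60 c1 c2 c3
  · obtain ⟨e1, e2, e3, e4, e5⟩ := comm_B2
    obtain ⟨c1, c2, c3⟩ := chk_B2 i hi hshort
    exact Cfsg.Agent.Lib.Chev.gen_short Cfsg.Agent.Lib.Chev.TabB2.good2 hi e2 e3 (by decide) e5 (two_ne (h2 (by simp))) e1 e4 60 c1 c2 c3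
  · exact Cfsg.Agent.Lib.Chev.gen_one Cfsg.Agent.Lib.Chev.TabD4.good2 hi 60 (chk_D4 i hi)
  · obtain ⟨e1, e2, e3, e4, e5⟩ := comm_F4
    obtain ⟨c1, c2, c3⟩ := chk_F4 i hi hshort
    exact Cfsg.Agent.Lib.Chev.gen_short Cfsg.Agent.Lib.Chev.TabF4.good2 hi e2 e3 (by decide) e5 (two_ne (h2 (by simp))) e1 e4 60 c1 c2 c3
  · exact Cfsg.Agent.Lib.Chev.gen_one Cfsg.Agent.Lib.Chev.TabE6.good2 hi 60 (chk_E6 i hi)
  · exact Cfsg.Agent.Lib.Chev.gen_one Cfsg.Agent.Lib.Chev.TabE7.good2 hi 60 (chk_E7 i hi)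
  · exact Cfsg.Agent.Lib.Chev.gen_one Cfsg.Agent.Lib.Chev.TabE8.good2 hi 60 (chk_E8 i hi)

end Cfsg.Agent.S2416
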