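import Cfsg.Statements.S2418
import Cfsg.Agent.Lib.CT.WZ
import Cfsg.Agent.Lib.Chev.Tab.G2d
import Cfsg.Agent.Lib.Chev.Tab.B2d
import Cfsg.Agent.Lib.Chev.Tab.D4d
import Cfsg.Agent.Lib.Chev.Tab.F4d
import Cfsg.Agent.Lib.Chev.Tab.E6d
import Cfsg.Agent.Lib.Chev.Tab.E7d
import Cfsg.Agent.Lib.Chev.Tab.E8d
-- import your own Cfsg.Agent.* helpers here

set_option autoImplicit false
open Cfsg

namespace Cfsg.Agent.S2418

open Cfsg.Agent.Lib.Chev Cfsg.Agent.Lib.CT

set_option maxHeartbeats 4000000

/-- For the Coxeter groups of types B₂, G₂, D₄, F₄, E₇, E₈ the centre has order 2 (the element acting as −1 on the root system) and is generated by a power of the Coxeter element `s₁ s₂ ⋯ s_l`; the Coxeter group of type E₆ has trivial centre. -/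
theorem result (c : (Σ n : ℕ, CoxeterMatrix (Fin n)) × ℕ)
    (hc : c ∈ [(⟨2, CoxeterMatrix.B 2⟩, 2), (⟨2, CoxeterMatrix.G₂⟩, 2), (⟨4, Cfsg.Lie.coxeterD4⟩, 2), (⟨4, CoxeterMatrix.F₄⟩, 2),
      (⟨6, CoxeterMatrix.E₆⟩, 1), (⟨7, CoxeterMatrix.E₇⟩, 2), (⟨8, CoxeterMatrix.E₈⟩, 2)]) :
    Nat.card (Subgroup.center c.1.2.Group) = c.2 ∧
      Subgroup.center c.1.2.Group ≤ Subgroup.zpowers ((List.finRange c.1.1).map c.1.2.simple).prod := by
  simp only [List.mem_cons, List.not_mem_nil, or_false] at hc
  rcases hc with rfl | rfl | rfl | rfl | rfl | rfl | rfl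
  · exact center_two TabB2.good4 (CoxeterMatrix.B 2)
      (by set_option backward.isDefEq.respectTransparency false in decide +kernel) (r0 := 7) (r1 := 6) (by decide +kernel) (by decide +kernel) (by decide +kernel) 2 (by decide +kernel)
  · exact center_two TabG2.good4 CoxeterMatrix.G₂
      (by set_option backward.isDefEq.respectTransparency false in decide +kernel) (r0 := 11) (r1 := 9) (by decide +kernel) (by decide +kernel) (by decide +kernel) 3 (by decide +kernel)
  · exact center_two TabD4.good4 Cfsg.Lie.coxeterD4
      (by set_option backward.isDefEq.respectTransparency false in decide +kernel) (r0 := 23) (r1 := 23) (by decide +kernel) (by decide +kernel) (by decide +kernel) 3 (by decide +kernel)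
  · exact center_two TabF4.good4 CoxeterMatrix.F₄
      (by set_option backward.isDefEq.respectTransparency false in decide +kernel) (r0 := 47) (r1 := 44) (by decide +kernel) (by decide +kernel) (by decide +kernel) 6 (by decide +kernel)
  · exact center_one TabE6.good4 CoxeterMatrix.E₆
      (by set_option backward.isDefEq.respectTransparency false in decide +kernel) (r0 := 71) (r1 := 71) (by decide +kernel) (by decide +kernel) (by decide +kernel) ⟨56, by decide +kernel⟩ (by decide +kernel)
  · exact center_two TabE7.good4 CoxeterMatrix.E₇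
      (by set_option backward.isDefEq.respectTransparency false in decide +kernel) (r0 := 125) (r1 := 125) (by decide +kernel) (by decide +kernel) (by decide +kernel) 9 (by decide +kernel)
  · exact center_two TabE8.good4 CoxeterMatrix.E₈
      (by set_option backward.isDefEq.respectTransparency false in decide +kernel) (r0 := 239) (r1 := 239) (by decide +kernel) (by decide +kernel) (by decide +kernel) 15 (by decide +kernel)

end Cfsg.Agent.S2418
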