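import Cfsg.Statements.S2427
import Cfsg.Agent.Lib.Known.SL23

set_option autoImplicit false
open Cfsg

namespace Cfsg.Agent.S2427

open Cfsg.Agent.Lib.Known

/-- The group SL₂ over the field with 3 elements has order 24 and centre of order 2; its commutator subgroup has order 8, is isomorphic to the quaternion group of order 8 and is complemented by every Sylow 3-subgroup (so the group is a semidirect product of a quaternion group of order 8 by a cyclic group of order 3); and its only normal subgroups besides the trivial subgroup and the whole group are the centre and the commutator subgroup. -/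
theorem result :
    Nat.card (Matrix.SpecialLinearGroup (Fin 2) (ZMod 3)) = 24 ∧
    Nat.card (Subgroup.center (Matrix.SpecialLinearGroup (Fin 2) (ZMod 3))) = 2 ∧
    Nat.card (commutator (Matrix.SpecialLinearGroup (Fin 2) (ZMod 3))) = 8 ∧
    Nonempty (commutator (Matrix.SpecialLinearGroup (Fin 2) (ZMod 3)) ≃* QuaternionGroup 2) ∧
    (∀ P : Sylow 3 (Matrix.SpecialLinearGroup (Fin 2) (ZMod 3)),
      Subgroup.IsComplement' (commutator (Matrix.SpecialLinearGroup (Fin 2) (ZMod 3)))
        (P : Subgroup (Matrix.SpecialLinearGroup (Fin 2) (ZMod 3)))) ∧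
    ∀ N : Subgroup (Matrix.SpecialLinearGroup (Fin 2) (ZMod 3)), N.Normal →
      N = ⊥ ∨ N = ⊤ ∨ N = Subgroup.center (Matrix.SpecialLinearGroup (Fin 2) (ZMod 3)) ∨
        N = commutator (Matrix.SpecialLinearGroup (Fin 2) (ZMod 3)) := by
  have hc : commutator (Matrix.SpecialLinearGroup (Fin 2) (ZMod 3)) = SL23.Q := SL23.commutator_eq_Q
  refine ⟨?_, SL23.card_center, ?_, ?_, ?_, ?_⟩
  · rw [Nat.card_eq_fintype_card]; exact SL23.card_G3
  · rw [hc]; exact SL23.card_Q
  · rw [hc]; exact ⟨SL23.qEquiv.symm⟩
  · intro P
    have hfact : (24 : ℕ).factorization 3 = 1 := by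
      rw [Nat.factorization_def _ Nat.prime_three]
      rw [show (24 : ℕ) = 3 ^ 1 * 8 by norm_num]
      haveI : Fact (Nat.Prime 3) := ⟨Nat.prime_three⟩
      rw [padicValNat.mul (by norm_num) (by norm_num), padicValNat.prime_pow, padicValNat.eq_zero_of_not_dvd (by norm_num)]
    have hcard : Nat.card (Matrix.SpecialLinearGroup (Fin 2) (ZMod 3)) = 24 := by
      rw [Nat.card_eq_fintype_card]; exact SL23.card_G3
    have hP : Nat.card (P : Subgroup (Matrix.SpecialLinearGroup (Fin 2) (ZMod 3))) = 3 := by
      rw [Sylow.card_eq_multiplicity, hcard, hfact, pow_one]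
    rw [hc]
    apply Subgroup.isComplement'_of_coprime
    · rw [SL23.card_Q, hP]
      exact hcard.symm
    · rw [SL23.card_Q, hP]
      decide
  · intro N hN
    rcases SL23.normal_cases N hN with h | h | h | h
    · exact Or.inl h
    · exact Or.inr (Or.inl h)
    · exact Or.inr (Or.inr (Or.inl h))
    · exact Or.inr (Or.inr (Or.inr (h.trans hc.symm)))

end Cfsg.Agent.S2427
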