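import Cfsg.Statements.S2428
import Cfsg.Agent.Lib.Known.Tori

set_option autoImplicit false
open Cfsg

namespace Cfsg.Agent.S2428

open Cfsg.Agent.Lib.Known

/-- Let F be a finite field with q elements, q odd, and let d be a diagonal element of SL₂ over F whose diagonal entry a has a² ≠ 1 (such d exist exactly when q > 3). Then the centraliser of d is precisely the diagonal subgroup T; the normaliser of T has order 2(q − 1) and exactly (q + 5)/2 conjugacy classes; and every element of that normaliser outside T has square equal to −1. -/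
theorem result {F : Type*} [Field F] [Fintype F] (hodd : Odd (Fintype.card F))
    (d : Matrix.SpecialLinearGroup (Fin 2) F) (hd01 : (d : Matrix (Fin 2) (Fin 2) F) 0 1 = 0) (hd10 : (d : Matrix (Fin 2) (Fin 2) F) 1 0 = 0) (hda : (d : Matrix (Fin 2) (Fin 2) F) 0 0 ^ 2 ≠ 1) :
    (∀ g : Matrix.SpecialLinearGroup (Fin 2) F, g ∈ Subgroup.centralizer ({d} : Set (Matrix.SpecialLinearGroup (Fin 2) F)) ↔ ((g : Matrix (Fin 2) (Fin 2) F) 0 1 = 0 ∧ (g : Matrix (Fin 2) (Fin 2) F) 1 0 = 0)) ∧
    Nat.card (Subgroup.normalizer ((Subgroup.centralizer ({d} : Set (Matrix.SpecialLinearGroup (Fin 2) F))) : Set (Matrix.SpecialLinearGroup (Fin 2) F))) = 2 * (Fintype.card F - 1) ∧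
    Nat.card (ConjClasses (Subgroup.normalizer ((Subgroup.centralizer ({d} : Set (Matrix.SpecialLinearGroup (Fin 2) F))) : Set (Matrix.SpecialLinearGroup (Fin 2) F)))) = (Fintype.card F + 5) / 2 ∧
    ∀ g : Matrix.SpecialLinearGroup (Fin 2) F, g ∈ Subgroup.normalizer ((Subgroup.centralizer ({d} : Set (Matrix.SpecialLinearGroup (Fin 2) F))) : Set (Matrix.SpecialLinearGroup (Fin 2) F)) →
      g ∉ Subgroup.centralizer ({d} : Set (Matrix.SpecialLinearGroup (Fin 2) F)) → ((g * g) : Matrix (Fin 2) (Fin 2) F) = -1 := by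
  classical
  have h2 : (2 : F) ≠ 0 := two_ne_zero_of_odd hodd
  have hd : d ∈ sl2Diag F := ⟨hd01, hd10⟩
  have hc := centralizer_eq_sl2Diag hd hda
  have D := torusData_sl2Diag h2 hd hda
  rw [hc]
  refine ⟨fun g => mem_sl2Diag, ?_, ?_, ?_⟩
  · rw [D.card_normalizer, card_sl2Diag]
  · have := D.two_mul_card_conjClasses
    rw [card_sl2Diag] at this
    have h3 : 2 ≤ Fintype.card F := Fintype.one_lt_card
    set k := Nat.card (ConjClasses (Subgroup.normalizer ((sl2Diag F : Subgroup (SL2 F)) : Set (SL2 F)))) with hk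
    omega
  · intro y hy hy'
    have := D.outside_sq hy hy'
    rw [← sl2_mul_coe, this, sl2M1_coe]

end Cfsg.Agent.S2428
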