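import Cfsg.Statements.S2429
import Cfsg.Agent.Lib.Known.Tori

set_option autoImplicit false
open Cfsg

namespace Cfsg.Agent.S2429

open Cfsg.Agent.Lib.Known

/-- Let F be a finite field with q elements, q odd. Then SL₂ over F contains a cyclic subgroup T′ of order q + 1 (a non-split torus) with the following properties: T′ is its own centraliser, and indeed the centraliser of each element of T′ other than 1 and −1 is exactly T′; every element of SL₂ having no eigenvector in F² is conjugate to an element of T′; the normaliser of T′ has order 2(q + 1) and exactly (q + 7)/2 conjugacy classes; and every element of that normaliser outside T′ has square −1. -/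
theorem result {F : Type*} [Field F] [Fintype F] (hodd : Odd (Fintype.card F)) :
    ∃ T' : Subgroup (Matrix.SpecialLinearGroup (Fin 2) F), IsCyclic T' ∧ Nat.card T' = Fintype.card F + 1 ∧
      Subgroup.centralizer ((T' : Set (Matrix.SpecialLinearGroup (Fin 2) F))) = T' ∧
      (∀ g : Matrix.SpecialLinearGroup (Fin 2) F, g ∈ T' → (g : Matrix (Fin 2) (Fin 2) F) ≠ 1 → (g : Matrix (Fin 2) (Fin 2) F) ≠ -1 → Subgroup.centralizer ({g} : Set (Matrix.SpecialLinearGroup (Fin 2) F)) = T') ∧
      (∀ g : Matrix.SpecialLinearGroup (Fin 2) F, (∀ (c : F) (v : Fin 2 → F), v ≠ 0 → (g : Matrix (Fin 2) (Fin 2) F).mulVec v ≠ c • v) → ∃ h : Matrix.SpecialLinearGroup (Fin 2) F, h * g * h⁻¹ ∈ T') ∧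
      Nat.card (Subgroup.normalizer (T' : Set (Matrix.SpecialLinearGroup (Fin 2) F))) = 2 * (Fintype.card F + 1) ∧
      Nat.card (ConjClasses (Subgroup.normalizer (T' : Set (Matrix.SpecialLinearGroup (Fin 2) F)))) = (Fintype.card F + 7) / 2 ∧
      ∀ g : Matrix.SpecialLinearGroup (Fin 2) F, g ∈ Subgroup.normalizer (T' : Set (Matrix.SpecialLinearGroup (Fin 2) F)) → g ∉ T' → ((g * g) : Matrix (Fin 2) (Fin 2) F) = -1 := by
  classical
  have h2 : (2 : F) ≠ 0 := two_ne_zero_of_odd hodd
  obtain ⟨g, hg⟩ := exists_sl2NoEig (F := F)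
  obtain ⟨w, hw⟩ := exists_inverting hg
  have D := torusData_noEig h2 hg hw
  have hg1 : g ∈ Subgroup.centralizer ({g} : Set (SL2 F)) := by
    rw [Subgroup.mem_centralizer_singleton_iff]
  have hns : ∀ c : SL2 F, c ∈ Subgroup.centralizer ({g} : Set (SL2 F)) →
      (c : Matrix (Fin 2) (Fin 2) F) ≠ 1 → (c : Matrix (Fin 2) (Fin 2) F) ≠ -1 → ¬ m2Scalar (c : Matrix (Fin 2) (Fin 2) F) := by
    intro c hc h1 h3 hs
    rcases sq_one_of_mem_centralizer hg hc (sl2_scalar_sq hs) with h4 | h4
    · exact h1 (by rw [h4]; rfl)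
    · exact h3 h4
  refine ⟨Subgroup.centralizer ({g} : Set (SL2 F)), isCyclic_centralizer_noEig hg, card_centralizer_noEig hg, ?_, ?_, ?_, ?_, ?_, ?_⟩
  · ext x
    constructor
    · intro hx
      rw [Subgroup.mem_centralizer_iff] at hx
      have := hx g hg1
      rw [Subgroup.mem_centralizer_singleton_iff]
      exact this.symm
    · intro hx
      rw [Subgroup.mem_centralizer_iff]
      intro y hy
      exact centralizer_comm hg hy hx
  · intro c hc h1 h3
    exact centralizer_eq_of_mem hg hc (hns c hc h1 h3)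
  · intro h hh
    exact exists_conj_mem_centralizer hg hh
  · rw [D.card_normalizer, card_centralizer_noEig hg]
  · have := D.two_mul_card_conjClasses
    rw [card_centralizer_noEig hg] at this
    set k := Nat.card (ConjClasses (Subgroup.normalizer ((Subgroup.centralizer ({g} : Set (SL2 F)) : Subgroup (SL2 F)) : Set (SL2 F)))) with hk
    omega
  · intro y hy hy'
    have := D.outside_sq hy hy'
    rw [← sl2_mul_coe, this, sl2M1_coe]

end Cfsg.Agent.S2429
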