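import Cfsg.Statements.S2430
import Cfsg.Agent.Lib.Known.SylowSL2

set_option autoImplicit false
open Cfsg

namespace Cfsg.Agent.S2430

open Cfsg.Agent.Lib.Known

/-- Let F be a finite field with q elements, q odd, ℓ an odd prime, and P a Sylow ℓ-subgroup of SL₂ over F. If ℓ divides q − 1, the centraliser of P is cyclic of order q − 1 (a split torus) and the normaliser of P has order 2(q − 1); if ℓ divides q + 1, the centraliser of P is cyclic of order q + 1 (a non-split torus) and the normaliser of P has order 2(q + 1). -/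
theorem result {F : Type*} [Field F] [Fintype F] (hodd : Odd (Fintype.card F)) (ℓ : ℕ) [Fact ℓ.Prime] (hℓ : ℓ ≠ 2)
    (P : Sylow ℓ (Matrix.SpecialLinearGroup (Fin 2) F)) :
    (ℓ ∣ Fintype.card F - 1 →
      Nat.card (Subgroup.centralizer ((P : Subgroup (Matrix.SpecialLinearGroup (Fin 2) F)) : Set (Matrix.SpecialLinearGroup (Fin 2) F))) = Fintype.card F - 1 ∧
      IsCyclic (Subgroup.centralizer ((P : Subgroup (Matrix.SpecialLinearGroup (Fin 2) F)) : Set (Matrix.SpecialLinearGroup (Fin 2) F))) ∧
      Nat.card (Subgroup.normalizer ((P : Subgroup (Matrix.SpecialLinearGroup (Fin 2) F)) : Set (Matrix.SpecialLinearGroup (Fin 2) F))) = 2 * (Fintype.card F - 1)) ∧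
    (ℓ ∣ Fintype.card F + 1 →
      Nat.card (Subgroup.centralizer ((P : Subgroup (Matrix.SpecialLinearGroup (Fin 2) F)) : Set (Matrix.SpecialLinearGroup (Fin 2) F))) = Fintype.card F + 1 ∧
      IsCyclic (Subgroup.centralizer ((P : Subgroup (Matrix.SpecialLinearGroup (Fin 2) F)) : Set (Matrix.SpecialLinearGroup (Fin 2) F))) ∧
      Nat.card (Subgroup.normalizer ((P : Subgroup (Matrix.SpecialLinearGroup (Fin 2) F)) : Set (Matrix.SpecialLinearGroup (Fin 2) F))) = 2 * (Fintype.card F + 1)) := by
  classical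
  have h2 := two_ne_zero_of_odd hodd
  have hp : ℓ.Prime := Fact.out
  constructor
  · intro hdvd
    obtain ⟨g, h1, h3⟩ := sylow_split_struct hodd ℓ hℓ hdvd P
    rw [h1, h3]
    -- an element of order `ℓ` in the torus
    have hcard : ℓ ∣ Nat.card (sl2Diag F) := by rw [card_sl2Diag]; exact hdvd
    obtain ⟨x, hx⟩ := exists_prime_orderOf_dvd_card' ℓ hcard
    have hx' : orderOf (x : SL2 F) = ℓ ^ 1 := by
      rw [pow_one, ← hx]
      exact Subgroup.orderOf_coe x
    have hne : ((x : SL2 F) : Matrix (Fin 2) (Fin 2) F) 0 0 ^ 2 ≠ 1 := by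
      intro ha
      have := eq_one_of_sq_of_odd_prime_pow hp hℓ (sl2Diag_sq_eq_one x.2 ha) hx'
      rw [this, orderOf_one, pow_one] at hx'
      exact hp.one_lt.ne hx'
    have D := torusData_sl2Diag h2 x.2 hne
    refine ⟨?_, ?_, ?_⟩
    · rw [← Nat.card_congr (Subgroup.equivMapOfInjective _ _ (MulAut.conj g).injective).toEquiv, card_sl2Diag]
    · haveI := isCyclic_sl2Diag (F := F)
      exact isCyclic_of_surjective _ (Subgroup.equivMapOfInjective _ _ (MulAut.conj g).injective).surjective
    · rw [← Nat.card_congr (Subgroup.equivMapOfInjective _ _ (MulAut.conj g).injective).toEquiv, D.card_normalizer, card_sl2Diag]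
  · intro hdvd
    obtain ⟨g₀, hg₀⟩ := exists_sl2NoEig (F := F)
    obtain ⟨g, h1, h3⟩ := sylow_nonsplit_struct ℓ hℓ hdvd hg₀ P
    rw [h1, h3]
    obtain ⟨w, hw⟩ := exists_inverting hg₀
    have D := torusData_noEig h2 hg₀ hw
    refine ⟨?_, ?_, ?_⟩
    · rw [← Nat.card_congr (Subgroup.equivMapOfInjective _ _ (MulAut.conj g).injective).toEquiv, card_centralizer_noEig hg₀]
    · haveI := isCyclic_centralizer_noEig hg₀
      exact isCyclic_of_surjective _ (Subgroup.equivMapOfInjective _ _ (MulAut.conj g).injective).surjective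
    · rw [← Nat.card_congr (Subgroup.equivMapOfInjective _ _ (MulAut.conj g).injective).toEquiv, D.card_normalizer, card_centralizer_noEig hg₀]

end Cfsg.Agent.S2430
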