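import Cfsg.Statements.S2431
import Cfsg.Agent.Lib.Known.Quat

set_option autoImplicit false
open Cfsg

namespace Cfsg.Agent.S2431

open Cfsg.Agent.Lib.Known

/-- Let F be a finite field with q elements, q odd, and S a Sylow 2-subgroup of SL₂ over F. The centraliser of S is the centre of SL₂ (of order 2); S is its own normaliser when q ≡ ±1 mod 8, and has index 3 in its normaliser when q ≡ ±3 mod 8. -/
theorem result {F : Type*} [Field F] [Fintype F] (hodd : Odd (Fintype.card F)) (S : Sylow 2 (Matrix.SpecialLinearGroup (Fin 2) F)) :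
    Subgroup.centralizer ((S : Subgroup (Matrix.SpecialLinearGroup (Fin 2) F)) : Set (Matrix.SpecialLinearGroup (Fin 2) F)) = Subgroup.center (Matrix.SpecialLinearGroup (Fin 2) F) ∧
    ((Fintype.card F % 8 = 1 ∨ Fintype.card F % 8 = 7) →
      Subgroup.normalizer ((S : Subgroup (Matrix.SpecialLinearGroup (Fin 2) F)) : Set (Matrix.SpecialLinearGroup (Fin 2) F)) = (S : Subgroup (Matrix.SpecialLinearGroup (Fin 2) F))) ∧
    ((Fintype.card F % 8 = 3 ∨ Fintype.card F % 8 = 5) →
      Nat.card (Subgroup.normalizer ((S : Subgroup (Matrix.SpecialLinearGroup (Fin 2) F)) : Set (Matrix.SpecialLinearGroup (Fin 2) F))) = 3 * Nat.card S) := by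
  classical
  have h2 := two_ne_zero_of_odd hodd
  have hzc : ∀ g : SL2 F, g * sl2M1 F = sl2M1 F * g := fun g => (sl2M1_comm g).symm
  have hq : Fintype.card F % 2 = 1 := Nat.odd_iff.mp hodd
  have hcase : Fintype.card F % 4 = 1 ∨ Fintype.card F % 4 = 3 := by omega
  rcases hcase with h1 | h3
  · -- the split torus
    obtain ⟨k, hk⟩ : ∃ k, Fintype.card F = 4 * k + 1 := ⟨Fintype.card F / 4, by omega⟩
    have hcard : Nat.card (sl2Diag F) = 4 * k := by
      rw [card_sl2Diag, hk]
      simp
    have h4 : 4 ∣ Nat.card (sl2Diag F) := by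
      rw [hcard]
      exact dvd_mul_right _ _
    -- an element with `a² ≠ 1`
    haveI hcyc : IsCyclic (sl2Diag F) := isCyclic_sl2Diag
    obtain ⟨d, hd⟩ := IsCyclic.exists_ofOrder_eq_natCard (α := sl2Diag F)
    have hd2 : ((d : SL2 F) : Matrix (Fin 2) (Fin 2) F) 0 0 ^ 2 ≠ 1 := by
      intro ha
      have h5 := sl2Diag_sq_eq_one d.2 ha
      have h6 : orderOf d ∣ 2 := by
        apply orderOf_dvd_of_pow_eq_one
        apply Subtype.ext
        rw [pow_two]
        exact h5
      rw [hd] at h6
      have := h4.trans h6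
      omega
    have D := torusData_sl2Diag h2 d.2 hd2
    have hreg : ∀ x ∈ sl2Diag F, x * x ≠ 1 → Subgroup.centralizer ({x} : Set (SL2 F)) = sl2Diag F := by
      intro x hx hxx
      apply centralizer_eq_sl2Diag hx
      intro ha
      exact hxx (sl2Diag_sq_eq_one hx ha)
    have hG : Nat.card (SL2 F) = 2 * Nat.card (sl2Diag F) * ((4 * k + 1) * (2 * k + 1)) := by
      rw [card_sl2, hcard, hk]
      have : (4 * k + 1) ^ 2 - 1 = 4 * k * (4 * k + 2) := by
        apply Nat.sub_eq_of_eq_add
        ring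
      rw [this]
      ring
    have hr : Odd ((4 * k + 1) * (2 * k + 1)) := by
      apply Odd.mul
      · exact ⟨2 * k, by ring⟩
      · exact ⟨k, rfl⟩
    have main := sylow_two_of_torus D hzc hcyc h4 _ hr hG hreg S
    refine ⟨main.1, ?_, ?_⟩
    · intro h8
      apply main.2.1
      rw [hcard]
      omega
    · intro h8
      apply main.2.2
      · rw [hcard]
        omega
      · intro y hyT hy
        exact sl2_quat h2 hy D.w_sq (D.inv y hyT)
  · -- the non-split torus
    obtain ⟨k, hk⟩ : ∃ k, Fintype.card F = 4 * k + 3 := ⟨Fintype.card F / 4, by omega⟩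
    obtain ⟨g₀, hg₀⟩ := exists_sl2NoEig (F := F)
    obtain ⟨w, hw⟩ := exists_inverting hg₀
    have D := torusData_noEig h2 hg₀ hw
    have hcard : Nat.card (Subgroup.centralizer ({g₀} : Set (SL2 F))) = 4 * (k + 1) := by
      rw [card_centralizer_noEig hg₀, hk]
      ring
    have h4 : 4 ∣ Nat.card (Subgroup.centralizer ({g₀} : Set (SL2 F))) := by
      rw [hcard]
      exact dvd_mul_right _ _
    have hreg : ∀ x ∈ Subgroup.centralizer ({g₀} : Set (SL2 F)), x * x ≠ 1 →
        Subgroup.centralizer ({x} : Set (SL2 F)) = Subgroup.centralizer ({g₀} : Set (SL2 F)) := by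
      intro x hx hxx
      apply centralizer_eq_of_mem hg₀ hx
      intro hs
      exact hxx (sl2_scalar_sq hs)
    have hG : Nat.card (SL2 F) = 2 * Nat.card (Subgroup.centralizer ({g₀} : Set (SL2 F))) * ((4 * k + 3) * (2 * k + 1)) := by
      rw [card_sl2, hcard, hk]
      have : (4 * k + 3) ^ 2 - 1 = (4 * k + 2) * (4 * k + 4) := by
        apply Nat.sub_eq_of_eq_add
        ring
      rw [this]
      ring
    have hr : Odd ((4 * k + 3) * (2 * k + 1)) := by
      apply Odd.mul
      · exact ⟨2 * k + 1, by ring⟩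
      · exact ⟨k, rfl⟩
    have main := sylow_two_of_torus D hzc (isCyclic_centralizer_noEig hg₀) h4 _ hr hG hreg S
    refine ⟨main.1, ?_, ?_⟩
    · intro h8
      apply main.2.1
      rw [hcard]
      omega
    · intro h8
      apply main.2.2
      · rw [hcard]
        omega
      · intro y hyT hy
        exact sl2_quat h2 hy D.w_sq (D.inv y hyT)

end Cfsg.Agent.S2431
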