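import Cfsg.Statements.S2433
import Cfsg.Agent.Lib.Known.IndReps

set_option autoImplicit false
open Cfsg

namespace Cfsg.Agent.S2433

open Cfsg.Agent.Lib.Known

/-- Let F be a finite field with q elements, q odd, and for a multiplicative character α of F let R(α) be the function on SL₂ induced from the linear character b ↦ α(b₁₁) of the upper triangular subgroup. Then R(α) takes the value α(a) + α(a⁻¹) at a diagonal element with entries a, a⁻¹, a² ≠ 1; the value 0 at every element with no eigenvector in F²; the value α(ε) at an upper triangular element with both diagonal entries ε and non-zero upper right entry; and the value (q + 1)α(ε) at the scalar element ε (ε = ±1). -/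
theorem result {F : Type*} [Field F] [Fintype F] [DecidableEq F] (hodd : Odd (Fintype.card F)) (α : MulChar F ℂ) (g : Matrix.SpecialLinearGroup (Fin 2) F) :
    ((g : Matrix (Fin 2) (Fin 2) F) 0 1 = 0 → (g : Matrix (Fin 2) (Fin 2) F) 1 0 = 0 → (g : Matrix (Fin 2) (Fin 2) F) 0 0 ^ 2 ≠ 1 →
      (Cfsg.indFun ((Cfsg.upperTriangularGL 2 F).comap Matrix.SpecialLinearGroup.toGL) (fun b => α (((b : Matrix.SpecialLinearGroup (Fin 2) F) : Matrix (Fin 2) (Fin 2) F) 0 0))) g = α ((g : Matrix (Fin 2) (Fin 2) F) 0 0) + α ((g : Matrix (Fin 2) (Fin 2) F) 1 1)) ∧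
    ((∀ (c : F) (v : Fin 2 → F), v ≠ 0 → (g : Matrix (Fin 2) (Fin 2) F).mulVec v ≠ c • v) → (Cfsg.indFun ((Cfsg.upperTriangularGL 2 F).comap Matrix.SpecialLinearGroup.toGL) (fun b => α (((b : Matrix.SpecialLinearGroup (Fin 2) F) : Matrix (Fin 2) (Fin 2) F) 0 0))) g = 0) ∧
    ((g : Matrix (Fin 2) (Fin 2) F) 1 0 = 0 → (g : Matrix (Fin 2) (Fin 2) F) 0 0 = (g : Matrix (Fin 2) (Fin 2) F) 1 1 → (g : Matrix (Fin 2) (Fin 2) F) 0 1 ≠ 0 →
      (Cfsg.indFun ((Cfsg.upperTriangularGL 2 F).comap Matrix.SpecialLinearGroup.toGL) (fun b => α (((b : Matrix.SpecialLinearGroup (Fin 2) F) : Matrix (Fin 2) (Fin 2) F) 0 0))) g = α ((g : Matrix (Fin 2) (Fin 2) F) 0 0)) ∧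
    ((g : Matrix (Fin 2) (Fin 2) F) 0 1 = 0 → (g : Matrix (Fin 2) (Fin 2) F) 1 0 = 0 → (g : Matrix (Fin 2) (Fin 2) F) 0 0 = (g : Matrix (Fin 2) (Fin 2) F) 1 1 →
      (Cfsg.indFun ((Cfsg.upperTriangularGL 2 F).comap Matrix.SpecialLinearGroup.toGL) (fun b => α (((b : Matrix.SpecialLinearGroup (Fin 2) F) : Matrix (Fin 2) (Fin 2) F) 0 0))) g = ((Fintype.card F : ℂ) + 1) * α ((g : Matrix (Fin 2) (Fin 2) F) 0 0)) := by
  classical
  have key := indFun_sl2_apply α g
  have hd := sl2_det g
  rw [key]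
  rw [Fintype.sum_option]
  set a := (g : Matrix (Fin 2) (Fin 2) F) 0 0 with ha
  set b := (g : Matrix (Fin 2) (Fin 2) F) 0 1 with hb
  set c := (g : Matrix (Fin 2) (Fin 2) F) 1 0 with hc
  set d := (g : Matrix (Fin 2) (Fin 2) F) 1 1 with hd'
  refine ⟨?_, ?_, ?_, ?_⟩
  · intro h01 h10 hne
    have had : a ≠ d := by
      intro h
      apply hne
      rw [h01, h10] at hd
      rw [pow_two]
      nth_rewrite 2 [h]
      linear_combination hd
    have hfix : ∀ t : F, sl2Fix g (some t) ↔ t = 0 := by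
      intro t
      simp only [sl2Fix, ← ha, ← hb, ← hc, ← hd', h01, h10, zero_mul, zero_add, sub_zero]
      simp [sub_ne_zero.mpr (Ne.symm had)]
    simp only [hfix]
    rw [if_pos (by simp [sl2Fix, ← hc, h10]), Finset.sum_ite_eq' Finset.univ (0 : F)]
    simp [sl2Val, ← hc, ← hd', ← ha, h10]
  · intro hno
    have hg10 : c ≠ 0 := by
      intro h10
      apply hno a ![1, 0]
      · intro h
        have := congrFun h 0
        simp at this
      · funext i
        fin_cases i <;> simp [Matrix.mulVec, dotProduct, Fin.sum_univ_two, ← hc, h10, ← ha, ← hb, ← hd']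
    rw [if_neg (by simpa [sl2Fix] using hg10)]
    have hroot : ∀ t : F, ¬ sl2Fix g (some t) := by
      intro t hroot
      simp only [sl2Fix, ← ha, ← hb, ← hc, ← hd'] at hroot
      apply hno (c * t + d) ![t, 1]
      · intro h
        have := congrFun h 1
        simp at this
      · funext i
        fin_cases i
        · simp [Matrix.mulVec, dotProduct, Fin.sum_univ_two, ← ha, ← hb, ← hc, ← hd']
          linear_combination -hroot
        · simp [Matrix.mulVec, dotProduct, Fin.sum_univ_two, ← ha, ← hb, ← hc, ← hd']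
    simp [hroot]
  · intro h10 h00 h01
    rw [if_pos (by simp [sl2Fix, ← hc, h10])]
    have hroot : ∀ t : F, ¬ sl2Fix g (some t) := by
      intro t hroot
      simp only [sl2Fix, ← ha, ← hb, ← hc, ← hd', h10, h00] at hroot
      apply h01
      linear_combination -hroot
    simp [hroot, sl2Val, ← ha]
  · intro h01 h10 h00
    rw [if_pos (by simp [sl2Fix, ← hc, h10])]
    have hroot : ∀ t : F, sl2Fix g (some t) := by
      intro t
      simp only [sl2Fix, ← ha, ← hb, ← hc, ← hd', h10, h00, h01]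
      ring
    simp only [hroot, if_true]
    simp [sl2Val, ← ha, ← hc, ← hd', h10, h00, Finset.card_univ]
    ring

end Cfsg.Agent.S2433
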