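import Cfsg.Statements.S2434
import Cfsg.Agent.Lib.Known.Discrete8

set_option autoImplicit false
open Cfsg

namespace Cfsg.Agent.S2434

open Cfsg.Agent.Lib.Known Cfsg.Agent.Lib.Char

/-- Let F be a finite field with q elements, q odd, and C a cyclic subgroup of order q + 1 of SL₂ over F (a non-split torus; it contains the centre). For every homomorphism θ from C to the non-zero complex numbers with θ² ≠ 1 there is an irreducible complex character χ of degree q − 1 such that χ(c) = −θ(c) − θ(c)⁻¹ for every non-central c in C, χ(zg) = θ(z)χ(g) for central z in C, χ vanishes at diagonal elements with entry a, a² ≠ 1, and χ takes the value −1 at every upper unitriangular element other than 1. Conversely every irreducible character of degree q − 1 has, for some such θ, the values −θ(c) − θ(c)⁻¹ at the non-central elements c of C (for q ≥ 5 these are exactly the cuspidal characters of degree q − 1). -/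
theorem result {F : Type*} [Field F] [Fintype F] (hodd : Odd (Fintype.card F))
    (C : Subgroup (Matrix.SpecialLinearGroup (Fin 2) F)) (hC : IsCyclic C) (hcard : Nat.card C = Fintype.card F + 1) :
    (∀ θ : C →* ℂˣ, (∃ c : C, θ c ^ 2 ≠ 1) →
      ∃ χ : Matrix.SpecialLinearGroup (Fin 2) F → ℂ, Cfsg.IsIrrCharacter (Matrix.SpecialLinearGroup (Fin 2) F) χ ∧ χ 1 = (Fintype.card F : ℂ) - 1 ∧
        (∀ c : C, (c : Matrix.SpecialLinearGroup (Fin 2) F) ∉ Subgroup.center (Matrix.SpecialLinearGroup (Fin 2) F) → χ c = -((θ c).val + (θ c)⁻¹.val)) ∧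
        (∀ c : C, (c : Matrix.SpecialLinearGroup (Fin 2) F) ∈ Subgroup.center (Matrix.SpecialLinearGroup (Fin 2) F) → ∀ g : Matrix.SpecialLinearGroup (Fin 2) F, χ ((c : Matrix.SpecialLinearGroup (Fin 2) F) * g) = (θ c).val * χ g) ∧
        (∀ g : Matrix.SpecialLinearGroup (Fin 2) F, (g : Matrix (Fin 2) (Fin 2) F) 0 1 = 0 → (g : Matrix (Fin 2) (Fin 2) F) 1 0 = 0 → (g : Matrix (Fin 2) (Fin 2) F) 0 0 ^ 2 ≠ 1 → χ g = 0) ∧
        (∀ g : Matrix.SpecialLinearGroup (Fin 2) F, (g : Matrix (Fin 2) (Fin 2) F) 1 0 = 0 → (g : Matrix (Fin 2) (Fin 2) F) 0 0 = 1 → (g : Matrix (Fin 2) (Fin 2) F) 1 1 = 1 → (g : Matrix (Fin 2) (Fin 2) F) 0 1 ≠ 0 → χ g = -1)) ∧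
    (∀ χ : Matrix.SpecialLinearGroup (Fin 2) F → ℂ, Cfsg.IsIrrCharacter (Matrix.SpecialLinearGroup (Fin 2) F) χ → χ 1 = (Fintype.card F : ℂ) - 1 →
      ∃ θ : C →* ℂˣ, (∃ c : C, θ c ^ 2 ≠ 1) ∧
        ∀ c : C, (c : Matrix.SpecialLinearGroup (Fin 2) F) ∉ Subgroup.center (Matrix.SpecialLinearGroup (Fin 2) F) → χ c = -((θ c).val + (θ c)⁻¹.val)) := by
  classical
  obtain ⟨t, hg, rfl⟩ := exists_noEig_of_cyclic C hC hcard
  obtain ⟨D⟩ := exists_SL2OddData (F := F) hodd
  refine ⟨?_, ?_⟩
  · intro θ hθ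
    refine ⟨dsHat hodd θ, isIrr_dsHat hodd hg θ hθ, dsX_one hg _ θ, ?_, ?_, ?_, ?_⟩
    · intro c hc
      have := dsX_regular_T hodd hg (dsL hodd θ) θ c (not_scalar_of_not_central hc)
      rw [dsHat, this, map_inv]
      ring
    · intro c hc h
      rcases central_of_mem_T hodd hg c.2 hc with h1 | h1
      · have hc1 : c = 1 := Subtype.ext h1
        subst hc1
        simp
      · have hc1 : c = m1T t := Subtype.ext h1
        subst hc1
        exact dsX_M1_mul hg (dsL_spec hodd θ) h
    · intro h h01 h10 ha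
      obtain ⟨a, rfl, e⟩ := sl2_diag_eq_borelMk h01 h10
      rw [← e] at ha
      exact dsX_borel_regular hg _ θ a ha 0
    · intro h h10 h00 h11 h01
      rw [sl2U_eq_of_entries h10 h00 h11]
      exact dsX_U hg _ θ h01
  · intro χ hχ hd
    by_cases hq5 : 5 ≤ Fintype.card F
    · obtain ⟨θ, hθ, e⟩ := D.exists_theta_of_mem_C11 hodd hg (D.deg_sub_one hodd hq5 hχ hd)
      refine ⟨θ, hθ, ?_⟩
      intro c hc
      have e' : χ = dsHat hodd θ := e
      rw [e', dsHat, dsX_regular_T hodd hg (dsL hodd θ) θ c (not_scalar_of_not_central hc), map_inv]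
      ring
    · obtain ⟨r, hr⟩ := SL2OddData.odd_eq (F := F) hodd
      have h3 : Fintype.card F = 3 := by omega
      have hr0 : r = 0 := by omega
      haveI := finite_dual hg
      haveI : Fintype (sl2T t →* ℂˣ) := Fintype.ofFinite _
      have hcard' := card_thetaSet hodd hg
      have hne : (thetaSet t).Nonempty := by
        rw [← Finset.card_pos]
        omega
      obtain ⟨θ, hθ⟩ := hne
      have hθ' := mem_thetaSet.mp hθ
      refine ⟨θ, hθ', ?_⟩
      intro c hc
      have hs := not_scalar_of_not_central hc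
      have hc' : sl2NoEig (c : SL2 F) := noEig_of_mem_T hg c.2 hs
      have hX : dsHat hodd θ (c : SL2 F) = 0 :=
        D.C11_noEig_three hodd h3 hc' (χ := ⟨_, isIrr_dsHat hodd hg θ hθ'⟩) (D.dsX_mem_C11 hodd hg (dsL_spec hodd θ) hθ')
      have hX' := dsX_regular_T hodd hg (dsL hodd θ) θ c hs
      have hχ0 : χ (c : SL2 F) = 0 := by
        have hdeg : irrDeg (⟨χ, hχ⟩ : IrrCharacter (SL2 F)) = 2 := by
          rw [irrDeg_eq_iff]
          change χ 1 = _
          rw [hd, h3]
          norm_num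
        rcases D.irrDeg_cases hodd r hr ⟨χ, hχ⟩ with ⟨_, h1⟩ | ⟨_, h1⟩ | ⟨_, h1⟩ | ⟨h1, _⟩ | ⟨h1, _⟩ | ⟨_, h1⟩
        · omega
        · omega
        · omega
        · rcases h1 with h1 | h1
          · have : χ = D.ξ₁ := congrArg Subtype.val h1
            rw [this]
            exact (D.xi_noEig hc').1
          · have : χ = D.ξ₂ := congrArg Subtype.val h1
            rw [this]
            exact (D.xi_noEig hc').2
        · exact D.C11_noEig_three hodd h3 hc' h1
        · omega
      rw [hχ0]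
      unfold dsHat at hX
      rw [hX', map_inv] at hX
      linear_combination -hX

end Cfsg.Agent.S2434
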