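import Cfsg.Statements.S2435
import Cfsg.Agent.Lib.Known.Discrete8

set_option autoImplicit false
open Cfsg

namespace Cfsg.Agent.S2435

open Cfsg.Agent.Lib.Known Cfsg.Agent.Lib.Char

/-- Let F be a finite field with q elements, q odd and q ≥ 5, and χ an irreducible complex character of SL₂ over F. If χ has degree (q + 1)/2, then at a diagonal element with entry a, a² ≠ 1, χ takes the value 1 when a is a square in F and −1 otherwise. If χ has degree (q − 1)/2, then at an element g with no eigenvector in F² (so g has order dividing q + 1), χ takes the value −1 when g raised to the power (q + 1)/2 is the identity and the value 1 otherwise. -/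
theorem result {F : Type*} [Field F] [Fintype F] (hodd : Odd (Fintype.card F)) (hq : 5 ≤ Fintype.card F)
    (χ : Matrix.SpecialLinearGroup (Fin 2) F → ℂ) (hχ : Cfsg.IsIrrCharacter (Matrix.SpecialLinearGroup (Fin 2) F) χ) (g : Matrix.SpecialLinearGroup (Fin 2) F) :
    (χ 1 = (((Fintype.card F + 1) / 2 : ℕ) : ℂ) → (g : Matrix (Fin 2) (Fin 2) F) 0 1 = 0 → (g : Matrix (Fin 2) (Fin 2) F) 1 0 = 0 → (g : Matrix (Fin 2) (Fin 2) F) 0 0 ^ 2 ≠ 1 →
      (IsSquare ((g : Matrix (Fin 2) (Fin 2) F) 0 0) → χ g = 1) ∧ (¬ IsSquare ((g : Matrix (Fin 2) (Fin 2) F) 0 0) → χ g = -1)) ∧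
    (χ 1 = (((Fintype.card F - 1) / 2 : ℕ) : ℂ) → (∀ (c : F) (v : Fin 2 → F), v ≠ 0 → (g : Matrix (Fin 2) (Fin 2) F).mulVec v ≠ c • v) →
      (((g ^ ((Fintype.card F + 1) / 2)) : Matrix (Fin 2) (Fin 2) F) = 1 → χ g = -1) ∧ (((g ^ ((Fintype.card F + 1) / 2)) : Matrix (Fin 2) (Fin 2) F) ≠ 1 → χ g = 1)) := by
  classical
  obtain ⟨D⟩ := exists_SL2OddData (F := F) hodd
  refine ⟨?_, ?_⟩
  · intro hd h01 h10 ha
    obtain ⟨a, rfl, e⟩ := sl2_diag_eq_borelMk h01 h10
    rw [← e] at ha
    rw [← e]
    have hv : χ (sl2BorelMk a 0) = quadC F (a : F) := by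
      rcases D.deg_half_plus hodd hq hχ hd with rfl | rfl
      · exact (D.xi_regular ha).1
      · exact (D.xi_regular ha).2
    rw [hv]
    exact ⟨fun h => quadC_of_isSquare a.ne_zero h, fun h => quadC_of_not_isSquare h⟩
  · intro hd hno
    have hg : sl2NoEig g := hno
    have hv := D.eta_noEig hodd hg (D.deg_half_minus hodd hq hχ hd)
    change χ g = _ at hv
    rw [hv, sgnT_apply]
    have hkey : ((g ^ ((Fintype.card F + 1) / 2) : Matrix.SpecialLinearGroup (Fin 2) F) : Matrix (Fin 2) (Fin 2) F) = 1 ↔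
        (⟨g, by rw [Subgroup.mem_centralizer_singleton_iff]⟩ : sl2T g) ^ ((Fintype.card F + 1) / 2) = 1 := by
      constructor
      · intro h
        apply Subtype.ext
        apply Subtype.ext
        simpa using h
      · intro h
        have h1 := congrArg Subtype.val h
        have h2 : g ^ ((Fintype.card F + 1) / 2) = 1 := by simpa using h1
        rw [h2]
        rfl
    refine ⟨fun h => ?_, fun h => ?_⟩
    · rw [if_pos (hkey.mp h)]
      simp
    · rw [if_neg (fun h' => h (hkey.mpr h'))]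
      simp

end Cfsg.Agent.S2435
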