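import Cfsg.Statements.S2436
import Cfsg.Agent.Lib.Known.McKayN

set_option autoImplicit false
open Cfsg

namespace Cfsg.Agent.S2436

open Cfsg.Agent.Lib.Known Cfsg.Agent.Lib.Char

/-- Let F be a finite field with q elements, q odd, ℓ any prime and S a Sylow ℓ-subgroup of SL₂ over F with normaliser N. Then SL₂ and N have the same number of irreducible complex characters of degree not divisible by ℓ (the McKay equality holds for SL₂ over F at every prime). -/
theorem result {F : Type*} [Field F] [Fintype F] (hodd : Odd (Fintype.card F)) (ℓ : ℕ) [Fact ℓ.Prime] (S : Sylow ℓ (Matrix.SpecialLinearGroup (Fin 2) F)) :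
    Nat.card {χ : Cfsg.IrrCharacter (Matrix.SpecialLinearGroup (Fin 2) F) // ¬ ℓ ∣ Cfsg.charDegree (χ : Matrix.SpecialLinearGroup (Fin 2) F → ℂ)} =
      Nat.card {ψ : Cfsg.IrrCharacter (Subgroup.normalizer ((S : Subgroup (Matrix.SpecialLinearGroup (Fin 2) F)) : Set (Matrix.SpecialLinearGroup (Fin 2) F))) //
        ¬ ℓ ∣ Cfsg.charDegree (ψ : Subgroup.normalizer ((S : Subgroup (Matrix.SpecialLinearGroup (Fin 2) F)) : Set (Matrix.SpecialLinearGroup (Fin 2) F)) → ℂ)} := by
  classical
  have hp : ℓ.Prime := Fact.out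
  obtain ⟨D⟩ := exists_SL2OddData (F := F) hodd
  obtain ⟨r, hr⟩ := SL2OddData.odd_eq hodd
  have hG := D.count_G hodd r hr (fun n => ¬ ℓ ∣ n)
  have hcardG : Nat.card (SL2 F) = (2 * r + 3) * ((2 * r + 2) * (2 * r + 4)) := by
    rw [card_sl2, hr]
    congr 1
    apply Nat.sub_eq_of_eq_add
    ring
  -- elementary divisibility
  have hno1 : ¬ ℓ ∣ 1 := fun h => hp.one_lt.ne' (Nat.dvd_one.mp h)
  have hno2 : ℓ ≠ 2 → ¬ ℓ ∣ 2 := fun h2 h => h2 ((Nat.prime_dvd_prime_iff_eq hp Nat.prime_two).mp h)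
  by_cases h2 : ℓ = 2
  · subst h2
    haveI : Fact (Nat.Prime 2) := ⟨Nat.prime_two⟩
    rw [hG, count_two hodd S]
    have a1 : ¬ 2 ∣ 1 := by omega
    have a2 : ¬ 2 ∣ 2 * r + 3 := by omega
    have a3 : 2 ∣ 2 * r + 4 := by omega
    have a4 : 2 ∣ 2 * r + 2 := by omega
    rw [if_pos a1, if_pos a2, if_neg (not_not.mpr a3), if_neg (not_not.mpr a4)]
    rcases Nat.even_or_odd r with hr2 | hr2
    · have a5 : 2 ∣ r + 2 := by
        obtain ⟨k, hk⟩ := hr2
        omega
      have a6 : ¬ 2 ∣ r + 1 := by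
        obtain ⟨k, hk⟩ := hr2
        omega
      rw [if_neg (not_not.mpr a5), if_pos a6]
    · have a5 : ¬ 2 ∣ r + 2 := by
        obtain ⟨k, hk⟩ := hr2
        omega
      have a6 : 2 ∣ r + 1 := by
        obtain ⟨k, hk⟩ := hr2
        omega
      rw [if_pos a5, if_neg (not_not.mpr a6)]
  by_cases h3 : ℓ ∣ 2 * r + 3
  · -- the characteristic
    have a1 : ¬ ℓ ∣ r + 2 := by
      intro h
      have h4 : ℓ ∣ 2 * r + 3 + 1 := by
        have : 2 * r + 3 + 1 = 2 * (r + 2) := by ring
        rw [this]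
        exact h.mul_left 2
      exact hno1 ((Nat.dvd_add_right h3).mp h4)
    have a2 : ¬ ℓ ∣ 2 * r + 4 := by
      intro h
      have h4 : ℓ ∣ 2 * r + 3 + 1 := h
      exact hno1 ((Nat.dvd_add_right h3).mp h4)
    have a3 : ¬ ℓ ∣ 2 * r + 2 := by
      intro h
      have h4 : ℓ ∣ 2 * r + 2 + 1 := h3
      exact hno1 ((Nat.dvd_add_right h).mp h4)
    have a4 : ¬ ℓ ∣ r + 1 := by
      intro h
      apply a3
      have : 2 * r + 2 = 2 * (r + 1) := by ring
      rw [this]
      exact h.mul_left 2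
    rw [hG, count_char hodd ℓ (by rw [hr]; exact h3) S, hr]
    rw [if_pos hno1, if_neg (not_not.mpr h3), if_pos a1, if_pos a2, if_pos a3, if_pos a4]
    omega
  by_cases h4 : ℓ ∣ r + 1
  · -- dividing `q - 1`
    have h5 : ℓ ∣ 2 * r + 2 := by
      have : 2 * r + 2 = 2 * (r + 1) := by ring
      rw [this]
      exact h4.mul_left 2
    have a1 : ¬ ℓ ∣ r + 2 := fun h => hno1 ((Nat.dvd_add_right h4).mp h)
    have a2 : ¬ ℓ ∣ 2 * r + 4 := by
      intro h
      have h6 : ℓ ∣ 2 * r + 2 + 2 := h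
      exact hno2 h2 ((Nat.dvd_add_right h5).mp h6)
    have hq : ℓ ∣ Fintype.card F - 1 := by
      rw [hr]
      exact h5
    have hc := count_split hodd ℓ h2 hq S
    rw [hG]
    rw [if_pos hno1, if_pos h3, if_pos a1, if_pos a2, if_neg (not_not.mpr h5), if_neg (not_not.mpr h4)]
    rw [hr] at hc
    symm
    apply Nat.eq_of_mul_eq_mul_left two_pos
    exact hc.trans (by ring)
  by_cases h5 : ℓ ∣ r + 2
  · -- dividing `q + 1`
    have h6 : ℓ ∣ 2 * r + 4 := by
      have : 2 * r + 4 = 2 * (r + 2) := by ring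
      rw [this]
      exact h5.mul_left 2
    have a2 : ¬ ℓ ∣ 2 * r + 2 := by
      intro h
      have h7 : ℓ ∣ 2 * r + 2 + 2 := h6
      exact hno2 h2 ((Nat.dvd_add_right h).mp h7)
    have hq : ℓ ∣ Fintype.card F + 1 := by
      rw [hr]
      exact h6
    have hc := count_nonsplit hodd ℓ h2 hq S
    rw [hG]
    rw [if_pos hno1, if_pos h3, if_neg (not_not.mpr h5), if_neg (not_not.mpr h6), if_pos a2, if_pos h4]
    rw [hr] at hc
    symm
    apply Nat.eq_of_mul_eq_mul_left two_pos
    exact hc.trans (by ring)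
  · -- the trivial Sylow subgroup
    have hnd : ¬ ℓ ∣ Nat.card (SL2 F) := by
      rw [hcardG]
      intro h
      rcases (Nat.Prime.dvd_mul hp).mp h with h | h
      · exact h3 h
      · rcases (Nat.Prime.dvd_mul hp).mp h with h | h
        · have : 2 * r + 2 = 2 * (r + 1) := by ring
          rw [this] at h
          rcases (Nat.Prime.dvd_mul hp).mp h with h | h
          · exact hno2 h2 h
          · exact h4 h
        · have : 2 * r + 4 = 2 * (r + 2) := by ring
          rw [this] at h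
          rcases (Nat.Prime.dvd_mul hp).mp h with h | h
          · exact hno2 h2 h
          · exact h5 h
    have hbot : (S : Subgroup (SL2 F)) = ⊥ := by
      apply Subgroup.eq_bot_of_card_eq
      rw [S.card_eq_multiplicity, Nat.factorization_eq_zero_of_not_dvd hnd, pow_zero]
    have hN : Subgroup.normalizer ((S : Subgroup (SL2 F)) : Set (SL2 F)) = ⊤ := by
      rw [hbot]
      ext x
      simp only [Subgroup.mem_top, iff_true]
      rw [Subgroup.mem_normalizer_iff]
      intro n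
      simp
    rw [card_irr_filter_congr ((MulEquiv.subgroupCongr hN).trans Subgroup.topEquiv) (fun n => ¬ ℓ ∣ n)]

end Cfsg.Agent.S2436
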