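import Cfsg.Statements.S2438
import Cfsg.Agent.Lib.Known.SL2Values

set_option autoImplicit false
open Cfsg

namespace Cfsg.Agent.S2438

open Cfsg.Agent.Lib.Known Cfsg.Agent.Lib.Char

/-- Let F be a finite field with q elements, q odd, q ≥ 5, U the upper unitriangular subgroup of SL₂ over F, and χ an irreducible complex character. The sum of the values of χ over U equals 2q, q, 0, q, 0 according as the degree of χ is q + 1, q, q − 1, (q + 1)/2, (q − 1)/2; so among these five degrees the sum vanishes exactly for the degrees q − 1 and (q − 1)/2, i.e. the irreducible characters of those two degrees are the ones whose restriction to U does not contain the trivial character (the cuspidal characters), while those of degree q + 1, q and (q + 1)/2 are not cuspidal. -/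
theorem result {F : Type*} [Field F] [Fintype F] [DecidableEq F] (hodd : Odd (Fintype.card F)) (hq : 5 ≤ Fintype.card F)
    (χ : Matrix.SpecialLinearGroup (Fin 2) F → ℂ) (hχ : Cfsg.IsIrrCharacter (Matrix.SpecialLinearGroup (Fin 2) F) χ) :
    (χ 1 = (Fintype.card F : ℂ) + 1 →
      (∑ g : Matrix.SpecialLinearGroup (Fin 2) F, if (g : Matrix (Fin 2) (Fin 2) F) 1 0 = 0 ∧ (g : Matrix (Fin 2) (Fin 2) F) 0 0 = 1 ∧ (g : Matrix (Fin 2) (Fin 2) F) 1 1 = 1 then χ g else 0) = 2 * (Fintype.card F : ℂ)) ∧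
    (χ 1 = (Fintype.card F : ℂ) →
      (∑ g : Matrix.SpecialLinearGroup (Fin 2) F, if (g : Matrix (Fin 2) (Fin 2) F) 1 0 = 0 ∧ (g : Matrix (Fin 2) (Fin 2) F) 0 0 = 1 ∧ (g : Matrix (Fin 2) (Fin 2) F) 1 1 = 1 then χ g else 0) = (Fintype.card F : ℂ)) ∧
    (χ 1 = (Fintype.card F : ℂ) - 1 →
      (∑ g : Matrix.SpecialLinearGroup (Fin 2) F, if (g : Matrix (Fin 2) (Fin 2) F) 1 0 = 0 ∧ (g : Matrix (Fin 2) (Fin 2) F) 0 0 = 1 ∧ (g : Matrix (Fin 2) (Fin 2) F) 1 1 = 1 then χ g else 0) = 0) ∧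
    (χ 1 = (((Fintype.card F + 1) / 2 : ℕ) : ℂ) →
      (∑ g : Matrix.SpecialLinearGroup (Fin 2) F, if (g : Matrix (Fin 2) (Fin 2) F) 1 0 = 0 ∧ (g : Matrix (Fin 2) (Fin 2) F) 0 0 = 1 ∧ (g : Matrix (Fin 2) (Fin 2) F) 1 1 = 1 then χ g else 0) = (Fintype.card F : ℂ)) ∧
    (χ 1 = (((Fintype.card F - 1) / 2 : ℕ) : ℂ) →
      (∑ g : Matrix.SpecialLinearGroup (Fin 2) F, if (g : Matrix (Fin 2) (Fin 2) F) 1 0 = 0 ∧ (g : Matrix (Fin 2) (Fin 2) F) 0 0 = 1 ∧ (g : Matrix (Fin 2) (Fin 2) F) 1 1 = 1 then χ g else 0) = 0) := by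
  obtain ⟨D⟩ := exists_SL2OddData (F := F) hodd
  rw [sum_sl2_ite_U, sum_U_eq_mul_sl2Mult D.φ]
  have hcl := IsCharacter.isClassFunction (IsIrrCharacter.isCharacter hχ)
  refine ⟨?_, ?_, ?_, ?_, ?_⟩
  · intro hd
    obtain ⟨α, rfl⟩ := sl2_eq_Ind_of_deg hχ hd
    rw [sl2Mult_sl2Ind_zero]
    ring
  · intro hd
    have := sl2_eq_St_of_deg hχ hd
    subst this
    rw [sl2Mult_sl2St_zero]
    ring
  · intro hd
    have h' : sl2Cusp χ := D.mem_cusp_of_C11 (D.deg_sub_one hodd hq hχ hd)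
    rw [sl2Mult_cusp_zero D.φ hcl h']
    ring
  · intro hd
    rcases D.deg_half_plus hodd hq hχ hd with rfl | rfl
    · rw [D.sl2Mult_zero_x₁ hodd]; ring
    · rw [D.sl2Mult_zero_x₂ hodd]; ring
  · intro hd
    rcases D.deg_half_minus hodd hq hχ hd with h | h
    · have h' : sl2Cusp χ := D.mem_cusp_of_C10 (χ := ⟨χ, hχ⟩) h
      rw [sl2Mult_cusp_zero D.φ hcl h']; ring
    · have h' : sl2Cusp χ := D.mem_cusp_of_C01 (χ := ⟨χ, hχ⟩) h
      rw [sl2Mult_cusp_zero D.φ hcl h']; ring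

end Cfsg.Agent.S2438
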