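import Cfsg.Statements.S2531
import Mathlib

set_option autoImplicit false
open Cfsg

namespace Cfsg.Agent.S2531

open Module
open scoped LinearAlgebra.Projectivization

variable {F V : Type*} [Field F] [AddCommGroup V] [Module F V]

/-- The points of a subspace. -/
def pts (W : Submodule F V) : Set (ℙ F V) := {x | x.rep ∈ W}

theorem mem_pts_mk (W : Submodule F V) (v : V) (hv : v ≠ 0) : Projectivization.mk F v hv ∈ pts W ↔ v ∈ W := by
  obtain ⟨a, ha⟩ := Projectivization.exists_smul_eq_mk_rep F v hv
  show (Projectivization.mk F v hv).rep ∈ W ↔ v ∈ W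
  rw [← ha]
  exact W.smul_mem_iff' a

theorem card_pts [Finite F] [FiniteDimensional F V] (W : Submodule F V) :
    (pts W).ncard = ∑ i ∈ Finset.range (finrank F W), Nat.card F ^ i := by
  rw [← Projectivization.card_of_finrank F W rfl]
  let g : ℙ F W → ℙ F V := Projectivization.map W.subtype W.injective_subtype
  have hg : Function.Injective g :=
    Projectivization.map_injective (τ := RingHom.id F) W.subtype W.injective_subtype
  have hrange : Set.range g = pts W := by
    ext x
    constructor
    · rintro ⟨y, rfl⟩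
      induction y using Projectivization.ind with
      | h v hv =>
        simp only [g, Projectivization.map_mk]
        rw [mem_pts_mk]
        exact v.2
    · intro hx
      refine ⟨Projectivization.mk F (⟨x.rep, hx⟩ : W) (fun h => x.rep_nonzero (congrArg Subtype.val h)), ?_⟩
      simp only [g, Projectivization.map_mk]
      exact x.mk_rep
  rw [← hrange, Set.ncard_range_of_injective hg]

theorem pts_inf (W W' : Submodule F V) : pts (W ⊓ W') = pts W ∩ pts W' := rfl

section Comb

open Finset

variable {P : Type*} [Fintype P] [DecidableEq P]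

theorem count1 (S : Set (Equiv.Perm P))
    (h2 : ∀ a b c d : P, a ≠ b → c ≠ d → ∃! s, s ∈ S ∧ s a = c ∧ s b = d) (p a : P) (hap : a ≠ p) (B : Finset P) (hB : p ∉ B)
    [DecidablePred (· ∈ S)] :
    (univ.filter (fun s : Equiv.Perm P => (s ∈ S ∧ s p = p) ∧ s a ∈ B)).card = B.card := by
  apply Finset.card_bij (fun s _ => s a)
  · intro s hs
    exact (Finset.mem_filter.1 hs).2.2
  · intro s hs s' hs' hss
    simp only [Finset.mem_filter, Finset.mem_univ, true_and] at hs hs'
    have hne : s a ≠ p := fun h => hB (h ▸ hs.2)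
    exact (h2 p a p (s a) hap.symm hne.symm).unique ⟨hs.1.1, hs.1.2, rfl⟩ ⟨hs'.1.1, hs'.1.2, hss.symm⟩
  · intro b hb
    have hne : p ≠ b := fun h => hB (h ▸ hb)
    obtain ⟨s, ⟨hs1, hs2, hs3⟩, -⟩ := h2 p a p b hap.symm hne
    exact ⟨s, by simp [hs1, hs2, hs3, hb], hs3⟩

theorem count2 (S : Set (Equiv.Perm P))
    (h2 : ∀ a b c d : P, a ≠ b → c ≠ d → ∃! s, s ∈ S ∧ s a = c ∧ s b = d) (p : P) (A : Finset P) (hA : p ∉ A)
    [DecidablePred (· ∈ S)] :
    ∑ s ∈ univ.filter (fun s : Equiv.Perm P => s ∈ S ∧ s p = p), (A.filter (fun a => s a ∈ A)).card = A.card * A.card := by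
  have h1 := Finset.sum_card_bipartiteAbove_eq_sum_card_bipartiteBelow (s := univ.filter (fun s : Equiv.Perm P => s ∈ S ∧ s p = p))
    (t := A) (fun s a => s a ∈ A)
  simp only [Finset.bipartiteAbove, Finset.bipartiteBelow] at h1
  rw [h1]
  have h3 : ∀ a ∈ A, ((univ.filter (fun s : Equiv.Perm P => s ∈ S ∧ s p = p)).filter (fun s => s a ∈ A)).card = A.card := by
    intro a ha
    rw [Finset.filter_filter]
    exact count1 S h2 p a (fun h => hA (h ▸ ha)) A hA
  rw [Finset.sum_congr rfl h3, Finset.sum_const, smul_eq_mul]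

theorem count3 (S : Set (Equiv.Perm P))
    (h2 : ∀ a b c d : P, a ≠ b → c ≠ d → ∃! s, s ∈ S ∧ s a = c ∧ s b = d) (p a : P) (hap : a ≠ p)
    [DecidablePred (· ∈ S)] :
    (univ.filter (fun s : Equiv.Perm P => s ∈ S ∧ s p = p)).card + 1 = Fintype.card P := by
  have h1 := count1 S h2 p a hap (univ.erase p) (by simp)
  have h3 : univ.filter (fun s : Equiv.Perm P => (s ∈ S ∧ s p = p) ∧ s a ∈ univ.erase p) =
      univ.filter (fun s : Equiv.Perm P => s ∈ S ∧ s p = p) := by
    ext s
    simp only [Finset.mem_filter, Finset.mem_univ, true_and, Finset.mem_erase, ne_eq, and_true, and_iff_left_iff_imp]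
    rintro ⟨-, hs⟩ h
    exact hap (s.injective (h.trans hs.symm))
  rw [h3] at h1
  rw [h1, Finset.card_erase_of_mem (mem_univ _), Finset.card_univ]
  have : 0 < Fintype.card P := Fintype.card_pos_iff.2 ⟨p⟩
  omega

end Comb

/-- The arithmetic contradiction. -/
theorem arith {q M K d t u N : ℕ} (hq : 2 ≤ q) (hM : M = K + d) (hM2 : M = 1 + q * K) (hN : N = 1 + q * M)
    (hd : q ∣ d) (h : M * t + K * u = M * M) (he : t + u + 1 = N) : False := by
  have h1 : t + u = q * M := by omega
  have h2 : d * t = M := by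
    zify at *
    have h3 : (M : ℤ) = K + d := hM
    linear_combination h - (K : ℤ) * h1 + (M : ℤ) * hM2 - (t : ℤ) * hM
  have h3 : q ∣ M := by
    rw [← h2]
    exact Dvd.dvd.mul_right hd t
  have h4 : q ∣ 1 := by
    rw [hM2] at h3
    exact (Nat.dvd_add_left (Dvd.intro K rfl)).1 h3
  have := Nat.le_of_dvd one_pos h4
  omega


/-- Let `F` be a finite field and `n ≥ 3`. No set of permutations of the points of the projective space of `Fⁿ`, each induced by an invertible semilinear transformation of `Fⁿ` (so a subset of the full projective semilinear group), is sharply 2-transitive on the points: it is impossible that for all pairs of distinct points `(a, b)` and `(c, d)` exactly one member of the set sends `a` to `c` and `b` to `d`. -/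
theorem result {F : Type*} [Field F] [Finite F]
    (n : ℕ) (hn : 3 ≤ n) (S : Set (Equiv.Perm (Projectivization F (Fin n → F))))
    (hS : ∀ s ∈ S, ∃ (σ : F ≃+* F) (f : (Fin n → F) →ₛₗ[(σ : F →+* F)] (Fin n → F)) (hf : Function.Injective f),
      ∀ x, s x = Projectivization.map f hf x) :
    ¬ (∀ a b c d : Projectivization F (Fin n → F), a ≠ b → c ≠ d →
        ∃! s, s ∈ S ∧ s a = c ∧ s b = d) := by
  classical
  intro h2
  have : Fintype (ℙ F (Fin n → F)) := Fintype.ofFinite _
  have : Finite (Fin n → F) := inferInstance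
  let q := Nat.card F
  have hq : 2 ≤ q := Finite.one_lt_card
  have hqcard : Nat.card F = q := rfl
  let i₀ : Fin n := ⟨0, by omega⟩
  let i₁ : Fin n := ⟨1, by omega⟩
  have h01 : i₁ ≠ i₀ := by simp [i₀, i₁, Fin.ext_iff]
  let H₀ : Submodule F (Fin n → F) := LinearMap.ker (LinearMap.proj i₀ : (Fin n → F) →ₗ[F] F)
  have hH₀mem : ∀ v, v ∈ H₀ ↔ v i₀ = 0 := fun v => by simp [H₀, LinearMap.mem_ker]
  have hH₀r : Module.finrank F H₀ = n - 1 := by
    have h1 := LinearMap.finrank_range_add_finrank_ker (LinearMap.proj i₀ : (Fin n → F) →ₗ[F] F)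
    have h3 : LinearMap.range (LinearMap.proj i₀ : (Fin n → F) →ₗ[F] F) = ⊤ := by
      rw [LinearMap.range_eq_top]
      intro a
      exact ⟨Pi.single i₀ a, by simp⟩
    rw [h3] at h1
    simp only [finrank_top, Module.finrank_self, Module.finrank_fin_fun] at h1
    show Module.finrank F (LinearMap.ker (LinearMap.proj i₀ : (Fin n → F) →ₗ[F] F)) = n - 1
    omega
  -- the point and the set
  have he0 : (Pi.single i₀ 1 : Fin n → F) ≠ 0 := by
    intro h
    have := congrFun h i₀
    simp at this
  have he1 : (Pi.single i₁ 1 : Fin n → F) ≠ 0 := by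
    intro h
    have := congrFun h i₁
    simp at this
  let p : ℙ F (Fin n → F) := Projectivization.mk F _ he0
  let a₀ : ℙ F (Fin n → F) := Projectivization.mk F _ he1
  have hpA : p ∉ pts H₀ := by
    show ¬ (Projectivization.mk F _ he0 ∈ pts H₀)
    rw [mem_pts_mk, hH₀mem]
    simp
  have ha₀A : a₀ ∈ pts H₀ := by
    show Projectivization.mk F _ he1 ∈ pts H₀
    rw [mem_pts_mk, hH₀mem]
    simp [Pi.single_apply, h01.symm]
  have ha₀p : a₀ ≠ p := fun h => hpA (h ▸ ha₀A)
  let A : Finset (ℙ F (Fin n → F)) := (pts H₀).toFinset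
  have hAmem : ∀ x, x ∈ A ↔ x ∈ pts H₀ := fun x => by simp [A]
  have hAcard : A.card = (pts H₀).ncard := by
    rw [Set.ncard_eq_toFinset_card']
  have hpA' : p ∉ A := by rwa [hAmem]
  have hsum := count2 S h2 p A hpA'
  have hE := count3 S h2 p a₀ ha₀p
  -- value on each element
  obtain ⟨k, rfl⟩ : ∃ k, n = k + 3 := ⟨n - 3, by omega⟩
  let K := ∑ i ∈ Finset.range (k + 1), q ^ i
  let M := ∑ i ∈ Finset.range (k + 2), q ^ i
  have hMcard : A.card = M := by
    rw [hAcard, card_pts, hH₀r]
    rfl
  have hval : ∀ s ∈ Finset.univ.filter (fun s : Equiv.Perm (ℙ F (Fin (k + 3) → F)) => s ∈ S ∧ s p = p),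
      (A.filter (fun a => s a ∈ A)).card = M ∨ (A.filter (fun a => s a ∈ A)).card = K := by
    intro s hs
    obtain ⟨hsS, -⟩ := (Finset.mem_filter.1 hs).2
    obtain ⟨σ, f, hf, hsf⟩ := hS s hsS
    -- the comap
    let C : Submodule F (Fin (k + 3) → F) := H₀.comap f
    have hpts : ∀ a, s a ∈ pts H₀ ↔ a ∈ pts C := by
      intro a
      induction a using Projectivization.ind with
      | h v hv =>
        rw [hsf, Projectivization.map_mk, mem_pts_mk, mem_pts_mk]
        rfl
    have hfil : (A.filter (fun a => s a ∈ A)) = (pts (H₀ ⊓ C)).toFinset := by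
      ext a
      rw [Set.mem_toFinset]
      simp only [Finset.mem_filter, hAmem, hpts]
      exact Iff.rfl
    have hfilcard : (A.filter (fun a => s a ∈ A)).card = (pts (H₀ ⊓ C)).ncard := by
      rw [hfil, Set.ncard_eq_toFinset_card']
    have hbij : Function.Bijective f := ⟨hf, Finite.injective_iff_surjective.1 hf⟩
    have hCcard : Nat.card C = Nat.card H₀ := by
      apply Nat.card_congr
      exact Equiv.subtypeEquiv (Equiv.ofBijective f hbij) (fun a => Iff.rfl)
    have hCr : Module.finrank F C = k + 3 - 1 := by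
      have h1 := Module.natCard_eq_pow_finrank (K := F) (V := C)
      have h3 := Module.natCard_eq_pow_finrank (K := F) (V := H₀)
      rw [hCcard, h3] at h1
      rw [← hH₀r]
      exact (Nat.pow_right_injective hq h1).symm
    rw [hfilcard, card_pts]
    by_cases hCH : C = H₀
    · left
      rw [hCH, inf_idem, hH₀r]
      rfl
    · right
      have hr : Module.finrank F ↥(H₀ ⊓ C) = k + 1 := by
        have h1 := Submodule.finrank_sup_add_finrank_inf_eq H₀ C
        have h3 : H₀ ⊔ C = ⊤ := by
          have h4 : H₀ < H₀ ⊔ C := by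
            refine lt_of_le_of_ne le_sup_left ?_
            intro h5
            have h6 : C ≤ H₀ := by
              rw [h5]
              exact le_sup_right
            exact hCH (Submodule.eq_of_le_of_finrank_eq h6 (by rw [hCr, hH₀r]))
          have h7 := Submodule.finrank_lt_finrank_of_lt h4
          rw [hH₀r] at h7
          apply Submodule.eq_top_of_finrank_eq
          have h8 := Submodule.finrank_le (H₀ ⊔ C)
          simp only [Module.finrank_fin_fun] at h8 ⊢
          omega
        rw [h3, finrank_top, Module.finrank_fin_fun, hH₀r, hCr] at h1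
        omega
      rw [hr]
  -- split the sum
  set E := Finset.univ.filter (fun s : Equiv.Perm (ℙ F (Fin (k + 3) → F)) => s ∈ S ∧ s p = p) with hEdef
  set E₁ := E.filter (fun s => (A.filter (fun a => s a ∈ A)).card = M) with hE₁
  set E₂ := E.filter (fun s => ¬ (A.filter (fun a => s a ∈ A)).card = M) with hE₂
  have hsplit : ∑ s ∈ E, (A.filter (fun a => s a ∈ A)).card = M * E₁.card + K * E₂.card := by
    rw [← Finset.sum_filter_add_sum_filter_not E (fun s => (A.filter (fun a => s a ∈ A)).card = M)]
    congr 1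
    · rw [Finset.sum_congr rfl (fun s hs => (Finset.mem_filter.1 hs).2), Finset.sum_const, smul_eq_mul, mul_comm]
    · rw [Finset.sum_congr rfl (fun s hs => (hval s (Finset.mem_filter.1 hs).1).resolve_left (Finset.mem_filter.1 hs).2),
        Finset.sum_const, smul_eq_mul, mul_comm]
  have hcardE : E₁.card + E₂.card = E.card := Finset.card_filter_add_card_filter_not _
  rw [hsplit, hMcard] at hsum
  have hN : Fintype.card (ℙ F (Fin (k + 3) → F)) = ∑ i ∈ Finset.range (k + 3), q ^ i := by
    rw [← Nat.card_eq_fintype_card]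
    exact Projectivization.card_of_finrank F _ (by simp)
  refine arith (q := q) (M := M) (K := K) (d := q ^ (k + 1)) (t := E₁.card) (u := E₂.card) (N := ∑ i ∈ Finset.range (k + 3), q ^ i)
    hq ?_ ?_ ?_ ?_ hsum ?_
  · exact Finset.sum_range_succ _ _
  · simp only [M, K]
    rw [Finset.sum_range_succ', Finset.mul_sum]
    simp only [pow_zero, pow_succ']
    ring
  · simp only [M]
    rw [Finset.sum_range_succ', Finset.mul_sum]
    simp only [pow_zero, pow_succ']
    ring
  · exact dvd_pow_self q (by omega)
  · rw [← hN, ← hE, ← hcardE]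

end Cfsg.Agent.S2531
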