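import Cfsg.Statements.S2532
import Mathlib

set_option autoImplicit false
open Cfsg

namespace Cfsg.Agent.S2532

open Equiv

/-- The key lemma: a large `H`-set contains many isomorphic orbits, so a symmetric group commutes with the action. -/
theorem exists_copy {H X : Type*} [Group H] [Finite H] [Fintype X] [MulAction H X] (r : ℕ) (hr : 1 ≤ r)
    (hX : Nat.card H * 2 ^ Nat.card H * r ≤ Fintype.card X) :
    ∃ Φ : Perm (Fin r) →* Perm X, Function.Injective Φ ∧ ∀ σ (h : H) x, Φ σ (h • x) = h • (Φ σ x) := by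
  classical
  have := Fintype.ofFinite H
  rw [Nat.card_eq_fintype_card] at hX
  set n := Fintype.card H with hn
  have hnpos : 0 < n := Fintype.card_pos
  let Ω := MulAction.orbitRel.Quotient H X
  have : Fintype Ω := inferInstanceAs (Fintype (Quotient _))
  let rep : Ω → X := Quotient.out
  have hrep : ∀ ω : Ω, (Quotient.mk'' (rep ω) : Ω) = ω := fun ω => Quotient.out_eq' ω
  -- surjection onto `X`
  have hsurj : Function.Surjective (fun p : H × Ω => p.1 • rep p.2) := by
    intro x
    have h1 : (Quotient.mk'' (rep (Quotient.mk'' x)) : Ω) = Quotient.mk'' x := hrep _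
    have h3 : MulAction.orbitRel H X (rep (Quotient.mk'' x)) x := Quotient.exact' h1
    rw [MulAction.orbitRel_apply] at h3
    obtain ⟨h, hh⟩ := h3
    have hh' : h • x = rep (Quotient.mk'' x) := hh
    refine ⟨(h⁻¹, Quotient.mk'' x), ?_⟩
    show h⁻¹ • rep (Quotient.mk'' x) = x
    rw [← hh', inv_smul_smul]
  have hcard : Fintype.card X ≤ n * Fintype.card Ω := by
    have := Fintype.card_le_of_surjective _ hsurj
    simpa [Fintype.card_prod] using this
  have hΩ : 2 ^ n * r ≤ Fintype.card Ω := by
    have h1 : n * (2 ^ n * r) ≤ n * Fintype.card Ω := by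
      calc n * (2 ^ n * r) = n * 2 ^ n * r := by ring
        _ ≤ _ := hX
        _ ≤ _ := hcard
    exact Nat.le_of_mul_le_mul_left h1 hnpos
  -- subgroups of `H`
  have hsub : Fintype.card (Subgroup H) ≤ 2 ^ n := by
    have h1 : Fintype.card (Subgroup H) ≤ Fintype.card (Set H) :=
      Fintype.card_le_of_injective (fun S : Subgroup H => (S : Set H)) SetLike.coe_injective
    simpa [Fintype.card_set] using h1
  let st : Ω → Subgroup H := fun ω => MulAction.stabilizer H (rep ω)
  obtain ⟨S, hS⟩ : ∃ S, r ≤ (Finset.univ.filter (fun ω => st ω = S)).card :=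
    Fintype.exists_le_card_fiber_of_mul_le_card st ((Nat.mul_le_mul_right r hsub).trans hΩ)
  -- `r` representatives with the same stabiliser
  obtain ⟨e, he⟩ : ∃ e : Fin r ↪ Ω, ∀ i, st (e i) = S := by
    obtain ⟨T, hTsub, hTcard⟩ := Finset.exists_subset_card_eq hS
    have : Nonempty (Fin r ↪ T) := by
      apply Function.Embedding.nonempty_of_card_le
      simp [hTcard]
    obtain ⟨f⟩ := this
    refine ⟨f.trans (Function.Embedding.subtype _), fun i => ?_⟩
    have h1 := hTsub (f i).2
    exact (Finset.mem_filter.1 h1).2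
  let x : Fin r → X := fun i => rep (e i)
  have hxS : ∀ i (g : H), g • x i = x i ↔ g ∈ S := by
    intro i g
    rw [← he i]
    rfl
  have hxorb : ∀ i j (g g' : H), g • x i = g' • x j → i = j := by
    intro i j g g' hgg
    apply e.injective
    have h1 : (g'⁻¹ * g) • x i = x j := by
      rw [mul_smul, hgg, inv_smul_smul]
    have h2 : MulAction.orbitRel H X (x j) (x i) := by
      rw [MulAction.orbitRel_apply]
      exact ⟨g'⁻¹ * g, h1⟩
    have h3 : (Quotient.mk'' (x j) : Ω) = Quotient.mk'' (x i) := Quotient.sound' h2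
    rw [hrep, hrep] at h3
    exact h3.symm
  -- the embedding
  have hout : ∀ (c : H ⧸ S), ((c.out : H) : H ⧸ S) = c := fun c => QuotientGroup.out_eq' c
  let ιf : Fin r × (H ⧸ S) → X := fun p => (p.2.out : H) • x p.1
  have hιinj : Function.Injective ιf := by
    rintro ⟨i, c⟩ ⟨j, d⟩ hij
    have hij' : (c.out : H) • x i = (d.out : H) • x j := hij
    have hi := hxorb i j _ _ hij'
    subst hi
    have h1 : ((d.out : H)⁻¹ * c.out) • x i = x i := by
      rw [mul_smul, hij', inv_smul_smul]
    have h2 : (d.out : H)⁻¹ * c.out ∈ S := (hxS i _).1 h1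
    have h3 : ((d.out : H) : H ⧸ S) = ((c.out : H) : H ⧸ S) := QuotientGroup.eq.2 h2
    rw [hout, hout] at h3
    rw [h3]
  let ι : Fin r × (H ⧸ S) ↪ X := ⟨ιf, hιinj⟩
  have hιeq : ∀ (g : H) i c, g • ι (i, c) = ι (i, g • c) := by
    intro g i c
    show g • (c.out : H) • x i = ((g • c).out : H) • x i
    rw [smul_smul]
    -- `(g • c).out` and `g * c.out` are in the same coset
    have h1 : ((g * c.out : H) : H ⧸ S) = (((g • c).out : H) : H ⧸ S) := by
      have h0 : ((g * c.out : H) : H ⧸ S) = g • ((c.out : H) : H ⧸ S) := rfl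
      rw [h0, hout, hout]
    have h2 := (QuotientGroup.eq.1 h1)
    have h3 := (hxS i _).2 h2
    rw [mul_smul] at h3
    have h4 := congrArg (fun y => (g * c.out) • y) h3
    simp only [smul_inv_smul] at h4
    exact h4.symm
  -- the homomorphism
  let Φ₀ : Perm (Fin r) →* Perm (Fin r × (H ⧸ S)) :=
    { toFun := fun σ => σ.prodCongr (Equiv.refl _)
      map_one' := by
        ext p <;> rfl
      map_mul' := by
        intro σ τ
        ext p <;> rfl }
  have hΦ₀ : Function.Injective Φ₀ := by
    intro σ τ h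
    ext i
    have h1 := congrArg (fun π : Perm (Fin r × (H ⧸ S)) => (π (i, ((1 : H) : H ⧸ S))).1) h
    simpa [Φ₀] using congrArg (fun a : Fin r => (a : ℕ)) h1
  refine ⟨(Perm.viaEmbeddingHom ι).comp Φ₀, (Perm.viaEmbeddingHom_injective ι).comp hΦ₀, ?_⟩
  intro σ h y
  simp only [MonoidHom.comp_apply, Perm.viaEmbeddingHom_apply]
  by_cases hy : y ∈ Set.range ι
  · obtain ⟨⟨i, c⟩, rfl⟩ := hy
    rw [hιeq, Perm.viaEmbedding_apply, Perm.viaEmbedding_apply]
    show ι (σ i, h • c) = h • ι (σ i, c)
    rw [hιeq]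
  · have hy2 : h • y ∉ Set.range ι := by
      rintro ⟨⟨i, c⟩, hc⟩
      apply hy
      refine ⟨(i, h⁻¹ • c), ?_⟩
      rw [← hιeq, hc, inv_smul_smul]
    rw [Perm.viaEmbedding_apply_of_notMem _ _ _ hy2, Perm.viaEmbedding_apply_of_notMem _ _ _ hy]

/-- Even permutations map to even permutations under any homomorphism of symmetric groups. -/
theorem map_mem_alternating {α β : Type*} [Fintype α] [DecidableEq α] [Fintype β] [DecidableEq β]
    (Φ : Perm α →* Perm β) {σ : Perm α} (hσ : σ ∈ alternatingGroup α) : Φ σ ∈ alternatingGroup β := by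
  rw [← Equiv.Perm.closure_three_cycles_eq_alternating] at hσ
  induction hσ using Subgroup.closure_induction with
  | mem c hc =>
    have hc' : c ^ 3 = 1 := by
      have := hc.orderOf
      rw [← this]
      exact pow_orderOf_eq_one c
    rw [Equiv.Perm.mem_alternatingGroup]
    have h1 : Perm.sign (Φ c) ^ 3 = 1 := by
      rw [← map_pow, ← map_pow, hc', map_one, map_one]
    rcases Int.units_eq_one_or (Perm.sign (Φ c)) with h | h
    · exact h
    · rw [h] at h1
      exact absurd h1 (by decide)
  | one => simp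
  | mul a b _ _ ha hb => simpa using (alternatingGroup β).mul_mem ha hb
  | inv a _ ha => simpa using (alternatingGroup β).inv_mem ha


/-- There is a function `f` of two natural-number arguments such that, whenever `m ≥ f(n, r)`, every subgroup of order `n` of the alternating group of degree `m` centralizes some subgroup of that alternating group isomorphic to the alternating group of degree `r`. -/
theorem result :
    ∃ f : ℕ → ℕ → ℕ, ∀ (m r : ℕ) (H : Subgroup ↥(alternatingGroup (Fin m))), f (Nat.card H) r ≤ m →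
      ∃ K : Subgroup ↥(alternatingGroup (Fin m)), Nonempty (↥K ≃* ↥(alternatingGroup (Fin r))) ∧
        K ≤ Subgroup.centralizer (H : Set ↥(alternatingGroup (Fin m))) := by
  classical
  refine ⟨fun n r => n * 2 ^ n * r, ?_⟩
  intro m r H hm
  by_cases hr : r = 0
  · subst hr
    refine ⟨⊥, ⟨⟨⟨fun _ => 1, fun _ => 1, fun _ => Subsingleton.elim _ _, fun _ => Subsingleton.elim _ _⟩,
      fun _ _ => Subsingleton.elim _ _⟩⟩, bot_le⟩
  let _ : MulAction H (Fin m) := MulAction.compHom (Fin m) ((alternatingGroup (Fin m)).subtype.comp H.subtype)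
  have hsmul : ∀ (h : H) (x : Fin m), h • x = ((h : alternatingGroup (Fin m)) : Perm (Fin m)) x := fun _ _ => rfl
  obtain ⟨Φ, hinj, hΦ⟩ := exists_copy (H := H) (X := Fin m) r (by omega) (by simpa using hm)
  let Φ' : alternatingGroup (Fin r) →* alternatingGroup (Fin m) :=
    (Φ.comp (alternatingGroup (Fin r)).subtype).codRestrict _ (fun σ => map_mem_alternating Φ σ.2)
  have hΦ'inj : Function.Injective Φ' := by
    intro a b hab
    have h1 : Φ (a : Perm (Fin r)) = Φ (b : Perm (Fin r)) := congrArg Subtype.val hab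
    exact Subtype.ext (hinj h1)
  refine ⟨Φ'.range, ⟨(MonoidHom.ofInjective hΦ'inj).symm⟩, ?_⟩
  rintro _ ⟨σ, rfl⟩
  rw [Subgroup.mem_centralizer_iff]
  intro h hh
  apply Subtype.ext
  apply Equiv.ext
  intro x
  show ((h : alternatingGroup (Fin m)) : Perm (Fin m)) (Φ (σ : Perm (Fin r)) x) =
    Φ (σ : Perm (Fin r)) (((h : alternatingGroup (Fin m)) : Perm (Fin m)) x)
  have := hΦ (σ : Perm (Fin r)) ⟨h, hh⟩ x
  simpa [hsmul] using this.symm

end Cfsg.Agent.S2532
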