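import Cfsg.Statements.S2533
import Mathlib

set_option autoImplicit false
open Cfsg

namespace Cfsg.Agent.S2533

open Matrix

abbrev VV (p : ℕ) := Fin 3 → ZMod p

/-- Inversion action of `ℤˣ`. -/
noncomputable def ψ (p : ℕ) : ℤˣ →* MulAut (Multiplicative (VV p)) :=
  (MulAutMultiplicative (VV p)).symm.toMonoidHom.comp (DistribMulAction.toAddAut ℤˣ (VV p))

theorem ψ_apply (p : ℕ) (ε : ℤˣ) (v : VV p) : (ψ p ε) (Multiplicative.ofAdd v) = Multiplicative.ofAdd (ε • v) := rfl

abbrev HH (p : ℕ) := Multiplicative (VV p) ⋊[ψ p] ℤˣ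

abbrev NN (a : ℕ) := a + (a + 1)

section Mats

variable (p : ℕ) [Fact p.Prime] (a : ℕ)

/-- The two shifts. -/
def sh (δ : ℕ) : Matrix (Fin (NN a)) (Fin (NN a)) (ZMod p) :=
  fun i j => if (j : ℕ) < a ∧ (i : ℕ) = a + j + δ then 1 else 0

/-- A third independent matrix. -/
def ee : Matrix (Fin (NN a)) (Fin (NN a)) (ZMod p) :=
  fun i j => if (j : ℕ) = 0 ∧ (i : ℕ) = 2 * a then 1 else 0

/-- The linear family. -/
def AA (v : VV p) : Matrix (Fin (NN a)) (Fin (NN a)) (ZMod p) :=
  v 0 • sh p a 0 + v 1 • sh p a 1 + v 2 • ee p a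

/-- Block shape of the family. -/
def Off (M : Matrix (Fin (NN a)) (Fin (NN a)) (ZMod p)) : Prop := ∀ i j, M i j ≠ 0 → a ≤ (i : ℕ) ∧ (j : ℕ) < a

variable {p a}

theorem off_AA (ha : 1 ≤ a) (v : VV p) : Off p a (AA p a v) := by
  intro i j hij
  by_contra hcon
  apply hij
  show v 0 • sh p a 0 i j + v 1 • sh p a 1 i j + v 2 • ee p a i j = 0
  have h1 : ¬ ((j : ℕ) < a ∧ (i : ℕ) = a + j + 0) := by
    rintro ⟨h2, h3⟩
    exact hcon ⟨by omega, h2⟩
  have h2 : ¬ ((j : ℕ) < a ∧ (i : ℕ) = a + j + 1) := by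
    rintro ⟨h2, h3⟩
    exact hcon ⟨by omega, h2⟩
  have h3 : ¬ ((j : ℕ) = 0 ∧ (i : ℕ) = 2 * a) := by
    rintro ⟨h2, h3⟩
    exact hcon ⟨by omega, by omega⟩
  have e1 : sh p a 0 i j = 0 := if_neg h1
  have e2 : sh p a 1 i j = 0 := if_neg h2
  have e3 : ee p a i j = 0 := if_neg h3
  simp [e1, e2, e3]

theorem off_mul {M N : Matrix (Fin (NN a)) (Fin (NN a)) (ZMod p)} (hM : Off p a M) (hN : Off p a N) : M * N = 0 := by
  ext i j
  rw [mul_apply]
  apply Finset.sum_eq_zero
  intro k _
  by_contra hcon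
  have h1 := hM i k (left_ne_zero_of_mul hcon)
  have h2 := hN k j (right_ne_zero_of_mul hcon)
  omega

theorem AA_zero : AA p a 0 = 0 := by
  simp [AA]

theorem AA_add (v w : VV p) : AA p a (v + w) = AA p a v + AA p a w := by
  simp only [AA, Pi.add_apply, add_smul]
  abel

theorem one_add_mul (ha : 1 ≤ a) (v w : VV p) : (1 + AA p a v) * (1 + AA p a w) = 1 + AA p a (v + w) := by
  simp only [mul_add, add_mul, mul_one, one_mul, off_mul (off_AA ha v) (off_AA ha w), AA_add, add_zero]
  abel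

theorem det_one_add (ha : 1 ≤ a) (v : VV p) : (1 + AA p a v).det = 1 := by
  have hoff := off_AA ha v
  rw [Matrix.det_of_isLowerTriangular]
  · apply Finset.prod_eq_one
    intro i _
    have h1 : AA p a v i i = 0 := by
      by_contra h2
      have := hoff i i h2
      omega
    simp [h1]
  · intro i j hij
    have hij' : i < j := hij
    have h1 : AA p a v i j = 0 := by
      by_contra h2
      have := hoff i j h2
      have h3 : (i : ℕ) < j := hij'
      omega
    simp [h1, ne_of_lt hij']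

theorem pow_one_add (ha : 1 ≤ a) (v : VV p) (k : ℕ) : (1 + AA p a v) ^ k = 1 + (k : ZMod p) • AA p a v := by
  induction k with
  | zero => simp
  | succ k ih =>
    rw [pow_succ, ih, add_mul, one_mul, Matrix.smul_mul, mul_add, mul_one, off_mul (off_AA ha v) (off_AA ha v)]
    simp only [Nat.cast_add, Nat.cast_one, add_smul, one_smul, add_zero]
    abel

theorem pow_char_one_add (ha : 1 ≤ a) (v : VV p) : (1 + AA p a v) ^ p = 1 := by
  rw [pow_one_add ha]
  simp

/-- The involution. -/
def TT (p : ℕ) [Fact p.Prime] (a : ℕ) : Matrix (Fin (NN a)) (Fin (NN a)) (ZMod p) :=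
  diagonal (fun i => if (i : ℕ) < a then 1 else -1)

theorem TT_sq : TT p a * TT p a = 1 := by
  rw [TT, diagonal_mul_diagonal, ← diagonal_one]
  congr 1
  funext i
  split_ifs <;> simp

theorem det_TT (he : Even (a + 1)) : (TT p a).det = 1 := by
  rw [TT, det_diagonal, Fin.prod_univ_add]
  have h1 : ∀ i : Fin a, (if ((Fin.castAdd (a + 1) i : Fin (NN a)) : ℕ) < a then (1 : ZMod p) else -1) = 1 := by
    intro i
    simp
  have h2 : ∀ i : Fin (a + 1), (if ((Fin.natAdd a i : Fin (NN a)) : ℕ) < a then (1 : ZMod p) else -1) = -1 := by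
    intro i
    simp
  rw [Finset.prod_congr rfl (fun i _ => h1 i), Finset.prod_congr rfl (fun i _ => h2 i)]
  simp [he.neg_one_pow]

theorem trace_TT : (TT p a).trace = -1 := by
  rw [TT, trace_diagonal, Fin.sum_univ_add]
  have h1 : ∀ i : Fin a, (if ((Fin.castAdd (a + 1) i : Fin (NN a)) : ℕ) < a then (1 : ZMod p) else -1) = 1 := by
    intro i
    simp
  have h2 : ∀ i : Fin (a + 1), (if ((Fin.natAdd a i : Fin (NN a)) : ℕ) < a then (1 : ZMod p) else -1) = -1 := by
    intro i
    simp
  rw [Finset.sum_congr rfl (fun i _ => h1 i), Finset.sum_congr rfl (fun i _ => h2 i)]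
  simp

theorem TT_conj (ha : 1 ≤ a) (v : VV p) : TT p a * (1 + AA p a v) * TT p a = 1 + AA p a (-v) := by
  have hAneg : AA p a (-v) = - AA p a v := by
    have h := AA_add (p := p) (a := a) v (-v)
    rw [add_neg_cancel, AA_zero] at h
    exact (eq_neg_of_add_eq_zero_right h.symm)
  rw [mul_add, add_mul, mul_one, TT_sq, hAneg]
  congr 1
  ext i j
  rw [TT, mul_diagonal, diagonal_mul]
  by_cases hij : AA p a v i j = 0
  · simp [hij]
  · obtain ⟨h1, h2⟩ := off_AA ha v i j hij
    have h3 : ¬ ((i : ℕ) < a) := by omega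
    simp [h3, h2]

end Mats

section Commute

variable {p : ℕ} [Fact p.Prime] {a : ℕ}

theorem mul_sh_apply (g : Matrix (Fin (NN a)) (Fin (NN a)) (ZMod p)) (δ : ℕ) (hδ : δ ≤ 1) (i j : Fin (NN a)) :
    (g * sh p a δ) i j = if h : (j : ℕ) < a then g i ⟨a + j + δ, by show a + j + δ < a + (a + 1); omega⟩ else 0 := by
  rw [mul_apply]
  split_ifs with h
  · rw [Finset.sum_eq_single (⟨a + j + δ, by show a + j + δ < a + (a + 1); omega⟩ : Fin (NN a))]
    · have e1 : sh p a δ ⟨a + j + δ, by show a + j + δ < a + (a + 1); omega⟩ j = 1 := if_pos ⟨h, rfl⟩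
      rw [e1, mul_one]
    · intro k _ hk
      have e1 : sh p a δ k j = 0 := if_neg (by
        rintro ⟨-, h2⟩
        exact hk (Fin.ext h2))
      rw [e1, mul_zero]
    · intro h2
      exact absurd (Finset.mem_univ _) h2
  · apply Finset.sum_eq_zero
    intro k _
    have e1 : sh p a δ k j = 0 := if_neg (fun h2 => h h2.1)
    rw [e1, mul_zero]

theorem sh_mul_apply (g : Matrix (Fin (NN a)) (Fin (NN a)) (ZMod p)) (δ : ℕ) (i j : Fin (NN a)) :
    (sh p a δ * g) i j = if h : a + δ ≤ (i : ℕ) ∧ (i : ℕ) - a - δ < a then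
      g ⟨(i : ℕ) - a - δ, by show (i : ℕ) - a - δ < a + (a + 1); omega⟩ j else 0 := by
  rw [mul_apply]
  split_ifs with h
  · rw [Finset.sum_eq_single (⟨(i : ℕ) - a - δ, by show (i : ℕ) - a - δ < a + (a + 1); omega⟩ : Fin (NN a))]
    · have e1 : sh p a δ i ⟨(i : ℕ) - a - δ, by show (i : ℕ) - a - δ < a + (a + 1); omega⟩ = 1 :=
        if_pos ⟨h.2, by show (i : ℕ) = a + ((i : ℕ) - a - δ) + δ; omega⟩
      rw [e1, one_mul]
    · intro k _ hk
      have e1 : sh p a δ i k = 0 := if_neg (by
        rintro ⟨h1, h2⟩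
        apply hk
        apply Fin.ext
        show (k : ℕ) = (i : ℕ) - a - δ
        omega)
      rw [e1, zero_mul]
    · intro h2
      exact absurd (Finset.mem_univ _) h2
  · apply Finset.sum_eq_zero
    intro k _
    have e1 : sh p a δ i k = 0 := if_neg (by
      rintro ⟨h1, h2⟩
      exact h ⟨by omega, by omega⟩)
    rw [e1, zero_mul]

/-- The centraliser computation: commuting with the involution and both shifts forces a scalar. -/
theorem scalar_of_commute (hp : p ≠ 2) (ha : 1 ≤ a) (g : Matrix (Fin (NN a)) (Fin (NN a)) (ZMod p))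
    (hT : g * TT p a = TT p a * g) (h0 : g * sh p a 0 = sh p a 0 * g) (h1 : g * sh p a 1 = sh p a 1 * g) :
    ∃ c : ZMod p, g = c • 1 := by
  -- function on the naturals
  let G : ℕ → ℕ → ZMod p := fun i j => if h : i < NN a ∧ j < NN a then g ⟨i, h.1⟩ ⟨j, h.2⟩ else 0
  have hG : ∀ i j : Fin (NN a), g i j = G i j := by
    intro i j
    simp [G]
  have h20 : (2 : ZMod p) ≠ 0 := by
    intro h
    have : ((2 : ℕ) : ZMod p) = 0 := by exact_mod_cast h
    rw [ZMod.natCast_eq_zero_iff] at this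
    have h3 := (Nat.prime_dvd_prime_iff_eq (Fact.out : p.Prime) Nat.prime_two).1 this
    exact hp h3
  have hcross1 : ∀ i j, i < a → a ≤ j → j < NN a → G i j = 0 := by
    intro i j hi hj hj2
    have hi2 : i < NN a := by show i < a + (a + 1); omega
    have h2 := congrFun (congrFun hT ⟨i, hi2⟩) ⟨j, hj2⟩
    rw [TT, mul_diagonal, diagonal_mul] at h2
    simp only [hi, if_true, not_lt.2 hj, if_false, one_mul] at h2
    have h3 : g ⟨i, hi2⟩ ⟨j, hj2⟩ = 0 := by
      have h4 : 2 * g ⟨i, hi2⟩ ⟨j, hj2⟩ = 0 := by linear_combination -h2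
      exact (mul_eq_zero.1 h4).resolve_left h20
    rw [← hG ⟨i, hi2⟩ ⟨j, hj2⟩]
    exact h3
  have hcross2 : ∀ i j, a ≤ i → i < NN a → j < a → G i j = 0 := by
    intro i j hi hi2 hj
    have hj2 : j < NN a := by show j < a + (a + 1); omega
    have h2 := congrFun (congrFun hT ⟨i, hi2⟩) ⟨j, hj2⟩
    rw [TT, mul_diagonal, diagonal_mul] at h2
    simp only [hj, if_true, not_lt.2 hi, if_false, mul_one] at h2
    have h3 : g ⟨i, hi2⟩ ⟨j, hj2⟩ = 0 := by
      have h4 : 2 * g ⟨i, hi2⟩ ⟨j, hj2⟩ = 0 := by linear_combination h2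
      exact (mul_eq_zero.1 h4).resolve_left h20
    rw [← hG ⟨i, hi2⟩ ⟨j, hj2⟩]
    exact h3
  -- shift relations
  have R1 : ∀ l j, l < a → j < a → G (a + l) (a + j) = G l j := by
    intro l j hl hj
    have hi2 : a + l < NN a := by show a + l < a + (a + 1); omega
    have hj2 : j < NN a := by show j < a + (a + 1); omega
    have h2 := congrFun (congrFun h0 ⟨a + l, hi2⟩) ⟨j, hj2⟩
    rw [mul_sh_apply g 0 (by omega), sh_mul_apply] at h2
    simp only [hj, dif_pos] at h2
    have h3 : (a + 0 ≤ a + l ∧ a + l - a - 0 < a) := ⟨by omega, by omega⟩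
    rw [dif_pos h3, hG, hG] at h2
    simpa using h2
  have R2 : ∀ j, j < a → G (2 * a) (a + j) = 0 := by
    intro j hj
    have hi2 : 2 * a < NN a := by show 2 * a < a + (a + 1); omega
    have hj2 : j < NN a := by show j < a + (a + 1); omega
    have h2 := congrFun (congrFun h0 ⟨2 * a, hi2⟩) ⟨j, hj2⟩
    rw [mul_sh_apply g 0 (by omega), sh_mul_apply] at h2
    simp only [hj, dif_pos] at h2
    have h3 : ¬ (a + 0 ≤ 2 * a ∧ 2 * a - a - 0 < a) := by omega
    rw [dif_neg h3, hG] at h2
    simpa using h2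
  have R3 : ∀ l j, l < a → j < a → G (a + l + 1) (a + j + 1) = G l j := by
    intro l j hl hj
    have hi2 : a + l + 1 < NN a := by show a + l + 1 < a + (a + 1); omega
    have hj2 : j < NN a := by show j < a + (a + 1); omega
    have h2 := congrFun (congrFun h1 ⟨a + l + 1, hi2⟩) ⟨j, hj2⟩
    rw [mul_sh_apply g 1 (by omega), sh_mul_apply] at h2
    simp only [hj, dif_pos] at h2
    have h3 : (a + 1 ≤ a + l + 1 ∧ a + l + 1 - a - 1 < a) := ⟨by omega, by omega⟩
    rw [dif_pos h3, hG, hG] at h2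
    have h4 : a + l + 1 - a - 1 = l := by omega
    simpa [h4] using h2
  have R4 : ∀ j, j < a → G a (a + j + 1) = 0 := by
    intro j hj
    have hi2 : a < NN a := by show a < a + (a + 1); omega
    have hj2 : j < NN a := by show j < a + (a + 1); omega
    have h2 := congrFun (congrFun h1 ⟨a, hi2⟩) ⟨j, hj2⟩
    rw [mul_sh_apply g 1 (by omega), sh_mul_apply] at h2
    simp only [hj, dif_pos] at h2
    have h3 : ¬ (a + 1 ≤ a ∧ a - a - 1 < a) := by omega
    rw [dif_neg h3, hG] at h2
    simpa using h2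
  -- the block `h`
  let h' : ℕ → ℕ → ZMod p := fun l j => G (a + l) (a + j)
  have hs : ∀ l j, l < a → j < a → h' (l + 1) (j + 1) = h' l j := by
    intro l j hl hj
    show G (a + (l + 1)) (a + (j + 1)) = G (a + l) (a + j)
    have e1 : a + (l + 1) = a + l + 1 := rfl
    have e2 : a + (j + 1) = a + j + 1 := rfl
    rw [e1, e2, R3 l j hl hj, R1 l j hl hj]
  have hlow : ∀ d j, j + d ≤ a → 1 ≤ d → h' (j + d) j = 0 := by
    intro d j hjd hd
    obtain ⟨e, he⟩ : ∃ e, a = j + d + e := ⟨a - (j + d), by omega⟩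
    clear hjd
    induction e generalizing d j with
    | zero =>
      show G (a + (j + d)) (a + j) = 0
      have e1 : a + (j + d) = 2 * a := by omega
      rw [e1]
      exact R2 j (by omega)
    | succ e ih =>
      have h3 := hs (j + d) j (by omega) (by omega)
      rw [← h3]
      have e1 : j + d + 1 = (j + 1) + d := by omega
      rw [e1]
      exact ih d (j + 1) hd (by omega)
  have hup : ∀ l d, l + d ≤ a → 1 ≤ d → h' l (l + d) = 0 := by
    intro l d hld hd
    induction l with
    | zero =>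
      show G (a + 0) (a + (0 + d)) = 0
      obtain ⟨d', rfl⟩ : ∃ d', d = d' + 1 := ⟨d - 1, by omega⟩
      have e1 : a + (0 + (d' + 1)) = a + d' + 1 := by omega
      rw [e1]
      exact R4 d' (by omega)
    | succ l ih =>
      have e1 : l + 1 + d = (l + d) + 1 := by omega
      rw [e1, hs l (l + d) (by omega) (by omega)]
      exact ih (by omega)
  have hdiag : ∀ l, l ≤ a → h' l l = h' 0 0 := by
    intro l hl
    induction l with
    | zero => rfl
    | succ l ih => rw [hs l l (by omega) (by omega), ih (by omega)]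
  refine ⟨h' 0 0, ?_⟩
  ext i j
  rw [Matrix.smul_apply, smul_eq_mul, one_apply, hG]
  have hi := i.2
  have hj := j.2
  have hi' : (i : ℕ) < a + (a + 1) := hi
  have hj' : (j : ℕ) < a + (a + 1) := hj
  by_cases hij : i = j
  · subst hij
    simp only [if_true, mul_one]
    by_cases hia : (i : ℕ) < a
    · rw [← R1 i i hia hia]
      exact hdiag i hia.le
    · obtain ⟨l, hl⟩ : ∃ l, (i : ℕ) = a + l := ⟨(i : ℕ) - a, by omega⟩
      rw [hl]
      exact hdiag l (by omega)
  · have hij' : (i : ℕ) ≠ j := fun h => hij (Fin.ext h)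
    simp only [hij, if_false, mul_zero]
    by_cases hia : (i : ℕ) < a <;> by_cases hja : (j : ℕ) < a
    · rw [← R1 i j hia hja]
      rcases lt_or_gt_of_ne hij' with hlt | hlt
      · obtain ⟨d, hd⟩ : ∃ d, (j : ℕ) = i + d := ⟨(j : ℕ) - i, by omega⟩
        rw [hd]
        exact hup i d (by omega) (by omega)
      · obtain ⟨d, hd⟩ : ∃ d, (i : ℕ) = j + d := ⟨(i : ℕ) - j, by omega⟩
        rw [hd]
        exact hlow d j (by omega) (by omega)
    · exact hcross1 i j hia (by omega) hj
    · exact hcross2 i j (by omega) hi hja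
    · obtain ⟨l, hl⟩ : ∃ l, (i : ℕ) = a + l := ⟨(i : ℕ) - a, by omega⟩
      obtain ⟨l', hl'⟩ : ∃ l', (j : ℕ) = a + l' := ⟨(j : ℕ) - a, by omega⟩
      rw [hl, hl']
      have hll : l ≠ l' := by omega
      rcases lt_or_gt_of_ne hll with hlt | hlt
      · obtain ⟨d, hd⟩ : ∃ d, l' = l + d := ⟨l' - l, by omega⟩
        rw [hd]
        exact hup l d (by omega) (by omega)
      · obtain ⟨d, hd⟩ : ∃ d, l = l' + d := ⟨l - l', by omega⟩
        rw [hd]
        exact hlow d l' (by omega) (by omega)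

end Commute

section Main

variable {p : ℕ} [Fact p.Prime]

theorem comm_scalar {n : ℕ} {P g : SpecialLinearGroup (Fin n) (ZMod p)}
    (h : (QuotientGroup.mk P * QuotientGroup.mk g : ProjectiveSpecialLinearGroup (Fin n) (ZMod p)) = QuotientGroup.mk g * QuotientGroup.mk P) :
    ∃ r : ZMod p, (g : Matrix (Fin n) (Fin n) (ZMod p)) * P = r • ((P : Matrix (Fin n) (Fin n) (ZMod p)) * g) := by
  rw [← QuotientGroup.mk_mul, ← QuotientGroup.mk_mul, QuotientGroup.eq] at h
  obtain ⟨r, -, hr⟩ := Matrix.SpecialLinearGroup.mem_center_iff.1 h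
  refine ⟨r, ?_⟩
  have h1 : g * P = (P * g) * ((P * g)⁻¹ * (g * P)) := by group
  have h2 : (g : Matrix (Fin n) (Fin n) (ZMod p)) * P = ((P * g : Matrix.SpecialLinearGroup (Fin n) (ZMod p)) : Matrix (Fin n) (Fin n) (ZMod p)) * (((P * g)⁻¹ * (g * P) : Matrix.SpecialLinearGroup (Fin n) (ZMod p)) : Matrix (Fin n) (Fin n) (ZMod p)) := by
    rw [← Matrix.SpecialLinearGroup.coe_mul, ← Matrix.SpecialLinearGroup.coe_mul, ← h1]
  rw [h2, ← hr, Matrix.SpecialLinearGroup.coe_mul]
  ext i j
  simp [scalar_apply, mul_diagonal, mul_comm]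

theorem main_thm (hp : p ≠ 2) (a : ℕ) (ha : 3 ≤ a) (he : Even (a + 1)) :
    ∃ φ : HH p →* ProjectiveSpecialLinearGroup (Fin (NN a)) (ZMod p), Function.Injective φ ∧
      Subgroup.centralizer (φ.range : Set (ProjectiveSpecialLinearGroup (Fin (NN a)) (ZMod p))) = ⊥ := by
  classical
  have ha1 : 1 ≤ a := by omega
  let f₁ : Multiplicative (VV p) →* SpecialLinearGroup (Fin (NN a)) (ZMod p) :=
    { toFun := fun m => ⟨1 + AA p a (Multiplicative.toAdd m), det_one_add ha1 _⟩
      map_one' := by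
        apply Subtype.ext
        simp [AA_zero]
      map_mul' := by
        intro m m'
        apply Subtype.ext
        show 1 + AA p a (Multiplicative.toAdd m + Multiplicative.toAdd m') = _
        rw [← one_add_mul ha1]
        rfl }
  let T₁ : SpecialLinearGroup (Fin (NN a)) (ZMod p) := ⟨TT p a, det_TT he⟩
  have hT₁ : T₁ * T₁ = 1 := Subtype.ext TT_sq
  have hT₁inv : T₁⁻¹ = T₁ := inv_eq_of_mul_eq_one_left hT₁
  let f₂ : ℤˣ →* SpecialLinearGroup (Fin (NN a)) (ZMod p) :=
    { toFun := fun ε => if ε = 1 then 1 else T₁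
      map_one' := by simp
      map_mul' := by
        intro x y
        rcases Int.units_eq_one_or x with rfl | rfl <;> rcases Int.units_eq_one_or y with rfl | rfl <;> simp [hT₁] }
  have hcompat : ∀ ε : ℤˣ, f₁.comp (MulEquiv.toMonoidHom (ψ p ε)) = (MulEquiv.toMonoidHom (MulAut.conj (f₂ ε))).comp f₁ := by
    intro ε
    apply MonoidHom.ext
    intro m
    rcases Int.units_eq_one_or ε with rfl | rfl
    · simp [f₂, map_one]
    · apply Subtype.ext
      have h1 : f₂ (-1) = T₁ := by simp [f₂]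
      simp only [MonoidHom.comp_apply, MulEquiv.coe_toMonoidHom, MulAut.conj_apply, h1, hT₁inv]
      show 1 + AA p a (Multiplicative.toAdd (ψ p (-1) m)) = TT p a * (1 + AA p a (Multiplicative.toAdd m)) * TT p a
      rw [TT_conj ha1]
      congr 2
      show (-1 : ℤˣ) • (Multiplicative.toAdd m) = _
      simp
  let Φ : HH p →* SpecialLinearGroup (Fin (NN a)) (ZMod p) := SemidirectProduct.lift f₁ f₂ hcompat
  have hΦ : ∀ h : HH p, Φ h = f₁ h.left * f₂ h.right := fun h => rfl
  let π : SpecialLinearGroup (Fin (NN a)) (ZMod p) →* ProjectiveSpecialLinearGroup (Fin (NN a)) (ZMod p) :=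
    QuotientGroup.mk' _
  have i₀lt : 0 < NN a := by show 0 < a + (a + 1); omega
  let i₀ : Fin (NN a) := ⟨0, i₀lt⟩
  have htwo : (1 : ZMod p) ≠ -1 := by
    intro h
    have h2 : ((2 : ℕ) : ZMod p) = 0 := by
      push_cast
      linear_combination h
    rw [ZMod.natCast_eq_zero_iff] at h2
    exact hp ((Nat.prime_dvd_prime_iff_eq (Fact.out : p.Prime) Nat.prime_two).1 h2)
  refine ⟨π.comp Φ, ?_, ?_⟩
  · rw [injective_iff_map_eq_one]
    rintro ⟨m, ε⟩ hh
    have hmem : Φ ⟨m, ε⟩ ∈ Subgroup.center (SpecialLinearGroup (Fin (NN a)) (ZMod p)) :=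
      (QuotientGroup.eq_one_iff _).1 hh
    obtain ⟨r, -, hr⟩ := Matrix.SpecialLinearGroup.mem_center_iff.1 hmem
    have hentry : ∀ i j, (Φ ⟨m, ε⟩ : Matrix (Fin (NN a)) (Fin (NN a)) (ZMod p)) i j = if i = j then r else 0 := by
      intro i j
      rw [← hr]
      simp [scalar_apply, diagonal_apply]
    set v := Multiplicative.toAdd m with hv
    have hoff := off_AA ha1 v
    rcases Int.units_eq_one_or ε with rfl | rfl
    · have hval : ∀ i j, (Φ ⟨m, 1⟩ : Matrix (Fin (NN a)) (Fin (NN a)) (ZMod p)) i j = (1 + AA p a v) i j := by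
        intro i j
        rw [hΦ]
        simp [f₂]
        rfl
      have hr1 : r = 1 := by
        have h1 := hentry i₀ i₀
        rw [hval] at h1
        have h2 : AA p a v i₀ i₀ = 0 := by
          by_contra h3
          have := hoff i₀ i₀ h3
          simp [i₀] at this
          omega
        simp [h2] at h1
        exact h1.symm
      have hA : ∀ i j, AA p a v i j = if i = j then 0 else 0 := by
        intro i j
        have h1 := hentry i j
        rw [hval, hr1] at h1
        by_cases hij : i = j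
        · subst hij
          simpa using h1
        · simpa [hij] using h1
      have hv0 : v = 0 := by
        have e0 : v 0 = 0 := by
          have h1 := hA ⟨a, by show a < a + (a + 1); omega⟩ i₀
          have e1 : sh p a 0 ⟨a, by show a < a + (a + 1); omega⟩ i₀ = 1 := if_pos ⟨by simp [i₀]; omega, by simp [i₀]⟩
          have e2 : sh p a 1 ⟨a, by show a < a + (a + 1); omega⟩ i₀ = 0 := if_neg (by simp [i₀])
          have e3 : ee p a ⟨a, by show a < a + (a + 1); omega⟩ i₀ = 0 := if_neg (by simp [i₀]; omega)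
          have h2 : AA p a v ⟨a, by show a < a + (a + 1); omega⟩ i₀ = v 0 • sh p a 0 ⟨a, by show a < a + (a + 1); omega⟩ i₀ + v 1 • sh p a 1 ⟨a, by show a < a + (a + 1); omega⟩ i₀ + v 2 • ee p a ⟨a, by show a < a + (a + 1); omega⟩ i₀ := rfl
          rw [h2, e1, e2, e3] at h1
          simpa using h1
        have e1' : v 1 = 0 := by
          have h1 := hA ⟨a + 1, by show a + 1 < a + (a + 1); omega⟩ i₀
          have e1 : sh p a 0 ⟨a + 1, by show a + 1 < a + (a + 1); omega⟩ i₀ = 0 := if_neg (by simp [i₀])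
          have e2 : sh p a 1 ⟨a + 1, by show a + 1 < a + (a + 1); omega⟩ i₀ = 1 := if_pos ⟨by simp [i₀]; omega, by simp [i₀]⟩
          have e3 : ee p a ⟨a + 1, by show a + 1 < a + (a + 1); omega⟩ i₀ = 0 := if_neg (by simp [i₀]; omega)
          have h2 : AA p a v ⟨a + 1, by show a + 1 < a + (a + 1); omega⟩ i₀ = v 0 • sh p a 0 ⟨a + 1, by show a + 1 < a + (a + 1); omega⟩ i₀ + v 1 • sh p a 1 ⟨a + 1, by show a + 1 < a + (a + 1); omega⟩ i₀ + v 2 • ee p a ⟨a + 1, by show a + 1 < a + (a + 1); omega⟩ i₀ := rfl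
          rw [h2, e1, e2, e3] at h1
          simpa using h1
        have e2' : v 2 = 0 := by
          have h1 := hA ⟨2 * a, by show 2 * a < a + (a + 1); omega⟩ i₀
          have e1 : sh p a 0 ⟨2 * a, by show 2 * a < a + (a + 1); omega⟩ i₀ = 0 := if_neg (by simp [i₀]; omega)
          have e2 : sh p a 1 ⟨2 * a, by show 2 * a < a + (a + 1); omega⟩ i₀ = 0 := if_neg (by simp [i₀]; omega)
          have e3 : ee p a ⟨2 * a, by show 2 * a < a + (a + 1); omega⟩ i₀ = 1 := if_pos ⟨by simp [i₀], rfl⟩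
          have h2 : AA p a v ⟨2 * a, by show 2 * a < a + (a + 1); omega⟩ i₀ = v 0 • sh p a 0 ⟨2 * a, by show 2 * a < a + (a + 1); omega⟩ i₀ + v 1 • sh p a 1 ⟨2 * a, by show 2 * a < a + (a + 1); omega⟩ i₀ + v 2 • ee p a ⟨2 * a, by show 2 * a < a + (a + 1); omega⟩ i₀ := rfl
          rw [h2, e1, e2, e3] at h1
          simpa using h1
        funext l
        fin_cases l
        · exact e0
        · exact e1'
        · exact e2'
      have hm1 : m = 1 := hv0
      rw [hm1]
      rfl
    · exfalso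
      have hval : ∀ i j, (Φ ⟨m, -1⟩ : Matrix (Fin (NN a)) (Fin (NN a)) (ZMod p)) i j = ((1 + AA p a v) * TT p a) i j := by
        intro i j
        rw [hΦ]
        have h1 : f₂ (-1) = T₁ := by simp [f₂]
        simp only [h1]
        rfl
      let i₁ : Fin (NN a) := ⟨a, by show a < a + (a + 1); omega⟩
      have h1 := hentry i₀ i₀
      have h2 := hentry i₁ i₁
      rw [hval, TT, mul_diagonal] at h1 h2
      have h3 : AA p a v i₀ i₀ = 0 := by
        by_contra h3
        have := hoff i₀ i₀ h3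
        simp [i₀] at this
        omega
      have h4 : AA p a v i₁ i₁ = 0 := by
        by_contra h3
        have := hoff i₁ i₁ h3
        simp [i₁] at this
      have e0 : (i₀ : ℕ) < a := by simp [i₀]; omega
      have e1 : ¬ ((i₁ : ℕ) < a) := by simp [i₁]
      simp only [Matrix.add_apply, one_apply_eq, h3, h4, if_true, e0, e1, if_false, add_zero, mul_one] at h1 h2
      exact htwo (by linear_combination h1 - h2)
  · rw [eq_bot_iff]
    intro x hx
    rw [Subgroup.mem_bot]
    obtain ⟨g, rfl⟩ := QuotientGroup.mk_surjective x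
    rw [Subgroup.mem_centralizer_iff] at hx
    have hcomm : ∀ h : HH p, ∃ r : ZMod p, (g : Matrix (Fin (NN a)) (Fin (NN a)) (ZMod p)) * (Φ h) = r • (((Φ h : SpecialLinearGroup (Fin (NN a)) (ZMod p)) : Matrix (Fin (NN a)) (Fin (NN a)) (ZMod p)) * g) := by
      intro h
      apply comm_scalar
      exact hx (π (Φ h)) ⟨h, rfl⟩
    have hdet : (g : Matrix (Fin (NN a)) (Fin (NN a)) (ZMod p)) ≠ 0 := by
      intro h0
      have h1 := g.2
      have : Nonempty (Fin (NN a)) := ⟨i₀⟩
      rw [h0, det_zero] at h1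
      exact zero_ne_one h1
    -- commuting with the unipotents
    have hunip : ∀ v : VV p, (g : Matrix (Fin (NN a)) (Fin (NN a)) (ZMod p)) * AA p a v = AA p a v * g := by
      intro v
      obtain ⟨r, hr⟩ := hcomm ⟨Multiplicative.ofAdd v, 1⟩
      have hval : ((Φ ⟨Multiplicative.ofAdd v, 1⟩ : SpecialLinearGroup (Fin (NN a)) (ZMod p)) : Matrix (Fin (NN a)) (Fin (NN a)) (ZMod p)) = 1 + AA p a v := by
        rw [hΦ]
        simp [f₂]
        rfl
      rw [hval] at hr
      have hpow : ∀ k : ℕ, (g : Matrix (Fin (NN a)) (Fin (NN a)) (ZMod p)) * (1 + AA p a v) ^ k = r ^ k • ((1 + AA p a v) ^ k * g) := by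
        intro k
        induction k with
        | zero => simp
        | succ k ih =>
          rw [pow_succ, pow_succ]
          calc (g : Matrix (Fin (NN a)) (Fin (NN a)) (ZMod p)) * ((1 + AA p a v) ^ k * (1 + AA p a v))
              = ((g : Matrix (Fin (NN a)) (Fin (NN a)) (ZMod p)) * (1 + AA p a v) ^ k) * (1 + AA p a v) := (mul_assoc _ _ _).symm
            _ = (r ^ k • ((1 + AA p a v) ^ k * g)) * (1 + AA p a v) := by rw [ih]
            _ = r ^ k • ((1 + AA p a v) ^ k * ((g : Matrix (Fin (NN a)) (Fin (NN a)) (ZMod p)) * (1 + AA p a v))) := by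
              rw [Matrix.smul_mul, mul_assoc]
            _ = r ^ k • ((1 + AA p a v) ^ k * (r • ((1 + AA p a v) * g))) := by rw [hr]
            _ = _ := by rw [Matrix.mul_smul, smul_smul, mul_assoc]
      have h1 := hpow p
      rw [pow_char_one_add ha1, mul_one, one_mul, ZMod.pow_card] at h1
      have hr1 : r = 1 := by
        by_contra hne
        apply hdet
        have h2 : (1 - r) • (g : Matrix (Fin (NN a)) (Fin (NN a)) (ZMod p)) = 0 := by
          rw [sub_smul, one_smul, ← h1, sub_self]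
        exact (smul_eq_zero.1 h2).resolve_left (sub_ne_zero.2 (Ne.symm hne))
      rw [hr1, one_smul, mul_add, add_mul, mul_one, one_mul] at hr
      exact add_left_cancel hr
    have hsh0 : (g : Matrix (Fin (NN a)) (Fin (NN a)) (ZMod p)) * sh p a 0 = sh p a 0 * g := by
      have h1 := hunip ![1, 0, 0]
      simpa [AA] using h1
    have hsh1 : (g : Matrix (Fin (NN a)) (Fin (NN a)) (ZMod p)) * sh p a 1 = sh p a 1 * g := by
      have h1 := hunip ![0, 1, 0]
      simpa [AA] using h1
    have hTcomm : (g : Matrix (Fin (NN a)) (Fin (NN a)) (ZMod p)) * TT p a = TT p a * g := by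
      obtain ⟨r, hr⟩ := hcomm ⟨1, -1⟩
      have hval : ((Φ ⟨1, -1⟩ : SpecialLinearGroup (Fin (NN a)) (ZMod p)) : Matrix (Fin (NN a)) (Fin (NN a)) (ZMod p)) = TT p a := by
        rw [hΦ]
        have h1 : f₂ (-1) = T₁ := by simp [f₂]
        show ((f₁ 1 * f₂ (-1) : Matrix.SpecialLinearGroup (Fin (NN a)) (ZMod p)) : Matrix (Fin (NN a)) (Fin (NN a)) (ZMod p)) = TT p a
        rw [map_one, one_mul, h1]
      rw [hval] at hr
      have h1 : (g : Matrix (Fin (NN a)) (Fin (NN a)) (ZMod p)) * ((g⁻¹ : SpecialLinearGroup (Fin (NN a)) (ZMod p)) : Matrix (Fin (NN a)) (Fin (NN a)) (ZMod p)) = 1 := by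
        rw [← Matrix.SpecialLinearGroup.coe_mul, mul_inv_cancel]
        rfl
      have h2 : (g : Matrix (Fin (NN a)) (Fin (NN a)) (ZMod p)) * TT p a * ((g⁻¹ : SpecialLinearGroup (Fin (NN a)) (ZMod p)) : Matrix (Fin (NN a)) (Fin (NN a)) (ZMod p)) = r • TT p a := by
        rw [hr, Matrix.smul_mul, mul_assoc, h1, mul_one]
      have h3 := congrArg Matrix.trace h2
      rw [Matrix.trace_mul_comm, ← mul_assoc, Matrix.trace_smul, ← Matrix.SpecialLinearGroup.coe_mul, inv_mul_cancel,
        Matrix.SpecialLinearGroup.coe_one, one_mul, trace_TT] at h3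
      have hr1 : r = 1 := by
        simp only [smul_eq_mul] at h3
        linear_combination h3
      rw [hr, hr1, one_smul]
    obtain ⟨c, hc⟩ := scalar_of_commute hp ha1 (g : Matrix (Fin (NN a)) (Fin (NN a)) (ZMod p)) hTcomm hsh0 hsh1
    rw [QuotientGroup.eq_one_iff]
    rw [Matrix.SpecialLinearGroup.mem_center_iff]
    refine ⟨c, ?_, ?_⟩
    · have h1 := g.2
      rw [hc] at h1
      simpa [det_smul] using h1
    · rw [hc]
      ext i j
      simp [scalar_apply, diagonal_apply, one_apply]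

end Main


/-- For every odd prime `p` there is a finite group `H` of order `2p³` which, for infinitely many `n`, embeds in the projective special linear group `PSL(n, p)` as a subgroup with trivial centralizer. -/
theorem result
    (p : ℕ) [Fact p.Prime] (hp : p ≠ 2) :
    ∃ (H : Type) (_ : Group H) (_ : Finite H), Nat.card H = 2 * p ^ 3 ∧
      ∀ N : ℕ, ∃ n, N ≤ n ∧ ∃ φ : H →* Matrix.ProjectiveSpecialLinearGroup (Fin n) (ZMod p),
        Function.Injective φ ∧ Subgroup.centralizer (φ.range : Set (Matrix.ProjectiveSpecialLinearGroup (Fin n) (ZMod p))) = ⊥ := by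
  refine ⟨HH p, inferInstance, ?_, ?_, ?_⟩
  · have : Finite (Multiplicative (VV p)) := inferInstance
    exact Finite.of_equiv _ (SemidirectProduct.equivProd).symm
  · rw [Nat.card_congr (SemidirectProduct.equivProd), Nat.card_prod]
    have h1 : Nat.card (Multiplicative (VV p)) = p ^ 3 := by
      simp [Nat.card_eq_fintype_card, ZMod.card]
    rw [h1]
    simp [Nat.card_eq_fintype_card]
    ring
  · intro N
    refine ⟨NN (2 * N + 3), by show N ≤ (2 * N + 3) + ((2 * N + 3) + 1); omega, ?_⟩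
    exact main_thm hp (2 * N + 3) (by omega) ⟨N + 2, by omega⟩

end Cfsg.Agent.S2533
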