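import Cfsg.Statements.S2540
import Mathlib
import Cfsg.Agent.Lib.Classical.SL
import Cfsg.Agent.Lib.Classical.PSL

set_option autoImplicit false
open Cfsg

namespace Cfsg.Agent.S2540

theorem comm_of_central {G : Type*} [Group G] (z₁ z₂ k₁ k₂ : G) (hz₁ : ∀ x, x * z₁ = z₁ * x)
    (hz₂ : ∀ x, x * z₂ = z₂ * x) :
    (z₁ * k₁) * (z₂ * k₂) * (z₁ * k₁)⁻¹ * (z₂ * k₂)⁻¹ = k₁ * k₂ * k₁⁻¹ * k₂⁻¹ := by
  have h1 : ∀ x, z₁ * x * z₁⁻¹ = x := fun x => by rw [← hz₁, mul_inv_cancel_right]
  have h2 : ∀ x, z₂ * x * z₂⁻¹ = x := fun x => by rw [← hz₂, mul_inv_cancel_right]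
  calc (z₁ * k₁) * (z₂ * k₂) * (z₁ * k₁)⁻¹ * (z₂ * k₂)⁻¹
      = (z₁ * (k₁ * (z₂ * k₂) * k₁⁻¹) * z₁⁻¹) * (z₂ * k₂)⁻¹ := by group
    _ = (k₁ * (z₂ * k₂) * k₁⁻¹) * (z₂ * k₂)⁻¹ := by rw [h1]
    _ = (k₁ * z₂) * k₂ * k₁⁻¹ * k₂⁻¹ * z₂⁻¹ := by group
    _ = (z₂ * k₁) * k₂ * k₁⁻¹ * k₂⁻¹ * z₂⁻¹ := by rw [hz₂]
    _ = z₂ * (k₁ * k₂ * k₁⁻¹ * k₂⁻¹) * z₂⁻¹ := by group
    _ = _ := h2 _

theorem exists_not_sq {F : Type*} [Field F] [Fintype F] (h : 4 ≤ Fintype.card F) :
    ∃ a : F, a ≠ 0 ∧ a ^ 2 ≠ 1 := by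
  obtain ⟨x, hx⟩ : IsCyclic Fˣ := by infer_instance
  refine ⟨x, Units.ne_zero x, fun h2 ↦ ?_⟩
  have h3 : x ^ 2 = 1 := Units.ext (by simpa using h2)
  have h4 := orderOf_le_of_pow_eq_one (by norm_num : 0 < 2) h3
  rw [orderOf_eq_card_of_forall_mem_zpowers hx, Nat.card_units, Nat.card_eq_fintype_card] at h4
  omega


/-- Let F be a finite field and n ≥ 1, excluding the case n = 2 with #F ≤ 3. A subgroup of GL_n(F) that is normalized by every element of SL_n(F) either consists of scalar matrices or contains SL_n(F). -/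
theorem result {F : Type*} [Field F] [Fintype F] (n : ℕ) (hn : 1 ≤ n) (hex : ¬ (n = 2 ∧ Fintype.card F ≤ 3)) (G : Subgroup (Matrix.GeneralLinearGroup (Fin n) F)) (hG : ∀ s : Matrix.SpecialLinearGroup (Fin n) F, ∀ g ∈ G, (Matrix.SpecialLinearGroup.toGL s) * g * (Matrix.SpecialLinearGroup.toGL s)⁻¹ ∈ G) : (∀ g ∈ G, ∃ c : F, (g : Matrix (Fin n) (Fin n) F) = c • (1 : Matrix (Fin n) (Fin n) F)) ∨ (Matrix.SpecialLinearGroup.toGL : Matrix.SpecialLinearGroup (Fin n) F →* _).range ≤ G := by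
  classical
  -- degree one
  by_cases hn1 : n = 1
  · subst hn1
    left
    intro g _
    refine ⟨(g : Matrix (Fin 1) (Fin 1) F) 0 0, ?_⟩
    ext i j
    fin_cases i; fin_cases j
    simp
  have hn2 : 2 ≤ n := by omega
  -- perfectness and simplicity
  have key : commutator (Matrix.SpecialLinearGroup (Fin n) F) = ⊤ ∧ IsSimpleGroup (Matrix.ProjectiveSpecialLinearGroup (Fin n) F) := by
    by_cases h2 : n = 2
    · subst h2
      have hq : 4 ≤ Fintype.card F := by
        by_contra h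
        exact hex ⟨rfl, by omega⟩
      obtain ⟨a, ha, hasq⟩ := exists_not_sq hq
      refine ⟨Matrix.SL2.commutator_eq_top ha hasq, ?_⟩
      exact Matrix.ProjectiveSpecialLinearGroup.rank_two_simple (by rwa [Nat.card_eq_fintype_card])
    · have h3 : 3 ≤ Fintype.card (Fin n) := by simp; omega
      exact ⟨Lib.Classical.commutator_sl_eq_top_of_three_le h3, Lib.Classical.psl_isSimpleGroup_of_three_le h3⟩
  obtain ⟨hperf, hsimple⟩ := key
  let φ : Matrix.SpecialLinearGroup (Fin n) F →* Matrix.GeneralLinearGroup (Fin n) F := Matrix.SpecialLinearGroup.toGL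
  have hφinj : Function.Injective φ := Matrix.SpecialLinearGroup.toGL_injective
  let N : Subgroup (Matrix.SpecialLinearGroup (Fin n) F) := G.comap φ
  have hNnormal : N.Normal := by
    refine ⟨fun x hx s => ?_⟩
    show φ (s * x * s⁻¹) ∈ G
    rw [map_mul, map_mul, map_inv]
    exact hG s _ hx
  let Z := Subgroup.center (Matrix.SpecialLinearGroup (Fin n) F)
  let π : Matrix.SpecialLinearGroup (Fin n) F →* Matrix.ProjectiveSpecialLinearGroup (Fin n) F := QuotientGroup.mk' Z
  have hπsurj : Function.Surjective π := QuotientGroup.mk'_surjective Z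
  have hMnormal : (N.map π).Normal := hNnormal.map π hπsurj
  rcases hMnormal.eq_bot_or_eq_top with hM | hM
  · -- `N` is central
    left
    have hNZ : N ≤ Z := by
      rw [Subgroup.map_eq_bot_iff] at hM
      intro x hx
      have := hM hx
      simpa [π] using this
    intro g hg
    -- conjugation by `g` is the identity modulo the center
    have hζ : ∀ s : Matrix.SpecialLinearGroup (Fin n) F, ∃ ζ ∈ Z, g * φ s * g⁻¹ = φ (ζ * s) := by
      intro s
      let c : Matrix.GeneralLinearGroup (Fin n) F := g * φ s * g⁻¹ * (φ s)⁻¹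
      have hcdet : (c : Matrix (Fin n) (Fin n) F).det = 1 := by
        have h1 : Matrix.GeneralLinearGroup.det c = 1 := by
          simp only [c, map_mul, map_inv]
          simp [mul_comm]
        have := congrArg Units.val h1
        simpa using this
      let u : Matrix.SpecialLinearGroup (Fin n) F := ⟨c, hcdet⟩
      have hu : φ u = c := Units.ext rfl
      have huN : u ∈ N := by
        show φ u ∈ G
        rw [hu]
        have h1 : φ s * g⁻¹ * (φ s)⁻¹ ∈ G := hG s _ (G.inv_mem hg)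
        have h2 : c = g * (φ s * g⁻¹ * (φ s)⁻¹) := by simp only [c]; group
        rw [h2]
        exact G.mul_mem hg h1
      refine ⟨u, hNZ huN, ?_⟩
      rw [map_mul, hu]
      simp [c]
    -- hence `g` centralizes the commutators
    have hC : ∀ s : Matrix.SpecialLinearGroup (Fin n) F, g * φ s * g⁻¹ = φ s := by
      intro s
      have hs : s ∈ commutator (Matrix.SpecialLinearGroup (Fin n) F) := by rw [hperf]; trivial
      rw [commutator_eq_closure] at hs
      induction hs using Subgroup.closure_induction with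
      | mem x hx =>
        obtain ⟨a, b, rfl⟩ := hx
        obtain ⟨ζ₁, hζ₁, h₁⟩ := hζ a
        obtain ⟨ζ₂, hζ₂, h₂⟩ := hζ b
        have e := comm_of_central ζ₁ ζ₂ a b (Subgroup.mem_center_iff.1 hζ₁) (Subgroup.mem_center_iff.1 hζ₂)
        have e' := congrArg φ e
        simp only [map_mul, map_inv] at e' h₁ h₂
        show g * φ (a * b * a⁻¹ * b⁻¹) * g⁻¹ = φ (a * b * a⁻¹ * b⁻¹)
        simp only [map_mul, map_inv]
        calc g * (φ a * φ b * (φ a)⁻¹ * (φ b)⁻¹) * g⁻¹
            = (g * φ a * g⁻¹) * (g * φ b * g⁻¹) * (g * φ a * g⁻¹)⁻¹ * (g * φ b * g⁻¹)⁻¹ := by group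
          _ = _ := by rw [h₁, h₂, e']
      | one => simp
      | mul x y _ _ hx hy =>
        rw [map_mul]
        calc g * (φ x * φ y) * g⁻¹ = (g * φ x * g⁻¹) * (g * φ y * g⁻¹) := by group
          _ = _ := by rw [hx, hy]
      | inv x _ hx =>
        rw [map_inv]
        calc g * (φ x)⁻¹ * g⁻¹ = (g * φ x * g⁻¹)⁻¹ := by group
          _ = _ := by rw [hx]
    have hcomm : ∀ s : Matrix.SpecialLinearGroup (Fin n) F, g * φ s = φ s * g := by
      intro s
      calc g * φ s = (g * φ s * g⁻¹) * g := by group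
        _ = φ s * g := by rw [hC]
    have hr : (g : Matrix (Fin n) (Fin n) F) ∈ Set.range (Matrix.scalar (Fin n)) := by
      apply Matrix.mem_range_scalar_of_commute_transvectionStruct
      intro t
      have h1 := hcomm t.toSpecialLinearGroup
      have h2 := congrArg (fun M : Matrix.GeneralLinearGroup (Fin n) F => (M : Matrix (Fin n) (Fin n) F)) h1
      simp only [Units.val_mul] at h2
      exact h2.symm
    obtain ⟨c, hc⟩ := hr
    refine ⟨c, ?_⟩
    rw [← hc]
    ext i j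
    simp [Matrix.scalar_apply, Matrix.smul_apply, Matrix.one_apply, Matrix.diagonal_apply]
  · -- `N` is everything modulo the center, hence everything
    right
    have hNtop : N = ⊤ := by
      rw [eq_top_iff, ← hperf, commutator_def, Subgroup.commutator_le]
      intro a _ b _
      have hdec : ∀ s : Matrix.SpecialLinearGroup (Fin n) F, ∃ ζ ∈ Z, ∃ k ∈ N, s = ζ * k := by
        intro s
        have : π s ∈ N.map π := by rw [hM]; trivial
        obtain ⟨k, hk, hks⟩ := this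
        have h1 : k⁻¹ * s ∈ Z := by
          have : (QuotientGroup.mk k : Matrix.SpecialLinearGroup (Fin n) F ⧸ Z) = QuotientGroup.mk s := hks
          exact QuotientGroup.eq.1 this
        refine ⟨k⁻¹ * s, h1, k, hk, ?_⟩
        have h2 := Subgroup.mem_center_iff.1 h1 k
        calc s = k * (k⁻¹ * s) := by group
          _ = (k⁻¹ * s) * k := h2
      obtain ⟨ζ₁, hζ₁, k₁, hk₁, rfl⟩ := hdec a
      obtain ⟨ζ₂, hζ₂, k₂, hk₂, rfl⟩ := hdec b
      have e := comm_of_central ζ₁ ζ₂ k₁ k₂ (Subgroup.mem_center_iff.1 hζ₁) (Subgroup.mem_center_iff.1 hζ₂)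
      show (ζ₁ * k₁) * (ζ₂ * k₂) * (ζ₁ * k₁)⁻¹ * (ζ₂ * k₂)⁻¹ ∈ N
      rw [e]
      exact N.mul_mem (N.mul_mem (N.mul_mem hk₁ hk₂) (N.inv_mem hk₁)) (N.inv_mem hk₂)
    rintro _ ⟨s, rfl⟩
    have : s ∈ N := by rw [hNtop]; trivial
    exact this

end Cfsg.Agent.S2540
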