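import Cfsg.Statements.S2541
import Mathlib

set_option autoImplicit false
open Cfsg

namespace Cfsg.Agent.S2541

theorem perm_six (σ : Equiv.Perm (Fin 6)) (h : σ ^ 8 = 1) : σ ^ 4 = 1 := by
  rw [← orderOf_dvd_iff_pow_eq_one] at h ⊢
  rw [← Equiv.Perm.lcm_cycleType, Multiset.lcm_dvd]
  intro n hn
  have h1 : n ∣ 8 := (Equiv.Perm.dvd_of_mem_cycleType hn).trans h
  have h2 : n ≤ 6 := by
    have h3 := Equiv.Perm.le_card_support_of_mem_cycleType hn
    have h4 := Finset.card_le_univ σ.support
    simp at h4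
    omega
  have h5 : n ≤ 8 := Nat.le_of_dvd (by norm_num) h1
  interval_cases n <;> first | omega | norm_num | (exfalso; revert h1; norm_num)


/-- Let F be a field with 9 elements. The symmetric group S_6 is not isomorphic to PGL_2(F) (although both have index-2 subgroups isomorphic to A_6). -/
theorem result {F : Type*} [Field F] [Fintype F] (hF : Fintype.card F = 9) : ¬ Nonempty (Equiv.Perm (Fin 6) ≃* Matrix.ProjGenLinGroup (Fin 2) F) := by
  classical
  rintro ⟨φ⟩
  obtain ⟨g, hg⟩ := IsCyclic.exists_generator (α := Fˣ)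
  have hord : orderOf g = 8 := by
    rw [orderOf_eq_card_of_forall_mem_zpowers hg, Nat.card_eq_fintype_card, Fintype.card_units, hF]
  let D : Fin 2 → F := ![(g : F), 1]
  have hD : (Matrix.diagonal D).det ≠ 0 := by
    rw [Matrix.det_diagonal, Fin.prod_univ_two]
    simp [D]
  let d : GL (Fin 2) F := Matrix.GeneralLinearGroup.mkOfDetNeZero (Matrix.diagonal D) hD
  have hd : ∀ k : ℕ, ((d ^ k : GL (Fin 2) F) : Matrix (Fin 2) (Fin 2) F) = Matrix.diagonal (D ^ k) := by
    intro k
    rw [Units.val_pow_eq_pow_val]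
    show (Matrix.diagonal D) ^ k = _
    rw [Matrix.diagonal_pow]
  have hg8 : (g : F) ^ 8 = 1 := by
    have : g ^ 8 = 1 := by rw [← hord]; exact pow_orderOf_eq_one g
    have := congrArg (Units.val) this
    simpa using this
  have hg4 : (g : F) ^ 4 ≠ 1 := by
    intro h
    have : g ^ 4 = 1 := by
      apply Units.ext
      simpa using h
    have := orderOf_dvd_of_pow_eq_one this
    rw [hord] at this
    norm_num at this
  let x : Matrix.ProjGenLinGroup (Fin 2) F := Matrix.ProjGenLinGroup.mk d
  have hx8 : x ^ 8 = 1 := by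
    have h1 : d ^ 8 = 1 := by
      apply Units.ext
      rw [hd]
      ext i j
      fin_cases i <;> fin_cases j <;> simp [D, hg8, Matrix.diagonal, Matrix.one_apply]
    show (Matrix.ProjGenLinGroup.mk d) ^ 8 = 1
    rw [← map_pow, h1, map_one]
  have hx4 : x ^ 4 ≠ 1 := by
    intro h
    have h1 : (Matrix.ProjGenLinGroup.mk (d ^ 4)) = 1 := by
      rw [map_pow]; exact h
    rw [Matrix.ProjGenLinGroup.mk_eq_one, Matrix.GeneralLinearGroup.center_eq_range_scalar] at h1
    obtain ⟨u, hu⟩ := h1
    have hu' := congrArg (fun M : GL (Fin 2) F => (M : Matrix (Fin 2) (Fin 2) F)) hu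
    simp only [hd] at hu'
    have h00 := congrFun (congrFun hu' 0) 0
    have h11 := congrFun (congrFun hu' 1) 1
    simp [D] at h00 h11
    rw [h11] at h00
    exact hg4 h00.symm
  have h1 : (φ.symm x) ^ 8 = 1 := by rw [← map_pow, hx8, map_one]
  have h2 := perm_six _ h1
  rw [← map_pow] at h2
  exact hx4 (φ.symm.injective (by rw [h2, map_one]))

end Cfsg.Agent.S2541
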