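import Cfsg.Statements.S2544
import Cfsg.Agent.Lib.H14.PSLSt

set_option autoImplicit false
open Cfsg

namespace Cfsg.Agent.S2544

open Cfsg.Agent.Lib.H14.SLBN Cfsg.Agent.Lib.Known.BNSt in
theorem aux {F : Type*} [Field F] [Fintype F] (p : ℕ) [hp : Fact p.Prime] [CharP F p] (m : ℕ) :
    ∃ χ : Matrix.ProjectiveSpecialLinearGroup (Fin (m + 1)) F → ℂ, Cfsg.IsIrrCharacter (Matrix.ProjectiveSpecialLinearGroup (Fin (m + 1)) F) χ ∧ ∀ P : Sylow p (Matrix.ProjectiveSpecialLinearGroup (Fin (m + 1)) F), χ 1 = Nat.card P ∧ ∀ x : Matrix.ProjectiveSpecialLinearGroup (Fin (m + 1)) F, x ∈ P → x ≠ 1 → χ x = 0 := by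
  classical
  letI : Fintype (PS m F) := Fintype.ofFinite _
  have hirr : IsIrrCharacter (PS m F) (St (pslBN m F) Finset.univ lbl) := St_irr lab_psl
  have hn₀ : pr m F (w0 m F) ∈ (pslBN m F).N := ⟨_, ⟨_, w0_mon⟩, rfl⟩
  have hone : St (pslBN m F) Finset.univ lbl 1 = ((Fintype.card F ^ ((m + 1).choose 2) : ℕ) : ℂ) := by
    rw [St_one lab_psl hn₀ w0_top, card_quot_top]
  have hpow := pow_fact_PSL (F := F) p (m + 1) (by omega)
  refine ⟨St (pslBN m F) Finset.univ lbl, hirr, fun P => ⟨?_, fun x hx hne => ?_⟩⟩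
  · rw [hone, Sylow.card_eq_multiplicity P]
    exact_mod_cast hpow.symm
  · have hxp : p ∣ orderOf x := by
      have hPp : IsPGroup p P := P.isPGroup'
      obtain ⟨k, hk⟩ := (hPp ⟨x, hx⟩)
      have h1 : orderOf x ∣ p ^ k := by
        apply orderOf_dvd_of_pow_eq_one
        have := congrArg Subtype.val hk
        simpa using this
      obtain ⟨j, -, hj⟩ := (Nat.dvd_prime_pow hp.out).1 h1
      rw [hj]
      have hj0 : j ≠ 0 := by
        rintro rfl
        apply hne
        simpa using hj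
      exact dvd_pow_self p hj0
    apply Cfsg.Agent.Lib.Char.apply_eq_zero_of_defect_zero hirr hp.out _ hxp
    rw [hpow]
    have h1 := Cfsg.Agent.Lib.Char.apply_one_eq_charDegree (Cfsg.Agent.Lib.Char.IsIrrCharacter.isCharacter hirr)
    rw [hone] at h1
    have h2 : Cfsg.charDegree (St (pslBN m F) Finset.univ lbl) = Fintype.card F ^ ((m + 1).choose 2) := by
      exact_mod_cast h1.symm
    rw [h2]



/-- Let F be a finite field of characteristic p and consider the projective special linear group PSL_n(F) with n ≥ 2. This group has an irreducible complex character χ whose degree equals the order of a Sylow p-subgroup (namely q^(n(n−1)/2) when #F = q) and whose restriction to any Sylow p-subgroup P is the regular character of P: χ vanishes on the non-identity elements of P. (This is the Steinberg character.) -/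
theorem result {F : Type*} [Field F] [Fintype F] (p : ℕ) [Fact p.Prime] [CharP F p] (n : ℕ) (hn : 2 ≤ n) : ∃ χ : Matrix.ProjectiveSpecialLinearGroup (Fin n) F → ℂ, Cfsg.IsIrrCharacter (Matrix.ProjectiveSpecialLinearGroup (Fin n) F) χ ∧ ∀ P : Sylow p (Matrix.ProjectiveSpecialLinearGroup (Fin n) F), χ 1 = Nat.card P ∧ ∀ x : Matrix.ProjectiveSpecialLinearGroup (Fin n) F, x ∈ P → x ≠ 1 → χ x = 0 := by
  obtain ⟨m, rfl⟩ : ∃ m, n = m + 1 := ⟨n - 1, by omega⟩
  exact aux p m

end Cfsg.Agent.S2544
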