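import Cfsg.Statements.S2550
import Mathlib
import Cfsg.Agent.Lib.Psl34.Basic
import Cfsg.Agent.Lib.Classical.Card2

set_option autoImplicit false
open Cfsg

namespace Cfsg.Agent.S2550


/-- Let F be a field with 2 elements and K a field with 4 elements. PSL_4(F) and PSL_3(K) have the same order (20160) but are not isomorphic. -/
theorem result {F K : Type*} [Field F] [Fintype F] [Field K] [Fintype K] (hF : Fintype.card F = 2) (hK : Fintype.card K = 4) : Nat.card (Matrix.ProjectiveSpecialLinearGroup (Fin 4) F) = Nat.card (Matrix.ProjectiveSpecialLinearGroup (Fin 3) K) ∧ ¬ Nonempty (Matrix.ProjectiveSpecialLinearGroup (Fin 4) F ≃* Matrix.ProjectiveSpecialLinearGroup (Fin 3) K) := by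
  classical
  have hp2 : (2 : F) = 0 := by
    obtain ⟨p, hp⟩ := CharP.exists F
    haveI := hp
    obtain ⟨m, hprime, hpm⟩ := FiniteField.card F p
    have h1 : p ∣ 2 := by
      rw [← hF, hpm]
      exact dvd_pow_self p m.ne_zero
    have h2 := (Nat.prime_dvd_prime_iff_eq hprime Nat.prime_two).1 h1
    have h3 := CharP.cast_eq_zero F p
    rw [h2] at h3
    exact_mod_cast h3
  have hone : ∀ x : F, x ≠ 0 → x = 1 := by
    intro x hx
    have h1 := FiniteField.pow_card_sub_one_eq_one x hx
    rw [hF] at h1
    simpa using h1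
  constructor
  · -- the orders
    have h4 : Nat.card (Matrix.ProjectiveSpecialLinearGroup (Fin 4) F) = 20160 := by
      have h1 := Cfsg.Agent.Lib.Classical.card_GL_eq_gcd_mul_card_PSL (F := F) 4 (by norm_num)
      have hcF : Nat.card F = 2 := by rw [Nat.card_eq_fintype_card, hF]
      have hgl : Nat.card (GL (Fin 4) F) = 20160 := by
        rw [Matrix.card_GL_field, hF]
        simp [Fin.prod_univ_four]
      rw [hgl, hcF] at h1
      have e : Nat.gcd 4 (2 - 1) = 1 := by decide
      rw [e] at h1
      omega
    have h3 : Nat.card (Matrix.ProjectiveSpecialLinearGroup (Fin 3) K) = 20160 := by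
      have h1 := Cfsg.Agent.Lib.Classical.card_GL_eq_gcd_mul_card_PSL (F := K) 3 (by norm_num)
      have hcK : Nat.card K = 4 := by rw [Nat.card_eq_fintype_card, hK]
      have hgl : Nat.card (GL (Fin 3) K) = 181440 := by
        rw [Matrix.card_GL_field, hK]
        simp [Fin.prod_univ_three]
      rw [hgl, hcK] at h1
      have e : Nat.gcd 3 (4 - 1) = 3 := by decide
      rw [e] at h1
      omega
    rw [h4, h3]
  · rintro ⟨φ⟩
    -- an element of order six in `GL₄(2)`
    let M : Matrix (Fin 4) (Fin 4) F := !![0,1,0,0;1,1,0,0;0,0,1,1;0,0,0,1]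
    have h11 : (1 : F) + 1 = 0 := by rw [one_add_one_eq_two, hp2]
    let M3 : Matrix (Fin 4) (Fin 4) F := !![1,0,0,0;0,1,0,0;0,0,1,1;0,0,0,1]
    have hM3 : M * M * M = M3 := by
      ext i j
      fin_cases i <;> fin_cases j <;>
        simp [M, M3, Matrix.mul_apply, Fin.sum_univ_four, h11, ← add_assoc]
    have hM33 : M3 * M3 = 1 := by
      ext i j
      fin_cases i <;> fin_cases j <;>
        simp [M3, Matrix.mul_apply, Fin.sum_univ_four, h11, ← add_assoc, Matrix.one_apply]
    have hM6 : M ^ 6 = 1 := by
      have h1 : M ^ 6 = (M * M * M) * (M * M * M) := by noncomm_ring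
      rw [h1, hM3, hM33]
    have hdet : M.det = 1 := by
      apply hone
      have h1 : IsUnit M := by
        refine IsUnit.of_mul_eq_one (M ^ 5) ?_
        rw [← pow_succ', hM6]
      exact ((Matrix.isUnit_iff_isUnit_det _).1 h1).ne_zero
    let s : Matrix.SpecialLinearGroup (Fin 4) F := ⟨M, hdet⟩
    have hs6 : s ^ 6 = 1 := by
      apply Subtype.ext
      rw [Matrix.SpecialLinearGroup.coe_pow]
      exact hM6
    -- the centre is trivial
    have hcen : ∀ t : Matrix.SpecialLinearGroup (Fin 4) F, t ∈ Subgroup.center (Matrix.SpecialLinearGroup (Fin 4) F) → t = 1 := by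
      intro t ht
      obtain ⟨r, hr, hr2⟩ := Matrix.SpecialLinearGroup.mem_center_iff.1 ht
      have hr0 : r ≠ 0 := by
        rintro rfl
        simp at hr
      apply Subtype.ext
      rw [← hr2, hone r hr0]
      simp
    let x : Matrix.ProjectiveSpecialLinearGroup (Fin 4) F := QuotientGroup.mk s
    have hx : orderOf x = 6 := by
      have hx6 : x ^ 6 = 1 := by
        show (QuotientGroup.mk s : Matrix.ProjectiveSpecialLinearGroup (Fin 4) F) ^ 6 = 1
        rw [← QuotientGroup.mk_pow, hs6]
        rfl
      have hnot2 : ¬ x ^ 2 = 1 := by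
        intro h
        have h1 : s ^ 2 = 1 := by
          apply hcen
          apply (QuotientGroup.eq_one_iff _).1
          rw [QuotientGroup.mk_pow]
          exact h
        have h2 : (s ^ 2 : Matrix.SpecialLinearGroup (Fin 4) F).1 0 1 = 1 := by
          rw [Matrix.SpecialLinearGroup.coe_pow]
          show (M ^ 2) 0 1 = 1
          simp [M, pow_two, Matrix.mul_apply, Fin.sum_univ_four]
        rw [h1] at h2
        simp at h2
      have hnot3 : ¬ x ^ 3 = 1 := by
        intro h
        have h1 : s ^ 3 = 1 := by
          apply hcen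
          apply (QuotientGroup.eq_one_iff _).1
          rw [QuotientGroup.mk_pow]
          exact h
        have h2 : (s ^ 3 : Matrix.SpecialLinearGroup (Fin 4) F).1 2 3 = 1 := by
          rw [Matrix.SpecialLinearGroup.coe_pow]
          have h3 : M ^ 3 = M * M * M := by noncomm_ring
          rw [h3, hM3]
          simp [M3]
        rw [h1] at h2
        simp at h2
      have hd := orderOf_dvd_of_pow_eq_one hx6
      have hmem : orderOf x ∈ Nat.divisors 6 := Nat.mem_divisors.2 ⟨hd, by norm_num⟩
      have hdiv : Nat.divisors 6 = {1, 2, 3, 6} := by decide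
      rw [hdiv] at hmem
      simp only [Finset.mem_insert, Finset.mem_singleton] at hmem
      rcases hmem with h | h | h | h
      · exfalso
        apply hnot2
        rw [orderOf_eq_one_iff.1 h, one_pow]
      · exfalso
        apply hnot2
        rw [← h, pow_orderOf_eq_one]
      · exfalso
        apply hnot3
        rw [← h, pow_orderOf_eq_one]
      · exact h
    have hy : orderOf (φ x) = 6 := by
      rw [MulEquiv.orderOf_eq]
      exact hx
    exact Cfsg.Agent.Lib.Psl34.orderOf_ne_six hK (φ x) hy

end Cfsg.Agent.S2550
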