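import Cfsg.Statements.S2551
import Mathlib
import Cfsg.Agent.S0256
import Cfsg.Agent.Lib.Misc19.GL42

set_option autoImplicit false
open Cfsg

namespace Cfsg.Agent.S2551



/-- Let F be the field with 2 elements. GL_4(F) (≅ A_8) has a subgroup isomorphic to the alternating group A_7, and every such subgroup acts 2-transitively on the 15 non-zero vectors of F⁴: any ordered pair of distinct non-zero vectors is carried to any other by some element of the subgroup. -/
theorem result {F : Type*} [Field F] [Fintype F] (hF : Fintype.card F = 2) : (∃ H : Subgroup (Matrix.GeneralLinearGroup (Fin 4) F), Nonempty (H ≃* alternatingGroup (Fin 7))) ∧ ∀ H : Subgroup (Matrix.GeneralLinearGroup (Fin 4) F), Nonempty (H ≃* alternatingGroup (Fin 7)) → ∀ v w v' w' : Fin 4 → F, v ≠ 0 → w ≠ 0 → v ≠ w → v' ≠ 0 → w' ≠ 0 → v' ≠ w' → ∃ g ∈ H, (g : Matrix (Fin 4) (Fin 4) F).mulVec v = v' ∧ (g : Matrix (Fin 4) (Fin 4) F).mulVec w = w' := by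

  classical
  obtain ⟨e⟩ := Cfsg.Agent.S0256.result hF
  refine ⟨Cfsg.Agent.Lib.Misc19.exists_alt7 hF e, ?_⟩
  rintro H ⟨φ⟩ v w v' w' h1 h2 h3 h4 h5 h6
  have hH : Nat.card H = 2520 := by
    rw [Nat.card_congr φ.toEquiv, Nat.card_eq_fintype_card]
    have h := two_mul_card_alternatingGroup (α := Fin 7)
    rw [Fintype.card_perm, Fintype.card_fin] at h
    have h7 : Nat.factorial 7 = 5040 := rfl
    omega
  exact Cfsg.Agent.Lib.Misc19.gl_two_transitive hF H hH v w v' w' h1 h2 h3 h4 h5 h6

end Cfsg.Agent.S2551
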