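import Cfsg.Statements.S2552
import Mathlib

set_option autoImplicit false
open Cfsg

namespace Cfsg.Agent.S2552


/-- Let F be a finite field and n ≥ 1. For every k, the special linear group SL_n(F) acts transitively on the set of k-dimensional subspaces of F^n: any two subspaces of the same dimension are carried onto each other by some matrix of determinant 1. -/
theorem result {F : Type*} [Field F] [Fintype F] (n : ℕ) (hn : 1 ≤ n) (U₁ U₂ : Submodule F (Fin n → F)) (h : Module.finrank F U₁ = Module.finrank F U₂) : ∃ g : Matrix.SpecialLinearGroup (Fin n) F, U₁.map ((Matrix.SpecialLinearGroup.toLin' g : (Fin n → F) ≃ₗ[F] (Fin n → F)) : (Fin n → F) →ₗ[F] (Fin n → F)) = U₂ := by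
  classical
  obtain ⟨C₁, hC₁⟩ := Submodule.exists_isCompl U₁
  obtain ⟨C₂, hC₂⟩ := Submodule.exists_isCompl U₂
  have hc : Module.finrank F C₂ = Module.finrank F C₁ := by
    have h1 := Submodule.finrank_add_eq_of_isCompl hC₁
    have h2 := Submodule.finrank_add_eq_of_isCompl hC₂
    omega
  let ι := Fin (Module.finrank F U₁) ⊕ Fin (Module.finrank F C₁)
  let bU₁ := Module.finBasis F U₁
  let bC₁ := Module.finBasis F C₁
  let bU₂ := (Module.finBasis F U₂).reindex (finCongr h.symm)
  let bC₂ := (Module.finBasis F C₂).reindex (finCongr hc)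
  let b₁ : Module.Basis ι F (Fin n → F) := (bU₁.prod bC₁).map (Submodule.prodEquivOfIsCompl U₁ C₁ hC₁)
  let b₂ : Module.Basis ι F (Fin n → F) := (bU₂.prod bC₂).map (Submodule.prodEquivOfIsCompl U₂ C₂ hC₂)
  have hb₁ : ∀ i, b₁ (Sum.inl i) = (bU₁ i : Fin n → F) := by
    intro i
    have h1 := Module.Basis.prod_apply_inl_fst bU₁ bC₁ i
    have h2 := Module.Basis.prod_apply_inl_snd bU₁ bC₁ i
    show Submodule.prodEquivOfIsCompl U₁ C₁ hC₁ ((bU₁.prod bC₁) (Sum.inl i)) = _
    rw [Submodule.coe_prodEquivOfIsCompl', h1, h2]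
    simp
  have hb₂ : ∀ i, b₂ (Sum.inl i) = (bU₂ i : Fin n → F) := by
    intro i
    have h1 := Module.Basis.prod_apply_inl_fst bU₂ bC₂ i
    have h2 := Module.Basis.prod_apply_inl_snd bU₂ bC₂ i
    show Submodule.prodEquivOfIsCompl U₂ C₂ hC₂ ((bU₂.prod bC₂) (Sum.inl i)) = _
    rw [Submodule.coe_prodEquivOfIsCompl', h1, h2]
    simp
  have hne : Nonempty ι := by
    have hcard : Fintype.card ι = n := by
      have := Module.finrank_eq_card_basis b₁
      simpa using this.symm
    have : 0 < Fintype.card ι := by omega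
    exact Fintype.card_pos_iff.1 this
  obtain ⟨i₀⟩ := hne
  let du : Fˣ := (b₁.isUnit_det b₂).unit
  let w : ι → Fˣ := Function.update 1 i₀ du⁻¹
  have hw : ∏ i, (w i : F) = (du⁻¹ : Fˣ) := by
    rw [Finset.prod_eq_single i₀]
    · simp [w]
    · intro b _ hb
      simp [w, Function.update_of_ne hb]
    · simp
  let b₂' := b₂.unitsSMul w
  let f : (Fin n → F) ≃ₗ[F] (Fin n → F) := b₁.equiv b₂' (Equiv.refl ι)
  have hdet : LinearMap.det (f : (Fin n → F) →ₗ[F] (Fin n → F)) = 1 := by
    have h1 := b₁.det_comp (f : (Fin n → F) →ₗ[F] (Fin n → F)) b₁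
    rw [b₁.det_self, mul_one] at h1
    rw [← h1]
    have h2 : (↑f : (Fin n → F) →ₗ[F] (Fin n → F)) ∘ b₁ = b₂' := by
      ext1 i
      simp [f, Module.Basis.equiv_apply]
    rw [h2]
    have h3 : b₁.det b₂' = b₁.det b₂ * b₂.det b₂' := (b₁.det_mul_det b₂ b₂').symm
    rw [h3, b₂.det_unitsSMul_self, hw]
    show (du : F) * _ = 1
    simp
  let g : Matrix.SpecialLinearGroup (Fin n) F :=
    ⟨LinearMap.toMatrix' (f : (Fin n → F) →ₗ[F] (Fin n → F)), by
      rw [LinearMap.det_toMatrix']; exact hdet⟩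
  refine ⟨g, ?_⟩
  have hg : ((Matrix.SpecialLinearGroup.toLin' g : (Fin n → F) ≃ₗ[F] (Fin n → F)) : (Fin n → F) →ₗ[F] (Fin n → F)) = (f : (Fin n → F) →ₗ[F] (Fin n → F)) := by
    refine LinearMap.ext fun v => ?_
    show Matrix.toLin' (LinearMap.toMatrix' (f : (Fin n → F) →ₗ[F] (Fin n → F))) v = f v
    rw [Matrix.toLin'_toMatrix']
    rfl
  rw [hg]
  apply Submodule.eq_of_le_of_finrank_eq
  · rw [Submodule.map_le_iff_le_comap]
    intro x hx
    have hmem : (⟨x, hx⟩ : U₁) ∈ Submodule.span F (Set.range bU₁) := by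
      rw [bU₁.span_eq]; trivial
    have hP : ∀ y : U₁, y ∈ Submodule.span F (Set.range bU₁) → f (y : Fin n → F) ∈ U₂ := by
      intro y hy
      induction hy using Submodule.span_induction with
      | mem y hy =>
        obtain ⟨i, rfl⟩ := hy
        rw [← hb₁ i]
        have : f (b₁ (Sum.inl i)) = b₂' (Sum.inl i) := by simp [f, Module.Basis.equiv_apply]
        rw [this]
        simp only [b₂', Module.Basis.unitsSMul_apply, hb₂]
        exact U₂.smul_of_tower_mem _ (bU₂ i).2
      | zero => simp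
      | add a b _ _ ha hb =>
        simp only [Submodule.coe_add, map_add]
        exact U₂.add_mem ha hb
      | smul c a _ ha =>
        simp only [Submodule.coe_smul, map_smul]
        exact U₂.smul_mem c ha
    exact Submodule.mem_comap.2 (hP ⟨x, hx⟩ hmem)
  · rw [LinearEquiv.finrank_map_eq]
    exact h

end Cfsg.Agent.S2552
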