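import Cfsg.Statements.S2561
import Mathlib
import Cfsg.Agent.Lib.Arf.Types

set_option autoImplicit false
open Cfsg

namespace Cfsg.Agent.S2561

open Cfsg.Agent.Lib.Arf Cfsg.Agent.Lib.Quad Module

theorem card_vp (m : ℕ) : Fintype.card (Vp m) = 2 ^ (2 * m) := by
  simp [Vp, two_mul]

theorem isQ_phi (m : ℕ) (w u v : Vp m) :
    (Cfsg.quadFormPlus m (ZMod 2) (u + v) + pf m (u + v) w) =
      (Cfsg.quadFormPlus m (ZMod 2) u + pf m u w) + (Cfsg.quadFormPlus m (ZMod 2) v + pf m v w) + pf m u v := by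
  rw [pf_add_left]
  have : Cfsg.quadFormPlus m (ZMod 2) (u + v) = Cfsg.quadFormPlus m (ZMod 2) u + Cfsg.quadFormPlus m (ZMod 2) v + pf m u v := by
    rw [pf]; ring
  rw [this]; ring

theorem quad_add (m : ℕ) (u v : Vp m) :
    Cfsg.quadFormPlus m (ZMod 2) (u + v) = Cfsg.quadFormPlus m (ZMod 2) u + Cfsg.quadFormPlus m (ZMod 2) v + pf m u v := by
  rw [pf]; ring

theorem pf_inj (m : ℕ) (w w' : Vp m) (h : ∀ v, pf m v w = pf m v w') : w = w' := by
  by_contra hne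
  have hne' : w + w' ≠ 0 := by
    intro h0
    apply hne
    have : w = -w' := eq_neg_of_add_eq_zero_left h0
    rw [this]
    ext i
    simp
  obtain ⟨u, hu⟩ := pf_nondeg m _ hne'
  rw [pf_add_right, h, CharTwo.add_self_eq_zero] at hu
  exact zero_ne_one hu

theorem exists_w (m : ℕ) (l : Vp m → ZMod 2) (hl : ∀ u v, l (u + v) = l u + l v) : ∃ w, ∀ v, l v = pf m v w := by
  let L : Vp m →ₗ[ZMod 2] ZMod 2 := AddMonoidHom.toZModLinearMap 2 (AddMonoidHom.mk' l hl)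
  have hinj : Function.Injective ((pfBilin m).flip : Vp m →ₗ[ZMod 2] Module.Dual (ZMod 2) (Vp m)) := by
    intro a b hab
    apply pf_inj
    intro v
    have := LinearMap.congr_fun hab v
    simpa using this
  have hfr : finrank (ZMod 2) (Vp m) = finrank (ZMod 2) (Module.Dual (ZMod 2) (Vp m)) :=
    (Subspace.dual_finrank_eq).symm
  obtain ⟨w, hw⟩ := (LinearMap.injective_iff_surjective_of_finrank_eq_finrank hfr).1 hinj L
  refine ⟨w, fun v => ?_⟩
  have := LinearMap.congr_fun hw v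
  simpa [L] using this.symm

theorem isQ_sub (m : ℕ) (q : Vp m → ZMod 2) (hq : ∀ u v, q (u + v) = q u + q v + pf m u v) :
    ∃ w, q = fun v => Cfsg.quadFormPlus m (ZMod 2) v + pf m v w := by
  obtain ⟨w, hw⟩ := exists_w m (fun v => q v - Cfsg.quadFormPlus m (ZMod 2) v) (fun u v => by
    simp only [hq, quad_add]; ring)
  refine ⟨w, funext fun v => ?_⟩
  rw [← hw]; ring

theorem dichotomy (m : ℕ) (hm : 1 ≤ m) (q : Vp m → ZMod 2) (hq : ∀ u v, q (u + v) = q u + q v + pf m u v) :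
    (∃ g : Vp m ≃ₗ[ZMod 2] Vp m, ∀ v, q v = Cfsg.quadFormPlus m (ZMod 2) (g v)) ∨
    (∃ g : Vp m ≃ₗ[ZMod 2] Vm (m - 1), ∀ v, q v = Cfsg.quadFormMinus (m - 1) (ZMod 2) 1 1 (g v)) := by
  have hfr : finrank (ZMod 2) (Vp m) = 2 * m := by
    rw [Module.finrank_fintype_fun_eq_card]
    simp [two_mul]
  refine exists_type hm hfr (mkQF q (pfBilin m) hq) ?_
  intro v hv
  by_contra hne
  obtain ⟨u, hu⟩ := pf_nondeg m v hne
  have h1 := hv u
  have h2 : QuadraticMap.polar (⇑(mkQF q (pfBilin m) hq)) v u = pf m v u := by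
    show q (v + u) - q v - q u = pf m v u
    rw [hq]
    ring
  rw [h2, pf_comm, hu] at h1
  exact one_ne_zero h1

theorem sign_plus (m : ℕ) (q : Vp m → ZMod 2)
    (h : ∃ g : Vp m ≃ₗ[ZMod 2] Vp m, ∀ v, q v = Cfsg.quadFormPlus m (ZMod 2) (g v)) : gaussSum q = 2 ^ m := by
  obtain ⟨g, hg⟩ := h
  rw [funext hg]
  exact (gaussSum_equiv g.toEquiv (Cfsg.quadFormPlus m (ZMod 2))).trans (gaussSum_plus m)

theorem sign_minus (m : ℕ) (hm : 1 ≤ m) (q : Vp m → ZMod 2)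
    (h : ∃ g : Vp m ≃ₗ[ZMod 2] Vm (m - 1), ∀ v, q v = Cfsg.quadFormMinus (m - 1) (ZMod 2) 1 1 (g v)) :
    gaussSum q = - 2 ^ m := by
  obtain ⟨g, hg⟩ := h
  rw [funext hg]
  refine (gaussSum_equiv g.toEquiv (Cfsg.quadFormMinus (m - 1) (ZMod 2) 1 1)).trans ?_
  rw [gaussSum_minus, Nat.sub_add_cancel hm]

theorem sign_phi (m : ℕ) (w : Vp m) :
    gaussSum (fun v => Cfsg.quadFormPlus m (ZMod 2) v + pf m v w) = chi (Cfsg.quadFormPlus m (ZMod 2) w) * 2 ^ m := by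
  have h1 := gaussSum_translate (Cfsg.quadFormPlus m (ZMod 2)) (pf m) (quad_add m) w
  rw [gaussSum_plus] at h1
  rw [h1, ← mul_assoc, chi_mul_self, one_mul]

/-- Fix the non-singular alternating form on the 2m-dimensional space over the field of two elements obtained by polarizing the plus-type form Σ xᵢyᵢ (m ≥ 1). The functions q on the space with q(u + v) = q(u) + q(v) + f(u, v) (the quadratic forms polarizing to f) number 2^(2m); each is equivalent under an invertible linear map either to the plus-type form or to the minus-type form Σ xᵢyᵢ + (z₁² + z₁z₂ + z₂²); and those of plus type number 2^(2m−1) + 2^(m−1), those of minus type 2^(2m−1) − 2^(m−1). -/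
theorem result (m : ℕ) (hm : 1 ≤ m) :
    Nat.card {q : (Fin m ⊕ Fin m → ZMod 2) → ZMod 2 // (∀ u v : (Fin m ⊕ Fin m → ZMod 2), q (u + v) = q u + q v + (Cfsg.quadFormPlus m (ZMod 2) (u + v) - Cfsg.quadFormPlus m (ZMod 2) u - Cfsg.quadFormPlus m (ZMod 2) v))} = 2 ^ (2 * m) ∧
    (∀ q : (Fin m ⊕ Fin m → ZMod 2) → ZMod 2, (∀ u v : (Fin m ⊕ Fin m → ZMod 2), q (u + v) = q u + q v + (Cfsg.quadFormPlus m (ZMod 2) (u + v) - Cfsg.quadFormPlus m (ZMod 2) u - Cfsg.quadFormPlus m (ZMod 2) v)) →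
      (∃ g : (Fin m ⊕ Fin m → ZMod 2) ≃ₗ[ZMod 2] (Fin m ⊕ Fin m → ZMod 2), ∀ v, q v = Cfsg.quadFormPlus m (ZMod 2) (g v)) ∨
      (∃ g : (Fin m ⊕ Fin m → ZMod 2) ≃ₗ[ZMod 2] ((Fin (m - 1) ⊕ Fin (m - 1)) ⊕ Fin 2 → ZMod 2), ∀ v, q v = Cfsg.quadFormMinus (m - 1) (ZMod 2) 1 1 (g v))) ∧
    Nat.card {q : (Fin m ⊕ Fin m → ZMod 2) → ZMod 2 // (∀ u v : (Fin m ⊕ Fin m → ZMod 2), q (u + v) = q u + q v + (Cfsg.quadFormPlus m (ZMod 2) (u + v) - Cfsg.quadFormPlus m (ZMod 2) u - Cfsg.quadFormPlus m (ZMod 2) v)) ∧ ∃ g : (Fin m ⊕ Fin m → ZMod 2) ≃ₗ[ZMod 2] (Fin m ⊕ Fin m → ZMod 2), ∀ v, q v = Cfsg.quadFormPlus m (ZMod 2) (g v)} = 2 ^ (2 * m - 1) + 2 ^ (m - 1) ∧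
    Nat.card {q : (Fin m ⊕ Fin m → ZMod 2) → ZMod 2 // (∀ u v : (Fin m ⊕ Fin m → ZMod 2), q (u + v) = q u + q v + (Cfsg.quadFormPlus m (ZMod 2) (u + v) - Cfsg.quadFormPlus m (ZMod 2) u - Cfsg.quadFormPlus m (ZMod 2) v)) ∧ ∃ g : (Fin m ⊕ Fin m → ZMod 2) ≃ₗ[ZMod 2] ((Fin (m - 1) ⊕ Fin (m - 1)) ⊕ Fin 2 → ZMod 2), ∀ v, q v = Cfsg.quadFormMinus (m - 1) (ZMod 2) 1 1 (g v)} = 2 ^ (2 * m - 1) - 2 ^ (m - 1) := by
  have hqdef : ∀ q : Vp m → ZMod 2, (∀ u v : (Fin m ⊕ Fin m → ZMod 2), q (u + v) = q u + q v + (Cfsg.quadFormPlus m (ZMod 2) (u + v) - Cfsg.quadFormPlus m (ZMod 2) u - Cfsg.quadFormPlus m (ZMod 2) v)) ↔ (∀ u v, q (u + v) = q u + q v + pf m u v) := fun q => Iff.rfl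
  simp only [hqdef]
  have hpos : (0 : ℤ) < 2 ^ m := by positivity
  -- the characterisations
  have plus_iff : ∀ w : Vp m, (∃ g : Vp m ≃ₗ[ZMod 2] Vp m, ∀ v, Cfsg.quadFormPlus m (ZMod 2) v + pf m v w = Cfsg.quadFormPlus m (ZMod 2) (g v)) ↔ Cfsg.quadFormPlus m (ZMod 2) w = 0 := by
    intro w
    have hS := sign_phi m w
    constructor
    · intro h
      have h1 := sign_plus m _ h
      rw [hS] at h1
      have h2 : chi (Cfsg.quadFormPlus m (ZMod 2) w) = 1 := mul_right_cancel₀ hpos.ne' (by linarith)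
      exact (chi_eq_one_iff _).1 h2
    · intro h
      rcases dichotomy m hm (fun v => Cfsg.quadFormPlus m (ZMod 2) v + pf m v w) (isQ_phi m w) with h1 | h1
      · exact h1
      · have h2 := sign_minus m hm _ h1
        rw [hS, h, chi_zero] at h2
        linarith
  have minus_iff : ∀ w : Vp m, (∃ g : Vp m ≃ₗ[ZMod 2] Vm (m - 1), ∀ v, Cfsg.quadFormPlus m (ZMod 2) v + pf m v w = Cfsg.quadFormMinus (m - 1) (ZMod 2) 1 1 (g v)) ↔ Cfsg.quadFormPlus m (ZMod 2) w = 1 := by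
    intro w
    have hS := sign_phi m w
    have hv : ∀ a : ZMod 2, a = 0 ∨ a = 1 := by decide
    constructor
    · intro h
      have h1 := sign_minus m hm _ h
      rw [hS] at h1
      rcases hv (Cfsg.quadFormPlus m (ZMod 2) w) with h2 | h2
      · rw [h2, chi_zero] at h1
        linarith
      · exact h2
    · intro h
      rcases dichotomy m hm (fun v => Cfsg.quadFormPlus m (ZMod 2) v + pf m v w) (isQ_phi m w) with h1 | h1
      · have h2 := sign_plus m _ h1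
        rw [hS, h, chi_one] at h2
        linarith
      · exact h1
  -- the equivalences
  let e0 : Vp m ≃ {q : Vp m → ZMod 2 // ∀ u v, q (u + v) = q u + q v + pf m u v} :=
    Equiv.ofBijective (fun w => ⟨fun v => Cfsg.quadFormPlus m (ZMod 2) v + pf m v w, isQ_phi m w⟩) (by
      constructor
      · intro a b hab
        apply pf_inj
        intro v
        have := congrFun (congrArg Subtype.val hab) v
        simpa using this
      · rintro ⟨q, hq⟩
        obtain ⟨w, hw⟩ := isQ_sub m q hq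
        exact ⟨w, Subtype.ext hw.symm⟩)
  let e1 : {w : Vp m // Cfsg.quadFormPlus m (ZMod 2) w = 0} ≃ {q : Vp m → ZMod 2 // (∀ u v, q (u + v) = q u + q v + pf m u v) ∧ ∃ g : Vp m ≃ₗ[ZMod 2] Vp m, ∀ v, q v = Cfsg.quadFormPlus m (ZMod 2) (g v)} :=
    Equiv.ofBijective (fun w => ⟨fun v => Cfsg.quadFormPlus m (ZMod 2) v + pf m v w.1, isQ_phi m w.1, (plus_iff w.1).2 w.2⟩) (by
      constructor
      · intro a b hab
        apply Subtype.ext
        apply pf_inj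
        intro v
        have := congrFun (congrArg Subtype.val hab) v
        simpa using this
      · rintro ⟨q, hq, hp⟩
        obtain ⟨w, rfl⟩ := isQ_sub m q hq
        exact ⟨⟨w, (plus_iff w).1 hp⟩, rfl⟩)
  let e2 : {w : Vp m // Cfsg.quadFormPlus m (ZMod 2) w = 1} ≃ {q : Vp m → ZMod 2 // (∀ u v, q (u + v) = q u + q v + pf m u v) ∧ ∃ g : Vp m ≃ₗ[ZMod 2] Vm (m - 1), ∀ v, q v = Cfsg.quadFormMinus (m - 1) (ZMod 2) 1 1 (g v)} :=
    Equiv.ofBijective (fun w => ⟨fun v => Cfsg.quadFormPlus m (ZMod 2) v + pf m v w.1, isQ_phi m w.1, (minus_iff w.1).2 w.2⟩) (by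
      constructor
      · intro a b hab
        apply Subtype.ext
        apply pf_inj
        intro v
        have := congrFun (congrArg Subtype.val hab) v
        simpa using this
      · rintro ⟨q, hq, hp⟩
        obtain ⟨w, rfl⟩ := isQ_sub m q hq
        exact ⟨⟨w, (minus_iff w).1 hp⟩, rfl⟩)
  have h0 := gaussSum_eq_card_sub (Cfsg.quadFormPlus m (ZMod 2))
  have h1 := card_add_card (Cfsg.quadFormPlus m (ZMod 2))
  rw [gaussSum_plus] at h0
  rw [card_vp] at h1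
  obtain ⟨n, rfl⟩ : ∃ n, m = n + 1 := ⟨m - 1, by omega⟩
  have hZ : Nat.card {w : Vp (n + 1) // Cfsg.quadFormPlus (n + 1) (ZMod 2) w = 0} = 2 ^ (2 * (n + 1) - 1) + 2 ^ (n + 1 - 1) := by
    have e1 : 2 * (n + 1) - 1 = 2 * n + 1 := by omega
    rw [e1, Nat.add_sub_cancel]
    have e2 : 2 * (n + 1) = 2 * n + 2 := by omega
    rw [e2] at h1
    have h3 : (2 : ℕ) ^ (2 * n + 2) = 2 * 2 ^ (2 * n + 1) := by ring
    have h4 : (2 : ℤ) ^ (n + 1) = 2 * 2 ^ n := by ring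
    rw [h3] at h1
    rw [h4] at h0
    zify at h1 ⊢
    linarith
  have hY : Nat.card {w : Vp (n + 1) // Cfsg.quadFormPlus (n + 1) (ZMod 2) w = 1} = 2 ^ (2 * (n + 1) - 1) - 2 ^ (n + 1 - 1) := by
    have e1 : 2 * (n + 1) - 1 = 2 * n + 1 := by omega
    have e2 : 2 * (n + 1) = 2 * n + 2 := by omega
    rw [hZ, e1, e2, Nat.add_sub_cancel] at h1
    rw [e1, Nat.add_sub_cancel]
    have h3 : (2 : ℕ) ^ (2 * n + 2) = 2 * 2 ^ (2 * n + 1) := by ring
    rw [h3] at h1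
    apply Nat.eq_sub_of_add_eq
    linarith
  refine ⟨?_, fun q hq => dichotomy (n + 1) hm q hq, ?_, ?_⟩
  · rw [← Nat.card_congr e0, Nat.card_eq_fintype_card, card_vp]
  · rw [← Nat.card_congr e1]; exact hZ
  · rw [← Nat.card_congr e2]; exact hY

end Cfsg.Agent.S2561
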