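import Cfsg.Statements.S2562
import Mathlib
import Cfsg.Agent.Lib.Quad.Witt

set_option autoImplicit false
open Cfsg

namespace Cfsg.Agent.S2562


/-- Witt indices over the field of two elements, m ≥ 1: for the plus-type form Σ xᵢyᵢ in dimension 2m some m-dimensional subspace is totally singular and no totally singular subspace has larger dimension; for the minus-type form Σ xᵢyᵢ + (z₁² + z₁z₂ + z₂²) in dimension 2m the maximal dimension of a totally singular subspace is m − 1. -/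
theorem result (m : ℕ) (hm : 1 ≤ m) :
    (∃ U : Submodule (ZMod 2) (Fin m ⊕ Fin m → ZMod 2), (∀ u ∈ U, Cfsg.quadFormPlus m (ZMod 2) u = 0) ∧ Module.finrank (ZMod 2) ↥U = m) ∧
    (∀ U : Submodule (ZMod 2) (Fin m ⊕ Fin m → ZMod 2), (∀ u ∈ U, Cfsg.quadFormPlus m (ZMod 2) u = 0) → Module.finrank (ZMod 2) ↥U ≤ m) ∧
    (∃ U : Submodule (ZMod 2) ((Fin (m - 1) ⊕ Fin (m - 1)) ⊕ Fin 2 → ZMod 2), (∀ u ∈ U, Cfsg.quadFormMinus (m - 1) (ZMod 2) 1 1 u = 0) ∧ Module.finrank (ZMod 2) ↥U = m - 1) ∧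
    (∀ U : Submodule (ZMod 2) ((Fin (m - 1) ⊕ Fin (m - 1)) ⊕ Fin 2 → ZMod 2), (∀ u ∈ U, Cfsg.quadFormMinus (m - 1) (ZMod 2) 1 1 u = 0) → Module.finrank (ZMod 2) ↥U ≤ m - 1) := by
  have hac : ∀ z₁ z₂ : ZMod 2, z₁ ^ 2 + 1 * z₁ * z₂ + 1 * z₂ ^ 2 = 0 → z₁ = 0 ∧ z₂ = 0 := by decide
  refine ⟨⟨LinearMap.range (Cfsg.Agent.Lib.Quad.plusIncl m (ZMod 2)), ?_, ?_⟩, Cfsg.Agent.Lib.Quad.finrank_le_of_plus_singular, ⟨LinearMap.range (Cfsg.Agent.Lib.Quad.minusIncl (m - 1) (ZMod 2)), ?_, ?_⟩, Cfsg.Agent.Lib.Quad.finrank_le_of_minus_singular hac⟩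
  · rintro _ ⟨x, rfl⟩
    exact Cfsg.Agent.Lib.Quad.quadFormPlus_plusIncl m x
  · rw [LinearMap.finrank_range_of_inj (Cfsg.Agent.Lib.Quad.plusIncl_injective m)]
    simp
  · rintro _ ⟨x, rfl⟩
    exact Cfsg.Agent.Lib.Quad.quadFormMinus_minusIncl _ _ _ x
  · rw [LinearMap.finrank_range_of_inj (Cfsg.Agent.Lib.Quad.minusIncl_injective _)]
    simp

end Cfsg.Agent.S2562
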