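import Cfsg.Statements.S2563
import Mathlib
import Cfsg.Agent.Lib.Arf.PermForm

set_option autoImplicit false
open Cfsg

namespace Cfsg.Agent.S2563

open Cfsg.Agent.Lib.Arf Cfsg.Agent.Lib.Quad Module

/-- For k ≥ 1 the symmetric group of degree 4k + 4 embeds in a full orthogonal group in dimension 4k + 2 over the field of two elements: in the isometry group of the plus-type form Σ xᵢyᵢ when k is odd, and in that of the minus-type form Σ xᵢyᵢ + (z₁² + z₁z₂ + z₂²) when k is even (through its action on even partitions of a (4k+4)-set, with the form 'half the size of a part, modulo 2'). -/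
theorem result (k : ℕ) (hk : 1 ≤ k) :
    (Odd k → ∃ φ : Equiv.Perm (Fin (4 * k + 4)) →* ↥(Cfsg.isometryGroup (ZMod 2) (Cfsg.quadFormPlus (2 * k + 1) (ZMod 2))), Function.Injective φ) ∧
    (Even k → ∃ φ : Equiv.Perm (Fin (4 * k + 4)) →* ↥(Cfsg.isometryGroup (ZMod 2) (Cfsg.quadFormMinus (2 * k) (ZMod 2) 1 1)), Function.Injective φ) := by
  classical
  let o : Fin (4 * k + 4) := ⟨0, by omega⟩
  let p : Fin (4 * k + 4) := ⟨1, by omega⟩
  have hp : p ≠ o := by
    intro h
    have := congrArg Fin.val h
    simp [o, p] at this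
  have hc : Fintype.card (Fin (4 * k + 4)) = 4 * k + 4 := by simp
  have hd : finrank (ZMod 2) (WW o) = 2 * (2 * k + 1) := by
    have := finrank_WW hp
    rw [hc] at this
    omega
  have hnd : NondegQ (qW o) := qW_nondeg o (by
    rw [hc]
    exact ⟨2 * k + 1, by omega⟩) (by rw [hc]; omega)
  have h4 : 4 ∣ Fintype.card (Fin (4 * k + 4)) := by
    rw [hc]
    omega
  have h5 : 5 ≤ Fintype.card (Fin (4 * k + 4)) := by
    rw [hc]
    omega
  have hval := gaussSum_qW_value o hc
  rcases exists_type (m := 2 * k + 1) (by omega) hd (qW o) hnd with ⟨g, hg⟩ | ⟨g, hg⟩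
  · -- plus type
    have hs : gaussSum (fun x : WW o => qW o x) = 2 ^ (2 * k + 1) := by
      rw [funext hg]
      exact (gaussSum_equiv g.toEquiv (Cfsg.quadFormPlus (2 * k + 1) (ZMod 2))).trans (gaussSum_plus _)
    constructor
    · intro _
      exact exists_embed_of_type hp h4 h5 g _ hg
    · intro hk2
      exfalso
      rw [hval] at hs
      have hodd : Odd (k + 1) := hk2.add_one
      rw [hodd.neg_one_pow] at hs
      have hpos : (0 : ℤ) < 2 ^ (2 * k + 1) := by positivity
      linarith
  · -- minus type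
    obtain ⟨g, hg⟩ : ∃ g' : WW o ≃ₗ[ZMod 2] Vm (2 * k), ∀ v, qW o v = Cfsg.quadFormMinus (2 * k) (ZMod 2) 1 1 (g' v) := ⟨g, hg⟩
    have hs : gaussSum (fun x : WW o => qW o x) = - 2 ^ (2 * k + 1) := by
      rw [funext hg]
      exact (gaussSum_equiv g.toEquiv (Cfsg.quadFormMinus (2 * k) (ZMod 2) 1 1)).trans (gaussSum_minus _)
    constructor
    · intro hk2
      exfalso
      rw [hval] at hs
      have heven : Even (k + 1) := hk2.add_one
      rw [heven.neg_one_pow] at hs
      have hpos : (0 : ℤ) < 2 ^ (2 * k + 1) := by positivity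
      linarith
    · intro _
      exact exists_embed_of_type hp h4 h5 g _ hg

end Cfsg.Agent.S2563
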