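import Cfsg.Statements.S2564
import Mathlib
import Cfsg.Agent.Lib.Arf.Basic

set_option autoImplicit false
open Cfsg

namespace Cfsg.Agent.S2564

open Cfsg.Agent.Lib.Arf

/-- On the 2m-dimensional space over the field of two elements (m ≥ 1) let f be the alternating form obtained by polarizing the plus-type form Σ xᵢyᵢ, and let q be any quadratic form polarizing to f. For a vector w, the function q + f(·, w) again polarizes to f, and it is equivalent to q under an invertible linear map (that is, has the same type) if and only if q(w) = 0. -/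
theorem result (m : ℕ) (hm : 1 ≤ m) (q : (Fin m ⊕ Fin m → ZMod 2) → ZMod 2) (hq : (∀ u v : (Fin m ⊕ Fin m → ZMod 2), q (u + v) = q u + q v + (Cfsg.quadFormPlus m (ZMod 2) (u + v) - Cfsg.quadFormPlus m (ZMod 2) u - Cfsg.quadFormPlus m (ZMod 2) v))) (w : (Fin m ⊕ Fin m → ZMod 2)) :
    (∀ u v : (Fin m ⊕ Fin m → ZMod 2), (q (u + v) + (Cfsg.quadFormPlus m (ZMod 2) (u + v + w) - Cfsg.quadFormPlus m (ZMod 2) (u + v) - Cfsg.quadFormPlus m (ZMod 2) w)) =
        (q u + (Cfsg.quadFormPlus m (ZMod 2) (u + w) - Cfsg.quadFormPlus m (ZMod 2) u - Cfsg.quadFormPlus m (ZMod 2) w)) + (q v + (Cfsg.quadFormPlus m (ZMod 2) (v + w) - Cfsg.quadFormPlus m (ZMod 2) v - Cfsg.quadFormPlus m (ZMod 2) w)) +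
        (Cfsg.quadFormPlus m (ZMod 2) (u + v) - Cfsg.quadFormPlus m (ZMod 2) u - Cfsg.quadFormPlus m (ZMod 2) v)) ∧
    ((∃ g : (Fin m ⊕ Fin m → ZMod 2) ≃ₗ[ZMod 2] (Fin m ⊕ Fin m → ZMod 2), ∀ v, q v + (Cfsg.quadFormPlus m (ZMod 2) (v + w) - Cfsg.quadFormPlus m (ZMod 2) v - Cfsg.quadFormPlus m (ZMod 2) w) = q (g v)) ↔ q w = 0) := by
  have hq' : ∀ u v, q (u + v) = q u + q v + pf m u v := hq
  refine ⟨?_, ?_⟩
  · intro u v
    change q (u + v) + pf m (u + v) w = (q u + pf m u w) + (q v + pf m v w) + pf m u v
    rw [pf_add_left, hq' u v]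
    ring
  · constructor
    · rintro ⟨g, hg⟩
      have hS : gaussSum (fun v => q v + pf m v w) = gaussSum q := by
        have h0 : (fun v => q v + pf m v w) = (fun v => q (g v)) := funext hg
        rw [h0]
        exact gaussSum_equiv g.toEquiv q
      have h1 := gaussSum_translate q (pf m) hq' w
      rw [hS] at h1
      have h2 := gaussSum_ne_zero q (pf m) hq' (pf_add_left m) (pf_nondeg m)
      have h3 : chi (q w) = 1 := mul_right_cancel₀ h2 (by linarith)
      exact (chi_eq_one_iff _).1 h3
    · intro hw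
      have h0 : q 0 = 0 := by
        have := hq' 0 0
        have h2 : pf m (0 : Vp m) 0 = 0 := pf_self m 0
        rw [add_zero, h2, add_zero] at this
        linear_combination -this
      let τ : Vp m →ₗ[ZMod 2] Vp m :=
        { toFun := fun v => v + pf m v w • w
          map_add' := fun a b => by rw [pf_add_left, add_smul]; abel
          map_smul' := fun a b => by
            rw [pf_smul_left, mul_smul, RingHom.id_apply, smul_add] }
      have hτ : ∀ v, τ v = v + pf m v w • w := fun v => rfl
      have hinv : Function.Involutive τ := by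
        intro v
        rw [hτ, hτ, pf_add_left, pf_smul_left, pf_self, mul_zero, add_zero, add_assoc, ← add_smul]
        have h2 : pf m v w + pf m v w = 0 := CharTwo.add_self_eq_zero _
        rw [h2, zero_smul, add_zero]
      refine ⟨LinearEquiv.ofInvolutive τ hinv, fun v => ?_⟩
      change q v + pf m v w = q (τ v)
      rw [hτ, hq', pf_smul_right]
      have h3 : ∀ a : ZMod 2, q (a • w) = 0 := by
        intro a
        have ha : a = 0 ∨ a = 1 := by revert a; decide
        rcases ha with rfl | rfl
        · simp [h0]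
        · simp [hw]
      rw [h3]
      have h4 : ∀ a : ZMod 2, a * a = a := by decide
      rw [h4]
      ring

end Cfsg.Agent.S2564
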