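import Cfsg.Statements.S2565
import Mathlib
import Cfsg.Agent.Lib.Classical.PermModel2

set_option autoImplicit false
open Cfsg

namespace Cfsg.Agent.S2565

open Cfsg.Agent.Lib.Classical

/-- The commutator subgroup of the full orthogonal group of the plus-type form Σ xᵢyᵢ in dimension 6 over the field of two elements (the group Ω⁺₆(2), of index 2) is isomorphic to the alternating group of degree 8. -/
theorem result :
    (Cfsg.Omega (ZMod 2) (Cfsg.quadFormPlus 3 (ZMod 2))).index = 2 ∧
    Nonempty (↥(Cfsg.Omega (ZMod 2) (Cfsg.quadFormPlus 3 (ZMod 2))) ≃* alternatingGroup (Fin 8)) := by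
  obtain ⟨e⟩ := isometry_plus_six_zmod
  have hcomm : commutator (Equiv.Perm (Fin 8)) = alternatingGroup (Fin 8) :=
    alternatingGroup.commutator_perm_eq (by simp)
  have hmap : (Cfsg.Omega (ZMod 2) (Cfsg.quadFormPlus 3 (ZMod 2))).map e.toMonoidHom = alternatingGroup (Fin 8) := by
    have h0 : Cfsg.Omega (ZMod 2) (Cfsg.quadFormPlus 3 (ZMod 2)) = ⁅(⊤ : Subgroup (Cfsg.isometryGroup (ZMod 2) (Cfsg.quadFormPlus 3 (ZMod 2)))), ⊤⁆ := rfl
    rw [← hcomm, commutator_def, h0, Subgroup.map_commutator]
    rw [show (⊤ : Subgroup (Cfsg.isometryGroup (ZMod 2) (Cfsg.quadFormPlus 3 (ZMod 2)))).map e.toMonoidHom = ⊤ from Subgroup.map_top_of_surjective _ e.surjective]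
  have hcomap : Cfsg.Omega (ZMod 2) (Cfsg.quadFormPlus 3 (ZMod 2)) = (alternatingGroup (Fin 8)).comap e.toMonoidHom := by
    rw [← hmap, Subgroup.comap_map_eq_self_of_injective e.injective]
  constructor
  · rw [hcomap, Subgroup.index_comap_of_surjective _ e.surjective]
    have h1 := Subgroup.card_mul_index (alternatingGroup (Fin 8))
    have h2 := two_mul_card_alternatingGroup (α := Fin 8)
    rw [Nat.card_eq_fintype_card, Nat.card_eq_fintype_card] at h1
    have h3 : 0 < Fintype.card (Equiv.Perm (Fin 8)) := Fintype.card_pos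
    have h4 : 0 < Fintype.card (alternatingGroup (Fin 8)) := Fintype.card_pos
    nlinarith
  · exact ⟨(e.subgroupMap _).trans (MulEquiv.subgroupCongr hmap)⟩

end Cfsg.Agent.S2565
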