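import Cfsg.Statements.S2566
import Mathlib
import Cfsg.Agent.Lib.Embed.Basic
import Cfsg.Agent.Lib.Classical.OrthOrder
import Cfsg.Agent.Lib.Classical.SmallIso

set_option autoImplicit false
open Cfsg

namespace Cfsg.Agent.S2566

open Cfsg.Agent.Lib.Embed Cfsg.Agent.Lib.Classical Matrix

abbrev M2 := Matrix (Fin 2) (Fin 2) (ZMod 2)
abbrev SL2' := Matrix.SpecialLinearGroup (Fin 2) (ZMod 2)
abbrev V4' := Fin 2 ⊕ Fin 2 → ZMod 2
abbrev G4 := ↥(Cfsg.isometryGroup (ZMod 2) (Cfsg.quadFormPlus 2 (ZMod 2)))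

/-- The identification of the space with `2 × 2` matrices. -/
def Ψ : V4' ≃ₗ[ZMod 2] M2 where
  toFun v := !![v (.inl 0), v (.inl 1); v (.inr 1), v (.inr 0)]
  map_add' u v := by
    ext i j
    fin_cases i <;> fin_cases j <;> rfl
  map_smul' c v := by
    ext i j
    fin_cases i <;> fin_cases j <;> rfl
  invFun M := Sum.elim ![M 0 0, M 0 1] ![M 1 1, M 1 0]
  left_inv v := by
    ext i
    rcases i with i | i <;> fin_cases i <;> rfl
  right_inv M := by
    ext i j
    fin_cases i <;> fin_cases j <;> rfl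

theorem det_Ψ (v : V4') : (Ψ v).det = Cfsg.quadFormPlus 2 (ZMod 2) v := by
  have h2 : (2 : ZMod 2) = 0 := rfl
  show (!![v (.inl 0), v (.inl 1); v (.inr 1), v (.inr 0)] : M2).det = _
  rw [Matrix.det_fin_two_of, Cfsg.quadFormPlus, Fin.sum_univ_two]
  linear_combination (- v (.inl 1) * v (.inr 1)) * h2

/-- Left multiplication. -/
def lm : SL2' →* (M2 ≃ₗ[ZMod 2] M2) where
  toFun P :=
    { toFun := fun M => P.1 * M
      invFun := fun M => (P⁻¹).1 * M
      map_add' := fun a b => mul_add _ a b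
      map_smul' := fun c a => by simp
      left_inv := fun M => by
        simp only [← mul_assoc]
        rw [← Matrix.SpecialLinearGroup.coe_mul, inv_mul_cancel]
        simp
      right_inv := fun M => by
        simp only [← mul_assoc]
        rw [← Matrix.SpecialLinearGroup.coe_mul, mul_inv_cancel]
        simp }
  map_one' := by
    ext M i j
    simp
  map_mul' a b := by
    ext M i j
    simp [mul_assoc]

/-- Right multiplication by the inverse. -/
def rm : SL2' →* (M2 ≃ₗ[ZMod 2] M2) where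
  toFun P :=
    { toFun := fun M => M * (P⁻¹).1
      invFun := fun M => M * P.1
      map_add' := fun a b => add_mul a b _
      map_smul' := fun c a => by simp
      left_inv := fun M => by
        simp only [mul_assoc]
        rw [← Matrix.SpecialLinearGroup.coe_mul, inv_mul_cancel]
        simp
      right_inv := fun M => by
        simp only [mul_assoc]
        rw [← Matrix.SpecialLinearGroup.coe_mul, mul_inv_cancel]
        simp }
  map_one' := by
    ext M i j
    simp
  map_mul' a b := by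
    ext M i j
    simp [mul_assoc, _root_.mul_inv_rev]

/-- Transposition. -/
def tr : M2 ≃ₗ[ZMod 2] M2 where
  toFun M := Mᵀ
  invFun M := Mᵀ
  map_add' a b := transpose_add a b
  map_smul' c a := by simp
  left_inv M := transpose_transpose M
  right_inv M := transpose_transpose M

/-- The linear automorphisms of matrices as a matrix group. -/
noncomputable def LL : (M2 ≃ₗ[ZMod 2] M2) →* GL (Fin 2 ⊕ Fin 2) (ZMod 2) :=
  toGL.comp (conjRep (MonoidHom.id _) Ψ)

theorem LL_mulVec (f : M2 ≃ₗ[ZMod 2] M2) (v : V4') : ((LL f : GL (Fin 2 ⊕ Fin 2) (ZMod 2)) : Matrix (Fin 2 ⊕ Fin 2) (Fin 2 ⊕ Fin 2) (ZMod 2)) *ᵥ v = Ψ.symm (f (Ψ v)) := by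
  show ((toGL (conjRep (MonoidHom.id _) Ψ f) : GL (Fin 2 ⊕ Fin 2) (ZMod 2)) : Matrix (Fin 2 ⊕ Fin 2) (Fin 2 ⊕ Fin 2) (ZMod 2)) *ᵥ v = _
  rw [toGL_mulVec]
  rfl

theorem LL_injective : Function.Injective LL := by
  intro a b hab
  apply conjRep_injective (MonoidHom.id _) Function.injective_id Ψ
  apply toGL_injective
  exact hab

theorem LL_mem (f : M2 ≃ₗ[ZMod 2] M2) (hf : ∀ M, (f M).det = M.det) : LL f ∈ Cfsg.isometryGroup (ZMod 2) (Cfsg.quadFormPlus 2 (ZMod 2)) := by
  intro u _
  show Cfsg.quadFormPlus 2 (ZMod 2) (((LL f : GL (Fin 2 ⊕ Fin 2) (ZMod 2)) : Matrix (Fin 2 ⊕ Fin 2) (Fin 2 ⊕ Fin 2) (ZMod 2)) *ᵥ u) = Cfsg.quadFormPlus 2 (ZMod 2) u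
  rw [LL_mulVec, ← det_Ψ, LinearEquiv.apply_symm_apply, hf, det_Ψ]

theorem det_lm (P : SL2') (M : M2) : (lm P M).det = M.det := by
  show (P.1 * M).det = _
  rw [Matrix.det_mul, P.2, one_mul]

theorem det_rm (P : SL2') (M : M2) : (rm P M).det = M.det := by
  show (M * (P⁻¹).1).det = _
  rw [Matrix.det_mul, (P⁻¹).2, mul_one]

/-- The two factors. -/
noncomputable def fA : SL2' →* G4 := (LL.comp lm).codRestrict _ (fun P => LL_mem _ (det_lm P))
noncomputable def fB : SL2' →* G4 := (LL.comp rm).codRestrict _ (fun P => LL_mem _ (det_rm P))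
noncomputable def tT : G4 := ⟨LL tr, LL_mem _ (fun M => det_transpose M)⟩

theorem lm_injective : Function.Injective lm := by
  intro a b hab
  apply Subtype.ext
  have := congrArg (fun f : M2 ≃ₗ[ZMod 2] M2 => f 1) hab
  simpa [lm] using this

theorem rm_injective : Function.Injective rm := by
  intro a b hab
  apply inv_injective
  apply Subtype.ext
  have := congrArg (fun f : M2 ≃ₗ[ZMod 2] M2 => f 1) hab
  simpa [rm] using this

theorem fA_injective : Function.Injective fA := by
  intro a b hab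
  exact lm_injective (LL_injective (congrArg Subtype.val hab))

theorem fB_injective : Function.Injective fB := by
  intro a b hab
  exact rm_injective (LL_injective (congrArg Subtype.val hab))

theorem central_eq_one : ∀ P : M2, P.det = 1 → (∀ M : M2, P * M = M * P) → P = 1 := by
  decide

theorem lm_rm_comm (P R : SL2') : lm P * rm R = rm R * lm P := by
  ext M i j
  simp [lm, rm, mul_assoc]

theorem fA_fB_comm (P R : SL2') : Commute (fA P) (fB R) := by
  apply Subtype.ext
  show LL (lm P) * LL (rm R) = LL (rm R) * LL (lm P)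
  rw [← map_mul, ← map_mul, lm_rm_comm]

theorem fA_eq_fB {P R : SL2'} (h : fA P = fB R) : P = 1 ∧ R = 1 := by
  have h1 : lm P = rm R := LL_injective (congrArg Subtype.val h)
  have h2 : ∀ M : M2, P.1 * M = M * (R⁻¹).1 := fun M => congrArg (fun f : M2 ≃ₗ[ZMod 2] M2 => f M) h1
  have h3 := h2 1
  simp only [mul_one, one_mul] at h3
  have hP : P = 1 := by
    apply Subtype.ext
    refine central_eq_one P.1 P.2 (fun M => ?_)
    rw [h2, h3]
  refine ⟨hP, ?_⟩
  apply inv_injective
  apply Subtype.ext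
  rw [← h3, hP]
  simp

/-- Transposed element of `SL₂`. -/
def tp (P : SL2') : SL2' := ⟨P.1ᵀ, by rw [det_transpose]; exact P.2⟩

theorem tT_conj (P : SL2') : tT * fA P * tT⁻¹ = fB (tp P)⁻¹ := by
  have h1 : tr * lm P * tr⁻¹ = rm (tp P)⁻¹ := by
    apply LinearEquiv.ext
    intro M
    show (P.1 * Mᵀ)ᵀ = M * (((tp P)⁻¹)⁻¹).1
    rw [inv_inv, transpose_mul, transpose_transpose]
    rfl
  apply Subtype.ext
  show LL tr * LL (lm P) * (LL tr)⁻¹ = LL (rm (tp P)⁻¹)
  rw [← h1, map_mul, map_mul, map_inv]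

theorem tp_tp (P : SL2') : tp (tp P) = P := by
  apply Subtype.ext
  exact transpose_transpose P.1

/-- The full orthogonal group of the plus-type form x₁y₁ + x₂y₂ in dimension 4 over the field of two elements has order 72 and is isomorphic to the wreath product of the symmetric group of degree 3 by a group of order 2: it has a normal subgroup isomorphic to the direct product of two symmetric groups of degree 3, of index 2, whose two direct factors are interchanged by conjugation by some element. -/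
theorem result :
    Nat.card ↥(Cfsg.isometryGroup (ZMod 2) (Cfsg.quadFormPlus 2 (ZMod 2))) = 72 ∧
    ∃ (A B : Subgroup ↥(Cfsg.isometryGroup (ZMod 2) (Cfsg.quadFormPlus 2 (ZMod 2)))),
      Nonempty (↥A ≃* Equiv.Perm (Fin 3)) ∧ Nonempty (↥B ≃* Equiv.Perm (Fin 3)) ∧ A ⊓ B = ⊥ ∧ (∀ a ∈ A, ∀ b ∈ B, a * b = b * a) ∧
      (A ⊔ B).index = 2 ∧ ∃ g : ↥(Cfsg.isometryGroup (ZMod 2) (Cfsg.quadFormPlus 2 (ZMod 2))), A.map (MulAut.conj g).toMonoidHom = B := by
  have hcard : Nat.card G4 = 72 := by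
    rw [card_isometry_plus (q := 2) (by simp) 2 (by norm_num)]
    decide
  obtain ⟨e⟩ := sl_two_card_two_equiv (F := ZMod 2) (by simp)
  have hcS : Nat.card SL2' = 6 := by
    rw [Nat.card_congr e.toEquiv, Nat.card_eq_fintype_card, Fintype.card_perm, Fintype.card_fin]
    rfl
  have hinf : fA.range ⊓ fB.range = ⊥ := by
    rw [Subgroup.eq_bot_iff_forall]
    rintro x ⟨⟨P, rfl⟩, ⟨R, hR⟩⟩
    obtain ⟨hP, -⟩ := fA_eq_fB hR.symm
    rw [hP, map_one]
  have hΛ := (MonoidHom.noncommCoprod_injective fA fB fA_fB_comm).2 ⟨fA_injective, fB_injective, disjoint_iff.2 hinf⟩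
  refine ⟨hcard, fA.range, fB.range, ⟨(MonoidHom.ofInjective fA_injective).symm.trans e⟩,
    ⟨(MonoidHom.ofInjective fB_injective).symm.trans e⟩, hinf, ?_, ?_, tT, ?_⟩
  · rintro _ ⟨P, rfl⟩ _ ⟨R, rfl⟩
    exact fA_fB_comm P R
  · rw [← MonoidHom.noncommCoprod_range fA fB fA_fB_comm]
    have h1 := Subgroup.card_mul_index (MonoidHom.noncommCoprod fA fB fA_fB_comm).range
    rw [Nat.card_congr (MonoidHom.ofInjective hΛ).symm.toEquiv, Nat.card_prod, hcS, hcard] at h1
    omega
  · ext x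
    constructor
    · rintro ⟨_, ⟨P, rfl⟩, rfl⟩
      refine ⟨(tp P)⁻¹, ?_⟩
      rw [← tT_conj]
      rfl
    · rintro ⟨R, rfl⟩
      refine ⟨fA (tp R⁻¹), ⟨_, rfl⟩, ?_⟩
      show tT * fA (tp R⁻¹) * tT⁻¹ = fB R
      rw [tT_conj, tp_tp, inv_inv]

end Cfsg.Agent.S2566
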