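import Cfsg.Statements.S2567
import Mathlib

set_option autoImplicit false
open Cfsg

namespace Cfsg.Agent.S2567


/-- Lifting elements of prime order from PGL to GL: let F be a finite field with q elements, r a prime not dividing q − 1, and x an element of order r in GL_n(F) modulo its centre (the scalar matrices). Then x has exactly one preimage in GL_n(F) of order r. -/
theorem result {F : Type*} [Field F] [Fintype F] {q n r : ℕ} (hF : Fintype.card F = q) (hr : r.Prime) (hdiv : ¬ r ∣ q - 1) (x : GL (Fin n) F ⧸ Subgroup.center (GL (Fin n) F)) (hx : orderOf x = r) : ∃! g : GL (Fin n) F, (QuotientGroup.mk g : GL (Fin n) F ⧸ Subgroup.center (GL (Fin n) F)) = x ∧ orderOf g = r := by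
  classical
  have : Fact r.Prime := ⟨hr⟩
  set t := q - 1 with ht
  -- central elements have exponent dividing `q - 1`
  have hZ : ∀ z ∈ Subgroup.center (GL (Fin n) F), z ^ t = 1 := by
    intro z hz
    rw [Matrix.GeneralLinearGroup.center_eq_range_scalar] at hz
    obtain ⟨a, rfl⟩ := hz
    rw [← map_pow]
    have : a ^ t = 1 := by
      rw [ht, ← hF, ← Fintype.card_units]
      exact pow_card_eq_one
    rw [this, map_one]
  have hcop : Nat.Coprime r t := (Nat.Prime.coprime_iff_not_dvd hr).2 hdiv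
  obtain ⟨g₀, rfl⟩ := QuotientGroup.mk_surjective x
  have hrel : (g₀ ^ r) ∈ Subgroup.center (GL (Fin n) F) := by
    rw [← QuotientGroup.eq_one_iff, QuotientGroup.mk_pow, ← hx]
    exact pow_orderOf_eq_one _
  obtain ⟨m, -, hm⟩ := Nat.exists_mul_mod_eq_one_of_coprime hcop.symm hr.one_lt
  have hmk : (QuotientGroup.mk (g₀ ^ (t * m)) : GL (Fin n) F ⧸ Subgroup.center (GL (Fin n) F)) = QuotientGroup.mk g₀ := by
    rw [QuotientGroup.mk_pow, ← pow_mod_orderOf, hx, hm, pow_one]
  have hpow : (g₀ ^ (t * m)) ^ r = 1 := by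
    calc (g₀ ^ (t * m)) ^ r = ((g₀ ^ r) ^ t) ^ m := by
          rw [← pow_mul, ← pow_mul, ← pow_mul]; congr 1; ring
      _ = 1 := by rw [hZ _ hrel, one_pow]
  have hne : g₀ ^ (t * m) ≠ 1 := by
    intro h1
    rw [h1] at hmk
    have : (QuotientGroup.mk g₀ : GL (Fin n) F ⧸ Subgroup.center (GL (Fin n) F)) = 1 := hmk.symm
    rw [this, orderOf_one] at hx
    exact hr.one_lt.ne hx
  refine ⟨g₀ ^ (t * m), ⟨hmk, orderOf_eq_prime hpow hne⟩, ?_⟩
  rintro g' ⟨hg', hord⟩
  have hz : (g₀ ^ (t * m))⁻¹ * g' ∈ Subgroup.center (GL (Fin n) F) := by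
    rw [← QuotientGroup.eq, hg', hmk]
  set g := g₀ ^ (t * m)
  set z := g⁻¹ * g' with hzdef
  have hg'eq : g' = g * z := by simp [hzdef]
  have hzr : z ^ r = 1 := by
    have h1 : g' ^ r = 1 := hord ▸ pow_orderOf_eq_one g'
    have hcomm : Commute g z := (Subgroup.mem_center_iff.1 hz g)
    rw [hg'eq, hcomm.mul_pow, hpow, one_mul] at h1
    exact h1
  have hzt : z ^ t = 1 := hZ z hz
  have hz1 : z = 1 := by
    have := pow_gcd_eq_one.2 ⟨hzr, hzt⟩
    rw [hcop] at this
    simpa using this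
  rw [hg'eq, hz1, mul_one]

end Cfsg.Agent.S2567
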