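import Cfsg.Statements.S2570
import Cfsg.Agent.Lib.Known.GLJordanP

set_option autoImplicit false
open Cfsg

namespace Cfsg.Agent.S2570


/-- Number of conjugacy classes of elements of order p in GL_n over a finite field of characteristic p: they correspond to the Jordan types, that is, to the partitions of n with all parts at most p other than the partition into ones, so there are (number of partitions of n with parts ≤ p) − 1 of them. -/
theorem result {F : Type*} [Field F] [Fintype F] {p : ℕ} [Fact p.Prime] [CharP F p] (n : ℕ) : Nat.card {C : ConjClasses (GL (Fin n) F) // ∃ g : GL (Fin n) F, ConjClasses.mk g = C ∧ orderOf g = p} = (Finset.univ.filter (fun μ : Nat.Partition n => ∀ a ∈ μ.parts, a ≤ p)).card - 1 := by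
  exact Cfsg.Agent.Lib.Known.GLJordan.card_order_classes p

end Cfsg.Agent.S2570
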