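import Cfsg.Statements.S2571
import Mathlib
import Cfsg.Agent.Lib.RegUnip.Cyclic

set_option autoImplicit false
open Cfsg

namespace Cfsg.Agent.S2571


/-- Centraliser of a regular unipotent element in GL_n(q): if u is an invertible n × n matrix over the field with q elements, n ≥ 1, with (u − 1)^n = 0 and rank(u − 1) = n − 1 (a single unipotent Jordan block), then its centraliser in GL_n(q) has order (q − 1) q^(n−1). -/
theorem result {F : Type*} [Field F] [Fintype F] {q n : ℕ} (hF : Fintype.card F = q) (hn : 1 ≤ n) (u : GL (Fin n) F) (hnil : ((u : Matrix (Fin n) (Fin n) F) - 1) ^ n = 0) (hreg : ((u : Matrix (Fin n) (Fin n) F) - 1).rank = n - 1) : Nat.card ↥(Subgroup.centralizer ({u} : Set (GL (Fin n) F))) = (q - 1) * q ^ (n - 1) := by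
  classical
  set U : Matrix (Fin n) (Fin n) F := (u : Matrix (Fin n) (Fin n) F) with hU
  set N : Module.End F (Fin n → F) := Matrix.mulVecLin (U - 1) with hN
  have hcard : Module.finrank F (Fin n → F) = n := by simp
  have h1 : Module.finrank F (LinearMap.ker N) ≤ 1 := by
    have := LinearMap.finrank_range_add_finrank_ker N
    have h2 : Module.finrank F (LinearMap.range N) = n - 1 := hreg
    omega
  have hnil' : N ^ n = 0 := by
    rw [hN, ← Cfsg.Agent.Lib.RegUnip.mulVecLin_pow_eq, hnil]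
    ext; simp
  have hNapp : ∀ v, N v = U.mulVec v - v := by
    intro v
    simp [hN]
  obtain ⟨v₀, hv₀⟩ := Cfsg.Agent.Lib.RegUnip.exists_cyclic N n hcard h1 hnil' hn
  have hcomm : ∀ g : ↥(Subgroup.centralizer ({u} : Set (GL (Fin n) F))), ∀ v,
      ((g : GL (Fin n) F) : Matrix (Fin n) (Fin n) F).mulVec (N v) = N (((g : GL (Fin n) F) : Matrix (Fin n) (Fin n) F).mulVec v) := by
    intro g v
    have h2 : (g : GL (Fin n) F) * u = u * g := Subgroup.mem_centralizer_singleton_iff.1 g.2
    have h3 : ((g : GL (Fin n) F) : Matrix (Fin n) (Fin n) F) * U = U * ((g : GL (Fin n) F) : Matrix (Fin n) (Fin n) F) := by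
      have := congrArg Units.val h2
      simpa using this
    rw [hNapp, hNapp, Matrix.mulVec_sub, Matrix.mulVec_mulVec, h3, Matrix.mulVec_mulVec]
  have hpow : ∀ (g : ↥(Subgroup.centralizer ({u} : Set (GL (Fin n) F)))) (k : ℕ) (v : Fin n → F),
      ((g : GL (Fin n) F) : Matrix (Fin n) (Fin n) F).mulVec ((N ^ k) v) = (N ^ k) (((g : GL (Fin n) F) : Matrix (Fin n) (Fin n) F).mulVec v) := by
    intro g k v
    induction k with
    | zero => simp
    | succ k ih =>
      rw [pow_succ', Module.End.mul_apply, Module.End.mul_apply, hcomm, ih]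
  let f : ↥(Subgroup.centralizer ({u} : Set (GL (Fin n) F))) → {w : Fin n → F // (N ^ (n - 1)) w ≠ 0} :=
    fun g => ⟨((g : GL (Fin n) F) : Matrix (Fin n) (Fin n) F).mulVec v₀, by
      rw [← hpow]
      intro h
      apply hv₀
      have hinj := Matrix.mulVec_injective_of_isUnit ((g : GL (Fin n) F).isUnit)
      apply hinj
      rw [h, Matrix.mulVec_zero]⟩
  have hf : Function.Bijective f := by
    constructor
    · intro g g' hgg
      have h2 : ((g : GL (Fin n) F) : Matrix (Fin n) (Fin n) F).mulVec v₀ = ((g' : GL (Fin n) F) : Matrix (Fin n) (Fin n) F).mulVec v₀ := congrArg Subtype.val hgg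
      have h3 : Matrix.mulVecLin ((g : GL (Fin n) F) : Matrix (Fin n) (Fin n) F) = Matrix.mulVecLin ((g' : GL (Fin n) F) : Matrix (Fin n) (Fin n) F) :=
        Cfsg.Agent.Lib.RegUnip.commute_ext N n hcard hnil' v₀ hv₀ _ _
          (LinearMap.ext fun v => hcomm g v)
          (LinearMap.ext fun v => hcomm g' v)
          h2
      apply Subtype.ext
      apply Units.ext
      exact Matrix.mulVec_injective (funext fun v => LinearMap.congr_fun h3 v)
    · rintro ⟨w, hw⟩
      obtain ⟨e, he1, he2⟩ := Cfsg.Agent.Lib.RegUnip.exists_equiv_commute N n hcard hnil' v₀ w hv₀ hw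
      have hmem : Cfsg.Agent.Lib.RegUnip.glOfEquiv e ∈ Subgroup.centralizer ({u} : Set (GL (Fin n) F)) := by
        rw [Subgroup.mem_centralizer_singleton_iff]
        apply Units.ext
        apply Matrix.mulVec_injective
        funext v
        show (((Cfsg.Agent.Lib.RegUnip.glOfEquiv e : GL (Fin n) F) : Matrix (Fin n) (Fin n) F) * U).mulVec v = (U * ((Cfsg.Agent.Lib.RegUnip.glOfEquiv e : GL (Fin n) F) : Matrix (Fin n) (Fin n) F)).mulVec v
        rw [← Matrix.mulVec_mulVec, ← Matrix.mulVec_mulVec, Cfsg.Agent.Lib.RegUnip.glOfEquiv_mulVec, Cfsg.Agent.Lib.RegUnip.glOfEquiv_mulVec]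
        have h3 := he2 v
        rw [hNapp, hNapp, map_sub] at h3
        exact sub_left_injective h3
      refine ⟨⟨_, hmem⟩, ?_⟩
      apply Subtype.ext
      show ((Cfsg.Agent.Lib.RegUnip.glOfEquiv e : GL (Fin n) F) : Matrix (Fin n) (Fin n) F).mulVec v₀ = w
      rw [Cfsg.Agent.Lib.RegUnip.glOfEquiv_mulVec, he1]
  rw [Nat.card_congr (Equiv.ofBijective f hf)]
  -- count
  have hH : Module.finrank F (LinearMap.ker (N ^ (n - 1))) = n - 1 :=
    Cfsg.Agent.Lib.RegUnip.finrank_ker_pow_eq N n hcard h1 hnil' (by omega)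
  have hcH : Nat.card (LinearMap.ker (N ^ (n - 1))) = q ^ (n - 1) := by
    rw [Module.natCard_eq_pow_finrank (K := F), hH, Nat.card_eq_fintype_card, hF]
  have hcV : Nat.card (Fin n → F) = q ^ n := by
    rw [Module.natCard_eq_pow_finrank (K := F), hcard, Nat.card_eq_fintype_card, hF]
  have e1 : Nat.card {w : Fin n → F // (N ^ (n - 1)) w ≠ 0} = Nat.card (Fin n → F) - Nat.card (LinearMap.ker (N ^ (n - 1))) := by
    simp only [Nat.card_eq_fintype_card]
    have := Fintype.card_subtype_compl (fun w : Fin n → F => w ∈ LinearMap.ker (N ^ (n - 1)))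
    simpa [LinearMap.mem_ker] using this
  rw [e1, hcH, hcV]
  obtain ⟨k, rfl⟩ : ∃ k, n = k + 1 := ⟨n - 1, by omega⟩
  simp only [Nat.add_sub_cancel, pow_succ]
  rw [Nat.sub_mul, one_mul, mul_comm]

end Cfsg.Agent.S2571
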