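import Cfsg.Statements.S2573
import Mathlib
import Cfsg.Agent.Lib.RegUnip.Basic

set_option autoImplicit false
open Cfsg

namespace Cfsg.Agent.S2573


/-- The invariant subspaces of a regular unipotent matrix form a chain: over a finite field, if u is an n × n matrix with (u − 1)^n = 0 and rank(u − 1) = n − 1, then every subspace W of F^n with u W ⊆ W is the kernel of (u − 1)^(dim W); so u has at most one invariant subspace of each dimension. -/
theorem result {F : Type*} [Field F] [Finite F] {n : ℕ} (u : Matrix (Fin n) (Fin n) F) (hnil : (u - 1) ^ n = 0) (hreg : (u - 1).rank = n - 1) (W : Submodule F (Fin n → F)) (hW : ∀ v ∈ W, u.mulVec v ∈ W) : W = LinearMap.ker (Matrix.mulVecLin ((u - 1) ^ Module.finrank F W)) := by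
  classical
  have hN : Matrix.mulVecLin ((u - 1) ^ Module.finrank F W) = (Matrix.mulVecLin (u - 1)) ^ Module.finrank F W := by
    exact Cfsg.Agent.Lib.RegUnip.mulVecLin_pow_eq _ _
  rw [hN]
  have hcard : Module.finrank F (Fin n → F) = n := by simp
  have h1 : Module.finrank F (LinearMap.ker (Matrix.mulVecLin (u - 1))) ≤ 1 := by
    have := LinearMap.finrank_range_add_finrank_ker (Matrix.mulVecLin (u - 1))
    have h2 : Module.finrank F (LinearMap.range (Matrix.mulVecLin (u - 1))) = n - 1 := hreg
    omega
  apply Cfsg.Agent.Lib.RegUnip.eq_ker_pow_finrank _ n hcard h1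
  · rw [← Cfsg.Agent.Lib.RegUnip.mulVecLin_pow_eq, hnil]
    ext; simp
  · intro v hv
    have : Matrix.mulVecLin (u - 1) v = u.mulVec v - v := by
      simp
    rw [this]
    exact W.sub_mem (hW v hv) hv

end Cfsg.Agent.S2573
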