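import Cfsg.Statements.S2574
import Mathlib
import Cfsg.Agent.Lib.RegUnip.Basic
import Cfsg.Agent.Lib.KnownSimple.SympForm

set_option autoImplicit false
open Cfsg

namespace Cfsg.Agent.S2574


/-- A regular unipotent element of the symplectic group has totally isotropic small invariant subspaces: over a finite field, if u ∈ Sp_2m(F) satisfies (u − 1)^(2m) = 0 and rank(u − 1) = 2m − 1, and W is a u-invariant subspace with 2 dim W ≤ 2m, then the alternating form vanishes identically on W. -/
theorem result {F : Type*} [Field F] [Finite F] {m : ℕ} (u : Matrix.symplecticGroup (Fin m) F) (hnil : ((u : Matrix (Fin m ⊕ Fin m) (Fin m ⊕ Fin m) F) - 1) ^ (2 * m) = 0) (hreg : ((u : Matrix (Fin m ⊕ Fin m) (Fin m ⊕ Fin m) F) - 1).rank = 2 * m - 1) (W : Submodule F (Fin m ⊕ Fin m → F)) (hW : ∀ v ∈ W, (u : Matrix (Fin m ⊕ Fin m) (Fin m ⊕ Fin m) F).mulVec v ∈ W) (hdim : 2 * Module.finrank F W ≤ 2 * m) : ∀ v ∈ W, ∀ w ∈ W, Cfsg.sympForm m F v w = 0 := by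
  classical
  set U : Matrix (Fin m ⊕ Fin m) (Fin m ⊕ Fin m) F := (u : Matrix (Fin m ⊕ Fin m) (Fin m ⊕ Fin m) F) with hU
  have hcard : Module.finrank F (Fin m ⊕ Fin m → F) = 2 * m := by simp; ring
  have h1 : Module.finrank F (LinearMap.ker (Matrix.mulVecLin (U - 1))) ≤ 1 := by
    have := LinearMap.finrank_range_add_finrank_ker (Matrix.mulVecLin (U - 1))
    have h2 : Module.finrank F (LinearMap.range (Matrix.mulVecLin (U - 1))) = 2 * m - 1 := hreg
    omega
  have hnil' : (Matrix.mulVecLin (U - 1)) ^ (2 * m) = 0 := by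
    rw [← Cfsg.Agent.Lib.RegUnip.mulVecLin_pow_eq, hnil]
    ext; simp
  have hNapp : ∀ v, Matrix.mulVecLin (U - 1) v = U.mulVec v - v := by
    intro v
    simp
  let B : LinearMap.BilinForm F (Fin m ⊕ Fin m → F) := Matrix.toBilin' (Matrix.J (Fin m) F)
  have hBapp : ∀ a b, B a b = Cfsg.sympForm m F a b := by
    intro a b
    simp [B, Matrix.toBilin'_apply', Cfsg.sympForm]
  have hB : B.Nondegenerate := LinearMap.BilinForm.nondegenerate_toBilin'_of_det_ne_zero' _ (Matrix.isUnit_det_J (Fin m) F).ne_zero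
  have hiso : ∀ a b, B (U.mulVec a) (U.mulVec b) = B a b := by
    intro a b
    rw [hBapp, hBapp]
    exact Cfsg.Agent.Lib.KnownSimple.sympForm_mulVec_mulVec u.2 a b
  -- `U` maps `W` onto `W`
  have hinj : Function.Injective U.mulVec :=
    Matrix.mulVec_injective_of_isUnit ((Matrix.isUnit_iff_isUnit_det _).2 (SymplecticGroup.symplectic_det u.2))
  have hsurj : ∀ w ∈ W, ∃ w' ∈ W, U.mulVec w' = w := by
    let L : W →ₗ[F] W := LinearMap.restrict (Matrix.mulVecLin U) (fun x hx => hW x hx)
    have hLinj : Function.Injective L := by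
      intro a b hab
      have := congrArg Subtype.val hab
      exact Subtype.ext (hinj this)
    have hLsurj := LinearMap.surjective_of_injective hLinj
    intro w hw
    obtain ⟨w', hw'⟩ := hLsurj ⟨w, hw⟩
    exact ⟨w', w'.2, congrArg Subtype.val hw'⟩
  have hW' : ∀ v ∈ B.orthogonal W, U.mulVec v ∈ B.orthogonal W := by
    intro v hv
    rw [LinearMap.BilinForm.mem_orthogonal_iff] at hv ⊢
    intro w hw
    obtain ⟨w', hw', rfl⟩ := hsurj w hw
    show B (U.mulVec w') (U.mulVec v) = 0
    rw [hiso]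
    exact hv w' hw'
  have hdim' := LinearMap.BilinForm.finrank_orthogonal hB W
  have hle := Cfsg.Agent.Lib.RegUnip.le_of_finrank_le _ (2 * m) hcard h1 hnil' W (B.orthogonal W)
    (by
      intro v hv
      rw [hNapp]
      exact W.sub_mem (hW v hv) hv)
    (by
      intro v hv
      rw [hNapp]
      exact Submodule.sub_mem _ (hW' v hv) hv)
    (by rw [hdim', hcard]; omega)
  intro v hv w hw
  have := hle hw
  rw [LinearMap.BilinForm.mem_orthogonal_iff] at this
  rw [← hBapp]
  exact this v hv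

end Cfsg.Agent.S2574
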