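import Cfsg.Statements.S2575
import Mathlib

set_option autoImplicit false
open Cfsg

namespace Cfsg.Agent.S2575

theorem padic_two_pow_mul_odd (k m : ℕ) (hm : Odd m) : padicValNat 2 (2 ^ k * m) = k := by
  have hm0 : m ≠ 0 := hm.pos.ne'
  rw [padicValNat.mul (by positivity) hm0, padicValNat.prime_pow,
    padicValNat.eq_zero_of_not_dvd (by simpa using hm.not_two_dvd_nat), add_zero]

theorem prod_neg_one {F : Type*} [Field F] (n i : ℕ) (hi : i ≤ n) :
    (∏ j : Fin n, if (j : ℕ) < i then (-1 : F) else 1) = (-1) ^ i := by
  rw [Fin.prod_univ_eq_prod_range (fun j => if j < i then (-1 : F) else 1) n]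
  obtain ⟨k, rfl⟩ := Nat.exists_eq_add_of_le hi
  rw [Finset.prod_range_add]
  have h1 : ∏ x ∈ Finset.range i, (if x < i then (-1 : F) else 1) = (-1) ^ i := by
    rw [Finset.prod_congr rfl (g := fun _ => (-1 : F))]
    · simp
    · intro x hx
      simp [Finset.mem_range.1 hx]
  have h2 : ∏ x ∈ Finset.range k, (if i + x < i then (-1 : F) else 1) = 1 := by
    apply Finset.prod_eq_one
    intro x _
    simp
  rw [h1, h2, mul_one]


/-- Which diagonal involutions of PGL_n(q) lie in PSL_n(q), q odd: for the diagonal matrix t with i entries −1 and n − i entries 1, some non-zero scalar multiple of t has determinant one if and only if i is even or the 2-part of q − 1 exceeds the 2-part of n (that is, −1 is an n-th power in the field exactly in the latter case). -/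
theorem result {F : Type*} [Field F] [Fintype F] {q : ℕ} (hF : Fintype.card F = q) (hq : Odd q) {n : ℕ} (hn : 1 ≤ n) (i : ℕ) (hi : i ≤ n) : (∃ c : F, c ≠ 0 ∧ (c • Matrix.diagonal (fun j : Fin n => if (j : ℕ) < i then (-1 : F) else 1)).det = 1) ↔ (Even i ∨ padicValNat 2 n < padicValNat 2 (q - 1)) := by
  classical
  have hchar : ringChar F ≠ 2 := by
    intro h
    have := FiniteField.even_card_iff_char_two.1 h
    rw [hF] at this
    exact (Nat.not_even_iff_odd.2 hq) (Nat.even_iff.2 this)
  have hne : (-1 : F) ≠ 1 := Ring.neg_one_ne_one_of_char_ne_two hchar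
  have hq1 : 1 < q := by rw [← hF]; exact Fintype.one_lt_card
  have ht0 : q - 1 ≠ 0 := by omega
  obtain ⟨a, u, hu, hau⟩ := Nat.exists_eq_two_pow_mul_odd ht0
  obtain ⟨b, w, hw, hbw⟩ := Nat.exists_eq_two_pow_mul_odd (show n ≠ 0 by omega)
  have hva : padicValNat 2 (q - 1) = a := by rw [hau]; exact padic_two_pow_mul_odd a u hu
  have hvb : padicValNat 2 n = b := by rw [hbw]; exact padic_two_pow_mul_odd b w hw
  have hdet : ∀ c : F, (c • Matrix.diagonal (fun j : Fin n => if (j : ℕ) < i then (-1 : F) else 1)).det = c ^ n * (-1) ^ i := by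
    intro c
    rw [Matrix.det_smul, Matrix.det_diagonal, prod_neg_one n i hi, Fintype.card_fin]
  simp only [hdet, hva, hvb]
  constructor
  · rintro ⟨c, hc, h⟩
    by_cases hi' : Even i
    · exact Or.inl hi'
    · right
      rw [Nat.not_even_iff_odd] at hi'
      rw [hi'.neg_one_pow] at h
      have hcn : c ^ n = -1 := by
        have := congrArg (· * (-1 : F)) h
        simpa using this
      by_contra hlt
      push Not at hlt
      obtain ⟨d, rfl⟩ := Nat.exists_eq_add_of_le hlt
      have h1 : c ^ (q - 1) = 1 := by
        rw [← hF]; exact FiniteField.pow_card_sub_one_eq_one c hc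
      have h2 : (c ^ n) ^ u = 1 := by
        have : n * u = (q - 1) * (2 ^ d * w) := by
          rw [hau, hbw, pow_add]; ring
        rw [← pow_mul, this, pow_mul, h1, one_pow]
      rw [hcn, hu.neg_one_pow] at h2
      exact hne h2
  · rintro (hi' | hlt)
    · refine ⟨1, one_ne_zero, ?_⟩
      rw [hi'.neg_one_pow]; simp
    · by_cases hi' : Even i
      · refine ⟨1, one_ne_zero, ?_⟩
        rw [hi'.neg_one_pow]; simp
      · rw [Nat.not_even_iff_odd] at hi'
        obtain ⟨x, hx⟩ := FiniteField.exists_nonsquare hchar
        have hx0 : x ≠ 0 := by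
          rintro rfl
          exact hx (IsSquare.zero)
        have hxpow : x ^ (Fintype.card F / 2) = -1 := by
          rcases FiniteField.pow_dichotomy hchar hx0 with h | h
          · exact absurd ((FiniteField.isSquare_iff hchar hx0).2 h) hx
          · exact h
        have hq2 : Fintype.card F / 2 = 2 ^ (a - 1) * u := by
          have ha : 1 ≤ a := by
            by_contra ha
            have ha0 : a = 0 := by omega
            rw [ha0, pow_zero, one_mul] at hau
            obtain ⟨s, hs⟩ := hq
            obtain ⟨v, hv⟩ := hu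
            omega
          obtain ⟨a', rfl⟩ := Nat.exists_eq_add_of_le ha
          rw [hF]
          have : q = 2 * (2 ^ a' * u) + 1 := by
            rw [pow_add, pow_one] at hau
            have : q - 1 = 2 * (2 ^ a' * u) := by rw [hau]; ring
            omega
          simp only [Nat.add_sub_cancel_left]
          omega
        refine ⟨x ^ (u * 2 ^ (a - 1 - b)), pow_ne_zero _ hx0, ?_⟩
        have h1 : (x ^ (u * 2 ^ (a - 1 - b))) ^ n = -1 := by
          have : u * 2 ^ (a - 1 - b) * n = (2 ^ (a - 1) * u) * w := by
            have hle : b ≤ a - 1 := by omega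
            obtain ⟨d, hd⟩ := Nat.exists_eq_add_of_le hle
            rw [hd, hbw, Nat.add_sub_cancel_left, pow_add]; ring
          rw [← pow_mul, this, pow_mul, ← hq2, hxpow, hw.neg_one_pow]
        rw [h1, hi'.neg_one_pow]; ring

end Cfsg.Agent.S2575
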