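import Cfsg.Statements.S2576
import Mathlib

set_option autoImplicit false
open Cfsg

namespace Cfsg.Agent.S2576

theorem padic_two_pow_mul_odd (k m : ℕ) (hm : Odd m) : padicValNat 2 (2 ^ k * m) = k := by
  have hm0 : m ≠ 0 := hm.pos.ne'
  rw [padicValNat.mul (by positivity) hm0, padicValNat.prime_pow,
    padicValNat.eq_zero_of_not_dvd (by simpa using hm.not_two_dvd_nat), add_zero]


/-- Which involutions of PGL_2m(q) coming from a scalar of the quadratic extension field lie in PSL_2m(q), q odd: let μ generate the Sylow 2-subgroup of the multiplicative group of the field with q elements (μ has order the 2-part of q − 1) and let t be the block-diagonal matrix with m diagonal blocks [[0, 1], [μ, 0]] (so t² is the scalar μ and t is an involution modulo scalars). Then some non-zero scalar multiple of t has determinant one if and only if q ≡ 3 (mod 4) or the 2-part of q − 1 is less than the 2-part of 2m. -/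
theorem result {F : Type*} [Field F] [Fintype F] {q : ℕ} (hF : Fintype.card F = q) (hq : Odd q) {m : ℕ} (hm : 1 ≤ m) (μ : F) (hμ : orderOf μ = 2 ^ padicValNat 2 (q - 1)) : (∃ c : F, c ≠ 0 ∧ (c • Matrix.blockDiagonal (fun _ : Fin m => !![(0 : F), 1; μ, 0])).det = 1) ↔ (q % 4 = 3 ∨ padicValNat 2 (q - 1) < padicValNat 2 (2 * m)) := by
  classical
  have hchar : ringChar F ≠ 2 := by
    intro h
    have := FiniteField.even_card_iff_char_two.1 h
    rw [hF] at this
    exact (Nat.not_even_iff_odd.2 hq) (Nat.even_iff.2 this)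
  have hne : (-1 : F) ≠ 1 := Ring.neg_one_ne_one_of_char_ne_two hchar
  have hq1 : 1 < q := by rw [← hF]; exact Fintype.one_lt_card
  have ht0 : q - 1 ≠ 0 := by omega
  obtain ⟨a, u, hu, hau⟩ := Nat.exists_eq_two_pow_mul_odd ht0
  obtain ⟨b, w, hw, hbw⟩ := Nat.exists_eq_two_pow_mul_odd (show m ≠ 0 by omega)
  have hva : padicValNat 2 (q - 1) = a := by rw [hau]; exact padic_two_pow_mul_odd a u hu
  have hvb : padicValNat 2 (2 * m) = b + 1 := by
    have : 2 * m = 2 ^ (b + 1) * w := by rw [hbw, pow_succ]; ring
    rw [this]; exact padic_two_pow_mul_odd _ w hw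
  rw [hva] at hμ
  have hdet : ∀ c : F, (c • Matrix.blockDiagonal (fun _ : Fin m => !![(0 : F), 1; μ, 0])).det = c ^ (2 * m) * (-μ) ^ m := by
    intro c
    rw [Matrix.det_smul, Matrix.det_blockDiagonal]
    simp [Matrix.det_fin_two_of]
  simp only [hdet, hva, hvb]
  have ha1 : 1 ≤ a := by
    by_contra ha
    have ha0 : a = 0 := by omega
    rw [ha0, pow_zero, one_mul] at hau
    obtain ⟨s, hs⟩ := hq
    obtain ⟨v, hv⟩ := hu
    omega
  -- `μ` to the half of its order is `-1`
  have hμhalf : μ ^ (2 ^ (a - 1)) = -1 := by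
    have h1 : μ ^ (2 ^ (a - 1)) * μ ^ (2 ^ (a - 1)) = 1 := by
      rw [← pow_add, ← two_mul]
      have : 2 * 2 ^ (a - 1) = 2 ^ a := by
        obtain ⟨a', rfl⟩ := Nat.exists_eq_add_of_le ha1
        simp [pow_succ, pow_add]
      rw [this, ← hμ]
      exact pow_orderOf_eq_one μ
    rcases mul_self_eq_one_iff.1 h1 with h | h
    · exfalso
      have := orderOf_dvd_of_pow_eq_one h
      rw [hμ] at this
      have h2 := (Nat.pow_dvd_pow_iff_le_right (by norm_num : 1 < 2)).1 this
      omega
    · exact h
  constructor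
  · rintro ⟨c, hc, h⟩
    by_cases h3 : q % 4 = 3
    · exact Or.inl h3
    · right
      have hq4 : q % 4 = 1 := by
        obtain ⟨s, hs⟩ := hq
        omega
      have ha2 : 2 ≤ a := by
        by_contra ha
        have ha0 : a = 1 := by omega
        rw [ha0, pow_one] at hau
        obtain ⟨v, hv⟩ := hu
        omega
      by_contra hlt
      have hb : b ≤ a - 1 := by omega
      obtain ⟨d, hd⟩ := Nat.exists_eq_add_of_le hb
      have h1 : c ^ (q - 1) = 1 := by
        rw [← hF]; exact FiniteField.pow_card_sub_one_eq_one c hc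
      have hE : m * (u * 2 ^ d) = 2 ^ (a - 1) * (u * w) := by
        rw [hd, hbw, pow_add]; ring
      have h2 : (c ^ (2 * m) * (-μ) ^ m) ^ (u * 2 ^ d) = 1 := by rw [h, one_pow]
      rw [mul_pow, ← pow_mul, ← pow_mul] at h2
      have e1 : c ^ (2 * m * (u * 2 ^ d)) = 1 := by
        have : 2 * m * (u * 2 ^ d) = (q - 1) * w := by
          rw [mul_assoc, hE, hau]
          obtain ⟨a', rfl⟩ := Nat.exists_eq_add_of_le ha1
          simp [pow_add, pow_succ]; ring
        rw [this, pow_mul, h1, one_pow]
      have e2 : (-μ) ^ (m * (u * 2 ^ d)) = -1 := by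
        rw [hE, neg_pow, pow_mul μ, hμhalf, (hu.mul hw).neg_one_pow]
        have : Even (2 ^ (a - 1) * (u * w)) := by
          apply Even.mul_right
          exact (Nat.even_pow.2 ⟨even_two, by omega⟩)
        rw [this.neg_one_pow]; ring
      rw [e1, e2, one_mul] at h2
      exact hne h2
  · rintro (h3 | hlt)
    · -- `a = 1`, so `μ = -1`
      have ha : a = 1 := by
        by_contra ha
        have ha2 : 2 ≤ a := by omega
        obtain ⟨a', rfl⟩ := Nat.exists_eq_add_of_le ha2
        rw [pow_add] at hau
        have : q - 1 = 4 * (2 ^ a' * u) := by rw [hau]; ring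
        omega
      subst ha
      have hμ1 : μ = -1 := by simpa using hμhalf
      refine ⟨1, one_ne_zero, ?_⟩
      rw [hμ1]; simp
    · have hba : a ≤ b := by omega
      refine ⟨1, one_ne_zero, ?_⟩
      obtain ⟨d, hd⟩ := Nat.exists_eq_add_of_le hba
      have h1 : μ ^ m = 1 := by
        have : m = 2 ^ a * (2 ^ d * w) := by rw [hbw, hd, pow_add]; ring
        rw [this, pow_mul, ← hμ, pow_orderOf_eq_one, one_pow]
      have h2 : Even m := by
        rw [hbw]
        apply Even.mul_right
        exact (Nat.even_pow.2 ⟨even_two, by omega⟩)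
      rw [neg_pow, h1, h2.neg_one_pow]; simp

end Cfsg.Agent.S2576
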