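import Cfsg.Statements.S2578
import Mathlib
import Cfsg.Agent.Lib.RegUnip.Std

set_option autoImplicit false
open Cfsg

namespace Cfsg.Agent.S2578


/-- Regular unipotent classes of SL_n(q): for n ≥ 2 over the field with q elements, the matrices u of determinant one with (u − 1)^n = 0 and rank(u − 1) = n − 1 form a single GL_n(q)-class which splits into exactly gcd(n, q − 1) conjugacy classes of SL_n(q). -/
theorem result {F : Type*} [Field F] [Fintype F] {q : ℕ} (hF : Fintype.card F = q) {n : ℕ} (hn : 2 ≤ n) : Nat.card {C : ConjClasses (Matrix.SpecialLinearGroup (Fin n) F) // ∃ u : Matrix.SpecialLinearGroup (Fin n) F, ConjClasses.mk u = C ∧ ((u : Matrix (Fin n) (Fin n) F) - 1) ^ n = 0 ∧ ((u : Matrix (Fin n) (Fin n) F) - 1).rank = n - 1} = Nat.gcd n (q - 1) := by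
  classical
  have hn1 : 1 ≤ n := by omega
  have : Nonempty (Fin n) := ⟨⟨0, hn1⟩⟩
  have hmv : ∀ (M : Matrix (Fin n) (Fin n) F) (v : Fin n → F), Matrix.mulVecLin (M - 1) v = M.mulVec v - v := by
    intro M v
    rw [Matrix.mulVecLin_apply, Matrix.sub_mulVec, Matrix.one_mulVec]
  have hcard : Module.finrank F (Fin n → F) = n := by simp
  -- base point
  obtain ⟨J₀, hJdet, hJnil, hJrank⟩ := Cfsg.Agent.Lib.RegUnip.exists_regular_unipotent (F := F) n hn1
  -- the predicate transported by conjugation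
  have hconj : ∀ (x : GL (Fin n) F) (M : Matrix (Fin n) (Fin n) F), (M - 1) ^ n = 0 → (M - 1).rank = n - 1 →
      ((x : Matrix (Fin n) (Fin n) F) * M * ((x⁻¹ : GL (Fin n) F) : Matrix (Fin n) (Fin n) F) - 1) ^ n = 0 ∧
      ((x : Matrix (Fin n) (Fin n) F) * M * ((x⁻¹ : GL (Fin n) F) : Matrix (Fin n) (Fin n) F) - 1).rank = n - 1 := by
    intro x M h1 h2
    have e : (x : Matrix (Fin n) (Fin n) F) * M * ((x⁻¹ : GL (Fin n) F) : Matrix (Fin n) (Fin n) F) - 1 =
        (x : Matrix (Fin n) (Fin n) F) * (M - 1) * ((x⁻¹ : GL (Fin n) F) : Matrix (Fin n) (Fin n) F) := by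
      rw [mul_sub, sub_mul, mul_one]
      simp
    rw [e]
    constructor
    · rw [Units.conj_pow, h1]
      simp
    · rw [Matrix.rank_mul_eq_left_of_isUnit_det _ _ ((Matrix.isUnit_iff_isUnit_det _).1 (x⁻¹ : GL (Fin n) F).isUnit),
        Matrix.rank_mul_eq_right_of_isUnit_det _ _ ((Matrix.isUnit_iff_isUnit_det _).1 x.isUnit), h2]
  -- End-level data of a regular unipotent
  have hend : ∀ M : Matrix (Fin n) (Fin n) F, (M - 1) ^ n = 0 → (M - 1).rank = n - 1 →
      (Matrix.mulVecLin (M - 1)) ^ n = 0 ∧ Module.finrank F (LinearMap.ker (Matrix.mulVecLin (M - 1))) ≤ 1 := by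
    intro M h1 h2
    constructor
    · rw [← Cfsg.Agent.Lib.RegUnip.mulVecLin_pow_eq, h1]
      ext; simp
    · have := LinearMap.finrank_range_add_finrank_ker (Matrix.mulVecLin (M - 1))
      have h3 : Module.finrank F (LinearMap.range (Matrix.mulVecLin (M - 1))) = n - 1 := h2
      omega
  -- every regular unipotent is conjugate to the base point
  have hall : ∀ M : Matrix (Fin n) (Fin n) F, (M - 1) ^ n = 0 → (M - 1).rank = n - 1 →
      ∃ g : GL (Fin n) F, (g : Matrix (Fin n) (Fin n) F) * J₀ = M * (g : Matrix (Fin n) (Fin n) F) := by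
    intro M h1 h2
    obtain ⟨hn1', hk1⟩ := hend J₀ hJnil hJrank
    obtain ⟨hn2', hk2⟩ := hend M h1 h2
    obtain ⟨w, hw⟩ := Cfsg.Agent.Lib.RegUnip.exists_cyclic _ n hcard hk1 hn1' hn1
    obtain ⟨w', hw'⟩ := Cfsg.Agent.Lib.RegUnip.exists_cyclic _ n hcard hk2 hn2' hn1
    obtain ⟨e, -, he⟩ := Cfsg.Agent.Lib.RegUnip.exists_equiv_conj _ _ n hcard hn1' hn2' w w' hw hw'
    refine ⟨Cfsg.Agent.Lib.RegUnip.glOfEquiv e, ?_⟩
    apply Matrix.mulVec_injective
    funext v
    rw [← Matrix.mulVec_mulVec, ← Matrix.mulVec_mulVec, Cfsg.Agent.Lib.RegUnip.glOfEquiv_mulVec, Cfsg.Agent.Lib.RegUnip.glOfEquiv_mulVec]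
    have h3 := he v
    rw [hmv, hmv, map_sub] at h3
    exact sub_left_injective h3
  -- determinants of the centraliser
  have hcent : ∀ x : GL (Fin n) F, (x : Matrix (Fin n) (Fin n) F) * J₀ = J₀ * (x : Matrix (Fin n) (Fin n) F) →
      ∃ c : F, (x : Matrix (Fin n) (Fin n) F).det = c ^ n := by
    intro x hx
    obtain ⟨hn1', hk1⟩ := hend J₀ hJnil hJrank
    obtain ⟨w, hw⟩ := Cfsg.Agent.Lib.RegUnip.exists_cyclic _ n hcard hk1 hn1' hn1
    have hc : Commute (Matrix.mulVecLin (x : Matrix (Fin n) (Fin n) F)) (Matrix.mulVecLin (J₀ - 1)) := by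
      apply LinearMap.ext
      intro v
      show (x : Matrix (Fin n) (Fin n) F).mulVec (Matrix.mulVecLin (J₀ - 1) v) = Matrix.mulVecLin (J₀ - 1) ((x : Matrix (Fin n) (Fin n) F).mulVec v)
      rw [hmv, hmv, Matrix.mulVec_sub, Matrix.mulVec_mulVec, Matrix.mulVec_mulVec, hx]
    obtain ⟨c, hc'⟩ := Cfsg.Agent.Lib.RegUnip.exists_det_eq_pow _ n hcard hn1' w hw _ hc
    refine ⟨c, ?_⟩
    rw [← hc', ← Matrix.toLin'_apply', LinearMap.det_toLin']
  -- the map
  choose g hg using (Matrix.GeneralLinearGroup.det_surjective : Function.Surjective (Matrix.GeneralLinearGroup.det : GL (Fin n) F → Fˣ))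
  have hgdet : ∀ d : Fˣ, ((g d : GL (Fin n) F) : Matrix (Fin n) (Fin n) F).det = (d : F) := by
    intro d
    have := congrArg Units.val (hg d)
    simpa using this
  have hinvdet : ∀ x : GL (Fin n) F, ((x⁻¹ : GL (Fin n) F) : Matrix (Fin n) (Fin n) F).det * (x : Matrix (Fin n) (Fin n) F).det = 1 := by
    intro x
    rw [← Matrix.det_mul, ← Units.val_mul]
    simp
  let Jd : Fˣ → Matrix.SpecialLinearGroup (Fin n) F := fun d =>
    ⟨(g d : Matrix (Fin n) (Fin n) F) * J₀ * ((g d)⁻¹ : GL (Fin n) F), by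
      rw [Matrix.det_mul, Matrix.det_mul, hJdet, mul_one, mul_comm, hinvdet]⟩
  have hJd : ∀ d, ((Jd d : Matrix.SpecialLinearGroup (Fin n) F) : Matrix (Fin n) (Fin n) F) = (g d : Matrix (Fin n) (Fin n) F) * J₀ * ((g d)⁻¹ : GL (Fin n) F) := fun d => rfl
  have hJdP : ∀ d, ((Jd d : Matrix (Fin n) (Fin n) F) - 1) ^ n = 0 ∧ ((Jd d : Matrix (Fin n) (Fin n) F) - 1).rank = n - 1 :=
    fun d => hconj (g d) J₀ hJnil hJrank
  let T := {C : ConjClasses (Matrix.SpecialLinearGroup (Fin n) F) // ∃ u : Matrix.SpecialLinearGroup (Fin n) F, ConjClasses.mk u = C ∧ ((u : Matrix (Fin n) (Fin n) F) - 1) ^ n = 0 ∧ ((u : Matrix (Fin n) (Fin n) F) - 1).rank = n - 1}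
  let ψ : Fˣ → T := fun d => ⟨ConjClasses.mk (Jd d), Jd d, rfl, hJdP d⟩
  let K : Subgroup Fˣ := (powMonoidHom n : Fˣ →* Fˣ).range
  have hsurj : Function.Surjective ψ := by
    rintro ⟨C, u, rfl, h1, h2⟩
    obtain ⟨x, hx⟩ := hall _ h1 h2
    obtain ⟨d, hd⟩ : ∃ d : Fˣ, (d : F) = (x : Matrix (Fin n) (Fin n) F).det := ⟨Matrix.GeneralLinearGroup.det x, rfl⟩
    refine ⟨d, Subtype.ext ?_⟩
    apply ConjClasses.mk_eq_mk_iff_isConj.2
    -- s = x * (g d)⁻¹
    let s : Matrix.SpecialLinearGroup (Fin n) F := ⟨(x : Matrix (Fin n) (Fin n) F) * ((g d)⁻¹ : GL (Fin n) F), by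
      rw [Matrix.det_mul, ← hd, mul_comm, ← hgdet d, hinvdet]⟩
    refine isConj_iff.2 ⟨s, ?_⟩
    apply mul_inv_eq_iff_eq_mul.2
    apply Subtype.ext
    show (x : Matrix (Fin n) (Fin n) F) * ((g d)⁻¹ : GL (Fin n) F) * ((g d : Matrix (Fin n) (Fin n) F) * J₀ * ((g d)⁻¹ : GL (Fin n) F)) = (u : Matrix (Fin n) (Fin n) F) * ((x : Matrix (Fin n) (Fin n) F) * ((g d)⁻¹ : GL (Fin n) F))
    rw [← mul_assoc (u : Matrix (Fin n) (Fin n) F), ← hx]
    simp [mul_assoc]
  have hfib : ∀ d d' : Fˣ, ψ d = ψ d' ↔ d⁻¹ * d' ∈ K := by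
    intro d d'
    constructor
    · intro h
      have h1 : ConjClasses.mk (Jd d) = ConjClasses.mk (Jd d') := congrArg Subtype.val h
      obtain ⟨s, hs⟩ := isConj_iff.1 (ConjClasses.mk_eq_mk_iff_isConj.1 h1)
      have hs' : s * Jd d = Jd d' * s := mul_inv_eq_iff_eq_mul.1 hs
      have hs'' : (s : Matrix (Fin n) (Fin n) F) * (Jd d : Matrix (Fin n) (Fin n) F) = (Jd d' : Matrix (Fin n) (Fin n) F) * s := congrArg Subtype.val hs'
      -- x = (g d')⁻¹ * s * g d
      let sg : GL (Fin n) F := Matrix.SpecialLinearGroup.toGL s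
      have hsg : (sg : Matrix (Fin n) (Fin n) F) = (s : Matrix (Fin n) (Fin n) F) := rfl
      let x : GL (Fin n) F := (g d')⁻¹ * sg * g d
      have hxc : (x : Matrix (Fin n) (Fin n) F) * J₀ = J₀ * (x : Matrix (Fin n) (Fin n) F) := by
        rw [hJd, hJd] at hs''
        simp only [x, Units.val_mul, hsg]
        have e1 : ∀ a : GL (Fin n) F, ∀ M : Matrix (Fin n) (Fin n) F, ((a : Matrix (Fin n) (Fin n) F) * ((a⁻¹ : GL (Fin n) F) : Matrix (Fin n) (Fin n) F)) * M = M := by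
          intro a M; simp
        have e2 : ∀ a : GL (Fin n) F, ∀ M : Matrix (Fin n) (Fin n) F, (((a⁻¹ : GL (Fin n) F) : Matrix (Fin n) (Fin n) F) * (a : Matrix (Fin n) (Fin n) F)) * M = M := by
          intro a M; simp
        calc _ = ((((g d')⁻¹ : GL (Fin n) F) : Matrix (Fin n) (Fin n) F) * (s : Matrix (Fin n) (Fin n) F)) * ((g d : Matrix (Fin n) (Fin n) F) * J₀) := by
                simp only [mul_assoc]
          _ = ((((g d')⁻¹ : GL (Fin n) F) : Matrix (Fin n) (Fin n) F) * ((s : Matrix (Fin n) (Fin n) F) * ((g d : Matrix (Fin n) (Fin n) F) * J₀ * ((g d)⁻¹ : GL (Fin n) F))) * (g d : Matrix (Fin n) (Fin n) F)) := by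
                simp [mul_assoc]
          _ = ((((g d')⁻¹ : GL (Fin n) F) : Matrix (Fin n) (Fin n) F) * (((g d' : Matrix (Fin n) (Fin n) F) * J₀ * ((g d')⁻¹ : GL (Fin n) F)) * (s : Matrix (Fin n) (Fin n) F)) * (g d : Matrix (Fin n) (Fin n) F)) := by
                rw [hs'']
          _ = _ := by
                simp [mul_assoc]
      obtain ⟨c, hc⟩ := hcent x hxc
      have hdetx : (x : Matrix (Fin n) (Fin n) F).det = ((d'⁻¹ * d : Fˣ) : F) := by
        simp only [x, Units.val_mul, Matrix.det_mul]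
        have h3 : (sg : Matrix (Fin n) (Fin n) F).det = 1 := s.2
        rw [h3, mul_one, hgdet d]
        have h4 := hinvdet (g d')
        rw [hgdet d'] at h4
        simp only [Units.val_inv_eq_inv_val]
        congr 1
        exact eq_inv_of_mul_eq_one_left h4
      have hc0 : c ≠ 0 := by
        rintro rfl
        rw [zero_pow (by omega)] at hc
        rw [hc] at hdetx
        exact (Units.ne_zero _) hdetx.symm
      refine ⟨(Units.mk0 c hc0)⁻¹, ?_⟩
      apply Units.ext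
      simp only [powMonoidHom_apply, Units.val_pow_eq_pow_val, Units.val_inv_eq_inv_val, Units.val_mk0, Units.val_mul, inv_pow]
      rw [← hc, hdetx]
      simp
    · rintro ⟨c, hc⟩
      have hc' : c ^ n = d⁻¹ * d' := hc
      apply Subtype.ext
      apply ConjClasses.mk_eq_mk_iff_isConj.2
      let z : GL (Fin n) F := Matrix.GeneralLinearGroup.scalar (Fin n) c⁻¹
      have hzm : (z : Matrix (Fin n) (Fin n) F) = Matrix.scalar (Fin n) ((c⁻¹ : Fˣ) : F) := rfl
      let s : Matrix.SpecialLinearGroup (Fin n) F := ⟨(g d' : Matrix (Fin n) (Fin n) F) * (z : Matrix (Fin n) (Fin n) F) * ((g d)⁻¹ : GL (Fin n) F), by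
        rw [Matrix.det_mul, Matrix.det_mul, hgdet d', hzm, Matrix.scalar_apply, Matrix.det_diagonal, Finset.prod_const, Finset.card_univ, Fintype.card_fin]
        have h3 := hinvdet (g d)
        rw [hgdet d] at h3
        have h4 : (((c⁻¹ : Fˣ) : F)) ^ n = ((d * d'⁻¹ : Fˣ) : F) := by
          have : (c⁻¹) ^ n = d * d'⁻¹ := by
            rw [inv_pow, hc']
            simp [mul_comm]
          exact_mod_cast congrArg Units.val this
        rw [h4]
        simp only [Units.val_mul, Units.val_inv_eq_inv_val] at h3 ⊢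
        field_simp
        have hne : (d : F) ≠ 0 := Units.ne_zero d
        rw [mul_comm]
        exact h3⟩
      refine isConj_iff.2 ⟨s, ?_⟩
      apply mul_inv_eq_iff_eq_mul.2
      apply Subtype.ext
      show (g d' : Matrix (Fin n) (Fin n) F) * (z : Matrix (Fin n) (Fin n) F) * ((g d)⁻¹ : GL (Fin n) F) * ((g d : Matrix (Fin n) (Fin n) F) * J₀ * ((g d)⁻¹ : GL (Fin n) F)) = ((g d' : Matrix (Fin n) (Fin n) F) * J₀ * ((g d')⁻¹ : GL (Fin n) F)) * ((g d' : Matrix (Fin n) (Fin n) F) * (z : Matrix (Fin n) (Fin n) F) * ((g d)⁻¹ : GL (Fin n) F))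
      have hzc : (z : Matrix (Fin n) (Fin n) F) * J₀ = J₀ * (z : Matrix (Fin n) (Fin n) F) := by
        rw [hzm]
        exact (Matrix.scalar_commute _ (fun _ => Commute.all _ _) _)
      have e1 : (((g d)⁻¹ : GL (Fin n) F) : Matrix (Fin n) (Fin n) F) * ((g d : Matrix (Fin n) (Fin n) F) * (J₀ * (((g d)⁻¹ : GL (Fin n) F) : Matrix (Fin n) (Fin n) F))) = J₀ * (((g d)⁻¹ : GL (Fin n) F) : Matrix (Fin n) (Fin n) F) := by
        rw [← mul_assoc]; simp
      have e2 : (((g d')⁻¹ : GL (Fin n) F) : Matrix (Fin n) (Fin n) F) * ((g d' : Matrix (Fin n) (Fin n) F) * ((z : Matrix (Fin n) (Fin n) F) * (((g d)⁻¹ : GL (Fin n) F) : Matrix (Fin n) (Fin n) F))) = (z : Matrix (Fin n) (Fin n) F) * (((g d)⁻¹ : GL (Fin n) F) : Matrix (Fin n) (Fin n) F) := by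
        rw [← mul_assoc]; simp
      simp only [mul_assoc]
      rw [e1, e2, ← mul_assoc (z : Matrix (Fin n) (Fin n) F) J₀, hzc, mul_assoc]
  -- conclude
  have hcount : Nat.card T = Nat.card (Fˣ ⧸ K) := by
    symm
    apply Nat.card_congr
    refine Equiv.ofBijective (Quotient.lift ψ ?_) ⟨?_, ?_⟩
    · intro a b hab
      exact (hfib a b).2 (QuotientGroup.leftRel_apply.1 hab)
    · intro a b
      induction a using Quotient.inductionOn with | _ a => ?_
      induction b using Quotient.inductionOn with | _ b => ?_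
      intro h
      exact Quotient.sound (QuotientGroup.leftRel_apply.2 ((hfib a b).1 h))
    · intro t
      obtain ⟨d, hd⟩ := hsurj t
      exact ⟨Quotient.mk _ d, hd⟩
  have hK : Nat.card (Fˣ ⧸ K) = Nat.gcd (Nat.card Fˣ) n := by
    have := IsCyclic.index_powMonoidHom_range (G := Fˣ) n
    rw [← this]
    rfl
  show Nat.card T = _
  rw [hcount, hK, Nat.card_eq_fintype_card, Fintype.card_units, hF, Nat.gcd_comm]

end Cfsg.Agent.S2578
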