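import Cfsg.Statements.S2579
import Mathlib
import Cfsg.Agent.Lib.Transv.Conj

set_option autoImplicit false
open Cfsg

namespace Cfsg.Agent.S2579


/-- In SL_n(F) with n ≥ 3, over a finite field F, any two transvections (matrices t with t − 1 of rank one and square zero) are conjugate by an element of SL_n(F). -/
theorem result {F : Type*} [Field F] [Finite F] {n : ℕ} (hn : 3 ≤ n) (s t : Matrix.SpecialLinearGroup (Fin n) F) (hs : Cfsg.IsTransvection (s : Matrix (Fin n) (Fin n) F)) (ht : Cfsg.IsTransvection (t : Matrix (Fin n) (Fin n) F)) : IsConj s t := by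
  classical
  have key : ∀ t : Matrix.SpecialLinearGroup (Fin n) F, Cfsg.IsTransvection (t : Matrix (Fin n) (Fin n) F) →
      ∃ a b : Fin n → F, a ≠ 0 ∧ b ≠ 0 ∧ b ⬝ᵥ a = 0 ∧ (t : Matrix (Fin n) (Fin n) F) = 1 + Matrix.vecMulVec a b := by
    rintro t ⟨hr, hs⟩
    obtain ⟨a, b, ha, hb, hM⟩ := Cfsg.Agent.Lib.Classical.exists_vecMulVec_of_rank_one hr
    refine ⟨a, b, ha, hb, ?_, ?_⟩
    · rw [hM, Matrix.vecMulVec_mul_vecMulVec, Matrix.vecMulVec_eq_zero] at hs
      rcases hs with hs | hs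
      · exact absurd hs ha
      · rcases smul_eq_zero.1 hs with h1 | h1
        · simpa [MulOpposite.op_eq_zero_iff] using h1
        · exact absurd h1 hb
    · rw [← hM]; abel
  obtain ⟨a, b, ha, hb, hab, hs1⟩ := key s hs
  obtain ⟨a', b', ha', hb', hab', ht1⟩ := key t ht
  obtain ⟨G, hG1, hG2⟩ := Cfsg.Agent.Lib.Transv.exists_SL_of_pairs ha ha' hb hb' hab hab' (by simpa using hn)
  rw [isConj_iff]
  refine ⟨G, ?_⟩
  have h1 : G * s = t * G := by
    apply Subtype.ext
    show (G : Matrix (Fin n) (Fin n) F) * (s : Matrix (Fin n) (Fin n) F) = (t : Matrix (Fin n) (Fin n) F) * G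
    rw [hs1, ht1]
    exact Cfsg.Agent.Lib.Transv.mul_one_add_vecMulVec hG1 hG2
  rw [h1, mul_inv_cancel_right]

end Cfsg.Agent.S2579
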