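import Cfsg.Statements.S2582
import Cfsg.Agent.Lib.JordanForm.Main

set_option autoImplicit false
open Cfsg

namespace Cfsg.Agent.S2582


/-- Which unipotent Jordan types occur in the finite symplectic group: over a finite field, a unipotent matrix with Jordan block sizes d_1, …, d_t (sum 2m, all at least 1) is similar to an element of Sp_2m(F) if and only if every odd block size occurs an even number of times. -/
theorem result {F : Type*} [Field F] [Fintype F] {m t : ℕ} (d : Fin t → ℕ) (hd : ∀ k, 1 ≤ d k) (hsum : ∑ k, d k = 2 * m) : (∃ e : ((k : Fin t) × Fin (d k)) ≃ (Fin m ⊕ Fin m), ∃ A : Matrix.symplecticGroup (Fin m) F, IsConj (Matrix.reindex e e (Cfsg.jordanTypeMatrix d F)) (A : Matrix (Fin m ⊕ Fin m) (Fin m ⊕ Fin m) F)) ↔ ∀ j : ℕ, Odd j → Even (Finset.univ.filter (fun k : Fin t => d k = j)).card := by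
  classical
  constructor
  · rintro ⟨e, A, hc⟩ j hj
    refine Cfsg.Agent.Lib.JordanForm.even_of_alt_conj e hc (Cfsg.Agent.Lib.AutPSL.sympBil m F) ?_ ?_ ?_ j hj
    · intro x y
      rw [Cfsg.Agent.Lib.AutPSL.sympBil_apply, Cfsg.Agent.Lib.AutPSL.sympBil_apply]
      exact Cfsg.Agent.Lib.KnownSimple.sympForm_mulVec_mulVec A.2 x y
    · exact (Cfsg.Agent.Lib.AutPSL.sympBil_nondeg m).2
    · intro x
      rw [Cfsg.Agent.Lib.AutPSL.sympBil_apply]
      exact Cfsg.Agent.Lib.KnownSimple.sympForm_self x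
  · intro hmult
    exact Cfsg.Agent.Lib.JordanForm.sp_of_mult hd hsum hmult

end Cfsg.Agent.S2582
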