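import Cfsg.Statements.S2583
import Cfsg.Agent.Lib.JordanForm.Main

set_option autoImplicit false
open Cfsg

namespace Cfsg.Agent.S2583

open scoped Matrix


/-- Which unipotent Jordan types occur in a finite orthogonal group in odd characteristic: over a finite field of odd order, a unipotent matrix with Jordan block sizes d_1, …, d_t (sum n, all at least 1) is similar to an isometry of some quadratic form on F^n with non-degenerate polar form if and only if every even block size occurs an even number of times. -/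
theorem result {F : Type*} [Field F] [Fintype F] (h2 : (2 : F) ≠ 0) {n t : ℕ} (d : Fin t → ℕ) (hd : ∀ k, 1 ≤ d k) (hsum : ∑ k, d k = n) : (∃ Q : QuadraticForm F (Fin n → F), (QuadraticMap.polarBilin Q).Nondegenerate ∧ ∃ e : ((k : Fin t) × Fin (d k)) ≃ Fin n, ∃ A : ↥(Cfsg.isometryGroup F ⇑Q), IsConj (Matrix.reindex e e (Cfsg.jordanTypeMatrix d F)) ((A : Matrix.GeneralLinearGroup (Fin n) F) : Matrix (Fin n) (Fin n) F)) ↔ ∀ j : ℕ, Even j → 0 < j → Even (Finset.univ.filter (fun k : Fin t => d k = j)).card := by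
  classical
  constructor
  · rintro ⟨Q, hnd, e, A, hc⟩ j hj h0
    refine Cfsg.Agent.Lib.JordanForm.even_of_symm_conj h2 e hc (QuadraticMap.polarBilin Q) ?_ hnd.2 ?_ j hj h0
    · intro x y
      have hA : ∀ v, Q (((A : Matrix.GeneralLinearGroup (Fin n) F) : Matrix (Fin n) (Fin n) F) *ᵥ v) = Q v :=
        fun v => A.2 v 0
      simp only [QuadraticMap.polarBilin_apply_apply, QuadraticMap.polar]
      rw [← Matrix.mulVec_add, hA, hA, hA]
    · intro x y
      simp only [QuadraticMap.polarBilin_apply_apply]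
      exact QuadraticMap.polar_comm Q x y
  · intro hmult
    obtain ⟨B, hinv, hsep, hsym⟩ := Cfsg.Agent.Lib.JordanForm.exists_form_sym (F := F) (d := d) h2 hd hmult
    have hcard : Fintype.card ((k : Fin t) × Fin (d k)) = Fintype.card (Fin n) := by
      rw [Cfsg.Agent.Lib.JordanForm.card_Ix, hsum]
      simp
    let e : ((k : Fin t) × Fin (d k)) ≃ Fin n := Fintype.equivOfCardEq hcard
    let φ : (Fin n → F) ≃ₗ[F] ((k : Fin t) × Fin (d k) → F) := LinearEquiv.funCongrLeft F F e
    let B₁ : (Fin n → F) →ₗ[F] (Fin n → F) →ₗ[F] F := B.compl₁₂ φ.toLinearMap φ.toLinearMap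
    have hB₁ : ∀ x y, B₁ x y = B (φ x) (φ y) := fun x y => rfl
    obtain ⟨Q, hQ, hpol⟩ := Cfsg.Agent.Lib.JordanForm.exists_quad_of_symm h2 B₁
      (fun x y => by rw [hB₁, hB₁, hsym])
    have hsepL : ∀ y, (∀ x, B₁ x y = 0) → y = 0 := by
      intro y hy
      have : φ y = 0 := by
        apply hsep
        intro x
        have := hy (φ.symm x)
        rwa [hB₁, LinearEquiv.apply_symm_apply] at this
      simpa using this
    obtain ⟨g, hg⟩ := Cfsg.Agent.Lib.JordanForm.exists_unit_reindex (F := F) (d := d) e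
    have hφA : ∀ v, φ (Matrix.reindex e e (jordanTypeMatrix d F) *ᵥ v) = jordanTypeMatrix d F *ᵥ φ v := by
      intro v
      rw [Cfsg.Agent.Lib.JordanForm.reindex_mulVec']
      funext a
      show ((jordanTypeMatrix d F *ᵥ (v ∘ e)) ∘ e.symm) (e a) = _
      simp
      rfl
    refine ⟨Q, ⟨?_, ?_⟩, e, ⟨g, ?_⟩, ?_⟩
    · intro x hx
      apply hsepL
      intro y
      have := hx y
      simp only [QuadraticMap.polarBilin_apply_apply, hpol] at this
      rw [hB₁, hsym, ← hB₁]
      exact this
    · intro y hy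
      apply hsepL
      intro x
      have := hy x
      simp only [QuadraticMap.polarBilin_apply_apply, hpol] at this
      exact this
    · intro u v
      show Q ((g : Matrix (Fin n) (Fin n) F) *ᵥ u) = Q u
      rw [hg, hQ, hQ, hB₁, hB₁, hφA]
      congr 1
      exact hinv (φ u) (φ u)
    · show IsConj (Matrix.reindex e e (jordanTypeMatrix d F)) (g : Matrix (Fin n) (Fin n) F)
      rw [hg]

end Cfsg.Agent.S2583
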