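import Cfsg.Statements.S2585
import Mathlib
import Cfsg.Agent.Lib.Quad.Gram
import Cfsg.Agent.Lib.KnownSimple.SympForm

set_option autoImplicit false
open Cfsg

namespace Cfsg.Agent.S2585


/-- Over a finite field of characteristic two every element of the symplectic group is orthogonal for a suitable quadratic form: for each A in Sp_2m(F) there is a quadratic form Q on F^(2m) whose polar form is the alternating form defining Sp_2m(F) (so Q is non-degenerate) and which A preserves. Equivalently, for m ≥ 1, Sp_2m(F) is the union of the conjugates of its two orthogonal subgroups O⁺_2m(F) and O⁻_2m(F). -/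
theorem result {F : Type*} [Field F] [Fintype F] [CharP F 2] {m : ℕ} (A : Matrix.symplecticGroup (Fin m) F) : ∃ Q : QuadraticForm F (Fin m ⊕ Fin m → F), (∀ u v : Fin m ⊕ Fin m → F, QuadraticMap.polar ⇑Q u v = Cfsg.sympForm m F u v) ∧ ∀ v : Fin m ⊕ Fin m → F, Q ((A : Matrix (Fin m ⊕ Fin m) (Fin m ⊕ Fin m) F).mulVec v) = Q v := by
  classical
  have h2F : (2 : F) = 0 := by exact_mod_cast CharP.cast_eq_zero F 2
  have hneg : ∀ x : F, -x = x := fun x => by
    have : x + x = 0 := by rw [← two_mul, h2F, zero_mul]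
    exact neg_eq_of_add_eq_zero_left this
  have hsubadd : ∀ x y : F, x - y = x + y := fun x y => by rw [sub_eq_add_neg, hneg]
  have haddself : ∀ x : F, x + x = 0 := fun x => by rw [← two_mul, h2F, zero_mul]
  set M : Matrix (Fin m ⊕ Fin m) (Fin m ⊕ Fin m) F := (A : Matrix (Fin m ⊕ Fin m) (Fin m ⊕ Fin m) F) with hM
  set f := Cfsg.sympForm m F with hf
  have hfiso : ∀ u v, f (M.mulVec u) (M.mulVec v) = f u v := fun u v =>
    Cfsg.Agent.Lib.KnownSimple.sympForm_mulVec_mulVec A.2 u v
  -- base form
  let Q₀ : QuadraticForm F (Fin m ⊕ Fin m → F) := Cfsg.Agent.Lib.Quad.plusQF m F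
  have hQ₀app : ∀ v, Q₀ v = Cfsg.quadFormPlus m F v := Cfsg.Agent.Lib.Quad.plusQF_apply m
  have hQ₀pol : ∀ u v, QuadraticMap.polar Q₀ u v = f u v := by
    intro u v
    simp only [QuadraticMap.polar, hQ₀app, Cfsg.quadFormPlus, hf, Cfsg.Agent.Lib.KnownSimple.sympForm_apply, Pi.add_apply]
    rw [← Finset.sum_sub_distrib, ← Finset.sum_sub_distrib]
    apply Finset.sum_congr rfl
    intro i _
    rw [hsubadd (u (Sum.inr i) * v (Sum.inl i))]
    ring
  -- the defect
  let D : (Fin m ⊕ Fin m → F) → F := fun v => Q₀ (M.mulVec v) - Q₀ v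
  have hDadd : ∀ u v, D (u + v) = D u + D v := by
    intro u v
    have h1 := hQ₀pol (M.mulVec u) (M.mulVec v)
    have h2 := hQ₀pol u v
    rw [hfiso] at h1
    simp only [QuadraticMap.polar] at h1 h2
    simp only [D, Matrix.mulVec_add]
    linear_combination h1 - h2
  have hDsmul : ∀ (c : F) v, D (c • v) = c * c * D v := by
    intro c v
    simp only [D, Matrix.mulVec_smul, QuadraticMap.map_smul, smul_eq_mul]
    ring
  have hsq : ∀ c : F, ∃ d : F, d * d = c := by
    intro c
    have : IsSquare c := FiniteField.isSquare_of_char_two (ringChar.eq F 2) c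
    obtain ⟨d, hd⟩ := this
    exact ⟨d, hd.symm⟩
  choose s hs using hsq
  -- a square root of D as a linear form, given by a vector
  let b := Pi.basisFun F (Fin m ⊕ Fin m)
  let ℓ : (Fin m ⊕ Fin m → F) →ₗ[F] F := b.constr F (fun i => s (D (b i)))
  have hℓ : ∀ v, ℓ v * ℓ v = D v := by
    intro v
    have hsum : ∀ (t : Finset (Fin m ⊕ Fin m)) (g : Fin m ⊕ Fin m → F), ℓ (∑ i ∈ t, g i • b i) * ℓ (∑ i ∈ t, g i • b i) = D (∑ i ∈ t, g i • b i) := by
      intro t g
      induction t using Finset.induction_on with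
      | empty =>
        simp only [Finset.sum_empty, map_zero, mul_zero]
        have : D 0 = 0 := by
          have := hDadd 0 0
          simp only [add_zero] at this
          linear_combination -this
        rw [this]
      | insert a t ha ih =>
        rw [Finset.sum_insert ha, hDadd, hDsmul, ← ih, map_add, map_smul]
        have h3 : ℓ (b a) = s (D (b a)) := by simp [ℓ]
        rw [h3, smul_eq_mul]
        have h4 := hs (D (b a))
        linear_combination (g a * g a) * h4 + (g a * s (D (b a)) * ℓ (∑ i ∈ t, g i • b i)) * h2F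
    have := hsum Finset.univ (b.repr v)
    rwa [b.sum_repr] at this
  -- represent ℓ as f(·, w)
  let J := Matrix.J (Fin m) F
  let cv : Fin m ⊕ Fin m → F := fun i => ℓ (b i)
  have hℓdot : ∀ v, ℓ v = v ⬝ᵥ cv := by
    intro v
    conv_lhs => rw [← b.sum_repr v]
    rw [map_sum]
    simp only [map_smul, smul_eq_mul, dotProduct, cv]
    apply Finset.sum_congr rfl
    intro i _
    simp [b]
  let w : Fin m ⊕ Fin m → F := -(J.mulVec cv)
  have hJJ : J * J = -1 := Matrix.J_squared (Fin m) F
  have hfw : ∀ v, f v w = ℓ v := by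
    intro v
    rw [hℓdot]
    simp only [hf, Cfsg.sympForm, w, Matrix.mulVec_neg, Matrix.mulVec_mulVec, hJJ, J]
    simp [Matrix.neg_mulVec]
  -- bilinear form and orthogonal
  let B : LinearMap.BilinForm F (Fin m ⊕ Fin m → F) := Matrix.toBilin' J
  have hBapp : ∀ a c, B a c = f a c := by
    intro a c
    simp [B, Matrix.toBilin'_apply', hf, Cfsg.sympForm, J]
  have hB : B.Nondegenerate := LinearMap.BilinForm.nondegenerate_toBilin'_of_det_ne_zero' _ (Matrix.isUnit_det_J (Fin m) F).ne_zero
  -- M inverse
  let Mi : Matrix (Fin m ⊕ Fin m) (Fin m ⊕ Fin m) F := ((A⁻¹ : Matrix.symplecticGroup (Fin m) F) : Matrix (Fin m ⊕ Fin m) (Fin m ⊕ Fin m) F)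
  have hMMi : M * Mi = 1 := by
    have := congrArg Subtype.val (mul_inv_cancel A)
    exact this
  have hMiM : Mi * M = 1 := by
    have := congrArg Subtype.val (inv_mul_cancel A)
    exact this
  have hfadj : ∀ x y, f (M.mulVec x) y = f x (Mi.mulVec y) := by
    intro x y
    have h1 := hfiso x (Mi.mulVec y)
    rw [Matrix.mulVec_mulVec, hMMi, Matrix.one_mulVec] at h1
    exact h1
  let L : (Fin m ⊕ Fin m → F) →ₗ[F] (Fin m ⊕ Fin m → F) := Matrix.mulVecLin (1 + Mi)
  have hLapp : ∀ u, L u = u + Mi.mulVec u := by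
    intro u
    simp [L]
  let K : Submodule F (Fin m ⊕ Fin m → F) := LinearMap.ker (Matrix.mulVecLin (M - 1))
  have hKmem : ∀ x, x ∈ K ↔ M.mulVec x = x := by
    intro x
    show Matrix.mulVecLin (M - 1) x = 0 ↔ _
    rw [Matrix.mulVecLin_apply, Matrix.sub_mulVec, Matrix.one_mulVec, sub_eq_zero]
  have hkerL : LinearMap.ker L = K := by
    ext x
    rw [LinearMap.mem_ker, hLapp, hKmem]
    constructor
    · intro h
      have h1 : Mi.mulVec x = x := by
        funext i
        have := congrFun h i
        simp only [Pi.add_apply, Pi.zero_apply] at this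
        have h5 := haddself (x i)
        exact add_left_cancel (a := x i) (by rw [this, h5])
      have h2 := congrArg M.mulVec h1
      rw [Matrix.mulVec_mulVec, hMMi, Matrix.one_mulVec] at h2
      exact h2.symm
    · intro h
      have h1 := congrArg Mi.mulVec h
      rw [Matrix.mulVec_mulVec, hMiM, Matrix.one_mulVec] at h1
      rw [← h1]
      funext i
      exact haddself _
  have hrange : LinearMap.range L = B.orthogonal K := by
    apply Submodule.eq_of_le_of_finrank_eq
    · rintro _ ⟨u, rfl⟩
      rw [LinearMap.BilinForm.mem_orthogonal_iff]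
      intro x hx
      show B x (L u) = 0
      rw [hBapp, hLapp]
      have h1 : f x (u + Mi.mulVec u) = f x u + f x (Mi.mulVec u) := Cfsg.Agent.Lib.KnownSimple.sympForm_add_right _ _ _
      rw [h1, ← hfadj, (hKmem x).1 hx]
      exact haddself _
    · rw [LinearMap.BilinForm.finrank_orthogonal hB, ← hkerL]
      have := LinearMap.finrank_range_add_finrank_ker L
      omega
  have hwmem : w ∈ LinearMap.range L := by
    rw [hrange, LinearMap.BilinForm.mem_orthogonal_iff]
    intro x hx
    show B x w = 0
    rw [hBapp, hfw]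
    have h1 := hℓ x
    have h2 : D x = 0 := by
      simp only [D, (hKmem x).1 hx, sub_self]
    rw [h2] at h1
    exact mul_self_eq_zero.1 h1
  obtain ⟨u, hu⟩ := hwmem
  rw [hLapp] at hu
  -- the form
  let μ : (Fin m ⊕ Fin m → F) →ₗ[F] F :=
    { toFun := fun v => f v u
      map_add' := fun a c => Cfsg.Agent.Lib.KnownSimple.sympForm_add_left a c u
      map_smul' := fun c a => Cfsg.Agent.Lib.KnownSimple.sympForm_smul_left c a u }
  have hμ : ∀ v, μ v = f v u := fun v => rfl
  refine ⟨Q₀ + QuadraticMap.linMulLin μ μ, ?_, ?_⟩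
  · intro a c
    have h1 := hQ₀pol a c
    simp only [QuadraticMap.polar, add_apply, QuadraticMap.linMulLin_apply, map_add] at h1 ⊢
    rw [← h1]
    linear_combination (μ a * μ c) * h2F
  · intro v
    simp only [add_apply, QuadraticMap.linMulLin_apply, hμ]
    have h1 : f (M.mulVec v) u = f v (Mi.mulVec u) := hfadj v u
    have h3 : f v w = f v u + f v (Mi.mulVec u) := by
      rw [← hu]
      exact Cfsg.Agent.Lib.KnownSimple.sympForm_add_right _ _ _
    have h4 := hℓ v
    rw [← hfw v, h3] at h4
    simp only [D] at h4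
    rw [h1]
    set a := f v u
    set c := f v (Mi.mulVec u)
    have h5 : Q₀ (M.mulVec v) = Q₀ v + (a + c) * (a + c) := by rw [h4]; ring
    rw [h5]
    linear_combination (a * c + c * c) * h2F

end Cfsg.Agent.S2585
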