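import Cfsg.Statements.S2584
import Cfsg.Agent.Lib.JordanForm.Main
import Cfsg.Agent.S2585

set_option autoImplicit false
open Cfsg

namespace Cfsg.Agent.S2584

open scoped Matrix


/-- Which unipotent Jordan types occur in a finite orthogonal group in characteristic two: over a finite field of characteristic 2 and in even dimension 2m, a unipotent matrix with Jordan block sizes d_1, …, d_t (sum 2m, all at least 1) is similar to an isometry of some quadratic form on F^(2m) with non-degenerate polar form if and only if every odd block size occurs an even number of times (the same condition as for the symplectic group, which contains these orthogonal groups). -/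
theorem result {F : Type*} [Field F] [Fintype F] [CharP F 2] {m t : ℕ} (d : Fin t → ℕ) (hd : ∀ k, 1 ≤ d k) (hsum : ∑ k, d k = 2 * m) : (∃ Q : QuadraticForm F (Fin (2 * m) → F), (QuadraticMap.polarBilin Q).Nondegenerate ∧ ∃ e : ((k : Fin t) × Fin (d k)) ≃ Fin (2 * m), ∃ A : ↥(Cfsg.isometryGroup F ⇑Q), IsConj (Matrix.reindex e e (Cfsg.jordanTypeMatrix d F)) ((A : Matrix.GeneralLinearGroup (Fin (2 * m)) F) : Matrix (Fin (2 * m)) (Fin (2 * m)) F)) ↔ ∀ j : ℕ, Odd j → Even (Finset.univ.filter (fun k : Fin t => d k = j)).card := by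
  classical
  constructor
  · rintro ⟨Q, hnd, e, A, hc⟩ j hj
    refine Cfsg.Agent.Lib.JordanForm.even_of_alt_conj e hc (QuadraticMap.polarBilin Q) ?_ hnd.2 ?_ j hj
    · intro x y
      have hA : ∀ v, Q (((A : Matrix.GeneralLinearGroup (Fin (2 * m)) F) : Matrix (Fin (2 * m)) (Fin (2 * m)) F) *ᵥ v) = Q v :=
        fun v => A.2 v 0
      simp only [QuadraticMap.polarBilin_apply_apply, QuadraticMap.polar]
      rw [← Matrix.mulVec_add, hA, hA, hA]
    · intro x
      simp only [QuadraticMap.polarBilin_apply_apply]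
      exact Cfsg.Agent.Lib.JordanForm.polar_self_char_two Q x
  · intro hmult
    obtain ⟨e₁, A, hc⟩ := Cfsg.Agent.Lib.JordanForm.sp_of_mult (F := F) (d := d) hd hsum hmult
    obtain ⟨Q₀, hpol, hQ₀⟩ := Cfsg.Agent.S2585.result A
    have hcard : Fintype.card (Fin (2 * m)) = Fintype.card (Fin m ⊕ Fin m) := by
      simp
      omega
    let f : Fin (2 * m) ≃ (Fin m ⊕ Fin m) := Fintype.equivOfCardEq hcard
    let φ : (Fin (2 * m) → F) ≃ₗ[F] (Fin m ⊕ Fin m → F) := LinearEquiv.funCongrLeft F F f.symm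
    have hφ : ∀ z, φ z = z ∘ f.symm := fun z => rfl
    let Q : QuadraticForm F (Fin (2 * m) → F) := Q₀.comp φ.toLinearMap
    have hQ : ∀ z, Q z = Q₀ (φ z) := fun z => rfl
    have hQpol : ∀ x y, QuadraticMap.polarBilin Q x y = Cfsg.sympForm m F (φ x) (φ y) := by
      intro x y
      rw [QuadraticMap.polarBilin_apply_apply, ← hpol]
      simp only [QuadraticMap.polar, hQ, map_add]
    obtain ⟨T, hT⟩ := Cfsg.Agent.Lib.JordanForm.conj_transport e₁ hc
    let gA : Matrix.GeneralLinearGroup (Fin m ⊕ Fin m) F := (Submonoid.subtype (Matrix.symplecticGroup (Fin m) F)).toHomUnits A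
    have hgA : (gA : Matrix (Fin m ⊕ Fin m) (Fin m ⊕ Fin m) F) = A := rfl
    let gB : Matrix.GeneralLinearGroup (Fin (2 * m)) F := Units.map ((Matrix.reindexAlgEquiv F F f.symm : Matrix (Fin m ⊕ Fin m) (Fin m ⊕ Fin m) F ≃ₐ[F] Matrix (Fin (2 * m)) (Fin (2 * m)) F) : Matrix (Fin m ⊕ Fin m) (Fin m ⊕ Fin m) F →* Matrix (Fin (2 * m)) (Fin (2 * m)) F) gA
    have hgB : (gB : Matrix (Fin (2 * m)) (Fin (2 * m)) F) = Matrix.reindex f.symm f.symm (A : Matrix (Fin m ⊕ Fin m) (Fin m ⊕ Fin m) F) := by
      simp only [gB, Units.coe_map, hgA]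
      rfl
    have hφB : ∀ z, φ ((gB : Matrix (Fin (2 * m)) (Fin (2 * m)) F) *ᵥ z) = (A : Matrix (Fin m ⊕ Fin m) (Fin m ⊕ Fin m) F) *ᵥ φ z := by
      intro z
      rw [hgB, Cfsg.Agent.Lib.JordanForm.reindex_mulVec', hφ, hφ]
      funext a
      simp
    refine ⟨Q, ⟨?_, ?_⟩, e₁.trans f.symm, ⟨gB, ?_⟩, ?_⟩
    · intro x hx
      have h1 : φ x = 0 := by
        apply (Cfsg.Agent.Lib.AutPSL.sympBil_nondeg (F := F) m).1
        intro y
        have := hx (φ.symm y)
        rw [hQpol, LinearEquiv.apply_symm_apply] at this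
        rwa [Cfsg.Agent.Lib.AutPSL.sympBil_apply]
      simpa using h1
    · intro y hy
      have h1 : φ y = 0 := by
        apply (Cfsg.Agent.Lib.AutPSL.sympBil_nondeg (F := F) m).2
        intro x
        have := hy (φ.symm x)
        rw [hQpol, LinearEquiv.apply_symm_apply] at this
        rwa [Cfsg.Agent.Lib.AutPSL.sympBil_apply]
      simpa using h1
    · intro u v
      show Q ((gB : Matrix (Fin (2 * m)) (Fin (2 * m)) F) *ᵥ u) = Q u
      rw [hQ, hQ, hφB, hQ₀]
    · show IsConj _ (gB : Matrix (Fin (2 * m)) (Fin (2 * m)) F)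
      apply Cfsg.Agent.Lib.JordanForm.transport_conj _ (T.trans φ.symm)
      intro x
      simp only [LinearEquiv.trans_apply]
      rw [hT]
      apply φ.injective
      rw [hφB]
      simp

end Cfsg.Agent.S2584
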