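import Cfsg.Statements.S2597
import Mathlib
import Cfsg.Agent.Lib.Classical.InvolEven5

set_option autoImplicit false
open Cfsg

namespace Cfsg.Agent.S2597

/-- Number of conjugacy classes of involutions in Ω⁺_2m(F) (the commutator subgroup of the orthogonal group of Σ x_i y_i) over a finite field F of characteristic two, m ≥ 1, excluding the case m = 2 over the field of two elements: the involutions of Ω are those with s = rank(t − 1) even, giving two O-classes for each even s with 2 ≤ s ≤ m, each of which is a single Ω-class except that for m even the class with s = m and v ↦ f(v, tv) identically zero splits in two; in all 2⌊m/2⌋ + 1 classes if m is even and 2⌊m/2⌋ if m is odd. -/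
theorem result {F : Type*} [Field F] [Fintype F] [CharP F 2] {m : ℕ} (hm : 1 ≤ m) (h : Fintype.card F ≠ 2 ∨ m ≠ 2) : Nat.card {C : ConjClasses ↥(Cfsg.Omega F (Cfsg.quadFormPlus m F)) // ∃ g : ↥(Cfsg.Omega F (Cfsg.quadFormPlus m F)), ConjClasses.mk g = C ∧ orderOf g = 2} = 2 * (m / 2) + (if Even m then 1 else 0) := by
  classical
  have hc : Fintype.card (Fin m ⊕ Fin m) = 2 * m := by
    simp
    omega
  have hq0 : ∀ Q : QuadraticForm F ((Fin m ⊕ Fin m) → F), ⇑Q = Cfsg.quadFormPlus m F → Cfsg.Agent.Lib.Spinor.CDOK Q := by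
    intro Q _
    rcases h with h | h
    · exact Or.inl h
    · refine Or.inr (Or.inl ?_)
      rw [hc]
      omega
  have hb : ∀ s, 1 ≤ s → s ≤ m → ∃ w : Fin s → (Fin m ⊕ Fin m) → F, (∀ i j, QuadraticMap.polar (Cfsg.quadFormPlus m F) (w i) (w j) = 0) ∧ LinearIndependent F w ∧ ∀ l, Cfsg.quadFormPlus m F (w l) = 1 := by
    intro s _ hs
    exact ⟨fun l => Cfsg.Agent.Lib.Classical.InvolEven.plusW m F (Fin.castLE hs l), fun i j => Cfsg.Agent.Lib.Classical.InvolEven.polar_plusW _ _, (Cfsg.Agent.Lib.Classical.InvolEven.li_plusW m).comp _ (Fin.castLE_injective hs), fun l => Cfsg.Agent.Lib.Classical.InvolEven.q_plusW _⟩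
  have ha : ∀ k, 1 ≤ k → 2 * k ≤ m → ∃ w : Fin k ⊕ Fin k → (Fin m ⊕ Fin m) → F, (∀ i j, QuadraticMap.polar (Cfsg.quadFormPlus m F) (w i) (w j) = 0) ∧ LinearIndependent F w ∧ ∀ l, Cfsg.quadFormPlus m F (w l) = 0 := by
    intro k _ hk
    have h : k + k ≤ m := by omega
    exact ⟨fun l => Cfsg.Agent.Lib.Classical.InvolEven.plusE m F (Cfsg.Agent.Lib.Classical.InvolEven.sumInj h l), fun i j => Cfsg.Agent.Lib.Classical.InvolEven.polar_plusE _ _, (Cfsg.Agent.Lib.Classical.InvolEven.li_plusE m).comp _ (Cfsg.Agent.Lib.Classical.InvolEven.sumInj_injective h), fun l => Cfsg.Agent.Lib.Classical.InvolEven.q_plusE _⟩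
  have h0 := Cfsg.Agent.Lib.Classical.ndq_plus (F := F) m
  by_cases hev : Even m
  · rw [if_pos hev, Cfsg.Agent.Lib.Classical.InvolEven.card_classes_Omega_split h0 hm hev hc hq0 (fun U hU => Cfsg.Agent.Lib.Quad.finrank_le_of_plus_singular U hU) hb ha]
    ring
  · rw [if_neg hev, Cfsg.Agent.Lib.Classical.InvolEven.card_classes_Omega_nosplit (M := m) h0 hc hq0 le_rfl (fun U hU => Cfsg.Agent.Lib.Quad.finrank_le_of_plus_singular U hU) ?_ hb ha]
    · ring
    · intro x hx
      left
      intro hr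
      have := Cfsg.Agent.Lib.Classical.InvolEven.even_rank_of_omega h0 hq0 x
      rw [hr] at this
      exact hev this

end Cfsg.Agent.S2597
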