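import Cfsg.Statements.S2598
import Mathlib
import Cfsg.Agent.Lib.Classical.InvolEven5

set_option autoImplicit false
open Cfsg

namespace Cfsg.Agent.S2598

/-- Number of conjugacy classes of involutions in Ω⁻_2m(F) (the commutator subgroup of the orthogonal group of an elliptic quadratic form, Σ_(i<m−1) x_i y_i plus an anisotropic binary form) over a finite field F of characteristic two, m ≥ 1: the involutions of Ω are those with s = rank(t − 1) even, one O-class for each even s with 2 ≤ s ≤ m on which v ↦ f(v, tv) is not identically zero and one for each even s with 2 ≤ s < m on which it is zero (f the polar form; in characteristic 2, f(v, tv) = Q(v + tv)), none of which splits in Ω; in all ⌊m/2⌋ + ⌊(m − 1)/2⌋. -/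
theorem result {F : Type*} [Field F] [Fintype F] [CharP F 2] {m : ℕ} (hm : 1 ≤ m) (a b : F) (hab : ∀ z₁ z₂ : F, z₁ ^ 2 + a * z₁ * z₂ + b * z₂ ^ 2 = 0 → z₁ = 0 ∧ z₂ = 0) : Nat.card {C : ConjClasses ↥(Cfsg.Omega F (Cfsg.quadFormMinus (m - 1) F a b)) // ∃ g : ↥(Cfsg.Omega F (Cfsg.quadFormMinus (m - 1) F a b)), ConjClasses.mk g = C ∧ orderOf g = 2} = m / 2 + (m - 1) / 2 := by
  classical
  have hc : Fintype.card ((Fin (m - 1) ⊕ Fin (m - 1)) ⊕ Fin 2) = 2 * m := by
    simp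
    omega
  refine Cfsg.Agent.Lib.Classical.InvolEven.card_classes_Omega_nosplit (M := m - 1) (Cfsg.Agent.Lib.Classical.ndq_minus a b hab (m - 1)) hc ?_ (by omega)
    (fun U hU => Cfsg.Agent.Lib.Quad.finrank_le_of_minus_singular hab U hU) ?_ ?_ ?_
  · intro Q hQ
    by_cases hm2 : m = 2
    · subst hm2
      refine Or.inr (Or.inr ?_)
      intro U hU
      have := Cfsg.Agent.Lib.Quad.finrank_le_of_minus_singular hab U (fun u hu => by rw [← hQ]; exact hU u hu)
      exact lt_of_le_of_lt this (by norm_num)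
    · refine Or.inr (Or.inl ?_)
      rw [hc]
      omega
  · intro x hx
    by_contra hcon
    push Not at hcon
    obtain ⟨h1, h2⟩ := hcon
    have h3 := Cfsg.Agent.Lib.Quad.finrank_le_of_minus_singular hab (LinearMap.range (Matrix.toLin' (((((x.1 : ↥(Cfsg.isometryGroup F (Cfsg.quadFormMinus (m - 1) F a b))) : GL ((Fin (m - 1) ⊕ Fin (m - 1)) ⊕ Fin 2) F) : Matrix ((Fin (m - 1) ⊕ Fin (m - 1)) ⊕ Fin 2) ((Fin (m - 1) ⊕ Fin (m - 1)) ⊕ Fin 2) F) - 1)))) (by
      rintro _ ⟨y, rfl⟩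
      simpa [Matrix.toLin'_apply, Matrix.sub_mulVec] using h2 y)
    have h4 : Module.finrank F (LinearMap.range (Matrix.toLin' (((((x.1 : ↥(Cfsg.isometryGroup F (Cfsg.quadFormMinus (m - 1) F a b))) : GL ((Fin (m - 1) ⊕ Fin (m - 1)) ⊕ Fin 2) F) : Matrix ((Fin (m - 1) ⊕ Fin (m - 1)) ⊕ Fin 2) ((Fin (m - 1) ⊕ Fin (m - 1)) ⊕ Fin 2) F) - 1)))) = (((x.1 : ↥(Cfsg.isometryGroup F (Cfsg.quadFormMinus (m - 1) F a b))) : GL ((Fin (m - 1) ⊕ Fin (m - 1)) ⊕ Fin 2) F) - 1 : Matrix ((Fin (m - 1) ⊕ Fin (m - 1)) ⊕ Fin 2) ((Fin (m - 1) ⊕ Fin (m - 1)) ⊕ Fin 2) F).rank := rfl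
    rw [h4, h1] at h3
    omega
  · intro s _ hs
    have hs' : s ≤ (m - 1) + 1 := by omega
    exact ⟨fun l => Cfsg.Agent.Lib.Classical.InvolEven.minusW (m - 1) F (Fin.castLE hs' l), fun i j => Cfsg.Agent.Lib.Classical.InvolEven.polar_minusW _ _ _ _, (Cfsg.Agent.Lib.Classical.InvolEven.li_minusW (m - 1)).comp _ (Fin.castLE_injective hs'), fun l => Cfsg.Agent.Lib.Classical.InvolEven.q_minusW _ _ _⟩
  · intro k _ hk
    have h : k + k ≤ m - 1 := by omega
    exact ⟨fun l => Cfsg.Agent.Lib.Classical.InvolEven.minusE (m - 1) F (Cfsg.Agent.Lib.Classical.InvolEven.sumInj h l), fun i j => Cfsg.Agent.Lib.Classical.InvolEven.polar_minusE _ _ _ _, (Cfsg.Agent.Lib.Classical.InvolEven.li_minusE (m - 1)).comp _ (Cfsg.Agent.Lib.Classical.InvolEven.sumInj_injective h), fun l => Cfsg.Agent.Lib.Classical.InvolEven.q_minusE _ _ _⟩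

end Cfsg.Agent.S2598
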