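import Cfsg.Statements.S2599
import Mathlib

set_option autoImplicit false
open Cfsg

namespace Cfsg.Agent.S2599


/-- An irreducible invariant subspace of a semisimple isometry is non-degenerate or totally singular: let Q be a quadratic form on F^n (F finite of characteristic p) with non-degenerate polar form f, x an isometry of Q of order prime to p, and U a non-zero x-invariant subspace containing no x-invariant subspace other than 0 and U. Then U meets its f-orthogonal trivially, or Q vanishes on U, or p = 2, U is a line spanned by a non-singular vector and x fixes U pointwise. -/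
theorem result {F : Type*} [Field F] [Fintype F] {p : ℕ} [Fact p.Prime] [CharP F p] {n : ℕ} (Q : QuadraticForm F (Fin n → F)) (hQ : (QuadraticMap.polarBilin Q).Nondegenerate) (x : ↥(Cfsg.isometryGroup F ⇑Q)) (hx : (orderOf x).Coprime p) (U : Submodule F (Fin n → F)) (hU0 : U ≠ ⊥) (hUx : ∀ u ∈ U, ((x : Matrix.GeneralLinearGroup (Fin n) F) : Matrix (Fin n) (Fin n) F).mulVec u ∈ U) (hirr : ∀ W : Submodule F (Fin n → F), W ≤ U → (∀ w ∈ W, ((x : Matrix.GeneralLinearGroup (Fin n) F) : Matrix (Fin n) (Fin n) F).mulVec w ∈ W) → W = ⊥ ∨ W = U) : U ⊓ LinearMap.BilinForm.orthogonal (QuadraticMap.polarBilin Q) U = ⊥ ∨ (∀ u ∈ U, Q u = 0) ∨ (p = 2 ∧ Module.finrank F U = 1 ∧ (∃ u ∈ U, Q u ≠ 0) ∧ ∀ u ∈ U, ((x : Matrix.GeneralLinearGroup (Fin n) F) : Matrix (Fin n) (Fin n) F).mulVec u = u) := by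
  classical
  set M : Matrix (Fin n) (Fin n) F := ((x : Matrix.GeneralLinearGroup (Fin n) F) : Matrix (Fin n) (Fin n) F) with hM
  have hiso : ∀ v, Q (M.mulVec v) = Q v := fun v => x.2 v v
  have hadd : ∀ u v, M.mulVec (u + v) = M.mulVec u + M.mulVec v := Matrix.mulVec_add M
  have hpolM : ∀ u v, QuadraticMap.polar Q (M.mulVec u) (M.mulVec v) = QuadraticMap.polar Q u v := by
    intro u v
    simp only [QuadraticMap.polar, ← hadd, hiso]
  have hinj : Function.Injective M.mulVec := by
    have : IsUnit M := (x : Matrix.GeneralLinearGroup (Fin n) F).isUnit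
    exact Matrix.mulVec_injective_of_isUnit this
  -- M U = U
  have hsurj : ∀ u ∈ U, ∃ u' ∈ U, M.mulVec u' = u := by
    let L : U →ₗ[F] U := LinearMap.restrict (Matrix.mulVecLin M) (fun u hu => hUx u hu)
    have hLinj : Function.Injective L := by
      intro a b hab
      have := congrArg Subtype.val hab
      exact Subtype.ext (hinj this)
    have hLsurj := LinearMap.surjective_of_injective hLinj
    intro u hu
    obtain ⟨u', hu'⟩ := hLsurj ⟨u, hu⟩
    exact ⟨u', u'.2, congrArg Subtype.val hu'⟩
  have hmemorth : ∀ v, v ∈ LinearMap.BilinForm.orthogonal (QuadraticMap.polarBilin Q) U ↔ ∀ u ∈ U, QuadraticMap.polar Q u v = 0 := by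
    intro v
    rw [LinearMap.BilinForm.mem_orthogonal_iff]
    rfl
  -- the radical
  rcases hirr (U ⊓ LinearMap.BilinForm.orthogonal (QuadraticMap.polarBilin Q) U) inf_le_left (by
      rintro w ⟨hw1, hw2⟩
      refine ⟨hUx w hw1, ?_⟩
      rw [SetLike.mem_coe, hmemorth] at hw2 ⊢
      intro u hu
      obtain ⟨u', hu', rfl⟩ := hsurj u hu
      rw [hpolM]
      exact hw2 u' hu') with h0 | h1
  · exact Or.inl h0
  right
  have hU2 : ∀ u ∈ U, ∀ v ∈ U, QuadraticMap.polar Q u v = 0 := by
    intro u hu v hv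
    have : v ∈ U ⊓ LinearMap.BilinForm.orthogonal (QuadraticMap.polarBilin Q) U := by rw [h1]; exact hv
    exact (hmemorth v).1 this.2 u hu
  have hQadd : ∀ u ∈ U, ∀ v ∈ U, Q (u + v) = Q u + Q v := by
    intro u hu v hv
    have := hU2 u hu v hv
    simp only [QuadraticMap.polar] at this
    linear_combination this
  -- singular vectors of U
  let U₀ : Submodule F (Fin n → F) :=
    { carrier := {u | u ∈ U ∧ Q u = 0}
      add_mem' := by
        rintro a b ⟨ha, ha0⟩ ⟨hb, hb0⟩
        exact ⟨U.add_mem ha hb, by rw [hQadd a ha b hb, ha0, hb0, add_zero]⟩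
      zero_mem' := ⟨U.zero_mem, map_zero Q⟩
      smul_mem' := by
        rintro c a ⟨ha, ha0⟩
        exact ⟨U.smul_mem c ha, by rw [QuadraticMap.map_smul, ha0, smul_zero]⟩ }
  rcases hirr U₀ (fun u hu => hu.1) (by
      rintro w ⟨hw1, hw2⟩
      exact ⟨hUx w hw1, by rw [hiso, hw2]⟩) with h2 | h3
  · right
    have hU₀ : ∀ u ∈ U, Q u = 0 → u = 0 := by
      intro u hu h
      have : u ∈ U₀ := ⟨hu, h⟩
      rw [h2] at this
      exact (Submodule.mem_bot F).1 this
    obtain ⟨u₀, hu₀, hu₀ne⟩ := Submodule.exists_mem_ne_zero_of_ne_bot hU0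
    have hQu₀ : Q u₀ ≠ 0 := fun h => hu₀ne (hU₀ u₀ hu₀ h)
    have hp2 : p = 2 := by
      by_contra hp
      have h2' : (2 : F) ≠ 0 := by
        intro h
        have : ((2 : ℕ) : F) = 0 := by exact_mod_cast h
        rw [CharP.cast_eq_zero_iff F p] at this
        have hpp : p.Prime := Fact.out
        exact hp ((Nat.prime_dvd_prime_iff_eq hpp Nat.prime_two).1 this)
      have h3 := hQadd u₀ hu₀ u₀ hu₀
      have h4 : Q (u₀ + u₀) = 4 * Q u₀ := by
        have : u₀ + u₀ = (2 : F) • u₀ := by rw [two_smul]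
        rw [this, QuadraticMap.map_smul]
        simp only [smul_eq_mul]
        ring
      have h5 : (2 : F) * Q u₀ = 0 := by linear_combination h3 - h4
      exact hQu₀ ((mul_eq_zero.1 h5).resolve_left h2')
    have : CharP F 2 := hp2 ▸ (inferInstance : CharP F p)
    have hsq : ∀ c : F, ∃ d : F, d * d = c := by
      intro c
      have : IsSquare c := FiniteField.isSquare_of_char_two (by
        have := ringChar.eq F 2
        exact this) c
      obtain ⟨d, hd⟩ := this
      exact ⟨d, hd.symm⟩
    have h2F : (2 : F) = 0 := by exact_mod_cast CharP.cast_eq_zero F 2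
    have hline : ∀ v ∈ U, ∃ d : F, v = d • u₀ := by
      intro v hv
      obtain ⟨d, hd⟩ := hsq (Q v / Q u₀)
      refine ⟨d, ?_⟩
      have h6 : Q (v + d • u₀) = 0 := by
        rw [hQadd v hv _ (U.smul_mem d hu₀), QuadraticMap.map_smul, smul_eq_mul, hd]
        field_simp
        linear_combination (Q v) * h2F
      have h7 := hU₀ _ (U.add_mem hv (U.smul_mem d hu₀)) h6
      have h8 : ∀ y : Fin n → F, -y = y := by
        intro y
        ext i
        have : y i + y i = 0 := by rw [← two_mul, h2F, zero_mul]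
        exact neg_eq_of_add_eq_zero_left this
      rw [← h8 (d • u₀)]
      exact eq_neg_of_add_eq_zero_left h7
    refine ⟨hp2, ?_, ⟨u₀, hu₀, hQu₀⟩, ?_⟩
    · apply finrank_eq_one (⟨u₀, hu₀⟩ : U)
      · intro h
        exact hu₀ne (congrArg Subtype.val h)
      · rintro ⟨v, hv⟩
        obtain ⟨d, hd⟩ := hline v hv
        exact ⟨d, Subtype.ext hd.symm⟩
    · intro u hu
      obtain ⟨d, rfl⟩ := hline u hu
      obtain ⟨c, hc⟩ := hline _ (hUx u₀ hu₀)
      rw [Matrix.mulVec_smul, hc]
      have h9 : c * c * Q u₀ = Q u₀ := by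
        have := hiso u₀
        rw [hc, QuadraticMap.map_smul, smul_eq_mul] at this
        exact this
      have h10 : c * c = 1 := mul_right_cancel₀ hQu₀ (by rw [h9, one_mul])
      have h11 : c = 1 := by
        have h12 : (c - 1) * (c - 1) = 0 := by
          linear_combination h10 + (1 - c) * h2F
        have := mul_self_eq_zero.1 h12
        exact sub_eq_zero.1 this
      rw [h11, one_smul]
  · left
    intro u hu
    have : u ∈ U₀ := by rw [h3]; exact hu
    exact this.2

end Cfsg.Agent.S2599
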