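import Cfsg.Statements.S2603
import Mathlib
import Cfsg.Agent.Lib.AutPSU.Out

set_option autoImplicit false
open Cfsg

namespace Cfsg.Agent.S2603

/-- Structure of the outer automorphism group of PSU_n(q), n ≥ 3, (n, q) ≠ (3, 2), q = p^f, realised over the field with q² elements: it has a normal cyclic subgroup of order gcd(n, q + 1) (diagonal automorphisms) with cyclic quotient of order 2f (generated by the Frobenius field automorphism of the field with q² elements, whose f-th power is the graph automorphism). -/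
theorem result {K : Type*} [Field K] [Fintype K] {p f q n : ℕ} [Fact p.Prime] (hf : 1 ≤ f) (hq : q = p ^ f) (hK : Fintype.card K = q ^ 2) (hn : 3 ≤ n) (h32 : ¬ (n = 3 ∧ q = 2)) : ∃ φ : Cfsg.Out (Cfsg.PSU n K q) →* Multiplicative (ZMod (2 * f)), Function.Surjective φ ∧ IsCyclic φ.ker ∧ Nat.card φ.ker = Nat.gcd n (q + 1) := by
  haveI : Cfsg.Agent.Lib.AutPSU.Good n q K := ⟨hK, hn⟩
  have hF' : Fintype.card K = p ^ (2 * f) := by
    rw [hK, hq, ← pow_mul, mul_comm]
  haveI : CharP K p := Cfsg.Agent.Lib.AutPSL.charP_of_card (by omega) hF'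
  exact Cfsg.Agent.Lib.AutPSU.out_structure (p := p) hf hF' h32

end Cfsg.Agent.S2603
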