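import Cfsg.Statements.S2610
import Mathlib
import Cfsg.Agent.Lib.Spinor.Dickson
import Cfsg.Agent.Lib.Quad.Diag

set_option autoImplicit false
open Cfsg

namespace Cfsg.Agent.S2610

open Cfsg.Agent.Lib.Spinor Cfsg.Agent.Lib.ClassMax.OmegaCore Matrix

theorem prod_on_basis {F : Type*} [Field F] {n : ℕ} {Q : QuadraticForm F (Fin n → F)} {I : Type*} [DecidableEq I]
    (b : I → Fin n → F) (hb : ∀ i, Q (b i) ≠ 0) (ho : ∀ i j, i ≠ j → QuadraticMap.polar (⇑Q) (b i) (b j) = 0) :
    ∀ (l : List I), l.Nodup → ∀ t, ((l.map b).map (rr Q)).prod *ᵥ (b t) = if t ∈ l then -(b t) else b t := by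
  intro l
  induction l with
  | nil =>
    intro _ t
    simp
  | cons j l ih =>
    intro hnd t
    rw [List.nodup_cons] at hnd
    simp only [List.map_cons, List.prod_cons]
    rw [← mulVec_mulVec, ih hnd.2]
    by_cases htj : t = j
    · subst htj
      rw [if_neg hnd.1, if_pos (by simp), rr, Cfsg.Agent.Lib.Classical.reflection_v Q _ (hb t)]
    · have h1 : QuadraticMap.polar (⇑Q) (b j) (b t) = 0 := ho j t (Ne.symm htj)
      have hmem : t ∈ j :: l ↔ t ∈ l := by simp [htj]
      by_cases htl : t ∈ l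
      · rw [if_pos htl, if_pos (hmem.2 htl), mulVec_neg, rr, Cfsg.Agent.Lib.Classical.reflection_fix Q _ _ h1]
      · rw [if_neg htl, if_neg (fun h => htl (hmem.1 h)), rr, Cfsg.Agent.Lib.Classical.reflection_fix Q _ _ h1]


/-- For a quadratic form Q on F^n with non-degenerate polar form, F finite of odd order and n ≥ 2 even, the isometry −1 lies in Ω (the commutator subgroup of the orthogonal group) if and only if the discriminant of Q (the determinant of the Gram matrix of its polar form) is a square. -/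
theorem result {F : Type*} [Field F] [Fintype F] (h2 : (2 : F) ≠ 0) {n : ℕ} (hn : 2 ≤ n) (he : Even n) (Q : QuadraticForm F (Fin n → F)) (hQ : (QuadraticMap.polarBilin Q).Nondegenerate) : (∃ g : ↥(Cfsg.isometryGroup F ⇑Q), g ∈ Cfsg.Omega F ⇑Q ∧ ((g : Matrix.GeneralLinearGroup (Fin n) F) : Matrix (Fin n) (Fin n) F) = -1) ↔ IsSquare (Matrix.of (fun i j : Fin n => QuadraticMap.polar ⇑Q (Pi.single i 1) (Pi.single j 1))).det := by
  classical
  have hq : Fintype.card F ≠ 2 ∨ Fintype.card (Fin n) ≠ 4 := Or.inl (fun h => h2 (by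
    have := FiniteField.cast_card_eq_zero F
    rw [h] at this
    exact_mod_cast this))
  obtain ⟨n', rfl⟩ : ∃ n', n = n' + 1 := ⟨n - 1, by omega⟩
  obtain ⟨b, hb1, hb2, hb3, hb4⟩ := Cfsg.Agent.Lib.Quad.exists_orthogonal_basis (n := n') h2
    (V := Fin (n' + 1) → F) (by simp) Q (Cfsg.Agent.Lib.Quad.NondegQ.of_polarBilin hQ)
  have hb0 : ∀ i, Q (b i) ≠ 0 := by
    intro i
    rcases i with i | i
    · rw [hb1]
      exact one_ne_zero
    · exact hb4
  have ho : ∀ i j, i ≠ j → QuadraticMap.polar (⇑Q) (b i) (b j) = 0 := by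
    intro i j hij
    rcases i with i | i <;> rcases j with j | j
    · exact hb2 i j (fun h => hij (by rw [h]))
    · exact hb3 i
    · rw [QuadraticMap.polar_comm]
      exact hb3 j
    · exact absurd rfl hij
  let l : List (Fin n' ⊕ Unit) := Finset.univ.toList
  have hl : l.Nodup := Finset.nodup_toList _
  have hmem : ∀ t, t ∈ l := fun t => Finset.mem_toList.2 (Finset.mem_univ t)
  let vs : List (Fin (n' + 1) → F) := l.map b
  have hvs : ∀ v ∈ vs, Q v ≠ 0 := by
    intro v hv
    obtain ⟨i, -, rfl⟩ := List.mem_map.1 hv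
    exact hb0 i
  have hlen : vs.length = n' + 1 := by
    simp [vs, l, Finset.length_toList]
  have hmat : (vs.map (rr Q)).prod = -1 := by
    apply matrix_ext
    intro x
    have key : Matrix.mulVecLin ((vs.map (rr Q)).prod) = - LinearMap.id := by
      apply b.ext
      intro t
      simp only [Matrix.mulVecLin_apply, LinearMap.neg_apply, LinearMap.id_apply]
      rw [prod_on_basis (Q := Q) (fun i => b i) hb0 ho l hl t, if_pos (hmem t)]
    have := LinearMap.congr_fun key x
    simp only [Matrix.mulVecLin_apply, LinearMap.neg_apply, LinearMap.id_apply] at this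
    rw [this, neg_mulVec, one_mulVec]
  have hnm : nm Q vs = ∏ i, Q (b i) := by
    simp only [nm, vs, List.map_map]
    exact Finset.prod_map_toList _ _
  obtain ⟨d, hd, hdet⟩ := Cfsg.Agent.Lib.Quad.gram_det_change (QuadraticMap.polarBilin Q) b (Pi.basisFun F (Fin (n' + 1)))
  have hG : LinearMap.BilinForm.toMatrix (Pi.basisFun F (Fin (n' + 1))) (QuadraticMap.polarBilin Q) =
      Matrix.of (fun i j : Fin (n' + 1) => QuadraticMap.polar ⇑Q (Pi.single i 1) (Pi.single j 1)) := by
    ext i j
    simp [LinearMap.BilinForm.toMatrix_apply]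
  have hD : LinearMap.BilinForm.toMatrix b (QuadraticMap.polarBilin Q) = Matrix.diagonal (fun i => 2 * Q (b i)) := by
    ext i j
    rw [LinearMap.BilinForm.toMatrix_apply]
    by_cases hij : i = j
    · subst hij
      rw [Matrix.diagonal_apply_eq]
      exact Cfsg.Agent.Lib.Classical.polar_self_eq Q (b i)
    · rw [Matrix.diagonal_apply_ne _ hij]
      exact ho i j hij
  rw [hG, hD, Matrix.det_diagonal, Finset.prod_mul_distrib, Finset.prod_const, Finset.card_univ, Fintype.card_sum,
    Fintype.card_fin, Fintype.card_unit] at hdet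
  obtain ⟨r, hr⟩ := he
  have h2r : (2 : F) ^ (n' + 1) = 2 ^ r * 2 ^ r := by rw [hr, pow_add]
  have h2r0 : (2 : F) ^ r ≠ 0 := pow_ne_zero _ h2
  have hiff : IsSquare (Matrix.of (fun i j : Fin (n' + 1) => QuadraticMap.polar ⇑Q (Pi.single i 1) (Pi.single j 1))).det ↔ IsSquare (nm Q vs) := by
    rw [← Cfsg.Agent.Lib.Quad.isSquare_mul_sq_iff _ d hd, ← hdet, hnm, h2r]
    have e : (2 : F) ^ r * 2 ^ r * ∏ i, Q (b i) = (∏ i, Q (b i)) * (2 ^ r) ^ 2 := by ring
    rw [e, Cfsg.Agent.Lib.Quad.isSquare_mul_sq_iff _ _ h2r0]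
  rw [hiff]
  have heven : Even vs.length := by
    rw [hlen, hr]
    exact ⟨r, rfl⟩
  constructor
  · rintro ⟨g, hg, hg1⟩
    have e : g = lp Q vs := by
      apply OG.ext'
      rw [lp_mat hvs, hmat]
      exact hg1
    rw [e, lp_mem_omega_iff hQ hq hvs] at hg
    exact hg.2
  · intro hs
    refine ⟨lp Q vs, lp_mem_omega hQ hvs heven hs, ?_⟩
    show OG.mat (lp Q vs) = -1
    rw [lp_mat hvs, hmat]

end Cfsg.Agent.S2610
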