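import Cfsg.Statements.S2611
import Mathlib
import Cfsg.Agent.Lib.Spinor.Pair

set_option autoImplicit false
open Cfsg

namespace Cfsg.Agent.S2611

open Cfsg.Agent.Lib.Spinor Cfsg.Agent.Lib.Quad Cfsg.Agent.Lib.ClassMax.OmegaCore Matrix

theorem coordH {F : Type*} [Field F] {m : ℕ} (j : Fin m) : HypCoord (plusQF m F) (Sum.inl j) (Sum.inr j) :=
  ⟨by simp, Q_eP j, Q_fP j, fun x => polar_eP_left x j, fun x => polar_fP_left x j⟩

/-- The predicate of the induction. -/
def PP {F : Type*} [Field F] {m : ℕ} (A : Matrix (Fin m) (Fin m) F) : Prop :=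
  ∃ vs : List (Fin m ⊕ Fin m → F), (∀ v ∈ vs, plusQF m F v ≠ 0) ∧ Even vs.length ∧
    (vs.map (rr (plusQF m F))).prod = Matrix.fromBlocks A 0 0 (A⁻¹).transpose ∧ IsSquare (nm (plusQF m F) vs * A.det)

theorem PP_one {F : Type*} [Field F] {m : ℕ} : PP (1 : Matrix (Fin m) (Fin m) F) :=
  ⟨[], by simp, by simp, by simp, by simp [nm]⟩

theorem PP_mul {F : Type*} [Field F] {m : ℕ} {A C : Matrix (Fin m) (Fin m) F} (hA : A.det ≠ 0) (hC : C.det ≠ 0)
    (h1 : PP A) (h2 : PP C) : PP (A * C) := by
  obtain ⟨l₁, a1, a2, a3, a4⟩ := h1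
  obtain ⟨l₂, b1, b2, b3, b4⟩ := h2
  refine ⟨l₁ ++ l₂, ?_, by simpa using a2.add b2, ?_, ?_⟩
  · intro v hv
    rcases List.mem_append.1 hv with h | h
    · exact a1 v h
    · exact b1 v h
  · rw [List.map_append, List.prod_append, a3, b3, fromBlocks_multiply]
    simp only [Matrix.mul_zero, Matrix.zero_mul, add_zero, zero_add]
    rw [Matrix.mul_inv_rev, transpose_mul]
  · rw [nm_append, det_mul]
    rw [mul_mul_mul_comm]
    exact a4.mul b4

theorem PP_single {F : Type*} [Field F] {m : ℕ} (a : Fin m) {c : F} (hc : c ≠ 0) :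
    PP (Matrix.diagonal (fun j => if j = a then c else 1) : Matrix (Fin m) (Fin m) F) := by
  have H := coordH (F := F) a
  have q1 := H.Q_sub_smul 1
  have q2 := H.Q_sub_smul c
  refine ⟨[Pi.single (Sum.inl a) 1 - (1 : F) • Pi.single (Sum.inr a) 1, Pi.single (Sum.inl a) 1 - c • Pi.single (Sum.inr a) 1], ?_, by simp, ?_, ?_⟩
  · intro v hv
    simp only [List.mem_cons, List.not_mem_nil, or_false] at hv
    rcases hv with rfl | rfl
    · rw [q1]
      exact neg_ne_zero.2 one_ne_zero
    · rw [q2]
      exact neg_ne_zero.2 hc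
  · have hinv : (Matrix.diagonal (fun j => if j = a then c else 1) : Matrix (Fin m) (Fin m) F)⁻¹ = Matrix.diagonal (fun j => if j = a then c⁻¹ else 1) := by
      apply Matrix.inv_eq_right_inv
      rw [Matrix.diagonal_mul_diagonal, ← Matrix.diagonal_one]
      congr 1
      ext j
      by_cases h : j = a
      · simp [h, hc]
      · simp [h]
    rw [hinv, Matrix.diagonal_transpose]
    apply matrix_ext
    intro x
    ext k
    simp only [List.map_cons, List.map_nil, List.prod_cons, List.prod_nil, Matrix.mul_one]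
    rw [H.rr_levi c hc, fromBlocks_mulVec]
    rcases k with k | k
    · simp only [Sum.elim_inl, Matrix.zero_mulVec, add_zero, mulVec_diagonal, Function.comp, Sum.inl.injEq, reduceCtorEq, if_false]
      by_cases h : k = a
      · simp [h]
      · simp [h]
    · simp only [Sum.elim_inr, Matrix.zero_mulVec, zero_add, mulVec_diagonal, Function.comp, Sum.inr.injEq, reduceCtorEq, if_false]
      by_cases h : k = a
      · simp [h]
      · simp [h]
  · have e1 : nm (plusQF m F) [Pi.single (Sum.inl a) 1 - (1 : F) • Pi.single (Sum.inr a) 1, Pi.single (Sum.inl a) 1 - c • Pi.single (Sum.inr a) 1] = c := by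
      simp only [nm, List.map_cons, List.map_nil, List.prod_cons, List.prod_nil, mul_one]
      rw [q1, q2]
      ring
    have e2 : (Matrix.diagonal (fun j => if j = a then c else 1) : Matrix (Fin m) (Fin m) F).det = c := by
      rw [Matrix.det_diagonal, Finset.prod_ite_eq']
      simp
    rw [e1, e2]
    exact ⟨c, rfl⟩

theorem PP_diag {F : Type*} [Field F] {m : ℕ} (D : Fin m → F) (hD : ∀ j, D j ≠ 0) : PP (Matrix.diagonal D) := by
  classical
  have key : ∀ s : Finset (Fin m), PP (Matrix.diagonal (fun j => if j ∈ s then D j else 1)) := by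
    intro s
    induction s using Finset.induction_on with
    | empty =>
      simp only [Finset.notMem_empty, if_false]
      rw [Matrix.diagonal_one]
      exact PP_one
    | insert a s ha ih =>
      have e : (Matrix.diagonal (fun j => if j ∈ insert a s then D j else 1) : Matrix (Fin m) (Fin m) F) =
          Matrix.diagonal (fun j => if j ∈ s then D j else 1) * Matrix.diagonal (fun j => if j = a then D a else 1) := by
        rw [Matrix.diagonal_mul_diagonal]
        congr 1
        ext j
        by_cases h1 : j = a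
        · subst h1
          simp [ha]
        · simp [h1, Finset.mem_insert]
      rw [e]
      refine PP_mul ?_ ?_ ih (PP_single a (hD a))
      · rw [Matrix.det_diagonal]
        apply Finset.prod_ne_zero_iff.2
        intro j _
        split_ifs
        · exact hD j
        · exact one_ne_zero
      · rw [Matrix.det_diagonal]
        apply Finset.prod_ne_zero_iff.2
        intro j _
        split_ifs
        · exact hD a
        · exact one_ne_zero
  have := key Finset.univ
  simpa using this

theorem PP_transvection {F : Type*} [Field F] [Fintype F] {m : ℕ} (h : Fintype.card F ≠ 2 ∨ m ≠ 2) (t : Matrix.TransvectionStruct (Fin m) F) :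
    PP t.toMatrix := by
  have hq : Fintype.card F ≠ 2 ∨ Fintype.card (Fin m ⊕ Fin m) ≠ 4 := by
    rcases h with h | h
    · exact Or.inl h
    · refine Or.inr ?_
      simp only [Fintype.card_sum, Fintype.card_fin]
      omega
  have hnd := plusQF_nondeg (F := F) m
  obtain ⟨i, j, hij, c⟩ := t
  have hu : plusQF m F (eP i) = 0 := Q_eP i
  have hx : QuadraticMap.polar (⇑(plusQF m F)) (eP i) (c • fP j) = 0 := by
    rw [QuadraticMap.polar_smul_right, polar_eP_left]
    simp [fP, hij]
  obtain ⟨E, ⟨vs, h1, rfl, h3, h4⟩, hE⟩ := siegel_isEPS hnd hq hu hx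
  refine ⟨vs, h1, h3, ?_, ?_⟩
  · show _ = Matrix.fromBlocks (Matrix.transvection i j c) 0 0 ((Matrix.transvection i j c)⁻¹).transpose
    have hinv : (Matrix.transvection i j c)⁻¹ = Matrix.transvection i j (-c) := by
      apply Matrix.inv_eq_right_inv
      rw [Matrix.transvection_mul_transvection_same i j hij, add_neg_cancel, Matrix.transvection_zero]
    rw [hinv]
    apply matrix_ext
    intro x
    ext k
    rw [hE, sgF, fromBlocks_mulVec, QuadraticMap.polar_smul_right, polar_fP, polar_eP, QuadraticMap.map_smul, Q_fP]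
    simp only [smul_zero, zero_mul, zero_smul, sub_zero, smul_eq_mul, Matrix.zero_mulVec, add_zero, zero_add, Matrix.transvection,
      Matrix.transpose_add, Matrix.transpose_one, Matrix.transpose_single, Matrix.add_mulVec, Matrix.one_mulVec]
    rcases k with k | k
    · simp only [Sum.elim_inl, Pi.sub_apply, Pi.add_apply, Pi.smul_apply, smul_eq_mul, eP, fP, Function.comp]
      by_cases hk : k = i
      · subst hk
        simp [Matrix.single_mulVec, Pi.single_apply]
      · simp [Matrix.single_mulVec, Pi.single_apply, hk]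
    · simp only [Sum.elim_inr, Pi.sub_apply, Pi.add_apply, Pi.smul_apply, smul_eq_mul, eP, fP, Function.comp]
      by_cases hk : k = j
      · subst hk
        simp [Matrix.single_mulVec, Pi.single_apply]
        ring
      · simp [Matrix.single_mulVec, Pi.single_apply, hk]
  · have : (Matrix.TransvectionStruct.toMatrix ⟨i, j, hij, c⟩ : Matrix (Fin m) (Fin m) F).det = 1 :=
      Matrix.det_transvection_of_ne i j hij c
    rw [this, mul_one]
    exact h4

theorem PP_all {F : Type*} [Field F] [Fintype F] {m : ℕ} (h : Fintype.card F ≠ 2 ∨ m ≠ 2) (A : Matrix (Fin m) (Fin m) F) (hA : A.det ≠ 0) : PP A := by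
  refine Matrix.diagonal_transvection_induction_of_det_ne_zero PP A hA ?_ (PP_transvection h) (fun A B h1 h2 h3 h4 => PP_mul h1 h2 h3 h4)
  intro D hD
  rw [Matrix.det_diagonal] at hD
  exact PP_diag D (fun j => Finset.prod_ne_zero_iff.1 hD j (Finset.mem_univ j))

theorem isSquare_of_mul {F : Type*} [Field F] {a b : F} (h1 : IsSquare (a * b)) (h2 : IsSquare b) (hb : b ≠ 0) : IsSquare a := by
  obtain ⟨r, hr⟩ := h1
  obtain ⟨s, hs⟩ := h2
  have hs0 : s ≠ 0 := by
    rintro rfl
    exact hb (by rw [hs, mul_zero])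
  refine ⟨r / s, ?_⟩
  rw [hs] at hr
  field_simp
  linear_combination hr

theorem main_aux {F : Type*} [Field F] [Fintype F] {m : ℕ} (h : Fintype.card F ≠ 2 ∨ m ≠ 2) (A : GL (Fin m) F) :
    (∃ g : OG (plusQF m F), g ∈ Cfsg.Omega F ⇑(plusQF m F) ∧ OG.mat g = Matrix.fromBlocks (A : Matrix (Fin m) (Fin m) F) 0 0 ((A : Matrix (Fin m) (Fin m) F)⁻¹).transpose) ↔ IsSquare (A : Matrix (Fin m) (Fin m) F).det := by
  have hq : Fintype.card F ≠ 2 ∨ Fintype.card (Fin m ⊕ Fin m) ≠ 4 := by
    rcases h with h | h
    · exact Or.inl h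
    · refine Or.inr ?_
      simp only [Fintype.card_sum, Fintype.card_fin]
      omega
  have hnd := plusQF_nondeg (F := F) m
  have hdet : (A : Matrix (Fin m) (Fin m) F).det ≠ 0 := by
    have := (Matrix.isUnit_iff_isUnit_det _).1 A.isUnit
    exact this.ne_zero
  obtain ⟨vs, h1, h2, h3, h4⟩ := PP_all h (A : Matrix (Fin m) (Fin m) F) hdet
  have h5 : OG.mat (lp (plusQF m F) vs) = Matrix.fromBlocks (A : Matrix (Fin m) (Fin m) F) 0 0 ((A : Matrix (Fin m) (Fin m) F)⁻¹).transpose := by
    rw [lp_mat h1, h3]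
  constructor
  · rintro ⟨g, hg, e⟩
    have : g = lp (plusQF m F) vs := OG.ext' (by rw [e, h5])
    rw [this, lp_mem_omega_iff hnd hq h1] at hg
    rw [mul_comm] at h4
    exact isSquare_of_mul h4 hg.2 (nm_ne_zero h1)
  · intro hs
    exact ⟨_, lp_mem_omega hnd h1 h2 (isSquare_of_mul h4 hs hdet), h5⟩


/-- For the hyperbolic quadratic form Σ x_i y_i on F^(2m) (F finite, m ≥ 1, excluding m = 2 over the field of two elements) and an invertible m × m matrix A, the block-diagonal isometry diag(A, (A⁻¹)ᵀ), which stabilises the two maximal totally singular subspaces x = 0 and y = 0, lies in Ω⁺_2m(F) (the commutator subgroup of the orthogonal group) if and only if det A is a square in F. -/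
theorem result {F : Type*} [Field F] [Fintype F] {m : ℕ} (hm : 1 ≤ m) (h : Fintype.card F ≠ 2 ∨ m ≠ 2) (A : GL (Fin m) F) : (∃ g : ↥(Cfsg.isometryGroup F (Cfsg.quadFormPlus m F)), g ∈ Cfsg.Omega F (Cfsg.quadFormPlus m F) ∧ ((g : Matrix.GeneralLinearGroup (Fin m ⊕ Fin m) F) : Matrix (Fin m ⊕ Fin m) (Fin m ⊕ Fin m) F) = Matrix.fromBlocks (A : Matrix (Fin m) (Fin m) F) 0 0 ((A : Matrix (Fin m) (Fin m) F)⁻¹).transpose) ↔ IsSquare (A : Matrix (Fin m) (Fin m) F).det := by
  rw [← coe_plusQF m]
  exact main_aux h A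

end Cfsg.Agent.S2611
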