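import Cfsg.Statements.S2612
import Mathlib
import Cfsg.Agent.Lib.Spinor.Pair

set_option autoImplicit false
open Cfsg

namespace Cfsg.Agent.S2612

open Cfsg.Agent.Lib.Spinor Cfsg.Agent.Lib.Quad Cfsg.Agent.Lib.ClassMax.OmegaCore Matrix

theorem coordH {F : Type*} [Field F] {m : ℕ} (j : Fin m) : HypCoord (plusQF m F) (Sum.inl j) (Sum.inr j) :=
  ⟨by simp, Q_eP j, Q_fP j, fun x => polar_eP_left x j, fun x => polar_fP_left x j⟩

/-- The vector `e_j - f_j`. -/
noncomputable def sw {F : Type*} [Field F] {m : ℕ} (j : Fin m) : Fin m ⊕ Fin m → F :=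
  Pi.single (Sum.inl j) 1 - (1 : F) • Pi.single (Sum.inr j) 1

theorem Q_sw {F : Type*} [Field F] {m : ℕ} (j : Fin m) : plusQF m F (sw j) ≠ 0 := by
  rw [sw, (coordH j).Q_sub_smul]
  exact neg_ne_zero.2 one_ne_zero

theorem prod_swap {F : Type*} [Field F] {m : ℕ} (x : Fin m ⊕ Fin m → F) : ∀ l : List (Fin m), l.Nodup →
    (∀ t, (((l.map (sw (F := F))).map (rr (plusQF m F))).prod *ᵥ x) (Sum.inl t) = if t ∈ l then x (Sum.inr t) else x (Sum.inl t)) ∧
    (∀ t, (((l.map (sw (F := F))).map (rr (plusQF m F))).prod *ᵥ x) (Sum.inr t) = if t ∈ l then x (Sum.inl t) else x (Sum.inr t)) := by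
  intro l
  induction l with
  | nil =>
    intro _
    simp
  | cons j l ih =>
    intro hnd
    rw [List.nodup_cons] at hnd
    obtain ⟨h1, h2⟩ := ih hnd.2
    simp only [List.map_cons, List.prod_cons]
    simp only [← mulVec_mulVec]
    generalize ((l.map (sw (F := F))).map (rr (plusQF m F))).prod *ᵥ x = Y at h1 h2 ⊢
    constructor
    · intro t
      rw [sw, (coordH j).rr_swap]
      by_cases htj : t = j
      · subst htj
        simp [h2, hnd.1]
      · have hne : (Sum.inl t : Fin m ⊕ Fin m) ≠ Sum.inl j := by simpa using htj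
        simp [h1, htj, hne]
    · intro t
      rw [sw, (coordH j).rr_swap]
      by_cases htj : t = j
      · subst htj
        simp [h1, hnd.1]
      · have hne : (Sum.inr t : Fin m ⊕ Fin m) ≠ Sum.inr j := by simpa using htj
        simp [h2, htj, hne]

theorem main_aux {F : Type*} [Field F] [Fintype F] {m : ℕ} : (∃ g : OG (plusQF m F), g ∈ Cfsg.Omega F ⇑(plusQF m F) ∧ (∀ v : Fin m ⊕ Fin m → F, (∀ i, v (Sum.inr i) = 0) → ∀ i, ((OG.mat g).mulVec v) (Sum.inl i) = 0) ∧ (∀ v : Fin m ⊕ Fin m → F, (∀ i, v (Sum.inl i) = 0) → ∀ i, ((OG.mat g).mulVec v) (Sum.inr i) = 0)) ↔ Even m := by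
  have hnd := plusQF_nondeg (F := F) m
  constructor
  · rintro ⟨g, hg, h1, -⟩
    have h0 : g.1 ∈ Cfsg.Geo.omegaGL (⇑(plusQF m F)) := Subgroup.mem_map.2 ⟨g, hg, rfl⟩
    have h3 := omega_parity (ndf hnd) (U0_maxTS (F := F) m) h0
    rw [finrank_U0] at h3
    have h4 : (U0 m F ⊓ imgOf g.1 (U0 m F) : Submodule F _) = ⊥ := by
      rw [eq_bot_iff]
      rintro z ⟨hz1, hz2⟩
      obtain ⟨y, hy, rfl⟩ := mem_imgOf.1 hz2
      rw [Submodule.mem_bot]
      ext k
      rcases k with k | k
      · exact h1 y (mem_U0.1 hy) k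
      · exact mem_U0.1 hz1 k
    rw [h4, finrank_bot] at h3
    rw [Nat.even_iff]
    omega
  · intro he
    let l := List.finRange m
    let vs : List (Fin m ⊕ Fin m → F) := l.map sw
    have hv : ∀ v ∈ vs, plusQF m F v ≠ 0 := by
      intro v hv
      obtain ⟨j, -, rfl⟩ := List.mem_map.1 hv
      exact Q_sw j
    have hlen : vs.length = m := by simp [vs, l]
    have hnm : nm (plusQF m F) vs = (-1) ^ m := by
      have : ∀ l : List (Fin m), nm (plusQF m F) (l.map sw) = (-1) ^ l.length := by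
        intro l
        induction l with
        | nil => simp [nm]
        | cons j l ih =>
          have e : nm (plusQF m F) ((j :: l).map sw) = plusQF m F (sw j) * nm (plusQF m F) (l.map sw) := by
            simp [nm]
          rw [e, ih, sw, (coordH j).Q_sub_smul, List.length_cons, pow_succ]
          ring
      rw [this]
      simp [l]
    refine ⟨lp _ vs, lp_mem_omega hnd hv (by rw [hlen]; exact he) (by
      rw [hnm, he.neg_one_pow]
      exact IsSquare.one), ?_, ?_⟩
    · intro v hv0 i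
      rw [lp_mat hv, ((prod_swap v l (List.nodup_finRange m)).1 i)]
      rw [if_pos (List.mem_finRange i)]
      exact hv0 i
    · intro v hv0 i
      rw [lp_mat hv, ((prod_swap v l (List.nodup_finRange m)).2 i)]
      rw [if_pos (List.mem_finRange i)]
      exact hv0 i


/-- For the hyperbolic quadratic form Σ x_i y_i on F^(2m) (F finite, m ≥ 1, excluding m = 2 over the field of two elements), Ω⁺_2m(F) (the commutator subgroup of the orthogonal group) contains an element interchanging the two complementary maximal totally singular subspaces {y = 0} and {x = 0} if and only if m is even (dimension divisible by 4). -/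
theorem result {F : Type*} [Field F] [Fintype F] {m : ℕ} (hm : 1 ≤ m) (h : Fintype.card F ≠ 2 ∨ m ≠ 2) : (∃ g : ↥(Cfsg.isometryGroup F (Cfsg.quadFormPlus m F)), g ∈ Cfsg.Omega F (Cfsg.quadFormPlus m F) ∧ (∀ v : Fin m ⊕ Fin m → F, (∀ i, v (Sum.inr i) = 0) → ∀ i, (((g : Matrix.GeneralLinearGroup (Fin m ⊕ Fin m) F) : Matrix (Fin m ⊕ Fin m) (Fin m ⊕ Fin m) F).mulVec v) (Sum.inl i) = 0) ∧ (∀ v : Fin m ⊕ Fin m → F, (∀ i, v (Sum.inl i) = 0) → ∀ i, (((g : Matrix.GeneralLinearGroup (Fin m ⊕ Fin m) F) : Matrix (Fin m ⊕ Fin m) (Fin m ⊕ Fin m) F).mulVec v) (Sum.inr i) = 0)) ↔ Even m := by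
  rw [← coe_plusQF m]
  exact main_aux

end Cfsg.Agent.S2612
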