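import Cfsg.Statements.S2613
import Mathlib
import Cfsg.Agent.Lib.Spinor.Pair

set_option autoImplicit false
open Cfsg

namespace Cfsg.Agent.S2613

open Cfsg.Agent.Lib.Spinor Cfsg.Agent.Lib.Quad


/-- For the hyperbolic form Σ x_j y_j on F^(2m), F finite with q elements, q odd, and 1 ≤ i ≤ m: the involution negating the first i hyperbolic pairs (x_j, y_j ↦ −x_j, −y_j for j < i) and fixing the rest lies in Ω⁺_2m(q) (commutator subgroup of the orthogonal group) if and only if q^i ≡ 1 (mod 4); its (−1)-eigenspace is a hyperbolic 2i-space. -/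
theorem result {F : Type*} [Field F] [Fintype F] {q : ℕ} (hF : Fintype.card F = q) (hq : Odd q) {m : ℕ} (i : ℕ) (hi : 1 ≤ i) (him : i ≤ m) : (∃ g : ↥(Cfsg.isometryGroup F (Cfsg.quadFormPlus m F)), g ∈ Cfsg.Omega F (Cfsg.quadFormPlus m F) ∧ ((g : Matrix.GeneralLinearGroup (Fin m ⊕ Fin m) F) : Matrix (Fin m ⊕ Fin m) (Fin m ⊕ Fin m) F) = Matrix.diagonal (fun k : Fin m ⊕ Fin m => if (Sum.elim (fun j : Fin m => (j : ℕ)) (fun j : Fin m => (j : ℕ)) k) < i then (-1 : F) else 1)) ↔ q ^ i % 4 = 1 := by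
  have hnd := plusQF_nondeg (F := F) m
  have H : ∀ j : Fin m, HypCoord (plusQF m F) (Sum.inl j) (Sum.inr j) := by
    intro j
    refine ⟨by simp, Q_eP j, Q_fP j, fun x => polar_eP_left x j, fun x => polar_fP_left x j⟩
  obtain ⟨vs, h1, h2, h3, h4⟩ := diag_neg_list (Q := plusQF m F) (F := F) (fun j : Fin m => (Sum.inl j : Fin m ⊕ Fin m)) (fun j => Sum.inr j)
    (Sum.elim (fun j : Fin m => (j : ℕ)) (fun j : Fin m => (j : ℕ))) i H (fun j => rfl) (fun j => rfl)
    (by
      intro k j _ hk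
      rcases k with k | k
      · left
        congr 1
        exact Fin.ext hk
      · right
        congr 1
        exact Fin.ext hk) him i le_rfl
  rw [← coe_plusQF m]
  exact diag_criterion hnd hF hq h1 h2 h3 h4

end Cfsg.Agent.S2613
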