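import Cfsg.Statements.S2614
import Mathlib
import Cfsg.Agent.Lib.Spinor.Pair

set_option autoImplicit false
open Cfsg

namespace Cfsg.Agent.S2614

open Cfsg.Agent.Lib.Spinor Cfsg.Agent.Lib.Quad


/-- For the form x_0² + Σ x_j y_j on F^(2m+1), F finite with q elements, q odd, and 1 ≤ i ≤ m: the involution of determinant one negating the first i hyperbolic pairs (and fixing x_0 and the other pairs) lies in Ω_(2m+1)(q) (commutator subgroup of the orthogonal group) if and only if q^i ≡ 1 (mod 4); its (−1)-eigenspace is a hyperbolic 2i-space. -/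
theorem result {F : Type*} [Field F] [Fintype F] {q : ℕ} (hF : Fintype.card F = q) (hq : Odd q) {m : ℕ} (i : ℕ) (hi : 1 ≤ i) (him : i ≤ m) : (∃ g : ↥(Cfsg.isometryGroup F (Cfsg.quadFormOdd m F)), g ∈ Cfsg.Omega F (Cfsg.quadFormOdd m F) ∧ ((g : Matrix.GeneralLinearGroup (Unit ⊕ (Fin m ⊕ Fin m)) F) : Matrix (Unit ⊕ (Fin m ⊕ Fin m)) (Unit ⊕ (Fin m ⊕ Fin m)) F) = Matrix.diagonal (fun k : Unit ⊕ (Fin m ⊕ Fin m) => if (Sum.elim (fun _ : Unit => i) (Sum.elim (fun j : Fin m => (j : ℕ)) (fun j : Fin m => (j : ℕ))) k) < i then (-1 : F) else 1)) ↔ q ^ i % 4 = 1 := by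
  have h2 : (2 : F) ≠ 0 := by
    intro h
    have h3 := FiniteField.cast_card_eq_zero F
    rw [hF] at h3
    obtain ⟨r, rfl⟩ := hq
    have : ((2 * r + 1 : ℕ) : F) = 1 := by
      push_cast
      rw [h]
      simp
    rw [this] at h3
    exact one_ne_zero h3
  obtain ⟨Q', hQ', hnd⟩ := Cfsg.Agent.Lib.Classical.ndq_odd h2 m
  have hpol : ∀ u v, QuadraticMap.polar (⇑Q') u v = 2 * u (.inl ()) * v (.inl ()) + (∑ i, (u (.inr (.inl i)) * v (.inr (.inr i)) + v (.inr (.inl i)) * u (.inr (.inr i)))) := by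
    intro u v
    rw [hQ']
    simp only [QuadraticMap.polar, Cfsg.quadFormOdd, Pi.add_apply]
    have e : ∑ i, (u (.inr (.inl i)) * v (.inr (.inr i)) + v (.inr (.inl i)) * u (.inr (.inr i))) = ∑ i : Fin m, (u (.inr (.inl i)) + v (.inr (.inl i))) * (u (.inr (.inr i)) + v (.inr (.inr i))) - ∑ i : Fin m, u (.inr (.inl i)) * u (.inr (.inr i)) - ∑ i : Fin m, v (.inr (.inl i)) * v (.inr (.inr i)) := by
      rw [← Finset.sum_sub_distrib, ← Finset.sum_sub_distrib]
      apply Finset.sum_congr rfl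
      intro i _
      ring
    rw [e]
    ring
  have H : ∀ j : Fin m, HypCoord Q' (Sum.inr (Sum.inl j)) (Sum.inr (Sum.inr j)) := by
    intro j
    refine ⟨by simp, ?_, ?_, fun x => ?_, fun x => ?_⟩
    · rw [show Q' _ = (⇑Q') _ from rfl, hQ', Cfsg.quadFormOdd]
      simp
    · rw [show Q' _ = (⇑Q') _ from rfl, hQ', Cfsg.quadFormOdd]
      simp
    · rw [hpol]
      simp [Pi.single_apply, Finset.sum_ite_eq']
    · rw [hpol]
      simp [Pi.single_apply, Finset.sum_ite_eq']
  obtain ⟨vs, h1, h2', h3, h4⟩ := diag_neg_list (Q := Q') (F := F) (fun j : Fin m => (Sum.inr (Sum.inl j) : Unit ⊕ (Fin m ⊕ Fin m))) (fun j => Sum.inr (Sum.inr j))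
    (Sum.elim (fun _ : Unit => i) (Sum.elim (fun j : Fin m => (j : ℕ)) (fun j : Fin m => (j : ℕ)))) i H (fun j => rfl) (fun j => rfl)
    (by
      intro k j hj hk
      rcases k with k | (k | k)
      · simp only [Sum.elim_inl] at hk
        omega
      · left
        congr 2
        exact Fin.ext hk
      · right
        congr 2
        exact Fin.ext hk) him i le_rfl
  rw [← hQ']
  exact diag_criterion hnd hF hq h1 h2' h3 h4

end Cfsg.Agent.S2614
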