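import Cfsg.Statements.S2615
import Mathlib
import Cfsg.Agent.Lib.Spinor.Pair
import Cfsg.Agent.Lib.Classical.OrthMinus

set_option autoImplicit false
open Cfsg

namespace Cfsg.Agent.S2615

open Cfsg.Agent.Lib.Spinor Cfsg.Agent.Lib.Quad


/-- For an elliptic form Σ_(j<m−1) x_j y_j + (z₁² + a z₁z₂ + b z₂²) (anisotropic binary part) on F^(2m), F finite with q elements, q odd, and 1 ≤ i ≤ m − 1: the involution negating the first i hyperbolic pairs and fixing the rest lies in Ω⁻_2m(q) (commutator subgroup of the orthogonal group) if and only if q^i ≡ 1 (mod 4). -/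
theorem result {F : Type*} [Field F] [Fintype F] {q : ℕ} (hF : Fintype.card F = q) (hq : Odd q) {m : ℕ} (a b : F) (hab : ∀ z₁ z₂ : F, z₁ ^ 2 + a * z₁ * z₂ + b * z₂ ^ 2 = 0 → z₁ = 0 ∧ z₂ = 0) (i : ℕ) (hi : 1 ≤ i) (him : i + 1 ≤ m) : (∃ g : ↥(Cfsg.isometryGroup F (Cfsg.quadFormMinus (m - 1) F a b)), g ∈ Cfsg.Omega F (Cfsg.quadFormMinus (m - 1) F a b) ∧ ((g : Matrix.GeneralLinearGroup ((Fin (m - 1) ⊕ Fin (m - 1)) ⊕ Fin 2) F) : Matrix ((Fin (m - 1) ⊕ Fin (m - 1)) ⊕ Fin 2) ((Fin (m - 1) ⊕ Fin (m - 1)) ⊕ Fin 2) F) = Matrix.diagonal (fun k : (Fin (m - 1) ⊕ Fin (m - 1)) ⊕ Fin 2 => if (Sum.elim (Sum.elim (fun j : Fin (m - 1) => (j : ℕ)) (fun j : Fin (m - 1) => (j : ℕ))) (fun _ : Fin 2 => i) k) < i then (-1 : F) else 1)) ↔ q ^ i % 4 = 1 := by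
  have h2 : (2 : F) ≠ 0 := by
    intro h
    have h3 := FiniteField.cast_card_eq_zero F
    rw [hF] at h3
    obtain ⟨r, rfl⟩ := hq
    have : ((2 * r + 1 : ℕ) : F) = 1 := by
      push_cast
      rw [h]
      simp
    rw [this] at h3
    exact one_ne_zero h3
  obtain ⟨Q', hQ', hnd⟩ := Cfsg.Agent.Lib.Classical.ndq_minus a b hab (m - 1)
  have hpol : ∀ u v, QuadraticMap.polar (⇑Q') u v = (∑ i, (u (.inl (.inl i)) * v (.inl (.inr i)) + v (.inl (.inl i)) * u (.inl (.inr i)))) +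
        (2 * u (.inr 0) * v (.inr 0) + a * (u (.inr 0) * v (.inr 1) + u (.inr 1) * v (.inr 0)) +
          2 * b * u (.inr 1) * v (.inr 1)) := by
    intro u v
    rw [hQ', polar_minus_eq']
  have H : ∀ j : Fin (m - 1), HypCoord Q' (Sum.inl (Sum.inl j)) (Sum.inl (Sum.inr j)) := by
    intro j
    refine ⟨by simp, ?_, ?_, fun x => ?_, fun x => ?_⟩
    · rw [show Q' _ = (⇑Q') _ from rfl, hQ', Cfsg.quadFormMinus]
      simp
    · rw [show Q' _ = (⇑Q') _ from rfl, hQ', Cfsg.quadFormMinus]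
      simp
    · rw [hpol]
      simp [Pi.single_apply, Finset.sum_ite_eq']
    · rw [hpol]
      simp [Pi.single_apply, Finset.sum_ite_eq']
  obtain ⟨vs, h1, h2', h3, h4⟩ := diag_neg_list (Q := Q') (F := F) (fun j : Fin (m - 1) => (Sum.inl (Sum.inl j) : (Fin (m - 1) ⊕ Fin (m - 1)) ⊕ Fin 2)) (fun j => Sum.inl (Sum.inr j))
    (Sum.elim (Sum.elim (fun j : Fin (m - 1) => (j : ℕ)) (fun j : Fin (m - 1) => (j : ℕ))) (fun _ : Fin 2 => i)) i H (fun j => rfl) (fun j => rfl)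
    (by
      intro k j hj hk
      rcases k with (k | k) | k
      · left
        congr 2
        exact Fin.ext hk
      · right
        congr 2
        exact Fin.ext hk
      · simp only [Sum.elim_inr] at hk
        omega) (by omega) i le_rfl
  rw [← hQ']
  exact diag_criterion hnd hF hq h1 h2' h3 h4

end Cfsg.Agent.S2615
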