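import Cfsg.Statements.S2617
import Mathlib
import Cfsg.Agent.Lib.Quad.Witt

set_option autoImplicit false
open Cfsg

namespace Cfsg.Agent.S2617


/-- The two standard quadratic forms of even dimension 2m over a finite field are not isometric: there is no linear isomorphism carrying the elliptic form Σ_(i<m−1) x_i y_i + z₁² + z₁z₂ + ζ z₂² (t² + t + ζ without roots) to the hyperbolic form Σ_(i<m) x_i y_i (they have different Witt index). -/
theorem result {F : Type*} [Field F] [Finite F] {m : ℕ} (hm : 1 ≤ m) (ζ : F) (hζ : ∀ t : F, t ^ 2 + t + ζ ≠ 0) (g : (Fin m ⊕ Fin m → F) ≃ₗ[F] ((Fin (m - 1) ⊕ Fin (m - 1)) ⊕ Fin 2 → F)) : ¬ (∀ v : Fin m ⊕ Fin m → F, Cfsg.quadFormMinus (m - 1) F 1 ζ (g v) = Cfsg.quadFormPlus m F v) := by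
  intro h
  have hac : ∀ z₁ z₂ : F, z₁ ^ 2 + 1 * z₁ * z₂ + ζ * z₂ ^ 2 = 0 → z₁ = 0 ∧ z₂ = 0 := by
    intro z₁ z₂ hz
    by_cases h2 : z₂ = 0
    · subst h2
      simp at hz
      exact ⟨hz, rfl⟩
    · exfalso
      apply hζ (z₁ / z₂)
      field_simp
      linear_combination hz
  let L : (Fin m → F) →ₗ[F] ((Fin (m - 1) ⊕ Fin (m - 1)) ⊕ Fin 2 → F) := (g : _ →ₗ[F] _).comp (Cfsg.Agent.Lib.Quad.plusIncl m F)
  have hL : Function.Injective L := g.injective.comp (Cfsg.Agent.Lib.Quad.plusIncl_injective m)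
  have h1 := Cfsg.Agent.Lib.Quad.finrank_le_of_minus_singular hac (LinearMap.range L) (by
    rintro _ ⟨x, rfl⟩
    show Cfsg.quadFormMinus (m - 1) F 1 ζ (g _) = 0
    rw [h, Cfsg.Agent.Lib.Quad.quadFormPlus_plusIncl])
  rw [LinearMap.finrank_range_of_inj hL] at h1
  simp at h1
  omega

end Cfsg.Agent.S2617
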