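import Cfsg.Statements.S2619
import Mathlib

set_option autoImplicit false
open Cfsg

namespace Cfsg.Agent.S2619


/-- Over a finite field of characteristic two, given an alternating bilinear form B on a finite-dimensional space, a basis (v_i) and scalars (λ_i), there is exactly one quadratic form whose polar form is B and whose value at each v_i is λ_i. -/
theorem result {F V ι : Type*} [Field F] [Finite F] [CharP F 2] [AddCommGroup V] [Module F V] [Fintype ι] (b : Module.Basis ι F V) (B : LinearMap.BilinForm F V) (hB : B.IsAlt) (c : ι → F) : ∃! Q : QuadraticForm F V, QuadraticMap.polarBilin Q = B ∧ ∀ i, Q (b i) = c i := by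
  classical
  have h2 : (2 : F) = 0 := by exact_mod_cast CharP.cast_eq_zero F 2
  let _ : LinearOrder ι := LinearOrder.lift' (Fintype.equivFin ι) (Fintype.equivFin ι).injective
  let A : LinearMap.BilinForm F V := b.constr F (fun i => b.constr F (fun j => if i < j then B (b i) (b j) else if i = j then c i else 0))
  have hA : ∀ i j, A (b i) (b j) = if i < j then B (b i) (b j) else if i = j then c i else 0 := by
    intro i j
    simp only [A, Module.Basis.constr_basis]
  have hanti : ∀ u v, B u v = B v u := by
    intro u v
    have := hB.neg_eq u v
    have h3 : ∀ x : F, -x = x := fun x => by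
      have : x + x = 0 := by rw [← two_mul, h2, zero_mul]
      exact neg_eq_of_add_eq_zero_left this
    rw [← this, h3]
  have hpol0 : QuadraticMap.polarBilin (LinearMap.BilinMap.toQuadraticMap A) = B := by
    apply LinearMap.BilinForm.ext_basis b
    intro i j
    show QuadraticMap.polar (LinearMap.BilinMap.toQuadraticMap A) (b i) (b j) = B (b i) (b j)
    simp only [QuadraticMap.polar, LinearMap.BilinMap.toQuadraticMap_apply, map_add, LinearMap.add_apply]
    rw [hA, hA, hA, hA]
    rcases lt_trichotomy i j with h | h | h
    · have h' : ¬ j < i := not_lt.2 h.le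
      have h'' : j ≠ i := h.ne'
      simp [h, h', h'']
    · subst h
      simp [hB (b i)]
      have : c i + c i = 0 := by rw [← two_mul, h2, zero_mul]
      linear_combination this
    · have h' : ¬ i < j := not_lt.2 h.le
      have h'' : i ≠ j := h.ne'
      simp [h, h', h'']
      rw [hanti]
      ring
  refine ⟨LinearMap.BilinMap.toQuadraticMap A, ⟨hpol0, ?_⟩, ?_⟩
  · intro i
    simp [LinearMap.BilinMap.toQuadraticMap_apply, hA]
  · rintro Q ⟨hQ1, hQ2⟩
    set Q₀ : QuadraticForm F V := LinearMap.BilinMap.toQuadraticMap A with hQ₀
    have hc0 : ∀ i, Q₀ (b i) = c i := by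
      intro i
      simp [Q₀, LinearMap.BilinMap.toQuadraticMap_apply, hA]
    have hadd : ∀ u v, (Q - Q₀) (u + v) = (Q - Q₀) u + (Q - Q₀) v := by
      intro u v
      have h3 : QuadraticMap.polar Q u v = B u v := by rw [← hQ1]; rfl
      have h4 : QuadraticMap.polar Q₀ u v = B u v := by rw [← hpol0]; rfl
      simp only [QuadraticMap.polar] at h3 h4
      simp only [sub_apply]
      linear_combination h3 - h4
    have hsum : ∀ (s : Finset ι) (f : ι → F), (Q - Q₀) (∑ i ∈ s, f i • b i) = 0 := by
      intro s f
      induction s using Finset.induction_on with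
      | empty => simp
      | insert a s ha ih =>
        rw [Finset.sum_insert ha, hadd, ih, add_zero, QuadraticMap.map_smul]
        simp [hQ2, hc0]
    ext v
    have := hsum Finset.univ (b.repr v)
    rw [b.sum_repr] at this
    simpa [sub_eq_zero] using this

end Cfsg.Agent.S2619
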