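import Cfsg.Statements.S2622
import Mathlib

set_option autoImplicit false
open Cfsg

namespace Cfsg.Agent.S2622

universe u v

theorem orthonormal_family {F : Type u} [Field F] [Finite F] [CharP F 2] (n : ℕ) :
    ∀ (V : Type v) [AddCommGroup V] [Module F V] [FiniteDimensional F V], Module.finrank F V = n →
      ∀ B : LinearMap.BilinForm F V, (∀ x y, B x y = B y x) → (∀ x, (∀ y, B x y = 0) → x = 0) →
      (1 ≤ n → ∃ v, B v v ≠ 0) → ∃ e : Fin n → V, ∀ i j, B (e i) (e j) = if i = j then 1 else 0 := by
  have htwo : (2 : F) = 0 := by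
    have := CharP.cast_eq_zero F 2
    simpa using this
  have hsq : ∀ a : F, IsSquare a := FiniteField.isSquare_of_char_two (by
    exact ringChar.eq F 2)
  induction n with
  | zero =>
    intro V _ _ _ _ B _ _ _
    exact ⟨Fin.elim0, fun i => i.elim0⟩
  | succ n ih =>
    intro V _ _ _ hn B hS hB hna
    -- the perp of a unit vector has the right dimension and is nondegenerate
    have hperp : ∀ v : V, B v v = 1 → Module.finrank F (LinearMap.ker (B v)) = n := by
      intro v hv
      have h1 : LinearMap.range (B v) = ⊤ := by
        rw [LinearMap.range_eq_top]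
        intro a
        exact ⟨a • v, by simp [hv]⟩
      have h2 := LinearMap.finrank_range_add_finrank_ker (B v)
      rw [h1] at h2
      simp only [finrank_top, Module.finrank_self] at h2
      omega
    have hnd : ∀ v : V, B v v = 1 → ∀ w ∈ LinearMap.ker (B v), (∀ y ∈ LinearMap.ker (B v), B w y = 0) → w = 0 := by
      intro v hv w hw hy
      apply hB
      intro x
      have h1 : x - B v x • v ∈ LinearMap.ker (B v) := by
        simp [LinearMap.mem_ker, hv]
      have h2 := hy _ h1
      have h3 : B w v = 0 := by
        rw [hS]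
        exact hw
      simpa [h3] using h2
    -- unit vector
    obtain ⟨v₀, hv₀⟩ := hna (by omega)
    obtain ⟨s, hs⟩ := hsq (B v₀ v₀)
    have hs0 : s ≠ 0 := by
      rintro rfl
      simp [hv₀] at hs
    let v := s⁻¹ • v₀
    have hv : B v v = 1 := by
      simp only [v, map_smul, LinearMap.smul_apply, hs, smul_eq_mul]
      field_simp
    -- a good unit vector
    obtain ⟨v', hv', hgood⟩ : ∃ v' : V, B v' v' = 1 ∧ (1 ≤ n → ∃ u ∈ LinearMap.ker (B v'), B u u ≠ 0) := by
      by_cases hgood : 1 ≤ n → ∃ u ∈ LinearMap.ker (B v), B u u ≠ 0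
      · exact ⟨v, hv, hgood⟩
      · push Not at hgood
        obtain ⟨hn1, halt⟩ := hgood
        have hK := hperp v hv
        have : Nontrivial (LinearMap.ker (B v)) := Module.nontrivial_of_finrank_pos (R := F) (by omega)
        obtain ⟨⟨e, he⟩, hne⟩ := exists_ne (0 : LinearMap.ker (B v))
        have he0 : e ≠ 0 := fun h => hne (Subtype.ext h)
        obtain ⟨f', hf', hef'⟩ : ∃ f' ∈ LinearMap.ker (B v), B e f' ≠ 0 := by
          by_contra hcon
          push Not at hcon
          exact he0 (hnd v hv e he hcon)
        let f := (B e f')⁻¹ • f'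
        have hf : f ∈ LinearMap.ker (B v) := Submodule.smul_mem _ _ hf'
        have hef : B e f = 1 := by
          simp only [f, map_smul, smul_eq_mul]
          exact inv_mul_cancel₀ hef'
        have hve : B v e = 0 := he
        have hvf : B v f = 0 := hf
        have hev : B e v = 0 := by rw [hS]; exact hve
        have hfv : B f v = 0 := by rw [hS]; exact hvf
        have hee : B e e = 0 := halt e he
        have hff : B f f = 0 := halt f hf
        have hfe : B f e = 1 := by rw [hS]; exact hef
        refine ⟨v + e, ?_, fun _ => ⟨v + f, ?_, ?_⟩⟩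
        · simp [hv, hve, hev, hee]
        · rw [LinearMap.mem_ker]
          simp only [map_add, LinearMap.add_apply, hv, hvf, hev, hef]
          have : (1 : F) + 0 + (0 + 1) = 2 := by norm_num
          rw [this, htwo]
        · simp [hv, hvf, hfv, hff]
    -- recurse
    obtain ⟨e, he⟩ := ih (LinearMap.ker (B v')) (hperp v' hv') (B.restrict _)
      (fun x y => hS x y) (fun x hx => Subtype.ext (hnd v' hv' x x.2 (fun y hy => hx ⟨y, hy⟩)))
      (fun h1 => by
        obtain ⟨u, hu, huu⟩ := hgood h1
        exact ⟨⟨u, hu⟩, huu⟩)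
    have hmem : ∀ i, B v' (e i : V) = 0 := fun i => (e i).2
    have hmem' : ∀ i, B (e i : V) v' = 0 := fun i => by rw [hS]; exact hmem i
    refine ⟨Fin.cons v' (fun i => (e i : V)), ?_⟩
    intro i j
    refine Fin.cases ?_ (fun i => ?_) i
    · refine Fin.cases ?_ (fun j => ?_) j
      · simpa using hv'
      · simpa [Fin.succ_ne_zero, eq_comm] using hmem j
    · refine Fin.cases ?_ (fun j => ?_) j
      · simpa [Fin.succ_ne_zero] using hmem' i
      · simpa [Fin.succ_inj] using he i j


/-- Over a finite field of characteristic two, a non-degenerate symmetric bilinear form that is not alternating (some vector v has B(v, v) ≠ 0) admits an orthonormal basis. -/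
theorem result {F V : Type*} [Field F] [Finite F] [CharP F 2] [AddCommGroup V] [Module F V] [FiniteDimensional F V] {n : ℕ} (hV : Module.finrank F V = n) (B : LinearMap.BilinForm F V) (hS : B.IsSymm) (hB : B.Nondegenerate) (hna : ∃ v : V, B v v ≠ 0) : ∃ b : Module.Basis (Fin n) F V, ∀ i j, B (b i) (b j) = if i = j then 1 else 0 := by
  classical
  have hsym : ∀ x y, B x y = B y x := fun x y => hS.eq x y
  obtain ⟨v, hv⟩ := hna
  have hn1 : 1 ≤ n := by
    by_contra hcon
    have hn0 : n = 0 := by omega
    have hzero : Module.finrank F V = 0 := by omega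
    have : Subsingleton V := Module.finrank_zero_iff.1 hzero
    apply hv
    rw [Subsingleton.elim v 0]
    simp
  obtain ⟨e, he⟩ := orthonormal_family (F := F) n V hV B hsym (fun x hx => hB.1 x hx) (fun _ => ⟨v, hv⟩)
  have hli : LinearIndependent F e := by
    rw [Fintype.linearIndependent_iff]
    intro a ha j
    have h1 := congrArg (fun x => B x (e j)) ha
    simpa [map_sum, LinearMap.sum_apply, he] using h1
  have : Nonempty (Fin n) := ⟨⟨0, hn1⟩⟩
  let b := basisOfLinearIndependentOfCardEqFinrank hli (by simp [hV])
  have hb : ∀ i, b i = e i := fun i => by simp [b]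
  exact ⟨b, fun i j => by rw [hb, hb]; exact he i j⟩

end Cfsg.Agent.S2622
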