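import Cfsg.Statements.S2625
import Mathlib

set_option autoImplicit false
open Cfsg

namespace Cfsg.Agent.S2625


/-- For a quadratic form Q on F^n with non-degenerate polar form, F finite and n odd (so |F| is odd), the multiplier of any similarity is a square: if g is an invertible linear map with Q(g v) = c·Q(v) for all v then c is a square. -/
theorem result {F : Type*} [Field F] [Fintype F] {n : ℕ} (hn : Odd n) (Q : QuadraticForm F (Fin n → F)) (hQ : (QuadraticMap.polarBilin Q).Nondegenerate) (g : (Fin n → F) ≃ₗ[F] (Fin n → F)) (c : F) (hg : ∀ v, Q (g v) = c * Q v) : IsSquare c := by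
  classical
  let b := Pi.basisFun F (Fin n)
  let B : LinearMap.BilinForm F (Fin n → F) := QuadraticMap.polarBilin Q
  have hdet := (LinearMap.BilinForm.nondegenerate_iff_det_ne_zero b).1 hQ
  have hcomp : LinearMap.BilinForm.comp B (g : (Fin n → F) →ₗ[F] (Fin n → F)) (g : (Fin n → F) →ₗ[F] (Fin n → F)) = c • B := by
    refine LinearMap.ext₂ fun u v => ?_
    show QuadraticMap.polar Q (g u) (g v) = c * QuadraticMap.polar Q u v
    simp only [QuadraticMap.polar]
    rw [← map_add, hg, hg, hg]
    ring
  have hmat := LinearMap.BilinForm.toMatrix_comp b b B (g : (Fin n → F) →ₗ[F] (Fin n → F)) (g : (Fin n → F) →ₗ[F] (Fin n → F))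
  rw [hcomp] at hmat
  have hdet2 := congrArg Matrix.det hmat
  simp only [map_smul, Matrix.det_smul, Matrix.det_mul, Matrix.det_transpose, Fintype.card_fin, smul_eq_mul] at hdet2
  set d := (LinearMap.toMatrix b b (g : (Fin n → F) →ₗ[F] (Fin n → F))).det
  set D := (LinearMap.BilinForm.toMatrix b B).det
  have h2 : c ^ n = d * d := by
    have : (c ^ n - d * d) * D = 0 := by linear_combination hdet2
    rcases mul_eq_zero.1 this with h | h
    · linear_combination h
    · exact absurd h hdet
  by_cases hc : c = 0
  · subst hc; exact IsSquare.zero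
  obtain ⟨k, hk⟩ := hn
  refine ⟨d / c ^ k, ?_⟩
  have hck : c ^ k ≠ 0 := pow_ne_zero _ hc
  field_simp
  rw [hk] at h2
  linear_combination h2

end Cfsg.Agent.S2625
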