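import Cfsg.Statements.S2626
import Mathlib

set_option autoImplicit false
open Cfsg

namespace Cfsg.Agent.S2626


/-- Ω of an orthogonal direct sum contains the product of the Ω's: for quadratic forms Q₁ on F^k and Q₂ on F^l with non-degenerate polar forms (F finite) and Q = Q₁ ⊕ Q₂ on F^(k+l), if g₁ lies in Ω(Q₁) and g₂ in Ω(Q₂) (commutator subgroups of the orthogonal groups) then the block-diagonal isometry diag(g₁, g₂) lies in Ω(Q). -/
theorem result {F : Type*} [Field F] [Fintype F] {k l : ℕ} (Q₁ : QuadraticForm F (Fin k → F)) (Q₂ : QuadraticForm F (Fin l → F)) (h₁ : (QuadraticMap.polarBilin Q₁).Nondegenerate) (h₂ : (QuadraticMap.polarBilin Q₂).Nondegenerate) (g₁ : ↥(Cfsg.isometryGroup F ⇑Q₁)) (g₂ : ↥(Cfsg.isometryGroup F ⇑Q₂)) (hg₁ : g₁ ∈ Cfsg.Omega F ⇑Q₁) (hg₂ : g₂ ∈ Cfsg.Omega F ⇑Q₂) : ∃ g : ↥(Cfsg.isometryGroup F (fun v : Fin k ⊕ Fin l → F => Q₁ (v ∘ Sum.inl) + Q₂ (v ∘ Sum.inr))), g ∈ Cfsg.Omega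 F (fun v : Fin k ⊕ Fin l → F => Q₁ (v ∘ Sum.inl) + Q₂ (v ∘ Sum.inr)) ∧ ((g : Matrix.GeneralLinearGroup (Fin k ⊕ Fin l) F) : Matrix (Fin k ⊕ Fin l) (Fin k ⊕ Fin l) F) = Matrix.fromBlocks ((g₁ : Matrix.GeneralLinearGroup (Fin k) F) : Matrix (Fin k) (Fin k) F) 0 0 ((g₂ : Matrix.GeneralLinearGroup (Fin l) F) : Matrix (Fin l) (Fin l) F) := by
  classical
  set Q : (Fin k ⊕ Fin l → F) → F := fun v => Q₁ (v ∘ Sum.inl) + Q₂ (v ∘ Sum.inr) with hQdef
  have hmv : ∀ (a : Matrix (Fin k) (Fin k) F) (d : Matrix (Fin l) (Fin l) F) (v : Fin k ⊕ Fin l → F),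
      (Matrix.fromBlocks a 0 0 d).mulVec v = Sum.elim (a.mulVec (v ∘ Sum.inl)) (d.mulVec (v ∘ Sum.inr)) := by
    intro a d v
    have : v = Sum.elim (v ∘ Sum.inl) (v ∘ Sum.inr) := by
      ext i; cases i <;> rfl
    conv_lhs => rw [this]
    rw [Matrix.fromBlocks_mulVec]
    simp
  let blk : Matrix.GeneralLinearGroup (Fin k) F × Matrix.GeneralLinearGroup (Fin l) F →* Matrix.GeneralLinearGroup (Fin k ⊕ Fin l) F :=
    { toFun := fun x => ⟨Matrix.fromBlocks (x.1 : Matrix (Fin k) (Fin k) F) 0 0 (x.2 : Matrix (Fin l) (Fin l) F),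
          Matrix.fromBlocks ((x.1⁻¹ : Matrix.GeneralLinearGroup (Fin k) F) : Matrix (Fin k) (Fin k) F) 0 0 ((x.2⁻¹ : Matrix.GeneralLinearGroup (Fin l) F) : Matrix (Fin l) (Fin l) F),
          by rw [Matrix.fromBlocks_multiply]; simp,
          by rw [Matrix.fromBlocks_multiply]; simp⟩
      map_one' := by
        ext i j
        rcases i with i | i <;> rcases j with j | j <;> simp [Matrix.one_apply]
      map_mul' := by
        intro x y
        apply Units.ext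
        simp [Matrix.fromBlocks_multiply] }
  have hblk : ∀ x, ((blk x : Matrix.GeneralLinearGroup (Fin k ⊕ Fin l) F) : Matrix (Fin k ⊕ Fin l) (Fin k ⊕ Fin l) F) = Matrix.fromBlocks (x.1 : Matrix (Fin k) (Fin k) F) 0 0 (x.2 : Matrix (Fin l) (Fin l) F) := fun x => rfl
  let φ : ↥(Cfsg.isometryGroup F ⇑Q₁) × ↥(Cfsg.isometryGroup F ⇑Q₂) →* ↥(Cfsg.isometryGroup F Q) :=
    { toFun := fun x => ⟨blk (x.1.1, x.2.1), by
        intro u v
        show Q (((blk (x.1.1, x.2.1) : Matrix.GeneralLinearGroup (Fin k ⊕ Fin l) F) : Matrix (Fin k ⊕ Fin l) (Fin k ⊕ Fin l) F).mulVec u) = Q u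
        rw [hblk, hmv]
        have h1 := x.1.2 (u ∘ Sum.inl) (u ∘ Sum.inl)
        have h2 := x.2.2 (u ∘ Sum.inr) (u ∘ Sum.inr)
        simp only [Q, Function.comp_def, Sum.elim_inl, Sum.elim_inr] at h1 h2 ⊢
        exact congrArg₂ (· + ·) h1 h2⟩
      map_one' := by
        apply Subtype.ext
        exact blk.map_one
      map_mul' := by
        intro x y
        apply Subtype.ext
        exact blk.map_mul (x.1.1, x.2.1) (y.1.1, y.2.1) }
  refine ⟨φ (⟨g₁, g₂⟩), ?_, rfl⟩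
  have hmem : ((⟨g₁, g₂⟩ : ↥(Cfsg.isometryGroup F ⇑Q₁) × ↥(Cfsg.isometryGroup F ⇑Q₂))) ∈ commutator (↥(Cfsg.isometryGroup F ⇑Q₁) × ↥(Cfsg.isometryGroup F ⇑Q₂)) := by
    rw [commutator_def, ← Subgroup.top_prod_top, Subgroup.commutator_prod_prod]
    exact ⟨hg₁, hg₂⟩
  have hmap : (commutator (↥(Cfsg.isometryGroup F ⇑Q₁) × ↥(Cfsg.isometryGroup F ⇑Q₂))).map φ ≤ Cfsg.Omega F Q := by
    rw [commutator_def, Subgroup.map_commutator]
    exact Subgroup.commutator_mono le_top le_top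
  exact hmap (Subgroup.mem_map_of_mem φ hmem)

end Cfsg.Agent.S2626
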