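import Cfsg.Statements.S2627
import Mathlib
import Cfsg.Agent.Lib.Spinor.Dickson

set_option autoImplicit false
open Cfsg

namespace Cfsg.Agent.S2627

open Cfsg.Agent.Lib.Spinor


/-- For an orthogonal direct sum Q = Q₁ ⊕ Q₂ of quadratic forms with non-degenerate polar forms over a finite field, an isometry g₁ of Q₁ extended by the identity on the second summand lies in Ω(Q) (the commutator subgroup of the orthogonal group of Q) if and only if g₁ lies in Ω(Q₁). (Excluded: the field of two elements when the first summand or the whole space has dimension 4, where the commutator subgroup of O⁺₄(2) is smaller than the group usually called Ω.) -/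
theorem result {F : Type*} [Field F] [Fintype F] {k l : ℕ} (h : Fintype.card F ≠ 2 ∨ (k ≠ 4 ∧ k + l ≠ 4)) (Q₁ : QuadraticForm F (Fin k → F)) (Q₂ : QuadraticForm F (Fin l → F)) (h₁ : (QuadraticMap.polarBilin Q₁).Nondegenerate) (h₂ : (QuadraticMap.polarBilin Q₂).Nondegenerate) (g₁ : ↥(Cfsg.isometryGroup F ⇑Q₁)) : (∃ g : ↥(Cfsg.isometryGroup F (fun v : Fin k ⊕ Fin l → F => Q₁ (v ∘ Sum.inl) + Q₂ (v ∘ Sum.inr))), g ∈ Cfsg.Omega F (fun v : Fin k ⊕ Fin l → F => Q₁ (v ∘ Sum.inl) + Q₂ (v ∘ Sum.inr)) ∧ ((g : Matrix.GeneralLinearGroup (Fin k ⊕ Fin l) F) : Matrix (Fin k ⊕ Fin l) (Fin k ⊕ Fin l) F) = Matrix.fromBlocks ((g₁ : Matrix.GeneralLinearGroup (Fin k) F) : Matrix (Fin k) (Fin k) F) 0 0 1) ↔ g₁ ∈ Cfsg.Omega F ⇑Q₁ := by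
  have main : (∃ g : ↥(Cfsg.isometryGroup F ⇑(sumQ Q₁ Q₂)), g ∈ Cfsg.Omega F ⇑(sumQ Q₁ Q₂) ∧ ((g : Matrix.GeneralLinearGroup (Fin k ⊕ Fin l) F) : Matrix (Fin k ⊕ Fin l) (Fin k ⊕ Fin l) F) = Matrix.fromBlocks ((g₁ : Matrix.GeneralLinearGroup (Fin k) F) : Matrix (Fin k) (Fin k) F) 0 0 1) ↔ g₁ ∈ Cfsg.Omega F ⇑Q₁ := by
    have hq₁ : Fintype.card F ≠ 2 ∨ Fintype.card (Fin k) ≠ 4 := by
      rcases h with h | h
      · exact Or.inl h
      · exact Or.inr (by simpa using h.1)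
    have hq : Fintype.card F ≠ 2 ∨ Fintype.card (Fin k ⊕ Fin l) ≠ 4 := by
      rcases h with h | h
      · exact Or.inl h
      · exact Or.inr (by simpa using h.2)
    have hnd := sumQ_nondeg h₁ h₂
    obtain ⟨vs, hv, rfl⟩ := exists_lp h₁ hq₁ g₁
    have hL : ∀ w ∈ vs.map (inlV (κ := Fin l)), sumQ Q₁ Q₂ w ≠ 0 := by
      intro w hw
      obtain ⟨v, hv1, rfl⟩ := List.mem_map.1 hw
      rw [sumQ_inlV]
      exact hv v hv1
    have hmat : OG.mat (lp (sumQ Q₁ Q₂) (vs.map (inlV (κ := Fin l)))) = Matrix.fromBlocks (OG.mat (lp Q₁ vs)) 0 0 1 := by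
      rw [lp_mat hL, prod_rr_inlV, lp_mat hv]
    rw [lp_mem_omega_iff h₁ hq₁ hv]
    constructor
    · rintro ⟨g, hg, e⟩
      have e' : g = lp (sumQ Q₁ Q₂) (vs.map (inlV (κ := Fin l))) := by
        apply OG.ext'
        rw [hmat]
        exact e
      rw [e', lp_mem_omega_iff hnd hq hL, nm_inlV, List.length_map] at hg
      exact hg
    · intro hg
      refine ⟨lp (sumQ Q₁ Q₂) (vs.map (inlV (κ := Fin l))), ?_, hmat⟩
      rw [lp_mem_omega_iff hnd hq hL, nm_inlV, List.length_map]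
      exact hg
  exact main

end Cfsg.Agent.S2627
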