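import Cfsg.Statements.S2628
import Mathlib
import Cfsg.Agent.Lib.Spinor.Plus

set_option autoImplicit false
open Cfsg

namespace Cfsg.Agent.S2628

open Cfsg.Agent.Lib.Spinor Cfsg.Agent.Lib.ClassMax.OmegaCore Matrix


/-- For the orthogonal direct sum Q ⊕ Q of two copies of a quadratic form Q with non-degenerate polar form on F^k (F finite), every isometry g of Q acting diagonally, diag(g, g), lies in Ω(Q ⊕ Q), the commutator subgroup of the orthogonal group of Q ⊕ Q. (Excluded: k = 2 over the field of two elements, where Q ⊕ Q is the hyperbolic 4-space whose orthogonal group's commutator subgroup is smaller than the group usually called Ω.) -/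
theorem result {F : Type*} [Field F] [Fintype F] {k : ℕ} (h : Fintype.card F ≠ 2 ∨ k ≠ 2) (Q : QuadraticForm F (Fin k → F)) (hQ : (QuadraticMap.polarBilin Q).Nondegenerate) (g : ↥(Cfsg.isometryGroup F ⇑Q)) : ∃ x : ↥(Cfsg.isometryGroup F (fun v : Fin k ⊕ Fin k → F => Q (v ∘ Sum.inl) + Q (v ∘ Sum.inr))), x ∈ Cfsg.Omega F (fun v : Fin k ⊕ Fin k → F => Q (v ∘ Sum.inl) + Q (v ∘ Sum.inr)) ∧ ((x : Matrix.GeneralLinearGroup (Fin k ⊕ Fin k) F) : Matrix (Fin k ⊕ Fin k) (Fin k ⊕ Fin k) F) = Matrix.fromBlocks ((g : Matrix.GeneralLinearGroup (Fin k) F) : Matrix (Fin k) (Fin k) F) 0 0 ((g : Matrix.GeneralLinearGroup (Fin k) F) : Matrix (Fin k) (Fin k) F) := by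
  have main : ∃ x : ↥(Cfsg.isometryGroup F ⇑(sumQ Q Q)), x ∈ Cfsg.Omega F ⇑(sumQ Q Q) ∧ ((x : Matrix.GeneralLinearGroup (Fin k ⊕ Fin k) F) : Matrix (Fin k ⊕ Fin k) (Fin k ⊕ Fin k) F) = Matrix.fromBlocks ((g : Matrix.GeneralLinearGroup (Fin k) F) : Matrix (Fin k) (Fin k) F) 0 0 ((g : Matrix.GeneralLinearGroup (Fin k) F) : Matrix (Fin k) (Fin k) F) := by
    have hnd := sumQ_nondeg hQ hQ
    by_cases h2 : (2 : F) = 0
    · -- characteristic two: use the diagonal subspace
      have hq : Fintype.card F ≠ 2 ∨ Fintype.card (Fin k ⊕ Fin k) ≠ 4 := by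
        rcases h with h | h
        · exact Or.inl h
        · refine Or.inr ?_
          simp only [Fintype.card_sum, Fintype.card_fin]
          omega
      have hsq : ∀ a : F, IsSquare a := FiniteField.isSquare_of_char_two (CharP.ringChar_of_prime_eq_zero Nat.prime_two (by exact_mod_cast h2))
      -- the element
      let M : Matrix (Fin k ⊕ Fin k) (Fin k ⊕ Fin k) F := Matrix.fromBlocks (OG.mat g) 0 0 (OG.mat g)
      let M' : Matrix (Fin k ⊕ Fin k) (Fin k ⊕ Fin k) F := Matrix.fromBlocks (OG.mat (g⁻¹)) 0 0 (OG.mat (g⁻¹))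
      have h1 : OG.mat g * OG.mat (g⁻¹) = 1 := by
        show OG.mat (g * g⁻¹) = 1
        rw [mul_inv_cancel]
        rfl
      have h3 : OG.mat (g⁻¹) * OG.mat g = 1 := by
        show OG.mat (g⁻¹ * g) = 1
        rw [inv_mul_cancel]
        rfl
      have hMiso : ∀ v, sumQ Q Q (M *ᵥ v) = sumQ Q Q v := by
        intro v
        rw [fromBlocks_mulVec, sumQ_apply, sumQ_apply]
        have e1 : (Sum.elim (OG.mat g *ᵥ (v ∘ Sum.inl) + (0 : Matrix _ _ F) *ᵥ (v ∘ Sum.inr)) ((0 : Matrix _ _ F) *ᵥ (v ∘ Sum.inl) + OG.mat g *ᵥ (v ∘ Sum.inr))) ∘ Sum.inl = OG.mat g *ᵥ (v ∘ Sum.inl) := by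
          ext i
          simp
        have e2 : (Sum.elim (OG.mat g *ᵥ (v ∘ Sum.inl) + (0 : Matrix _ _ F) *ᵥ (v ∘ Sum.inr)) ((0 : Matrix _ _ F) *ᵥ (v ∘ Sum.inl) + OG.mat g *ᵥ (v ∘ Sum.inr))) ∘ Sum.inr = OG.mat g *ᵥ (v ∘ Sum.inr) := by
          ext i
          simp
        rw [e1, e2, OG.iso, OG.iso]
      let x : OG (sumQ Q Q) := ⟨⟨M, M', by simp [M, M', fromBlocks_multiply, h1], by simp [M, M', fromBlocks_multiply, h3]⟩, (mem_iso_iff _).2 hMiso⟩
      refine ⟨x, ?_, rfl⟩
      obtain ⟨L, hL, e⟩ := exists_lp hnd hq x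
      have h4 := par_lp hnd (diag_maxTS (Q := Q) h2) hL
      rw [← e] at h4
      have h5 : imgOf x.1 (diagSub F (Fin k)) = diagSub F (Fin k) := by
        apply Submodule.eq_of_le_of_finrank_eq
        · intro y hy
          obtain ⟨t, ht, rfl⟩ := mem_imgOf.1 hy
          intro i
          show (M *ᵥ t) (Sum.inl i) = (M *ᵥ t) (Sum.inr i)
          have e1 : t ∘ Sum.inr = t ∘ Sum.inl := by
            ext i
            exact (ht i).symm
          rw [fromBlocks_mulVec, e1]
          simp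
        · rw [finrank_imgOf]
      rw [h5, inf_idem] at h4
      rw [e]
      refine lp_mem_omega hnd hL ?_ (hsq _)
      rw [Nat.even_iff]
      omega
    · -- odd characteristic
      have hq : Fintype.card F ≠ 2 ∨ Fintype.card (Fin k) ≠ 4 := Or.inl (fun h => h2 (by
        have := FiniteField.cast_card_eq_zero F
        rw [h] at this
        exact_mod_cast this))
      obtain ⟨vs, hv, rfl⟩ := exists_lp hQ hq g
      have hL : ∀ w ∈ vs.map (inlV (κ := Fin k)) ++ vs.map (inrV (ι := Fin k)), sumQ Q Q w ≠ 0 := by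
        intro w hw
        rcases List.mem_append.1 hw with hw | hw
        · obtain ⟨v, hv1, rfl⟩ := List.mem_map.1 hw
          rw [sumQ_inlV]
          exact hv v hv1
        · obtain ⟨v, hv1, rfl⟩ := List.mem_map.1 hw
          rw [sumQ_inrV]
          exact hv v hv1
      refine ⟨lp (sumQ Q Q) (vs.map (inlV (κ := Fin k)) ++ vs.map (inrV (ι := Fin k))), lp_mem_omega hnd hL ?_ ?_, ?_⟩
      · simp only [List.length_append, List.length_map]
        exact ⟨_, rfl⟩
      · rw [nm_append, nm_inlV, nm_inrV]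
        exact ⟨_, rfl⟩
      · show OG.mat _ = Matrix.fromBlocks (OG.mat (lp Q vs)) 0 0 (OG.mat (lp Q vs))
        rw [lp_mat hL, lp_mat hv, List.map_append, List.prod_append, prod_rr_inlV, prod_rr_inrV, fromBlocks_multiply]
        simp
  exact main

end Cfsg.Agent.S2628
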