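import Cfsg.Statements.S2629
import Mathlib
import Cfsg.Agent.Lib.Spinor.Plus

set_option autoImplicit false
open Cfsg

namespace Cfsg.Agent.S2629

open Cfsg.Agent.Lib.Spinor Cfsg.Agent.Lib.ClassMax.OmegaCore Cfsg.Agent.Lib.Quad

theorem aux {F : Type*} [Field F] [Fintype F] (h2 : (2 : F) ≠ 0) {m : ℕ} (g : OG (plusQF m F)) :
    Even (m - Module.finrank F ↥(LinearMap.ker (LinearMap.funLeft F F (Sum.inr : Fin m → Fin m ⊕ Fin m)) ⊓ (LinearMap.ker (LinearMap.funLeft F F (Sum.inr : Fin m → Fin m ⊕ Fin m))).map (Matrix.mulVecLin ((g : Matrix.GeneralLinearGroup (Fin m ⊕ Fin m) F) : Matrix (Fin m ⊕ Fin m) (Fin m ⊕ Fin m) F)))) ↔ ((g : Matrix.GeneralLinearGroup (Fin m ⊕ Fin m) F) : Matrix (Fin m ⊕ Fin m) (Fin m ⊕ Fin m) F).det = 1 := by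
  have hq : Fintype.card F ≠ 2 ∨ Fintype.card (Fin m ⊕ Fin m) ≠ 4 := Or.inl (fun h => h2 (by
    have := FiniteField.cast_card_eq_zero F
    rw [h] at this
    exact_mod_cast this))
  have hnd := plusQF_nondeg (F := F) m
  obtain ⟨vs, hv, rfl⟩ := exists_lp hnd hq g
  have h1 := par_lp hnd (U0_maxTS (F := F) m) hv
  rw [finrank_U0] at h1
  have h3 : Module.finrank F (U0 m F ⊓ imgOf (lp (plusQF m F) vs).1 (U0 m F) : Submodule F _) ≤ m := by
    calc _ ≤ Module.finrank F (U0 m F) := Submodule.finrank_mono inf_le_left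
      _ = m := finrank_U0 m
  have h4 : ((lp (plusQF m F) vs).1 : Matrix (Fin m ⊕ Fin m) (Fin m ⊕ Fin m) F).det = (-1) ^ vs.length := by
    have := lp_mat hv
    show (OG.mat (lp (plusQF m F) vs)).det = _
    rw [this, det_list_prod vs hv]
  rw [h4]
  show Even (m - Module.finrank F (U0 m F ⊓ imgOf (lp (plusQF m F) vs).1 (U0 m F) : Submodule F _)) ↔ _
  have hne : (-1 : F) ≠ 1 := by
    intro h
    apply h2
    linear_combination -h
  rw [neg_one_pow_eq_one_iff_even hne, Nat.even_iff, Nat.even_iff]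
  omega


/-- For the hyperbolic form Σ x_i y_i on F^(2m) over a finite field of odd order (m ≥ 1), an isometry g preserves the class of the maximal totally singular subspace U₀ = {y = 0} (that is, m − dim(U₀ ∩ gU₀) is even) if and only if det g = 1: the stabiliser of each of the two classes of maximal totally singular subspaces is SO. -/
theorem result {F : Type*} [Field F] [Fintype F] (h2 : (2 : F) ≠ 0) {m : ℕ} (hm : 1 ≤ m) (g : ↥(Cfsg.isometryGroup F (Cfsg.quadFormPlus m F))) : Even (m - Module.finrank F ↥(LinearMap.ker (LinearMap.funLeft F F (Sum.inr : Fin m → Fin m ⊕ Fin m)) ⊓ (LinearMap.ker (LinearMap.funLeft F F (Sum.inr : Fin m → Fin m ⊕ Fin m))).map (Matrix.mulVecLin ((g : Matrix.GeneralLinearGroup (Fin m ⊕ Fin m) F) : Matrix (Fin m ⊕ Fin m) (Fin m ⊕ Fin m) F)))) ↔ ((g : Matrix.GeneralLinearGroup (Fin m ⊕ Fin m) F) : Matrix (Fin m ⊕ Fin m) (Fin m ⊕ Fin m) F).det = 1 := by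
  revert g
  rw [← coe_plusQF m]
  intro g
  exact aux h2 g

end Cfsg.Agent.S2629
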