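import Cfsg.Statements.S2630
import Mathlib
import Cfsg.Agent.Lib.Spinor.Plus

set_option autoImplicit false
open Cfsg

namespace Cfsg.Agent.S2630

open Cfsg.Agent.Lib.Spinor Cfsg.Agent.Lib.ClassMax.OmegaCore Cfsg.Agent.Lib.Quad

theorem aux {F : Type*} [Field F] [Fintype F] [CharP F 2] {m : ℕ} (h : Fintype.card F ≠ 2 ∨ m ≠ 2) (g : OG (plusQF m F)) :
    Even (m - Module.finrank F ↥(LinearMap.ker (LinearMap.funLeft F F (Sum.inr : Fin m → Fin m ⊕ Fin m)) ⊓ (LinearMap.ker (LinearMap.funLeft F F (Sum.inr : Fin m → Fin m ⊕ Fin m))).map (Matrix.mulVecLin ((g : Matrix.GeneralLinearGroup (Fin m ⊕ Fin m) F) : Matrix (Fin m ⊕ Fin m) (Fin m ⊕ Fin m) F)))) ↔ g ∈ Cfsg.Omega F ⇑(plusQF m F) := by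
  have hq : Fintype.card F ≠ 2 ∨ Fintype.card (Fin m ⊕ Fin m) ≠ 4 := by
    rcases h with h | h
    · exact Or.inl h
    · refine Or.inr ?_
      simp only [Fintype.card_sum, Fintype.card_fin]
      omega
  have hnd := plusQF_nondeg (F := F) m
  have hsq : ∀ a : F, IsSquare a := FiniteField.isSquare_of_char_two (CharP.ringChar_of_prime_eq_zero Nat.prime_two (by exact_mod_cast CharTwo.two_eq_zero))
  obtain ⟨vs, hv, rfl⟩ := exists_lp hnd hq g
  have h1 := par_lp hnd (U0_maxTS (F := F) m) hv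
  rw [finrank_U0] at h1
  have h3 : Module.finrank F (U0 m F ⊓ imgOf (lp (plusQF m F) vs).1 (U0 m F) : Submodule F _) ≤ m := by
    calc _ ≤ Module.finrank F (U0 m F) := Submodule.finrank_mono inf_le_left
      _ = m := finrank_U0 m
  rw [lp_mem_omega_iff hnd hq hv]
  show Even (m - Module.finrank F (U0 m F ⊓ imgOf (lp (plusQF m F) vs).1 (U0 m F) : Submodule F _)) ↔ _
  have h5 : (Even vs.length ∧ IsSquare (nm (plusQF m F) vs)) ↔ Even vs.length :=
    ⟨fun h => h.1, fun h => ⟨h, hsq _⟩⟩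
  rw [h5, Nat.even_iff, Nat.even_iff]
  omega


/-- For the hyperbolic form Σ x_i y_i on F^(2m) over a finite field of characteristic two (m ≥ 1, excluding m = 2 over the field of two elements), an isometry g preserves the class of the maximal totally singular subspace U₀ = {y = 0} (m − dim(U₀ ∩ gU₀) even) if and only if g lies in Ω (the commutator subgroup of the orthogonal group): the stabiliser of each class is Ω. -/
theorem result {F : Type*} [Field F] [Fintype F] [CharP F 2] {m : ℕ} (hm : 1 ≤ m) (h : Fintype.card F ≠ 2 ∨ m ≠ 2) (g : ↥(Cfsg.isometryGroup F (Cfsg.quadFormPlus m F))) : Even (m - Module.finrank F ↥(LinearMap.ker (LinearMap.funLeft F F (Sum.inr : Fin m → Fin m ⊕ Fin m)) ⊓ (LinearMap.ker (LinearMap.funLeft F F (Sum.inr : Fin m → Fin m ⊕ Fin m))).map (Matrix.mulVecLin ((g : Matrix.GeneralLinearGroup (Fin m ⊕ Fin m) F) : Matrix (Fin m ⊕ Fin m) (Fin m ⊕ Fin m) F)))) ↔ g ∈ Cfsg.Omega F (Cfsg.quadFormPlus m F) := by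
  revert g
  rw [← coe_plusQF m]
  intro g
  exact aux h g

end Cfsg.Agent.S2630
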