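import Cfsg.Statements.S2631
import Mathlib
import Cfsg.Agent.Lib.Spinor.Trans

set_option autoImplicit false
open Cfsg

namespace Cfsg.Agent.S2631

open Cfsg.Agent.Lib.Spinor Cfsg.Agent.Lib.ClassMax.OmegaCore Matrix Cfsg.Agent.Lib.Quad

theorem aux {F : Type*} [Field F] [Fintype F] {m : ℕ} (hm : 1 ≤ m) (h : Fintype.card F ≠ 2 ∨ m ≠ 2) (U W : Submodule F (Fin m ⊕ Fin m → F)) (hU : Module.finrank F U = m) (hW : Module.finrank F W = m) (hU0 : ∀ u ∈ U, plusQF m F u = 0) (hW0 : ∀ w ∈ W, plusQF m F w = 0) (he : Even (m - Module.finrank F ↥(U ⊓ W))) : ∃ g : OG (plusQF m F), g ∈ Cfsg.Omega F ⇑(plusQF m F) ∧ U.map (Matrix.mulVecLin (OG.mat g)) = W := by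
  have hq : Fintype.card F ≠ 2 ∨ Fintype.card (Fin m ⊕ Fin m) ≠ 4 := by
    rcases h with h | h
    · exact Or.inl h
    · refine Or.inr ?_
      simp only [Fintype.card_sum, Fintype.card_fin]
      omega
  have hQ := plusQF_nondeg (F := F) m
  obtain ⟨k₀, -, hk₀⟩ := exists_og_map hQ U W (LinearEquiv.ofFinrankEq U W (by rw [hU, hW])) (by
    intro x
    rw [hU0 x.1 x.2, hW0 _ (Subtype.coe_prop _)])
  obtain ⟨vs, hvs, rfl⟩ := exists_lp hQ hq k₀
  have hmax : IsMaxTS (⇑(plusQF m F)) U := ⟨hU0, by rw [hU, Fintype.card_sum, Fintype.card_fin]; ring⟩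
  have hpar := par_lp hQ hmax hvs
  have e1 : imgOf (lp (plusQF m F) vs).1 U = W := hk₀
  rw [e1, hU] at hpar
  have h3 : Module.finrank F ↥(U ⊓ W) ≤ m := by
    calc _ ≤ Module.finrank F U := Submodule.finrank_mono inf_le_left
      _ = m := hU
  have he2 : Even vs.length := by
    rw [Nat.even_iff] at he ⊢
    omega
  obtain ⟨u, hu, hu0⟩ : ∃ u ∈ U, u ≠ 0 := by
    apply Submodule.exists_mem_ne_zero_of_ne_bot
    rintro rfl
    rw [finrank_bot] at hU
    omega
  have hb : nm (plusQF m F) vs ≠ 0 := nm_ne_zero hvs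
  obtain ⟨a₁, a₂, h1, h2, h3', h4⟩ := exists_levi hQ hU0 hu hu0 hb
  obtain ⟨g, hg1, hg2⟩ := exists_omega_of_corr hQ (U := U) (cs := [a₁, a₂]) hvs (by
    intro v hv
    simp only [List.mem_cons, List.not_mem_nil, or_false] at hv
    rcases hv with rfl | rfl <;> assumption) (by
    simp only [List.length_cons, List.length_nil]
    exact he2.add (by decide)) (by
    have : nm (plusQF m F) [a₁, a₂] = nm (plusQF m F) vs := by simpa [nm] using h3'
    rw [this]
    exact ⟨_, rfl⟩) h4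
  exact ⟨g, hg1, hg2.trans hk₀⟩


/-- For the hyperbolic form Σ x_i y_i on F^(2m) over a finite field (m ≥ 1, excluding m = 2 over the field of two elements), Ω (the commutator subgroup of the orthogonal group) acts transitively on each of the two classes of maximal totally singular subspaces: if U and W are m-dimensional totally singular subspaces with m − dim(U ∩ W) even, some element of Ω carries U to W. -/
theorem result {F : Type*} [Field F] [Fintype F] {m : ℕ} (hm : 1 ≤ m) (h : Fintype.card F ≠ 2 ∨ m ≠ 2) (U W : Submodule F (Fin m ⊕ Fin m → F)) (hU : Module.finrank F U = m) (hW : Module.finrank F W = m) (hU0 : ∀ u ∈ U, Cfsg.quadFormPlus m F u = 0) (hW0 : ∀ w ∈ W, Cfsg.quadFormPlus m F w = 0) (he : Even (m - Module.finrank F ↥(U ⊓ W))) : ∃ g : ↥(Cfsg.isometryGroup F (Cfsg.quadFormPlus m F)), g ∈ Cfsg.Omega F (Cfsg.quadFormPlus m F) ∧ U.map (Matrix.mulVecLin ((g : Matrix.GeneralLinearGroup (Fin m ⊕ Fin m) F) : Matrix (Fin m ⊕ Fin m) (Fin m ⊕ Fin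 m) F)) = W := by
  revert hU0 hW0
  rw [← coe_plusQF m]
  intro hU0 hW0
  exact aux hm h U W hU hW hU0 hW0 he

end Cfsg.Agent.S2631
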