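import Cfsg.Statements.S2632
import Mathlib
import Cfsg.Agent.Lib.Spinor.Trans

set_option autoImplicit false
open Cfsg

namespace Cfsg.Agent.S2632

open Cfsg.Agent.Lib.Spinor Cfsg.Agent.Lib.ClassMax.OmegaCore Matrix


/-- Ω is transitive on non-degenerate subspaces of each isometry type: for a quadratic form Q on F^n, n ≥ 3, with non-degenerate polar form (F finite; excluding dimension 4 over the field of two elements), if U and W are subspaces on which the polar form is non-degenerate and there is a Q-preserving linear isomorphism U → W, then some element of Ω (the commutator subgroup of the orthogonal group) carries U to W. (In dimension 2 this fails: Ω can be {±1}, which fixes every line.) -/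
theorem result {F : Type*} [Field F] [Fintype F] {n : ℕ} (hn : 3 ≤ n) (h : Fintype.card F ≠ 2 ∨ n ≠ 4) (Q : QuadraticForm F (Fin n → F)) (hQ : (QuadraticMap.polarBilin Q).Nondegenerate) (U W : Submodule F (Fin n → F)) (hU : U ⊓ LinearMap.BilinForm.orthogonal (QuadraticMap.polarBilin Q) U = ⊥) (hW : W ⊓ LinearMap.BilinForm.orthogonal (QuadraticMap.polarBilin Q) W = ⊥) (e : U ≃ₗ[F] W) (he : ∀ u : U, Q (e u : Fin n → F) = Q (u : Fin n → F)) : ∃ g : ↥(Cfsg.isometryGroup F ⇑Q), g ∈ Cfsg.Omega F ⇑Q ∧ U.map (Matrix.mulVecLin ((g : Matrix.GeneralLinearGroup (Fin n) F) : Matrix (Fin n) (Fin n) F)) = W := by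
  have hq : Fintype.card F ≠ 2 ∨ Fintype.card (Fin n) ≠ 4 := by simpa using h
  obtain ⟨k₀, -, hk₀⟩ := exists_og_map hQ U W (e.trans (LinearEquiv.ofEq W W rfl)) (by
    intro x
    exact he x)
  obtain ⟨vs, hvs, rfl⟩ := exists_lp hQ hq k₀
  have hb : nm Q vs ≠ 0 := nm_ne_zero hvs
  -- a subspace `Y` of dimension at least two all of whose reflections stabilise `U`
  let P := LinearMap.BilinForm.orthogonal (QuadraticMap.polarBilin Q) U
  have hrefl : (QuadraticMap.polarBilin Q).IsRefl := by
    intro x y hxy
    have : QuadraticMap.polar (⇑Q) y x = QuadraticMap.polar (⇑Q) x y := QuadraticMap.polar_comm _ _ _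
    show QuadraticMap.polar (⇑Q) y x = 0
    rw [this]
    exact hxy
  have hdim : Module.finrank F P + Module.finrank F U = n := by
    have h1 := LinearMap.BilinForm.finrank_orthogonal hQ U
    have h2 := Submodule.finrank_le U
    simp only [Module.finrank_fintype_fun_eq_card, Fintype.card_fin] at h1 h2
    show Module.finrank F (LinearMap.BilinForm.orthogonal (QuadraticMap.polarBilin Q) U) + _ = n
    omega
  obtain ⟨Y, hY, hd, hst⟩ : ∃ Y : Submodule F (Fin n → F),
      (∀ y ∈ Y, (∀ z ∈ Y, QuadraticMap.polar (⇑Q) z y = 0) → y = 0) ∧ 2 ≤ Module.finrank F Y ∧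
      ∀ y ∈ Y, y ∈ U ∨ ∀ x ∈ U, QuadraticMap.polar (⇑Q) y x = 0 := by
    by_cases h2 : 2 ≤ Module.finrank F U
    · refine ⟨U, ?_, h2, fun y hy => Or.inl hy⟩
      intro y hy hz
      have : y ∈ U ⊓ LinearMap.BilinForm.orthogonal (QuadraticMap.polarBilin Q) U :=
        ⟨hy, LinearMap.BilinForm.mem_orthogonal_iff.2 (fun z hz' => hz z hz')⟩
      rw [hU] at this
      simpa using this
    · refine ⟨P, ?_, by omega, fun y hy => Or.inr (fun x hx => ?_)⟩
      · intro y hy hz
        have h3 : y ∈ LinearMap.BilinForm.orthogonal (QuadraticMap.polarBilin Q) P :=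
          LinearMap.BilinForm.mem_orthogonal_iff.2 (fun z hz' => hz z hz')
        rw [LinearMap.BilinForm.orthogonal_orthogonal hQ hrefl] at h3
        have : y ∈ U ⊓ LinearMap.BilinForm.orthogonal (QuadraticMap.polarBilin Q) U := ⟨h3, hy⟩
        rw [hU] at this
        simpa using this
      · rw [QuadraticMap.polar_comm]
        exact (LinearMap.BilinForm.mem_orthogonal_iff.1 hy) x hx
  have hfinal : ∃ g : OG Q, g ∈ Cfsg.Omega F ⇑Q ∧ U.map (Matrix.mulVecLin (OG.mat g)) = U.map (Matrix.mulVecLin (OG.mat (lp Q vs))) := by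
    obtain ⟨y₁, hy₁, hQy₁⟩ := exists_val_sub hY hd hb
    have hy₁0 : Q y₁ ≠ 0 := by rw [hQy₁]; exact hb
    by_cases he' : Even vs.length
    · obtain ⟨y₂, hy₂, hQy₂⟩ := exists_val_sub hY hd (one_ne_zero (α := F))
      have hy₂0 : Q y₂ ≠ 0 := by rw [hQy₂]; exact one_ne_zero
      refine exists_omega_of_corr hQ (cs := [y₁, y₂]) hvs ?_ ?_ ?_ ?_
      · intro v hv
        simp only [List.mem_cons, List.not_mem_nil, or_false] at hv
        rcases hv with rfl | rfl <;> assumption
      · simp only [List.length_cons, List.length_nil]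
        exact he'.add (by decide)
      · have : nm Q [y₁, y₂] = nm Q vs := by simp [nm, hQy₁, hQy₂]
        rw [this]
        exact ⟨_, rfl⟩
      · intro x hx
        have e : OG.mat (lp Q [y₁, y₂]) = rr Q y₁ * rr Q y₂ := by
          rw [lp_mat]
          · simp
          · intro v hv
            simp only [List.mem_cons, List.not_mem_nil, or_false] at hv
            rcases hv with rfl | rfl <;> assumption
        rw [e, ← mulVec_mulVec]
        exact refl_stab hy₁0 (hst y₁ hy₁) _ (refl_stab hy₂0 (hst y₂ hy₂) _ hx)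
    · refine exists_omega_of_corr hQ (cs := [y₁]) hvs ?_ ?_ ?_ ?_
      · intro v hv
        simp only [List.mem_cons, List.not_mem_nil, or_false] at hv
        rcases hv with rfl
        assumption
      · simp only [List.length_cons, List.length_nil]
        exact (Nat.not_even_iff_odd.1 he').add_one
      · have : nm Q [y₁] = nm Q vs := by simp [nm, hQy₁]
        rw [this]
        exact ⟨_, rfl⟩
      · intro x hx
        have e : OG.mat (lp Q [y₁]) = rr Q y₁ := by
          rw [lp_mat]
          · simp
          · intro v hv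
            simp only [List.mem_cons, List.not_mem_nil, or_false] at hv
            rcases hv with rfl
            assumption
        rw [e]
        exact refl_stab hy₁0 (hst y₁ hy₁) _ hx
  obtain ⟨g, hg1, hg2⟩ := hfinal
  exact ⟨g, hg1, hg2.trans hk₀⟩

end Cfsg.Agent.S2632
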