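import Cfsg.Statements.S2633
import Mathlib
import Cfsg.Agent.Lib.Spinor.Trans

set_option autoImplicit false
open Cfsg

namespace Cfsg.Agent.S2633

open Cfsg.Agent.Lib.Spinor Cfsg.Agent.Lib.ClassMax.OmegaCore Matrix


/-- Ω is transitive on totally singular subspaces of each dimension less than half the dimension: for a quadratic form Q on F^n with non-degenerate polar form (F finite; excluding dimension 4 over the field of two elements), if U and W are subspaces of the same dimension k with 2k < n on which Q vanishes, then some element of Ω (the commutator subgroup of the orthogonal group) carries U to W. -/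
theorem result {F : Type*} [Field F] [Fintype F] {n : ℕ} (h : Fintype.card F ≠ 2 ∨ n ≠ 4) (Q : QuadraticForm F (Fin n → F)) (hQ : (QuadraticMap.polarBilin Q).Nondegenerate) (U W : Submodule F (Fin n → F)) {k : ℕ} (hk : 2 * k < n) (hU : Module.finrank F U = k) (hW : Module.finrank F W = k) (hU0 : ∀ u ∈ U, Q u = 0) (hW0 : ∀ w ∈ W, Q w = 0) : ∃ g : ↥(Cfsg.isometryGroup F ⇑Q), g ∈ Cfsg.Omega F ⇑Q ∧ U.map (Matrix.mulVecLin ((g : Matrix.GeneralLinearGroup (Fin n) F) : Matrix (Fin n) (Fin n) F)) = W := by
  have hq : Fintype.card F ≠ 2 ∨ Fintype.card (Fin n) ≠ 4 := by simpa using h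
  obtain ⟨k₀, -, hk₀⟩ := exists_og_map hQ U W (LinearEquiv.ofFinrankEq U W (by rw [hU, hW])) (by
    intro x
    rw [hU0 x.1 x.2, hW0 _ (Subtype.coe_prop _)])
  obtain ⟨vs, hvs, rfl⟩ := exists_lp hQ hq k₀
  by_cases hk0 : k = 0
  · subst hk0
    have h1 : U = ⊥ := by
      rw [← Submodule.finrank_eq_zero]
      exact hU
    have h2 : W = ⊥ := by
      rw [← Submodule.finrank_eq_zero]
      exact hW
    refine ⟨1, Subgroup.one_mem _, ?_⟩
    rw [h1, h2]
    simp
  obtain ⟨u, hu, hu0⟩ : ∃ u ∈ U, u ≠ 0 := by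
    apply Submodule.exists_mem_ne_zero_of_ne_bot
    rintro rfl
    apply hk0
    rw [← hU, finrank_bot]
  obtain ⟨w, hw, hw0⟩ := exists_nonsing_perp hQ (U := U) (by simpa [hU] using hk) hU0
  have hb : nm Q vs ≠ 0 := nm_ne_zero hvs
  have hfinal : ∃ g : OG Q, g ∈ Cfsg.Omega F ⇑Q ∧ U.map (Matrix.mulVecLin (OG.mat g)) = U.map (Matrix.mulVecLin (OG.mat (lp Q vs))) := by
    by_cases he : Even vs.length
    · obtain ⟨a₁, a₂, h1, h2, h3, h4⟩ := exists_levi hQ hU0 hu hu0 hb
      refine exists_omega_of_corr hQ (cs := [a₁, a₂]) hvs ?_ ?_ ?_ h4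
      · intro v hv
        simp only [List.mem_cons, List.not_mem_nil, or_false] at hv
        rcases hv with rfl | rfl <;> assumption
      · simp only [List.length_cons, List.length_nil]
        exact he.add (by decide)
      · have : nm Q [a₁, a₂] = nm Q vs := by simpa [nm] using h3
        rw [this]
        exact ⟨_, rfl⟩
    · obtain ⟨a₁, a₂, h1, h2, h3, h4⟩ := exists_levi hQ hU0 hu hu0 (mul_ne_zero hb hw)
      refine exists_omega_of_corr hQ (cs := [w, a₁, a₂]) hvs ?_ ?_ ?_ ?_
      · intro v hv
        simp only [List.mem_cons, List.not_mem_nil, or_false] at hv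
        rcases hv with rfl | rfl | rfl <;> assumption
      · simp only [List.length_cons, List.length_nil]
        have := Nat.not_even_iff_odd.1 he
        obtain ⟨r, hr⟩ := this
        exact ⟨r + 2, by omega⟩
      · have : nm Q [w, a₁, a₂] = Q w * (nm Q vs * Q w) := by
          rw [← h3]
          simp [nm]
        rw [this]
        exact ⟨nm Q vs * Q w, by ring⟩
      · intro y hy
        have e : OG.mat (lp Q [w, a₁, a₂]) = rr Q w * OG.mat (lp Q [a₁, a₂]) := by
          rw [lp_cons]
          show OG.mat (rO Q w) * _ = _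
          rw [rO_mat hw]
        rw [e, ← mulVec_mulVec]
        exact refl_stab hw (Or.inr hw0) _ (h4 y hy)
  obtain ⟨g, hg1, hg2⟩ := hfinal
  exact ⟨g, hg1, hg2.trans hk₀⟩

end Cfsg.Agent.S2633
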