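import Cfsg.Statements.S2634
import Mathlib
import Cfsg.Agent.Lib.Spinor.Trans

set_option autoImplicit false
open Cfsg

namespace Cfsg.Agent.S2634

open Cfsg.Agent.Lib.Spinor Cfsg.Agent.Lib.ClassMax.OmegaCore Matrix


/-- Over a finite field of characteristic two, Ω (the commutator subgroup of the orthogonal group of a quadratic form Q on F^n with non-degenerate polar form; excluding dimension 4 over the field of two elements) acts transitively on the non-singular 1-spaces: for u, v with Q(u) ≠ 0 and Q(v) ≠ 0 some element of Ω carries the line through u to the line through v. -/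
theorem result {F : Type*} [Field F] [Fintype F] [CharP F 2] {n : ℕ} (h : Fintype.card F ≠ 2 ∨ n ≠ 4) (Q : QuadraticForm F (Fin n → F)) (hQ : (QuadraticMap.polarBilin Q).Nondegenerate) (u v : Fin n → F) (hu : Q u ≠ 0) (hv : Q v ≠ 0) : ∃ g : ↥(Cfsg.isometryGroup F ⇑Q), g ∈ Cfsg.Omega F ⇑Q ∧ (F ∙ ((g : Matrix.GeneralLinearGroup (Fin n) F) : Matrix (Fin n) (Fin n) F).mulVec u) = F ∙ v := by
  have hq : Fintype.card F ≠ 2 ∨ Fintype.card (Fin n) ≠ 4 := by simpa using h
  have hsq : ∀ a : F, IsSquare a := FiniteField.isSquare_of_char_two (CharP.ringChar_of_prime_eq_zero Nat.prime_two (by exact_mod_cast CharTwo.two_eq_zero))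
  obtain ⟨a, ha⟩ := hsq (Q u)
  obtain ⟨b, hb⟩ := hsq (Q v)
  have ha0 : a ≠ 0 := by
    rintro rfl
    exact hu (by rw [ha, mul_zero])
  have hb0 : b ≠ 0 := by
    rintro rfl
    exact hv (by rw [hb, mul_zero])
  obtain ⟨u', hu', hQu'⟩ : ∃ u', u = a • u' ∧ Q u' = 1 := by
    refine ⟨a⁻¹ • u, by rw [smul_smul, mul_inv_cancel₀ ha0, one_smul], ?_⟩
    rw [QuadraticMap.map_smul, ha, smul_eq_mul]
    field_simp
  obtain ⟨v', hv', hQv'⟩ : ∃ v', v = b • v' ∧ Q v' = 1 := by
    refine ⟨b⁻¹ • v, by rw [smul_smul, mul_inv_cancel₀ hb0, one_smul], ?_⟩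
    rw [QuadraticMap.map_smul, hb, smul_eq_mul]
    field_simp
  have hu0 : u' ≠ 0 := by
    intro h0
    rw [h0, QuadraticMap.map_zero] at hQu'
    exact zero_ne_one hQu'
  have hv0 : v' ≠ 0 := by
    intro h0
    rw [h0, QuadraticMap.map_zero] at hQv'
    exact zero_ne_one hQv'
  obtain ⟨k, hku⟩ := exists_og_map_vec hQ (by rw [hQu', hQv']) hu0 hv0
  obtain ⟨vs, hvs, rfl⟩ := exists_lp hQ hq k
  have hr : rr Q u' *ᵥ u' = u' := by
    rw [rr, Cfsg.Agent.Lib.Classical.reflection_v Q u' (by rw [hQu']; exact one_ne_zero)]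
    ext i
    exact CharTwo.neg_eq _
  obtain ⟨g, hg1, hg2⟩ : ∃ g : OG Q, g ∈ Cfsg.Omega F ⇑Q ∧ OG.mat g *ᵥ u' = v' := by
    by_cases he : Even vs.length
    · exact ⟨_, lp_mem_omega hQ hvs he (hsq _), hku⟩
    · refine ⟨lp Q (vs ++ [u']), lp_mem_omega hQ ?_ ?_ (hsq _), ?_⟩
      · intro w hw
        rcases List.mem_append.1 hw with h | h
        · exact hvs w h
        · rw [List.mem_singleton] at h
          rw [h, hQu']
          exact one_ne_zero
      · rw [List.length_append, List.length_singleton]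
        exact (Nat.not_even_iff_odd.1 he).add_one
      · have e : OG.mat (lp Q (vs ++ [u'])) = OG.mat (lp Q vs) * rr Q u' := by
          rw [lp_append]
          show OG.mat (lp Q vs) * OG.mat (lp Q [u']) = _
          rw [lp_mat (vs := [u']) (by
            intro w hw
            rw [List.mem_singleton] at hw
            rw [hw, hQu']
            exact one_ne_zero)]
          simp
        rw [e, ← mulVec_mulVec, hr, hku]
  refine ⟨g, hg1, ?_⟩
  have e3 : OG.mat g *ᵥ u = a • v' := by
    rw [hu', mulVec_smul, hg2]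
  show (F ∙ (OG.mat g *ᵥ u)) = F ∙ v
  rw [e3, hv', Submodule.span_singleton_smul_eq (IsUnit.mk0 a ha0), Submodule.span_singleton_smul_eq (IsUnit.mk0 b hb0)]

end Cfsg.Agent.S2634
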