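import Cfsg.Statements.S2635
import Mathlib
import Cfsg.Agent.Lib.Spinor.Dickson

set_option autoImplicit false
open Cfsg

namespace Cfsg.Agent.S2635

open Cfsg.Agent.Lib.Spinor


/-- Over a finite field of characteristic two, for a quadratic form Q on F^n with non-degenerate polar form, n ≥ 2, other than dimension 4 over the field of two elements, Ω (the commutator subgroup of the orthogonal group) is exactly the subgroup generated by the products of two reflections (orthogonal transvections) x ↦ x − Q(v)⁻¹ f(x, v) v, Q(v) ≠ 0: the products of an even number of reflections. -/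
theorem result {F : Type*} [Field F] [Fintype F] [CharP F 2] {n : ℕ} (hn : 2 ≤ n) (h : Fintype.card F ≠ 2 ∨ n ≠ 4) (Q : QuadraticForm F (Fin n → F)) (hQ : (QuadraticMap.polarBilin Q).Nondegenerate) : Cfsg.Omega F ⇑Q = Subgroup.closure {g : ↥(Cfsg.isometryGroup F ⇑Q) | ∃ u v : Fin n → F, Q u ≠ 0 ∧ Q v ≠ 0 ∧ ((g : Matrix.GeneralLinearGroup (Fin n) F) : Matrix (Fin n) (Fin n) F) = Cfsg.reflectionMatrix ⇑Q u * Cfsg.reflectionMatrix ⇑Q v} := by
  have hq : Fintype.card F ≠ 2 ∨ Fintype.card (Fin n) ≠ 4 := by simpa using h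
  have hsq : ∀ a : F, IsSquare a := FiniteField.isSquare_of_char_two (CharP.ringChar_of_prime_eq_zero Nat.prime_two (by exact_mod_cast CharTwo.two_eq_zero))
  apply le_antisymm
  · rw [omega_eq_epsSub hQ hq]
    rintro _ ⟨vs, hv, rfl, he, -⟩
    have key : ∀ (k : ℕ) (vs : List (Fin n → F)), vs.length = 2 * k → (∀ v ∈ vs, Q v ≠ 0) → lp Q vs ∈ Subgroup.closure {g : ↥(Cfsg.isometryGroup F ⇑Q) | ∃ u v : Fin n → F, Q u ≠ 0 ∧ Q v ≠ 0 ∧ ((g : Matrix.GeneralLinearGroup (Fin n) F) : Matrix (Fin n) (Fin n) F) = Cfsg.reflectionMatrix ⇑Q u * Cfsg.reflectionMatrix ⇑Q v} := by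
      intro k
      induction k with
      | zero =>
        intro vs hl _
        have : vs = [] := List.length_eq_zero_iff.1 (by simpa using hl)
        rw [this, lp_nil]
        exact Subgroup.one_mem _
      | succ k ih =>
        intro vs hl hv
        match vs, hl, hv with
        | a :: b :: rest, hl, hv =>
          have h0 : lp Q (a :: b :: rest) = (rO Q a * rO Q b) * lp Q rest := by
            rw [lp_cons, lp_cons, mul_assoc]
          rw [h0]
          refine Subgroup.mul_mem _ (Subgroup.subset_closure ⟨a, b, hv a (by simp), hv b (by simp), ?_⟩)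
            (ih rest (by simp at hl; omega) (fun w hw => hv w (by simp [hw])))
          show OG.mat (rO Q a) * OG.mat (rO Q b) = _
          rw [rO_mat (hv a (by simp)), rO_mat (hv b (by simp))]
    obtain ⟨r, hr⟩ := he
    exact key r vs (by omega) hv
  · rw [Subgroup.closure_le]
    rintro g ⟨u, v, hu, hv, e⟩
    have e' : g = rO Q u * rO Q v := by
      apply OG.ext'
      show _ = OG.mat (rO Q u) * OG.mat (rO Q v)
      rw [rO_mat hu, rO_mat hv]
      exact e
    show g ∈ Cfsg.Omega F ⇑Q
    rw [e']
    exact rO_mul_mem_omega hQ hu hv (hsq _)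

end Cfsg.Agent.S2635
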