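import Cfsg.Statements.S2636
import Mathlib
import Cfsg.Agent.Lib.FieldAut.Basic

set_option autoImplicit false
open Cfsg

namespace Cfsg.Agent.S2636


/-- Centraliser of a field automorphism in PGL_n: let F be the field with q = q₀^r elements, σ a field automorphism of F of prime order r (so its fixed field has q₀ elements) and n ≥ 1. The invertible matrices g whose entrywise image under σ is a scalar multiple of g — those whose coset modulo scalars is fixed by σ — number (q − 1)/(q₀ − 1) · |GL_n(q₀)|; equivalently the centraliser in PGL_n(q) of the induced automorphism has the order of PGL_n(q₀). -/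
theorem result {F : Type*} [Field F] [Fintype F] {q₀ r n : ℕ} (hr : r.Prime) (hn : 1 ≤ n) (hF : Fintype.card F = q₀ ^ r) (σ : F ≃+* F) (hσ : orderOf σ = r) : Nat.card {g : GL (Fin n) F // ∃ c : F, c ≠ 0 ∧ (g : Matrix (Fin n) (Fin n) F).map σ = c • (g : Matrix (Fin n) (Fin n) F)} = (q₀ ^ r - 1) / (q₀ - 1) * ∏ i : Fin n, (q₀ ^ n - q₀ ^ (i : ℕ)) := by
  classical
  have hr0 : r ≠ 0 := hr.ne_zero
  set F₀ := Cfsg.Agent.Lib.FieldAut.fixedField σ with hF₀
  have hq₀ : Nat.card F₀ = q₀ := Cfsg.Agent.Lib.FieldAut.card_fixedField hr0 hF σ hσ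
  have : Fintype F₀ := Fintype.ofFinite _
  have hq₀' : Fintype.card F₀ = q₀ := by rw [← Nat.card_eq_fintype_card, hq₀]
  have hq₀2 : 2 ≤ q₀ := by
    rw [← hq₀']
    exact Fintype.one_lt_card
  let ι := Matrix.GeneralLinearGroup.map (n := Fin n) F₀.subtype
  have hιent : ∀ (g₀ : GL (Fin n) F₀) i j, (ι g₀ : Matrix (Fin n) (Fin n) F) i j = ((g₀ : Matrix (Fin n) (Fin n) F₀) i j : F) :=
    fun g₀ i j => rfl
  let scal := Matrix.GeneralLinearGroup.scalar (Fin n) (R := F)
  have hscal : ∀ (l : Fˣ) (M : GL (Fin n) F), ((scal l * M : GL (Fin n) F) : Matrix (Fin n) (Fin n) F) = (l : F) • (M : Matrix (Fin n) (Fin n) F) := by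
    intro l M
    show (Matrix.scalar (Fin n) (l : F)) * (M : Matrix (Fin n) (Fin n) F) = _
    ext i j
    simp [Matrix.scalar_apply, Matrix.diagonal_mul]
  let Θ : Fˣ × GL (Fin n) F₀ → GL (Fin n) F := fun p => scal p.1 * ι p.2
  -- nonzero entry
  have hent : ∀ M : GL (Fin n) F, ∃ i j, (M : Matrix (Fin n) (Fin n) F) i j ≠ 0 := by
    intro M
    by_contra hcon
    push Not at hcon
    have h0 : (M : Matrix (Fin n) (Fin n) F) = 0 := by
      ext i j
      exact hcon i j
    have h1 := (Matrix.isUnit_iff_isUnit_det _).1 M.isUnit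
    have : Nonempty (Fin n) := ⟨⟨0, by omega⟩⟩
    rw [h0, Matrix.det_zero] at h1
    exact not_isUnit_zero h1
  have hrange : Set.range Θ = {g : GL (Fin n) F | ∃ c : F, c ≠ 0 ∧ (g : Matrix (Fin n) (Fin n) F).map σ = c • (g : Matrix (Fin n) (Fin n) F)} := by
    ext g
    constructor
    · rintro ⟨⟨l, g₀⟩, rfl⟩
      refine ⟨σ l / l, div_ne_zero (by simp) l.ne_zero, ?_⟩
      show ((scal l * ι g₀ : GL (Fin n) F) : Matrix (Fin n) (Fin n) F).map σ = _ • ((scal l * ι g₀ : GL (Fin n) F) : Matrix (Fin n) (Fin n) F)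
      rw [hscal]
      ext i j
      simp only [Matrix.map_apply, Matrix.smul_apply, smul_eq_mul, map_mul, hιent]
      have h3 : σ ((g₀ : Matrix (Fin n) (Fin n) F₀) i j : F) = ((g₀ : Matrix (Fin n) (Fin n) F₀) i j : F) :=
        Cfsg.Agent.Lib.FieldAut.mem_fixedField.1 ((g₀ : Matrix (Fin n) (Fin n) F₀) i j).2
      rw [h3]
      have := l.ne_zero
      field_simp
    · rintro ⟨c, hc, hg⟩
      obtain ⟨i, j, hij⟩ := hent g
      set l₀ := (g : Matrix (Fin n) (Fin n) F) i j with hl₀
      have hσl : σ l₀ = c * l₀ := by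
        have := congrFun (congrFun hg i) j
        simpa using this
      let l : Fˣ := Units.mk0 l₀ hij
      let g' : GL (Fin n) F := scal l⁻¹ * g
      have hg' : (g' : Matrix (Fin n) (Fin n) F).map σ = (g' : Matrix (Fin n) (Fin n) F) := by
        simp only [g', hscal]
        ext a b
        have h3 := congrFun (congrFun hg a) b
        simp only [Matrix.map_apply, Matrix.smul_apply, smul_eq_mul] at h3
        simp only [Matrix.map_apply, Matrix.smul_apply, smul_eq_mul, map_mul, h3, l, Units.val_inv_eq_inv_val, Units.val_mk0, map_inv₀, hσl]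
        field_simp
      obtain ⟨g₀, hg₀⟩ := Cfsg.Agent.Lib.FieldAut.exists_GL_fixed σ g' hg'
      refine ⟨(l, g₀), ?_⟩
      show scal l * ι g₀ = g
      rw [show ι g₀ = g' from hg₀]
      simp only [g', ← mul_assoc, ← map_mul, mul_inv_cancel, map_one, one_mul]
  -- the fibres
  have hfib : ∀ p : Fˣ × GL (Fin n) F₀, Nat.card {x // Θ x = Θ p} = Fintype.card F₀ - 1 := by
    rintro ⟨l, g₀⟩
    rw [← Fintype.card_units, ← Nat.card_eq_fintype_card]
    symm
    let toF : F₀ˣ → Fˣ := Units.map F₀.subtype.toMonoidHom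
    have hsc₀ : ∀ (μ : F₀ˣ), ι (Matrix.GeneralLinearGroup.scalar (Fin n) μ * g₀) = scal (toF μ) * ι g₀ := by
      intro μ
      rw [map_mul]
      congr 1
      apply Units.ext
      refine Matrix.ext fun a b => ?_
      show (((Matrix.scalar (Fin n) (μ : F₀)) a b : F₀) : F) = (Matrix.scalar (Fin n) ((μ : F₀) : F)) a b
      simp only [Matrix.scalar_apply, Matrix.diagonal_apply]
      split_ifs <;> rfl
    refine Nat.card_congr (Equiv.ofBijective (fun μ : F₀ˣ => (⟨((toF μ)⁻¹ * l, Matrix.GeneralLinearGroup.scalar (Fin n) μ * g₀), ?_⟩ : {x // Θ x = Θ (l, g₀)})) ?_)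
    · show scal ((toF μ)⁻¹ * l) * ι (Matrix.GeneralLinearGroup.scalar (Fin n) μ * g₀) = scal l * ι g₀
      rw [hsc₀, map_mul]
      have hcomm : scal l * scal (toF μ) = scal (toF μ) * scal l := by
        rw [← map_mul, ← map_mul, mul_comm]
      calc scal (toF μ)⁻¹ * scal l * (scal (toF μ) * ι g₀) = scal (toF μ)⁻¹ * (scal l * scal (toF μ)) * ι g₀ := by group
        _ = scal (toF μ)⁻¹ * (scal (toF μ) * scal l) * ι g₀ := by rw [hcomm]
        _ = _ := by rw [← mul_assoc, ← map_mul, inv_mul_cancel, map_one, one_mul]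
    · constructor
      · intro μ ν hμν
        have h1 := congrArg (fun x => x.1.1) hμν
        simp only at h1
        have h2 : (toF μ)⁻¹ = (toF ν)⁻¹ := mul_right_cancel h1
        have h3 : toF μ = toF ν := inv_injective h2
        apply Units.ext
        apply Subtype.ext
        exact congrArg Units.val h3
      · rintro ⟨⟨l', g₁⟩, hx⟩
        -- the scalar `l'⁻¹ * l` lies in the fixed field
        obtain ⟨i, j, hij⟩ := hent (ι g₀)
        have hx' : (l' : F) • (ι g₁ : Matrix (Fin n) (Fin n) F) = (l : F) • (ι g₀ : Matrix (Fin n) (Fin n) F) := by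
          have h1 := congrArg (fun M : GL (Fin n) F => (M : Matrix (Fin n) (Fin n) F)) hx
          simp only [Θ, hscal] at h1
          exact h1
        have hentx : ∀ a b, (l' : F) * (ι g₁ : Matrix (Fin n) (Fin n) F) a b = (l : F) * (ι g₀ : Matrix (Fin n) (Fin n) F) a b := by
          intro a b
          have := congrFun (congrFun hx' a) b
          simpa using this
        set m₀ := (g₀ : Matrix (Fin n) (Fin n) F₀) i j with hm₀
        have hm₀ne : (m₀ : F) ≠ 0 := hij
        have hm₀ne' : m₀ ≠ 0 := fun h => hm₀ne (by rw [h]; rfl)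
        -- `μ = (g₁ i j) / (g₀ i j)`
        set m₁ := (g₁ : Matrix (Fin n) (Fin n) F₀) i j with hm₁
        have hrel : (l' : F) * (m₁ : F) = (l : F) * (m₀ : F) := hentx i j
        have hm₁ne : m₁ ≠ 0 := by
          intro h
          rw [h] at hrel
          simp only [ZeroMemClass.coe_zero, mul_zero] at hrel
          exact mul_ne_zero l.ne_zero hm₀ne hrel.symm
        let μ : F₀ˣ := Units.mk0 (m₁ / m₀) (div_ne_zero hm₁ne hm₀ne')
        have hμval : ((toF μ : Fˣ) : F) = (m₁ : F) / (m₀ : F) := by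
          simp [toF, μ]
        have hl : (toF μ)⁻¹ * l = l' := by
          apply Units.ext
          rw [Units.val_mul, Units.val_inv_eq_inv_val, hμval]
          have hm₁ne' : (m₁ : F) ≠ 0 := fun h => hm₁ne (Subtype.ext h)
          field_simp
          linear_combination -hrel
        refine ⟨μ, ?_⟩
        apply Subtype.ext
        apply Prod.ext
        · exact hl
        · show Matrix.GeneralLinearGroup.scalar (Fin n) μ * g₀ = g₁
          apply Units.ext
          refine Matrix.ext fun a b => ?_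
          show ((Matrix.scalar (Fin n) (μ : F₀)) * (g₀ : Matrix (Fin n) (Fin n) F₀)) a b = _
          simp only [Matrix.scalar_apply, Matrix.diagonal_mul]
          apply Subtype.ext
          have hab := hentx a b
          simp only [hιent] at hab
          have hμ : ((μ : F₀) : F) = (m₁ : F) / (m₀ : F) := by
            simp [μ]
          show ((μ : F₀) : F) * (((g₀ : Matrix (Fin n) (Fin n) F₀) a b : F₀) : F) = _
          rw [hμ]
          have hl'' : (l' : F) ≠ 0 := l'.ne_zero
          have hlne : (l : F) ≠ 0 := l.ne_zero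
          have e1 : (m₁ : F) = (l : F) * (m₀ : F) / (l' : F) := by
            field_simp
            linear_combination hrel
          rw [e1]
          field_simp
          linear_combination -hab
  have hcard := Cfsg.Agent.Lib.FieldAut.card_eq_ncard_range_mul Θ _ hfib
  rw [Nat.card_prod, Nat.card_eq_fintype_card (α := Fˣ), Fintype.card_units, hF, Matrix.card_GL_field, hq₀', hrange] at hcard
  have hncard : Nat.card {g : GL (Fin n) F // ∃ c : F, c ≠ 0 ∧ (g : Matrix (Fin n) (Fin n) F).map σ = c • (g : Matrix (Fin n) (Fin n) F)} =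
      ({g : GL (Fin n) F | ∃ c : F, c ≠ 0 ∧ (g : Matrix (Fin n) (Fin n) F).map σ = c • (g : Matrix (Fin n) (Fin n) F)}).ncard := by
    rw [Set.ncard_eq_toFinset_card', Nat.card_eq_fintype_card, Fintype.card_subtype]
    congr 1
    ext g
    simp
  rw [hncard]
  obtain ⟨D, hD⟩ : q₀ - 1 ∣ q₀ ^ r - 1 := by
    have h2 : ((q₀ : ℤ) - 1) ∣ (q₀ : ℤ) ^ r - 1 := sub_one_dvd_pow_sub_one _ _
    have h3 : 1 ≤ q₀ ^ r := Nat.one_le_pow _ _ (by omega)
    have h4 : (((q₀ - 1 : ℕ) : ℤ)) ∣ ((q₀ ^ r - 1 : ℕ) : ℤ) := by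
      rw [Nat.cast_sub (by omega), Nat.cast_sub h3]
      push_cast
      exact h2
    exact Int.natCast_dvd_natCast.1 h4
  have hq₀1 : 0 < q₀ - 1 := by omega
  rw [hD, Nat.mul_div_cancel_left _ hq₀1]
  rw [hD] at hcard
  apply Nat.eq_of_mul_eq_mul_right hq₀1
  rw [← hcard]
  ring

end Cfsg.Agent.S2636
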