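import Cfsg.Statements.S2638
import Mathlib
import Cfsg.Agent.Lib.ElemOrders.Irred

set_option autoImplicit false
open Cfsg

namespace Cfsg.Agent.S2638


/-- If an element x of GL_n(q), n ≥ 1, has prime order r and the multiplicative order of q modulo r is n (r is a primitive prime divisor of q^n − 1, so x acts irreducibly), then the centraliser of x in GL_n(q) is cyclic of order q^n − 1 (the multiplicative group of the field with q^n elements, a Singer cycle). -/
theorem result {F : Type*} [Field F] [Fintype F] {p q : ℕ} [Fact p.Prime] [CharP F p] (hF : Fintype.card F = q) {n r : ℕ} (hn : 1 ≤ n) (hr : r.Prime) (hrp : r ≠ p) (hi : orderOf (q : ZMod r) = n) (x : GL (Fin n) F) (hx : orderOf x = r) : IsCyclic ↥(Subgroup.centralizer ({x} : Set (GL (Fin n) F))) ∧ Nat.card ↥(Subgroup.centralizer ({x} : Set (GL (Fin n) F))) = q ^ n - 1 := by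
  classical
  have hnonempty : Nonempty (Fin n) := ⟨⟨0, by omega⟩⟩
  have hrF : ((r : ℕ) : F) ≠ 0 := by
    intro h0
    have h1 := (CharP.cast_eq_zero_iff F p r).1 h0
    have hp : p.Prime := Fact.out
    exact hrp ((Nat.prime_dvd_prime_iff_eq hp hr).1 h1).symm
  set M : Matrix (Fin n) (Fin n) F := (x : Matrix (Fin n) (Fin n) F) with hM
  have hM1 : M ^ (r ^ 1) = 1 := by
    have h1 : x ^ r = 1 := by rw [← hx, pow_orderOf_eq_one]
    have h2 := congrArg (fun g : GL (Fin n) F => (g : Matrix (Fin n) (Fin n) F)) h1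
    simpa [hM] using h2
  have hM2 : M ^ (r ^ (1 - 1)) ≠ 1 := by
    intro h1
    have h2 : x = 1 := Units.ext (by simpa [hM] using h1)
    rw [h2, orderOf_one] at hx
    exact hr.one_lt.ne hx
  obtain ⟨f, hf, hfμ, hf1, hfn, hfd⟩ := Cfsg.Agent.Lib.ElemOrders.exists_irreducible_factor_minpoly M hr hrF (le_refl 1) hM1 hM2
  rw [hF, pow_one] at hfd
  have hq1 : 1 ≤ q ^ f.natDegree := by
    have : 0 < q := by rw [← hF]; exact Fintype.card_pos
    exact Nat.one_le_pow _ _ this
  have hzpow : ((q : ℕ) : ZMod r) ^ f.natDegree = 1 := by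
    have h1 : ((q ^ f.natDegree - 1 : ℕ) : ZMod r) = 0 := (ZMod.natCast_eq_zero_iff _ _).2 hfd
    rw [Nat.cast_sub hq1, Nat.cast_pow, Nat.cast_one, sub_eq_zero] at h1
    exact h1
  have hnd : n ∣ f.natDegree := by
    rw [← hi]
    exact orderOf_dvd_of_pow_eq_one hzpow
  have hdn : f.natDegree = n := Nat.le_antisymm hfn (Nat.le_of_dvd hf1 hnd)
  have hint : IsIntegral F M := Algebra.IsIntegral.isIntegral M
  have hμ0 : minpoly F M ≠ 0 := minpoly.ne_zero hint
  have hμn : (minpoly F M).natDegree ≤ n := by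
    have h1 : minpoly F M ∣ M.charpoly := Matrix.minpoly_dvd_charpoly M
    have h3 := Polynomial.natDegree_le_of_dvd h1 (Matrix.charpoly_monic M).ne_zero
    rwa [Matrix.charpoly_natDegree_eq_dim, Fintype.card_fin] at h3
  have hμdeg : (minpoly F M).natDegree = n := by
    apply Nat.le_antisymm hμn
    calc n = f.natDegree := hdn.symm
      _ ≤ _ := Polynomial.natDegree_le_of_dvd hfμ hμ0
  have hμirr : Irreducible (minpoly F M) := by
    obtain ⟨c, hc⟩ := hfμ
    have hc0 : c ≠ 0 := by
      rintro rfl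
      rw [mul_zero] at hc
      exact hμ0 hc
    have hcdeg : c.natDegree = 0 := by
      have h1 := congrArg Polynomial.natDegree hc
      rw [Polynomial.natDegree_mul hf.ne_zero hc0, hμdeg, hdn] at h1
      omega
    have hcu : IsUnit c := by
      rw [Polynomial.isUnit_iff_degree_eq_zero]
      rw [Polynomial.degree_eq_natDegree hc0, hcdeg]
      rfl
    rw [hc]
    exact (associated_mul_unit_right f c hcu).irreducible hf
  haveI : Fact (Irreducible (minpoly F M)) := ⟨hμirr⟩
  let E := AdjoinRoot (minpoly F M)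
  haveI : FiniteDimensional F E := (AdjoinRoot.powerBasis hμirr.ne_zero).finite
  haveI : Finite E := Module.finite_of_finite F
  haveI : Fintype E := Fintype.ofFinite E
  have hfinE : Module.finrank F E = n := (AdjoinRoot.powerBasis hμirr.ne_zero).finrank.trans (by
    rw [AdjoinRoot.powerBasis_dim, hμdeg])
  have hcardE : Fintype.card E = q ^ n := by
    rw [Module.card_eq_pow_finrank (K := F) (V := E), hfinE, hF]
  let ψ := Cfsg.Agent.Lib.ElemOrders.evalHom M
  have hψinj : Function.Injective ψ := (ψ : E →+* Matrix (Fin n) (Fin n) F).injective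
  let U : Eˣ →* GL (Fin n) F := Units.map (ψ : E →* Matrix (Fin n) (Fin n) F)
  have hUmem : ∀ u : Eˣ, U u ∈ Subgroup.centralizer ({x} : Set (GL (Fin n) F)) := by
    intro u
    rw [Subgroup.mem_centralizer_singleton_iff]
    apply Units.ext
    exact Cfsg.Agent.Lib.ElemOrders.evalHom_commute M u
  let Φ : Eˣ →* ↥(Subgroup.centralizer ({x} : Set (GL (Fin n) F))) := U.codRestrict _ hUmem
  have hΦinj : Function.Injective Φ := by
    intro u v huv
    have h1 : U u = U v := congrArg Subtype.val huv
    have h2 : ψ u = ψ v := congrArg (fun g : GL (Fin n) F => (g : Matrix (Fin n) (Fin n) F)) h1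
    exact Units.ext (hψinj h2)
  have hΦsurj : Function.Surjective Φ := by
    rintro ⟨y, hy⟩
    rw [Subgroup.mem_centralizer_singleton_iff] at hy
    have h1 : (y : Matrix (Fin n) (Fin n) F) * M = M * (y : Matrix (Fin n) (Fin n) F) :=
      congrArg (fun g : GL (Fin n) F => (g : Matrix (Fin n) (Fin n) F)) hy
    obtain ⟨e, he⟩ := Cfsg.Agent.Lib.ElemOrders.exists_evalHom_eq M hμirr hμdeg hn _ h1
    have he0 : e ≠ 0 := by
      rintro rfl
      rw [map_zero] at he
      have h2 : (y : Matrix (Fin n) (Fin n) F) * ((y⁻¹ : GL (Fin n) F) : Matrix (Fin n) (Fin n) F) = 1 := by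
        rw [← Units.val_mul, mul_inv_cancel]; rfl
      rw [he, zero_mul] at h2
      exact zero_ne_one h2
    refine ⟨Units.mk0 e he0, ?_⟩
    apply Subtype.ext
    apply Units.ext
    exact he.symm
  refine ⟨isCyclic_of_surjective Φ hΦsurj, ?_⟩
  rw [← Nat.card_congr (MulEquiv.ofBijective Φ ⟨hΦinj, hΦsurj⟩).toEquiv, Nat.card_eq_fintype_card,
    Fintype.card_units, hcardE]

end Cfsg.Agent.S2638
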