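import Cfsg.Statements.S2639
import Mathlib
import Cfsg.Agent.Lib.Embed.Field

set_option autoImplicit false
open Cfsg

namespace Cfsg.Agent.S2639

open Cfsg.Agent.Lib.Embed Matrix

/-- The unitary group embeds in the symplectic group of twice the dimension over the subfield: for a field K with q² elements and a field F with q elements (isomorphic to the subfield of K of order q), there is an injective homomorphism GU_m(q) → Sp_2m(F). -/
theorem result {K F : Type*} [Field K] [Fintype K] [Field F] [Fintype F] {q : ℕ} (hK : Fintype.card K = q ^ 2) (hF : Fintype.card F = q) (m : ℕ) : ∃ φ : ↥(Cfsg.GU m K q) →* ↥(Matrix.symplecticGroup (Fin m) F), Function.Injective φ := by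
  obtain ⟨alg, hfr⟩ := exists_algebra hK hF
  obtain ⟨δ, hδ0, hδ⟩ := exists_delta (F := F) hK hF
  let τ : ↥(Cfsg.GU m K q) →* Matrix (Fin m) (Fin m) K := (Units.coeHom _).comp (Cfsg.GU m K q).subtype
  have hτ : Function.Injective τ := fun a b h => Subtype.ext (Units.ext h)
  obtain ⟨Ψ, hΨ⟩ := exists_sp_equiv (trForm hF δ m) (trForm_alt hK hF hδ) (fun v hv => trForm_nondeg hK hF hδ0 v hv)
    (finrank_coord hK hF)
  refine exists_sp_embed (repOfHom F τ) (repOfHom_injective τ hτ) Ψ (fun u v => trForm hF δ m u v) hΨ ?_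
  intro g u v
  show trForm hF δ m (τ g *ᵥ u) (τ g *ᵥ v) = trForm hF δ m u v
  rw [trForm_apply, trForm_apply]
  congr 2
  exact g.2 u v

end Cfsg.Agent.S2639
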