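import Cfsg.Statements.S2640
import Mathlib
import Cfsg.Agent.Lib.Embed.Field

set_option autoImplicit false
open Cfsg

namespace Cfsg.Agent.S2640

open Cfsg.Agent.Lib.Embed Matrix

/-- For m even, the unitary group GU_m(q) (over the field with q² elements) embeds in the orthogonal group O⁺_2m(q) of the hyperbolic form Σ x_i y_i over the field with q elements (there is an injective homomorphism). -/
theorem result {K F : Type*} [Field K] [Fintype K] [Field F] [Fintype F] {q : ℕ} (hK : Fintype.card K = q ^ 2) (hF : Fintype.card F = q) (m : ℕ) (hm : Even m) : ∃ φ : ↥(Cfsg.GU m K q) →* ↥(Cfsg.isometryGroup F (Cfsg.quadFormPlus m F)), Function.Injective φ := by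
  obtain ⟨n, rfl⟩ := hm
  obtain ⟨alg, hfr⟩ := exists_algebra hK hF
  let τ : ↥(Cfsg.GU (n + n) K q) →* Matrix (Fin (n + n)) (Fin (n + n)) K := (Units.coeHom _).comp (Cfsg.GU (n + n) K q).subtype
  have hτ : Function.Injective τ := fun a b h => Subtype.ext (Units.ext h)
  obtain ⟨g, hg⟩ := exists_normSum_plus (F := F) hK hF n
  refine exists_isometry_embed (repOfHom F τ) (repOfHom_injective τ hτ) g.symm _ (normSum F (n + n)) ?_ ?_
  · intro v
    rw [hg, LinearEquiv.apply_symm_apply]
  · intro x u
    show normSum F (n + n) (τ x *ᵥ u) = normSum F (n + n) u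
    apply (algebraMap F K).injective
    rw [algebraMap_normSum hK hF, algebraMap_normSum hK hF]
    exact x.2 u u

end Cfsg.Agent.S2640
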