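import Cfsg.Statements.S2641
import Mathlib
import Cfsg.Agent.Lib.Embed.Field

set_option autoImplicit false
open Cfsg

namespace Cfsg.Agent.S2641

open Cfsg.Agent.Lib.Embed Matrix

/-- For m odd, the unitary group GU_m(q) (over the field with q² elements) embeds in the orthogonal group O⁻_2m(q) of an elliptic form (Σ_(i<m−1) x_i y_i plus an anisotropic binary form) over the field with q elements (there is an injective homomorphism). -/
theorem result {K F : Type*} [Field K] [Fintype K] [Field F] [Fintype F] {q : ℕ} (hK : Fintype.card K = q ^ 2) (hF : Fintype.card F = q) (m : ℕ) (hm : Odd m) (a b : F) (hab : ∀ z₁ z₂ : F, z₁ ^ 2 + a * z₁ * z₂ + b * z₂ ^ 2 = 0 → z₁ = 0 ∧ z₂ = 0) : ∃ φ : ↥(Cfsg.GU m K q) →* ↥(Cfsg.isometryGroup F (Cfsg.quadFormMinus (m - 1) F a b)), Function.Injective φ := by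
  obtain ⟨n, rfl⟩ : ∃ n, m = n + n + 1 := by
    obtain ⟨k, rfl⟩ := hm
    exact ⟨k, by ring⟩
  obtain ⟨alg, θ, hfr, hθ⟩ := exists_algebra_root hK hF a b hab
  obtain ⟨hne, h1, h2⟩ := theta_facts hK hF hab hθ
  let τ : ↥(Cfsg.GU (n + n + 1) K q) →* Matrix (Fin (n + n + 1)) (Fin (n + n + 1)) K :=
    (Units.coeHom _).comp (Cfsg.GU (n + n + 1) K q).subtype
  have hτ : Function.Injective τ := fun a b h => Subtype.ext (Units.ext h)
  obtain ⟨g, hg⟩ := exists_normSum_plus (F := F) hK hF n
  let S : ((Fin (n + n) ⊕ Fin (n + n)) ⊕ Fin 2 → F) →ₗ[F] (Fin (n + n + 1) → K) :=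
    { toFun := fun v => Fin.snoc (α := fun _ => K) (g.symm (fun i => v (.inl i)))
        (algebraMap F K (v (.inr 0)) - algebraMap F K (v (.inr 1)) * θ)
      map_add' := fun u v => by
        ext i
        refine Fin.lastCases ?_ (fun j => ?_) i
        · simp only [Pi.add_apply, Fin.snoc_last, map_add]
          ring
        · simp only [Pi.add_apply, Fin.snoc_castSucc]
          rw [show (fun i => u (.inl i) + v (.inl i)) = (fun i => u (.inl i)) + (fun i => v (.inl i)) from rfl, map_add]
          rfl
      map_smul' := fun c v => by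
        ext i
        refine Fin.lastCases ?_ (fun j => ?_) i
        · simp only [Pi.smul_apply, smul_eq_mul, RingHom.id_apply, Fin.snoc_last, map_mul, Algebra.smul_def]
          ring
        · simp only [Pi.smul_apply, smul_eq_mul, RingHom.id_apply, Fin.snoc_castSucc]
          rw [show (fun i => c * v (.inl i)) = c • (fun i => v (.inl i)) from rfl, map_smul]
          rfl }
  have hSlast : ∀ v, S v (Fin.last _) = algebraMap F K (v (.inr 0)) - algebraMap F K (v (.inr 1)) * θ :=
    fun v => Fin.snoc_last (α := fun _ => K) _ _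
  have hScast : ∀ v j, S v (Fin.castSucc j) = g.symm (fun i => v (.inl i)) j :=
    fun v j => Fin.snoc_castSucc (α := fun _ => K) _ _ _
  have hS : ∀ v, normSum F (n + n + 1) (S v) = Cfsg.quadFormMinus (n + n) F a b v := by
    intro v
    rw [normSum, Fin.sum_univ_castSucc, hSlast, norm_binary hK hF h1 h2]
    simp only [hScast]
    have h3 := hg (g.symm (fun i => v (.inl i)))
    rw [LinearEquiv.apply_symm_apply] at h3
    rw [normSum] at h3
    rw [h3, Cfsg.quadFormMinus, Cfsg.quadFormPlus]
  have hSinj : Function.Injective S := by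
    rw [injective_iff_map_eq_zero]
    intro v hv
    have h3 : (fun i => v (.inl i)) = 0 := by
      apply g.symm.injective
      rw [map_zero]
      ext j
      have := congrFun hv (Fin.castSucc j)
      rwa [hScast] at this
    have h4 : v (.inr 0) ^ 2 + a * v (.inr 0) * v (.inr 1) + b * v (.inr 1) ^ 2 = 0 := by
      rw [← norm_binary hK hF h1 h2, ← hSlast, hv]
      simp
    obtain ⟨h5, h6⟩ := hab _ _ h4
    ext i
    rcases i with i | i
    · exact congrFun h3 i
    · fin_cases i
      · exact h5
      · exact h6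
  have hfr' : Module.finrank F ((Fin (n + n) ⊕ Fin (n + n)) ⊕ Fin 2 → F) = Module.finrank F (Fin (n + n + 1) → K) := by
    rw [finrank_coord hK hF, Module.finrank_fintype_fun_eq_card]
    simp
    ring
  let Ψ := S.linearEquivOfInjective hSinj hfr'
  change ∃ φ : ↥(Cfsg.GU (n + n + 1) K q) →* ↥(Cfsg.isometryGroup F (Cfsg.quadFormMinus (n + n) F a b)), Function.Injective φ
  refine exists_isometry_embed (repOfHom F τ) (repOfHom_injective τ hτ) Ψ _ (normSum F (n + n + 1)) ?_ ?_
  · intro v
    exact hS v
  · intro x u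
    show normSum F (n + n + 1) (τ x *ᵥ u) = normSum F (n + n + 1) u
    apply (algebraMap F K).injective
    rw [algebraMap_normSum hK hF, algebraMap_normSum hK hF]
    exact x.2 u u

end Cfsg.Agent.S2641
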