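import Cfsg.Statements.S2646
import Cfsg.Agent.Lib.JordanForm.GUData

set_option autoImplicit false
open Cfsg

namespace Cfsg.Agent.S2646


/-- Order of the centraliser in the general unitary group GU_n(q) of a unipotent element of given Jordan type: if u ∈ GU_n(q) (isometries of Σ u_i v_i^q over the field with q² elements) is similar to the unipotent matrix with a_i Jordan blocks of size i (all sizes at least 1), then its centraliser in GU_n(q) has order q^γ · Π_i |GU_(a_i)(q)| with γ = 2 Σ_(i<j) i a_i a_j + Σ_i (i − 1) a_i², the same exponent as in GL_n(q), where |GU_a(q)| = q^(a(a−1)/2) Π_(k=1)^a (q^k − (−1)^k). -/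
theorem result {K : Type*} [Field K] [Fintype K] {q n t : ℕ} (hK : Fintype.card K = q ^ 2) (d : Fin t → ℕ) (hd : ∀ k, 1 ≤ d k) (e : ((k : Fin t) × Fin (d k)) ≃ Fin n) (u : ↥(Cfsg.GU n K q)) (hu : IsConj (Matrix.reindex e e (Cfsg.jordanTypeMatrix d K)) ((u : GL (Fin n) K) : Matrix (Fin n) (Fin n) K)) : (Nat.card ↥(Subgroup.centralizer ({u} : Set ↥(Cfsg.GU n K q))) : ℤ) = (q : ℤ) ^ (2 * (∑ i ∈ Finset.range (Finset.univ.sup d + 1), ∑ j ∈ Finset.range (Finset.univ.sup d + 1), if i < j then i * (Finset.univ.filter (fun k : Fin t => d k = i)).card * (Finset.univ.filter (fun k : Fin t => d k = j)).card else 0) + ∑ i ∈ Finset.range (Finset.univ.sup d + 1), (i - 1) * (Finset.univ.filter (fun k : Fin t => d k = i)).card ^ 2) * ∏ i ∈ Finset.range (Finset.univ.sup d + 1), ((q : ℤ) ^ ((Finset.univ.filter (fun k : Fin t => d k = i)).card * ((Finset.univ.filter (fun k : Fin t => d k = i)).card - 1) / 2) * ∏ j : Fin (Finset.univ.filter (fun k : Fin t => d k = i)).card, ((q : ℤ) ^ ((j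 : ℕ) + 1) - (-1) ^ ((j : ℕ) + 1))) := by
  classical
  obtain ⟨c, hc⟩ := hu
  have hc' : c.val * Matrix.reindex e e (Cfsg.Agent.Lib.JordanForm.JJ K d) = (u : GL (Fin n) K).val * c.val := hc
  have h1 := Cfsg.Agent.Lib.JordanForm.card_centralizer_eq hK e c u hc'
  have h2 := (Cfsg.Agent.Lib.JordanForm.mkData hK e c u.1 u.2 hc').main_count hd
  rw [h1, h2]
  have hq1 : 1 ≤ q := by
    have := Cfsg.Agent.Lib.Classical.two_le_q hK
    omega
  have hGU : ∀ a : ℕ, ((Nat.card (Cfsg.GU a K q) : ℕ) : ℤ) = (q : ℤ) ^ (a * (a - 1) / 2) *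
      ∏ j : Fin a, ((q : ℤ) ^ ((j : ℕ) + 1) - (-1) ^ ((j : ℕ) + 1)) := by
    intro a
    rw [Cfsg.Agent.Lib.Classical.card_gu hK a]
    push_cast
    congr 1
    rw [Fin.prod_univ_eq_prod_range (fun j => ((q : ℤ) ^ (j + 1) - (-1) ^ (j + 1))) a]
    apply Finset.prod_congr rfl
    intro i _
    by_cases h : Even i
    · rw [if_pos h]
      have : Odd (i + 1) := h.add_one
      rw [this.neg_one_pow]
      push_cast
      ring
    · rw [if_neg h]
      have h3 : 1 ≤ q ^ (i + 1) := Nat.one_le_pow _ _ (by omega)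
      have : Even (i + 1) := (Nat.not_even_iff_odd.1 h).add_one
      rw [this.neg_one_pow]
      push_cast [h3]
      ring
  push_cast
  simp only [hGU]

end Cfsg.Agent.S2646
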