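import Cfsg.Statements.S2664
import Cfsg.Agent.Lib.Chev.Sub.Fix
import Cfsg.Agent.Lib.Chev.Tab.G2b
-- import your own Cfsg.Agent.* helpers here

set_option autoImplicit false
open scoped MatrixGroups
open Cfsg

namespace Cfsg.Agent.S2664

/-- The inverse of the Cartan matrix. -/
def invC : List (List ℤ) := [[2,1],[3,2]]

theorem invC_spec : ∀ i, i < Cfsg.Lie.chevG2.rank → ∀ k, k < Cfsg.Lie.chevG2.rank →
    ((List.range Cfsg.Lie.chevG2.rank).map fun j => Cfsg.Lie.chevG2.cartan i (Cfsg.Lie.chevG2.simple j) *
      (invC.getD k []).getD j 0).sum = if i = k then 1 else 0 := by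
  decide +kernel


/-- Centralizers of field automorphisms of prime order, type G₂. Let `F` be a finite field and `G` the Chevalley group of type G₂ over `F` (for this type the group generated by the root elements is the whole group of rational points, with trivial centre). Let `φ` be a field automorphism of `G` (it sends each root element `x_s(t)` to `x_s(σ t)` for a fixed automorphism `σ` of `F`) whose order is a prime `r`. Then `F` has `q₀ ^ r` elements for some prime power `q₀`, and the subgroup of elements fixed by `φ` is isomorphic to the Chevalley group of type G₂ over a field with `q₀` elements. -/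
theorem result {F : Type*} [Field F] [Fintype F]
    (φ : MulAut ↥(Cfsg.Lie.chevG2.group F)) (hφ : Cfsg.Lie.chevG2.IsFieldAut φ) (r : ℕ) (hr : r.Prime) (ho : orderOf φ = r) :
    ∃ (F₀ : Type) (_ : Field F₀) (_ : Fintype F₀), Fintype.card F = Fintype.card F₀ ^ r ∧
      Nonempty (↥((MulEquiv.toMonoidHom φ).eqLocus (MonoidHom.id ↥(Cfsg.Lie.chevG2.group F))) ≃* ↥(Cfsg.Lie.chevG2.group F₀)) := by
  exact Cfsg.Agent.Lib.Chev.field_fix_main Cfsg.Agent.Lib.Chev.TabG2.good2 (by decide +kernel)
    (fun k j => (invC.getD k []).getD j 0) (fun i k hi hk => invC_spec i hi k hk) φ hφ r hr ho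

end Cfsg.Agent.S2664
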