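import Cfsg.Statements.S2665
import Mathlib
import Cfsg.Agent.Lib.Lang.Basic
import Cfsg.Agent.Lib.RegUnip.Cyclic

set_option autoImplicit false
open scoped MatrixGroups
open Cfsg

namespace Cfsg.Agent.S2665


/-- The Lang–Steinberg Theorem for the general linear group. Let `K` be an algebraically closed field of prime characteristic `p`, let `q = p^f` with `f ≥ 1`, and let `σ` be the endomorphism of GL_n(K) raising every matrix entry to the `q`-th power. Then every element `g` of GL_n(K) can be written `g = x · σ(x)⁻¹` for some `x` in GL_n(K): the map `x ↦ x σ(x)⁻¹` is surjective. -/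
theorem result {K : Type*} [Field K] [IsAlgClosed K] (p : ℕ) [Fact p.Prime] [CharP K p]
    (f : ℕ) (hf : 1 ≤ f) (n : ℕ) (g : GL (Fin n) K) :
    ∃ x : GL (Fin n) K, g = x * (Matrix.GeneralLinearGroup.map (iterateFrobenius K p f) x)⁻¹ := by
  classical
  set σ : K →+* K := iterateFrobenius K p f with hσdef
  set q : ℕ := p ^ f with hqdef
  have hpp : p.Prime := Fact.out
  have hσ : ∀ x, σ x = x ^ q := fun x => iterateFrobenius_def p f x
  have hqK : (q : K) = 0 := by
    rw [hqdef, Nat.cast_pow, CharP.cast_eq_zero K p, zero_pow (by omega)]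
  have hq : 2 ≤ q := by
    calc 2 ≤ p := hpp.two_le
      _ = p ^ 1 := (pow_one p).symm
      _ ≤ p ^ f := Nat.pow_le_pow_right hpp.pos hf
  have hsurj : Function.Surjective σ := by
    intro x
    obtain ⟨y, hy⟩ := IsAlgClosed.exists_pow_nat_eq x (n := q) (by omega)
    exact ⟨y, by rw [hσ, hy]⟩
  let φ : (Fin n → K) →ₛₗ[σ] (Fin n → K) :=
    { toFun := fun v => (g : Matrix (Fin n) (Fin n) K).mulVec (fun i => σ (v i))
      map_add' := by
        intro a b
        rw [← Matrix.mulVec_add]
        congr 1
        funext i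
        simp
      map_smul' := by
        intro c a
        rw [← Matrix.mulVec_smul]
        congr 1
        funext i
        simp }
  have hφapp : ∀ v, φ v = (g : Matrix (Fin n) (Fin n) K).mulVec (fun i => σ (v i)) := fun v => rfl
  have hφinj : Function.Injective φ := by
    intro a b hab
    rw [hφapp, hφapp] at hab
    have h1 := Matrix.mulVec_injective_of_isUnit g.isUnit hab
    funext i
    exact σ.injective (congrFun h1 i)
  have hspan := Cfsg.Agent.Lib.Lang.span_fixed_eq_top hσ hqK hq hsurj n (Fin n → K) φ (by simp) hφinj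
  obtain ⟨b, hbs, hbspan, hli⟩ := exists_linearIndependent K {x : Fin n → K | φ x = x}
  let B : Module.Basis b K (Fin n → K) := Module.Basis.mk hli (by
    rw [Subtype.range_coe, hbspan, hspan])
  have hB : ∀ i, φ (B i) = B i := by
    intro i
    rw [Module.Basis.mk_apply]
    exact hbs i.2
  let e : b ≃ Fin n := B.indexEquiv (Pi.basisFun K (Fin n))
  let E : (Fin n → K) ≃ₗ[K] (Fin n → K) := (Pi.basisFun K (Fin n)).equiv B e.symm
  let x : GL (Fin n) K := Cfsg.Agent.Lib.RegUnip.glOfEquiv E
  have hx : ∀ j, (x : Matrix (Fin n) (Fin n) K).mulVec (Pi.single j 1) = B (e.symm j) := by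
    intro j
    rw [Cfsg.Agent.Lib.RegUnip.glOfEquiv_mulVec]
    have h1 := (Pi.basisFun K (Fin n)).equiv_apply j B e.symm
    rw [Pi.basisFun_apply] at h1
    exact h1
  refine ⟨x, ?_⟩
  rw [eq_mul_inv_iff_mul_eq]
  apply Units.ext
  ext i j
  have h1 := hB (e.symm j)
  rw [← hx j, hφapp] at h1
  have h2 := congrFun h1 i
  have h3 : (fun k => σ (((x : Matrix (Fin n) (Fin n) K).mulVec (Pi.single j 1)) k)) = fun k => ((x : Matrix (Fin n) (Fin n) K).map σ) k j := by
    funext k
    simp
  have h4 : ((x : Matrix (Fin n) (Fin n) K).mulVec (Pi.single j 1)) i = (x : Matrix (Fin n) (Fin n) K) i j := by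
    simp
  rw [h3, h4] at h2
  simp only [Matrix.mulVec, dotProduct] at h2
  simp only [Units.val_mul, Matrix.mul_apply]
  simpa using h2

end Cfsg.Agent.S2665
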