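import Cfsg.Statements.S2666
import Cfsg.Agent.Lib.Shintani.Basic

set_option autoImplicit false
open Cfsg

namespace Cfsg.Agent.S2666


/-- Shintani descent, in an abstract form. Let `σ` be an automorphism of a group `X` such that the maps `a ↦ a·σ(a)⁻¹` and `a ↦ a·σᵉ(a)⁻¹` are surjective on `X` (the Lang–Steinberg property, which holds when `X` is a connected algebraic group and `σ` a Steinberg endomorphism), where `e ≥ 1`. Write `G` for the subgroup of fixed points of `σᵉ` and `H` for the subgroup of fixed points of `σ`. The `G`-conjugacy classes in the coset `G σ` of the semidirect product of `G` by `σ` correspond to the orbits of `G` on itself under twisted conjugation `g ↦ k g σ(k)⁻¹`, and the `e`-th power of `g σ` has `G`-part the norm `g σ(g) ⋯ σ^(e-1)(g)`. For `g` in `G` and any `a` with `g = a σ(a)⁻¹`, put `x = σᵉ(a)⁻¹ a`. Then: (1) `x` lies in `H`, and `a⁻¹ · (g σ(g) ⋯ σ^(e-1)(g)) · a = x`; (2)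 for `g, g'` in `G` with such elements `a, b` and `x, x'`, the elements `g, g'` are twisted-conjugate under `G` if and only if `x, x'` are conjugate in `H`; (3) every element of `H` arises as such an `x`. So `g ↦ x` induces a well-defined bijection from the twisted `G`-classes of `G` onto the conjugacy classes of `H` (the Shintani map). -/
theorem result {X : Type*} [Group X] (σ : MulAut X) (e : ℕ) (he : 1 ≤ e)
    (hL : ∀ g : X, ∃ a : X, g = a * (σ a)⁻¹) (hLe : ∀ g : X, ∃ a : X, g = a * ((σ ^ e) a)⁻¹) :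
    (∀ g ∈ (MulEquiv.toMonoidHom (σ ^ e)).eqLocus (MonoidHom.id X), ∀ a : X, g = a * (σ a)⁻¹ →
        ((σ ^ e) a)⁻¹ * a ∈ (MulEquiv.toMonoidHom σ).eqLocus (MonoidHom.id X) ∧
          a⁻¹ * ((List.range e).map (fun i => (σ ^ i) g)).prod * a = ((σ ^ e) a)⁻¹ * a) ∧
    (∀ g ∈ (MulEquiv.toMonoidHom (σ ^ e)).eqLocus (MonoidHom.id X), ∀ g' ∈ (MulEquiv.toMonoidHom (σ ^ e)).eqLocus (MonoidHom.id X), ∀ a b : X,
        g = a * (σ a)⁻¹ → g' = b * (σ b)⁻¹ →
          ((∃ k ∈ (MulEquiv.toMonoidHom (σ ^ e)).eqLocus (MonoidHom.id X), g' = k * g * (σ k)⁻¹) ↔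
            (∃ h ∈ (MulEquiv.toMonoidHom σ).eqLocus (MonoidHom.id X), ((σ ^ e) b)⁻¹ * b = h * (((σ ^ e) a)⁻¹ * a) * h⁻¹))) ∧
    (∀ x ∈ (MulEquiv.toMonoidHom σ).eqLocus (MonoidHom.id X), ∃ g ∈ (MulEquiv.toMonoidHom (σ ^ e)).eqLocus (MonoidHom.id X), ∃ a : X,
        g = a * (σ a)⁻¹ ∧ ((σ ^ e) a)⁻¹ * a = x) := by
  have hmem_e : ∀ y : X, y ∈ (MulEquiv.toMonoidHom (σ ^ e)).eqLocus (MonoidHom.id X) ↔ (σ ^ e) y = y := fun y => Iff.rfl
  have hmem : ∀ y : X, y ∈ (MulEquiv.toMonoidHom σ).eqLocus (MonoidHom.id X) ↔ σ y = y := fun y => Iff.rfl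
  simp only [hmem_e, hmem]
  refine ⟨?_, ?_, ?_⟩
  · intro g hg a ha
    subst ha
    refine ⟨Lib.Shintani.shintani_fixed σ e a hg, ?_⟩
    rw [Lib.Shintani.norm_eq]
    group
  · intro g hg g' hg' a b ha hb
    subst ha
    subst hb
    constructor
    · rintro ⟨k, hk, hkg⟩
      refine ⟨b⁻¹ * k * a, ?_, ?_⟩
      · simp only [map_mul, map_inv] at hkg ⊢
        have h : b * (σ b)⁻¹ = k * a * (σ a)⁻¹ * (σ k)⁻¹ := by rw [hkg]; group
        have h2 : (σ b)⁻¹ = b⁻¹ * (k * a * (σ a)⁻¹ * (σ k)⁻¹) := by rw [← h]; group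
        rw [h2]; group
      · have hσ : σ (b⁻¹ * k * a) = b⁻¹ * k * a := by
          simp only [map_mul, map_inv] at hkg ⊢
          have h : b * (σ b)⁻¹ = k * a * (σ a)⁻¹ * (σ k)⁻¹ := by rw [hkg]; group
          have h2 : (σ b)⁻¹ = b⁻¹ * (k * a * (σ a)⁻¹ * (σ k)⁻¹) := by rw [← h]; group
          rw [h2]; group
        have h3 := Lib.Shintani.fix_of_fix σ _ hσ e
        simp only [map_mul, map_inv, hk] at h3
        have h4 : ((σ ^ e) b)⁻¹ = b⁻¹ * k * a * ((σ ^ e) a)⁻¹ * k⁻¹ := by rw [← h3]; group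
        rw [h4]; group
    · rintro ⟨h, hh, hx⟩
      refine ⟨b * h * a⁻¹, ?_, ?_⟩
      · have h3 := Lib.Shintani.fix_of_fix σ _ hh e
        simp only [map_mul, map_inv, h3]
        have h4 : ((σ ^ e) b) = b * (h * (((σ ^ e) a)⁻¹ * a) * h⁻¹)⁻¹ := by
          rw [← hx]; group
        rw [h4]; group
      · simp only [map_mul, map_inv, hh]
        group
  · intro x hx
    obtain ⟨c, hc⟩ := hLe x⁻¹
    have hxa : ((σ ^ e) c⁻¹)⁻¹ * c⁻¹ = x := by
      have : x = (c * ((σ ^ e) c)⁻¹)⁻¹ := by rw [← hc]; simp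
      rw [this]; simp
    have hfix : σ (((σ ^ e) c⁻¹)⁻¹ * c⁻¹) = ((σ ^ e) c⁻¹)⁻¹ * c⁻¹ := by rw [hxa, hx]
    exact ⟨c⁻¹ * (σ c⁻¹)⁻¹, Lib.Shintani.shintani_fixed' σ e _ hfix, c⁻¹, rfl, hxa⟩

end Cfsg.Agent.S2666
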