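import Cfsg.Statements.S2667
-- import your own Cfsg.Agent.* helpers here

set_option autoImplicit false
open Cfsg

namespace Cfsg.Agent.S2667


/-- Shintani descent, in an abstract form. Let `σ` be an automorphism of a group `X` and `e ≥ 1` (no surjectivity of the Lang maps is needed for this part; in the classical setting `X` is a connected algebraic group and `σ` a Steinberg endomorphism). Write `G` for the subgroup of fixed points of `σᵉ` and `H` for the subgroup of fixed points of `σ`. The `G`-conjugacy classes in the coset `G σ` of the semidirect product of `G` by `σ` correspond to the orbits of `G` on itself under twisted conjugation `g ↦ k g σ(k)⁻¹`, and the `e`-th power of `g σ` has `G`-part the norm `g σ(g) ⋯ σ^(e-1)(g)`. For `g` in `G` and any `a` with `g = a σ(a)⁻¹`, put `x = σᵉ(a)⁻¹ a`. Then conjugation by `a⁻¹` carries the twisted centralizer `{k ∈ G : k g σ(k)⁻¹ = g}` (the centralizer of `g σ` in `G`) exactly onto the centralizer of `x` in `H`: an element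 `k` of `X` lies in `G` and satisfies `k g σ(k)⁻¹ = g` if and only if `a⁻¹ k a` lies in `H` and commutes with `x`. In particular the two centralizers are conjugate in `X` and have the same order. -/
theorem result {X : Type*} [Group X] (σ : MulAut X) (e : ℕ) (he : 1 ≤ e)
    (g : X) (hg : g ∈ (MulEquiv.toMonoidHom (σ ^ e)).eqLocus (MonoidHom.id X)) (a : X) (ha : g = a * (σ a)⁻¹) (k : X) :
    (k ∈ (MulEquiv.toMonoidHom (σ ^ e)).eqLocus (MonoidHom.id X) ∧ k * g * (σ k)⁻¹ = g) ↔
      (a⁻¹ * k * a ∈ (MulEquiv.toMonoidHom σ).eqLocus (MonoidHom.id X) ∧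
        (a⁻¹ * k * a) * (((σ ^ e) a)⁻¹ * a) = (((σ ^ e) a)⁻¹ * a) * (a⁻¹ * k * a)) := by
  have hx : ∀ y : X, y ∈ (MulEquiv.toMonoidHom (σ ^ e)).eqLocus (MonoidHom.id X) ↔ (σ ^ e) y = y := fun y => Iff.rfl
  have hs : ∀ y : X, y ∈ (MulEquiv.toMonoidHom σ).eqLocus (MonoidHom.id X) ↔ σ y = y := fun y => Iff.rfl
  rw [hx, hs]
  have key : k * g * (σ k)⁻¹ = g ↔ σ (a⁻¹ * k * a) = a⁻¹ * k * a := by
    subst ha
    simp only [map_mul, map_inv]
    constructor
    · intro h
      have h2 : σ k = (σ a) * a⁻¹ * (k * (a * (σ a)⁻¹)) := by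
        have := congrArg (fun z => (a * (σ a)⁻¹)⁻¹ * z * σ k) h
        simp only [mul_assoc, inv_mul_cancel, mul_one] at this
        rw [← mul_assoc] at this
        simp only [mul_inv_rev, inv_inv, mul_assoc] at this ⊢
        rw [this]
        simp [mul_assoc]
      rw [h2]; group
    · intro h
      have h2 : σ k = (σ a) * (a⁻¹ * k * a) * (σ a)⁻¹ := by
        rw [← h]; group
      rw [h2]; group
  rw [key]
  have hfix : ∀ y : X, σ y = y → ∀ n : ℕ, (σ ^ n) y = y := by
    intro y hy n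
    induction n with
    | zero => simp
    | succ n ih => rw [pow_succ, MulAut.mul_apply, hy, ih]
  constructor
  · rintro ⟨h1, h2⟩
    refine ⟨h2, ?_⟩
    have h3 := hfix _ h2 e
    simp only [map_mul, map_inv, h1] at h3
    have h4 : ((σ ^ e) a)⁻¹ * k = a⁻¹ * k * a * ((σ ^ e) a)⁻¹ := by
      rw [← h3]; group
    calc a⁻¹ * k * a * (((σ ^ e) a)⁻¹ * a) = (a⁻¹ * k * a * ((σ ^ e) a)⁻¹) * a := by group
      _ = (((σ ^ e) a)⁻¹ * k) * a := by rw [h4]
      _ = _ := by group
  · rintro ⟨h1, h2⟩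
    refine ⟨?_, h1⟩
    have h3 := hfix _ h1 e
    simp only [map_mul, map_inv] at h3
    have h4 : (σ ^ e) k = (σ ^ e) a * (a⁻¹ * k * a) * ((σ ^ e) a)⁻¹ := by
      rw [← h3]; group
    rw [h4]
    have h5 : (a⁻¹ * k * a) * ((σ ^ e) a)⁻¹ = ((σ ^ e) a)⁻¹ * k := by
      have := congrArg (· * a⁻¹) h2
      simpa [mul_assoc] using this
    calc (σ ^ e) a * (a⁻¹ * k * a) * ((σ ^ e) a)⁻¹ = (σ ^ e) a * ((a⁻¹ * k * a) * ((σ ^ e) a)⁻¹) := by group
      _ = (σ ^ e) a * (((σ ^ e) a)⁻¹ * k) := by rw [h5]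
      _ = k := by group

end Cfsg.Agent.S2667
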