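import Cfsg.Statements.S2669
import Cfsg.Agent.Lib.Shintani.Basic

set_option autoImplicit false
open Cfsg

namespace Cfsg.Agent.S2669


/-- Shintani descent preserves numbers of fixed points on coset spaces (abstract form). Let `σ` be an automorphism of a group `X` and `e ≥ 1`; write `G` for the fixed points of `σᵉ` and `H` for the fixed points of `σ`, and assume `G` is finite. Let `Y` be a `σ`-stable subgroup of `X` on which the maps `a ↦ a σ(a)⁻¹` and `a ↦ a σᵉ(a)⁻¹` are surjective (as for a closed connected `σ`-stable subgroup of an algebraic group). Let `g ∈ G`, let `a ∈ X` satisfy `g = a σ(a)⁻¹` and put `x = σᵉ(a)⁻¹ a` (the Shintani image, an element of `H`). The element `g σ` of the semidirect product acts on the cosets of `Y ∩ G` in `G` by `k (Y ∩ G) ↦ g σ(k) (Y ∩ G)`, fixing that coset exactly when `k⁻¹ g σ(k) ∈ Y`; and `x` fixes the coset `h (Y ∩ H)` of `H` exactly when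 `h⁻¹ x h ∈ Y`. Then the two numbers of fixed cosets agree; in cross-multiplied form, `#{k ∈ G : k⁻¹ g σ(k) ∈ Y} · |Y ∩ H| = #{h ∈ H : h⁻¹ x h ∈ Y} · |Y ∩ G|`. -/
theorem result {X : Type*} [Group X] (σ : MulAut X) (e : ℕ) (he : 1 ≤ e)
    [Finite ↥((MulEquiv.toMonoidHom (σ ^ e)).eqLocus (MonoidHom.id X))]
    (Y : Subgroup X) (hY : ∀ y : X, y ∈ Y ↔ σ y ∈ Y)
    (hYL : ∀ y ∈ Y, ∃ a ∈ Y, y = a * (σ a)⁻¹) (hYLe : ∀ y ∈ Y, ∃ a ∈ Y, y = a * ((σ ^ e) a)⁻¹)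
    (g : X) (hg : g ∈ (MulEquiv.toMonoidHom (σ ^ e)).eqLocus (MonoidHom.id X)) (a : X) (ha : g = a * (σ a)⁻¹) :
    Nat.card {k : ↥((MulEquiv.toMonoidHom (σ ^ e)).eqLocus (MonoidHom.id X)) // (k : X)⁻¹ * g * σ k ∈ Y} *
        Nat.card ↥(Y ⊓ (MulEquiv.toMonoidHom σ).eqLocus (MonoidHom.id X)) =
      Nat.card {h : ↥((MulEquiv.toMonoidHom σ).eqLocus (MonoidHom.id X)) // (h : X)⁻¹ * (((σ ^ e) a)⁻¹ * a) * h ∈ Y} *
        Nat.card ↥(Y ⊓ (MulEquiv.toMonoidHom (σ ^ e)).eqLocus (MonoidHom.id X)) := by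
  classical
  set τ := σ ^ e with hτdef
  have hmemG : ∀ y : X, y ∈ (MulEquiv.toMonoidHom τ).eqLocus (MonoidHom.id X) ↔ τ y = y := fun y => Iff.rfl
  have hmemH : ∀ y : X, y ∈ (MulEquiv.toMonoidHom σ).eqLocus (MonoidHom.id X) ↔ σ y = y := fun y => Iff.rfl
  have hHG : ∀ y : X, σ y = y → τ y = y := fun y hy => Lib.Shintani.fix_of_fix σ y hy e
  have hg' : τ g = g := hg
  have hx : σ ((τ a)⁻¹ * a) = (τ a)⁻¹ * a := by
    subst ha
    exact Lib.Shintani.shintani_fixed σ e a hg'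
  -- the key identities
  have key1 : ∀ h y : X, τ h = h → (τ (a * h * y⁻¹) = a * h * y⁻¹ ↔ h⁻¹ * ((τ a)⁻¹ * a) * h = (τ y)⁻¹ * y) := by
    intro h y hh
    simp only [map_mul, map_inv, hh]
    constructor
    · intro E
      have : (τ y)⁻¹ = h⁻¹ * (τ a)⁻¹ * (a * h * y⁻¹) := by rw [← E]; group
      rw [this]; group
    · intro F
      have : (τ y)⁻¹ = h⁻¹ * ((τ a)⁻¹ * a) * h * y⁻¹ := by rw [F]; group
      rw [this]; group
  have key2 : ∀ h y : X, σ h = h → (a * h * y⁻¹)⁻¹ * g * σ (a * h * y⁻¹) = y * (σ y)⁻¹ := by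
    intro h y hh
    subst ha
    simp only [map_mul, map_inv, hh]
    group
  -- the finiteness of the groups involved
  have hHfin : Finite ↥((MulEquiv.toMonoidHom σ).eqLocus (MonoidHom.id X)) :=
    Finite.of_injective (β := ↥((MulEquiv.toMonoidHom τ).eqLocus (MonoidHom.id X)))
      (fun y => ⟨y.1, hHG _ y.2⟩) (by
        intro y z h
        apply Subtype.ext
        simpa using congrArg Subtype.val h)
  -- the set of triples
  let T := {p : ↥((MulEquiv.toMonoidHom σ).eqLocus (MonoidHom.id X)) × Y // τ (a * (p.1 : X) * (p.2 : X)⁻¹) = a * (p.1 : X) * (p.2 : X)⁻¹}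
  -- section of Lang on Y for the first map
  have hsec1 : ∀ k : {k : ↥((MulEquiv.toMonoidHom τ).eqLocus (MonoidHom.id X)) // (k : X)⁻¹ * g * σ k ∈ Y},
      ∃ y : Y, ((k.1 : X)⁻¹ * g * σ (k.1 : X)) = (y : X) * (σ (y : X))⁻¹ := by
    intro k
    obtain ⟨y, hy, e1⟩ := hYL _ k.2
    exact ⟨⟨y, hy⟩, e1⟩
  choose y₁ hy₁ using hsec1
  have hsec2 : ∀ h : {h : ↥((MulEquiv.toMonoidHom σ).eqLocus (MonoidHom.id X)) // (h : X)⁻¹ * ((τ a)⁻¹ * a) * h ∈ Y},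
      ∃ y : Y, (h.1 : X)⁻¹ * ((τ a)⁻¹ * a) * h.1 = (τ (y : X))⁻¹ * y := by
    intro h
    obtain ⟨c, hc, e1⟩ := hYLe _ (Y.inv_mem h.2)
    refine ⟨⟨c⁻¹, Y.inv_mem hc⟩, ?_⟩
    have := congrArg (·⁻¹) e1
    simp only [inv_inv, mul_inv_rev] at this
    simp only [map_inv, inv_inv]
    rw [this]
  choose y₂ hy₂ using hsec2
  have h₁h : ∀ k : {k : ↥((MulEquiv.toMonoidHom τ).eqLocus (MonoidHom.id X)) // (k : X)⁻¹ * g * σ k ∈ Y},
      σ (a⁻¹ * (k.1 : X) * y₁ k) = a⁻¹ * (k.1 : X) * y₁ k := by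
    intro k
    have e1 := hy₁ k
    subst ha
    simp only [map_mul, map_inv] at e1 ⊢
    have : (σ (y₁ k : X))⁻¹ = (y₁ k : X)⁻¹ * ((k.1 : X)⁻¹ * (a * (σ a)⁻¹) * σ (k.1 : X)) := by
      rw [e1]; group
    have h2 : σ (y₁ k : X) = ((y₁ k : X)⁻¹ * ((k.1 : X)⁻¹ * (a * (σ a)⁻¹) * σ (k.1 : X)))⁻¹ := by
      rw [← this]; group
    rw [h2]; group
  -- the first equivalence
  let f₁ : {k : ↥((MulEquiv.toMonoidHom τ).eqLocus (MonoidHom.id X)) // (k : X)⁻¹ * g * σ k ∈ Y} ×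
      ↥(Y ⊓ (MulEquiv.toMonoidHom σ).eqLocus (MonoidHom.id X)) → T := fun p =>
    ⟨(⟨a⁻¹ * (p.1.1 : X) * y₁ p.1 * (p.2 : X), by
        have ht : σ (p.2 : X) = p.2 := p.2.2.2
        rw [hmemH, map_mul, h₁h p.1, ht]⟩,
      ⟨(y₁ p.1 : X) * (p.2 : X), Y.mul_mem (y₁ p.1).2 p.2.2.1⟩), by
      have : a * (a⁻¹ * (p.1.1 : X) * y₁ p.1 * (p.2 : X)) * ((y₁ p.1 : X) * (p.2 : X))⁻¹ = (p.1.1 : X) := by group
      show τ (a * (a⁻¹ * (p.1.1 : X) * y₁ p.1 * (p.2 : X)) * ((y₁ p.1 : X) * (p.2 : X))⁻¹) = _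
      rw [this]
      exact p.1.1.2⟩
  have f₁bij : Function.Bijective f₁ := by
    constructor
    · rintro ⟨k, t⟩ ⟨k', t'⟩ heq
      have e1 : a⁻¹ * (k.1 : X) * y₁ k * (t : X) = a⁻¹ * (k'.1 : X) * y₁ k' * (t' : X) :=
        congrArg (fun z : T => (z.1.1 : X)) heq
      have e2 : (y₁ k : X) * (t : X) = (y₁ k' : X) * (t' : X) :=
        congrArg (fun z : T => (z.1.2 : X)) heq
      have e3 : (k.1 : X) = (k'.1 : X) := by
        have h1 : a⁻¹ * (k.1 : X) * ((y₁ k : X) * (t : X)) = a⁻¹ * (k'.1 : X) * ((y₁ k' : X) * (t' : X)) := by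
          simpa [mul_assoc] using e1
        rw [e2] at h1
        simpa using h1
      have e4 : k = k' := Subtype.ext (Subtype.ext e3)
      subst e4
      have e5 : (t : X) = (t' : X) := by simpa using e2
      exact Prod.ext rfl (Subtype.ext e5)
    · rintro ⟨⟨⟨h, hh⟩, ⟨y, hy⟩⟩, hT⟩
      have hh' : σ h = h := hh
      have hk2 : (a * h * y⁻¹)⁻¹ * g * σ (a * h * y⁻¹) ∈ Y := by
        rw [key2 h y hh']
        exact Y.mul_mem hy (Y.inv_mem ((hY y).1 hy))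
      let k : {k : ↥((MulEquiv.toMonoidHom τ).eqLocus (MonoidHom.id X)) // (k : X)⁻¹ * g * σ k ∈ Y} :=
        ⟨⟨a * h * y⁻¹, hT⟩, hk2⟩
      have hkk : (k.1 : X) = a * h * y⁻¹ := rfl
      have hyk : (y₁ k : X) * (σ (y₁ k : X))⁻¹ = y * (σ y)⁻¹ := by
        rw [← hy₁ k, hkk, key2 h y hh']
      have ht1 : σ ((y₁ k : X)⁻¹ * y) = (y₁ k : X)⁻¹ * y := by
        simp only [map_mul, map_inv]
        have : (σ y)⁻¹ = y⁻¹ * ((y₁ k : X) * (σ (y₁ k : X))⁻¹) := by rw [hyk]; group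
        have h2 : σ y = (y⁻¹ * ((y₁ k : X) * (σ (y₁ k : X))⁻¹))⁻¹ := by rw [← this]; group
        rw [h2]; group
      refine ⟨(k, ⟨(y₁ k : X)⁻¹ * y, Y.mul_mem (Y.inv_mem (y₁ k).2) hy, ht1⟩), ?_⟩
      apply Subtype.ext
      apply Prod.ext
      · apply Subtype.ext
        show a⁻¹ * (k.1 : X) * (y₁ k : X) * ((y₁ k : X)⁻¹ * y) = h
        rw [hkk]; group
      · apply Subtype.ext
        show (y₁ k : X) * ((y₁ k : X)⁻¹ * y) = y
        group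
  -- the second equivalence
  let f₂ : {h : ↥((MulEquiv.toMonoidHom σ).eqLocus (MonoidHom.id X)) // (h : X)⁻¹ * ((τ a)⁻¹ * a) * h ∈ Y} ×
      ↥(Y ⊓ (MulEquiv.toMonoidHom τ).eqLocus (MonoidHom.id X)) → T := fun p =>
    ⟨(p.1.1, ⟨(p.2 : X) * y₂ p.1, Y.mul_mem p.2.2.1 (y₂ p.1).2⟩), by
      show τ (a * (p.1.1 : X) * ((p.2 : X) * y₂ p.1)⁻¹) = a * (p.1.1 : X) * ((p.2 : X) * y₂ p.1)⁻¹
      rw [key1 _ _ (hHG _ p.1.1.2), hy₂ p.1]
      have ht : τ (p.2 : X) = p.2 := p.2.2.2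
      simp only [map_mul, ht]
      group⟩
  have f₂bij : Function.Bijective f₂ := by
    constructor
    · rintro ⟨h, t⟩ ⟨h', t'⟩ heq
      have e1 : (h.1 : X) = (h'.1 : X) := congrArg (fun z : T => (z.1.1 : X)) heq
      have e4 : h = h' := Subtype.ext (Subtype.ext e1)
      subst e4
      have e2 : (t : X) * (y₂ h : X) = (t' : X) * (y₂ h : X) := congrArg (fun z : T => (z.1.2 : X)) heq
      have e5 : (t : X) = (t' : X) := by simpa using e2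
      exact Prod.ext rfl (Subtype.ext e5)
    · rintro ⟨⟨⟨h, hh⟩, ⟨y, hy⟩⟩, hT⟩
      have hh' : σ h = h := hh
      have hT' : τ (a * h * y⁻¹) = a * h * y⁻¹ := hT
      rw [key1 h y (hHG _ hh')] at hT'
      have hb : h⁻¹ * ((τ a)⁻¹ * a) * h ∈ Y := by
        rw [hT']
        -- `τ y ∈ Y`
        have hτY : ∀ n : ℕ, ∀ z ∈ Y, (σ ^ n) z ∈ Y := by
          intro n
          induction n with
          | zero => intro z hz; simpa using hz
          | succ n ih =>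
            intro z hz
            rw [Lib.Shintani.pow_succ_apply']
            exact (hY _).1 (ih z hz)
        exact Y.mul_mem (Y.inv_mem (hτY e y hy)) hy
      let h₀ : {h : ↥((MulEquiv.toMonoidHom σ).eqLocus (MonoidHom.id X)) // (h : X)⁻¹ * ((τ a)⁻¹ * a) * h ∈ Y} :=
        ⟨⟨h, hh⟩, hb⟩
      have hyh : (τ (y₂ h₀ : X))⁻¹ * y₂ h₀ = (τ y)⁻¹ * y := by
        rw [← hy₂ h₀]; exact hT'
      have ht1 : τ (y * (y₂ h₀ : X)⁻¹) = y * (y₂ h₀ : X)⁻¹ := by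
        simp only [map_mul, map_inv]
        have : (τ y)⁻¹ = (τ (y₂ h₀ : X))⁻¹ * y₂ h₀ * y⁻¹ := by rw [hyh]; group
        have h2 : τ y = ((τ (y₂ h₀ : X))⁻¹ * y₂ h₀ * y⁻¹)⁻¹ := by rw [← this]; group
        rw [h2]; group
      refine ⟨(h₀, ⟨y * (y₂ h₀ : X)⁻¹, Y.mul_mem hy (Y.inv_mem (y₂ h₀).2), ht1⟩), ?_⟩
      apply Subtype.ext
      apply Prod.ext
      · rfl
      · apply Subtype.ext
        show y * (y₂ h₀ : X)⁻¹ * y₂ h₀ = y
        group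
  -- conclusion
  have c1 := Nat.card_congr (Equiv.ofBijective f₁ f₁bij)
  have c2 := Nat.card_congr (Equiv.ofBijective f₂ f₂bij)
  rw [Nat.card_prod] at c1 c2
  rw [c1, c2]

end Cfsg.Agent.S2669
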