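import Cfsg.Statements.S2677
import Mathlib
import Cfsg.Agent.Lib.AutPSU.CentCount

set_option autoImplicit false
open Cfsg

namespace Cfsg.Agent.S2677

/-- Centraliser of a field automorphism of odd prime order in PGU_n(q): let q = q₀^r with r an odd prime, K the field with q² elements and σ a field automorphism of K of order r (fixed field of order q₀²). The elements g of GU_n(q) whose entrywise image under σ is a scalar multiple of g — those whose coset modulo the q + 1 unitary scalars is fixed by σ — number (q + 1)/(q₀ + 1) · |GU_n(q₀)|; equivalently the centraliser in PGU_n(q) of the induced automorphism has the order of PGU_n(q₀). -/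
theorem result {K : Type*} [Field K] [Fintype K] {q₀ q r n : ℕ} (hr : r.Prime) (hr2 : r ≠ 2) (hn : 1 ≤ n) (hq : q = q₀ ^ r) (hK : Fintype.card K = q ^ 2) (σ : K ≃+* K) (hσ : orderOf σ = r) : (Nat.card {g : ↥(Cfsg.GU n K q) // ∃ c : K, c ≠ 0 ∧ ((g : GL (Fin n) K) : Matrix (Fin n) (Fin n) K).map σ = c • ((g : GL (Fin n) K) : Matrix (Fin n) (Fin n) K)} : ℤ) = ((q + 1) / (q₀ + 1) : ℕ) * ((q₀ : ℤ) ^ (n * (n - 1) / 2) * ∏ i : Fin n, ((q₀ : ℤ) ^ ((i : ℕ) + 1) - (-1) ^ ((i : ℕ) + 1))) := by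
  classical
  obtain ⟨h1, ⟨d, hd⟩, h3⟩ := Cfsg.Agent.Lib.AutPSU.card_fixed_up_to_scalars hr hr2 hn hq hK σ hσ
  haveI : Finite (Cfsg.Agent.Lib.FieldAut.fixedField σ) := inferInstance
  letI : Fintype (Cfsg.Agent.Lib.FieldAut.fixedField σ) := Fintype.ofFinite _
  have hcF₀ : Fintype.card (Cfsg.Agent.Lib.FieldAut.fixedField σ) = q₀ ^ 2 := by
    rw [← Nat.card_eq_fintype_card, h3]
  have hq₀ : 1 ≤ q₀ := by
    have := Cfsg.Agent.Lib.Classical.two_le_q hcF₀
    omega
  have h4 := Cfsg.Agent.Lib.Classical.card_gu hcF₀ n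
  have h5 : (q + 1) / (q₀ + 1) = d := by
    rw [hd]
    exact Nat.mul_div_cancel_left d (by omega)
  rw [h5]
  have h6 : Nat.card {g : ↥(Cfsg.GU n K q) // ∃ c : K, c ≠ 0 ∧ ((g : GL (Fin n) K) : Matrix (Fin n) (Fin n) K).map σ = c • ((g : GL (Fin n) K) : Matrix (Fin n) (Fin n) K)} = d * Nat.card (Cfsg.GU n (Cfsg.Agent.Lib.FieldAut.fixedField σ) q₀) := by
    apply Nat.eq_of_mul_eq_mul_right (show 0 < q₀ + 1 by omega)
    rw [h1, hd]
    ring
  rw [h6, h4, Nat.cast_mul, Nat.cast_mul, Nat.cast_pow, Nat.cast_prod]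
  congr 2
  rw [Finset.prod_range]
  apply Finset.prod_congr rfl
  intro i _
  by_cases he : Even (i : ℕ)
  · rw [if_pos he, Odd.neg_one_pow (Even.add_one he)]
    push_cast
    ring
  · rw [if_neg he, Even.neg_one_pow (by rw [Nat.even_add_one]; exact he), Nat.cast_sub (Nat.one_le_pow _ _ hq₀)]
    push_cast
    ring

end Cfsg.Agent.S2677
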