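import Cfsg.Statements.S2678
import Mathlib
import Cfsg.Agent.Lib.Embed.Field

set_option autoImplicit false
open Cfsg

namespace Cfsg.Agent.S2678

open Cfsg.Agent.Lib.Embed Matrix Cfsg.Agent.Lib.KnownSimple

/-- Field-extension embedding of symplectic groups: for a field K with q² elements and a field F with q elements there is an injective homomorphism Sp_2a(K) → Sp_4a(F). -/
theorem result {K F : Type*} [Field K] [Fintype K] [Field F] [Fintype F] {q : ℕ} (hK : Fintype.card K = q ^ 2) (hF : Fintype.card F = q) (a : ℕ) : ∃ φ : ↥(Matrix.symplecticGroup (Fin a) K) →* ↥(Matrix.symplecticGroup (Fin (2 * a)) F), Function.Injective φ := by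
  obtain ⟨alg, hfr⟩ := exists_algebra hK hF
  let τ : ↥(Matrix.symplecticGroup (Fin a) K) →* Matrix (Fin a ⊕ Fin a) (Fin a ⊕ Fin a) K := (Matrix.symplecticGroup (Fin a) K).subtype
  let B : LinearMap.BilinForm F (Fin a ⊕ Fin a → K) :=
    LinearMap.mk₂ F (fun u v => Algebra.trace F K (Cfsg.sympForm a K u v))
      (fun x y z => by rw [sympForm_add_left, map_add])
      (fun c x y => by
        rw [← algebraMap_smul K c x, sympForm_smul_left, ← Algebra.smul_def, map_smul])
      (fun x y z => by rw [sympForm_add_right, map_add])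
      (fun c x y => by
        rw [← algebraMap_smul K c y, sympForm_smul_right, ← Algebra.smul_def, map_smul])
  have hB : ∀ u v, B u v = Algebra.trace F K (Cfsg.sympForm a K u v) := fun u v => rfl
  have hA : B.IsAlt := fun u => by rw [hB, sympForm_self, map_zero]
  have hnd : ∀ v, (∀ w, B v w = 0) → v = 0 := by
    intro v hv
    apply sympForm_right_eq_zero
    intro u
    by_contra hne
    have hne' : Cfsg.sympForm a K v u ≠ 0 := by
      intro h0
      apply hne
      rw [sympForm_swap, h0, neg_zero]
    obtain ⟨y, hy⟩ := exists_trace_ne_zero (F := F) (K := K)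
    apply hy
    have h1 := hv ((y / Cfsg.sympForm a K v u) • u)
    rw [hB, sympForm_smul_right, div_mul_cancel₀ _ hne'] at h1
    exact h1
  have hdim : Module.finrank F (Fin a ⊕ Fin a → K) = 2 * (2 * a) := by
    rw [Module.finrank_pi_fintype]
    simp [finrank_of_card hK hF]
    ring
  obtain ⟨Ψ, hΨ⟩ := exists_sp_equiv B hA hnd hdim
  refine exists_sp_embed (repOfHom F τ) (repOfHom_injective τ Subtype.val_injective) Ψ (fun u v => B u v) hΨ ?_
  intro g u v
  show Algebra.trace F K (Cfsg.sympForm a K (τ g *ᵥ u) (τ g *ᵥ v)) = Algebra.trace F K (Cfsg.sympForm a K u v)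
  exact congrArg _ (sympForm_mulVec_mulVec g.2 u v)

end Cfsg.Agent.S2678
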