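import Cfsg.Statements.S2679
import Mathlib
import Cfsg.Agent.Lib.Embed.Field

set_option autoImplicit false
open Cfsg

namespace Cfsg.Agent.S2679

open Cfsg.Agent.Lib.Embed Matrix Cfsg.Agent.Lib.Quad

/-- An elliptic orthogonal group embeds in the hyperbolic orthogonal group of the same dimension over the quadratic extension: for a field F with q elements and a field K with q² elements there is an injective homomorphism from O⁻_2m(F) (isometries of Σ_(j<m−1) x_j y_j + z₁² + a z₁z₂ + c z₂², binary part anisotropic) to O⁺_2m(K) (isometries of Σ_(j<m) x_j y_j over K). -/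
theorem result {F K : Type*} [Field F] [Fintype F] [Field K] [Fintype K] {q : ℕ} (hF : Fintype.card F = q) (hK : Fintype.card K = q ^ 2) {m : ℕ} (hm : 1 ≤ m) (a c : F) (hac : ∀ z₁ z₂ : F, z₁ ^ 2 + a * z₁ * z₂ + c * z₂ ^ 2 = 0 → z₁ = 0 ∧ z₂ = 0) : ∃ φ : ↥(Cfsg.isometryGroup F (Cfsg.quadFormMinus (m - 1) F a c)) →* ↥(Cfsg.isometryGroup K (Cfsg.quadFormPlus m K)), Function.Injective φ := by
  obtain ⟨n, rfl⟩ : ∃ n, m = n + 1 := ⟨m - 1, by omega⟩
  obtain ⟨alg, θ, hfr, hθ⟩ := exists_algebra_root hK hF a c hac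
  obtain ⟨hne, h1, h2⟩ := theta_facts hK hF hac hθ
  change ∃ φ : ↥(Cfsg.isometryGroup F (Cfsg.quadFormMinus n F a c)) →* ↥(Cfsg.isometryGroup K (Cfsg.quadFormPlus (n + 1) K)), Function.Injective φ
  let ι' := algebraMap F K
  let τ : ↥(Cfsg.isometryGroup F (Cfsg.quadFormMinus n F a c)) →* Matrix ((Fin n ⊕ Fin n) ⊕ Fin 2) ((Fin n ⊕ Fin n) ⊕ Fin 2) K :=
    (ι'.mapMatrix).toMonoidHom.comp ((Units.coeHom _).comp (Cfsg.isometryGroup F (Cfsg.quadFormMinus n F a c)).subtype)
  have hτ : Function.Injective τ := by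
    intro x y hxy
    apply Subtype.ext
    apply Units.ext
    ext i j
    exact ι'.injective (congrFun (congrFun hxy i) j)
  have hval : ∀ w : (Fin n ⊕ Fin n) ⊕ Fin 2 → F,
      Cfsg.quadFormMinus n K (ι' a) (ι' c) (fun i => ι' (w i)) = ι' (Cfsg.quadFormMinus n F a c w) := by
    intro w
    simp only [Cfsg.quadFormMinus, map_add, map_sum, map_mul, map_pow]
  have hact : ∀ (x : ↥(Cfsg.isometryGroup F (Cfsg.quadFormMinus n F a c))) (w : (Fin n ⊕ Fin n) ⊕ Fin 2 → F),
      τ x *ᵥ (fun i => ι' (w i)) = fun i => ι' ((x.1.1 *ᵥ w) i) := by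
    intro x w
    ext i
    simp only [mulVec, dotProduct, map_sum, map_mul]
    rfl
  have hinv : ∀ (x : ↥(Cfsg.isometryGroup F (Cfsg.quadFormMinus n F a c))) (v : (Fin n ⊕ Fin n) ⊕ Fin 2 → K),
      Cfsg.quadFormMinus n K (ι' a) (ι' c) (τ x *ᵥ v) = Cfsg.quadFormMinus n K (ι' a) (ι' c) v := by
    intro x v
    let Lx : ((Fin n ⊕ Fin n) ⊕ Fin 2 → K) →ₗ[K] ((Fin n ⊕ Fin n) ⊕ Fin 2 → K) := Matrix.mulVecLin (τ x)
    have hbase : ∀ w : (Fin n ⊕ Fin n) ⊕ Fin 2 → F,
        ((minusQF n (ι' a) (ι' c)).comp Lx) (fun i => ι' (w i)) = minusQF n (ι' a) (ι' c) (fun i => ι' (w i)) := by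
      intro w
      show Cfsg.quadFormMinus n K (ι' a) (ι' c) (τ x *ᵥ (fun i => ι' (w i))) = Cfsg.quadFormMinus n K (ι' a) (ι' c) (fun i => ι' (w i))
      rw [hact, hval, hval]
      congr 1
      exact x.2 w w
    have hsingle : ∀ i : (Fin n ⊕ Fin n) ⊕ Fin 2, (Pi.basisFun K _ i : (Fin n ⊕ Fin n) ⊕ Fin 2 → K) = fun j => ι' ((Pi.single i 1 : (Fin n ⊕ Fin n) ⊕ Fin 2 → F) j) := by
      classical
      intro i
      ext j
      simp only [Pi.basisFun_apply, Pi.single_apply]
      split_ifs <;> simp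
    have key := quad_eq_of_basis (Pi.basisFun K ((Fin n ⊕ Fin n) ⊕ Fin 2)) ((minusQF n (ι' a) (ι' c)).comp Lx) (minusQF n (ι' a) (ι' c)) (by
      intro i
      rw [hsingle]
      exact hbase _) (by
      intro i j
      rw [hsingle, hsingle]
      have hadd : ∀ w w' : (Fin n ⊕ Fin n) ⊕ Fin 2 → F, (fun k => ι' (w k)) + (fun k => ι' (w' k)) = fun k => ι' ((w + w') k) := by
        intro w w'
        ext k
        simp
      simp only [QuadraticMap.polar, hadd, hbase])
    exact congrArg (fun Q : QuadraticForm K _ => Q v) key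
  let T : ((Fin n ⊕ Fin n) ⊕ Fin 2 → K) →ₗ[K] (Fin (n + 1) ⊕ Fin (n + 1) → K) :=
    { toFun := fun v => Sum.elim (Fin.cons (α := fun _ => K) (v (.inr 0) - θ * v (.inr 1)) (fun j => v (.inl (.inl j))))
        (Fin.cons (α := fun _ => K) (v (.inr 0) - θ ^ q * v (.inr 1)) (fun j => v (.inl (.inr j))))
      map_add' := fun u v => by
        ext i
        rcases i with i | i <;> refine Fin.cases ?_ (fun j => ?_) i <;> simp <;> ring
      map_smul' := fun r v => by
        ext i
        rcases i with i | i <;> refine Fin.cases ?_ (fun j => ?_) i <;> simp <;> ring }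
  have hTl : ∀ v, T v (.inl 0) = v (.inr 0) - θ * v (.inr 1) := fun v => rfl
  have hTr : ∀ v, T v (.inr 0) = v (.inr 0) - θ ^ q * v (.inr 1) := fun v => rfl
  have hTl' : ∀ v (j : Fin n), T v (.inl j.succ) = v (.inl (.inl j)) := fun v j => rfl
  have hTr' : ∀ v (j : Fin n), T v (.inr j.succ) = v (.inl (.inr j)) := fun v j => rfl
  have hT : ∀ v, Cfsg.quadFormPlus (n + 1) K (T v) = Cfsg.quadFormMinus n K (ι' a) (ι' c) v := by
    intro v
    rw [Cfsg.quadFormPlus, Fin.sum_univ_succ, hTl, hTr, Cfsg.quadFormMinus]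
    simp only [hTl', hTr']
    rw [show ι' a = -(θ + θ ^ q) by rw [h1]; simp [ι'], show ι' c = θ * θ ^ q from h2.symm]
    ring
  have hTinj : Function.Injective T := by
    rw [injective_iff_map_eq_zero]
    intro v hv
    have h3 : v (.inr 0) - θ * v (.inr 1) = 0 := by rw [← hTl, hv]; rfl
    have h4 : v (.inr 0) - θ ^ q * v (.inr 1) = 0 := by rw [← hTr, hv]; rfl
    have h5 : (θ ^ q - θ) * v (.inr 1) = 0 := by linear_combination h3 - h4
    have h6 : v (.inr 1) = 0 := by
      rcases mul_eq_zero.1 h5 with h7 | h7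
      · exact absurd (sub_eq_zero.1 h7) hne
      · exact h7
    have h8 : v (.inr 0) = 0 := by
      rw [h6] at h3
      simpa using h3
    ext i
    rcases i with (i | i) | i
    · rw [← hTl' v i, hv]; rfl
    · rw [← hTr' v i, hv]; rfl
    · fin_cases i
      · exact h8
      · exact h6
  have hfr' : Module.finrank K ((Fin n ⊕ Fin n) ⊕ Fin 2 → K) = Module.finrank K (Fin (n + 1) ⊕ Fin (n + 1) → K) := by
    rw [Module.finrank_fintype_fun_eq_card, Module.finrank_fintype_fun_eq_card]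
    simp
    ring
  let Ψ := (T.linearEquivOfInjective hTinj hfr').symm
  refine exists_isometry_embed (repOfHom K τ) (repOfHom_injective τ hτ) Ψ _ (Cfsg.quadFormMinus n K (ι' a) (ι' c)) ?_ ?_
  · intro v
    rw [← hT]
    congr 1
    exact (T.linearEquivOfInjective hTinj hfr').apply_symm_apply v
  · intro x v
    exact hinv x v

end Cfsg.Agent.S2679
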