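import Cfsg.Statements.S2682
import Mathlib
import Cfsg.Agent.Lib.Classical.InvolCentSp

set_option autoImplicit false
open Cfsg

namespace Cfsg.Agent.S2682

/-- Centraliser order of an involution t of Sp_2m(q), q even, with s = rank(t − 1) even and f(v, tv) ≠ 0 for some v, f the symplectic form (type c_s): |C(t)| = q^(2ms − (3s² − 3s)/2 − 1) · |Sp_(s−2)(q)| · |Sp_(2m−2s)(q)|. -/
theorem result {F : Type*} [Field F] [Fintype F] [CharP F 2] {q : ℕ} (hF : Fintype.card F = q) {m s : ℕ} (t : Matrix.symplecticGroup (Fin m) F) (ht : t ^ 2 = 1) (hs : ((t : Matrix (Fin m ⊕ Fin m) (Fin m ⊕ Fin m) F) - 1).rank = s) (heven : Even s) (hna : ∃ v : Fin m ⊕ Fin m → F, Cfsg.sympForm m F v ((t : Matrix (Fin m ⊕ Fin m) (Fin m ⊕ Fin m) F).mulVec v) ≠ 0) : Nat.card ↥(Subgroup.centralizer ({t} : Set ↥(Matrix.symplecticGroup (Fin m) F))) = q ^ (2 * m * s - (3 * s ^ 2 - 3 * s) / 2 - 1) * ((q : ℕ) ^ (((s - 2) / 2) ^ 2)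 * ∏ i : Fin ((s - 2) / 2), (q ^ (2 * ((i : ℕ) + 1)) - 1)) * ((q : ℕ) ^ ((m - s) ^ 2) * ∏ i : Fin (m - s), (q ^ (2 * ((i : ℕ) + 1)) - 1)) := by
  classical
  have ht' : t * t = 1 := by rwa [← pow_two]
  have hA : ¬ Cfsg.Agent.Lib.Classical.InvolEven.IsATypeS t := by
    intro h
    obtain ⟨v, hv⟩ := hna
    exact hv ((Cfsg.Agent.Lib.Classical.InvolEven.isATypeS_iff t).1 h v)
  have hsm : s ≤ m := hs ▸ Cfsg.Agent.Lib.Classical.InvolEven.rank_le_S t ht'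
  have hq : 2 ≤ q := hF ▸ Cfsg.Agent.Lib.Classical.two_le_card_field
  have hs1 : s ≠ 0 := by
    intro h0
    apply hA
    have h1 : (t : Matrix (Fin m ⊕ Fin m) (Fin m ⊕ Fin m) F) = 1 := by
      rw [h0] at hs
      have h3 : Module.finrank F (LinearMap.range ((t : Matrix (Fin m ⊕ Fin m) (Fin m ⊕ Fin m) F) - 1).mulVecLin) = 0 := hs
      have h4 := Submodule.finrank_eq_zero.1 h3
      apply Cfsg.Agent.Lib.Classical.mat_ext_mulVec
      intro x
      have h5 : ((t : Matrix (Fin m ⊕ Fin m) (Fin m ⊕ Fin m) F) - 1).mulVecLin x ∈ LinearMap.range ((t : Matrix (Fin m ⊕ Fin m) (Fin m ⊕ Fin m) F) - 1).mulVecLin := ⟨x, rfl⟩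
      rw [h4, Submodule.mem_bot] at h5
      have h6 : (t : Matrix (Fin m ⊕ Fin m) (Fin m ⊕ Fin m) F).mulVec x - x = 0 := by
        simpa [Matrix.sub_mulVec] using h5
      rw [Matrix.one_mulVec]
      exact sub_eq_zero.1 h6
    rw [Cfsg.Agent.Lib.Classical.InvolEven.isATypeS_iff]
    intro v
    rw [h1, Matrix.one_mulVec]
    exact Cfsg.Agent.Lib.KnownSimple.sympForm_self v
  obtain ⟨j, hj⟩ := heven
  obtain ⟨k, rfl⟩ : ∃ k, s = 2 * k + 2 := ⟨j - 1, by omega⟩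
  have h := Cfsg.Agent.Lib.Classical.InvolEven.sp_cent_nonalt hF t ht' (by omega) hs hA
  rw [Cfsg.Agent.Lib.Classical.InvolEven.Aq_even] at h
  rw [show (2 * k + 2 - 2) / 2 = k by omega, Fin.prod_univ_eq_prod_range (fun i => q ^ (2 * (i + 1)) - 1) k, Fin.prod_univ_eq_prod_range (fun i => q ^ (2 * (i + 1)) - 1) (m - (2 * k + 2))]
  exact Cfsg.Agent.Lib.Classical.InvolEven.finish2 hq hsm (by omega) h

end Cfsg.Agent.S2682
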