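import Cfsg.Statements.S2683
import Mathlib
import Cfsg.Agent.Lib.Classical.InvolCentO

set_option autoImplicit false
open Cfsg

namespace Cfsg.Agent.S2683

/-- For the hyperbolic form Σ x_j y_j on F^(2m) over a finite field with q elements, q even (excluding m = 2 over the field of two elements), and an involution x of the orthogonal group with s = rank(x − 1) odd (type b_s; such x lie outside Ω): the elements of Ω (the commutator subgroup of the orthogonal group) commuting with x number q^(2m(s−1) − (3s² − 3s)/2) · |Sp_(s−1)(q)| · |Sp_(2m−2s)(q)|, where |Sp_2k(q)| = q^(k²) Π_(i=1)^k (q^(2i) − 1). -/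
theorem result {F : Type*} [Field F] [Fintype F] [CharP F 2] {q : ℕ} (hF : Fintype.card F = q) {m s : ℕ} (h : Fintype.card F ≠ 2 ∨ m ≠ 2) (x : ↥(Cfsg.isometryGroup F (Cfsg.quadFormPlus m F))) (hx : x ^ 2 = 1) (hs : (((x : Matrix.GeneralLinearGroup (Fin m ⊕ Fin m) F) : Matrix (Fin m ⊕ Fin m) (Fin m ⊕ Fin m) F) - 1).rank = s) (hodd : Odd s) : Nat.card {g : ↥(Cfsg.Omega F (Cfsg.quadFormPlus m F)) // (g : ↥(Cfsg.isometryGroup F (Cfsg.quadFormPlus m F))) * x = x * (g : ↥(Cfsg.isometryGroup F (Cfsg.quadFormPlus m F)))} = q ^ (2 * m * (s - 1) - (3 * s ^ 2 - 3 * s) / 2) * ((q : ℕ) ^ (((s - 1) / 2) ^ 2) * ∏ i : Fin ((s - 1) / 2), (q ^ (2 * ((i : ℕ) + 1)) - 1)) * ((q : ℕ) ^ ((m - s) ^ 2) * ∏ i : Fin (m - s), (q ^ (2 * ((i : ℕ) + 1)) - 1)) := by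
  classical
  have hx' : x * x = 1 := by rwa [← pow_two]
  have hc : Fintype.card (Fin m ⊕ Fin m) = 2 * m := by
    simp
    omega
  have h0 := Cfsg.Agent.Lib.Classical.ndq_plus (F := F) m
  have hq0 : ∀ Q : QuadraticForm F ((Fin m ⊕ Fin m) → F), ⇑Q = Cfsg.quadFormPlus m F → Cfsg.Agent.Lib.Spinor.CDOK Q := by
    intro Q _
    rcases h with h | h
    · exact Or.inl h
    · refine Or.inr (Or.inl ?_)
      rw [hc]
      omega
  have hq : 2 ≤ q := hF ▸ Cfsg.Agent.Lib.Classical.two_le_card_field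
  have hmax : ∀ U : Submodule F (Fin m ⊕ Fin m → F), (∀ u ∈ U, Cfsg.quadFormPlus m F u = 0) → Module.finrank F U ≤ m := fun U hU => Cfsg.Agent.Lib.Quad.finrank_le_of_plus_singular U hU
  have hsm : s ≤ m := hs ▸ Cfsg.Agent.Lib.Classical.InvolEven.rank_le_Q0 h0 hc x hx'

  have hA : ¬ ∀ v, Cfsg.quadFormPlus m F ((((x : ↥(Cfsg.isometryGroup F (Cfsg.quadFormPlus m F))) : GL (Fin m ⊕ Fin m) F) : Matrix (Fin m ⊕ Fin m) (Fin m ⊕ Fin m) F).mulVec v - v) = 0 := by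
    intro hA
    obtain ⟨k, hk⟩ := Cfsg.Agent.Lib.Classical.InvolEven.even_of_alt_Q0 h0 x hx' hA
    rw [hs] at hk
    obtain ⟨j, rfl⟩ := hodd
    omega
  obtain ⟨r, rfl⟩ := hodd
  have hm1 : 1 ≤ m := by omega
  have h1 := Cfsg.Agent.Lib.Classical.InvolEven.omega_cent_nonalt (k := 2 * r) h0 hq0 hF hc (Cfsg.Agent.Lib.Classical.InvolEven.card_one_plus hF m hm1) (Cfsg.Agent.Lib.Classical.card_isometry_plus hF m hm1) hmax x hx' hs hA hsm
  rw [Cfsg.Agent.Lib.Classical.InvolEven.Aq_odd, show m - 1 - 2 * r = m - (2 * r + 1) by omega] at h1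
  rw [show (2 * r + 1 - 1) / 2 = r by omega, Fin.prod_univ_eq_prod_range (fun i => q ^ (2 * (i + 1)) - 1) r, Fin.prod_univ_eq_prod_range (fun i => q ^ (2 * (i + 1)) - 1) (m - (2 * r + 1))]
  refine Cfsg.Agent.Lib.Classical.InvolEven.finish3 hq (by omega) hsm ?_
  rw [show 2 * r + 1 - 1 = 2 * r by omega]
  exact h1

end Cfsg.Agent.S2683
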