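import Cfsg.Statements.S2684
import Mathlib
import Cfsg.Agent.Lib.Classical.InvolCentO

set_option autoImplicit false
open Cfsg

namespace Cfsg.Agent.S2684

/-- For the hyperbolic form Q = Σ x_j y_j on F^(2m) over a finite field with q elements, q even (excluding m = 2 over the field of two elements), and an involution x ≠ 1 of the orthogonal group with s = rank(x − 1) even and Q vanishing on the image of x − 1 (equivalently f(v, xv) = 0 for all v, where f(u, w) = Q(u + w) − Q(u) − Q(w) is the bilinear form of Q; type a_s, which lies in Ω): its centraliser in Ω (the commutator subgroup of the orthogonal group) has order q^(2ms − (3s² + s)/2) · |Sp_s(q)| · |Ω⁺_(2m−2s)(q)|, where |Ω⁺_2k(q)| = q^(k(k−1)) (q^k − 1) Π_(i=1)^(k−1) (q^(2i) − 1) for k ≥ 1 and the last factor is 1 when s = m. -/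
theorem result {F : Type*} [Field F] [Fintype F] [CharP F 2] {q : ℕ} (hF : Fintype.card F = q) {m s : ℕ} (h : Fintype.card F ≠ 2 ∨ m ≠ 2) (x : ↥(Cfsg.isometryGroup F (Cfsg.quadFormPlus m F))) (hx : x ^ 2 = 1) (hx1 : x ≠ 1) (hs : (((x : Matrix.GeneralLinearGroup (Fin m ⊕ Fin m) F) : Matrix (Fin m ⊕ Fin m) (Fin m ⊕ Fin m) F) - 1).rank = s) (heven : Even s) (halt : ∀ v : Fin m ⊕ Fin m → F, Cfsg.quadFormPlus m F ((((x : Matrix.GeneralLinearGroup (Fin m ⊕ Fin m) F) : Matrix (Fin m ⊕ Fin m) (Fin m ⊕ Fin m) F) - 1).mulVec v) = 0) : Nat.card {g : ↥(Cfsg.Omega F (Cfsg.quadFormPlus m F)) // (g : ↥(Cfsg.isometryGroup F (Cfsg.quadFormPlus m F))) * x = x * (g : ↥(Cfsg.isometryGroup F (Cfsg.quadFormPlus m F)))} = q ^ (2 * m * s - (3 * s ^ 2 + s) / 2) * ((q : ℕ) ^ ((s / 2) ^ 2) * ∏ i : Fin (s / 2), (q ^ (2 * ((i : ℕ) + 1)) - 1)) * (if s = m then 1 else q ^ ((m - s) * (m - s - 1)) * (q ^ (m - s) - 1) * ∏ i : Fin (m - s - 1),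 (q ^ (2 * ((i : ℕ) + 1)) - 1)) := by
  classical
  have hx' : x * x = 1 := by rwa [← pow_two]
  have hc : Fintype.card (Fin m ⊕ Fin m) = 2 * m := by
    simp
    omega
  have h0 := Cfsg.Agent.Lib.Classical.ndq_plus (F := F) m
  have hq0 : ∀ Q : QuadraticForm F ((Fin m ⊕ Fin m) → F), ⇑Q = Cfsg.quadFormPlus m F → Cfsg.Agent.Lib.Spinor.CDOK Q := by
    intro Q _
    rcases h with h | h
    · exact Or.inl h
    · refine Or.inr (Or.inl ?_)
      rw [hc]
      omega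
  have hq : 2 ≤ q := hF ▸ Cfsg.Agent.Lib.Classical.two_le_card_field
  have hmax : ∀ U : Submodule F (Fin m ⊕ Fin m → F), (∀ u ∈ U, Cfsg.quadFormPlus m F u = 0) → Module.finrank F U ≤ m := fun U hU => Cfsg.Agent.Lib.Quad.finrank_le_of_plus_singular U hU
  have hsm : s ≤ m := hs ▸ Cfsg.Agent.Lib.Classical.InvolEven.rank_le_Q0 h0 hc x hx'

  have hA : ∀ v, Cfsg.quadFormPlus m F ((((x : ↥(Cfsg.isometryGroup F (Cfsg.quadFormPlus m F))) : GL (Fin m ⊕ Fin m) F) : Matrix (Fin m ⊕ Fin m) (Fin m ⊕ Fin m) F).mulVec v - v) = 0 := by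
    intro v
    have := halt v
    rwa [Matrix.sub_mulVec, Matrix.one_mulVec] at this
  have hs0 : s ≠ 0 := fun h3 => hx1 (Cfsg.Agent.Lib.Classical.InvolEven.eq_one_of_rank_zero x (hs.trans h3))
  obtain ⟨j, hj⟩ := heven
  obtain ⟨r, rfl⟩ : ∃ r, s = 2 * r := ⟨j, by omega⟩
  have hm1 : 1 ≤ m := by omega
  obtain ⟨h1, h2⟩ := Cfsg.Agent.Lib.Classical.InvolEven.omega_cent_alt (r := r) h0 hq0 hF hc (Cfsg.Agent.Lib.Classical.InvolEven.card_zero_plus hF m) (Cfsg.Agent.Lib.Classical.InvolEven.card_O_plus_Dq hF m hm1) hmax x hx' hs hA hsm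
  rw [show (2 * r) / 2 = r by omega, Fin.prod_univ_eq_prod_range (fun i => q ^ (2 * (i + 1)) - 1) r]
  by_cases hsm' : 2 * r = m
  · rw [if_pos hsm', h2 hsm', mul_one]
  · rw [if_neg hsm']
    have hlt : 2 * r < m := by omega
    have h3 := h1 hlt
    obtain ⟨d, hd⟩ : ∃ d, m - 2 * r = d + 1 := ⟨m - 2 * r - 1, by omega⟩
    rw [hd, Cfsg.Agent.Lib.Classical.InvolEven.Dq_closed hq] at h3
    rw [Fin.prod_univ_eq_prod_range (fun i => q ^ (2 * (i + 1)) - 1) (m - 2 * r - 1), hd, show d + 1 - 1 = d by omega]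
    apply Nat.eq_of_mul_eq_mul_left (by omega : 0 < 2)
    rw [h3]
    ring

end Cfsg.Agent.S2684
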