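import Cfsg.Statements.S2692
import Mathlib
import Cfsg.Agent.Lib.AutPSU.Main

set_option autoImplicit false
open Cfsg

namespace Cfsg.Agent.S2692

/-- Every automorphism of a simple PSU_n(q), n ≥ 3, (n, q) ≠ (3, 2), realised over the field F with q² elements, is a product δ φ of an inner-diagonal automorphism δ (induced by a general unitary matrix) and a standard field automorphism φ (one automorphism of F applied to every entry, possibly the identity; the standard field automorphisms of even order are the graph automorphisms here). -/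
theorem result {F : Type*} [Field F] [Fintype F] {p f q : ℕ} [Fact p.Prime] (hq : q = p ^ f) (hf : 1 ≤ f) (hF : Fintype.card F = q ^ 2) {n : ℕ} (hn : 3 ≤ n) (hs : ¬ (n = 3 ∧ q = 2)) (β : MulAut (Cfsg.PSU n F q)) :
    ∃ (δ φ : MulAut (Cfsg.PSU n F q)) (σ : F ≃+* F), Cfsg.IsInnerDiagonalAutPSU δ ∧ Cfsg.IsFieldAutPSUOf σ φ ∧ β = δ * φ := by
  haveI : Cfsg.Agent.Lib.AutPSU.Good n q F := ⟨hF, hn⟩
  have hF' : Fintype.card F = p ^ (2 * f) := by
    rw [hF, hq, ← pow_mul, mul_comm]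
  haveI : CharP F p := Cfsg.Agent.Lib.AutPSL.charP_of_card (by omega) hF'
  obtain ⟨g, hg, σ, rfl⟩ := Cfsg.Agent.Lib.AutPSU.semi_of_aut (p := p) hs β
  have h1 : (1 : Matrix.GeneralLinearGroup (Fin n) F) ∈ Cfsg.GU n F q := one_mem _
  refine ⟨Cfsg.Agent.Lib.AutPSU.psuSemi g hg (RingEquiv.refl F), Cfsg.Agent.Lib.AutPSU.psuSemi 1 h1 σ, σ, ⟨g, hg, ?_⟩, ?_, ?_⟩
  · intro s s' e
    apply Cfsg.Agent.Lib.AutPSU.psuSemi_induced g hg (RingEquiv.refl F) s s'
    rw [e]
    congr 2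
  · intro s s' e
    apply Cfsg.Agent.Lib.AutPSU.psuSemi_induced 1 h1 σ s s'
    rw [e]
    simp
  · rw [Cfsg.Agent.Lib.AutPSU.psuSemi_mul]
    have e1 : g * Cfsg.Agent.Lib.AutPSL.glMap (RingEquiv.refl F) 1 = g := by
      rw [map_one, mul_one]
    have e2 : σ.trans (RingEquiv.refl F) = σ := by
      ext a
      rfl
    have key : ∀ (g' : Matrix.GeneralLinearGroup (Fin n) F) (σ' : F ≃+* F) (hg' : g' ∈ Cfsg.GU n F q), g' = g → σ' = σ →
        Cfsg.Agent.Lib.AutPSU.psuSemi g hg σ = Cfsg.Agent.Lib.AutPSU.psuSemi g' hg' σ' := by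
      rintro g' σ' hg' rfl rfl
      rfl
    exact key _ _ _ e1 e2

end Cfsg.Agent.S2692
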