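import Cfsg.Statements.S2706
import Cfsg.Agent.Lib.AutPSU.GraphBridge

set_option autoImplicit false
open Cfsg

namespace Cfsg.Agent.S2706


/-- Let T = PSU_n(q) be simple with n = 2m + 1 ≥ 3 odd, realised over the field F with q² elements, and G = Inndiag(T) the image of PGU_n(q). Every involutory graph automorphism γ of T (an inner-diagonal automorphism times a standard field automorphism of even order, of order 2) has centralizer C_G(γ) isomorphic to the projective conformal orthogonal group of the form x₀² + Σ xᵢ yᵢ in dimension n over a field F₀ with q elements, and any two involutory graph automorphisms of T are G-conjugate. -/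
theorem result {F : Type*} [Field F] [Fintype F] {p f q : ℕ} [Fact p.Prime] (hq : q = p ^ f) (hf : 1 ≤ f) (hF : Fintype.card F = q ^ 2) {n : ℕ} (hn : 3 ≤ n) (hs : ¬ (n = 3 ∧ q = 2)) {m : ℕ} (hnm : n = 2 * m + 1) (F₀ : Type*) [Field F₀] [Fintype F₀] (hF₀ : Fintype.card F₀ = q) (γ γ' : MulAut (Cfsg.PSU n F q)) (hγ : Cfsg.IsGraphAutClassPSU γ) (hγ2 : orderOf γ = 2) (hγ' : Cfsg.IsGraphAutClassPSU γ') (hγ'2 : orderOf γ' = 2) :
    Nonempty (↥(Cfsg.inndiagPSU n F q ⊓ Subgroup.centralizer {γ}) ≃* Cfsg.PGO F₀ (Cfsg.quadFormOdd m F₀)) ∧ Cfsg.IsConjUnder (Cfsg.inndiagPSU n F q) γ γ' := by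
  haveI : Cfsg.Agent.Lib.AutPSU.Good n q F := ⟨hF, hn⟩
  haveI : Nontrivial (Fin n) := Fin.nontrivial_iff_two_le.2 (by omega)
  obtain ⟨φ, hB⟩ := Cfsg.Agent.Lib.AutPSU.exists_br hF F₀ hF₀
  obtain ⟨δ, hδ, hδ2, c⟩ := Cfsg.Agent.Lib.AutPSU.exists_corr_of_psu hB hγ hγ2
  obtain ⟨δ', hδ', hδ'2, c'⟩ := Cfsg.Agent.Lib.AutPSU.exists_corr_of_psu hB hγ' hγ'2
  obtain ⟨h1, h2⟩ := Cfsg.Agent.Lib.AutPSL.odd_main hn hnm δ δ' hδ hδ2 hδ' hδ'2
  obtain ⟨e⟩ := h1
  obtain ⟨e'⟩ := c.cent hB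
  exact ⟨⟨e'.trans e⟩, (c.conj hB c').2 h2⟩

end Cfsg.Agent.S2706
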