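import Cfsg.Statements.S2707
import Cfsg.Agent.Lib.AutPSU.GraphBridge

set_option autoImplicit false
open Cfsg

namespace Cfsg.Agent.S2707


/-- Let T = PSU_n(q) with n = 2m ≥ 4 even and q odd, realised over the field F with q² elements, and G = Inndiag(T) the image of PGU_n(q). The involutory graph automorphisms of T fall into exactly three G-classes, with representatives whose centralizers in G are isomorphic respectively to the projective conformal symplectic group PGSp_n(F₀), the projective conformal orthogonal group of the plus-type form Σ xᵢ yᵢ, and that of a minus-type form Σ xᵢ yᵢ + z₁² + a z₁ z₂ + b z₂² (anisotropic binary part) in dimension n, all over a field F₀ with q elements. -/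
theorem result {F : Type*} [Field F] [Fintype F] {q : ℕ} (hodd : Odd q) (hF : Fintype.card F = q ^ 2) {n m : ℕ} (hm : 2 ≤ m) (hnm : n = 2 * m) (F₀ : Type*) [Field F₀] [Fintype F₀] (hF₀ : Fintype.card F₀ = q) :
    ∃ (γ₁ γ₂ γ₃ : MulAut (Cfsg.PSU n F q)) (a b : F₀), (∀ z₁ z₂ : F₀, z₁ ^ 2 + a * z₁ * z₂ + b * z₂ ^ 2 = 0 → z₁ = 0 ∧ z₂ = 0) ∧ Cfsg.IsGraphAutClassPSU γ₁ ∧ orderOf γ₁ = 2 ∧ Cfsg.IsGraphAutClassPSU γ₂ ∧ orderOf γ₂ = 2 ∧ Cfsg.IsGraphAutClassPSU γ₃ ∧ orderOf γ₃ = 2 ∧ ¬ Cfsg.IsConjUnder (Cfsg.inndiagPSU n F q) γ₁ γ₂ ∧ ¬ Cfsg.IsConjUnder (Cfsg.inndiagPSU n F q) γ₁ γ₃ ∧ ¬ Cfsg.IsConjUnder (Cfsg.inndiagPSU n F q) γ₂ γ₃ ∧ (∀ γ : MulAut (Cfsg.PSU n F q), Cfsg.IsGraphAutClassPSU γ → orderOf γ = 2 → Cfsg.IsConjUnder (Cfsg.inndiagPSU n F q) γ₁ γ ∨ Cfsg.IsConjUnder (Cfsg.inndiagPSU n F q)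 γ₂ γ ∨ Cfsg.IsConjUnder (Cfsg.inndiagPSU n F q) γ₃ γ) ∧ Nonempty (↥(Cfsg.inndiagPSU n F q ⊓ Subgroup.centralizer {γ₁}) ≃* Cfsg.PGSp m F₀) ∧ Nonempty (↥(Cfsg.inndiagPSU n F q ⊓ Subgroup.centralizer {γ₂}) ≃* Cfsg.PGO F₀ (Cfsg.quadFormPlus m F₀)) ∧ Nonempty (↥(Cfsg.inndiagPSU n F q ⊓ Subgroup.centralizer {γ₃}) ≃* Cfsg.PGO F₀ (Cfsg.quadFormMinus (m - 1) F₀ a b)) := by
  have hq2 := Cfsg.Agent.Lib.Classical.two_le_q hF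
  haveI : Cfsg.Agent.Lib.AutPSU.Good n q F := ⟨hF, by omega⟩
  haveI : Nontrivial (Fin n) := Fin.nontrivial_iff_two_le.2 (by omega)
  obtain ⟨φ, hB⟩ := Cfsg.Agent.Lib.AutPSU.exists_br hF F₀ hF₀
  obtain ⟨δ₁, δ₂, δ₃, a, b, hab, hδ₁, hδ₁2, hδ₂, hδ₂2, hδ₃, hδ₃2, hne12, hne13, hne23, hall, he₁, he₂, he₃⟩ :=
    Cfsg.Agent.Lib.AutPSL.even_odd_main (n := n) (F := F₀) (by rwa [hF₀]) hm hnm
  obtain ⟨γ₁, hγ₁, hγ₁2, c₁⟩ := Cfsg.Agent.Lib.AutPSU.exists_corr_of_psl hB hδ₁ hδ₁2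
  obtain ⟨γ₂, hγ₂, hγ₂2, c₂⟩ := Cfsg.Agent.Lib.AutPSU.exists_corr_of_psl hB hδ₂ hδ₂2
  obtain ⟨γ₃, hγ₃, hγ₃2, c₃⟩ := Cfsg.Agent.Lib.AutPSU.exists_corr_of_psl hB hδ₃ hδ₃2
  obtain ⟨e₁⟩ := he₁
  obtain ⟨e₂⟩ := he₂
  obtain ⟨e₃⟩ := he₃
  obtain ⟨e₁'⟩ := c₁.cent hB
  obtain ⟨e₂'⟩ := c₂.cent hB
  obtain ⟨e₃'⟩ := c₃.cent hB
  refine ⟨γ₁, γ₂, γ₃, a, b, hab, hγ₁, hγ₁2, hγ₂, hγ₂2, hγ₃, hγ₃2, ?_, ?_, ?_, ?_, ⟨e₁'.trans e₁⟩, ⟨e₂'.trans e₂⟩, ⟨e₃'.trans e₃⟩⟩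
  · rw [c₁.conj hB c₂]
    exact hne12
  · rw [c₁.conj hB c₃]
    exact hne13
  · rw [c₂.conj hB c₃]
    exact hne23
  · intro γ hγ hγ2
    obtain ⟨δ, hδ, hδ2, c⟩ := Cfsg.Agent.Lib.AutPSU.exists_corr_of_psu hB hγ hγ2
    rw [c₁.conj hB c, c₂.conj hB c, c₃.conj hB c]
    exact hall δ hδ hδ2

end Cfsg.Agent.S2707
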