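import Cfsg.Statements.S2708
import Cfsg.Agent.Lib.AutPSU.GraphBridge

set_option autoImplicit false
open Cfsg

namespace Cfsg.Agent.S2708


/-- Let T = PSU_n(q) with n = 2m ≥ 4 even and q even, realised over the field F (of characteristic 2) with q² elements, and G = Inndiag(T) the image of PGU_n(q). The involutory graph automorphisms of T fall into exactly two G-classes, with representatives whose centralizers in G are isomorphic respectively to the symplectic group Sp_n(F₀) and to the centralizer in Sp_n(F₀) of a symplectic transvection, F₀ a field with q elements. -/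
theorem result {F : Type*} [Field F] [Fintype F] [CharP F 2] {q : ℕ} (hF : Fintype.card F = q ^ 2) {n m : ℕ} (hm : 2 ≤ m) (hnm : n = 2 * m) (F₀ : Type*) [Field F₀] [Fintype F₀] (hF₀ : Fintype.card F₀ = q) :
    ∃ (γ₁ γ₃ : MulAut (Cfsg.PSU n F q)) (t : ↥(Matrix.symplecticGroup (Fin m) F₀)), Cfsg.IsTransvection (t : Matrix (Fin m ⊕ Fin m) (Fin m ⊕ Fin m) F₀) ∧ Cfsg.IsGraphAutClassPSU γ₁ ∧ orderOf γ₁ = 2 ∧ Cfsg.IsGraphAutClassPSU γ₃ ∧ orderOf γ₃ = 2 ∧ ¬ Cfsg.IsConjUnder (Cfsg.inndiagPSU n F q) γ₁ γ₃ ∧ (∀ γ : MulAut (Cfsg.PSU n F q), Cfsg.IsGraphAutClassPSU γ → orderOf γ = 2 → Cfsg.IsConjUnder (Cfsg.inndiagPSU n F q) γ₁ γ ∨ Cfsg.IsConjUnder (Cfsg.inndiagPSU n F q) γ₃ γ) ∧ Nonempty (↥(Cfsg.inndiagPSU n F q ⊓ Subgroup.centralizer {γ₁}) ≃* ↥(Matrix.symplecticGroup (Fin m) F₀)) ∧ Nonempty (↥(Cfsg.inndiagPSU n F q ⊓ Subgroup.centralizer {γ₃})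 ≃* ↥(Subgroup.centralizer ({t} : Set ↥(Matrix.symplecticGroup (Fin m) F₀)))) := by
  have hq2 := Cfsg.Agent.Lib.Classical.two_le_q hF
  haveI : Cfsg.Agent.Lib.AutPSU.Good n q F := ⟨hF, by omega⟩
  haveI : Nontrivial (Fin n) := Fin.nontrivial_iff_two_le.2 (by omega)
  obtain ⟨φ, hB⟩ := Cfsg.Agent.Lib.AutPSU.exists_br hF F₀ hF₀
  haveI : CharP F₀ 2 := by
    have h2 : (2 : F₀) = 0 := by
      apply φ.injective
      rw [map_ofNat, map_zero]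
      exact CharTwo.two_eq_zero
    exact CharTwo.of_one_ne_zero_of_two_eq_zero one_ne_zero h2
  obtain ⟨δ₁, δ₃, t, ht, hδ₁, hδ₁2, hδ₃, hδ₃2, hne, hall, he₁, he₃⟩ := Cfsg.Agent.Lib.AutPSL.even_two_main (n := n) (F := F₀) hm hnm
  obtain ⟨γ₁, hγ₁, hγ₁2, c₁⟩ := Cfsg.Agent.Lib.AutPSU.exists_corr_of_psl hB hδ₁ hδ₁2
  obtain ⟨γ₃, hγ₃, hγ₃2, c₃⟩ := Cfsg.Agent.Lib.AutPSU.exists_corr_of_psl hB hδ₃ hδ₃2
  obtain ⟨e₁⟩ := he₁
  obtain ⟨e₃⟩ := he₃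
  obtain ⟨e₁'⟩ := c₁.cent hB
  obtain ⟨e₃'⟩ := c₃.cent hB
  refine ⟨γ₁, γ₃, t, ht, hγ₁, hγ₁2, hγ₃, hγ₃2, ?_, ?_, ⟨e₁'.trans e₁⟩, ⟨e₃'.trans e₃⟩⟩
  · rw [c₁.conj hB c₃]
    exact hne
  · intro γ hγ hγ2
    obtain ⟨δ, hδ, hδ2, c⟩ := Cfsg.Agent.Lib.AutPSU.exists_corr_of_psu hB hγ hγ2
    rw [c₁.conj hB c, c₃.conj hB c]
    exact hall δ hδ hδ2

end Cfsg.Agent.S2708
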