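import Cfsg.Statements.S2710
import Cfsg.Agent.Lib.AutPSU.GraphBridge

set_option autoImplicit false
open Cfsg

namespace Cfsg.Agent.S2710


/-- Let T = PSU_n(q) with n ≥ 4 divisible by 4 (n = 2m) and q odd, realised over the field F with q² elements, G = Inndiag(T) the image of PGU_n(q), and φ the standard field automorphism of T attached to the q-th power map of F (it induces inverse-transpose on the unitary matrices and is a graph automorphism). Its centralizer in G is isomorphic to the projective conformal orthogonal group of the plus-type form Σ xᵢ yᵢ in dimension n over a field F₀ with q elements. (Dimensions n ≡ 2 (mod 4) are not covered.) -/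
theorem result {F : Type*} [Field F] [Fintype F] {q : ℕ} (hodd : Odd q) (hF : Fintype.card F = q ^ 2) {n m : ℕ} (hm : 2 ≤ m) (hnm : n = 2 * m) (h4 : 4 ∣ n) (F₀ : Type*) [Field F₀] [Fintype F₀] (hF₀ : Fintype.card F₀ = q) (σ : F ≃+* F) (hσ : ∀ a : F, σ a = a ^ q) (φ : MulAut (Cfsg.PSU n F q)) (hφ : Cfsg.IsFieldAutPSUOf σ φ) :
    Nonempty (↥(Cfsg.inndiagPSU n F q ⊓ Subgroup.centralizer {φ}) ≃* Cfsg.PGO F₀ (Cfsg.quadFormPlus m F₀)) := by
  have hq2 := Cfsg.Agent.Lib.Classical.two_le_q hF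
  have hGood : Cfsg.Agent.Lib.AutPSU.Good n q F := ⟨hF, by omega⟩
  have hnt : Nontrivial (Fin n) := Fin.nontrivial_iff_two_le.2 (by omega)
  obtain ⟨ψ, hB⟩ := Cfsg.Agent.Lib.AutPSU.exists_br hF F₀ hF₀
  have hσ' : σ = Cfsg.Agent.Lib.AutPSU.frobE hF := by
    ext x
    rw [hσ, Cfsg.Agent.Lib.AutPSU.frobE_apply]
  subst hσ'
  have hd : Cfsg.Agent.Lib.AutPSU.Dat (Cfsg.Agent.Lib.AutPSU.frobE hF) ψ (1 : GL (Fin n) F) (1 : GL (Fin n) F₀) := by
    refine ⟨1, 1, 1, ⟨one_ne_zero, one_ne_zero, ?_, ?_⟩⟩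
    · rw [inv_one]
      simp [Cfsg.Agent.Lib.AutPSL.adj_one]
    · simp
  have hc : Cfsg.Agent.Lib.AutPSU.Corr (Cfsg.Agent.Lib.AutPSU.frobE hF) ψ φ (Cfsg.Agent.Lib.AutPSL.th (1 : GL (Fin n) F₀)) :=
    ⟨1, Cfsg.Agent.Lib.AutPSU.one_mem_GU, 1, Cfsg.Agent.Lib.AutPSU.fieldAut_eq hφ, rfl, hd⟩
  obtain ⟨e⟩ := hc.cent hB
  have hodd' : Odd (Fintype.card F₀) := by rwa [hF₀]
  have hmain := (Cfsg.Agent.Lib.AutPSL.it_cent_main (n := n) (F := F₀) hodd' hm hnm _ Cfsg.Agent.Lib.AutPSL.it_inverseTranspose).1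
  have heven : Even (n * (Fintype.card F₀ - 1) / 4) := by
    rw [hF₀]
    obtain ⟨k, hk⟩ := h4
    obtain ⟨j, hj⟩ := hodd
    rw [hk, mul_assoc, Nat.mul_div_cancel_left _ (by norm_num : 0 < 4)]
    refine Even.mul_left ?_ _
    rw [hj]
    simp
  obtain ⟨e'⟩ := hmain heven
  rw [Cfsg.Agent.Lib.AutPSL.th_one] at e
  exact ⟨e.trans e'⟩

end Cfsg.Agent.S2710
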