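import Cfsg.Statements.S2738
import Mathlib
import Cfsg.Agent.Lib.Classical.SL
import Cfsg.Agent.Lib.Classical.Card2

set_option autoImplicit false
open Cfsg

namespace Cfsg.Agent.S2738

theorem comm_of_central {G : Type*} [Group G] (z₁ z₂ k₁ k₂ : G) (hz₁ : ∀ x, x * z₁ = z₁ * x)
    (hz₂ : ∀ x, x * z₂ = z₂ * x) :
    (z₁ * k₁) * (z₂ * k₂) * (z₁ * k₁)⁻¹ * (z₂ * k₂)⁻¹ = k₁ * k₂ * k₁⁻¹ * k₂⁻¹ := by
  have h1 : ∀ x, z₁ * x * z₁⁻¹ = x := fun x => by rw [← hz₁, mul_inv_cancel_right]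
  have h2 : ∀ x, z₂ * x * z₂⁻¹ = x := fun x => by rw [← hz₂, mul_inv_cancel_right]
  calc (z₁ * k₁) * (z₂ * k₂) * (z₁ * k₁)⁻¹ * (z₂ * k₂)⁻¹
      = (z₁ * (k₁ * (z₂ * k₂) * k₁⁻¹) * z₁⁻¹) * (z₂ * k₂)⁻¹ := by group
    _ = (k₁ * (z₂ * k₂) * k₁⁻¹) * (z₂ * k₂)⁻¹ := by rw [h1]
    _ = (k₁ * z₂) * k₂ * k₁⁻¹ * k₂⁻¹ * z₂⁻¹ := by group
    _ = (z₂ * k₁) * k₂ * k₁⁻¹ * k₂⁻¹ * z₂⁻¹ := by rw [hz₂]
    _ = z₂ * (k₁ * k₂ * k₁⁻¹ * k₂⁻¹) * z₂⁻¹ := by group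
    _ = _ := h2 _


/-- The special linear group SL(3, 4) has centre of order 3 and does not split over it: no subgroup is a complement to the centre (so SL(3, 4) is a non-split central extension of PSL(3, 4) by a group of order 3). -/
theorem result (F : Type*) [Field F] [Fintype F] (hF : Fintype.card F = 4) : Nat.card ↥(Subgroup.center (Matrix.SpecialLinearGroup (Fin 3) F)) = 3 ∧ ¬ ∃ K : Subgroup (Matrix.SpecialLinearGroup (Fin 3) F), Subgroup.IsComplement' (Subgroup.center (Matrix.SpecialLinearGroup (Fin 3) F)) K := by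
  classical
  have hcard : Nat.card ↥(Subgroup.center (Matrix.SpecialLinearGroup (Fin 3) F)) = 3 := by
    rw [Lib.Classical.card_center_SL 3 (by norm_num)]
    rw [Nat.card_eq_fintype_card, hF]
    norm_num
  refine ⟨hcard, ?_⟩
  rintro ⟨K, hK⟩
  have hperf := Lib.Classical.commutator_sl_eq_top_of_three_le (ι := Fin 3) (F := F) (by simp)
  have hle : commutator (Matrix.SpecialLinearGroup (Fin 3) F) ≤ K := by
    rw [commutator_def, Subgroup.commutator_le]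
    intro g₁ _ g₂ _
    obtain ⟨⟨z₁, k₁⟩, h₁⟩ := hK.2 g₁
    obtain ⟨⟨z₂, k₂⟩, h₂⟩ := hK.2 g₂
    simp only at h₁ h₂
    have e := comm_of_central (z₁ : Matrix.SpecialLinearGroup (Fin 3) F) z₂ k₁ k₂
      (Subgroup.mem_center_iff.1 z₁.2) (Subgroup.mem_center_iff.1 z₂.2)
    show g₁ * g₂ * g₁⁻¹ * g₂⁻¹ ∈ K
    rw [← h₁, ← h₂, e]
    exact K.mul_mem (K.mul_mem (K.mul_mem k₁.2 k₂.2) (K.inv_mem k₁.2)) (K.inv_mem k₂.2)
  rw [hperf, top_le_iff] at hle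
  have hdisj := hK.disjoint
  rw [hle, disjoint_top] at hdisj
  rw [hdisj] at hcard
  simp at hcard

end Cfsg.Agent.S2738
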