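import Cfsg.Statements.S2739
import Mathlib
import Cfsg.Agent.Lib.Psl34.Order3

set_option autoImplicit false
open scoped Pointwise
open Cfsg

namespace Cfsg.Agent.S2739


/-- In the projective special linear group PSL(3, 4) all subgroups of order 3 are conjugate. -/
theorem result (F : Type*) [Field F] [Fintype F] (hF : Fintype.card F = 4) (X Y : Subgroup (Matrix.ProjectiveSpecialLinearGroup (Fin 3) F)) (hX : Nat.card ↥X = 3) (hY : Nat.card ↥Y = 3) : ∃ g : Matrix.ProjectiveSpecialLinearGroup (Fin 3) F, MulAut.conj g • X = Y := by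
  classical
  obtain ⟨ω, hω0, hω1⟩ : ∃ ω : F, ω ≠ 0 ∧ ω ≠ 1 := by
    by_contra hcon
    push Not at hcon
    have h1 : (Finset.univ : Finset F) ⊆ {0, 1} := by
      intro a _
      by_cases ha : a = 0
      · simp [ha]
      · simp [hcon a ha]
    have h2 := Finset.card_le_card h1
    rw [Finset.card_univ, hF] at h2
    have h3 : ({0, 1} : Finset F).card ≤ 2 := Finset.card_le_two
    omega
  have hω3 := Cfsg.Agent.Lib.Psl34.pow_three_eq_one hF hω0
  let D : Matrix.SpecialLinearGroup (Fin 3) F := ⟨Matrix.diagonal ![1, ω, ω ^ 2], by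
    rw [Matrix.det_diagonal, Fin.prod_univ_three]
    simp only [Matrix.cons_val_zero, Matrix.cons_val_one, Matrix.cons_val]
    linear_combination hω3⟩
  have hcyc : ∀ Z : Subgroup (Matrix.ProjectiveSpecialLinearGroup (Fin 3) F), Nat.card Z = 3 →
      ∃ z, orderOf z = 3 ∧ Z = Subgroup.zpowers z := by
    intro Z hZ
    haveI : Fact (Nat.Prime 3) := ⟨Nat.prime_three⟩
    haveI : IsCyclic Z := isCyclic_of_prime_card hZ
    obtain ⟨z, hz⟩ := IsCyclic.exists_generator (α := Z)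
    refine ⟨z, ?_, ?_⟩
    · rw [Subgroup.orderOf_coe, orderOf_eq_card_of_forall_mem_zpowers hz, hZ]
    · ext a
      constructor
      · intro ha
        obtain ⟨k, hk⟩ := hz ⟨a, ha⟩
        refine ⟨k, ?_⟩
        have := congrArg Subtype.val hk
        simpa using this
      · rintro ⟨k, rfl⟩
        exact Z.zpow_mem z.2 k
  obtain ⟨x, hxo, rfl⟩ := hcyc X hX
  obtain ⟨y, hyo, rfl⟩ := hcyc Y hY
  obtain ⟨s, hs⟩ := Cfsg.Agent.Lib.Psl34.exists_conj_std hF hω0 hω1 D rfl x hxo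
  obtain ⟨t, ht⟩ := Cfsg.Agent.Lib.Psl34.exists_conj_std hF hω0 hω1 D rfl y hyo
  refine ⟨t * s⁻¹, ?_⟩
  have h1 : y = (t * s⁻¹) * x * (t * s⁻¹)⁻¹ := by
    rw [ht, hs]
    group
  have h2 : MulAut.conj (t * s⁻¹) • Subgroup.zpowers x = (Subgroup.zpowers x).map (MulAut.conj (t * s⁻¹)).toMonoidHom := rfl
  rw [h1, h2, MonoidHom.map_zpowers]
  rfl

end Cfsg.Agent.S2739
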