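import Cfsg.Statements.S2760
import Cfsg.Agent.Lib.LocalEven.PIrr

set_option autoImplicit false
open Cfsg

namespace Cfsg.Agent.S2760

/-- Let G be a finite group with C_G(O₂(G)) ≤ O₂(G) and H a subgroup of G such that H is normal in G, or the subgroup O²(H) generated by the elements of H of odd order is normal in G. Then C_H(O₂(H)) ≤ O₂(H). -/
theorem result {G : Type*} [Group G] [Finite G] (hchar : Subgroup.centralizer (Cfsg.pCore 2 G : Set G) ≤ Cfsg.pCore 2 G) (H : Subgroup G) (hH : H.Normal ∨ ((Cfsg.pResidual 2 ↥H).map H.subtype).Normal) : Subgroup.centralizer (Cfsg.pCore 2 ↥H : Set ↥H) ≤ Cfsg.pCore 2 ↥H := by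
  classical
  have key : ∀ R : Subgroup G, R.Normal → R ≤ H → (∀ x : H, (orderOf x).Coprime 2 → (x : G) ∈ R) →
      Subgroup.centralizer (Cfsg.pCore 2 ↥H : Set ↥H) ≤ Cfsg.pCore 2 ↥H := by
    intro R hRn hRH hodd
    haveI : Fact (Nat.Prime 2) := ⟨Nat.prime_two⟩
    set Q := Cfsg.pCore 2 G with hQdef
    have hQn : Q.Normal := Cfsg.pCore_normal 2 G
    have hQp : IsPGroup 2 ↥Q := Cfsg.Agent.Lib.Basic.pCore_isPGroup 2
    haveI hPn : (Cfsg.pCore 2 ↥H).Normal := Cfsg.pCore_normal 2 ↥H
    have hCn : (Subgroup.centralizer (Cfsg.pCore 2 ↥H : Set ↥H)).Normal := inferInstance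
    apply Cfsg.Agent.Lib.Basic.le_pCore hCn
    apply Cfsg.Agent.Lib.LocalEven.isPGroup_subgroup_of_forall_coprime
    intro x hxC hxo
    have hxR : (x : G) ∈ R := hodd x hxo
    have hxo' : (orderOf (x : G)).Coprime 2 := by rw [Subgroup.orderOf_coe]; exact hxo
    -- `A = Q ⊓ R` lies in `O₂(H)`
    have hA : ∀ a ∈ Q ⊓ R, ∃ h : a ∈ H, (⟨a, h⟩ : H) ∈ Cfsg.pCore 2 ↥H := by
      have hAn : ((Q ⊓ R).subgroupOf H).Normal := by
        haveI := hQn; haveI := hRn; haveI : (Q ⊓ R).Normal := inferInstance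
        exact Subgroup.normal_subgroupOf
      have hAp : IsPGroup 2 ↥((Q ⊓ R).subgroupOf H) := by
        have h1 : IsPGroup 2 ↥(Q ⊓ R) := hQp.to_le inf_le_left
        exact h1.comap_of_injective H.subtype H.subtype_injective
      intro a ha
      have haH : a ∈ H := hRH ha.2
      exact ⟨haH, Cfsg.Agent.Lib.Basic.le_pCore hAn hAp (Subgroup.mem_subgroupOf.2 ha)⟩
    have hcomm : ∀ b ∈ Q, Commute (x : G) b := by
      apply Cfsg.Agent.Lib.LocalEven.coprime_commute_of_commutator_mem hxo' hQp (inf_le_left : Q ⊓ R ≤ Q)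
      · intro a ha
        obtain ⟨haH, hac⟩ := hA a ha
        have := (Subgroup.mem_centralizer_iff.1 hxC) _ hac
        have h2 := congrArg Subtype.val this
        exact h2.symm
      · intro b hb
        constructor
        · have e : b * (x : G) * b⁻¹ * (x : G)⁻¹ = b * ((x : G) * b⁻¹ * (x : G)⁻¹) := by group
          rw [e]
          exact Q.mul_mem hb (hQn.conj_mem _ (Q.inv_mem hb) _)
        · exact R.mul_mem (hRn.conj_mem _ hxR b) (R.inv_mem hxR)
    have hxC' : (x : G) ∈ Subgroup.centralizer (Q : Set G) := by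
      refine Subgroup.mem_centralizer_iff.2 ?_
      intro b hb
      exact (hcomm b hb).symm
    have hxQ := hchar hxC'
    have h1 : (x : G) = 1 :=
      Cfsg.Agent.Lib.LocalEven.eq_one_of_coprime_of_pPower
        (Cfsg.Agent.Lib.LocalEven.orderOf_of_mem_isPGroup hQp hxQ) hxo'
    exact Subtype.ext h1
  rcases hH with hH | hH
  · exact key H hH le_rfl (fun x _ => x.2)
  · refine key _ hH ?_ ?_
    · exact Subgroup.map_subtype_le _
    · intro x hx
      exact ⟨x, Subgroup.subset_closure hx, rfl⟩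

end Cfsg.Agent.S2760
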