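import Cfsg.Statements.S2781
import Cfsg.Agent.Lib.LocalEven.Kieler
import Cfsg.Agent.Lib.Basic.CoprimeAction2

set_option autoImplicit false
open Cfsg
open scoped commutatorElement

namespace Cfsg.Agent.S2781

/-- Let H act faithfully by conjugation on the elementary abelian p-subgroup V of a finite group, let O^p(H) be the subgroup of H generated by its elements of order prime to p, and T a Sylow p-subgroup of O^p(H). If V is generated by the H-conjugates of C_V(T) (V is the smallest H-invariant subgroup containing C_V(T)), then V = [V, O^p(H)]·C_V(O^p(H)). -/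
theorem result {G : Type*} [Group G] [Finite G] {p : ℕ} [Fact p.Prime] (V H : Subgroup G) (hV : Cfsg.IsElementaryAbelian p V) (hHV : H ≤ Subgroup.normalizer (V : Set G)) (hf : H ⊓ Subgroup.centralizer (V : Set G) = ⊥) (R : Subgroup G) (hR : R = (Cfsg.pResidual p ↥H).map H.subtype) (S : Sylow p ↥R) (T : Subgroup G) (hT : T = ((S : Subgroup ↥R).map R.subtype)) (hgen : ∀ W : Subgroup G, H ≤ Subgroup.normalizer (W : Set G) → (V ⊓ Subgroup.centralizer ((T : Subgroup G) : Set G)) ≤ W → V ≤ W) : ⁅V, R⁆ ⊔ (V ⊓ Subgroup.centralizer ((R : Subgroup G) : Set G)) = V := by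
  open Cfsg.Agent.Lib.LocalEven Cfsg.Agent.Lib.Basic in
  have hRH : R ≤ H := by
    rw [hR]; exact Subgroup.map_subtype_le _
  have hHR : H ≤ Subgroup.normalizer (R : Set G) := by
    rw [hR]
    exact le_normalizer_map_subtype (pResidual_normal p)
  have hRV : R ≤ Subgroup.normalizer (V : Set G) := hRH.trans hHV
  have hTR : T ≤ R := by
    rw [hT]; exact Subgroup.map_subtype_le _
  have hVc : ∀ a ∈ V, ∀ b ∈ V, a * b = b * a := fun a ha b hb => IsElementaryAbelian_comm hV ha hb
  have hle : ⁅V, R⁆ ≤ V := by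
    rw [Subgroup.commutator_le]
    intro v hv r hr
    have h1 : r * v⁻¹ * r⁻¹ ∈ V := (Subgroup.mem_normalizer_iff.1 (hRV hr) _).1 (V.inv_mem hv)
    have : ⁅v, r⁆ = v * (r * v⁻¹ * r⁻¹) := by
      rw [commutatorElement_def]; group
    rw [this]
    exact V.mul_mem hv h1
  have hWnorm : H ≤ Subgroup.normalizer ((⁅V, R⁆ ⊔ (V ⊓ Subgroup.centralizer ((R : Subgroup G) : Set G)) : Subgroup G) : Set G) := by
    apply Cfsg.Agent.Lib.Basic.le_normalizer_sup
    · intro g hg
      exact normalizer_le_normalizer_commutator V R ⟨hHV hg, hHR hg⟩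
    · intro g hg
      rw [Subgroup.mem_normalizer_iff]
      intro x
      have h1 := Subgroup.mem_normalizer_iff.1 (hHV hg) x
      have h2 := Subgroup.mem_normalizer_iff.1 (normalizer_le_normalizer_centralizer R (hHR hg)) x
      constructor
      · rintro ⟨a, b⟩
        exact ⟨h1.1 a, h2.1 b⟩
      · rintro ⟨a, b⟩
        exact ⟨h1.2 a, h2.2 b⟩
  apply le_antisymm (sup_le hle inf_le_left)
  apply hgen _ hWnorm
  rintro v ⟨hv, hvT⟩
  obtain ⟨w, hwV, hwR, hk⟩ := exists_trace R T R V hTR hRV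
    (fun l hl => ⟨l, hl, 1, T.one_mem, by simp⟩) hVc hv
    (fun s hs => (Subgroup.mem_centralizer_iff.1 hvT s hs))
  have hnd : ¬ p ∣ T.relIndex R := by
    haveI : Finite ↥R := inferInstance
    have := sylow_relIndex_not_dvd S
    rw [hT]
    exact this
  have hw : w ∈ V ⊓ Subgroup.centralizer ((R : Subgroup G) : Set G) := by
    refine ⟨hwV, Subgroup.mem_centralizer_iff.2 ?_⟩
    intro r hr
    exact hwR r hr
  apply mem_of_pow_mem hnd (hV.2 v hv)
  have h1 : v ^ T.relIndex R = (w * (v ^ T.relIndex R)⁻¹)⁻¹ * w := by group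
  rw [h1]
  exact Subgroup.mul_mem _ (Subgroup.inv_mem _ (Subgroup.mem_sup_left hk)) (Subgroup.mem_sup_right hw)

end Cfsg.Agent.S2781
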