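import Cfsg.Statements.S2788
import Cfsg.Agent.Lib.LocalEven.SL2Bound

set_option autoImplicit false
open Cfsg

namespace Cfsg.Agent.S2788

/-- Let H act faithfully by conjugation on the elementary abelian p-subgroup V of a finite group with H ≅ SL₂(F), F a field with p^n elements, S a Sylow p-subgroup of H, and A ≤ S a subgroup of order at least 3 acting quadratically on V ([V, A, A] = 1). Then |V/C_V(a)| ≥ p^n for every nonidentity a ∈ A. -/
theorem result {G : Type*} [Group G] [Finite G] {p : ℕ} [Fact p.Prime] (V H : Subgroup G) (hV : Cfsg.IsElementaryAbelian p V) (hHV : H ≤ Subgroup.normalizer (V : Set G)) (hf : H ⊓ Subgroup.centralizer (V : Set G) = ⊥) {F : Type*} [Field F] [Fintype F] (n : ℕ) (hF : Fintype.card F = p ^ n) (hiso : Nonempty (↥H ≃* Matrix.SpecialLinearGroup (Fin 2) F)) (S : Sylow p ↥H) (T : Subgroup G) (hT : T = ((S : Subgroup ↥H).map H.subtype)) (A : Subgroup G) (hA : A ≤ T) (hA3 : 3 ≤ Nat.card A) (hquad : ⁅⁅V, A⁆, A⁆ = ⊥) : ∀ a ∈ A, a ≠ 1 → p ^ n ≤ ((V ⊓ Subgroup.centralizer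 ({a} : Set G))).relIndex V := by
  classical
  have hpp : p.Prime := Fact.out
  have hn0 : n ≠ 0 := by
    rintro rfl
    have := Fintype.one_lt_card (α := F)
    rw [hF] at this
    simp at this
  haveI hchar : CharP F p := by
    obtain ⟨r, hr⟩ := CharP.exists F
    obtain ⟨m, hrp, hm⟩ := FiniteField.card F r
    rw [hF] at hm
    have h1 : p ∣ r ^ (m : ℕ) := by
      rw [← hm]
      exact dvd_pow_self _ hn0
    have h2 := (Nat.prime_dvd_prime_iff_eq hpp hrp).1 (hpp.dvd_of_dvd_pow h1)
    subst h2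
    exact hr
  obtain ⟨e⟩ := hiso
  have hVp : IsPGroup p V := by
    intro v
    refine ⟨1, ?_⟩
    apply Subtype.ext
    simpa using hV.2 v v.2
  intro a ha ha1
  have haT : a ∈ T := hA ha
  rw [hT] at haT
  obtain ⟨s, hs, rfl⟩ := haT
  obtain ⟨k, hk⟩ := S.isPGroup' ⟨s, hs⟩
  have hk' : s ^ (p ^ k) = 1 := congrArg Subtype.val hk
  have hs1 : s ≠ 1 := fun h => ha1 (by rw [h]; rfl)
  by_cases hn : 2 ≤ n
  · let f : H →* Matrix.ProjectiveSpecialLinearGroup (Fin 2) F := (Cfsg.Agent.Lib.LocalEven.SL2Bound.pi₀ F).comp e.toMonoidHom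
    have hfs : Function.Surjective f := Cfsg.Agent.Lib.LocalEven.SL2Bound.pi₀_surj.comp e.surjective
    have hker : ∀ k ∈ f.ker, (orderOf k).Coprime p := by
      intro k hk
      have h1 : e k ∈ Subgroup.center _ := (QuotientGroup.eq_one_iff _).1 hk
      have h2 := Cfsg.Agent.Lib.LocalEven.SL2Bound.center_sq h1
      have h3 : k ^ 2 = 1 := by
        apply e.injective
        rw [map_pow, pow_two, h2, map_one]
      have h4 : orderOf k ∣ 2 := orderOf_dvd_of_pow_eq_one h3
      by_cases hp2 : p = 2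
      · subst hp2
        have h5 := Cfsg.Agent.Lib.LocalEven.SL2Bound.center_char_two h1
        have h6 : k = 1 := e.injective (by rw [h5, map_one])
        rw [h6, orderOf_one]
        exact Nat.coprime_one_left _
      · exact Nat.Coprime.coprime_dvd_left h4 ((Nat.coprime_primes Nat.prime_two hpp).2 (Ne.symm hp2))
    exact (Cfsg.Agent.Lib.LocalEven.SL2Bound.key_bound V H hVp hHV hf n hF hn f hfs hker).2 s ⟨k, hk'⟩ hs1
  · have hn1 : n = 1 := by omega
    subst hn1
    rw [pow_one]
    -- a nontrivial `p`-power index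
    set C := (V ⊓ Subgroup.centralizer ({((Subgroup.subtype H) s)} : Set G)) with hC
    have h0 : C.relIndex V ≠ 1 := by
      intro h1
      have h2 : V ≤ C := Subgroup.relIndex_eq_one.1 h1
      have h3 : (s : G) ∈ H ⊓ Subgroup.centralizer (V : Set G) := by
        refine ⟨s.2, ?_⟩
        show (s : G) ∈ Subgroup.centralizer (V : Set G)
        rw [Subgroup.mem_centralizer_iff]
        intro v hv
        have h4 := (h2 hv).2
        have h5 : v ∈ Subgroup.centralizer ({(s : G)} : Set G) := h4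
        rw [Subgroup.mem_centralizer_iff] at h5
        exact (h5 _ rfl).symm
      rw [hf] at h3
      exact hs1 (Subtype.ext h3)
    obtain ⟨b, hb⟩ := IsPGroup.iff_card.1 hVp
    have h1 : C.relIndex V ∣ p ^ b := by
      rw [← hb]
      exact Subgroup.index_dvd_card _
    obtain ⟨d, _, hd⟩ := (Nat.dvd_prime_pow hpp).1 h1
    rw [hd] at h0 ⊢
    have hd0 : d ≠ 0 := by
      rintro rfl
      exact h0 (pow_zero p)
    exact Nat.le_self_pow hd0 p

end Cfsg.Agent.S2788
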