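import Cfsg.Statements.S2947
import Cfsg.Agent.Lib.LocalEven2.Sylow
import Cfsg.Prelude.Def_JComponents
import Cfsg.Prelude.Def_Involutions
-- import your own Cfsg.Agent.* helpers here

set_option autoImplicit false
open Cfsg

namespace Cfsg.Agent.S2947

open Cfsg.Agent.Lib.LocalEven2 Cfsg.Agent.Lib.LocalEven Cfsg.Agent.Lib.Coprime Cfsg Cfsg.Agent.Lib.Basic

theorem two_dvd_card_of_ne_bot {G : Type*} [Group G] [Finite G] {D : Subgroup G} (hD : IsPGroup 2 D) (h : D ≠ ⊥) :
    2 ∣ Nat.card D := by
  have : Fact (Nat.Prime 2) := ⟨Nat.prime_two⟩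
  rcases hD.card_eq_or_dvd with h1 | h1
  · exact absurd (Subgroup.eq_bot_of_card_eq D h1) h
  · exact h1

theorem not_odd_of_le {G : Type*} [Group G] [Finite G] {D E : Subgroup G} (hD : IsPGroup 2 D) (h : D ≠ ⊥) (hle : D ≤ E) :
    ¬ Odd (Nat.card E) := by
  intro ho
  have h1 := two_dvd_card_of_ne_bot hD h
  have h2 := h1.trans (Subgroup.card_dvd_of_le hle)
  exact (Nat.not_even_iff_odd.2 ho) (even_iff_two_dvd.2 h2)

/-- Let G be a finite group of characteristic 2 type in which every 2-local subgroup is solvable and the centralizer of Ω₁(Z(S)) lies in N_G(S) for every Sylow 2-subgroup S; suppose O₂(G) = 1, fix a Sylow 2-subgroup S and a 2-local subgroup M containing N_G(J(S)) (J the Thompson subgroup generated by the elementary abelian 2-subgroups of largest order). Then M is strongly embedded in G (a proper subgroup of even order whose intersection with each conjugate by an element outside M has odd order) if and only if no nontrivial 2-subgroup of M lies in a 2-local subgroup of G not contained in M.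 -/
theorem result {G : Type*} [Group G] [Finite G] (hL : Cfsg.IsCharacteristicTwoType G) (hN : ∀ N : Subgroup G, Cfsg.IsTwoLocal N → Group.IsSolvable ↥N)
    (hZ : ∀ S : Sylow 2 G, Subgroup.centralizer (Cfsg.omegaCenterOf (S : Subgroup G) : Set G) ≤ Subgroup.normalizer ((S : Subgroup G) : Set G)) (hO : Cfsg.pCore 2 G = ⊥) (S : Sylow 2 G) (M : Subgroup G) (hM : Cfsg.IsTwoLocal M)
    (hMJ : Subgroup.normalizer (Cfsg.thompsonSubgroupOf 2 (S : Subgroup G) : Set G) ≤ M) :
    Cfsg.IsStronglyEmbedded M ↔ Cfsg.straddlingTwoSubgroups M = ∅ := by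
  have : Fact (Nat.Prime 2) := ⟨Nat.prime_two⟩
  constructor
  · rintro ⟨hne, _, hodd⟩
    -- a 2-subgroup meeting `M` lies in `M`.
    have hgo : ∀ (D : Subgroup G), IsPGroup 2 D → D ≠ ⊥ → D ≤ M → ∀ g : G, D ≤ M.map (MulAut.conj g).toMonoidHom → g ∈ M := by
      intro D hD hD1 hDM g hg
      by_contra hgM
      exact not_odd_of_le hD hD1 (le_inf hDM hg) (hodd g hgM)
    have hR : ∀ R : Subgroup G, IsPGroup 2 R → R ⊓ M ≠ ⊥ → R ≤ M := by
      intro R hR hRM
      by_contra hle
      have hlt : R ⊓ M < R := by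
        refine lt_of_le_of_ne inf_le_left ?_
        intro e
        exact hle (inf_eq_left.1 e)
      obtain ⟨a, ha, ha'⟩ := SetLike.exists_of_lt (lt_inf_normalizer_of_lt hR hlt)
      have haR := (Subgroup.mem_inf.1 ha).1
      have haN := (Subgroup.mem_inf.1 ha).2
      have haM : a ∈ M := by
        apply hgo (R ⊓ M) (hR.to_le inf_le_left) hRM inf_le_right a
        intro x hx
        rw [mem_conj_map]
        have h1 : a⁻¹ * x * a⁻¹⁻¹ ∈ R ⊓ M := (Subgroup.mem_normalizer_iff.1 (Subgroup.inv_mem _ haN) x).1 hx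
        have h2 := (Subgroup.mem_inf.1 h1).2
        simpa using h2
      exact ha' (Subgroup.mem_inf.2 ⟨haR, haM⟩)
    rw [Set.eq_empty_iff_forall_notMem]
    rintro T ⟨hT, hT1, hTM, L, ⟨X, hX, hX1, rfl⟩, hTL, hLM⟩
    apply hLM
    have hsup : IsPGroup 2 (T ⊔ X : Subgroup G) := IsPGroup.to_sup_of_normal_right' hT hX hTL
    have h1 : (T ⊔ X : Subgroup G) ⊓ M ≠ ⊥ := by
      intro e
      apply hT1
      rw [eq_bot_iff, ← e]
      exact le_inf le_sup_left hTM
    have h2 := hR _ hsup h1
    have hXM : X ≤ M := le_sup_right.trans h2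
    intro g hg
    apply hgo X hX hX1 hXM g
    intro x hx
    rw [mem_conj_map]
    have := (Subgroup.mem_normalizer_iff.1 (Subgroup.inv_mem _ hg) x).1 hx
    apply hXM
    simpa using this
  · intro hemp
    have hE : ∀ T : Subgroup G, IsPGroup 2 T → T ≠ ⊥ → T ≤ M → ∀ L : Subgroup G, IsTwoLocal L → T ≤ L → L ≤ M := by
      intro T hT hT1 hTM L hL hTL
      by_contra hLM
      have : T ∈ straddlingTwoSubgroups M := ⟨hT, hT1, hTM, L, hL, hTL, hLM⟩
      rw [hemp] at this
      exact this
    obtain ⟨T₀, hT₀, hT₀1, hMT₀⟩ := hM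
    have hT₀M : T₀ ≤ M := by rw [hMT₀]; exact Subgroup.le_normalizer
    refine ⟨?_, ?_, ?_⟩
    · intro e
      have hn : T₀.Normal := by
        rw [← Subgroup.normalizer_eq_top_iff]
        rw [← hMT₀, e]
      have h1 : T₀ ≤ pCore 2 G := le_pCore hn hT₀
      rw [hO] at h1
      exact hT₀1 (le_bot_iff.1 h1)
    · exact even_iff_two_dvd.2 ((two_dvd_card_of_ne_bot hT₀ hT₀1).trans (Subgroup.card_dvd_of_le hT₀M))
    · intro g hg
      by_contra hnotodd
      rw [Nat.not_odd_iff_even] at hnotodd
      set D : Subgroup G := M ⊓ M.map (MulAut.conj g).toMonoidHom with hD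
      have h2 : 2 ∣ Nat.card D := even_iff_two_dvd.1 hnotodd
      -- a Sylow 2-subgroup of `D`
      obtain ⟨P₀⟩ : Nonempty (Sylow 2 D) := inferInstance
      set P : Subgroup G := (P₀ : Subgroup D).map D.subtype with hP
      have hPp : IsPGroup 2 P := P₀.isPGroup'.map _
      have hPD : P ≤ D := by
        rintro _ ⟨x, _, rfl⟩
        exact x.2
      have hP1 : P ≠ ⊥ := by
        intro e
        have h3 : (P₀ : Subgroup D) = ⊥ := by
          rw [eq_bot_iff]
          intro x hx
          have : (x : G) ∈ P := ⟨x, hx, rfl⟩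
          rw [e, Subgroup.mem_bot] at this
          exact Subgroup.mem_bot.2 (Subtype.ext this)
        have h4 := P₀.not_dvd_index
        rw [h3, Subgroup.index_bot] at h4
        exact h4 h2
      have hPM : P ≤ M := hPD.trans inf_le_left
      have hNP : Subgroup.normalizer (P : Set G) ≤ M :=
        hE P hPp hP1 hPM _ ⟨P, hPp, hP1, rfl⟩ Subgroup.le_normalizer
      have hNPg : Subgroup.normalizer (P : Set G) ≤ M.map (MulAut.conj g).toMonoidHom := by
        have hPg : P.map (MulAut.conj g⁻¹).toMonoidHom ≤ M := by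
          rintro _ ⟨x, hx, rfl⟩
          have h3 := (hPD.trans inf_le_right) hx
          rw [mem_conj_map] at h3
          simpa using h3
        have h3 := hE (P.map (MulAut.conj g⁻¹).toMonoidHom) (isPGroup_conj_map hPp _) (by
          intro e
          apply hP1
          have := congrArg (fun K : Subgroup G => K.map (MulAut.conj g).toMonoidHom) e
          simp only [conj_map_conj_map, mul_inv_cancel, conj_map_one, Subgroup.map_bot] at this
          exact this) hPg _ ⟨_, isPGroup_conj_map hPp _, (by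
          intro e
          apply hP1
          have := congrArg (fun K : Subgroup G => K.map (MulAut.conj g).toMonoidHom) e
          simp only [conj_map_conj_map, mul_inv_cancel, conj_map_one, Subgroup.map_bot] at this
          exact this), rfl⟩ Subgroup.le_normalizer
        intro n hn
        rw [mem_conj_map]
        apply h3
        rw [Subgroup.mem_normalizer_iff]
        intro y
        rw [mem_conj_map, mem_conj_map, inv_inv]
        have e : g * (g⁻¹ * n * g * y * (g⁻¹ * n * g)⁻¹) * g⁻¹ = n * (g * y * g⁻¹) * n⁻¹ := by group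
        rw [e]
        exact Subgroup.mem_normalizer_iff.1 hn _
      have hND : Subgroup.normalizer (P : Set G) ≤ D := le_inf hNP hNPg
      obtain ⟨S₁, hS₁⟩ := hPp.exists_le_sylow
      have hPS : P = S₁ := by
        by_contra hne
        have hlt : P < S₁ := lt_of_le_of_ne hS₁ hne
        have h3 := lt_inf_normalizer_of_lt S₁.isPGroup' hlt
        set Q : Subgroup G := (S₁ : Subgroup G) ⊓ Subgroup.normalizer (P : Set G) with hQ
        have hQD : Q ≤ D := inf_le_right.trans hND
        have hQp : IsPGroup 2 Q := S₁.isPGroup'.to_le inf_le_left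
        have hQ' : IsPGroup 2 (Q.subgroupOf D) := hQp.of_equiv (Subgroup.subgroupOfEquivOfLe hQD).symm
        have hP₀Q : (P₀ : Subgroup D) ≤ Q.subgroupOf D := by
          intro x hx
          exact h3.le ⟨x, hx, rfl⟩
        have h4 := P₀.is_maximal' hQ' hP₀Q
        obtain ⟨a, ha, ha'⟩ := SetLike.exists_of_lt h3
        apply ha'
        have ha2 : (⟨a, hQD ha⟩ : D) ∈ Q.subgroupOf D := ha
        rw [h4] at ha2
        exact ⟨_, ha2, rfl⟩
      -- `P` is Sylow in `G`.
      have hPg : P.map (MulAut.conj g⁻¹).toMonoidHom ≤ M := by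
        rintro _ ⟨x, hx, rfl⟩
        have h3 := (hPD.trans inf_le_right) hx
        rw [mem_conj_map] at h3
        simpa using h3
      obtain ⟨S₂, hS₂⟩ := exists_sylow_eq_conj S₁ g⁻¹
      obtain ⟨m, hm, hme⟩ := sylow_conj_in (M := M) S₂ S₁ (by rw [hS₂, ← hPS]; exact hPg) (by rw [← hPS]; exact hPM)
      apply hg
      -- `P = m (g⁻¹ P g) m⁻¹`, so `m g⁻¹` normalizes `P`.
      have h3 : P = P.map (MulAut.conj (m * g⁻¹)).toMonoidHom := by
        conv_lhs => rw [hPS, hme, hS₂, ← hPS]
        rw [conj_map_conj_map]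
      have h4 : m * g⁻¹ ∈ Subgroup.normalizer (P : Set G) := (conj_map_eq_iff_mem_normalizer P _).1 h3.symm
      have h5 := hNP h4
      have h6 : g = (m * g⁻¹)⁻¹ * m := by group
      rw [h6]
      exact M.mul_mem (M.inv_mem h5) hm

end Cfsg.Agent.S2947
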