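import Cfsg.Statements.S3085
import Cfsg.Agent.Lib.Transfer.Frattini
-- import your own Cfsg.Agent.* helpers here

set_option autoImplicit false
open Cfsg

namespace Cfsg.Agent.S3085

open Subgroup

section Tau

variable {Q : Type*} [Group Q]

/-- Hypotheses for the lift of the transvection at `v`. -/
structure Good (z v : Q) : Prop where
  hz : ∀ g : Q, z * g = g * z
  hz1 : z ≠ 1
  hzz : z * z = 1
  hvv : v * v = z
  hdi : ∀ x : Q, x * v = v * x ∨ x * v = z * (v * x)

open Classical in
/-- The underlying function of the lift. -/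
noncomputable def tauFun (v x : Q) : Q := if x * v = v * x then x else x * v

theorem tauFun_of_comm {v x : Q} (h : x * v = v * x) : tauFun v x = x := if_pos h

theorem tauFun_of_not {v x : Q} (h : ¬ x * v = v * x) : tauFun v x = x * v := if_neg h

variable {z v : Q}

theorem not_comm_of_z (hg : Good z v) {x : Q} (h : x * v = z * (v * x)) : ¬ x * v = v * x := by
  intro h2
  rw [h2] at h
  have : z * (v * x) = 1 * (v * x) := by rw [← h, one_mul]
  exact hg.hz1 (mul_right_cancel this)

theorem tauFun_mul (hg : Good z v) (x y : Q) : tauFun v (x * y) = tauFun v x * tauFun v y := by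
  have hz := hg.hz
  by_cases hx : x * v = v * x
  · by_cases hy : y * v = v * y
    · have hxy : x * y * v = v * (x * y) := by
        rw [mul_assoc, hy, ← mul_assoc, hx, mul_assoc]
      rw [tauFun_of_comm hxy, tauFun_of_comm hx, tauFun_of_comm hy]
    · have hy2 := (hg.hdi y).resolve_left hy
      have hxy : x * y * v = z * (v * (x * y)) := by
        rw [mul_assoc, hy2, ← mul_assoc x z, ← hz x, mul_assoc z x, ← mul_assoc x v, hx]
        simp only [mul_assoc]
      rw [tauFun_of_not (not_comm_of_z hg hxy), tauFun_of_comm hx, tauFun_of_not hy, mul_assoc]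
  · have hx2 := (hg.hdi x).resolve_left hx
    by_cases hy : y * v = v * y
    · have hxy : x * y * v = z * (v * (x * y)) := by
        rw [mul_assoc, hy, ← mul_assoc, hx2]
        simp only [mul_assoc]
      rw [tauFun_of_not (not_comm_of_z hg hxy), tauFun_of_not hx, tauFun_of_comm hy]
      rw [mul_assoc, mul_assoc, hy]
    · have hy2 := (hg.hdi y).resolve_left hy
      have hxy : x * y * v = v * (x * y) := by
        calc x * y * v = x * (y * v) := mul_assoc _ _ _
          _ = x * (z * (v * y)) := by rw [hy2]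
          _ = z * ((x * v) * y) := by rw [← mul_assoc x z, ← hz x]; simp only [mul_assoc]
          _ = z * ((z * (v * x)) * y) := by rw [hx2]
          _ = (z * z) * (v * (x * y)) := by simp only [mul_assoc]
          _ = v * (x * y) := by rw [hg.hzz, one_mul]
      rw [tauFun_of_comm hxy, tauFun_of_not hx, tauFun_of_not hy]
      -- x v y v = x y
      have hvy : v * y = z * (y * v) := by
        rw [hy2, ← mul_assoc, hg.hzz, one_mul]
      calc x * y = x * y * (z * z) := by rw [hg.hzz, mul_one]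
        _ = x * (z * y) * z := by rw [hz y]; simp only [mul_assoc]
        _ = x * (z * y) * (v * v) := by rw [hg.hvv]
        _ = x * (z * (y * v)) * v := by simp only [mul_assoc]
        _ = x * (v * y) * v := by rw [hvy]
        _ = x * v * (y * v) := by simp only [mul_assoc]

theorem tauFun_inj (hg : Good z v) {x : Q} (h : tauFun v x = 1) : x = 1 := by
  by_cases hx : x * v = v * x
  · rwa [tauFun_of_comm hx] at h
  · rw [tauFun_of_not hx] at h
    exfalso
    apply hx
    have : x = v⁻¹ := eq_inv_of_mul_eq_one_left h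
    rw [this]
    group

/-- The lift as a homomorphism. -/
noncomputable def tauHom (hg : Good z v) : Q →* Q :=
  MonoidHom.mk' (tauFun v) (tauFun_mul hg)

/-- The lift as an automorphism. -/
noncomputable def tau [Finite Q] (hg : Good z v) : MulAut Q :=
  MulEquiv.ofBijective (tauHom hg) (Finite.injective_iff_bijective.mp (by
    rw [injective_iff_map_eq_one]
    intro x hx
    exact tauFun_inj hg hx))

theorem tau_apply [Finite Q] (hg : Good z v) (x : Q) : tau hg x = tauFun v x := rfl

theorem tau_sq [Finite Q] (hg : Good z v) (x : Q) : tau hg (tau hg x) = v * x * v⁻¹ := by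
  rw [tau_apply, tau_apply]
  by_cases hx : x * v = v * x
  · rw [tauFun_of_comm hx, tauFun_of_comm hx, ← hx]
    group
  · have hx2 := (hg.hdi x).resolve_left hx
    rw [tauFun_of_not hx]
    have hxv : x * v * v = z * (v * (x * v)) := by
      calc x * v * v = z * (v * x) * v := by rw [hx2]
        _ = z * (v * (x * v)) := by simp only [mul_assoc]
    rw [tauFun_of_not (not_comm_of_z hg hxv)]
    rw [eq_mul_inv_iff_mul_eq]
    calc x * v * v * v = (x * (v * v)) * v := by simp only [mul_assoc]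
      _ = z * (x * v) := by rw [hg.hvv, ← hg.hz x, mul_assoc]
      _ = (z * z) * (v * x) := by rw [hx2, mul_assoc]
      _ = v * x := by rw [hg.hzz, one_mul]

theorem tau_comm [Finite Q] {w : Q} (hv : Good z v) (hw : Good z w) (hvw : v * w = w * v) (x : Q) :
    tau hv (tau hw x) = tau hw (tau hv x) := by
  rw [tau_apply, tau_apply, tau_apply, tau_apply]
  by_cases hx : x * w = w * x
  · rw [tauFun_of_comm hx]
    by_cases hy : x * v = v * x
    · rw [tauFun_of_comm hy, tauFun_of_comm hx]
    · rw [tauFun_of_not hy]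
      have : x * v * w = w * (x * v) := by
        rw [mul_assoc, hvw, ← mul_assoc, hx, mul_assoc]
      rw [tauFun_of_comm this]
  · rw [tauFun_of_not hx]
    by_cases hy : x * v = v * x
    · rw [tauFun_of_comm hy, tauFun_of_not hx]
      have : x * w * v = v * (x * w) := by
        rw [mul_assoc, ← hvw, ← mul_assoc, hy, mul_assoc]
      rw [tauFun_of_comm this]
    · rw [tauFun_of_not hy]
      have h1 : ¬ x * w * v = v * (x * w) := by
        intro h
        apply hy
        have h2 : x * w * v = (x * v) * w := by rw [mul_assoc, ← hvw, mul_assoc]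
        rw [h2, ← mul_assoc] at h
        exact mul_right_cancel h
      have h2 : ¬ x * v * w = w * (x * v) := by
        intro h
        apply hx
        have h3 : x * v * w = (x * w) * v := by rw [mul_assoc, hvw, mul_assoc]
        rw [h3, ← mul_assoc] at h
        exact mul_right_cancel h
      rw [tauFun_of_not h1, tauFun_of_not h2, mul_assoc, mul_assoc, hvw]

variable [Finite Q] {L : Subgroup (MulAut Q)}

theorem conj_eq_one_of_center {c : Q} (hc : c ∈ center Q) : MulAut.conj c = 1 := by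
  ext x
  rw [MulAut.conj_apply, MulAut.one_apply, ← (mem_center_iff.mp hc) x]
  group

theorem center_of_conj_eq_one {c : Q} (h : MulAut.conj c = 1) : c ∈ center Q := by
  rw [mem_center_iff]
  intro x
  have := congrArg (fun f : MulAut Q => f x) h
  simp only [MulAut.conj_apply, MulAut.one_apply] at this
  rw [mul_inv_eq_iff_eq_mul] at this
  exact this.symm

/-- Decomposition with respect to the complement. -/
theorem exists_decomp (hL : (Cfsg.Inn Q).IsComplement' L) (α : MulAut Q) :
    ∃ y : Q, MulAut.conj y * α ∈ L := by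
  obtain ⟨⟨⟨c, hc⟩, ⟨ℓ, hℓ⟩⟩, h⟩ := hL.2 α
  obtain ⟨y', rfl⟩ := hc
  refine ⟨y'⁻¹, ?_⟩
  have h2 : MulAut.conj y' * ℓ = α := h
  rw [← h2, map_inv, inv_mul_cancel_left]
  exact hℓ

theorem eq_one_of_mem (hL : (Cfsg.Inn Q).IsComplement' L) {α : MulAut Q} (h1 : α ∈ L) (y : Q)
    (h2 : α = MulAut.conj y) : α = 1 := by
  have := hL.disjoint
  rw [Subgroup.disjoint_def] at this
  exact this ⟨y, h2.symm⟩ h1

theorem conj_mul_tau (α : MulAut Q) (y x : Q) : (MulAut.conj y * α) x = y * α x * y⁻¹ := rfl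

/-- Lemma B: the inner part does not commute with `v`. -/
theorem not_comm_of_decomp (hL : (Cfsg.Inn Q).IsComplement' L) (hg : Good z v) (hvc : v ∉ center Q)
    (hsq : ∀ a : Q, a * a ∈ center Q) {y : Q} (hy : MulAut.conj y * tau hg ∈ L) : ¬ y * v = v * y := by
  intro hc
  have h1 : (MulAut.conj y * tau hg) * (MulAut.conj y * tau hg) = MulAut.conj (y * y * v) := by
    ext x
    rw [MulAut.mul_apply, conj_mul_tau, conj_mul_tau, map_mul, map_mul, map_inv, tau_sq, tau_apply hg y,
      tauFun_of_comm hc, MulAut.conj_apply]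
    group
  have h2 := eq_one_of_mem hL (L.mul_mem hy hy) _ h1
  rw [h2] at h1
  have h3 : y * y * v ∈ center Q := center_of_conj_eq_one h1.symm
  apply hvc
  have h4 : v = (y * y)⁻¹ * (y * y * v) := by group
  rw [h4]
  exact mul_mem (inv_mem (hsq y)) h3

theorem center_of_conj_mem {a g : Q} (h : g * a * g⁻¹ ∈ center Q) : a ∈ center Q := by
  have h1 := Subgroup.Normal.conj_mem' (inferInstance : (center Q).Normal) _ h g
  have h2 : g⁻¹ * (g * a * g⁻¹) * g = a := by group
  rwa [h2] at h1

/-- Lemma A: the inner part for `v` commutes with `w`. -/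
theorem comm_of_decomp (hL : (Cfsg.Inn Q).IsComplement' L) {w : Q} (hv : Good z v) (hw : Good z w)
    (hvw : v * w = w * v) (hwc : w ∉ center Q) (hvwc : v * w⁻¹ ∉ center Q)
    (hcm : ∀ a b : Q, a * b * a⁻¹ * b⁻¹ ∈ center Q)
    {y₁ y₂ : Q} (h₁ : MulAut.conj y₁ * tau hv ∈ L) (h₂ : MulAut.conj y₂ * tau hw ∈ L) :
    y₁ * w = w * y₁ := by
  by_contra hne
  have e1 : (MulAut.conj y₁ * tau hv) * (MulAut.conj y₂ * tau hw) =
      MulAut.conj (y₁ * tau hv y₂) * (tau hv * tau hw) := by
    ext x
    simp only [MulAut.mul_apply, conj_mul_tau, map_mul, map_inv, MulAut.conj_apply]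
  have e2 : (MulAut.conj y₂ * tau hw) * (MulAut.conj y₁ * tau hv) =
      MulAut.conj (y₂ * tau hw y₁) * (tau hv * tau hw) := by
    ext x
    simp only [MulAut.mul_apply, conj_mul_tau, map_mul, map_inv, MulAut.conj_apply]
    rw [tau_comm hv hw hvw x]
  have e3 : ((MulAut.conj y₁ * tau hv) * (MulAut.conj y₂ * tau hw)) *
      ((MulAut.conj y₂ * tau hw) * (MulAut.conj y₁ * tau hv))⁻¹ =
      MulAut.conj (y₁ * tau hv y₂ * (y₂ * tau hw y₁)⁻¹) := by
    have aux : ∀ A B C : MulAut Q, (A * C) * (B * C)⁻¹ = A * B⁻¹ := by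
      intro A B C
      group
    rw [e1, e2, aux, ← map_inv, ← map_mul]
  have e4 := eq_one_of_mem hL (L.mul_mem (L.mul_mem h₁ h₂) (L.inv_mem (L.mul_mem h₂ h₁))) _ e3
  rw [e4] at e3
  have e5 : y₁ * tau hv y₂ * (y₂ * tau hw y₁)⁻¹ ∈ center Q := center_of_conj_eq_one e3.symm
  rw [tau_apply hw y₁, tauFun_of_not hne] at e5
  -- compare modulo the centre
  have hc12 := hcm y₁ y₂
  by_cases hy : y₂ * v = v * y₂
  · rw [tau_apply hv y₂, tauFun_of_comm hy] at e5
    apply hwc
    have h1 : y₁ * y₂ * (y₂ * (y₁ * w))⁻¹ = ((y₁ * y₂) * w⁻¹ * (y₁ * y₂)⁻¹) * (y₁ * y₂ * y₁⁻¹ * y₂⁻¹) := by group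
    rw [h1] at e5
    have h2 : (y₁ * y₂) * w⁻¹ * (y₁ * y₂)⁻¹ ∈ center Q := by
      have := mul_mem e5 (inv_mem hc12)
      rwa [mul_inv_cancel_right] at this
    simpa using inv_mem (center_of_conj_mem h2)
  · rw [tau_apply hv y₂, tauFun_of_not hy] at e5
    apply hvwc
    have h1 : y₁ * (y₂ * v) * (y₂ * (y₁ * w))⁻¹ = ((y₁ * y₂) * (v * w⁻¹) * (y₁ * y₂)⁻¹) * (y₁ * y₂ * y₁⁻¹ * y₂⁻¹) := by group
    rw [h1] at e5
    have h2 : (y₁ * y₂) * (v * w⁻¹) * (y₁ * y₂)⁻¹ ∈ center Q := by
      have := mul_mem e5 (inv_mem hc12)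
      rwa [mul_inv_cancel_right] at this
    exact center_of_conj_mem h2

end Tau

section Main

variable {Q : Type*} [Group Q] [Finite Q]

theorem exists_mem_not_mem (H : Subgroup Q) (S : Finset Q) (h : S.card < Nat.card H) : ∃ x ∈ H, x ∉ S := by
  by_contra hc
  push Not at hc
  have h1 : Nat.card H ≤ S.card := by
    have h0 : Nat.card H = (H : Set Q).ncard := Nat.card_coe_set_eq _
    rw [h0, ← Set.ncard_coe_finset]
    exact Set.ncard_le_ncard (fun x hx => hc x hx) (Finset.finite_toSet S)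
  omega

/-- The contradiction: `v` together with `e₁`, `e₂`, `e₀`. -/
theorem final_contra {z v e₀ e₁ e₂ : Q} {L : Subgroup (MulAut Q)} (hL : (Cfsg.Inn Q).IsComplement' L)
    (hG : ∀ w : Q, w * w = z → Good z w)
    (hcm : ∀ a b : Q, a * b * a⁻¹ * b⁻¹ ∈ center Q) (hsq : ∀ a : Q, a * a ∈ center Q)
    (hzc : z ∈ center Q)
    (hvv : v * v = z) (hv0 : ¬ v * e₀ = e₀ * v) (hv1 : v * e₁ = e₁ * v) (hv2 : v * e₂ = e₂ * v)
    (h01 : e₀ * e₁ = e₁ * e₀) (h02 : e₀ * e₂ = e₂ * e₀) (h12 : e₁ * e₂ = e₂ * e₁)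
    (h11 : e₁ * e₁ = 1) (h22 : e₂ * e₂ = 1)
    (hc1 : e₁ ∉ center Q) (hc2 : e₂ ∉ center Q) (hc12 : e₁ * e₂ ∉ center Q) : False := by
  have hz := (Good.hz (hG v hvv))
  have hzz := (Good.hzz (hG v hvv))
  have key : ∀ e : Q, v * e = e * v → e₀ * e = e * e₀ → e * e = 1 → e ∉ center Q →
      ∀ {y : Q}, MulAut.conj y * tau (hG v hvv) ∈ L → y * (v * e) = (v * e) * y := by
    intro e hve h0e hee hec y hy
    have hww : (v * e) * (v * e) = z := by
      calc (v * e) * (v * e) = v * (e * v) * e := by simp only [mul_assoc]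
        _ = v * (v * e) * e := by rw [hve]
        _ = (v * v) * (e * e) := by simp only [mul_assoc]
        _ = z := by rw [hvv, hee, mul_one]
    obtain ⟨y₂, hy₂⟩ := exists_decomp hL (tau (hG _ hww))
    refine comm_of_decomp hL (hG v hvv) (hG _ hww) ?_ ?_ ?_ hcm hy hy₂
    · rw [mul_assoc, hve]
    · intro hc
      have h1 := (mem_center_iff.mp hc) e₀
      apply hv0
      -- e₀ * (v * e) = (v * e) * e₀
      have h2 : v * e₀ * e = e₀ * v * e := by
        calc v * e₀ * e = v * (e₀ * e) := mul_assoc _ _ _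
          _ = v * (e * e₀) := by rw [h0e]
          _ = (v * e) * e₀ := by simp only [mul_assoc]
          _ = e₀ * (v * e) := h1.symm
          _ = e₀ * v * e := by simp only [mul_assoc]
      exact mul_right_cancel h2
    · have h1 : v * (v * e)⁻¹ = e⁻¹ := by
        rw [hve, mul_inv_rev, mul_inv_cancel_left]
      rw [h1]
      intro hc
      exact hec (by simpa using inv_mem hc)
  have hvc : v ∉ center Q := by
    intro hc
    exact hv0 ((mem_center_iff.mp hc) e₀).symm
  obtain ⟨y, hy⟩ := exists_decomp hL (tau (hG v hvv))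
  have hB := not_comm_of_decomp hL (hG v hvv) hvc hsq hy
  have hk1 := key e₁ hv1 h01 h11 hc1 hy
  have hk2 := key e₂ hv2 h02 h22 hc2 hy
  -- the third element
  have hzce : ∀ g : Q, z * g = g * z := hz
  have s3 : z * (e₁ * e₂) * (z * (e₁ * e₂)) = 1 := by
    calc z * (e₁ * e₂) * (z * (e₁ * e₂)) = (z * z) * (e₁ * e₂ * (e₁ * e₂)) := by
          rw [mul_assoc z, ← mul_assoc (e₁ * e₂) z, ← hz (e₁ * e₂)]; simp only [mul_assoc]
      _ = e₁ * (e₂ * e₁) * e₂ := by rw [hzz, one_mul]; simp only [mul_assoc]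
      _ = e₁ * (e₁ * e₂) * e₂ := by rw [h12]
      _ = (e₁ * e₁) * (e₂ * e₂) := by simp only [mul_assoc]
      _ = 1 := by rw [h11, h22, one_mul]
  have s2 : v * (z * (e₁ * e₂)) = z * (e₁ * e₂) * v := by
    calc v * (z * (e₁ * e₂)) = z * (v * e₁ * e₂) := by rw [← mul_assoc v z, ← hz v]; simp only [mul_assoc]
      _ = z * (e₁ * (v * e₂)) := by rw [hv1]; simp only [mul_assoc]
      _ = z * (e₁ * e₂ * v) := by rw [hv2]; simp only [mul_assoc]
      _ = z * (e₁ * e₂) * v := by simp only [mul_assoc]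
  have hk3 := key (z * (e₁ * e₂)) s2
    (by
      calc e₀ * (z * (e₁ * e₂)) = z * (e₀ * e₁ * e₂) := by rw [← mul_assoc e₀ z, ← hz e₀]; simp only [mul_assoc]
        _ = z * (e₁ * (e₀ * e₂)) := by rw [h01]; simp only [mul_assoc]
        _ = z * (e₁ * e₂ * e₀) := by rw [h02]; simp only [mul_assoc]
        _ = z * (e₁ * e₂) * e₀ := by simp only [mul_assoc])
    s3
    (by
      intro hc
      apply hc12
      have : e₁ * e₂ = z⁻¹ * (z * (e₁ * e₂)) := by group
      rw [this]
      exact mul_mem (inv_mem hzc) hc) hy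
  apply hB
  -- `v` is the product of the three elements
  have hprod : v = (v * e₁) * (v * e₂) * (v * (z * (e₁ * e₂))) := by
    have s1 : (v * e₁) * (v * e₂) = z * (e₁ * e₂) := by
      calc (v * e₁) * (v * e₂) = v * (e₁ * v) * e₂ := by simp only [mul_assoc]
        _ = v * (v * e₁) * e₂ := by rw [hv1]
        _ = (v * v) * (e₁ * e₂) := by simp only [mul_assoc]
        _ = z * (e₁ * e₂) := by rw [hvv]
    rw [s1, s2, ← mul_assoc, s3, one_mul]
  have hcomm : ∀ a b : Q, y * a = a * y → y * b = b * y → y * (a * b) = (a * b) * y := by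
    intro a b ha hb
    rw [← mul_assoc, ha, mul_assoc, hb, mul_assoc]
  rw [hprod]
  exact hcomm _ _ (hcomm _ _ hk1 hk2) hk3

end Main

/-- Let Q be an extraspecial 2-group of order 2^(2n+1) with n ≥ 3 that is of plus type (it contains an elementary abelian subgroup of order 2^(n+1)). Then the group of inner automorphisms of Q has no complement in the full automorphism group of Q: the extension of the inner automorphism group (elementary abelian of order 2^(2n)) by the outer automorphism group (the orthogonal group of plus type) does not split. -/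
theorem result {Q : Type*} [Group Q] [Finite Q] (n : ℕ) (hn : 3 ≤ n) (hQ : Cfsg.IsExtraspecial 2 Q) (hcard : Nat.card Q = 2 ^ (2 * n + 1)) (hplus : ∃ E : Subgroup Q, Cfsg.IsElementaryAbelian 2 E ∧ Nat.card ↥E = 2 ^ (n + 1)) (L : Subgroup (MulAut Q)) : ¬ (Cfsg.Inn Q).IsComplement' L := by
  intro hL
  obtain ⟨E, hE, hEc⟩ := hplus
  have hsp := hQ.1
  -- the centre
  have hcard2 : Nat.card (center Q) = 2 := hQ.2
  obtain ⟨z', hz', hzu⟩ := (Nat.card_eq_two_iff' (1 : center Q)).mp hcard2
  set z : Q := (z' : Q) with hzdef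
  have hzc : z ∈ center Q := z'.2
  have hz1 : z ≠ 1 := fun h => hz' (Subtype.ext h)
  have hcen : ∀ c ∈ center Q, c = 1 ∨ c = z := by
    intro c hc
    by_cases h1 : c = 1
    · exact Or.inl h1
    · right
      have := hzu ⟨c, hc⟩ (fun h => h1 (congrArg Subtype.val h))
      exact congrArg Subtype.val this
  have hzcomm : ∀ g : Q, z * g = g * z := fun g => ((mem_center_iff.mp hzc) g).symm
  have hzz : z * z = 1 := by
    rcases hcen _ (mul_mem hzc hzc) with h | h
    · exact h
    · exact absurd (by simpa using h) hz1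
  have hcm : ∀ a b : Q, a * b * a⁻¹ * b⁻¹ ∈ center Q := by
    intro a b
    rw [← hsp.2.2]
    exact Subgroup.commutator_mem_commutator (mem_top a) (mem_top b)
  have hsq : ∀ a : Q, a * a ∈ center Q := by
    intro a
    rw [← hsp.2.1, ← pow_two]
    exact Cfsg.Agent.Lib.Transfer.pow_mem_frattini hsp.1 a
  have hdi : ∀ x v : Q, x * v = v * x ∨ x * v = z * (v * x) := by
    intro x v
    rcases hcen _ (hcm x v) with h | h
    · left
      have h1 : x * v * x⁻¹ = v := by simpa [mul_inv_eq_iff_eq_mul] using h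
      rw [mul_inv_eq_iff_eq_mul] at h1
      exact h1
    · right
      have h1 : x * v * x⁻¹ = z * v := by rw [mul_inv_eq_iff_eq_mul] at h; exact h
      rw [mul_inv_eq_iff_eq_mul] at h1
      rw [h1, mul_assoc]
  have hG : ∀ w : Q, w * w = z → Good z w := fun w hw => ⟨hzcomm, hz1, hzz, hw, fun x => hdi x w⟩
  -- cardinalities
  have hE16 : 16 ≤ Nat.card E := by
    rw [hEc]
    calc 16 = 2 ^ 4 := by norm_num
      _ ≤ 2 ^ (n + 1) := Nat.pow_le_pow_right (by norm_num) (by omega)
  have hEab : ∀ a ∈ E, ∀ b ∈ E, a * b = b * a := by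
    intro a ha b hb
    haveI := hE.1
    have := mul_comm' (⟨a, ha⟩ : E) ⟨b, hb⟩
    exact congrArg Subtype.val this
  have hEsq : ∀ a ∈ E, a * a = 1 := by
    intro a ha
    rw [← pow_two]
    exact hE.2 a ha
  classical
  have hnotc : ∀ c : Q, c ≠ 1 → c ≠ z → c ∉ center Q := by
    intro c h1 h2 hc
    rcases hcen c hc with h | h
    · exact h1 h
    · exact h2 h
  obtain ⟨e₀, he₀, he₀c⟩ := exists_mem_not_mem E ({1, z} : Finset Q) (by
    have := Finset.card_le_two (a := (1 : Q)) (b := z)
    omega)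
  simp only [Finset.mem_insert, Finset.mem_singleton, not_or] at he₀c
  have he₀z : e₀ ∉ center Q := hnotc e₀ he₀c.1 he₀c.2
  rw [mem_center_iff] at he₀z
  push Not at he₀z
  obtain ⟨f, hf⟩ := he₀z
  -- the subgroup of `E` centralizing `f`
  let E' : Subgroup Q := E ⊓ centralizer {f}
  have hE'mem : ∀ e, e ∈ E' ↔ e ∈ E ∧ f * e = e * f := by
    intro e
    rw [Subgroup.mem_inf, mem_centralizer_singleton_iff]
    exact and_congr_right fun _ => eq_comm
  have hf0 : f * e₀ = z * (e₀ * f) := (hdi f e₀).resolve_left hf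
  have hcard' : 16 ≤ 2 * Nat.card E' := by
    let g : E' × Bool → E := fun p =>
      if p.2 then ⟨p.1, ((hE'mem _).mp p.1.2).1⟩ else ⟨e₀ * p.1, mul_mem he₀ ((hE'mem _).mp p.1.2).1⟩
    have hg : Function.Surjective g := by
      rintro ⟨e, he⟩
      by_cases hc : f * e = e * f
      · refine ⟨(⟨e, (hE'mem e).mpr ⟨he, hc⟩⟩, true), ?_⟩
        simp [g]
      · have hc2 : f * e = z * (e * f) := (hdi f e).resolve_left hc
        have hm : e₀ * e ∈ E' := by
          rw [hE'mem]
          refine ⟨mul_mem he₀ he, ?_⟩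
          calc f * (e₀ * e) = (f * e₀) * e := by rw [mul_assoc]
            _ = z * (e₀ * (f * e)) := by rw [hf0]; simp only [mul_assoc]
            _ = z * (e₀ * (z * (e * f))) := by rw [hc2]
            _ = z * (z * (e₀ * (e * f))) := by
                rw [← mul_assoc e₀ z, ← hzcomm e₀]; simp only [mul_assoc]
            _ = (z * z) * (e₀ * e * f) := by simp only [mul_assoc]
            _ = e₀ * e * f := by rw [hzz, one_mul]
        refine ⟨(⟨e₀ * e, hm⟩, false), ?_⟩
        apply Subtype.ext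
        show e₀ * (e₀ * e) = e
        rw [← mul_assoc, hEsq e₀ he₀, one_mul]
    have h1 := Nat.card_le_card_of_surjective g hg
    rw [Nat.card_prod] at h1
    have h2 : Nat.card Bool = 2 := by simp
    rw [h2] at h1
    omega
  obtain ⟨e₁, he₁, he₁c⟩ := exists_mem_not_mem E' ({1, z} : Finset Q) (by
    have := Finset.card_le_two (a := (1 : Q)) (b := z)
    omega)
  simp only [Finset.mem_insert, Finset.mem_singleton, not_or] at he₁c
  obtain ⟨e₂, he₂, he₂c⟩ := exists_mem_not_mem E' ({1, z, e₁⁻¹, e₁⁻¹ * z} : Finset Q) (by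
    have := Finset.card_le_four (a := (1 : Q)) (b := z) (c := e₁⁻¹) (d := e₁⁻¹ * z)
    omega)
  simp only [Finset.mem_insert, Finset.mem_singleton, not_or] at he₂c
  obtain ⟨hne1, hne2, hne3, hne4⟩ := he₂c
  have h1E := (hE'mem e₁).mp he₁
  have h2E := (hE'mem e₂).mp he₂
  have hc12 : e₁ * e₂ ∉ center Q := by
    apply hnotc
    · intro h
      exact hne3 (eq_inv_of_mul_eq_one_right h)
    · intro h
      apply hne4
      rw [← h, inv_mul_cancel_left]
  have hexv : ∃ v : Q, v * v = z ∧ ¬ v * e₀ = e₀ * v ∧ ∀ e ∈ E', v * e = e * v := by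
    rcases hcen _ (hsq f) with h | h
    · refine ⟨e₀ * f, ?_, ?_, ?_⟩
      · calc e₀ * f * (e₀ * f) = e₀ * (f * e₀) * f := by simp only [mul_assoc]
          _ = e₀ * (z * (e₀ * f)) * f := by rw [hf0]
          _ = z * ((e₀ * e₀) * (f * f)) := by
              rw [← mul_assoc e₀ z, ← hzcomm e₀]; simp only [mul_assoc]
          _ = z := by rw [hEsq e₀ he₀, h, one_mul, mul_one]
      · intro hc
        apply hf
        rw [mul_assoc] at hc
        exact mul_left_cancel hc
      · intro e he
        have h3 := (hE'mem e).mp he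
        rw [mul_assoc, h3.2, ← mul_assoc, hEab e₀ he₀ e h3.1, mul_assoc]
    · exact ⟨f, h, hf, fun e he => ((hE'mem e).mp he).2⟩
  obtain ⟨v, hvv, hv0, hvE⟩ := hexv
  exact final_contra (e₀ := e₀) (e₁ := e₁) (e₂ := e₂) hL hG hcm hsq hzc hvv hv0 (hvE _ he₁) (hvE _ he₂)
    (hEab _ he₀ _ h1E.1) (hEab _ he₀ _ h2E.1) (hEab _ h1E.1 _ h2E.1) (hEsq _ h1E.1) (hEsq _ h2E.1)
    (hnotc _ he₁c.1 he₁c.2) (hnotc _ hne1 hne2) hc12

end Cfsg.Agent.S3085
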