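import Cfsg.Statements.S3103
import Cfsg.Agent.Lib.Basic.Frattini
import Cfsg.Agent.Lib.Basic.Core
import Cfsg.Agent.Lib.Fusion2.StrongRes
import Cfsg.Agent.Lib.Classical.WedgeHom
import Mathlib

set_option autoImplicit false
open Cfsg
open scoped commutatorElement

namespace Cfsg.Agent.S3103

section embed

theorem det_one_of_mul {A B : Matrix (Fin 4) (Fin 4) (ZMod 2)} (h : A * B = 1) : A.det = 1 := by
  have h1 : A.det * B.det = 1 := by rw [← Matrix.det_mul, h, Matrix.det_one]
  have hall : ∀ x y : ZMod 2, x * y = 1 → x = 1 := by decide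
  exact hall _ _ h1

/-- embedding of the automorphism group of a small elementary abelian 2-group -/
theorem aut_embed {V : Type*} [Group V] [Finite V] (h2 : ∀ v : V, v * v = 1) (h16 : Nat.card V ≤ 16) :
    ∃ ι : MulAut V →* Matrix.SpecialLinearGroup (Fin 4) (ZMod 2), Function.Injective ι := by
  classical
  have hc : ∀ a b : V, a * b = b * a := by
    intro a b
    have h3 := h2 (a * b)
    have h4 : a * b * (b * a) = 1 := by
      calc a * b * (b * a) = a * (b * b) * a := by group
        _ = 1 := by rw [h2, mul_one, h2]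
    calc a * b = a * b * (a * b * (b * a)) := by rw [h4, mul_one]
      _ = (a * b * (a * b)) * (b * a) := by group
      _ = b * a := by rw [h3, one_mul]
  letI : CommGroup V := { (inferInstance : Group V) with mul_comm := hc }
  letI : Module (ZMod 2) (Additive V) := AddCommGroup.zmodModule (by
    intro x
    rw [two_nsmul]
    exact h2 (Additive.toMul x))
  haveI : Finite (Additive V) := inferInstanceAs (Finite V)
  haveI : Fintype (Additive V) := Fintype.ofFinite _
  haveI : Module.Finite (ZMod 2) (Additive V) := Module.Finite.of_finite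
  set d := Module.finrank (ZMod 2) (Additive V) with hd
  have hcard : Nat.card V = 2 ^ d := by
    have := Module.card_eq_pow_finrank (K := ZMod 2) (V := Additive V)
    rw [ZMod.card] at this
    rw [← hd] at this
    rw [← this]
    exact (Nat.card_eq_fintype_card (α := Additive V))
  have hd4 : d ≤ 4 := by
    by_contra hcon
    push Not at hcon
    have : 2 ^ 5 ≤ 2 ^ d := Nat.pow_le_pow_right (by norm_num) hcon
    rw [hcard] at h16
    omega
  let C := Fin (4 - d) → ZMod 2
  have hfr : Module.finrank (ZMod 2) (Additive V × C) = Module.finrank (ZMod 2) (Fin 4 → ZMod 2) := by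
    rw [Module.finrank_prod, ← hd]
    simp only [C, Module.finrank_fin_fun]
    omega
  let e : (Additive V × C) ≃ₗ[ZMod 2] (Fin 4 → ZMod 2) := LinearEquiv.ofFinrankEq _ _ hfr
  let A : MulAut V → (Additive V →ₗ[ZMod 2] Additive V) := fun α =>
    AddMonoidHom.toZModLinearMap 2 (MonoidHom.toAdditive (α : V →* V))
  have hA1 : A 1 = LinearMap.id := by
    ext x; rfl
  have hAm : ∀ α β, A (α * β) = A α ∘ₗ A β := by
    intro α β; ext x; rfl
  let L : MulAut V → ((Fin 4 → ZMod 2) →ₗ[ZMod 2] (Fin 4 → ZMod 2)) := fun α =>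
    e.toLinearMap ∘ₗ ((A α).prodMap LinearMap.id) ∘ₗ e.symm.toLinearMap
  have hL1 : L 1 = LinearMap.id := by
    apply LinearMap.ext
    intro x
    simp [L, hA1]
  have hLm : ∀ α β, L (α * β) = L α ∘ₗ L β := by
    intro α β
    apply LinearMap.ext
    intro x
    simp [L, hAm]
  let M : MulAut V → Matrix (Fin 4) (Fin 4) (ZMod 2) := fun α => LinearMap.toMatrix' (L α)
  have hM1 : M 1 = 1 := by
    simp only [M, hL1, LinearMap.toMatrix'_id]
  have hMm : ∀ α β, M (α * β) = M α * M β := by
    intro α β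
    simp only [M, hLm, LinearMap.toMatrix'_comp]
  have hdet : ∀ α, (M α).det = 1 := by
    intro α
    apply det_one_of_mul (B := M α⁻¹)
    rw [← hMm, mul_inv_cancel, hM1]
  let ι : MulAut V →* Matrix.SpecialLinearGroup (Fin 4) (ZMod 2) :=
    { toFun := fun α => ⟨M α, hdet α⟩
      map_one' := Subtype.ext hM1
      map_mul' := fun α β => Subtype.ext (hMm α β) }
  refine ⟨ι, ?_⟩
  intro α β hαβ
  have h1 : M α = M β := congrArg Subtype.val hαβ
  have h3 : L α = L β := LinearMap.toMatrix'.injective h1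
  ext v
  have h4 := congrArg (fun f => f (e (Additive.ofMul v, 0))) h3
  simp only [L, LinearMap.comp_apply, LinearEquiv.coe_coe, LinearEquiv.symm_apply_apply,
    LinearMap.prodMap_apply] at h4
  have h5 := e.injective h4
  have h6 := congrArg Prod.fst h5
  exact h6

theorem psl_inj : Function.Injective
    (QuotientGroup.mk' (Subgroup.center (Matrix.SpecialLinearGroup (Fin 4) (ZMod 2)))) := by
  rw [injective_iff_map_eq_one]
  intro A hA
  rw [QuotientGroup.mk'_apply, QuotientGroup.eq_one_iff] at hA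
  obtain ⟨r, hr, hrA⟩ := Matrix.SpecialLinearGroup.mem_center_iff.mp hA
  have hall : ∀ x : ZMod 2, x ^ 4 = 1 → x = 1 := by decide
  have hr1 : r = 1 := hall r (by simpa using hr)
  apply Subtype.ext
  rw [← hrA, hr1]
  simp

end embed

section act

variable {X : Type*} [Group X] [Finite X] (Q : Subgroup X) [hQn : Q.Normal]

theorem conj_frattini (g : X) : (frattini ↥Q).map
    ((MulAut.conjNormal g : ↥Q ≃* ↥Q) : ↥Q →* ↥Q) = frattini ↥Q :=
  Subgroup.characteristic_iff_map_eq.mp inferInstance _

/-- the action on the Frattini quotient -/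
noncomputable def phi : X →* MulAut (↥Q ⧸ frattini ↥Q) where
  toFun g := QuotientGroup.congr _ _ (MulAut.conjNormal g) (conj_frattini Q g)
  map_one' := by
    refine MulEquiv.ext fun y => ?_
    induction y using QuotientGroup.induction_on with
    | H x =>
      rw [QuotientGroup.congr_mk]
      simp
  map_mul' a b := by
    refine MulEquiv.ext fun y => ?_
    induction y using QuotientGroup.induction_on with
    | H x =>
      simp only [MulAut.mul_apply]
      rw [QuotientGroup.congr_mk, QuotientGroup.congr_mk, QuotientGroup.congr_mk]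
      simp

theorem phi_mk (g : X) (x : ↥Q) :
    phi Q g (x : ↥Q ⧸ frattini ↥Q) = ((MulAut.conjNormal g x : ↥Q) : ↥Q ⧸ frattini ↥Q) :=
  QuotientGroup.congr_mk _ _ _ (conj_frattini Q g) _

theorem le_ker (hQ : IsPGroup 2 Q) : Q ≤ (phi Q).ker := by
  intro q hq
  haveI : Fact (Nat.Prime 2) := ⟨Nat.prime_two⟩
  rw [MonoidHom.mem_ker]
  refine MulEquiv.ext fun y => ?_
  induction y using QuotientGroup.induction_on with
  | H x =>
    rw [phi_mk, MulAut.one_apply, QuotientGroup.eq]
    haveI : Group.IsNilpotent ↥Q := hQ.isNilpotent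
    have h1 := Cfsg.Agent.Lib.Basic.commutator_le_frattini_of_isNilpotent (G := ↥Q)
    apply h1
    have h2 : (MulAut.conjNormal q x : ↥Q)⁻¹ * x = ⁅(⟨q, hq⟩ : ↥Q), x⁻¹⁆ * 1 := by
      apply Subtype.ext
      simp [MulAut.conjNormal_apply, commutatorElement_def]
      group
    rw [h2, mul_one]
    exact Subgroup.commutator_mem_commutator (Subgroup.mem_top _) (Subgroup.mem_top _)

theorem ker_le (hQ : IsPGroup 2 Q) (hc : Subgroup.centralizer (Q : Set X) ≤ Q) :
    (phi Q).ker ≤ Cfsg.pCore 2 X := by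
  haveI hp : Fact (Nat.Prime 2) := ⟨Nat.prime_two⟩
  apply Cfsg.Agent.Lib.Basic.le_pCore (MonoidHom.normal_ker _)
  rintro ⟨a, ha⟩
  have hn0 : orderOf a ≠ 0 := (orderOf_pos a).ne'
  obtain ⟨e, n', hn', hn⟩ := Nat.exists_eq_pow_mul_and_not_dvd hn0 2 (by norm_num)
  set h := a ^ 2 ^ e with hh
  have hhK : h ∈ (phi Q).ker := Subgroup.pow_mem _ ha _
  have hhn : h ^ n' = 1 := by
    rw [hh, ← pow_mul, ← hn, pow_orderOf_eq_one]
  have hcoprime : n'.Coprime 2 := ((Nat.Prime.coprime_iff_not_dvd Nat.prime_two).mpr hn').symm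
  have hone : (MulAut.conjNormal h : MulAut ↥Q) = 1 := by
    apply Cfsg.Agent.Lib.Fusion2.aut_eq_one_of_frattini (p := 2) hQ
    · have h1 : orderOf (MulAut.conjNormal h : MulAut ↥Q) ∣ n' :=
        orderOf_dvd_of_pow_eq_one (by rw [← map_pow, hhn, map_one])
      exact Nat.Coprime.coprime_dvd_left h1 hcoprime
    · intro x
      have h1 := congrArg (fun f : MulAut (↥Q ⧸ frattini ↥Q) => f (x : ↥Q ⧸ frattini ↥Q))
        (MonoidHom.mem_ker.mp hhK)
      simp only [phi_mk, MulAut.one_apply] at h1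
      rw [QuotientGroup.eq] at h1
      have h2 := Subgroup.inv_mem _ h1
      have h3 : x⁻¹ * (MulAut.conjNormal h) x ∈ frattini ↥Q := by simpa using h2
      exact Subgroup.Normal.mem_comm inferInstance h3
  have hcent : h ∈ Subgroup.centralizer (Q : Set X) := by
    rw [Subgroup.mem_centralizer_iff]
    intro z hz
    have h1 := congrArg (fun f : MulAut ↥Q => ((f ⟨z, hz⟩ : ↥Q) : X)) hone
    simp only [MulAut.one_apply, MulAut.conjNormal_apply] at h1
    rw [mul_inv_eq_iff_eq_mul] at h1
    exact h1.symm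
  have hhQ : h ∈ Q := hc hcent
  obtain ⟨j, hj⟩ := hQ ⟨h, hhQ⟩
  have hj' : h ^ 2 ^ j = 1 := by
    have := congrArg Subtype.val hj
    simpa using this
  have hd1 := orderOf_dvd_of_pow_eq_one hj'
  have hd2 := orderOf_dvd_of_pow_eq_one hhn
  have hcop : Nat.Coprime (2 ^ j) n' := Nat.Coprime.pow_left _ hcoprime.symm
  have hone2 : orderOf h = 1 := Nat.eq_one_of_dvd_coprimes hcop hd1 hd2
  have hh1 : a ^ 2 ^ e = 1 := orderOf_eq_one_iff.mp hone2
  refine ⟨e, Subtype.ext ?_⟩
  simpa using hh1

end act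

section size

variable {Q : Type*} [Group Q] [Finite Q]

theorem frat_sq (hQ : IsPGroup 2 Q) (v : Q ⧸ frattini Q) : v * v = 1 := by
  haveI hp : Fact (Nat.Prime 2) := ⟨Nat.prime_two⟩
  induction v using QuotientGroup.induction_on with
  | H x =>
    rw [← QuotientGroup.mk_mul, QuotientGroup.eq_one_iff, ← pow_two]
    exact Cfsg.Agent.Lib.Basic.pow_mem_frattini_of_isPGroup hQ x

theorem frat_card (hQ : IsPGroup 2 Q) (h4 : Cfsg.SectionalPRankLE 2 4 Q) :
    Nat.card (Q ⧸ frattini Q) ≤ 16 := by
  haveI hp : Fact (Nat.Prime 2) := ⟨Nat.prime_two⟩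
  let N : Subgroup ↥(⊤ : Subgroup Q) := (frattini Q).subgroupOf ⊤
  haveI : N.Normal := Subgroup.normal_subgroupOf
  have hsq : ∀ z : ↥(⊤ : Subgroup Q) ⧸ N, z * z = 1 := by
    intro z
    induction z using QuotientGroup.induction_on with
    | H x =>
      rw [← QuotientGroup.mk_mul, QuotientGroup.eq_one_iff, Subgroup.mem_subgroupOf, ← pow_two]
      have := Cfsg.Agent.Lib.Basic.pow_mem_frattini_of_isPGroup hQ (x : Q)
      simpa using this
  have hcomm : ∀ a b : ↥(⊤ : Subgroup Q) ⧸ N, a * b = b * a := by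
    intro a b
    have h3 := hsq (a * b)
    have h5 : a * b * (b * a) = 1 := by
      calc a * b * (b * a) = a * (b * b) * a := by group
        _ = 1 := by rw [hsq, mul_one, hsq]
    calc a * b = a * b * (a * b * (b * a)) := by rw [h5, mul_one]
      _ = (a * b * (a * b)) * (b * a) := by group
      _ = b * a := by rw [h3, one_mul]
  have h1 := h4 ⊤ N ⊤ ⟨⟨fun a b => Subtype.ext (hcomm a b)⟩⟩ (fun a _ => by rw [pow_two]; exact hsq a)
  rw [Subgroup.card_top] at h1
  have h2 : Nat.card (↥(⊤ : Subgroup Q) ⧸ N) = (frattini Q).index := by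
    change N.index = _
    change (frattini Q).relIndex ⊤ = _
    exact Subgroup.relIndex_top_right _
  rw [h2] at h1
  change (frattini Q).index ≤ 16
  simpa using h1

end size

/-- Let X be a finite 2-constrained group with no nontrivial normal subgroup of odd order such that O₂(X) has sectional 2-rank at most 4. Then X/O₂(X) is isomorphic to a subgroup of the alternating group of degree 8. -/
theorem result {X : Type*} [Group X] [Finite X] (hc : Cfsg.IsPConstrained 2 X) (hO : Cfsg.oddCore X = ⊥)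
    (h4 : Cfsg.SectionalPRankLE 2 4 ↥(Cfsg.pCore 2 X)) :
    ∃ f : X ⧸ Cfsg.pCore 2 X →* ↥(alternatingGroup (Fin 8)), Function.Injective f := by
  classical
  haveI hp : Fact (Nat.Prime 2) := ⟨Nat.prime_two⟩
  set Q := Cfsg.pCore 2 X with hQdef
  have hQ : IsPGroup 2 Q := Cfsg.Agent.Lib.Basic.pCore_isPGroup 2
  haveI hQn : Q.Normal := Cfsg.Agent.Lib.Basic.pCore_normal 2
  -- centralizer
  have hcent : Subgroup.centralizer (Q : Set X) ≤ Q := by
    set C := Cfsg.pPrimePCore 2 X with hC
    have hCn : C.Normal := Subgroup.Normal.comap (Cfsg.Agent.Lib.Basic.pCore_normal 2) _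
    have hCp : IsPGroup 2 C := by
      rintro ⟨x, hx⟩
      have hx' : QuotientGroup.mk' (Cfsg.pPrimeCore 2 X) x ∈ Cfsg.pCore 2 (X ⧸ Cfsg.pPrimeCore 2 X) := hx
      obtain ⟨k, hk⟩ := (Cfsg.Agent.Lib.Basic.pCore_isPGroup 2 (G := X ⧸ Cfsg.pPrimeCore 2 X)) ⟨_, hx'⟩
      refine ⟨k, Subtype.ext ?_⟩
      have h2 := congrArg Subtype.val hk
      simp only [Subgroup.coe_pow, Subgroup.coe_one] at h2
      rw [← map_pow, QuotientGroup.mk'_apply, QuotientGroup.eq_one_iff] at h2
      have h3 : Cfsg.pPrimeCore 2 X = ⊥ := hO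
      rw [h3, Subgroup.mem_bot] at h2
      simpa using h2
    have hCQ : C ≤ Q := Cfsg.Agent.Lib.Basic.le_pCore hCn hCp
    obtain ⟨P⟩ : Nonempty (Sylow 2 ↥C) := inferInstance
    have hPtop : (P : Subgroup ↥C) = ⊤ := by
      have := P.is_maximal' (Q := ⊤) (IsPGroup.of_equiv hCp Subgroup.topEquiv.symm) le_top
      exact this.symm
    have h1 := hc P
    rw [hPtop, ← MonoidHom.range_eq_map, Subgroup.range_subtype] at h1
    intro z hz
    apply hCQ
    apply h1
    rw [Subgroup.mem_centralizer_iff] at hz ⊢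
    intro w hw
    exact hz w (hCQ hw)
  have hker : (phi Q).ker = Q := le_antisymm (ker_le Q hQ hcent) (le_ker Q hQ)
  obtain ⟨ι, hι⟩ := aut_embed (frat_sq (Q := ↥Q) hQ) (frat_card (Q := ↥Q) hQ h4)
  obtain ⟨e⟩ := Cfsg.Agent.Lib.Classical.psl_four_two (F := ZMod 2) (by simp)
  let π := QuotientGroup.mk' (Subgroup.center (Matrix.SpecialLinearGroup (Fin 4) (ZMod 2)))
  let F : X →* ↥(alternatingGroup (Fin 8)) :=
    (e.toMonoidHom.comp π).comp (ι.comp (phi Q))
  have hF : ∀ x, F x = 1 ↔ x ∈ Q := by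
    intro x
    rw [← hker, MonoidHom.mem_ker]
    constructor
    · intro h
      have h1 : e (π (ι (phi Q x))) = 1 := h
      have h2 : π (ι (phi Q x)) = 1 := by
        apply e.injective; rw [h1, map_one]
      have h3 : ι (phi Q x) = 1 := by
        apply psl_inj; rw [map_one]; exact h2
      apply hι; rw [h3, map_one]
    · intro h
      change e (π (ι (phi Q x))) = 1
      rw [h, map_one, map_one, map_one]
  refine ⟨QuotientGroup.lift Q F (fun x hx => (hF x).mpr hx), ?_⟩
  rw [injective_iff_map_eq_one]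
  intro y
  induction y using QuotientGroup.induction_on with
  | H x =>
    intro h
    have h' : F x = 1 := h
    rw [QuotientGroup.eq_one_iff]
    exact (hF x).mp h'

end Cfsg.Agent.S3103
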