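import Cfsg.Statements.S3116
import Mathlib
import Cfsg.Agent.Lib.Fusion.Dihedral

set_option autoImplicit false
open Cfsg

namespace Cfsg.Agent.S3116

theorem aut_dihedral {n : ℕ} (hn : 4 ≤ n) (k : ℕ) (hk : n = 2 ^ k) : IsPGroup 2 (MulAut (DihedralGroup n)) := by
  haveI hnz : NeZero n := ⟨by omega⟩
  refine Cfsg.Agent.Lib.Fusion.isPGroup_mulAut_of_index_two (DihedralGroup.r 1) (k := k)
    (by rw [DihedralGroup.orderOf_r_one]; exact hk) ?_ ?_
  · intro x hx
    rcases x with i | i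
    · exfalso
      apply hx
      rw [Subgroup.mem_zpowers_iff]
      refine ⟨i.val, ?_⟩
      rw [zpow_natCast, DihedralGroup.r_one_pow]
      simp
    · rw [DihedralGroup.orderOf_sr, DihedralGroup.orderOf_r_one]
      omega
  · have h1 := (Subgroup.zpowers (DihedralGroup.r 1 : DihedralGroup n)).index_mul_card
    rw [Nat.card_zpowers, DihedralGroup.orderOf_r_one, DihedralGroup.nat_card] at h1
    have hpos : 0 < n := by omega
    exact Nat.eq_of_mul_eq_mul_right hpos h1

theorem aut_qd {X : Type*} [Group X] [Finite X] (h : Cfsg.IsQuasiDihedral X) : IsPGroup 2 (MulAut X) := by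
  obtain ⟨n, hn, hc, x, y, hx, hy, hyx⟩ := h
  have hidx : (Subgroup.zpowers x).index = 2 := by
    have h1 := (Subgroup.zpowers x).index_mul_card
    rw [Nat.card_zpowers, hx, hc, pow_succ] at h1
    have hpos : 0 < 2 ^ n := by positivity
    have : (Subgroup.zpowers x).index * 2 ^ n = 2 * 2 ^ n := by rw [h1]; ring
    exact Nat.eq_of_mul_eq_mul_right hpos this
  have h2n : 8 ≤ 2 ^ n := by
    calc 8 = 2 ^ 3 := by norm_num
      _ ≤ 2 ^ n := Nat.pow_le_pow_right (by norm_num) hn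
  obtain ⟨m, rfl⟩ : ∃ m, n = m + 1 := ⟨n - 1, by omega⟩
  have hm : 2 ≤ m := by omega
  simp only [Nat.add_sub_cancel] at hyx
  have hm4 : 4 ≤ 2 ^ m := by
    calc 4 = 2 ^ 2 := by norm_num
      _ ≤ 2 ^ m := Nat.pow_le_pow_right (by norm_num) hm
  have hpm : (2 : ℕ) ^ (m + 1) = 2 * 2 ^ m := by ring
  have hy2 : y * y = 1 := by
    have := pow_orderOf_eq_one y
    rw [hy] at this
    simpa [pow_two] using this
  have hyi : y⁻¹ = y := by
    rw [inv_eq_iff_mul_eq_one]; exact hy2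
  have hyn : y ∉ Subgroup.zpowers x := by
    intro hmem
    obtain ⟨j, rfl⟩ := Subgroup.mem_zpowers_iff.mp hmem
    have h1 : x ^ j * x * (x ^ j)⁻¹ = x := by
      rw [(Commute.zpow_left (Commute.refl x) j).eq]; simp
    rw [h1] at hyx
    have h2 : x ^ (2 ^ m - 2) = 1 := by
      have h3 : (2 : ℕ) ^ m - 1 = (2 ^ m - 2) + 1 := by omega
      rw [h3, pow_succ] at hyx
      exact (mul_eq_right.mp hyx.symm)
    have h3 := orderOf_dvd_of_pow_eq_one h2
    rw [hx] at h3
    have h4 := Nat.le_of_dvd (by omega) h3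
    omega
  refine Cfsg.Agent.Lib.Fusion.isPGroup_mulAut_of_index_two x hx ?_ hidx
  intro z hz
  have hzy : y * z ∈ Subgroup.zpowers x := by
    rw [Subgroup.mul_mem_iff_of_index_two hidx]
    exact ⟨fun h => absurd h hyn, fun h => absurd h hz⟩
  obtain ⟨i, hi⟩ := Subgroup.mem_zpowers_iff.mp hzy
  have hzeq : z = y * x ^ i := by
    rw [hi, ← mul_assoc, hy2, one_mul]
  have hconj : y * x ^ i * y = (x ^ (2 ^ m - 1)) ^ i := by
    have : y * x ^ i * y⁻¹ = (y * x * y⁻¹) ^ i := by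
      rw [conj_zpow]
    rw [hyi] at this hyx
    rw [this, hyx]
  have hz2 : z * z = (x ^ (2 ^ m)) ^ i := by
    rw [hzeq]
    have : y * x ^ i * (y * x ^ i) = (y * x ^ i * y) * x ^ i := by group
    rw [this, hconj, ← zpow_natCast, ← zpow_mul, ← zpow_add, ← zpow_natCast, ← zpow_mul]
    congr 1
    have h5 : ((2 ^ m - 1 : ℕ) : ℤ) = 2 ^ m - 1 := by
      rw [Nat.cast_sub (by omega)]; simp
    rw [h5]; push_cast; ring
  have hz4 : z ^ 4 = 1 := by
    have : z ^ 4 = (z * z) * (z * z) := by simp [pow_succ, mul_assoc]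
    have h6 : x ^ 2 ^ m * x ^ 2 ^ m = 1 := by
      rw [← pow_add]
      have h7 : 2 ^ m + 2 ^ m = orderOf x := by rw [hx, pow_succ]; ring
      rw [h7, pow_orderOf_eq_one]
    rw [this, hz2, ← (Commute.refl (x ^ 2 ^ m)).mul_zpow, h6, one_zpow]
  have hle : orderOf z ≤ 4 := Nat.le_of_dvd (by norm_num) (orderOf_dvd_of_pow_eq_one hz4)
  omega


/-- The automorphism group of a dihedral 2-group of order at least 8, or of a quasi-dihedral (semidihedral) 2-group of order at least 16, is a 2-group. -/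
theorem result {X : Type*} [Group X] [Finite X] (h2 : IsPGroup 2 X)
    (h : (∃ n : ℕ, 4 ≤ n ∧ Nonempty (X ≃* DihedralGroup n)) ∨ Cfsg.IsQuasiDihedral X) : IsPGroup 2 (MulAut X) := by
  rcases h with ⟨n, hn, ⟨e⟩⟩ | h
  · haveI hnz : NeZero n := ⟨by omega⟩
    have hcard : Nat.card X = 2 * n := by
      rw [Nat.card_congr e.toEquiv, DihedralGroup.nat_card]
    obtain ⟨m, hm⟩ := IsPGroup.iff_card.mp h2
    have hdvd : n ∣ 2 ^ m := by rw [← hm, hcard]; exact Dvd.intro_left _ rfl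
    obtain ⟨k, -, hk⟩ := (Nat.dvd_prime_pow Nat.prime_two).mp hdvd
    have := aut_dihedral hn k hk
    exact this.of_equiv (MulAut.congr e).symm
  · exact aut_qd h

end Cfsg.Agent.S3116
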