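import Cfsg.Statements.S3356
import Mathlib

set_option autoImplicit false
open Cfsg

namespace Cfsg.Agent.S3356

section abstractSetup
variable {N H : Type*} [Group N] [Group H] [Finite N] [Finite H] (ρ : H →* MulAut N)

lemma rho_inv_apply (a : H) (x : N) : ρ a⁻¹ (ρ a x) = x := by
  rw [map_inv]; simp

lemma rho_apply_inv (a : H) (x : N) : ρ a (ρ a⁻¹ x) = x := by
  rw [map_inv]; simp

/-- The fixer of a point. -/
def fixS (x : N) : Subgroup H where
  carrier := {h | ρ h x = x}
  mul_mem' := by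
    intro a b ha hb
    show ρ (a * b) x = x
    have ha' : ρ a x = x := ha
    have hb' : ρ b x = x := hb
    rw [map_mul, MulAut.mul_apply, hb', ha']
  one_mem' := by show ρ 1 x = x; simp
  inv_mem' := by
    intro a ha
    show ρ a⁻¹ x = x
    have ha' : ρ a x = x := ha
    have := rho_inv_apply ρ a x
    rwa [ha'] at this

lemma mem_fixS {x : N} {h : H} : h ∈ fixS ρ x ↔ ρ h x = x := Iff.rfl

lemma orbit_card_dvd {K X : Type*} [Group K] [Finite K] [Finite X] [MulAction K X] (s : ℕ)
    (h : ∀ x : X, Nat.card (MulAction.stabilizer K x) = s) : Nat.card K / s ∣ Nat.card X := by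
  classical
  haveI := Fintype.ofFinite K
  haveI := Fintype.ofFinite X
  have e := Nat.card_congr (MulAction.selfEquivSigmaOrbits K X)
  rw [Nat.card_sigma] at e
  rw [e]
  apply Finset.dvd_sum
  intro ω _
  have h1 := MulAction.card_orbit_mul_card_stabilizer_eq_card_group K (Quotient.out ω)
  have h2 : Fintype.card (MulAction.stabilizer K (Quotient.out ω)) = s := by
    rw [← Nat.card_eq_fintype_card]; exact h _
  rw [h2] at h1
  simp only [Nat.card_eq_fintype_card] at *
  rcases Nat.eq_zero_or_pos s with hs | hs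
  · subst hs
    rw [mul_zero] at h1
    exact absurd h1.symm Fintype.card_ne_zero
  · rw [← h1, Nat.mul_div_cancel _ hs]

lemma block_card_dvd (K : Subgroup H) (X : Set N) (hK : ∀ h ∈ K, ∀ z ∈ X, ρ h z ∈ X) (s : ℕ)
    (hs : ∀ z ∈ X, Nat.card (fixS ρ z) = s) (hle : ∀ z ∈ X, fixS ρ z ≤ K) :
    Nat.card K / s ∣ Nat.card X := by
  letI : MulAction K X :=
    { smul := fun k z => ⟨ρ k z, hK k k.2 z z.2⟩
      one_smul := by
        intro z
        apply Subtype.ext
        show ρ ((1 : K) : H) z = z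
        simp
      mul_smul := by
        intro a b z
        apply Subtype.ext
        show ρ ((a * b : K) : H) z = ρ a (ρ b z)
        simp }
  apply orbit_card_dvd
  intro z
  have hst : MulAction.stabilizer K z = (fixS ρ (z : N)).subgroupOf K := by
    ext k
    rw [MulAction.mem_stabilizer_iff, Subgroup.mem_subgroupOf, mem_fixS]
    constructor
    · intro hk
      exact congrArg Subtype.val hk
    · intro hk
      exact Subtype.ext hk
  rw [hst, Nat.card_congr (Subgroup.subgroupOfEquivOfLe (hle z z.2)).toEquiv]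
  exact hs z z.2

lemma coprime_index (s : ℕ) (hs : ∀ x : N, x ≠ 1 → Nat.card (fixS ρ x) = s) :
    Nat.Coprime (Nat.card H / s) (Nat.card N) := by
  classical
  haveI := Fintype.ofFinite N
  have h1 : Nat.card (⊤ : Subgroup H) / s ∣ Nat.card ({x : N | x ≠ 1} : Set N) :=
    block_card_dvd ρ ⊤ {x : N | x ≠ 1} (by
      intro h _ z hz hz'
      apply hz
      have := rho_inv_apply ρ h z
      rw [hz', map_one] at this
      exact this.symm) s (fun z hz => hs z hz) (fun _ _ => le_top)
  rw [Subgroup.card_top] at h1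
  have h2 : Nat.card ({x : N | x ≠ 1} : Set N) + 1 = Nat.card N := by
    have : Nat.card ({x : N | x ≠ 1} : Set N) = Fintype.card {x : N // x ≠ 1} := by
      rw [Nat.card_eq_fintype_card]; rfl
    rw [this, Fintype.card_subtype_compl, Fintype.card_subtype_eq, Nat.card_eq_fintype_card]
    have : 0 < Fintype.card N := Fintype.card_pos
    omega
  have h3 : Nat.Coprime (Nat.card ({x : N | x ≠ 1} : Set N)) (Nat.card N) := by
    rw [← h2]; simp
  exact Nat.Coprime.coprime_dvd_left h1 h3

/-- The key lemma: a block of size dividing `|N|` is fixed pointwise by the fixer of one point. -/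
lemma block_fix (s : ℕ) (hs : ∀ x : N, x ≠ 1 → Nat.card (fixS ρ x) = s)
    (X : Set N) (h1 : (1 : N) ∉ X)
    (hB : ∀ (h : H) (z : N), z ∈ X → ρ h z ∈ X → ∀ w, w ∈ X ↔ ρ h w ∈ X)
    (hcard : Nat.card X ∣ Nat.card N) {z : N} (hz : z ∈ X) {h : H} (hh : ρ h z = z) :
    ∀ w ∈ X, ρ h w = w := by
  have hne : ∀ w ∈ X, w ≠ 1 := fun w hw e => h1 (e ▸ hw)
  let K : Subgroup H :=
    { carrier := {k | ∀ w, w ∈ X ↔ ρ k w ∈ X}
      mul_mem' := by
        intro a b ha hb w
        rw [hb w, ha (ρ b w), map_mul, MulAut.mul_apply]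
      one_mem' := by intro w; simp
      inv_mem' := by
        intro a ha w
        have := ha (ρ a⁻¹ w)
        rw [rho_apply_inv] at this
        exact this.symm }
  have hKmem : ∀ k, k ∈ K ↔ ∀ w, w ∈ X ↔ ρ k w ∈ X := fun k => Iff.rfl
  have hle : ∀ w ∈ X, fixS ρ w ≤ K := by
    intro w hw k hk
    have hk' : ρ k w = w := hk
    exact hB k w hw (by rw [hk']; exact hw)
  have hdvd := block_card_dvd ρ K X (fun k hk w hw => (hk w).1 hw) s
    (fun w hw => hs w (hne w hw)) hle
  have hcop := coprime_index ρ s hs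
  have hsK : s ∣ Nat.card K := by
    rw [← hs z (hne z hz)]
    exact Subgroup.card_dvd_of_le (hle z hz)
  have hKH : Nat.card K ∣ Nat.card H := Subgroup.card_subgroup_dvd_card K
  have ht1 : Nat.card K / s ∣ Nat.card H / s := Nat.div_dvd_div hsK hKH
  have ht2 : Nat.card K / s ∣ Nat.card N := hdvd.trans hcard
  have ht : Nat.card K / s = 1 := Nat.eq_one_of_dvd_coprimes hcop ht1 ht2
  have hsp : 0 < s := by
    rw [← hs z (hne z hz)]; exact Nat.card_pos
  have hKs : Nat.card K = s := by
    have := Nat.div_mul_cancel hsK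
    rw [ht, one_mul] at this
    exact this.symm
  intro w hw
  have hEq : fixS ρ w = K := by
    apply Subgroup.eq_of_le_of_card_ge (hle w hw)
    rw [hKs, hs w (hne w hw)]
  have hhK : h ∈ K := hle z hz hh
  rw [← hEq] at hhK
  exact hhK

/-- Fixers of nonidentity elements: invariance under conjugation in `N`. -/
lemma fix_conj (s : ℕ) (hs : ∀ x : N, x ≠ 1 → Nat.card (fixS ρ x) = s)
    {x : N} (hx : x ≠ 1) {h : H} (hh : ρ h x = x) (n : N) : ρ h (n * x * n⁻¹) = n * x * n⁻¹ := by
  classical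
  let X : Set N := {w | IsConj w x}
  have hX : X = MulAction.orbit (ConjAct N) x := by
    ext w
    rw [ConjAct.mem_orbit_conjAct]
    rfl
  have h1 : (1 : N) ∉ X := by
    intro hc
    have hc' : IsConj (1 : N) x := hc
    exact hx (isConj_one_right.1 hc')
  have hB : ∀ (k : H) (z : N), z ∈ X → ρ k z ∈ X → ∀ w, w ∈ X ↔ ρ k w ∈ X := by
    intro k z hz hkz w
    have hz' : IsConj z x := hz
    have hkz' : IsConj (ρ k z) x := hkz
    constructor
    · intro hw
      have hw' : IsConj w x := hw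
      have h2 : IsConj (ρ k w) (ρ k z) :=
        MonoidHom.map_isConj (ρ k).toMonoidHom (hw'.trans hz'.symm)
      exact h2.trans hkz'
    · intro hw
      have hw' : IsConj (ρ k w) x := hw
      have h2 : IsConj (ρ k w) (ρ k z) := hw'.trans hkz'.symm
      have h3 : IsConj (ρ k⁻¹ (ρ k w)) (ρ k⁻¹ (ρ k z)) :=
        MonoidHom.map_isConj (ρ k⁻¹).toMonoidHom h2
      rw [rho_inv_apply, rho_inv_apply] at h3
      exact h3.trans hz'
  have hcard : Nat.card X ∣ Nat.card N := by
    rw [hX]
    have h3 : (MulAction.stabilizer (ConjAct N) x).index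
        = Nat.card (MulAction.orbit (ConjAct N) x) := by
      rw [MulAction.index_stabilizer]; rfl
    rw [← h3]
    have h4 := Subgroup.index_dvd_card (MulAction.stabilizer (ConjAct N) x)
    have h5 : Nat.card (ConjAct N) = Nat.card N := Nat.card_congr ConjAct.toConjAct.toEquiv.symm
    rwa [h5] at h4
  refine block_fix ρ s hs X h1 hB hcard (z := x) (IsConj.refl x) hh _ ?_
  show IsConj (n * x * n⁻¹) x
  exact (isConj_iff.2 ⟨n, rfl⟩).symm

/-- The no-invariant-subgroup step. -/
lemma inv_sub (s : ℕ) (hs : ∀ x : N, x ≠ 1 → Nat.card (fixS ρ x) = s)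
    (hfaith : ∀ h : H, (∀ n : N, ρ h n = n) → h = 1)
    (hnF : ∃ x₀ : N, x₀ ≠ 1 ∧ ∃ h₀ : H, h₀ ≠ 1 ∧ ρ h₀ x₀ = x₀)
    (S : Subgroup N) (hS : ∀ (h : H), ∀ z ∈ S, ρ h z ∈ S) : S = ⊥ ∨ S = ⊤ := by
  classical
  by_contra hcon
  push_neg at hcon
  obtain ⟨hb, ht⟩ := hcon
  obtain ⟨x₁, hx₁S, hx₁⟩ := (Subgroup.ne_bot_iff_exists_ne_one).1 hb |>.imp (fun a ha => ha) |> fun ⟨a, ha⟩ => (⟨(a : N), a.2, fun e => ha (Subtype.ext e)⟩ : ∃ x : N, x ∈ S ∧ x ≠ 1)
  obtain ⟨y₀, hy₀⟩ : ∃ y, y ∉ S := by
    by_contra hall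
    push_neg at hall
    exact ht ((Subgroup.eq_top_iff' S).2 hall)
  have key : ∀ y, y ∉ S → ∀ c ∈ S, c ≠ 1 → fixS ρ y = fixS ρ c := by
    intro y hy c hc hc1
    have hy1 : y ≠ 1 := fun e => hy (e ▸ S.one_mem)
    apply Subgroup.eq_of_le_of_card_ge
    · intro h hh
      have hh' : ρ h y = y := hh
      let X : Set N := {w | y⁻¹ * w ∈ S}
      have hX1 : (1 : N) ∉ X := by
        intro hc'
        have hc'' : y⁻¹ * 1 ∈ S := hc'
        rw [mul_one] at hc''
        exact hy (by simpa using S.inv_mem hc'')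
      have hB : ∀ (k : H) (z : N), z ∈ X → ρ k z ∈ X → ∀ w, w ∈ X ↔ ρ k w ∈ X := by
        intro k z hz hkz w
        have hz' : y⁻¹ * z ∈ S := hz
        have hkz' : y⁻¹ * ρ k z ∈ S := hkz
        constructor
        · intro hw
          have hw' : y⁻¹ * w ∈ S := hw
          have h2 : z⁻¹ * w ∈ S := by
            have := S.mul_mem (S.inv_mem hz') hw'
            simpa [mul_assoc] using this
          have h3 := hS k _ h2
          rw [map_mul, map_inv] at h3
          show y⁻¹ * ρ k w ∈ S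
          have := S.mul_mem hkz' h3
          simpa [mul_assoc] using this
        · intro hw
          have hw' : y⁻¹ * ρ k w ∈ S := hw
          have h2 : (ρ k z)⁻¹ * ρ k w ∈ S := by
            have := S.mul_mem (S.inv_mem hkz') hw'
            simpa [mul_assoc] using this
          have h3 : ρ k (z⁻¹ * w) ∈ S := by
            rw [map_mul, map_inv]; exact h2
          have h4 := hS k⁻¹ _ h3
          rw [rho_inv_apply] at h4
          show y⁻¹ * w ∈ S
          have := S.mul_mem hz' h4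
          simpa [mul_assoc] using this
      have hcard : Nat.card X ∣ Nat.card N := by
        have e : X ≃ S :=
          { toFun := fun w => ⟨y⁻¹ * w, w.2⟩
            invFun := fun c => ⟨y * c, by
              show y⁻¹ * (y * c) ∈ S
              simp⟩
            left_inv := by intro w; apply Subtype.ext; simp
            right_inv := by intro c; apply Subtype.ext; simp }
        rw [Nat.card_congr e]
        exact Subgroup.card_subgroup_dvd_card S
      have hyX : y ∈ X := by
        show y⁻¹ * y ∈ S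
        simp
      have hcX : y * c ∈ X := by
        show y⁻¹ * (y * c) ∈ S
        simpa using hc
      have := block_fix ρ s hs X hX1 hB hcard hyX hh' (y * c) hcX
      rw [map_mul, hh'] at this
      exact mul_left_cancel this
    · rw [hs c hc1, hs y hy1]
  obtain ⟨x₀, hx₀, h₀, hh₀, hfx⟩ := hnF
  have hall : ∀ w : N, w ≠ 1 → fixS ρ w = fixS ρ y₀ := by
    intro w hw
    by_cases hwS : w ∈ S
    · exact (key y₀ hy₀ w hwS hw).symm
    · rw [key w hwS x₁ hx₁S hx₁, key y₀ hy₀ x₁ hx₁S hx₁]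
  apply hh₀
  apply hfaith
  intro n
  by_cases hn : n = 1
  · subst hn; simp
  · have : h₀ ∈ fixS ρ n := by
      rw [hall n hn, ← hall x₀ hx₀]
      exact hfx
    exact this

/-- Fixed points of the fixer of `x`. -/
def fixD (x : N) : Subgroup N where
  carrier := {n | ∀ h ∈ fixS ρ x, ρ h n = n}
  mul_mem' := by
    intro a b ha hb h hh
    rw [map_mul, ha h hh, hb h hh]
  one_mem' := by intro h _; simp
  inv_mem' := by
    intro a ha h hh
    rw [map_inv, ha h hh]

lemma mem_fixD {x n : N} : n ∈ fixD ρ x ↔ ∀ h ∈ fixS ρ x, ρ h n = n := Iff.rfl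

lemma self_mem_fixD (x : N) : x ∈ fixD ρ x := fun _ hh => hh

lemma fixS_eq_of_mem (s : ℕ) (hs : ∀ x : N, x ≠ 1 → Nat.card (fixS ρ x) = s)
    {x y : N} (hx : x ≠ 1) (hy : y ≠ 1) (hyD : y ∈ fixD ρ x) : fixS ρ x = fixS ρ y := by
  apply Subgroup.eq_of_le_of_card_ge
  · intro h hh; exact hyD h hh
  · rw [hs x hx, hs y hy]

lemma fixD_eq_of_mem (s : ℕ) (hs : ∀ x : N, x ≠ 1 → Nat.card (fixS ρ x) = s)
    {x y : N} (hx : x ≠ 1) (hy : y ≠ 1) (hyD : y ∈ fixD ρ x) : fixD ρ y = fixD ρ x := by
  ext n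
  rw [mem_fixD, mem_fixD, fixS_eq_of_mem ρ s hs hx hy hyD]

lemma fixD_conj (s : ℕ) (hs : ∀ x : N, x ≠ 1 → Nat.card (fixS ρ x) = s)
    {x y : N} (hx : x ≠ 1) (hyD : y ∈ fixD ρ x) (n : N) : n * y * n⁻¹ ∈ fixD ρ x := by
  by_cases hy : y = 1
  · subst hy; simp [Subgroup.one_mem]
  · intro h hh
    rw [fixS_eq_of_mem ρ s hs hx hy hyD] at hh
    exact fix_conj ρ s hs hy hh n

theorem abstract_comm (s : ℕ) (hs : ∀ x : N, x ≠ 1 → Nat.card (fixS ρ x) = s)
    (hfaith : ∀ h : H, (∀ n : N, ρ h n = n) → h = 1)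
    (hnF : ∃ x₀ : N, x₀ ≠ 1 ∧ ∃ h₀ : H, h₀ ≠ 1 ∧ ρ h₀ x₀ = x₀) :
    ∀ a b : N, a * b = b * a := by
  classical
  obtain ⟨x₀, hx₀, h₀, hh₀, hfx⟩ := hnF
  have hs1 : s ≠ 1 := by
    intro e
    have hc := hs x₀ hx₀
    rw [e, Subgroup.card_eq_one] at hc
    have : h₀ ∈ fixS ρ x₀ := hfx
    rw [hc] at this
    exact hh₀ (Subgroup.mem_bot.1 this)
  -- each `fixD` is proper
  have hprop : ∀ x : N, x ≠ 1 → ∃ y, y ∉ fixD ρ x := by
    intro x hx
    by_contra hall
    push_neg at hall
    apply hs1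
    rw [← hs x hx, Subgroup.card_eq_one]
    rw [Subgroup.eq_bot_iff_forall]
    intro h hh
    exact hfaith h (fun n => hall n h hh)
  -- distinct `fixD` commute
  have hdisj : ∀ x y : N, x ≠ 1 → y ≠ 1 → fixD ρ x ≠ fixD ρ y →
      ∀ u ∈ fixD ρ x, ∀ v ∈ fixD ρ y, u * v = v * u := by
    intro x y hx hy hne u hu v hv
    by_contra hc
    have hcne : u * v * u⁻¹ * v⁻¹ ≠ 1 := by
      intro e
      apply hc
      have : u * v * u⁻¹ = v := by
        rw [mul_inv_eq_one] at e
        exact e
      rw [mul_inv_eq_iff_eq_mul] at this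
      exact this
    have h1 : u * v * u⁻¹ * v⁻¹ ∈ fixD ρ x := by
      have := (fixD ρ x).mul_mem hu (fixD_conj ρ s hs hx ((fixD ρ x).inv_mem hu) v)
      simpa [mul_assoc] using this
    have h2 : u * v * u⁻¹ * v⁻¹ ∈ fixD ρ y :=
      (fixD ρ y).mul_mem (fixD_conj ρ s hs hy hv u) ((fixD ρ y).inv_mem hv)
    apply hne
    rw [← fixD_eq_of_mem ρ s hs hx hcne h1, ← fixD_eq_of_mem ρ s hs hy hcne h2]
  -- each `fixD` is commutative
  have hab : ∀ x : N, x ≠ 1 → ∀ u ∈ fixD ρ x, ∀ v ∈ fixD ρ x, u * v = v * u := by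
    intro x hx u hu v hv
    by_cases hu1 : u = 1
    · subst hu1; simp
    obtain ⟨y, hy⟩ := hprop x hx
    have hy1 : y ≠ 1 := fun e => hy (e ▸ (fixD ρ x).one_mem)
    have hne : fixD ρ x ≠ fixD ρ y := by
      intro e
      apply hy
      rw [e]
      exact self_mem_fixD ρ y
    have hvy : v * y = y * v := hdisj x y hx hy1 hne v hv y (self_mem_fixD ρ y)
    have huy : u * y = y * u := hdisj x y hx hy1 hne u hu y (self_mem_fixD ρ y)
    let z := u * y
    have hz1 : z ≠ 1 := by
      intro e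
      apply hy
      have : y = u⁻¹ := by
        have e' : u * y = 1 := e
        exact eq_inv_of_mul_eq_one_right e'
      rw [this]
      exact (fixD ρ x).inv_mem hu
    by_contra hc
    let e := z⁻¹ * (v * z * v⁻¹)
    have he : e = u⁻¹ * v * u * v⁻¹ := by
      have hvyi : v⁻¹ * y = y * v⁻¹ := by
        have := hvy
        calc v⁻¹ * y = v⁻¹ * (y * v) * v⁻¹ := by group
          _ = v⁻¹ * (v * y) * v⁻¹ := by rw [hvy]
          _ = y * v⁻¹ := by group
      show (u * y)⁻¹ * (v * (u * y) * v⁻¹) = _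
      have h1 : v * (u * y) * v⁻¹ = v * u * v⁻¹ * y := by
        calc v * (u * y) * v⁻¹ = v * u * (y * v⁻¹) := by group
          _ = v * u * (v⁻¹ * y) := by rw [hvyi]
          _ = _ := by group
      rw [h1]
      have h2 : (u * y)⁻¹ = u⁻¹ * y⁻¹ := by
        rw [huy]; group
      rw [h2]
      have h3 : y⁻¹ * (v * u * v⁻¹) * y = v * u * v⁻¹ := by
        have h4 : (v * u * v⁻¹) * y = y * (v * u * v⁻¹) :=
          hdisj x y hx hy1 hne _ (fixD_conj ρ s hs hx hu v) y (self_mem_fixD ρ y)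
        calc y⁻¹ * (v * u * v⁻¹) * y = y⁻¹ * ((v * u * v⁻¹) * y) := by group
          _ = y⁻¹ * (y * (v * u * v⁻¹)) := by rw [h4]
          _ = _ := by group
      calc u⁻¹ * y⁻¹ * (v * u * v⁻¹ * y) = u⁻¹ * (y⁻¹ * (v * u * v⁻¹) * y) := by group
        _ = u⁻¹ * (v * u * v⁻¹) := by rw [h3]
        _ = _ := by group
    have he1 : e ≠ 1 := by
      rw [he]
      intro e2
      apply hc
      have : u⁻¹ * v * u = v := by
        rw [mul_inv_eq_one] at e2
        exact e2
      calc u * v = u * (u⁻¹ * v * u) := by rw [this]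
        _ = v * u := by group
    have heD : e ∈ fixD ρ x := by
      rw [he]
      exact (fixD ρ x).mul_mem ((fixD ρ x).mul_mem ((fixD ρ x).mul_mem ((fixD ρ x).inv_mem hu) hv) hu)
        ((fixD ρ x).inv_mem hv)
    have heDz : e ∈ fixD ρ z :=
      (fixD ρ z).mul_mem ((fixD ρ z).inv_mem (self_mem_fixD ρ z))
        (fixD_conj ρ s hs hz1 (self_mem_fixD ρ z) v)
    have hEq : fixD ρ x = fixD ρ z := by
      rw [← fixD_eq_of_mem ρ s hs hx he1 heD, ← fixD_eq_of_mem ρ s hs hz1 he1 heDz]
    have hzD : z ∈ fixD ρ x := by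
      rw [hEq]; exact self_mem_fixD ρ z
    apply hy
    have : y = u⁻¹ * z := by
      show y = u⁻¹ * (u * y)
      group
    rw [this]
    exact (fixD ρ x).mul_mem ((fixD ρ x).inv_mem hu) hzD
  intro a b
  by_cases ha : a = 1
  · subst ha; simp
  by_cases hb : b = 1
  · subst hb; simp
  by_cases hEq : fixD ρ a = fixD ρ b
  · exact hab a ha a (self_mem_fixD ρ a) b (hEq ▸ self_mem_fixD ρ b)
  · exact hdisj a b ha hb hEq a (self_mem_fixD ρ a) b (self_mem_fixD ρ b)

end abstractSetup

/-- Let G be a finite 3/2-transitive permutation group: G acts faithfully and transitively on a finite set, the point stabilizers are non-trivial, and for each point a all orbits of G_a on the remaining points have the same size. Suppose G has a regular normal subgroup N and G is not a Frobenius group (some two-point stabilizer is non-trivial). Then N is an elementary abelian p-group for some prime p, and every non-trivial normal subgroup of G contains N (so N is the unique minimal normal subgroup).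 -/
theorem result {G Ω : Type*} [Group G] [Finite G]
    [MulAction G Ω] [FaithfulSMul G Ω] [Finite Ω] (htrans : MulAction.IsPretransitive G Ω)
    (hne : ∀ a : Ω, MulAction.stabilizer G a ≠ ⊥)
    (hhalf : ∀ a b c : Ω, b ≠ a → c ≠ a →
      Nat.card (MulAction.orbit (MulAction.stabilizer G a) b) = Nat.card (MulAction.orbit (MulAction.stabilizer G a) c))
    (N : Subgroup G) [hN : N.Normal] (hNt : MulAction.IsPretransitive N Ω) (hNr : ∀ a : Ω, MulAction.stabilizer N a = ⊥)
    (hnotF : ∃ a b : Ω, a ≠ b ∧ MulAction.stabilizer G a ⊓ MulAction.stabilizer G b ≠ ⊥) :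
    (∃ p : ℕ, p.Prime ∧ IsMulCommutative N ∧ ∀ x ∈ N, x ^ p = 1) ∧
    (∀ M : Subgroup G, M.Normal → M ≠ ⊥ → N ≤ M) := by
  classical
  obtain ⟨a, b, hab, hstab⟩ := hnotF
  let H : Subgroup G := MulAction.stabilizer G a
  let ρ : H →* MulAut N := (MulAut.conjNormal (H := N)).comp H.subtype
  have hρ : ∀ (h : H) (n : N), ((ρ h n : N) : G) = (h : G) * n * (h : G)⁻¹ := by
    intro h n
    exact MulAut.conjNormal_apply (h : G) n
  have hreg : ∀ n : N, (n : G) • a = a → n = 1 := by
    intro n hn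
    have : n ∈ MulAction.stabilizer N a := hn
    rw [hNr a] at this
    exact Subgroup.mem_bot.1 this
  have hhact : ∀ (h : H) (n : N), (h : G) • ((n : G) • a) = ((ρ h n : N) : G) • a := by
    intro h n
    rw [hρ]
    have hha : (h : G) • a = a := h.2
    calc (h : G) • ((n : G) • a) = ((h : G) * n * (h : G)⁻¹) • ((h : G) • a) := by
          rw [smul_smul, smul_smul]; group
      _ = _ := by rw [hha]
  have hpt : ∀ n m : N, (n : G) • a = (m : G) • a → n = m := by
    intro n m hnm
    have : ((m⁻¹ * n : N) : G) • a = a := by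
      rw [Subgroup.coe_mul, mul_smul, hnm, ← mul_smul]
      simp
    have := hreg _ this
    exact (inv_mul_eq_one.1 this).symm
  have hfixeq : ∀ n : N, fixS ρ n = MulAction.stabilizer H ((n : G) • a) := by
    intro n
    ext h
    rw [mem_fixS, MulAction.mem_stabilizer_iff]
    show ρ h n = n ↔ (h : G) • ((n : G) • a) = (n : G) • a
    rw [hhact]
    constructor
    · intro e; rw [e]
    · intro e; exact hpt _ _ e
  have htrN : ∀ ω : Ω, ∃ n : N, (n : G) • a = ω := by
    intro ω
    obtain ⟨n, hn⟩ := hNt.exists_smul_eq a ω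
    exact ⟨n, hn⟩
  obtain ⟨x₀, hx₀⟩ := htrN b
  have hx₀1 : x₀ ≠ 1 := by
    intro e
    apply hab
    rw [← hx₀, e]
    simp
  have hne1 : ∀ x : N, x ≠ 1 → (x : G) • a ≠ a := fun x hx e => hx (hreg x e)
  have hcard : ∀ x : N, x ≠ 1 → Nat.card (fixS ρ x) = Nat.card (fixS ρ x₀) := by
    intro x hx
    have h1 := hhalf a ((x : G) • a) ((x₀ : G) • a) (hne1 x hx) (hne1 x₀ hx₀1)
    have h2 := MulAction.index_stabilizer H ((x : G) • a)
    have h3 := MulAction.index_stabilizer H ((x₀ : G) • a)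
    rw [hfixeq, hfixeq]
    have h4 := (MulAction.stabilizer H ((x : G) • a)).card_mul_index
    have h5 := (MulAction.stabilizer H ((x₀ : G) • a)).card_mul_index
    have h6 : (MulAction.stabilizer H ((x : G) • a)).index
        = (MulAction.stabilizer H ((x₀ : G) • a)).index := by
      rw [h2, h3]
      exact h1
    rw [h6, ← h5] at h4
    have hpos : 0 < (MulAction.stabilizer H ((x₀ : G) • a)).index := by
      have : (MulAction.stabilizer H ((x₀ : G) • a)).index ≠ 0 := Subgroup.index_ne_zero_of_finite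
      omega
    exact Nat.eq_of_mul_eq_mul_right hpos h4
  have hfaith : ∀ h : H, (∀ n : N, ρ h n = n) → h = 1 := by
    intro h hh
    apply Subtype.ext
    apply FaithfulSMul.eq_of_smul_eq_smul (α := Ω)
    intro ω
    obtain ⟨n, hn⟩ := htrN ω
    rw [← hn, hhact, hh n]
    simp
  have hnF : ∃ x₀ : N, x₀ ≠ 1 ∧ ∃ h₀ : H, h₀ ≠ 1 ∧ ρ h₀ x₀ = x₀ := by
    obtain ⟨g, hg, hg1⟩ := (Subgroup.ne_bot_iff_exists_ne_one).1 hstab |>.imp (fun a ha => ha) |> fun ⟨g, hg⟩ => (⟨(g : G), g.2, fun e => hg (Subtype.ext e)⟩ : ∃ x : G, x ∈ MulAction.stabilizer G a ⊓ MulAction.stabilizer G b ∧ x ≠ 1)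
    refine ⟨x₀, hx₀1, ⟨g, hg.1⟩, fun e => hg1 (congrArg Subtype.val e), ?_⟩
    apply hpt
    rw [← hhact, hx₀]
    exact hg.2
  have hcomm := abstract_comm ρ _ hcard hfaith hnF
  have hinv := inv_sub ρ _ hcard hfaith hnF
  refine ⟨?_, ?_⟩
  · -- elementary abelian
    haveI : Nontrivial N := ⟨⟨x₀, 1, hx₀1⟩⟩
    obtain ⟨p, hp, hpd⟩ := Nat.exists_prime_and_dvd (Finite.one_lt_card (α := N)).ne'
    haveI : Fact p.Prime := ⟨hp⟩
    obtain ⟨x, hx⟩ := exists_prime_orderOf_dvd_card' (G := N) p hpd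
    let S : Subgroup N :=
      { carrier := {y | y ^ p = 1}
        mul_mem' := by
          intro u v hu hv
          have hu' : u ^ p = 1 := hu
          have hv' : v ^ p = 1 := hv
          show (u * v) ^ p = 1
          rw [(show Commute u v from hcomm u v).mul_pow, hu', hv', one_mul]
        one_mem' := by show (1 : N) ^ p = 1; simp
        inv_mem' := by
          intro u hu
          have hu' : u ^ p = 1 := hu
          show u⁻¹ ^ p = 1
          rw [inv_pow, hu', inv_one] }
    have hSinv : ∀ (h : H), ∀ z ∈ S, ρ h z ∈ S := by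
      intro h z hz
      have hz' : z ^ p = 1 := hz
      show (ρ h z) ^ p = 1
      rw [← map_pow, hz', map_one]
    have hxS : x ∈ S := by
      show x ^ p = 1
      rw [← hx]; exact pow_orderOf_eq_one x
    have hx1 : x ≠ 1 := by
      intro e
      rw [e, orderOf_one] at hx
      exact hp.one_lt.ne hx
    rcases hinv S hSinv with h | h
    · rw [h] at hxS
      exact absurd (Subgroup.mem_bot.1 hxS) hx1
    · refine ⟨p, hp, ⟨⟨?_⟩⟩, ?_⟩
      · intro u v
        exact hcomm u v
      · intro y hy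
        have : (⟨y, hy⟩ : N) ∈ S := by rw [h]; trivial
        have h2 : (⟨y, hy⟩ : N) ^ p = 1 := this
        have h3 := congrArg Subtype.val h2
        simpa using h3
  · intro M hM hMb
    let S : Subgroup N := M.subgroupOf N
    have hSinv : ∀ (h : H), ∀ z ∈ S, ρ h z ∈ S := by
      intro h z hz
      rw [Subgroup.mem_subgroupOf] at hz ⊢
      rw [hρ]
      exact hM.conj_mem _ hz _
    rcases hinv S hSinv with h | h
    · exfalso
      obtain ⟨m, hmM, hm1⟩ : ∃ m : G, m ∈ M ∧ m ≠ 1 := by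
        obtain ⟨g, hg⟩ := (Subgroup.ne_bot_iff_exists_ne_one).1 hMb
        exact ⟨g, g.2, fun e => hg (Subtype.ext e)⟩
      have hdis : ∀ z : G, z ∈ M → z ∈ N → z = 1 := by
        intro z hzM hzN
        have : (⟨z, hzN⟩ : N) ∈ S := by
          rw [Subgroup.mem_subgroupOf]; exact hzM
        rw [h] at this
        exact congrArg Subtype.val (Subgroup.mem_bot.1 this)
      obtain ⟨n, hn⟩ := htrN (m • a)
      have hmem : (n : G)⁻¹ * m ∈ H := by
        show ((n : G)⁻¹ * m) • a = a
        rw [mul_smul, ← hn]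
        simp
      have hcm : ∀ u : N, m * (u : G) * m⁻¹ = u := by
        intro u
        have h1 : m * (u : G) * m⁻¹ * (u : G)⁻¹ ∈ M := by
          have : m * ((u : G) * m⁻¹ * (u : G)⁻¹) ∈ M :=
            M.mul_mem hmM (hM.conj_mem _ (M.inv_mem hmM) _)
          simpa [mul_assoc] using this
        have h2 : m * (u : G) * m⁻¹ * (u : G)⁻¹ ∈ N :=
          N.mul_mem (hN.conj_mem _ u.2 _) (N.inv_mem u.2)
        have := hdis _ h1 h2
        exact mul_inv_eq_one.1 this
      have h1 : (⟨(n : G)⁻¹ * m, hmem⟩ : H) = 1 := by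
        apply hfaith
        intro u
        apply Subtype.ext
        rw [hρ]
        show ((n : G)⁻¹ * m) * (u : G) * ((n : G)⁻¹ * m)⁻¹ = u
        have h2 : ((n : G)⁻¹ * m) * (u : G) * ((n : G)⁻¹ * m)⁻¹
            = (n : G)⁻¹ * (m * (u : G) * m⁻¹) * (n : G) := by group
        rw [h2, hcm u]
        have h3 : (u : G) * (n : G) = (n : G) * (u : G) := congrArg Subtype.val (hcomm u n)
        calc (n : G)⁻¹ * (u : G) * (n : G) = (n : G)⁻¹ * ((u : G) * (n : G)) := by group
          _ = (n : G)⁻¹ * ((n : G) * (u : G)) := by rw [h3]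
          _ = _ := by group
      have h2 : (n : G)⁻¹ * m = 1 := congrArg Subtype.val h1
      have h3 : m = n := (inv_mul_eq_one.1 h2).symm
      exact hm1 (hdis m hmM (h3 ▸ n.2))
    · intro y hy
      have : (⟨y, hy⟩ : N) ∈ S := by rw [h]; trivial
      exact Subgroup.mem_subgroupOf.1 this

end Cfsg.Agent.S3356
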