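import Cfsg.Statements.S3370
import Cfsg.Agent.S3371

set_option autoImplicit false
open Cfsg

namespace Cfsg.Agent.S3370

open Cfsg.Agent.Lib.Recog Cfsg.Agent.S3380


/-- Let q be a prime, V a non-trivial finite vector space over the field with q elements, and G a non-trivial finite p-group (p prime) acting faithfully and linearly on V and transitively on the non-zero vectors. Then either q = 2 and G has prime order p = |V| − 1; or p = 2, V has q elements with q = 2^m + 1 and G is cyclic of order 2^m; or p = 2, q = 3, V has 9 elements and G is cyclic of order 8, quaternion of order 8, or semidihedral of order 16. -/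
theorem result (q : ℕ) [Fact q.Prime] {V : Type*} [AddCommGroup V] [Module (ZMod q) V] [Finite V] [Nontrivial V]
    {G : Type*} [Group G] [Finite G] [Nontrivial G] (p : ℕ) [Fact p.Prime] (hG : IsPGroup p G)
    (ρ : G →* (V ≃ₗ[ZMod q] V)) (hρ : Function.Injective ρ)
    (htrans : ∀ v w : V, v ≠ 0 → w ≠ 0 → ∃ g : G, ρ g v = w) :
    (q = 2 ∧ p = Nat.card V - 1 ∧ Nat.card G = p) ∨
    (p = 2 ∧ Nat.card V = q ∧ (∃ m : ℕ, q = 2 ^ m + 1 ∧ Nat.card G = 2 ^ m) ∧ IsCyclic G) ∨
    (p = 2 ∧ q = 3 ∧ Nat.card V = 9 ∧
      ((IsCyclic G ∧ Nat.card G = 8) ∨ Nonempty (G ≃* QuaternionGroup 2) ∨ (Cfsg.IsQuasiDihedral G ∧ Nat.card G = 16))) := by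
  classical
  have hqq : q.Prime := Fact.out
  have hpp : p.Prime := Fact.out
  have htriv : ∀ g : G, (∀ v : V, ρ g v = v) → g = 1 := by
    intro g hg
    apply hρ
    rw [map_one]
    ext v
    exact hg v
  obtain ⟨v₀, hv₀⟩ := exists_ne (0 : V)
  obtain ⟨g₁, hg₁⟩ := exists_ne (1 : G)
  -- orbits
  have horb : ∀ v : V, v ≠ 0 → {u : V | ∃ g : G, ρ g v = u} = {u : V | u ≠ 0} := by
    intro v hv
    ext u
    constructor
    · rintro ⟨g, rfl⟩ h0
      exact hv (((ρ g).map_eq_zero_iff).1 h0)
    · intro hu
      exact htrans v u hv hu
  have hnz : Nat.card {u : V | u ≠ 0} + 1 = Nat.card V := by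
    haveI hfin : Fintype V := Fintype.ofFinite V
    have e2 : Nat.card {u : V | u ≠ 0} = ((Finset.univ : Finset V).erase 0).card :=
      Nat.subtype_card (p := fun u : V => u ≠ 0) _ (by intro x; simp)
    rw [e2, Finset.card_erase_of_mem (by simp), Finset.card_univ, Nat.card_eq_fintype_card]
    have : 0 < Fintype.card V := Fintype.card_pos
    omega
  have hocm := orbit_card_mul ρ v₀
  rw [horb v₀ hv₀] at hocm
  -- `p ≠ q`
  have hpq : (p : ZMod q) ≠ 0 := by
    intro h
    obtain ⟨v, hv, hfix⟩ := exists_fixed_vector q p hG ρ h
    apply hg₁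
    apply htriv
    intro w
    by_cases hw : w = 0
    · rw [hw]; simp
    · obtain ⟨g, hg⟩ := htrans v w hv hw
      rw [hfix g] at hg
      rw [← hg]
      exact hfix _
  obtain ⟨a, ha⟩ := IsPGroup.iff_card.1 hG
  obtain ⟨k, hk⟩ : ∃ k, Nat.card {u : V | u ≠ 0} = p ^ k := by
    have hd : Nat.card {u : V | u ≠ 0} ∣ p ^ a := by
      rw [← ha, ← hocm]
      exact dvd_mul_right _ _
    obtain ⟨k, _, hk⟩ := (Nat.dvd_prime_pow hpp).1 hd
    exact ⟨k, hk⟩
  have hk0 : k ≠ 0 := by
    rintro rfl
    rw [pow_zero] at hk
    -- a single nonzero vector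
    apply hg₁
    apply htriv
    intro w
    by_cases hw : w = 0
    · rw [hw]; simp
    · have h1 := Nat.card_eq_one_iff_unique.1 hk
      have h2 : ρ g₁ w ≠ 0 := fun h0 => hw (((ρ g₁).map_eq_zero_iff).1 h0)
      have h3 := h1.1.elim (⟨ρ g₁ w, h2⟩ : {u : V | u ≠ 0}) ⟨w, hw⟩
      exact congrArg Subtype.val h3
  haveI : Module.Finite (ZMod q) V := Module.Finite.of_finite
  obtain ⟨d, hd⟩ : ∃ d, Nat.card V = q ^ d :=
    ⟨_, by rw [Module.natCard_eq_pow_finrank (K := ZMod q) (V := V), Nat.card_zmod]⟩
  have hd1 : 1 ≤ d := by
    by_contra hlt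
    have h0 : d = 0 := by omega
    rw [h0, pow_zero] at hd
    have h1 : 1 < Nat.card V := Finite.one_lt_card
    omega
  by_cases hq2 : q = 2
  · -- characteristic two
    subst hq2
    left
    refine ⟨rfl, ?_⟩
    have h1 : 2 ^ d = p ^ k + 1 := by rw [← hd, ← hnz, hk]
    have hp2 : p ≠ 2 := by
      rintro rfl
      apply hpq
      exact_mod_cast ZMod.natCast_self 2
    have hp3 : 3 ≤ p := by
      have := hpp.two_le
      omega
    have hk1 : k = 1 := arith_pow_add_one (hpp.odd_of_ne_two hp2) hp3 (by omega) h1.symm
    subst hk1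
    rw [pow_one] at hk
    have hpV : p = Nat.card V - 1 := by omega
    refine ⟨hpV, ?_⟩
    -- the stabilizer is normal of index `p`
    have hind : (fixSub ρ v₀).index = p := by
      have h2 := Subgroup.card_mul_index (fixSub ρ v₀)
      rw [← hocm, hk, mul_comm] at h2
      exact Nat.eq_of_mul_eq_mul_right Nat.card_pos h2
    have hn : (fixSub ρ v₀).Normal := by
      apply Subgroup.normal_of_index_eq_minFac_card
      rw [hind, ha]
      have ha0 : a ≠ 0 := by
        rintro rfl
        rw [pow_zero] at ha
        have : 1 < Nat.card G := Finite.one_lt_card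
        omega
      rw [Nat.Prime.pow_minFac hpp ha0]
    have hS1 : ∀ s ∈ fixSub ρ v₀, s = 1 := by
      intro s hs
      apply htriv
      intro w
      by_cases hw : w = 0
      · rw [hw]; simp
      · obtain ⟨g, rfl⟩ := htrans v₀ w hv₀ hw
        have h3 : g⁻¹ * s * g ∈ fixSub ρ v₀ := by
          have := hn.conj_mem s hs g⁻¹
          simpa using this
        have h4 : ρ (g⁻¹ * s * g) v₀ = v₀ := h3
        have h5 : ρ s (ρ g v₀) = ρ g (ρ (g⁻¹ * s * g) v₀) := by
          rw [← LinearEquiv.mul_apply, ← LinearEquiv.mul_apply, ← map_mul, ← map_mul]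
          congr 2
          group
        rw [h5, h4]
    have hc1 : Nat.card (fixSub ρ v₀) = 1 := by
      rw [Nat.card_eq_one_iff_unique]
      exact ⟨⟨fun x y => Subtype.ext ((hS1 x x.2).trans (hS1 y y.2).symm)⟩, ⟨1⟩⟩
    rw [← hocm, hc1, mul_one, hk]
  · -- odd characteristic
    right
    have hqodd : Odd q := hqq.odd_of_ne_two hq2
    have hp2 : p = 2 := by
      have h1 : q ^ d = p ^ k + 1 := by rw [← hd, ← hnz, hk]
      have h2 : Odd (q ^ d) := hqodd.pow
      rw [h1] at h2
      have h3 : Even (p ^ k) := by
        rw [Nat.odd_add_one, Nat.not_odd_iff_even] at h2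
        exact h2
      have h4 : 2 ∣ p := by
        have : 2 ∣ p ^ k := h3.two_dvd
        exact Nat.prime_two.dvd_of_dvd_pow this
      exact ((Nat.prime_dvd_prime_iff_eq Nat.prime_two hpp).1 h4).symm
    subst hp2
    have h1 : q ^ d = 2 ^ k + 1 := by rw [← hd, ← hnz, hk]
    rcases arith_pow_sub_one hqq hq2 hd1 h1 with rfl | ⟨rfl, rfl⟩
    · left
      rw [pow_one] at hd h1
      -- the line
      have hline : ∀ u : V, ∃ c : ZMod q, u = c • v₀ := by
        intro u
        let φ : ZMod q → V := fun c => c • v₀
        have hinj : Function.Injective φ := fun c c' h => smul_left_injective _ hv₀ h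
        have hbij : Function.Bijective φ := by
          refine (Nat.bijective_iff_injective_and_card φ).2 ⟨hinj, ?_⟩
          rw [hd, Nat.card_zmod]
        obtain ⟨c, hc⟩ := hbij.2 u
        exact ⟨c, hc.symm⟩
      have hS1 : ∀ s : G, ρ s v₀ = v₀ → s = 1 := by
        intro s hs
        apply htriv
        intro w
        obtain ⟨c, rfl⟩ := hline w
        rw [map_smul, hs]
      have hc1 : Nat.card (fixSub ρ v₀) = 1 := by
        rw [Nat.card_eq_one_iff_unique]
        exact ⟨⟨fun x y => Subtype.ext ((hS1 x x.2).trans (hS1 y y.2).symm)⟩, ⟨1⟩⟩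
      refine ⟨rfl, hd, ⟨k, h1, ?_⟩, ?_⟩
      · rw [← hocm, hc1, mul_one, hk]
      · choose c hc using fun g : G => hline (ρ g v₀)
        have hcinj : ∀ x y : ZMod q, x • v₀ = y • v₀ → x = y := fun x y h => smul_left_injective _ hv₀ h
        let f : G →* ZMod q :=
          { toFun := c
            map_one' := by
              apply hcinj
              rw [← hc, map_one, one_smul]
              rfl
            map_mul' := by
              intro x y
              apply hcinj
              rw [← hc, map_mul, LinearEquiv.mul_apply, hc y, map_smul, hc x, smul_smul, mul_comm] }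
        have hf : Function.Injective f := by
          intro x y hxy
          have h2 : ρ x v₀ = ρ y v₀ := by
            rw [hc x, hc y]
            exact congrArg (· • v₀) hxy
          have h3 : ρ (y⁻¹ * x) v₀ = v₀ := by
            rw [map_mul, LinearEquiv.mul_apply, h2, ← LinearEquiv.mul_apply, ← map_mul]
            simp
          have h4 := hS1 _ h3
          exact (inv_mul_eq_one.1 h4).symm
        exact isCyclic_of_subgroup_isDomain f hf
    · right
      refine ⟨rfl, rfl, by rw [hd]; norm_num, ?_⟩
      have hc8 : Nat.card {u : V | u ≠ 0} = 8 := by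
        rw [hd] at hnz
        omega
      have hhalf : ∀ v w : V, v ≠ 0 → w ≠ 0 →
          Nat.card {u : V | ∃ g : G, ρ g v = u} = Nat.card {u : V | ∃ g : G, ρ g w = u} := by
        intro v w hv hw
        rw [horb v hv, horb w hw]
      rcases Cfsg.Agent.S3371.result 3 2 hG ρ hρ hhalf with ⟨hcq, hsr⟩ | ⟨_, m, hm, hiso⟩ | ⟨_, _, e, he⟩ | ⟨hV, _⟩
      · have hc1 : Nat.card (fixSub ρ v₀) = 1 := by
          rw [Nat.card_eq_one_iff_unique]
          exact ⟨⟨fun x y => Subtype.ext ((hsr v₀ hv₀ x x.2).trans (hsr v₀ hv₀ y y.2).symm)⟩, ⟨1⟩⟩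
        have hG8 : Nat.card G = 8 := by
          rw [← hocm, hc1, mul_one, hc8]
        rcases hcq with h | ⟨n, ⟨E⟩⟩
        · left
          exact ⟨h, hG8⟩
        · right; left
          have hn0 : n ≠ 0 := by
            rintro rfl
            haveI : Finite (QuaternionGroup 0) := Finite.of_equiv G E.toEquiv
            have hinj : Function.Injective (fun z : ℤ => (@QuaternionGroup.a 0 z : QuaternionGroup 0)) := by
              intro x y h
              exact QuaternionGroup.a.inj h
            haveI : Finite ℤ := Finite.of_injective _ hinj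
            exact not_finite ℤ
          haveI : NeZero n := ⟨hn0⟩
          have h2 : Nat.card (QuaternionGroup n) = 8 := by
            rw [← Nat.card_congr E.toEquiv, hG8]
          rw [Nat.card_eq_fintype_card, QuaternionGroup.card] at h2
          have h3 : n = 2 := by omega
          subst h3
          exact ⟨E⟩
      · have hm2 : m = 2 := by
          have h2 : 2 ^ m = 4 := by omega
          have h3 : 2 ^ m = 2 ^ 2 := by rw [h2]; norm_num
          exact Nat.pow_right_injective (le_refl 2) h3
        subst hm2
        rcases hiso with hD | ⟨hQ, hc⟩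
        · exfalso
          obtain ⟨E⟩ := hD
          have hG8 : Nat.card G = 8 := by
            rw [Nat.card_congr E.toEquiv, DihedralGroup.nat_card]
            norm_num
          have hfree : ∀ v : V, v ≠ 0 → ∀ g : G, ρ g v = v → g = 1 := by
            intro v hv g hg
            have h2 := orbit_card_mul ρ v
            rw [horb v hv, hc8, hG8] at h2
            have h3 : Nat.card (fixSub ρ v) = 1 := by omega
            have h4 := (Nat.card_eq_one_iff_unique.1 h3).1.elim (⟨g, hg⟩ : fixSub ρ v) 1
            exact congrArg Subtype.val h4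
          have hneg : ∀ g : G, g * g = 1 → g ≠ 1 → ∀ v : V, ρ g v = -v := by
            intro g hgg hg1 v
            have h2 : ρ g (v + ρ g v) = v + ρ g v := by
              rw [map_add, ← LinearEquiv.mul_apply, ← map_mul, hgg, map_one]
              simp [add_comm]
            by_cases h3 : v + ρ g v = 0
            · exact eq_neg_of_add_eq_zero_right h3
            · exact absurd (hfree _ h3 g h2) hg1
          let t : G := E.symm (DihedralGroup.r 2)
          let s : G := E.symm (DihedralGroup.sr 0)
          have htt : t * t = 1 := by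
            rw [← map_mul]
            have : (DihedralGroup.r 2 : DihedralGroup (2 ^ 2)) * DihedralGroup.r 2 = 1 := by decide
            rw [this, map_one]
          have hss : s * s = 1 := by
            rw [← map_mul, DihedralGroup.sr_mul_self, map_one]
          have ht1 : t ≠ 1 := by
            intro h
            have h2 : E t = E 1 := by rw [h]
            rw [map_one] at h2
            have h3 : (DihedralGroup.r 2 : DihedralGroup (2 ^ 2)) = 1 := by
              simpa [t] using h2
            exact absurd h3 (by decide)
          have hs1 : s ≠ 1 := by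
            intro h
            have h2 : E s = E 1 := by rw [h]
            rw [map_one] at h2
            have h3 : (DihedralGroup.sr 0 : DihedralGroup (2 ^ 2)) = 1 := by
              simpa [s] using h2
            exact absurd h3 (by decide)
          have hts : t = s := by
            apply hρ
            ext v
            rw [hneg t htt ht1, hneg s hss hs1]
          have h2 : (DihedralGroup.r 2 : DihedralGroup (2 ^ 2)) = DihedralGroup.sr 0 := E.symm.injective hts
          exact absurd h2 (by decide)
        · right; right
          exact ⟨hQ, by rw [hc]; norm_num⟩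
      · exfalso
        obtain ⟨g, hg⟩ := htrans (e.symm ![1, 0]) (e.symm ![1, 1])
          (by
            intro h
            have h2 := (e.symm.map_eq_zero_iff).1 h
            have h3 := congrFun h2 0
            simp at h3)
          (by
            intro h
            have h2 := (e.symm.map_eq_zero_iff).1 h
            have h3 := congrFun h2 0
            simp at h3)
        obtain ⟨a', s, _, _, hf⟩ := (he (e.symm.trans ((ρ g).trans e))).1 ⟨g, rfl⟩
        have hval : (e.symm.trans ((ρ g).trans e)) ![1, 0] = ![1, 1] := by
          show e (ρ g (e.symm ![1, 0])) = _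
          rw [hg]
          simp
        rcases hf with hf | hf
        · rw [hf] at hval
          have h3 := congrFun hval 1
          simp at h3
        · rw [hf] at hval
          have h3 := congrFun hval 0
          simp at h3
      · exfalso
        rw [hd] at hV
        norm_num at hV

end Cfsg.Agent.S3370
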