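import Cfsg.Statements.S3374
import Cfsg.Agent.Lib.Recog.SL25Table

set_option autoImplicit false
open Cfsg

namespace Cfsg.Agent.S3374

open scoped Pointwise
open Cfsg.Agent.Lib.Recog.SL25

abbrev AA := Matrix.SpecialLinearGroup (Fin 2) (ZMod 5)
abbrev VV := ZMod 11 × ZMod 11

def tx (x : AA) : ℕ := TT (x.1 0 0) (x.1 0 1) (x.1 1 0) (x.1 1 1)

def Madd (x : AA) : VV →+ VV :=
  AddMonoidHom.mk' (fun v => (E0 (tx x) * v.1 + E1 (tx x) * v.2, E2 (tx x) * v.1 + E3 (tx x) * v.2)) (by
    intro u v
    refine Prod.ext ?_ ?_ <;> simp only [Prod.fst_add, Prod.snd_add] <;> ring)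

theorem Madd_apply (x : AA) (v : VV) :
    Madd x v = (E0 (tx x) * v.1 + E1 (tx x) * v.2, E2 (tx x) * v.1 + E3 (tx x) * v.2) := rfl

theorem det_entries (x : AA) : x.1 0 0 * x.1 1 1 - x.1 0 1 * x.1 1 0 = 1 := by
  have := x.2
  rwa [Matrix.det_fin_two] at this

theorem Madd_one (v : VV) : Madd 1 v = v := by
  obtain ⟨h0, h1, h2, h3⟩ := tbl_one
  have : tx 1 = TT 1 0 0 1 := by
    unfold tx
    simp
  rw [Madd_apply, this, h0, h1, h2, h3]
  simp

theorem Madd_mul (x y : AA) (v : VV) : Madd (x * y) v = Madd x (Madd y v) := by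
  obtain ⟨h0, h1, h2, h3⟩ := tbl_mul _ _ _ _ (det_entries x) _ _ _ _ (det_entries y)
  have : tx (x * y) = TT (x.1 0 0 * y.1 0 0 + x.1 0 1 * y.1 1 0) (x.1 0 0 * y.1 0 1 + x.1 0 1 * y.1 1 1)
      (x.1 1 0 * y.1 0 0 + x.1 1 1 * y.1 1 0) (x.1 1 0 * y.1 0 1 + x.1 1 1 * y.1 1 1) := by
    unfold tx
    simp [Matrix.SpecialLinearGroup.coe_mul, Matrix.mul_apply, Fin.sum_univ_two]
  rw [Madd_apply, Madd_apply, Madd_apply, this, h0, h1, h2, h3]
  unfold tx
  refine Prod.ext ?_ ?_
  · simp only
    ring
  · simp only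
    ring

theorem Madd_fpf (x : AA) (hx : x ≠ 1) (v : VV) (h : Madd x v = v) : v = 0 := by
  have h1 : ¬ (x.1 0 0 = 1 ∧ x.1 0 1 = 0 ∧ x.1 1 0 = 0 ∧ x.1 1 1 = 1) := by
    rintro ⟨h00, h01, h10, h11⟩
    apply hx
    apply Subtype.ext
    ext i j
    fin_cases i <;> fin_cases j <;> simp [h00, h01, h10, h11]
  have h2 := congrArg Prod.fst h
  have h3 := congrArg Prod.snd h
  obtain ⟨hu, hv⟩ := tbl_fpf _ _ _ _ (det_entries x) h1 v.1 v.2 h2 h3
  exact Prod.ext hu hv

def S5 : AA := ⟨!![0, 4; 1, 0], by rw [Matrix.det_fin_two_of]; decide⟩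

theorem S5_ne : S5 ≠ 1 := by
  intro h
  have h1 : (1 : AA).1 0 0 = 1 := by simp
  have h2 : S5.1 0 0 = 0 := rfl
  rw [h, h1] at h2
  exact absurd h2 (by decide)

def Mφ : AA →* MulAut (Multiplicative VV) where
  toFun x :=
    { toFun := fun v => Multiplicative.ofAdd (Madd x (Multiplicative.toAdd v))
      invFun := fun v => Multiplicative.ofAdd (Madd x⁻¹ (Multiplicative.toAdd v))
      left_inv := by
        intro v
        show Multiplicative.ofAdd (Madd x⁻¹ (Madd x (Multiplicative.toAdd v))) = v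
        rw [← Madd_mul, inv_mul_cancel, Madd_one]; rfl
      right_inv := by
        intro v
        show Multiplicative.ofAdd (Madd x (Madd x⁻¹ (Multiplicative.toAdd v))) = v
        rw [← Madd_mul, mul_inv_cancel, Madd_one]; rfl
      map_mul' := by
        intro u v
        show Multiplicative.ofAdd (Madd x (Multiplicative.toAdd u + Multiplicative.toAdd v)) = _
        rw [map_add]; rfl }
  map_one' := by
    ext v
    · show (Madd 1 (Multiplicative.toAdd v)).1 = _
      rw [Madd_one]; rfl
    · show (Madd 1 (Multiplicative.toAdd v)).2 = _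
      rw [Madd_one]; rfl
  map_mul' := by
    intro x y
    ext v
    · show (Madd (x * y) (Multiplicative.toAdd v)).1 = _
      rw [Madd_mul]; rfl
    · show (Madd (x * y) (Multiplicative.toAdd v)).2 = _
      rw [Madd_mul]; rfl

theorem Mφ_apply (x : AA) (v : Multiplicative VV) :
    Mφ x v = Multiplicative.ofAdd (Madd x (Multiplicative.toAdd v)) := rfl

abbrev LL := SemidirectProduct (Multiplicative VV) AA Mφ

theorem conj_left_aux (g : LL) (h' : AA) :
    (g * SemidirectProduct.inr h' * g⁻¹).left = g.left * Mφ (g.right * h' * g.right⁻¹) (g.left⁻¹) := by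
  rw [SemidirectProduct.mul_left, SemidirectProduct.mul_left, SemidirectProduct.mul_right,
    SemidirectProduct.left_inr, SemidirectProduct.right_inr, SemidirectProduct.inv_left, map_one, mul_one]
  have h : Mφ (g.right * h' * g.right⁻¹) = Mφ (g.right * h') * Mφ g.right⁻¹ := map_mul _ _ _
  rw [h]
  rfl



/-- SL(2,5) occurs as a Frobenius complement: there is a finite group L with a subgroup H isomorphic to SL(2,5) which is a non-trivial proper subgroup meeting each conjugate gHg⁻¹ with g outside H trivially. -/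
theorem result :
    ∃ (L : Type) (_ : Group L) (_ : Finite L) (H : Subgroup L),
      Cfsg.IsFrobeniusComplement H ∧ Nonempty (H ≃* Matrix.SpecialLinearGroup (Fin 2) (ZMod 5)) := by
  classical
  have hfin : Finite LL := by
    have : Finite (Multiplicative VV × AA) := inferInstance
    exact Finite.of_equiv _ (SemidirectProduct.equivProd (N := Multiplicative VV) (G := AA) (φ := Mφ)).symm
  let H : Subgroup LL := (SemidirectProduct.inr : AA →* LL).range
  have hmem : ∀ g : LL, g ∈ H ↔ g.left = 1 := by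
    intro g
    constructor
    · rintro ⟨x, rfl⟩
      rfl
    · intro h
      refine ⟨g.right, ?_⟩
      apply SemidirectProduct.ext
      · rw [h]; rfl
      · rfl
  refine ⟨LL, inferInstance, hfin, H, ⟨?_, ?_, ?_⟩, ?_⟩
  · intro hbot
    apply S5_ne
    have h1 : SemidirectProduct.inr S5 ∈ H := ⟨_, rfl⟩
    rw [hbot, Subgroup.mem_bot] at h1
    exact congrArg SemidirectProduct.right h1
  · intro htop
    have h1 : (SemidirectProduct.inl (Multiplicative.ofAdd ((1 : ZMod 11), (0 : ZMod 11))) : LL) ∈ H := by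
      rw [htop]; trivial
    rw [hmem] at h1
    have h2 := congrArg (fun v : Multiplicative VV => (Multiplicative.toAdd v).1) h1
    exact absurd h2 (by decide)
  · intro g hg
    rw [hmem] at hg
    rw [Subgroup.eq_bot_iff_forall]
    rintro y ⟨hy1, hy2⟩
    have hy1' : y ∈ H := hy1
    have hy2' : y ∈ MulAut.conj g • H := hy2
    obtain ⟨z, hz, rfl⟩ := hy2'
    obtain ⟨h', rfl⟩ := hz
    rw [hmem] at hy1'
    -- compute
    have hconj : (MulAut.conj g • (SemidirectProduct.inr h' : LL)) = g * SemidirectProduct.inr h' * g⁻¹ := rfl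
    have key := conj_left_aux g h'
    rw [← hconj] at key
    show (MulAut.conj g • (SemidirectProduct.inr h' : LL)) = 1
    change (MulAut.conj g • (SemidirectProduct.inr h' : LL)).left = 1 at hy1'
    have hb : g.right * h' * g.right⁻¹ = 1 := by
      by_contra hne
      rw [key] at hy1'
      have h2 : Mφ (g.right * h' * g.right⁻¹) (g.left⁻¹) = g.left⁻¹ := by
        exact (eq_inv_of_mul_eq_one_right hy1')
      rw [Mφ_apply] at h2
      have h3 := Madd_fpf _ hne (Multiplicative.toAdd (g.left⁻¹)) (Multiplicative.ofAdd.injective h2)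
      apply hg
      have h4 : g.left⁻¹ = 1 := Multiplicative.toAdd.injective h3
      exact inv_eq_one.mp h4
    have hh' : h' = 1 := by
      have h5 : g.right * h' = g.right := by
        rw [mul_inv_eq_one] at hb
        exact hb
      simpa using h5
    rw [hconj, hh']
    simp
  · exact ⟨(MonoidHom.ofInjective (SemidirectProduct.inr_injective)).symm⟩

end Cfsg.Agent.S3374
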