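import Cfsg.Statements.S3375
import Mathlib

set_option autoImplicit false
open Cfsg

namespace Cfsg.Agent.S3375

set_option linter.style.haveILetI false

/-- the surjectivity onto an index-2 subgroup -/
lemma core {H : Type*} [Group H] [Finite H] (γ : MulAut H) (hγ2 : ∀ x, γ (γ x) = x)
    (hc : Nat.card {h : H // γ h = h} = 2) (A : Subgroup H) (hA : A.index = 2)
    (hAf : ∀ x : H, x⁻¹ * γ x ∈ A) :
    ∀ a ∈ A, ∃ x : H, x⁻¹ * γ x = a := by
  classical
  haveI := Fintype.ofFinite H
  set f : H → H := fun x => x⁻¹ * γ x with hf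
  have hfib : ∀ b ∈ (Finset.univ : Finset H).image f,
      (Finset.univ.filter fun a => f a = b).card ≤ 2 := by
    intro b hb
    obtain ⟨x₀, -, rfl⟩ := Finset.mem_image.mp hb
    haveI : Fintype {h : H // γ h = h} := Fintype.ofFinite _
    have hcard : Fintype.card {h : H // γ h = h} = 2 := by
      rw [← Nat.card_eq_fintype_card]; exact hc
    rw [← hcard, ← Finset.card_univ]
    refine Finset.card_le_card_of_injOn
      (fun y => if hy : f y = f x₀ then ⟨y * x₀⁻¹, by
        have h1 : y⁻¹ * γ y = x₀⁻¹ * γ x₀ := hy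
        have h2 : γ y = y * x₀⁻¹ * γ x₀ := by
          calc γ y = y * (y⁻¹ * γ y) := by group
            _ = y * (x₀⁻¹ * γ x₀) := by rw [h1]
            _ = y * x₀⁻¹ * γ x₀ := by group
        rw [map_mul, map_inv, h2]
        group⟩ else ⟨1, map_one γ⟩) (fun _ _ => Finset.mem_univ _) ?_
    intro y hy z hz hyz
    have hy' : f y = f x₀ := by simpa using hy
    have hz' : f z = f x₀ := by simpa using hz
    simp only [dif_pos hy', dif_pos hz', Subtype.mk.injEq] at hyz
    exact mul_right_cancel hyz
  have h1 := Finset.card_le_mul_card_image (Finset.univ : Finset H) 2 hfib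
  have hsub : (Finset.univ : Finset H).image f ⊆ Finset.univ.filter (· ∈ A) := by
    intro y hy
    obtain ⟨x, -, rfl⟩ := Finset.mem_image.mp hy
    simpa using hAf x
  have hcardA : (Finset.univ.filter (· ∈ A)).card = Nat.card A := by
    rw [Nat.card_eq_fintype_card, Fintype.card_subtype]
  have hcardH : (Finset.univ : Finset H).card = 2 * Nat.card A := by
    rw [Finset.card_univ, ← Nat.card_eq_fintype_card, ← hA, Subgroup.index_mul_card]
  have hle : (Finset.univ.filter (· ∈ A)).card ≤ ((Finset.univ : Finset H).image f).card := by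
    rw [hcardA]
    rw [hcardH] at h1
    exact Nat.le_of_mul_le_mul_left h1 (by norm_num)
  have heq := Finset.eq_of_subset_of_card_le hsub hle
  intro a ha
  have ha' : a ∈ Finset.univ.filter (· ∈ A) := by simpa using ha
  rw [← heq] at ha'
  obtain ⟨x, -, hx⟩ := Finset.mem_image.mp ha'
  exact ⟨x, hx⟩


/-- Let γ be an automorphism of order 2 of a finite group H. (i) If γ fixes only the identity, then H is abelian and γ inverts every element. (ii) If γ has exactly two fixed points and H has a subgroup of index 2, then H has a γ-invariant abelian subgroup of index 2 on which γ acts by inversion. -/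
theorem result {H : Type*} [Group H] [Finite H] (γ : MulAut H) (hγ : orderOf γ = 2) :
    ((∀ h : H, γ h = h → h = 1) → (∀ a b : H, a * b = b * a) ∧ ∀ h : H, γ h = h⁻¹) ∧
    ((Nat.card {h : H // γ h = h} = 2 ∧ ∃ M : Subgroup H, M.index = 2) →
      ∃ A : Subgroup H, A.index = 2 ∧ IsMulCommutative A ∧ (∀ a ∈ A, γ a ∈ A) ∧ ∀ a ∈ A, γ a = a⁻¹) := by
  have hγ2 : ∀ x, γ (γ x) = x := by
    intro x
    have h : γ ^ 2 = 1 := hγ ▸ pow_orderOf_eq_one γ
    have h2 := congrArg (fun φ : MulAut H => φ x) h
    simpa [pow_two, MulAut.mul_apply] using h2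
  have hfI : ∀ x : H, γ (x⁻¹ * γ x) = (x⁻¹ * γ x)⁻¹ := by
    intro x
    rw [map_mul, map_inv, hγ2, mul_inv_rev, inv_inv]
  constructor
  · intro hfix
    have hinj : Function.Injective (fun x : H => x⁻¹ * γ x) := by
      intro x y hxy
      have hxy' : x⁻¹ * γ x = y⁻¹ * γ y := hxy
      have h2 : y * x⁻¹ = 1 := by
        apply hfix
        rw [map_mul, map_inv]
        have h3 : γ y = y * x⁻¹ * γ x := by
          calc γ y = y * (y⁻¹ * γ y) := by group
            _ = y * (x⁻¹ * γ x) := by rw [hxy']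
            _ = y * x⁻¹ * γ x := by group
        rw [h3]; group
      exact (mul_inv_eq_one.mp h2).symm
    have hsurj := Finite.surjective_of_injective hinj
    have hinv : ∀ h : H, γ h = h⁻¹ := by
      intro h
      obtain ⟨x, rfl⟩ := hsurj h
      exact hfI x
    refine ⟨?_, hinv⟩
    intro a b
    have h1 := hinv (a * b)
    rw [map_mul, hinv, hinv, mul_inv_rev] at h1
    have h2 := congrArg (·⁻¹) h1
    exact (by simpa using h2 : b * a = a * b).symm
  · rintro ⟨hc, M, hM⟩
    have key : ∀ A : Subgroup H, A.index = 2 → (∀ x : H, x⁻¹ * γ x ∈ A) →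
        ∃ A : Subgroup H, A.index = 2 ∧ IsMulCommutative A ∧ (∀ a ∈ A, γ a ∈ A) ∧ ∀ a ∈ A, γ a = a⁻¹ := by
      intro A hA hAf
      have hsurj := core γ hγ2 hc A hA hAf
      have hinv : ∀ a ∈ A, γ a = a⁻¹ := by
        intro a ha
        obtain ⟨x, rfl⟩ := hsurj a ha
        exact hfI x
      refine ⟨A, hA, ⟨⟨?_⟩⟩, fun a ha => by rw [hinv a ha]; exact A.inv_mem ha, hinv⟩
      rintro ⟨a, ha⟩ ⟨b, hb⟩
      apply Subtype.ext
      show a * b = b * a
      have h1 := hinv (a * b) (A.mul_mem ha hb)
      rw [map_mul, hinv a ha, hinv b hb, mul_inv_rev] at h1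
      have h2 := congrArg (·⁻¹) h1
      exact (by simpa using h2 : b * a = a * b).symm
    have hmul : ∀ a b : H, a * b ∈ M ↔ (a ∈ M ↔ b ∈ M) := fun a b => Subgroup.mul_mem_iff_of_index_two hM
    have hinvM : ∀ a : H, a⁻¹ ∈ M ↔ a ∈ M := fun a => M.inv_mem_iff
    by_cases hinvar : ∀ x : H, x ∈ M ↔ γ x ∈ M
    · apply key M hM
      intro x
      rw [hmul, hinvM]
      exact hinvar x
    · push Not at hinvar
      obtain ⟨a, ha⟩ := hinvar
      let A : Subgroup H :=
        { carrier := {x | x ∈ M ↔ γ x ∈ M}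
          one_mem' := by
            show (1 : H) ∈ M ↔ γ 1 ∈ M
            rw [map_one]
          mul_mem' := by
            intro x y hx hy
            show x * y ∈ M ↔ γ (x * y) ∈ M
            have hx' : x ∈ M ↔ γ x ∈ M := hx
            have hy' : y ∈ M ↔ γ y ∈ M := hy
            rw [map_mul, hmul, hmul, hx', hy']
          inv_mem' := by
            intro x hx
            show x⁻¹ ∈ M ↔ γ x⁻¹ ∈ M
            have hx' : x ∈ M ↔ γ x ∈ M := hx
            rw [map_inv, hinvM, hinvM, hx'] }
      have hAmem : ∀ x, x ∈ A ↔ (x ∈ M ↔ γ x ∈ M) := fun x => Iff.rfl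
      have haA : a ∉ A := by
        rw [hAmem]
        tauto
      have hAidx : A.index = 2 := by
        rw [Subgroup.index_eq_two_iff]
        refine ⟨a, fun b => ?_⟩
        rw [hAmem, hAmem, map_mul, hmul, hmul]
        rw [hAmem] at haA
        by_cases h1 : b ∈ M <;> by_cases h2 : a ∈ M <;> by_cases h3 : γ b ∈ M <;>
          by_cases h4 : γ a ∈ M <;> simp_all
      apply key A hAidx
      intro x
      rw [hAmem, map_mul, map_inv, hγ2, hmul, hmul, hinvM, hinvM]
      tauto

end Cfsg.Agent.S3375
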