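import Cfsg.Statements.S3379


set_option autoImplicit false
open Cfsg

namespace Cfsg.Agent.S3379

---IMPORTS
open scoped commutatorElement


/-- Let G be a finite group all of whose Sylow subgroups are cyclic. Then G is generated by two elements x and y of coprime orders n and m with x⁻¹yx = y^r, where gcd(r − 1, m) = 1 and r^n ≡ 1 (mod m). -/
theorem result {G : Type*} [Group G] [Finite G]
    (hZ : ∀ (p : ℕ) [Fact p.Prime] (P : Sylow p G), IsCyclic (P : Subgroup G)) :
    ∃ (x y : G) (n m r : ℕ), Subgroup.closure {x, y} = ⊤ ∧ orderOf x = n ∧ orderOf y = m ∧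
      x⁻¹ * y * x = y ^ r ∧ Nat.Coprime (r - 1) m ∧ Nat.Coprime n m ∧ 1 ≤ r ∧ r ^ n % m = 1 % m := by
  classical
  haveI hZG : IsZGroup G := ⟨fun p hp P => by
    haveI := Fact.mk hp
    exact hZ p P⟩
  obtain ⟨H, hH⟩ := Subgroup.exists_right_complement'_of_coprime hZG.coprime_commutator_index
  have h1 : Abelianization G ≃* H := hH.symm.QuotientMulEquiv
  haveI hHc : IsCyclic H := isCyclic_of_surjective _ h1.surjective
  haveI hNc : IsCyclic (commutator G) := IsZGroup.isCyclic_commutator G
  obtain ⟨x', hx'⟩ := IsCyclic.exists_generator (α := H)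
  obtain ⟨y', hy'⟩ := IsCyclic.exists_generator (α := commutator G)
  let x : G := x'
  let y : G := y'
  have hHx : H = Subgroup.zpowers x := by
    ext g
    constructor
    · intro hg
      obtain ⟨k, hk⟩ := Subgroup.mem_zpowers_iff.mp (hx' ⟨g, hg⟩)
      refine Subgroup.mem_zpowers_iff.mpr ⟨k, ?_⟩
      have := congrArg Subtype.val hk
      simpa using this
    · intro hg
      obtain ⟨k, rfl⟩ := Subgroup.mem_zpowers_iff.mp hg
      exact H.zpow_mem x'.2 k
  have hNy : commutator G = Subgroup.zpowers y := by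
    ext g
    constructor
    · intro hg
      obtain ⟨k, hk⟩ := Subgroup.mem_zpowers_iff.mp (hy' ⟨g, hg⟩)
      refine Subgroup.mem_zpowers_iff.mpr ⟨k, ?_⟩
      have := congrArg Subtype.val hk
      simpa using this
    · intro hg
      obtain ⟨k, rfl⟩ := Subgroup.mem_zpowers_iff.mp hg
      exact Subgroup.zpow_mem _ y'.2 k
  have hn : orderOf x = Nat.card H := by
    rw [hHx, Nat.card_zpowers]
  have hm : orderOf y = Nat.card (commutator G) := by
    rw [hNy, Nat.card_zpowers]
  have hmpos : 0 < orderOf y := orderOf_pos y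
  have hcoprime : Nat.Coprime (orderOf x) (orderOf y) := by
    rw [hn, hm]
    have h2 := hZG.coprime_commutator_index
    have h3 : (commutator G).index = Nat.card H := by
      have := hH.card_mul_card
      have h4 := (commutator G).card_mul_index
      have hpos : 0 < Nat.card (commutator G) := Nat.card_pos
      exact Nat.eq_of_mul_eq_mul_left hpos (h4.trans this.symm)
    rw [h3] at h2
    exact h2.symm
  have hsup : Subgroup.closure {x, y} = ⊤ := by
    have h5 : commutator G ⊔ H = ⊤ := hH.sup_eq_top
    rw [eq_top_iff, ← h5, hNy, hHx, sup_le_iff]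
    constructor
    · rw [Subgroup.zpowers_le]
      exact Subgroup.subset_closure (by simp)
    · rw [Subgroup.zpowers_le]
      exact Subgroup.subset_closure (by simp)
  -- the exponent
  have hmem : x⁻¹ * y * x ∈ Subgroup.zpowers y := by
    rw [← hNy]
    have hnormal : (commutator G).Normal := inferInstance
    have := hnormal.conj_mem y y'.2 x⁻¹
    simpa using this
  obtain ⟨k, hk⟩ := (mem_powers_iff_mem_zpowers.mpr hmem)
  let r := k + orderOf y
  have hr : x⁻¹ * y * x = y ^ r := by
    simp only [r, pow_add, pow_orderOf_eq_one, mul_one]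
    exact hk.symm
  have hr1 : 1 ≤ r := by simp only [r]; omega
  refine ⟨x, y, orderOf x, orderOf y, r, hsup, rfl, rfl, hr, ?_, hcoprime, hr1, ?_⟩
  · -- coprimality of r - 1 and m
    set d := Nat.gcd (r - 1) (orderOf y) with hd
    let C : Subgroup G := Subgroup.zpowers (y ^ d)
    have hCnormal : C.Normal := by
      refine ⟨fun c hc g => ?_⟩
      obtain ⟨l, rfl⟩ := Subgroup.mem_zpowers_iff.mp hc
      have hg : g * y * g⁻¹ ∈ Subgroup.zpowers y := by
        rw [← hNy]
        exact (inferInstance : (commutator G).Normal).conj_mem y y'.2 g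
      obtain ⟨a, ha⟩ := Subgroup.mem_zpowers_iff.mp hg
      have e1 : g * (y ^ d) ^ l * g⁻¹ = ((g * y * g⁻¹) ^ d) ^ l := by
        rw [conj_pow, conj_zpow]
      rw [e1, ← ha]
      refine Subgroup.mem_zpowers_iff.mpr ⟨a * l, ?_⟩
      simp only [← zpow_natCast, ← zpow_mul]
      congr 1
      ring
    let f := QuotientGroup.mk' C
    have hyr : y ^ (r - 1) ∈ C := by
      obtain ⟨c, hc⟩ : d ∣ r - 1 := Nat.gcd_dvd_left _ _
      rw [hc, pow_mul]
      exact Subgroup.pow_mem _ (Subgroup.mem_zpowers _) _
    have hfxy : f x * f y = f y * f x := by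
      have h1 : f (x⁻¹ * y * x) = f y := by
        rw [hr]
        obtain ⟨e, he⟩ : ∃ e, r = (r - 1) + 1 := ⟨0, by omega⟩
        rw [he, pow_succ, map_mul]
        have : f (y ^ (r - 1)) = 1 := (QuotientGroup.eq_one_iff _).mpr hyr
        rw [this, one_mul]
      rw [map_mul, map_mul, map_inv] at h1
      calc f x * f y = f x * ((f x)⁻¹ * f y * f x) := by rw [h1]
        _ = f y * f x := by group
    have hcomm : ∀ a b : G ⧸ C, a * b = b * a := by
      have htop : Subgroup.closure ({f x, f y} : Set (G ⧸ C)) = ⊤ := by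
        have h2 : (Subgroup.closure ({x, y} : Set G)).map f = ⊤ := by
          rw [hsup, ← MonoidHom.range_eq_map, MonoidHom.range_eq_top]
          exact QuotientGroup.mk'_surjective C
        rw [← h2, MonoidHom.map_closure, Set.image_pair]
      have hc : IsMulCommutative (Subgroup.closure ({f x, f y} : Set (G ⧸ C))) := by
        apply Subgroup.isMulCommutative_closure
        rintro a (rfl | rfl) b (rfl | rfl)
        · rfl
        · exact hfxy
        · exact hfxy.symm
        · rfl
      intro a b
      have ha : a ∈ Subgroup.closure ({f x, f y} : Set (G ⧸ C)) := by rw [htop]; trivial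
      have hb : b ∈ Subgroup.closure ({f x, f y} : Set (G ⧸ C)) := by rw [htop]; trivial
      exact congrArg Subtype.val (hc.is_comm.comm ⟨a, ha⟩ ⟨b, hb⟩)
    have hle : commutator G ≤ C := by
      rw [commutator_def, Subgroup.commutator_le]
      intro g _ h _
      rw [← QuotientGroup.eq_one_iff]
      have : ((⁅g, h⁆ : G) : G ⧸ C) = f g * f h * (f g)⁻¹ * (f h)⁻¹ := by
        rw [commutatorElement_def]
        simp [f]
      rw [this, hcomm (f g) (f h)]
      group
    have hyC : y ∈ C := hle y'.2
    obtain ⟨l, hl⟩ := Subgroup.mem_zpowers_iff.mp hyC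
    have h3 : y ^ ((d : ℤ) * l) = y ^ (1 : ℤ) := by
      rw [zpow_mul, zpow_natCast, zpow_one]; exact hl
    have h4 := (zpow_eq_zpow_iff_modEq).mp h3
    have h5 : ((orderOf y : ℕ) : ℤ) ∣ 1 - (d : ℤ) * l := h4.dvd
    have h6 : (d : ℤ) ∣ (orderOf y : ℤ) := by
      exact_mod_cast Nat.gcd_dvd_right _ _
    have h7 : (d : ℤ) ∣ 1 := by
      have := dvd_add (h6.trans h5) (Dvd.intro l rfl : (d : ℤ) ∣ (d : ℤ) * l)
      simpa using this
    have h8 : d ∣ 1 := by exact_mod_cast h7
    exact Nat.dvd_one.mp h8
  · -- the power congruence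
    have hpowconj : ∀ j : ℕ, x⁻¹ ^ j * y * x ^ j = y ^ (r ^ j) := by
      intro j
      induction j with
      | zero => simp
      | succ j ih =>
        have e1 : x⁻¹ ^ (j + 1) * y * x ^ (j + 1) = x⁻¹ * (x⁻¹ ^ j * y * x ^ j) * x := by
          rw [pow_succ', pow_succ]; group
        have e2 : ∀ i : ℕ, x⁻¹ * y ^ i * x = (x⁻¹ * y * x) ^ i := by
          intro i
          have := conj_pow (a := x⁻¹) (b := y) (i := i)
          simpa using this.symm
        rw [e1, ih, e2, hr, ← pow_mul, pow_succ, mul_comm]
    have h6 := hpowconj (orderOf x)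
    rw [inv_pow, pow_orderOf_eq_one] at h6
    simp only [inv_one, one_mul, mul_one] at h6
    have h7 : y ^ 1 = y ^ (r ^ orderOf x) := by rw [pow_one]; exact h6
    have h8 := (pow_eq_pow_iff_modEq).mp h7
    exact h8.symm

end Cfsg.Agent.S3379
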