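import Cfsg.Statements.S3380
import Cfsg.Agent.S0519
import Cfsg.Agent.Lib.OddLocal.UniqueP2
import Cfsg.Agent.Lib.Recog.AvgSum

set_option autoImplicit false
open Cfsg

namespace Cfsg.Agent.S3380

open Cfsg.Agent.Lib.Recog

/-- A noncyclic abelian normal subgroup of a `p`-group contains a normal `E(p²)`. -/
theorem exists_normal_sq_of_abelian {G : Type*} [Group G] [Finite G] {p : ℕ} [Fact p.Prime] (hG : IsPGroup p G)
    (A : Subgroup G) (hAn : A.Normal) (hAc : IsMulCommutative A) (hAnc : ¬ IsCyclic A) :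
    ∃ E : Subgroup G, E.Normal ∧ (∀ a ∈ E, ∀ b ∈ E, a * b = b * a) ∧ (∀ e ∈ E, e ^ p = 1) ∧ Nat.card E = p ^ 2 := by
  classical
  have hpp : p.Prime := Fact.out
  have hcomm : ∀ a ∈ A, ∀ b ∈ A, a * b = b * a := by
    intro a ha b hb
    have := hAc.is_comm.comm (⟨a, ha⟩ : A) ⟨b, hb⟩
    exact congrArg Subtype.val this
  let Ω : Subgroup G :=
    { carrier := {a | a ∈ A ∧ a ^ p = 1}
      one_mem' := ⟨A.one_mem, one_pow _⟩
      mul_mem' := by
        rintro a b ⟨ha, ha'⟩ ⟨hb, hb'⟩
        refine ⟨A.mul_mem ha hb, ?_⟩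
        rw [(show Commute a b from hcomm a ha b hb).mul_pow, ha', hb', one_mul]
      inv_mem' := by
        rintro a ⟨ha, ha'⟩
        exact ⟨A.inv_mem ha, by rw [inv_pow, ha', inv_one]⟩ }
  have hmemΩ : ∀ a, a ∈ Ω ↔ a ∈ A ∧ a ^ p = 1 := fun a => Iff.rfl
  have hΩn : Ω.Normal := by
    constructor
    intro a ha g
    rw [hmemΩ] at ha ⊢
    refine ⟨hAn.conj_mem a ha.1 g, ?_⟩
    rw [conj_pow, ha.2]; simp
  haveI := hΩn
  obtain ⟨k, hk⟩ := IsPGroup.iff_card.1 (hG.to_subgroup Ω)
  by_cases hk2 : 2 ≤ k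
  · obtain ⟨E, hEn, hEΩ, hEc⟩ := Cfsg.Agent.Lib.Transfer.exists_normal_le_of_card hG k Ω hk 2 hk2
    refine ⟨E, hEn, ?_, ?_, hEc⟩
    · intro a ha b hb
      exact hcomm a (hEΩ ha).1 b (hEΩ hb).1
    · intro e he
      exact (hEΩ he).2
  · exfalso
    apply hAnc
    apply Cfsg.Agent.Lib.OddLocal.isCyclic_of_comm_uniqueP (p := p) (hG.to_subgroup A)
    · rintro ⟨a, ha⟩ ⟨b, hb⟩
      exact Subtype.ext (hcomm a ha b hb)
    · intro H K hH hK
      have hmapcard : ∀ L : Subgroup A, Nat.card L = p → L.map A.subtype ≤ Ω ∧ Nat.card (L.map A.subtype) = p := by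
        intro L hL
        constructor
        · rintro _ ⟨x, hx, rfl⟩
          refine ⟨x.2, ?_⟩
          have h1 : (⟨x, hx⟩ : L) ^ p = 1 := by
            rw [← hL]; exact pow_card_eq_one'
          have h2 := congrArg (fun y : L => ((y : A) : G)) h1
          simpa using h2
        · rw [← hL]
          exact Nat.card_congr (Subgroup.equivMapOfInjective L _ A.subtype_injective).toEquiv.symm
      have hΩle : Nat.card Ω ≤ p := by
        rw [hk]
        have : k ≤ 1 := by omega
        calc p ^ k ≤ p ^ 1 := Nat.pow_le_pow_right hpp.pos this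
          _ = p := pow_one p
      have heq : ∀ L : Subgroup A, Nat.card L = p → L.map A.subtype = Ω := by
        intro L hL
        obtain ⟨h1, h2⟩ := hmapcard L hL
        exact Subgroup.eq_of_le_of_card_ge h1 (by rw [h2]; exact hΩle)
      exact Subgroup.map_injective A.subtype_injective ((heq H hH).trans (heq K hK).symm)

/-- If every abelian subgroup of a `p`-group is cyclic, there is a unique subgroup of order `p`. -/
theorem uniqueP_of_forall_abelian {G : Type*} [Group G] [Finite G] {p : ℕ} [Fact p.Prime] (hG : IsPGroup p G)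
    (hz : ∃ z : G, orderOf z = p ∧ ∀ g : G, g * z = z * g)
    (hm : ∀ B : Subgroup G, IsMulCommutative B → IsCyclic B) :
    Cfsg.Agent.Lib.OddLocal.UniqueP p G := by
  classical
  have hpp : p.Prime := Fact.out
  obtain ⟨z, hzo, hzc⟩ := hz
  have key : ∀ H : Subgroup G, Nat.card H = p → H = Subgroup.zpowers z := by
    intro H hH
    haveI : Fact (Nat.card H).Prime := ⟨hH ▸ hpp⟩
    haveI : IsCyclic H := isCyclic_of_prime_card (p := Nat.card H) rfl
    have hHc : ∀ a ∈ H, ∀ b ∈ H, a * b = b * a := by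
      intro a ha b hb
      have := (IsCyclic.commutative (α := H)).is_comm.comm ⟨a, ha⟩ ⟨b, hb⟩
      exact congrArg Subtype.val this
    have hzcent : ∀ c ∈ Subgroup.zpowers z, ∀ g : G, g * c = c * g := by
      intro c hc g
      obtain ⟨i, rfl⟩ := Subgroup.mem_zpowers_iff.1 hc
      exact (Commute.zpow_right (show Commute g z from hzc g) i)
    haveI hZn : (Subgroup.zpowers z).Normal := by
      constructor
      intro c hc g
      rw [hzcent c hc g]
      simpa using hc
    let B := H ⊔ Subgroup.zpowers z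
    have hBc : IsMulCommutative B := by
      refine ⟨⟨?_⟩⟩
      rintro ⟨x, hx⟩ ⟨y, hy⟩
      apply Subtype.ext
      show x * y = y * x
      have hx' : x ∈ ((H ⊔ Subgroup.zpowers z : Subgroup G) : Set G) := hx
      have hy' : y ∈ ((H ⊔ Subgroup.zpowers z : Subgroup G) : Set G) := hy
      rw [Subgroup.mul_normal] at hx' hy'
      obtain ⟨a, ha, c, hc, rfl⟩ := Set.mem_mul.1 hx'
      obtain ⟨b, hb, d, hd, rfl⟩ := Set.mem_mul.1 hy'
      have h1 : Commute a b := hHc a ha b hb
      have h2 : Commute a d := (hzcent d hd a)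
      have h3 : Commute c b := (hzcent c hc b).symm
      have h4 : Commute c d := (hzcent c hc d).symm
      exact (h1.mul_right h2).mul_left (h3.mul_right h4)
    haveI := hm B hBc
    have hcard1 : Nat.card (H.subgroupOf B) = p := by
      rw [← hH]
      exact Nat.card_congr (Subgroup.subgroupOfEquivOfLe le_sup_left).toEquiv
    have hcard2 : Nat.card ((Subgroup.zpowers z).subgroupOf B) = p := by
      rw [← hzo, ← Nat.card_zpowers]
      exact Nat.card_congr (Subgroup.subgroupOfEquivOfLe le_sup_right).toEquiv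
    have he := Cfsg.Agent.Lib.OddLocal.eq_of_card_eq_of_isCyclic (hcard1.trans hcard2.symm)
    rw [Subgroup.subgroupOf_inj] at he
    rwa [inf_eq_left.2 (le_sup_left : H ≤ B), inf_eq_left.2 (le_sup_right : Subgroup.zpowers z ≤ B)] at he
  intro H K hH hK
  rw [key H hH, key K hK]

/-- A non-cyclic `p`-group outside the dihedral, semidihedral and quaternion families has a normal `E(p²)`. -/
theorem exists_normal_sq {G : Type*} [Group G] [Finite G] {p : ℕ} [Fact p.Prime] (hG : IsPGroup p G)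
    (hnc : ¬ IsCyclic G) (hnq : ∀ n : ℕ, ¬ Nonempty (G ≃* QuaternionGroup n))
    (hnd : ∀ n : ℕ, ¬ Nonempty (G ≃* DihedralGroup n)) (hnsd : ¬ Cfsg.IsQuasiDihedral G) :
    ∃ E : Subgroup G, E.Normal ∧ (∀ a ∈ E, ∀ b ∈ E, a * b = b * a) ∧ (∀ e ∈ E, e ^ p = 1) ∧ Nat.card E = p ^ 2 := by
  classical
  have hpp : p.Prime := Fact.out
  by_contra hcon
  have hn : ∀ A : Subgroup G, A.Normal → IsMulCommutative A → IsCyclic A := by
    intro A hA hAc
    by_contra hnc'
    exact hcon (exists_normal_sq_of_abelian hG A hA hAc hnc')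
  by_cases hm : ∃ B : Subgroup G, IsMulCommutative B ∧ ¬ IsCyclic B
  · obtain ⟨_, h⟩ := Cfsg.Agent.S0519.result p hG hn hm
    rcases h with ⟨n, h⟩ | ⟨n, _, h⟩ | h
    · exact hnq n h
    · exact hnd n h
    · exact hnsd h
  · push Not at hm
    haveI : Nontrivial G := by
      by_contra hnt
      rw [not_nontrivial_iff_subsingleton] at hnt
      exact hnc inferInstance
    have hU : Cfsg.Agent.Lib.OddLocal.UniqueP p G := by
      apply uniqueP_of_forall_abelian hG
      · haveI := hG.center_nontrivial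
        have hc := hG.to_subgroup (Subgroup.center G)
        have hd : p ∣ Nat.card (Subgroup.center G) := by
          obtain ⟨k, hk⟩ := IsPGroup.iff_card.1 hc
          have h1 : 1 < Nat.card (Subgroup.center G) := Finite.one_lt_card
          rw [hk] at h1 ⊢
          have : k ≠ 0 := by
            rintro rfl
            simp at h1
          exact dvd_pow_self p this
        obtain ⟨z, hz⟩ := exists_prime_orderOf_dvd_card' p hd
        refine ⟨z, ?_, ?_⟩
        · rw [← hz]
          exact Subgroup.orderOf_coe z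
        · intro g
          exact (Subgroup.mem_center_iff.1 z.2 g)
      · intro B hB
        exact hm B hB
    by_cases hp2 : p = 2
    · subst hp2
      rcases Cfsg.Agent.Lib.OddLocal.cyclic_or_quaternion hG hU with h | ⟨n, h⟩
      · exact hnc h
      · exact hnq _ h
    · exact hnc (Cfsg.Agent.Lib.OddLocal.isCyclic_of_uniqueP_odd hp2 _ G rfl hG hU)

/-- **Core of the imprimitivity theorem**: the decomposition given a normal `E(p²)`. -/
theorem core_of_normal_sq
    (q : ℕ) [Fact q.Prime] {V : Type*} [AddCommGroup V] [Module (ZMod q) V] [Finite V] [Nontrivial V]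
    {G : Type*} [Group G] [Finite G] (p : ℕ) [Fact p.Prime] (hG : IsPGroup p G)
    (ρ : G →* (V ≃ₗ[ZMod q] V)) (hρ : Function.Injective ρ)
    (hirr : ∀ W : Submodule (ZMod q) V, (∀ g : G, ∀ w ∈ W, ρ g w ∈ W) → W = ⊥ ∨ W = ⊤)
    (E : Subgroup G) (hEn : E.Normal) (hEc : ∀ a ∈ E, ∀ b ∈ E, a * b = b * a) (hEe : ∀ e ∈ E, e ^ p = 1)
    (hEcard : Nat.card E = p ^ 2) (hpq : (p : ZMod q) ≠ 0) :
    ∃ (H : Subgroup G) (W : Fin p → Submodule (ZMod q) V), H.index = p ∧
      iSup W = ⊤ ∧ iSupIndep W ∧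
      (∀ h ∈ H, ∀ i, ∀ w ∈ W i, ρ h w ∈ W i) ∧
      (∀ i, ∃ h ∈ H, h ≠ 1 ∧ ∀ w ∈ W i, ρ h w = w) ∧
      ∀ g : G, g ∉ H → ∃ σ : Equiv.Perm (Fin p), orderOf σ = p ∧ ∀ i, (W i).map (ρ g : V →ₗ[ZMod q] V) = W (σ i) := by
  classical
  haveI : Fintype G := Fintype.ofFinite G
  haveI := hEn
  have hpp : p.Prime := Fact.out
  have hp1 : 1 < p := hpp.one_lt
  -- a subgroup fixing everything is trivial
  have htriv : ∀ g : G, (∀ v : V, ρ g v = v) → g = 1 := by
    intro g hg
    apply hρ
    rw [map_one]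
    ext v
    simpa using hg v
  -- `C(E) = 0`
  have hCE : Cfix ρ E = ⊥ := by
    have hinv : ∀ g : G, ∀ w ∈ Cfix ρ E, ρ g w ∈ Cfix ρ E := by
      intro g w hw e he
      have h1 : g⁻¹ * e * g ∈ E := by
        have := hEn.conj_mem e he g⁻¹
        simpa using this
      have h2 := hw _ h1
      have h3 : ρ e (ρ g w) = ρ g (ρ (g⁻¹ * e * g) w) := by
        rw [← LinearEquiv.mul_apply, ← LinearEquiv.mul_apply, ← map_mul, ← map_mul]
        congr 2
        group
      rw [h3, h2]
    rcases hirr _ hinv with h | h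
    · exact h
    · exfalso
      have hE1 : E = ⊥ := by
        rw [eq_bot_iff]
        intro e he
        rw [Subgroup.mem_bot]
        apply htriv
        intro v
        have : v ∈ Cfix ρ E := by rw [h]; trivial
        exact this e he
      rw [hE1] at hEcard
      simp at hEcard
      have : 1 < p ^ 2 := Nat.one_lt_pow (by norm_num) hp1
      omega
  have hSE : ∀ v, sumS ρ E v = 0 := by
    intro v
    have := sumS_mem ρ E v
    rw [hCE] at this
    exact (Submodule.mem_bot _).1 this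
  -- the subgroups of order `p`
  let 𝓜 : Finset (Subgroup G) := (Set.toFinite {M : Subgroup G | M ≤ E ∧ Nat.card M = p}).toFinset
  have h𝓜 : ∀ M, M ∈ 𝓜 ↔ M ≤ E ∧ Nat.card M = p := by
    intro M
    simp [𝓜]
  -- counting
  have hcount : 𝓜.card = p + 1 := by
    have h1 := sum_identity (p := p) E hEe 𝓜 h𝓜 (A := ℕ) (fun _ => 1)
    have hfilter : ∀ M : Subgroup G, (∑ e : G, if e ∈ M then 1 else 0) = Nat.card M := by
      intro M
      rw [Finset.sum_boole, Nat.card_eq_fintype_card, Fintype.card_subtype]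
      simp
    simp only [hfilter] at h1
    have h2 : ∑ M ∈ 𝓜, Nat.card M = 𝓜.card * p := by
      rw [Finset.sum_congr rfl (fun M hM => ((h𝓜 M).1 hM).2), Finset.sum_const, smul_eq_mul]
    rw [h2, hEcard] at h1
    simp only [smul_eq_mul, mul_one] at h1
    have h3 : 𝓜.card * (p - 1) = (p + 1) * (p - 1) := by
      obtain ⟨r, rfl⟩ : ∃ r, p = r + 1 := ⟨p - 1, by omega⟩
      simp only [Nat.add_sub_cancel]
      nlinarith
    exact Nat.eq_of_mul_eq_mul_right (by omega) h3
  have hsum : ∀ v : V, ∑ M ∈ 𝓜, sumS ρ M v = (p : ZMod q) • v := by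
    intro v
    have h1 := sum_identity (p := p) E hEe 𝓜 h𝓜 (A := V) (fun e => ρ e v)
    simp only [← sumS_apply] at h1
    rw [hSE, add_zero, hcount, map_one] at h1
    simp only [LinearEquiv.coe_one, id_eq] at h1
    have h2 : (p + 1) • v = p • v + v := by rw [add_smul, one_smul]
    rw [h2] at h1
    rw [Nat.cast_smul_eq_nsmul]
    exact add_right_cancel h1
  -- orthogonality
  have horth : ∀ M ∈ 𝓜, ∀ M' ∈ 𝓜, M ≠ M' → ∀ v ∈ Cfix ρ M', sumS ρ M v = 0 := by
    intro M hM M' hM' hne v hv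
    have hw1 : M ≤ fixSub ρ (sumS ρ M v) := sumS_mem ρ M v
    obtain ⟨hME, hMc⟩ := (h𝓜 M).1 hM
    obtain ⟨hME', hMc'⟩ := (h𝓜 M').1 hM'
    have hw2 : M' ≤ fixSub ρ (sumS ρ M v) := by
      intro m' hm'
      rw [mem_fixSub, map_sumS_comm ρ (fun m hm => hEc m' (hME' hm') m (hME hm)), hv m' hm']
    have hsup : M ⊔ M' = E := by
      have hle : M ⊔ M' ≤ E := sup_le hME hME'
      have hlt : M < M ⊔ M' := by
        refine lt_of_le_of_ne le_sup_left ?_
        intro h
        have h1 : M' ≤ M := by rw [h]; exact le_sup_right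
        exact hne (Subgroup.eq_of_le_of_card_ge h1 (by rw [hMc, hMc'])).symm
      have hc1 : p < Nat.card (M ⊔ M' : Subgroup G) := by
        rw [← hMc]
        exact Cfsg.Agent.Lib.OddLocal.card_lt_of_lt hlt
      have hd : Nat.card (M ⊔ M' : Subgroup G) ∣ p ^ 2 := by
        rw [← hEcard]
        exact Subgroup.card_dvd_of_le hle
      obtain ⟨j, hj, hj'⟩ := (Nat.dvd_prime_pow hpp).1 hd
      refine Subgroup.eq_of_le_of_card_ge hle ?_
      rw [hEcard, hj']
      have hj2 : 2 ≤ j := by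
        by_contra hlt2
        have : j ≤ 1 := by omega
        have h3 : p ^ j ≤ p ^ 1 := Nat.pow_le_pow_right hpp.pos this
        rw [pow_one, ← hj'] at h3
        omega
      exact Nat.pow_le_pow_right hpp.pos hj2
    have hle : E ≤ fixSub ρ (sumS ρ M v) := hsup ▸ sup_le hw1 hw2
    have hmem : sumS ρ M v ∈ Cfix ρ E := hle
    rw [hCE] at hmem
    exact (Submodule.mem_bot _).1 hmem
  -- a subgroup with nonzero fixed space
  obtain ⟨M₁, hM₁, hB⟩ : ∃ M₁ ∈ 𝓜, Cfix ρ M₁ ≠ ⊥ := by
    by_contra hcon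
    push Not at hcon
    obtain ⟨v, hv⟩ := exists_ne (0 : V)
    have h0 : ∀ M ∈ 𝓜, sumS ρ M v = 0 := by
      intro M hM
      have := sumS_mem ρ M v
      rw [hcon M hM] at this
      exact (Submodule.mem_bot _).1 this
    have h1 := hsum v
    rw [Finset.sum_eq_zero h0] at h1
    exact hv ((smul_eq_zero.1 h1.symm).resolve_left hpq)
  obtain ⟨hM₁E, hM₁c⟩ := (h𝓜 M₁).1 hM₁
  set B : Submodule (ZMod q) V := Cfix ρ M₁ with hBdef
  let H : Subgroup G := Subgroup.normalizer (M₁ : Set G)
  have hmemH : ∀ h, h ∈ H ↔ ∀ m, m ∈ M₁ ↔ h * m * h⁻¹ ∈ M₁ := fun h => Subgroup.mem_normalizer_iff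
  have hEH : E ≤ H := by
    intro e he
    rw [hmemH]
    intro m
    constructor
    · intro hm
      have : e * m * e⁻¹ = m := by
        rw [hEc e he m (hM₁E hm)]; group
      rwa [this]
    · intro hm
      have h1 : m ∈ E := by
        have h2 : e * m * e⁻¹ ∈ E := hM₁E hm
        have h3 : m = e⁻¹ * (e * m * e⁻¹) * e := by group
        rw [h3]
        exact E.mul_mem (E.mul_mem (E.inv_mem he) h2) he
      have h3 : e * m * e⁻¹ = m := by
        rw [hEc e he m h1]; group
      rwa [h3] at hm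
  -- conjugates
  let cj : G → Subgroup G := fun g => M₁.map (MulAut.conj g).toMonoidHom
  have hcjmemiff : ∀ g x, x ∈ cj g ↔ g⁻¹ * x * g ∈ M₁ := by
    intro g x
    constructor
    · rintro ⟨m, hm, rfl⟩
      have : g⁻¹ * ((MulAut.conj g).toMonoidHom m) * g = m := by
        simp [MulAut.conj_apply]; group
      rw [this]; exact hm
    · intro h
      refine ⟨_, h, ?_⟩
      simp [MulAut.conj_apply]; group
  have hcj𝓜 : ∀ g, cj g ∈ 𝓜 := by
    intro g
    rw [h𝓜]
    constructor
    · rintro _ ⟨m, hm, rfl⟩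
      exact hEn.conj_mem m (hM₁E hm) g
    · rw [← hM₁c]
      exact Nat.card_congr ((MulAut.conj g).subgroupMap M₁).toEquiv.symm
  have hcjB : ∀ g, ∀ b ∈ B, ρ g b ∈ Cfix ρ (cj g) := fun g b hb => conj_mem_Cfix ρ hb g
  have hcjinj : ∀ g g', cj g = cj g' → g⁻¹ * g' ∈ H := by
    intro g g' h
    rw [hmemH]
    intro m
    constructor
    · intro hm
      have h1 : g' * m * g'⁻¹ ∈ cj g' := by
        rw [hcjmemiff]
        have : g'⁻¹ * (g' * m * g'⁻¹) * g' = m := by group
        rwa [this]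
      rw [← h, hcjmemiff] at h1
      have : g⁻¹ * (g' * m * g'⁻¹) * g = g⁻¹ * g' * m * (g⁻¹ * g')⁻¹ := by group
      rwa [this] at h1
    · intro hm
      have h1 : g' * m * g'⁻¹ ∈ cj g := by
        rw [hcjmemiff]
        have : g⁻¹ * (g' * m * g'⁻¹) * g = g⁻¹ * g' * m * (g⁻¹ * g')⁻¹ := by group
        rwa [this]
      rw [h, hcjmemiff] at h1
      have : g'⁻¹ * (g' * m * g'⁻¹) * g' = m := by group
      rwa [this] at h1
  have hBinv : ∀ h ∈ H, ∀ b ∈ B, ρ h b ∈ B := by
    intro h hh b hb m hm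
    have h1 : h⁻¹ * m * h ∈ M₁ := by
      refine ((hmemH h).1 hh (h⁻¹ * m * h)).2 ?_
      have : h * (h⁻¹ * m * h) * h⁻¹ = m := by group
      rwa [this]
    have h2 : ρ m (ρ h b) = ρ h (ρ (h⁻¹ * m * h) b) := by
      rw [← LinearEquiv.mul_apply, ← LinearEquiv.mul_apply, ← map_mul, ← map_mul]
      congr 2
      group
    rw [h2, hb _ h1]
  -- the index
  have hindex_le : H.index ≤ p + 1 := by
    haveI : Fintype (G ⧸ H) := Fintype.ofFinite _
    have h1 : (Finset.univ : Finset (G ⧸ H)).card ≤ 𝓜.card :=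
      Finset.card_le_card_of_injOn (fun x => cj x.out) (fun x _ => hcj𝓜 _) (by
        intro x _ y _ hxy
        have h2 := hcjinj _ _ hxy
        have h3 : ((x.out : G) : G ⧸ H) = (y.out : G) := QuotientGroup.eq.2 h2
        rwa [QuotientGroup.out_eq', QuotientGroup.out_eq'] at h3)
    rw [hcount, Finset.card_univ, ← Nat.card_eq_fintype_card] at h1
    exact h1
  have hindex : H.index = p := by
    obtain ⟨k, hk⟩ := hG.index H
    rcases k with _ | _ | k
    · exfalso
      rw [pow_zero, Subgroup.index_eq_one] at hk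
      have hBtop : B = ⊤ := by
        rcases hirr B (fun g w hw => hBinv g (hk ▸ Subgroup.mem_top g) w hw) with h | h
        · exact absurd h hB
        · exact h
      have hM1 : M₁ = ⊥ := by
        rw [eq_bot_iff]
        intro m hm
        rw [Subgroup.mem_bot]
        apply htriv
        intro v
        have : v ∈ B := by rw [hBtop]; trivial
        exact this m hm
      rw [hM1] at hM₁c
      simp at hM₁c
      omega
    · simpa using hk
    · exfalso
      rw [hk] at hindex_le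
      have h1 : p ^ 2 ≤ p ^ (k + 1 + 1) := Nat.pow_le_pow_right hpp.pos (by omega)
      nlinarith
  have hHn : H.Normal := by
    apply Subgroup.normal_of_index_eq_minFac_card
    rw [hindex]
    obtain ⟨n, hn⟩ := IsPGroup.iff_card.1 hG
    rw [hn]
    have hn0 : n ≠ 0 := by
      rintro rfl
      have h1 := Subgroup.card_mul_index H
      rw [hn, hindex] at h1
      simp only [pow_zero] at h1
      have := Nat.eq_one_of_mul_eq_one_left h1
      omega
    rw [Nat.Prime.pow_minFac hpp hn0]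
  haveI := hHn
  let e : Fin p ≃ G ⧸ H := (Finite.equivFinOfCardEq hindex).symm
  let gs : Fin p → G := fun i => (e i).out
  have hgs : ∀ i, ((gs i : G) : G ⧸ H) = e i := fun i => QuotientGroup.out_eq' _
  let W : Fin p → Submodule (ZMod q) V := fun i => B.map ((ρ (gs i) : V ≃ₗ[ZMod q] V) : V →ₗ[ZMod q] V)
  have hWle : ∀ g g' : G, g⁻¹ * g' ∈ H →
      B.map ((ρ g' : V ≃ₗ[ZMod q] V) : V →ₗ[ZMod q] V) ≤ B.map ((ρ g : V ≃ₗ[ZMod q] V) : V →ₗ[ZMod q] V) := by
    rintro g g' h _ ⟨b, hb, rfl⟩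
    refine ⟨ρ (g⁻¹ * g') b, hBinv _ h b hb, ?_⟩
    show ρ g (ρ (g⁻¹ * g') b) = ρ g' b
    rw [← LinearEquiv.mul_apply, ← map_mul]
    congr 2
    group
  have hWeq : ∀ g g' : G, (g : G ⧸ H) = g' →
      B.map ((ρ g : V ≃ₗ[ZMod q] V) : V →ₗ[ZMod q] V) = B.map ((ρ g' : V ≃ₗ[ZMod q] V) : V →ₗ[ZMod q] V) := by
    intro g g' h
    apply le_antisymm
    · apply hWle
      exact QuotientGroup.eq.1 h.symm
    · apply hWle
      exact QuotientGroup.eq.1 h
  have hWmk : ∀ g : G, B.map ((ρ g : V ≃ₗ[ZMod q] V) : V →ₗ[ZMod q] V) = W (e.symm (g : G ⧸ H)) := by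
    intro g
    apply hWeq
    rw [hgs, Equiv.apply_symm_apply]
  have hWmap : ∀ (g : G) (i : Fin p), (W i).map ((ρ g : V ≃ₗ[ZMod q] V) : V →ₗ[ZMod q] V) =
      W (e.symm ((g * gs i : G) : G ⧸ H)) := by
    intro g i
    rw [← hWmk, ← Submodule.map_comp]
    congr 1
    ext v
    simp [map_mul, LinearEquiv.mul_apply]
  have hWC : ∀ i, W i ≤ Cfix ρ (cj (gs i)) := by
    rintro i _ ⟨b, hb, rfl⟩
    exact hcjB _ b hb
  have hWinj : ∀ i j, cj (gs i) = cj (gs j) → i = j := by
    intro i j h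
    have h2 := hcjinj _ _ h
    have h3 : ((gs i : G) : G ⧸ H) = (gs j : G) := QuotientGroup.eq.2 h2
    rw [hgs, hgs] at h3
    exact e.injective h3
  refine ⟨H, W, hindex, ?_, ?_, ?_, ?_, ?_⟩
  · -- spanning
    have hU : ∀ g : G, ∀ w ∈ iSup W, ρ g w ∈ iSup W := by
      intro g w hw
      have hle : iSup W ≤ (iSup W).comap ((ρ g : V ≃ₗ[ZMod q] V) : V →ₗ[ZMod q] V) := by
        apply iSup_le
        intro i x hx
        rw [Submodule.mem_comap]
        have h1 : ((ρ g : V ≃ₗ[ZMod q] V) : V →ₗ[ZMod q] V) x ∈ (W i).map ((ρ g : V ≃ₗ[ZMod q] V) : V →ₗ[ZMod q] V) :=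
          Submodule.mem_map_of_mem hx
        rw [hWmap] at h1
        exact le_iSup W _ h1
      exact hle hw
    rcases hirr _ hU with h | h
    · exfalso
      obtain ⟨b, hb, hb0⟩ := Submodule.exists_mem_ne_zero_of_ne_bot hB
      have h1 : ρ 1 b ∈ iSup W := by
        have h2 : ((ρ 1 : V ≃ₗ[ZMod q] V) : V →ₗ[ZMod q] V) b ∈ B.map ((ρ 1 : V ≃ₗ[ZMod q] V) : V →ₗ[ZMod q] V) :=
          Submodule.mem_map_of_mem hb
        rw [hWmk] at h2
        exact le_iSup W _ h2
      rw [h, map_one] at h1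
      exact hb0 ((Submodule.mem_bot _).1 h1)
    · exact h
  · -- independence
    rw [iSupIndep_def]
    intro i
    rw [Submodule.disjoint_def]
    intro x hx hx'
    have h1 : sumS ρ (cj (gs i)) x = (p : ZMod q) • x := by
      rw [sumS_of_mem ρ (hWC i hx), ((h𝓜 _).1 (hcj𝓜 _)).2]
    have h2 : (⨆ j, ⨆ (_ : j ≠ i), W j) ≤ LinearMap.ker (sumS ρ (cj (gs i))) := by
      refine iSup₂_le fun j hj y hy => ?_
      rw [LinearMap.mem_ker]
      exact horth _ (hcj𝓜 _) _ (hcj𝓜 _) (fun h => hj (hWinj _ _ h).symm) y (hWC j hy)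
    have h3 := h2 hx'
    rw [LinearMap.mem_ker, h1] at h3
    exact (smul_eq_zero.1 h3).resolve_left hpq
  · -- invariance
    rintro h hh i _ ⟨b, hb, rfl⟩
    have h1 : (gs i)⁻¹ * h * gs i ∈ H := by
      have := hHn.conj_mem h hh (gs i)⁻¹
      simpa using this
    refine ⟨ρ ((gs i)⁻¹ * h * gs i) b, hBinv _ h1 b hb, ?_⟩
    show ρ (gs i) (ρ ((gs i)⁻¹ * h * gs i) b) = ρ h (ρ (gs i) b)
    rw [← LinearEquiv.mul_apply, ← LinearEquiv.mul_apply, ← map_mul, ← map_mul]
    congr 2
    group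
  · -- a nontrivial element fixing each summand
    intro i
    obtain ⟨m, hm, hm1⟩ : ∃ m ∈ M₁, m ≠ 1 := by
      by_contra hcon
      push Not at hcon
      have hM1 : M₁ = ⊥ := by
        rw [eq_bot_iff]
        intro m hm
        rw [Subgroup.mem_bot]
        exact hcon m hm
      rw [hM1] at hM₁c
      simp at hM₁c
      omega
    refine ⟨gs i * m * (gs i)⁻¹, hEH (hEn.conj_mem m (hM₁E hm) _), ?_, ?_⟩
    · intro h
      apply hm1
      have : m = (gs i)⁻¹ * (gs i * m * (gs i)⁻¹) * gs i := by group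
      rw [this, h]
      group
    · rintro _ ⟨b, hb, rfl⟩
      show ρ (gs i * m * (gs i)⁻¹) (ρ (gs i) b) = ρ (gs i) b
      rw [← LinearEquiv.mul_apply, ← map_mul]
      have : gs i * m * (gs i)⁻¹ * gs i = gs i * m := by group
      rw [this, map_mul, LinearEquiv.mul_apply, hb m hm]
  · -- permutation
    intro g hg
    let gb : G ⧸ H := (g : G ⧸ H)
    have hgb : gb ≠ 1 := fun h => hg ((QuotientGroup.eq_one_iff g).1 h)
    have hcardQ : Nat.card (G ⧸ H) = p := hindex
    have hgbp : gb ^ p = 1 := by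
      rw [← hcardQ]
      exact pow_card_eq_one'
    let τ : Equiv.Perm (G ⧸ H) := MulAction.toPerm gb
    have hτ : orderOf τ = p := by
      apply orderOf_eq_prime
      · have : τ ^ p = MulAction.toPermHom (G ⧸ H) (G ⧸ H) (gb ^ p) := by
          rw [map_pow]
          rfl
        rw [this, hgbp, map_one]
      · intro h
        have h1 : τ 1 = 1 := by rw [h]; rfl
        have h2 : τ 1 = gb := by
          show gb • (1 : G ⧸ H) = gb
          rw [smul_eq_mul, mul_one]
        exact hgb (h2.symm.trans h1)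
    let σ : Equiv.Perm (Fin p) := e.symm.permCongr τ
    have hσ : orderOf σ = p := by
      have := (Equiv.permCongrHom e.symm).orderOf_eq τ
      exact this.trans hτ
    refine ⟨σ, hσ, fun i => ?_⟩
    rw [hWmap]
    congr 1
    show e.symm _ = e.symm (gb • (e.symm.symm i))
    congr 1
    have : ((g * gs i : G) : G ⧸ H) = gb * (gs i : G) := rfl
    rw [this, hgs]
    rfl

/-- In characteristic `p`, a `p`-group has a nonzero fixed vector. -/
theorem exists_fixed_vector (q : ℕ) [Fact q.Prime] {V : Type*} [AddCommGroup V] [Module (ZMod q) V] [Finite V]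
    [Nontrivial V] {G : Type*} [Group G] [Finite G] (p : ℕ) [Fact p.Prime] (hG : IsPGroup p G)
    (ρ : G →* (V ≃ₗ[ZMod q] V)) (hpq : (p : ZMod q) = 0) : ∃ v : V, v ≠ 0 ∧ ∀ g : G, ρ g v = v := by
  classical
  have hqq : q.Prime := Fact.out
  have hpp : p.Prime := Fact.out
  have hqp : q = p := by
    have h1 : q ∣ p := (ZMod.natCast_eq_zero_iff p q).1 hpq
    exact (Nat.prime_dvd_prime_iff_eq hqq hpp).1 h1
  letI : MulAction G V :=
    { smul := fun g v => ρ g v
      one_smul := fun v => by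
        show ρ 1 v = v
        simp
      mul_smul := fun a b v => by
        show ρ (a * b) v = ρ a (ρ b v)
        rw [map_mul, LinearEquiv.mul_apply] }
  have h0 : (0 : V) ∈ MulAction.fixedPoints G V := by
    intro g
    show ρ g 0 = 0
    exact map_zero _
  haveI : Module.Finite (ZMod q) V := Module.Finite.of_finite
  have hcard : Nat.card V = q ^ Module.finrank (ZMod q) V := by
    rw [Module.natCard_eq_pow_finrank (K := ZMod q) (V := V), Nat.card_zmod]
  have hpV : p ∣ Nat.card V := by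
    rw [hcard, ← hqp]
    exact dvd_pow_self q (Module.finrank_pos).ne'
  obtain ⟨b, hb, hne⟩ := hG.exists_fixed_point_of_prime_dvd_card_of_fixed_point V hpV h0
  exact ⟨b, hne.symm, fun g => hb g⟩



/-- Let a finite p-group G act faithfully and irreducibly on a non-trivial finite vector space V over the field with q elements (q prime), and suppose G is not cyclic, generalized quaternion, dihedral or semidihedral. Then G has a subgroup H of index p and V is the direct sum of p subspaces, each invariant under H, on none of which H acts faithfully, and which every element of G outside H permutes in a single p-cycle. -/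
theorem result
    (q : ℕ) [Fact q.Prime] {V : Type*} [AddCommGroup V] [Module (ZMod q) V] [Finite V] [Nontrivial V]
    {G : Type*} [Group G] [Finite G] (p : ℕ) [Fact p.Prime] (hG : IsPGroup p G)
    (ρ : G →* (V ≃ₗ[ZMod q] V)) (hρ : Function.Injective ρ)
    (hirr : ∀ W : Submodule (ZMod q) V, (∀ g : G, ∀ w ∈ W, ρ g w ∈ W) → W = ⊥ ∨ W = ⊤)
    (hnc : ¬ IsCyclic G) (hnq : ∀ n : ℕ, ¬ Nonempty (G ≃* QuaternionGroup n))
    (hnd : ∀ n : ℕ, ¬ Nonempty (G ≃* DihedralGroup n)) (hnsd : ¬ Cfsg.IsQuasiDihedral G) :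
    ∃ (H : Subgroup G) (W : Fin p → Submodule (ZMod q) V), H.index = p ∧
      iSup W = ⊤ ∧ iSupIndep W ∧
      (∀ h ∈ H, ∀ i, ∀ w ∈ W i, ρ h w ∈ W i) ∧
      (∀ i, ∃ h ∈ H, h ≠ 1 ∧ ∀ w ∈ W i, ρ h w = w) ∧
      ∀ g : G, g ∉ H → ∃ σ : Equiv.Perm (Fin p), orderOf σ = p ∧ ∀ i, (W i).map (ρ g : V →ₗ[ZMod q] V) = W (σ i) := by
  classical
  obtain ⟨E, hEn, hEc, hEe, hEcard⟩ := exists_normal_sq hG hnc hnq hnd hnsd
  have hpq : (p : ZMod q) ≠ 0 := by
    intro h
    obtain ⟨v, hv, hfix⟩ := exists_fixed_vector q p hG ρ h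
    apply hnc
    have hC : Cfix ρ (⊤ : Subgroup G) = ⊤ := by
      have hinv : ∀ g : G, ∀ w ∈ Cfix ρ (⊤ : Subgroup G), ρ g w ∈ Cfix ρ (⊤ : Subgroup G) := by
        intro g w hw m _
        rw [hw g (Subgroup.mem_top g)]
        exact hw m (Subgroup.mem_top m)
      rcases hirr _ hinv with h1 | h1
      · exfalso
        have : v ∈ Cfix ρ (⊤ : Subgroup G) := fun m _ => hfix m
        rw [h1] at this
        exact hv ((Submodule.mem_bot _).1 this)
      · exact h1
    haveI : Subsingleton G := by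
      constructor
      intro a b
      apply hρ
      ext x
      have hx : x ∈ Cfix ρ (⊤ : Subgroup G) := by rw [hC]; trivial
      rw [hx a (Subgroup.mem_top a), hx b (Subgroup.mem_top b)]
    infer_instance
  exact core_of_normal_sq q p hG ρ hρ hirr E hEn hEc hEe hEcard hpq

end Cfsg.Agent.S3380
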