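import Cfsg.Statements.S3381
import Mathlib

set_option autoImplicit false
open Cfsg

namespace Cfsg.Agent.S3381

lemma card_ne_sub {α : Type*} [Finite α] (a : α) : Nat.card {x : α // x ≠ a} = Nat.card α - 1 := by
  classical
  letI := Fintype.ofFinite α
  rw [Nat.card_eq_fintype_card, Nat.card_eq_fintype_card, Fintype.card_subtype_compl,
    Fintype.card_subtype_eq]



/-- Let G be a finite group acting faithfully and linearly on a non-trivial finite vector space V over the field with q elements (q prime) so that every non-zero vector has a stabilizer of order 2, and suppose G has a central involution. Then V has q^(2r) elements for some r and G contains exactly q^r + 1 non-central involutions. -/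
theorem result
    (q : ℕ) [Fact q.Prime] {V : Type*} [AddCommGroup V] [Module (ZMod q) V] [Finite V] [Nontrivial V]
    {G : Type*} [Group G] [Finite G] (ρ : G →* (V ≃ₗ[ZMod q] V)) (hρ : Function.Injective ρ)
    (hstab : ∀ v : V, v ≠ 0 → Nat.card {g : G // ρ g v = v} = 2)
    (z : G) (hz : orderOf z = 2) (hzc : z ∈ Subgroup.center G) :
    ∃ r : ℕ, Nat.card V = q ^ (2 * r) ∧
      Nat.card {g : G // orderOf g = 2 ∧ g ∉ Subgroup.center G} = q ^ r + 1 := by
  classical
  have hq : q.Prime := Fact.out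
  have hact : ∀ (g h : G) (v : V), ρ (g * h) v = ρ g (ρ h v) := by
    intro g h v
    rw [map_mul]
    rfl
  have hone : ∀ v : V, ρ 1 v = v := by
    intro v
    rw [map_one]
    rfl
  have hfaith : ∀ g : G, (∀ v : V, ρ g v = v) → g = 1 := by
    intro g hg
    apply hρ
    rw [map_one]
    ext v
    exact hg v
  -- stabilizers
  have hex : ∀ v : V, v ≠ 0 → ∃ t : G, t ≠ 1 ∧ ρ t v = v ∧ t * t = 1 ∧
      ∀ g : G, ρ g v = v → g = 1 ∨ g = t := by
    intro v hv
    let S : Subgroup G :=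
      { carrier := {g | ρ g v = v}
        mul_mem' := fun {a b} ha hb => by
          show ρ (a * b) v = v
          rw [hact, hb, ha]
        one_mem' := hone v
        inv_mem' := fun {a} ha => by
          show ρ a⁻¹ v = v
          have h1 : ρ a⁻¹ (ρ a v) = v := by rw [← hact, inv_mul_cancel, hone]
          rwa [ha] at h1 }
    have hS : Nat.card S = 2 := hstab v hv
    obtain ⟨t, ht1, huniq⟩ := (Nat.card_eq_two_iff' (1 : S)).mp hS
    have ht1' : (t : G) ≠ 1 := fun h => ht1 (Subtype.ext h)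
    refine ⟨t, ht1', t.2, ?_, ?_⟩
    · by_contra hne
      have h1 : t * t ≠ 1 := fun h => hne (congrArg Subtype.val h)
      have h2 := huniq _ h1
      have h3 : t = 1 := by simpa using h2
      exact ht1 h3
    · intro g hg
      by_cases hg1 : g = 1
      · exact Or.inl hg1
      · right
        have h1 : (⟨g, hg⟩ : S) ≠ 1 := fun h => hg1 (congrArg Subtype.val h)
        exact congrArg Subtype.val (huniq _ h1)
  have hz1 : z ≠ 1 := by
    rintro rfl
    rw [orderOf_one] at hz
    omega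
  have hzz : z * z = 1 := by
    have := pow_orderOf_eq_one z
    rwa [hz, pow_two] at this
  have hzc' : ∀ g : G, g * z = z * g := fun g => (Subgroup.mem_center_iff.mp hzc g)
  -- the central involution acts as `-1`
  have hstar : ∀ v : V, ρ z v ≠ v → ρ z v = -v := by
    intro v hv
    have hv0 : v ≠ 0 := by
      rintro rfl
      exact hv (map_zero _)
    obtain ⟨t, ht1, htv, -, -⟩ := hex v hv0
    by_contra hne
    set u := v + ρ z v with hu
    have hu0 : u ≠ 0 := by
      intro h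
      apply hne
      rw [hu] at h
      exact (neg_eq_of_add_eq_zero_right h).symm
    obtain ⟨t', -, -, -, ht'⟩ := hex u hu0
    have h1 : ρ t u = u := by
      rw [hu, map_add, htv, ← hact, hzc', hact, htv]
    have h2 : ρ z u = u := by
      rw [hu, map_add, ← hact, hzz, hone, add_comm]
    have h3 := (ht' t h1).resolve_left ht1
    have h4 := (ht' z h2).resolve_left hz1
    apply hv
    have h5 : z = t := h4.trans h3.symm
    rw [h5]
    exact htv
  have hneg : ∀ v : V, ρ z v = -v := by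
    obtain ⟨v₀, hv₀⟩ : ∃ v₀ : V, ρ z v₀ ≠ v₀ := by
      by_contra hc
      push Not at hc
      exact hz1 (hfaith z hc)
    have hv₀' := hstar v₀ hv₀
    intro y
    by_contra hy
    have hy1 : ρ z y = y := by
      by_contra h
      exact hy (hstar y h)
    have h1 : ρ z (v₀ + y) = -v₀ + y := by rw [map_add, hv₀', hy1]
    have h2 : ρ z (v₀ + y) ≠ v₀ + y := by
      rw [h1]
      intro h
      apply hv₀
      rw [hv₀']
      exact add_right_cancel h
    have h3 := hstar _ h2
    rw [h1, neg_add] at h3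
    have h4 : y = -y := add_left_cancel h3
    apply hy
    rw [hy1]
    exact h4
  -- the characteristic is odd
  have hq2 : q ≠ 2 := by
    rintro rfl
    obtain ⟨v₀, hv₀⟩ : ∃ v₀ : V, ρ z v₀ ≠ v₀ := by
      by_contra hc
      push Not at hc
      exact hz1 (hfaith z hc)
    apply hv₀
    rw [hneg]
    have h2 : (2 : ZMod 2) • v₀ = 0 := by
      have : (2 : ZMod 2) = 0 := by exact_mod_cast ZMod.natCast_self 2
      rw [this, zero_smul]
    rw [two_smul] at h2
    exact neg_eq_of_add_eq_zero_right h2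
  have h2ne : (2 : ZMod q) ≠ 0 := by
    intro h
    have h1 : ((2 : ℕ) : ZMod q) = 0 := by exact_mod_cast h
    rw [ZMod.natCast_eq_zero_iff] at h1
    exact hq2 ((Nat.prime_dvd_prime_iff_eq hq Nat.prime_two).mp h1)
  have hnegne : ∀ v : V, v = -v → v = 0 := by
    intro v hv
    have h1 : (2 : ZMod q) • v = 0 := by
      rw [two_smul]
      nth_rewrite 1 [hv]
      exact neg_add_cancel v
    exact (smul_eq_zero.mp h1).resolve_left h2ne
  -- fixed spaces
  let C : G → Submodule (ZMod q) V := fun g => LinearMap.eqLocus (ρ g).toLinearMap LinearMap.id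
  have hC : ∀ (g : G) (v : V), v ∈ C g ↔ ρ g v = v := fun g v => Iff.rfl
  let J : G → Prop := fun t => t * t = 1 ∧ t ≠ 1 ∧ t ≠ z
  have hJz : ∀ t, J t → J (t * z) := by
    rintro t ⟨h1, h2, h3⟩
    refine ⟨?_, ?_, ?_⟩
    · calc t * z * (t * z) = t * (z * t) * z := by group
        _ = t * (t * z) * z := by rw [hzc' t]
        _ = (t * t) * (z * z) := by group
        _ = 1 := by rw [h1, hzz, one_mul]
    · intro h
      apply h3
      calc t = t * (z * z) := by rw [hzz, mul_one]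
        _ = (t * z) * z := by group
        _ = z := by rw [h, one_mul]
    · intro h
      exact h2 (mul_eq_right.mp h)
  have hfixz : ∀ (t : G) (v : V), ρ (t * z) v = v ↔ ρ t v = -v := by
    intro t v
    rw [hact, hneg, map_neg, neg_eq_iff_eq_neg]
  -- trivial intersections
  have hdisj : ∀ t₁ t₂ : G, t₁ ≠ 1 → t₂ ≠ 1 → t₁ ≠ t₂ → ∀ x : V, x ∈ C t₁ → x ∈ C t₂ → x = 0 := by
    intro t₁ t₂ h1 h2 h12 x hx1 hx2
    by_contra hx
    obtain ⟨t, -, -, -, ht⟩ := hex x hx
    exact h12 (((ht t₁ hx1).resolve_left h1).trans ((ht t₂ hx2).resolve_left h2).symm)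
  have hle : ∀ t₁ t₂ : G, t₁ ≠ 1 → t₂ ≠ 1 → t₁ ≠ t₂ →
      Nat.card (C t₁) * Nat.card (C t₂) ≤ Nat.card V := by
    intro t₁ t₂ h1 h2 h12
    rw [← Nat.card_prod]
    apply Nat.card_le_card_of_injective (fun p : C t₁ × C t₂ => (p.1 : V) + (p.2 : V))
    rintro ⟨a, b⟩ ⟨c, d⟩ h
    have h3 : (a : V) + b = c + d := h
    have h4 : (a : V) - c = d - b := by
      rw [sub_eq_sub_iff_add_eq_add, h3, add_comm]
    have h5 : (a : V) - c = 0 := hdisj t₁ t₂ h1 h2 h12 _ ((C t₁).sub_mem a.2 c.2)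
      (h4 ▸ (C t₂).sub_mem d.2 b.2)
    have h6 : (a : V) = c := sub_eq_zero.mp h5
    have h7 : (b : V) = d := by
      rw [h6] at h3
      exact add_left_cancel h3
    exact Prod.ext (Subtype.ext h6) (Subtype.ext h7)
  -- direct sum
  have hdisj' : ∀ t : G, ∀ x : V, x ∈ C t → x ∈ C (t * z) → x = 0 := by
    intro t x h1 h2
    have h3 : ρ t x = -x := (hfixz t x).mp h2
    rw [hC] at h1
    rw [h1] at h3
    exact hnegne x h3
  have hsum : ∀ t : G, t * t = 1 → Nat.card (C t) * Nat.card (C (t * z)) = Nat.card V := by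
    intro t ht
    rw [← Nat.card_prod]
    apply Nat.card_congr
    refine Equiv.ofBijective (fun p : C t × C (t * z) => (p.1 : V) + (p.2 : V)) ⟨?_, ?_⟩
    · rintro ⟨a, b⟩ ⟨c, d⟩ h
      have h3 : (a : V) + b = c + d := h
      have h4 : (a : V) - c = d - b := by
        rw [sub_eq_sub_iff_add_eq_add, h3, add_comm]
      have h5 : (a : V) - c = 0 := hdisj' t _ ((C t).sub_mem a.2 c.2)
        (h4 ▸ (C (t * z)).sub_mem d.2 b.2)
      have h6 : (a : V) = c := sub_eq_zero.mp h5
      have h7 : (b : V) = d := by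
        rw [h6] at h3
        exact add_left_cancel h3
      exact Prod.ext (Subtype.ext h6) (Subtype.ext h7)
    · intro v
      have htt : ∀ w : V, ρ t (ρ t w) = w := by
        intro w
        rw [← hact, ht, hone]
      refine ⟨(⟨(2 : ZMod q)⁻¹ • (v + ρ t v), ?_⟩, ⟨(2 : ZMod q)⁻¹ • (v - ρ t v), ?_⟩), ?_⟩
      · show ρ t ((2 : ZMod q)⁻¹ • (v + ρ t v)) = (2 : ZMod q)⁻¹ • (v + ρ t v)
        rw [map_smul, map_add, htt, add_comm]
      · show ρ (t * z) ((2 : ZMod q)⁻¹ • (v - ρ t v)) = (2 : ZMod q)⁻¹ • (v - ρ t v)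
        rw [(hfixz t _), map_smul, map_sub, htt, ← smul_neg, neg_sub]
      · show (2 : ZMod q)⁻¹ • (v + ρ t v) + (2 : ZMod q)⁻¹ • (v - ρ t v) = v
        rw [← smul_add, add_add_sub_cancel, ← two_smul (ZMod q), smul_smul,
          inv_mul_cancel₀ h2ne, one_smul]
  -- nonzero fixed spaces
  have hCne : ∀ t, J t → ∃ v : V, v ≠ 0 ∧ v ∈ C t := by
    rintro t ⟨h1, h2, h3⟩
    by_contra hc
    push Not at hc
    apply h3
    have htt : ∀ w : V, ρ t (ρ t w) = w := by
      intro w
      rw [← hact, h1, hone]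
    have h4 : ∀ w : V, w + ρ t w = 0 := by
      intro w
      by_contra hne
      apply hc _ hne
      show ρ t (w + ρ t w) = w + ρ t w
      rw [map_add, htt, add_comm]
    have h5 : t * z = 1 := by
      apply hfaith
      intro w
      rw [hfixz]
      exact (neg_eq_of_add_eq_zero_right (h4 w)).symm
    calc t = t * (z * z) := by rw [hzz, mul_one]
      _ = (t * z) * z := by group
      _ = z := by rw [h5, one_mul]
  -- a third space
  have hthird : ∀ t, J t → ∃ t', J t' ∧ t' ≠ t ∧ t' ≠ t * z ∧ ∃ v₁ v₂ : V, v₁ ≠ 0 ∧ v₂ ≠ 0 ∧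
      v₁ ∈ C t ∧ v₂ ∈ C (t * z) ∧ v₁ + v₂ ∈ C t' := by
    intro t hJ
    obtain ⟨v₁, hv₁, hv₁C⟩ := hCne t hJ
    obtain ⟨v₂, hv₂, hv₂C⟩ := hCne _ (hJz t hJ)
    have hv : v₁ + v₂ ≠ 0 := by
      intro h
      apply hv₂
      have h1 : v₂ = -v₁ := (neg_eq_of_add_eq_zero_right h).symm
      apply hdisj' t v₂ _ hv₂C
      rw [h1]
      exact (C t).neg_mem hv₁C
    obtain ⟨t', ht'1, ht'v, ht't, -⟩ := hex _ hv
    have hv₂' : ρ t v₂ = -v₂ := (hfixz t v₂).mp hv₂C
    have hv₁' : ρ t v₁ = v₁ := hv₁C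
    refine ⟨t', ⟨ht't, ht'1, ?_⟩, ?_, ?_, v₁, v₂, hv₁, hv₂, hv₁C, hv₂C, ht'v⟩
    · rintro rfl
      rw [hneg] at ht'v
      exact hv (hnegne _ ht'v.symm)
    · rintro rfl
      rw [map_add, hv₁', hv₂'] at ht'v
      have h1 := add_left_cancel ht'v
      exact hv₂ (hnegne _ h1.symm)
    · rintro rfl
      rw [hact, hneg, map_neg, map_add, hv₁', hv₂', neg_add, neg_neg] at ht'v
      have h1 := add_right_cancel ht'v
      exact hv₁ (hnegne _ h1.symm)
  -- equal sizes
  have hAB : ∀ t, J t → Nat.card (C t) * Nat.card (C t) = Nat.card V := by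
    intro t hJ
    obtain ⟨t', hJ', h1, h2, -⟩ := hthird t hJ
    have hJz' := hJz t' hJ'
    have hJzt := hJz t hJ
    have ht1 := hJ.2.1
    have ht2 := hJzt.2.1
    have ht3 := hJ'.2.1
    have ht4 := hJz'.2.1
    have h3 : t' * z ≠ t := by
      intro h
      apply h2
      rw [← h, mul_assoc, hzz, mul_one]
    have h4 : t' * z ≠ t * z := fun h => h1 (mul_right_cancel h)
    have e1 := hsum t hJ.1
    have e2 := hsum t' hJ'.1
    have l1 := hle t' t ht3 ht1 h1
    have l2 := hle t' (t * z) ht3 ht2 h2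
    have l3 := hle (t' * z) t ht4 ht1 h3
    have l4 := hle (t' * z) (t * z) ht4 ht2 h4
    have hA : 0 < Nat.card (C t) := Nat.card_pos
    have hB : 0 < Nat.card (C (t * z)) := Nat.card_pos
    generalize Nat.card (C t) = A at *
    generalize Nat.card (C (t * z)) = B at *
    generalize Nat.card (C t') = A' at *
    generalize Nat.card (C (t' * z)) = B' at *
    generalize Nat.card V = n at *
    subst e1
    have k1 : A' ≤ B := by
      rw [mul_comm A B] at l1
      exact Nat.le_of_mul_le_mul_right l1 hA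
    have k2 : A' ≤ A := Nat.le_of_mul_le_mul_right l2 hB
    have k3 : B' ≤ B := by
      rw [mul_comm A B] at l3
      exact Nat.le_of_mul_le_mul_right l3 hA
    have k4 : B' ≤ A := Nat.le_of_mul_le_mul_right l4 hB
    rcases lt_trichotomy A B with h | h | h
    · exfalso
      have m1 := Nat.mul_le_mul k2 k4
      have m2 := Nat.mul_lt_mul_of_pos_left h hA
      linarith
    · rw [h]
    · exfalso
      have m1 := Nat.mul_le_mul k1 k3
      have m2 := Nat.mul_lt_mul_of_pos_right h hB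
      linarith
  obtain ⟨v₀, hv₀⟩ := exists_ne (0 : V)
  have hJv : ∀ v : V, v ≠ 0 → ∀ t : G, t ≠ 1 → t * t = 1 → ρ t v = v → J t := by
    intro v hv t h1 h2 h3
    refine ⟨h2, h1, ?_⟩
    rintro rfl
    rw [hneg] at h3
    exact hv (hnegne _ h3.symm)
  obtain ⟨t₀, ht₀1, ht₀v, ht₀t, -⟩ := hex v₀ hv₀
  have hJ₀ : J t₀ := hJv v₀ hv₀ t₀ ht₀1 ht₀t ht₀v
  set s := Nat.card (C t₀) with hs
  have hVs : Nat.card V = s * s := (hAB t₀ hJ₀).symm
  have hall : ∀ t, J t → Nat.card (C t) = s := by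
    intro t hJ
    have h1 := hAB t hJ
    rw [hVs] at h1
    exact Nat.mul_self_inj.mp h1
  have hfinr : s = q ^ Module.finrank (ZMod q) (C t₀) := by
    rw [hs, Module.natCard_eq_pow_finrank (K := ZMod q) (V := C t₀), Nat.card_zmod]
  have hs2 : 2 ≤ s := by
    haveI : Nontrivial (C t₀) := ⟨⟨⟨v₀, ht₀v⟩, 0, fun h => hv₀ (congrArg Subtype.val h)⟩⟩
    exact Finite.one_lt_card
  -- involutions are exactly `J`
  have hnc : ∀ t, J t → t ∉ Subgroup.center G := by
    intro t hJ hcen
    obtain ⟨t', hJ', h1, -, v₁, v₂, hv₁, hv₂, hv₁C, hv₂C, hfix⟩ := hthird t hJ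
    have hcomm : ∀ g : G, g * t = t * g := fun g => Subgroup.mem_center_iff.mp hcen g
    have ha : ρ t' v₁ ∈ C t := by
      show ρ t (ρ t' v₁) = ρ t' v₁
      rw [← hact, ← hcomm, hact, show ρ t v₁ = v₁ from hv₁C]
    have hb : ρ t' v₂ ∈ C (t * z) := by
      show ρ (t * z) (ρ t' v₂) = ρ t' v₂
      have h3 : t * z * t' = t' * (t * z) := by
        rw [mul_assoc, ← hzc', ← mul_assoc, ← hcomm, mul_assoc]
      rw [← hact, h3, hact, show ρ (t * z) v₂ = v₂ from hv₂C]
    have hfix' : ρ t' (v₁ + v₂) = v₁ + v₂ := hfix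
    rw [map_add] at hfix'
    have h4 : ρ t' v₁ - v₁ = v₂ - ρ t' v₂ := by
      rw [sub_eq_sub_iff_add_eq_add, hfix', add_comm]
    have h5 : ρ t' v₁ - v₁ = 0 := hdisj' t _ ((C t).sub_mem ha hv₁C)
      (h4 ▸ (C (t * z)).sub_mem hv₂C hb)
    have h6 : ρ t' v₁ = v₁ := sub_eq_zero.mp h5
    obtain ⟨t₁, -, -, -, ht₁⟩ := hex v₁ hv₁
    exact h1 (((ht₁ t' h6).resolve_left hJ'.2.1).trans ((ht₁ t hv₁C).resolve_left hJ.2.1).symm)
  let X := {g : G // orderOf g = 2 ∧ g ∉ Subgroup.center G}
  have hXJ : ∀ t : X, J t.1 := by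
    rintro ⟨t, h1, h2⟩
    refine ⟨?_, ?_, ?_⟩
    · have := pow_orderOf_eq_one t
      rwa [h1, pow_two] at this
    · rintro rfl
      rw [orderOf_one] at h1
      omega
    · rintro rfl
      exact h2 hzc
  have hex' : ∀ v : {v : V // v ≠ 0}, ∃ t : X, ρ t.1 v.1 = v.1 := by
    rintro ⟨v, hv⟩
    obtain ⟨t, ht1, htv, htt, -⟩ := hex v hv
    have hJt := hJv v hv t ht1 htt htv
    refine ⟨⟨t, ?_, hnc t hJt⟩, htv⟩
    apply orderOf_eq_prime
    · rwa [pow_two]
    · exact ht1
  choose f hf using hex'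
  have huniq : ∀ (v : {v : V // v ≠ 0}) (t : X), ρ t.1 v.1 = v.1 → t = f v := by
    intro v t ht
    obtain ⟨t₁, -, -, -, ht₁⟩ := hex v.1 v.2
    apply Subtype.ext
    exact ((ht₁ t.1 ht).resolve_left (hXJ t).2.1).trans
      ((ht₁ (f v).1 (hf v)).resolve_left (hXJ (f v)).2.1).symm
  letI : Fintype X := Fintype.ofFinite X
  have hfib : ∀ t : X, Nat.card {v : {v : V // v ≠ 0} // f v = t} = s - 1 := by
    intro t
    rw [← hall t.1 (hXJ t), ← card_ne_sub (0 : C t.1)]
    apply Nat.card_congr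
    refine ⟨fun v => ⟨⟨v.1.1, ?_⟩, ?_⟩, fun x => ⟨⟨x.1.1, ?_⟩, ?_⟩, ?_, ?_⟩
    · have h := hf v.1
      rw [v.2] at h
      exact h
    · intro h
      exact v.1.2 (congrArg Subtype.val h)
    · intro h
      exact x.2 (Subtype.ext h)
    · exact (huniq ⟨x.1.1, fun h => x.2 (Subtype.ext h)⟩ t x.1.2).symm
    · intro v
      rfl
    · intro x
      rfl
  have hcount : Nat.card V - 1 = Nat.card X * (s - 1) := by
    rw [← card_ne_sub (0 : V), Nat.card_congr (Equiv.sigmaFiberEquiv f).symm, Nat.card_sigma,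
      Finset.sum_congr rfl (fun t _ => hfib t), Finset.sum_const, Finset.card_univ, smul_eq_mul,
      Nat.card_eq_fintype_card]
  refine ⟨Module.finrank (ZMod q) (C t₀), ?_, ?_⟩
  · rw [hVs, two_mul, pow_add, ← hfinr]
  · rw [← hfinr]
    have h1 : (s + 1) * (s - 1) = Nat.card X * (s - 1) := by
      rw [← hcount, hVs]
      have : s * s - 1 = (s + 1) * (s - 1) := by
        obtain ⟨k, hk⟩ : ∃ k, s = k + 1 := ⟨s - 1, by omega⟩
        rw [hk, Nat.add_sub_cancel, show (k + 1) * (k + 1) = (k + 1 + 1) * k + 1 by ring,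
          Nat.add_sub_cancel]
      exact this.symm
    exact (Nat.eq_of_mul_eq_mul_right (by omega) h1).symm

end Cfsg.Agent.S3381
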