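import Cfsg.Statements.S3382
import Cfsg.Agent.Lib.TwoGroups.AutChain

set_option autoImplicit false
open Cfsg

namespace Cfsg.Agent.S3382

open Cfsg.Agent.Lib.TwoGroups

section forms

variable {F : Type*} [Field F]

/-- Diagonal form. -/
def IsD (a s : F) (f : (Fin 2 → F) ≃ₗ[F] (Fin 2 → F)) : Prop := ∀ v, f v = ![a * v 0, s * a⁻¹ * v 1]

/-- Antidiagonal form. -/
def IsW (a s : F) (f : (Fin 2 → F) ≃ₗ[F] (Fin 2 → F)) : Prop := ∀ v, f v = ![s * a⁻¹ * v 1, a * v 0]

variable {a b s r : F} {f h : (Fin 2 → F) ≃ₗ[F] (Fin 2 → F)}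

theorem vec2_congr {α : Type*} {x x' y y' : α} (h1 : x = x') (h2 : y = y') : ![x, y] = ![x', y'] := by
  rw [h1, h2]

theorem IsD.mul_D (hf : IsD a s f) (hh : IsD b r h) : IsD (a * b) (s * r) (f * h) := by
  intro v
  rw [LinearEquiv.mul_apply, hh v, hf]
  simp only [Matrix.cons_val_zero, Matrix.cons_val_one, mul_inv]
  apply vec2_congr <;> ring

theorem IsW.mul_D (hf : IsW a s f) (hh : IsD b r h) : IsW (a * b) (s * r) (f * h) := by
  intro v
  rw [LinearEquiv.mul_apply, hh v, hf]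
  simp only [Matrix.cons_val_zero, Matrix.cons_val_one, mul_inv]
  apply vec2_congr <;> ring

theorem IsD.mul_W (hb : b ≠ 0) (hs : s * s = 1) (ha : a ≠ 0) (hf : IsD a s f) (hh : IsW b r h) :
    IsW (s * a⁻¹ * b) (s * r) (f * h) := by
  have hs0 : s ≠ 0 := by
    rintro rfl
    simp at hs
  intro v
  rw [LinearEquiv.mul_apply, hh v, hf]
  simp only [Matrix.cons_val_zero, Matrix.cons_val_one]
  apply vec2_congr
  · field_simp
  · ring

theorem IsW.mul_W (hb : b ≠ 0) (hs : s * s = 1) (ha : a ≠ 0) (hf : IsW a s f) (hh : IsW b r h) :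
    IsD (s * a⁻¹ * b) (s * r) (f * h) := by
  have hs0 : s ≠ 0 := by
    rintro rfl
    simp at hs
  intro v
  rw [LinearEquiv.mul_apply, hh v, hf]
  simp only [Matrix.cons_val_zero, Matrix.cons_val_one]
  apply vec2_congr
  · ring
  · field_simp

theorem IsD.inv (ha : a ≠ 0) (hs : s * s = 1) (hf : IsD a s f) : IsD a⁻¹ s f⁻¹ := by
  have hs0 : s ≠ 0 := by
    rintro rfl
    simp at hs
  intro v
  show f.symm v = _
  rw [LinearEquiv.symm_apply_eq, hf]
  simp only [Matrix.cons_val_zero, Matrix.cons_val_one, inv_inv]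
  ext i
  fin_cases i
  · simp only [Fin.zero_eta, Matrix.cons_val_zero]
    field_simp
  · simp only [Fin.mk_one, Matrix.cons_val_one, Matrix.cons_val_zero]
    have h1 : s * a⁻¹ * (s * a * v 1) = (s * s) * (a⁻¹ * a) * v 1 := by ring
    rw [h1, hs, inv_mul_cancel₀ ha]
    ring

theorem IsW.inv (ha : a ≠ 0) (hs : s * s = 1) (hf : IsW a s f) : IsW (s * a) s f⁻¹ := by
  have hs0 : s ≠ 0 := by
    rintro rfl
    simp at hs
  intro v
  show f.symm v = _
  rw [LinearEquiv.symm_apply_eq, hf]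
  simp only [Matrix.cons_val_zero, Matrix.cons_val_one]
  ext i
  fin_cases i
  · simp only [Fin.zero_eta, Matrix.cons_val_zero]
    field_simp
    linear_combination (-(v 0)) * hs
  · simp only [Fin.mk_one, Matrix.cons_val_one, Matrix.cons_val_zero]
    field_simp

theorem IsD.inj (hf : IsD a s f) (hh : IsD b r f) (ha : a ≠ 0) : a = b ∧ s = r := by
  have h1 := (hf ![1, 0]).symm.trans (hh ![1, 0])
  have h2 := (hf ![0, 1]).symm.trans (hh ![0, 1])
  have h3 := congrFun h1 0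
  have h4 := congrFun h2 1
  simp at h3 h4
  subst h3
  refine ⟨rfl, ?_⟩
  have h5 : a⁻¹ ≠ 0 := inv_ne_zero ha
  exact mul_right_cancel₀ h5 h4

theorem IsW.inj (hf : IsW a s f) (hh : IsW b r f) (ha : a ≠ 0) : a = b ∧ s = r := by
  have h1 := (hf ![1, 0]).symm.trans (hh ![1, 0])
  have h2 := (hf ![0, 1]).symm.trans (hh ![0, 1])
  have h3 := congrFun h1 1
  have h4 := congrFun h2 0
  simp at h3 h4
  subst h3
  refine ⟨rfl, ?_⟩
  have h5 : a⁻¹ ≠ 0 := inv_ne_zero ha
  exact mul_right_cancel₀ h5 h4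

theorem IsD.not_W (hf : IsD a s f) (hh : IsW b r f) (ha : a ≠ 0) : False := by
  have h1 := (hf ![1, 0]).symm.trans (hh ![1, 0])
  have h3 := congrFun h1 0
  simp at h3
  exact ha h3

theorem IsD.eq_of (hf : IsD a s f) (hh : IsD a s h) : f = h := by
  ext1 v
  rw [hf, hh]

theorem IsW.eq_of (hf : IsW a s f) (hh : IsW a s h) : f = h := by
  ext1 v
  rw [hf, hh]

theorem isD_one : IsD (1 : F) 1 (1 : (Fin 2 → F) ≃ₗ[F] (Fin 2 → F)) := by
  intro v
  ext i
  fin_cases i <;> simp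

/-- Diagonal elements. -/
noncomputable def mkD (a s : F) (ha : a ≠ 0) (hs : s * s = 1) : (Fin 2 → F) ≃ₗ[F] (Fin 2 → F) where
  toFun v := ![a * v 0, s * a⁻¹ * v 1]
  invFun v := ![a⁻¹ * v 0, s * a * v 1]
  map_add' x y := by
    ext i
    fin_cases i <;> simp [mul_add]
  map_smul' c x := by
    ext i
    fin_cases i <;> simp <;> ring
  left_inv v := by
    ext i
    fin_cases i
    · simp [← mul_assoc, inv_mul_cancel₀ ha]
    · simp only [Fin.mk_one, Matrix.cons_val_one, Matrix.cons_val_zero]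
      have h1 : s * a * (s * a⁻¹ * v 1) = (s * s) * (a * a⁻¹) * v 1 := by ring
      rw [h1, hs, mul_inv_cancel₀ ha]
      ring
  right_inv v := by
    ext i
    fin_cases i
    · simp [← mul_assoc, mul_inv_cancel₀ ha]
    · simp only [Fin.mk_one, Matrix.cons_val_one, Matrix.cons_val_zero]
      have h1 : s * a⁻¹ * (s * a * v 1) = (s * s) * (a⁻¹ * a) * v 1 := by ring
      rw [h1, hs, inv_mul_cancel₀ ha]
      ring

theorem isD_mkD (ha : a ≠ 0) (hs : s * s = 1) : IsD a s (mkD a s ha hs) := fun _ => rfl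

/-- Antidiagonal elements. -/
noncomputable def mkW (a s : F) (ha : a ≠ 0) (hs : s * s = 1) : (Fin 2 → F) ≃ₗ[F] (Fin 2 → F) where
  toFun v := ![s * a⁻¹ * v 1, a * v 0]
  invFun v := ![a⁻¹ * v 1, s * a * v 0]
  map_add' x y := by
    ext i
    fin_cases i <;> simp [mul_add]
  map_smul' c x := by
    ext i
    fin_cases i <;> simp <;> ring
  left_inv v := by
    ext i
    fin_cases i
    · simp [← mul_assoc, inv_mul_cancel₀ ha]
    · simp only [Fin.mk_one, Matrix.cons_val_one, Matrix.cons_val_zero]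
      have h1 : s * a * (s * a⁻¹ * v 1) = (s * s) * (a * a⁻¹) * v 1 := by ring
      rw [h1, hs, mul_inv_cancel₀ ha]
      ring
  right_inv v := by
    ext i
    fin_cases i
    · simp only [Fin.zero_eta, Matrix.cons_val_zero, Matrix.cons_val_one]
      have h1 : s * a⁻¹ * (s * a * v 0) = (s * s) * (a⁻¹ * a) * v 0 := by ring
      rw [h1, hs, inv_mul_cancel₀ ha]
      ring
    · simp [← mul_assoc, mul_inv_cancel₀ ha]

theorem isW_mkW (ha : a ≠ 0) (hs : s * s = 1) : IsW a s (mkW a s ha hs) := fun _ => rfl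

end forms

/-- One step of the fixing chain. -/
theorem fix_step {X : Type*} [Group X] (h2 : IsPGroup 2 X) (β : MulAut X) [Finite X] (hodd : Odd (orderOf β))
    (Y Z : Subgroup X) (hYfix : ∀ y ∈ Y, β y = y) (hZst : ∀ γ : MulAut X, ∀ z ∈ Z, γ z ∈ Z)
    (hYst : ∀ γ : MulAut X, ∀ y ∈ Y, γ y ∈ Y)
    (hstep : ∀ a ∈ Z, ∀ b ∈ Z, a ∉ Y → b ∉ Y → a⁻¹ * b ∈ Y) : ∀ z ∈ Z, β z = z := by
  haveI : Fact (Nat.Prime 2) := ⟨Nat.prime_two⟩
  intro z hz
  by_cases hzY : z ∈ Y
  · exact hYfix z hzY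
  · have h1 : β z ∉ Y := by
      intro h
      apply hzY
      have := hYst β⁻¹ _ h
      have e : β⁻¹ (β z) = z := by
        show (β⁻¹ * β) z = z
        rw [inv_mul_cancel]
        rfl
      rwa [e] at this
    have h3 := hstep z hz (β z) (hZst β z hz) hzY h1
    exact Cfsg.Agent.Lib.Fusion2.fixed_of_coprime h2 β (pow_orderOf_eq_one β)
      (Nat.coprime_two_right.2 hodd) z (hYfix _ h3)

section cases

variable {q : ℕ} [Fact q.Prime]

local notation "GLq" => ((Fin 2 → ZMod q) ≃ₗ[ZMod q] (Fin 2 → ZMod q))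

theorem finite_GLq : Finite GLq :=
  Finite.of_injective (fun f : GLq => (f : (Fin 2 → ZMod q) → (Fin 2 → ZMod q))) DFunLike.coe_injective

theorem sign_sq {F : Type*} [Field F] {s : F} (hs : s = 1 ∨ s = -1) : s * s = 1 := by
  rcases hs with rfl | rfl <;> simp

theorem sign_mul {F : Type*} [Field F] {s r : F} (hs : s = 1 ∨ s = -1) (hr : r = 1 ∨ r = -1) :
    s * r = 1 ∨ s * r = -1 := by
  rcases hs with rfl | rfl <;> rcases hr with rfl | rfl <;> simp

theorem isD_val {F : Type*} [Field F] {c s : F} {f : (Fin 2 → F) ≃ₗ[F] (Fin 2 → F)} (h : IsD c s f) :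
    f ![1, 0] 0 = c := by
  rw [h]
  simp

/-- The general case: `-1` is a square and there is an element whose fourth power is not one. -/
theorem case_general (g : ZMod q) (hg : g ≠ 0) (hg4 : (g * g) * (g * g) ≠ 1) (i : ZMod q) (hi : i * i = -1)
    (hq2 : ringChar (ZMod q) ≠ 2) (T : Subgroup GLq)
    (hT : ∀ f, f ∈ T ↔ ∃ a s : ZMod q, a ≠ 0 ∧ (s = 1 ∨ s = -1) ∧
      ((∀ v, f v = ![a * v 0, s * a⁻¹ * v 1]) ∨ (∀ v, f v = ![s * a⁻¹ * v 1, a * v 0])))
    (h2 : IsPGroup 2 T) : IsPGroup 2 (MulAut T) := by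
  classical
  haveI : Finite GLq := finite_GLq
  haveI : Fact (Nat.Prime 2) := ⟨Nat.prime_two⟩
  have hi0 : i ≠ 0 := by
    rintro rfl
    have h1 : (0 : ZMod q) = -1 := by simpa using hi
    have h2 : (1 : ZMod q) = 0 := by
      have := congrArg Neg.neg h1
      simpa using this.symm
    exact one_ne_zero h2
  have hform : ∀ u : T, (∃ a s, a ≠ 0 ∧ (s = 1 ∨ s = -1) ∧ IsD a s (u : GLq)) ∨
      (∃ a s, a ≠ 0 ∧ (s = 1 ∨ s = -1) ∧ IsW a s (u : GLq)) := by
    intro u
    obtain ⟨a, s, ha, hs, h⟩ := (hT u).1 u.2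
    rcases h with h | h
    · exact Or.inl ⟨a, s, ha, hs, h⟩
    · exact Or.inr ⟨a, s, ha, hs, h⟩
  have hmkD : ∀ a s : ZMod q, a ≠ 0 → (s = 1 ∨ s = -1) → ∃ u : T, IsD a s (u : GLq) := by
    intro a s ha hs
    exact ⟨⟨mkD a s ha (sign_sq hs), (hT _).2 ⟨a, s, ha, hs, Or.inl (isD_mkD ha (sign_sq hs))⟩⟩,
      isD_mkD ha (sign_sq hs)⟩
  -- the subgroup of squares
  let Φ : Subgroup T :=
    { carrier := {u | ∃ a, a ≠ 0 ∧ IsD (a * a) 1 (u : GLq)}
      one_mem' := ⟨1, one_ne_zero, by simpa using isD_one⟩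
      mul_mem' := by
        rintro u v ⟨a, ha, hu⟩ ⟨b, hb, hv⟩
        refine ⟨a * b, mul_ne_zero ha hb, ?_⟩
        have h1 := hu.mul_D hv
        have e : (a * a) * (b * b) = (a * b) * (a * b) := by ring
        rw [e, one_mul] at h1
        exact h1
      inv_mem' := by
        rintro u ⟨a, ha, hu⟩
        refine ⟨a⁻¹, inv_ne_zero ha, ?_⟩
        have h1 := hu.inv (mul_ne_zero ha ha) (by simp)
        have e : (a * a)⁻¹ = a⁻¹ * a⁻¹ := by rw [mul_inv]
        rw [e] at h1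
        exact h1 }
  have hmemΦ : ∀ u : T, u ∈ Φ ↔ ∃ a, a ≠ 0 ∧ IsD (a * a) 1 (u : GLq) := fun u => Iff.rfl
  have hsq : ∀ u : T, u * u ∈ Φ := by
    intro u
    rw [hmemΦ]
    rcases hform u with ⟨a, s, ha, hs, hu⟩ | ⟨a, s, ha, hs, hu⟩
    · refine ⟨a, ha, ?_⟩
      have h1 := hu.mul_D hu
      rw [sign_sq hs] at h1
      exact h1
    · have h1 := hu.mul_W ha (sign_sq hs) ha hu
      rw [sign_sq hs, mul_assoc, inv_mul_cancel₀ ha, mul_one] at h1
      rcases hs with rfl | rfl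
      · exact ⟨1, one_ne_zero, by simpa using h1⟩
      · refine ⟨i, hi0, ?_⟩
        rw [hi]
        exact h1
  have hsq' : ∀ φ ∈ Φ, ∃ u : T, φ = u * u := by
    rintro φ ⟨a, ha, hφ⟩
    obtain ⟨u, hu⟩ := hmkD a 1 ha (Or.inl rfl)
    refine ⟨u, Subtype.ext ?_⟩
    have h1 := hu.mul_D hu
    rw [one_mul] at h1
    exact hφ.eq_of h1
  have hΦst : ∀ γ : MulAut T, ∀ φ ∈ Φ, γ φ ∈ Φ := by
    intro γ φ hφ
    obtain ⟨u, rfl⟩ := hsq' φ hφ
    rw [map_mul]
    exact hsq _
  have hΦcyc : IsCyclic Φ := by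
    let ψ : Φ →* ZMod q :=
      { toFun := fun x => ((x : T) : GLq) ![1, 0] 0
        map_one' := by
          show ((1 : GLq)) ![1, 0] 0 = 1
          simp
        map_mul' := by
          rintro ⟨x, a, ha, hx⟩ ⟨y, b, hb, hy⟩
          have h1 := isD_val (hx.mul_D hy)
          rw [isD_val hx, isD_val hy]
          exact h1 }
    have hψ : Function.Injective ψ := by
      rintro ⟨x, a, ha, hx⟩ ⟨y, b, hb, hy⟩ h
      have h1 : a * a = b * b := by
        have h3 : ((x : T) : GLq) ![1, 0] 0 = ((y : T) : GLq) ![1, 0] 0 := h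
        rwa [isD_val hx, isD_val hy] at h3
      rw [h1] at hx
      exact Subtype.ext (Subtype.ext (hx.eq_of hy))
    exact isCyclic_of_subgroup_isDomain ψ hψ
  -- the diagonal subgroup
  let H : Subgroup T :=
    { carrier := {u | ∃ a s, a ≠ 0 ∧ (s = 1 ∨ s = -1) ∧ IsD a s (u : GLq)}
      one_mem' := ⟨1, 1, one_ne_zero, Or.inl rfl, isD_one⟩
      mul_mem' := by
        rintro u v ⟨a, s, ha, hs, hu⟩ ⟨b, r, hb, hr, hv⟩
        exact ⟨a * b, s * r, mul_ne_zero ha hb, sign_mul hs hr, hu.mul_D hv⟩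
      inv_mem' := by
        rintro u ⟨a, s, ha, hs, hu⟩
        exact ⟨a⁻¹, s, inv_ne_zero ha, hs, hu.inv ha (sign_sq hs)⟩ }
  have hmemH : ∀ u : T, u ∈ H ↔ ∃ a s, a ≠ 0 ∧ (s = 1 ∨ s = -1) ∧ IsD a s (u : GLq) := fun u => Iff.rfl
  have hnotH : ∀ u : T, u ∉ H → ∃ a s, a ≠ 0 ∧ (s = 1 ∨ s = -1) ∧ IsW a s (u : GLq) := by
    intro u hu
    rcases hform u with h | h
    · exact absurd h hu
    · exact h
  have hHcent : ∀ u : T, u ∈ H ↔ ∀ φ ∈ Φ, φ * u = u * φ := by
    intro u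
    constructor
    · rintro ⟨a, s, ha, hs, hu⟩ φ ⟨c, hc, hφ⟩
      apply Subtype.ext
      have h1 := hφ.mul_D hu
      have h3 := hu.mul_D hφ
      rw [one_mul] at h1
      rw [mul_one, mul_comm a] at h3
      exact h1.eq_of h3
    · intro h
      by_contra hu
      obtain ⟨a, s, ha, hs, hu'⟩ := hnotH u hu
      obtain ⟨φ, hφ⟩ := hmkD (g * g) 1 (mul_ne_zero hg hg) (Or.inl rfl)
      have h1 := h φ ⟨g, hg, hφ⟩
      have h3 : ((φ * u : T) : GLq) = ((u * φ : T) : GLq) := congrArg Subtype.val h1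
      have h4 := hφ.mul_W ha (by simp) (mul_ne_zero hg hg) hu'
      have h5 := hu'.mul_D hφ
      rw [mul_one] at h5
      rw [one_mul, one_mul] at h4
      have h6 : IsW ((g * g)⁻¹ * a) s ((u * φ : T) : GLq) := by
        rw [← h3]
        exact h4
      have h7 := (h6.inj h5 (mul_ne_zero (inv_ne_zero (mul_ne_zero hg hg)) ha)).1
      apply hg4
      have h8 : (g * g)⁻¹ * a * a⁻¹ * (g * g) = a * (g * g) * a⁻¹ * (g * g) := by rw [h7]
      have h9 : (g * g)⁻¹ * a * a⁻¹ * (g * g) = 1 := by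
        field_simp
      have h10 : a * (g * g) * a⁻¹ * (g * g) = (g * g) * (g * g) := by
        field_simp
      rw [← h10, ← h8, h9]
  have hinvapp : ∀ (γ : MulAut T) (x : T), γ (γ⁻¹ x) = x := by
    intro γ x
    show (γ * γ⁻¹) x = x
    rw [mul_inv_cancel]
    rfl
  have hHst : ∀ γ : MulAut T, ∀ u ∈ H, γ u ∈ H := by
    intro γ u hu
    rw [hHcent] at hu ⊢
    intro φ hφ
    have h1 := hu (γ⁻¹ φ) (hΦst γ⁻¹ φ hφ)
    have h3 := congrArg γ h1
    rwa [map_mul, map_mul, hinvapp] at h3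
  -- the subgroup of square diagonal entries
  let N : Subgroup T :=
    { carrier := {u | ∃ a s, a ≠ 0 ∧ (s = 1 ∨ s = -1) ∧ IsD (a * a) s (u : GLq)}
      one_mem' := ⟨1, 1, one_ne_zero, Or.inl rfl, by simpa using isD_one⟩
      mul_mem' := by
        rintro u v ⟨a, s, ha, hs, hu⟩ ⟨b, r, hb, hr, hv⟩
        refine ⟨a * b, s * r, mul_ne_zero ha hb, sign_mul hs hr, ?_⟩
        have h1 := hu.mul_D hv
        have e : (a * a) * (b * b) = (a * b) * (a * b) := by ring
        rw [e] at h1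
        exact h1
      inv_mem' := by
        rintro u ⟨a, s, ha, hs, hu⟩
        refine ⟨a⁻¹, s, inv_ne_zero ha, hs, ?_⟩
        have h1 := hu.inv (mul_ne_zero ha ha) (sign_sq hs)
        have e : (a * a)⁻¹ = a⁻¹ * a⁻¹ := by rw [mul_inv]
        rw [e] at h1
        exact h1 }
  have hmemN : ∀ u : T, u ∈ N ↔ ∃ a s, a ≠ 0 ∧ (s = 1 ∨ s = -1) ∧ IsD (a * a) s (u : GLq) := fun u => Iff.rfl
  have hNchar : ∀ u : T, u ∈ N ↔ u ∈ H ∧ ∃ φ ∈ Φ, u * u = φ * φ := by
    intro u
    constructor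
    · rintro ⟨a, s, ha, hs, hu⟩
      refine ⟨⟨a * a, s, mul_ne_zero ha ha, hs, hu⟩, ?_⟩
      obtain ⟨φ, hφ⟩ := hmkD (a * a) 1 (mul_ne_zero ha ha) (Or.inl rfl)
      refine ⟨φ, ⟨a, ha, hφ⟩, Subtype.ext ?_⟩
      have h1 := hu.mul_D hu
      have h3 := hφ.mul_D hφ
      rw [sign_sq hs] at h1
      rw [one_mul] at h3
      exact h1.eq_of h3
    · rintro ⟨⟨x, s, hx, hs, hu⟩, φ, ⟨b, hb, hφ⟩, he⟩
      have h1 := hu.mul_D hu
      have h3 := hφ.mul_D hφ
      have h4 : ((u * u : T) : GLq) = ((φ * φ : T) : GLq) := congrArg Subtype.val he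
      have h5 : IsD (x * x) (s * s) ((φ * φ : T) : GLq) := by
        rw [← h4]
        exact h1
      have h6 := (h5.inj h3 (mul_ne_zero hx hx)).1
      have h7 : (x - b * b) * (x + b * b) = 0 := by
        linear_combination h6
      rcases mul_eq_zero.1 h7 with h8 | h8
      · have h9 : x = b * b := sub_eq_zero.1 h8
        rw [h9] at hu
        exact ⟨b, s, hb, hs, hu⟩
      · have h9 : x = (i * b) * (i * b) := by
          have : (i * b) * (i * b) = (i * i) * (b * b) := by ring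
          rw [this, hi]
          linear_combination h8
        rw [h9] at hu
        exact ⟨i * b, s, mul_ne_zero hi0 hb, hs, hu⟩
  have hNst : ∀ γ : MulAut T, ∀ u ∈ N, γ u ∈ N := by
    intro γ u hu
    rw [hNchar] at hu ⊢
    obtain ⟨h1, φ, hφ, he⟩ := hu
    refine ⟨hHst γ u h1, γ φ, hΦst γ φ hφ, ?_⟩
    rw [← map_mul, ← map_mul, he]
  -- the chain
  apply isPGroup_mulAut_of_forall_odd
  intro β hodd
  have hΦfix := fix_of_cyclic_stable hΦst hΦcyc (h2.to_subgroup _) β hodd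
  have hNfix := fix_step h2 β hodd Φ N hΦfix hNst hΦst (by
    rintro u ⟨x, s, hx, hs, hu⟩ v ⟨y, r, hy, hr, hv⟩ hu' hv'
    have hs1 : s = -1 := by
      rcases hs with rfl | h
      · exact absurd ⟨x, hx, hu⟩ hu'
      · exact h
    have hr1 : r = -1 := by
      rcases hr with rfl | h
      · exact absurd ⟨y, hy, hv⟩ hv'
      · exact h
    subst hs1
    subst hr1
    refine ⟨x⁻¹ * y, mul_ne_zero (inv_ne_zero hx) hy, ?_⟩
    have h1 := (hu.inv (mul_ne_zero hx hx) (by simp)).mul_D hv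
    have e : (x⁻¹ * y) * (x⁻¹ * y) = (x * x)⁻¹ * (y * y) := by
      rw [mul_inv]; ring
    rw [e]
    have e2 : (-1 : ZMod q) * -1 = 1 := by simp
    rw [e2] at h1
    exact h1)
  have hnonsq : ∀ x y : ZMod q, x ≠ 0 → y ≠ 0 → ¬ IsSquare x → ¬ IsSquare y → IsSquare (x⁻¹ * y) := by
    intro x y hx hy h1 h3
    have h4 := (quadraticChar_neg_one_iff_not_isSquare (a := x)).2 h1
    have h5 := (quadraticChar_neg_one_iff_not_isSquare (a := y)).2 h3
    rw [← quadraticChar_one_iff_isSquare (mul_ne_zero (inv_ne_zero hx) hy), map_mul, h5]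
    have h6 : quadraticChar (ZMod q) x⁻¹ * quadraticChar (ZMod q) x = 1 := by
      rw [← map_mul, inv_mul_cancel₀ hx, map_one]
    rw [h4] at h6
    linarith
  have hHfix := fix_step h2 β hodd N H hNfix hHst hNst (by
    rintro u ⟨x, s, hx, hs, hu⟩ v ⟨y, r, hy, hr, hv⟩ hu' hv'
    have hxs : ¬ IsSquare x := by
      rintro ⟨z, rfl⟩
      exact hu' ⟨z, s, (fun h => hx (by rw [h]; simp)), hs, hu⟩
    have hys : ¬ IsSquare y := by
      rintro ⟨z, rfl⟩
      exact hv' ⟨z, r, (fun h => hy (by rw [h]; simp)), hr, hv⟩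
    obtain ⟨w, hw⟩ := hnonsq x y hx hy hxs hys
    have h1 := (hu.inv hx (sign_sq hs)).mul_D hv
    rw [hw] at h1
    refine ⟨w, s * r, ?_, sign_mul hs hr, h1⟩
    intro h0
    rw [h0] at hw
    have : x⁻¹ * y ≠ 0 := mul_ne_zero (inv_ne_zero hx) hy
    apply this
    rw [hw]
    simp)
  have hXfix := fix_step h2 β hodd H ⊤ hHfix (fun _ _ _ => trivial) hHst (by
    intro u _ v _ hu hv
    obtain ⟨x, s, hx, hs, hu'⟩ := hnotH u hu
    obtain ⟨y, r, hy, hr, hv'⟩ := hnotH v hv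
    have hs0 : s ≠ 0 := by
      rcases hs with rfl | rfl
      · exact one_ne_zero
      · exact neg_ne_zero.2 one_ne_zero
    have h1 := (hu'.inv hx (sign_sq hs)).mul_W hy (sign_sq hs) (mul_ne_zero hs0 hx) hv'
    exact ⟨_, _, mul_ne_zero (mul_ne_zero hs0 (inv_ne_zero (mul_ne_zero hs0 hx))) hy, sign_mul hs hr, h1⟩)
  apply MulEquiv.ext
  intro u
  exact hXfix u trivial

end cases

section small

local notation "GL3" => ((Fin 2 → ZMod 3) ≃ₗ[ZMod 3] (Fin 2 → ZMod 3))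

theorem zmod3_ne {a : ZMod 3} (ha : a ≠ 0) : a = 1 ∨ a = -1 := by
  revert a
  decide

theorem zmod3_sq {a : ZMod 3} (ha : a ≠ 0) : a * a = 1 := by
  revert a
  decide

/-- The case `q = 3`. -/
theorem case_three (T : Subgroup GL3)
    (hT : ∀ f, f ∈ T ↔ ∃ a s : ZMod 3, a ≠ 0 ∧ (s = 1 ∨ s = -1) ∧
      ((∀ v, f v = ![a * v 0, s * a⁻¹ * v 1]) ∨ (∀ v, f v = ![s * a⁻¹ * v 1, a * v 0])))
    (h2 : IsPGroup 2 T) : IsPGroup 2 (MulAut T) := by
  classical
  haveI : Finite GL3 := finite_GLq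
  have hne : (-1 : ZMod 3) ≠ 1 := by decide
  have hform : ∀ u : T, (∃ a s, a ≠ 0 ∧ (s = 1 ∨ s = -1) ∧ IsD a s (u : GL3)) ∨
      (∃ a s, a ≠ 0 ∧ (s = 1 ∨ s = -1) ∧ IsW a s (u : GL3)) := by
    intro u
    obtain ⟨a, s, ha, hs, h⟩ := (hT u).1 u.2
    rcases h with h | h
    · exact Or.inl ⟨a, s, ha, hs, h⟩
    · exact Or.inr ⟨a, s, ha, hs, h⟩
  have hneg0 : (-1 : ZMod 3) ≠ 0 := by decide
  -- the central subgroup
  let Φ : Subgroup T :=
    { carrier := {u | ∃ a, a ≠ 0 ∧ IsD a 1 (u : GL3)}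
      one_mem' := ⟨1, one_ne_zero, isD_one⟩
      mul_mem' := by
        rintro u v ⟨a, ha, hu⟩ ⟨b, hb, hv⟩
        refine ⟨a * b, mul_ne_zero ha hb, ?_⟩
        have h1 := hu.mul_D hv
        rw [one_mul] at h1
        exact h1
      inv_mem' := by
        rintro u ⟨a, ha, hu⟩
        exact ⟨a⁻¹, inv_ne_zero ha, hu.inv ha (by simp)⟩ }
  have hmemΦ : ∀ u : T, u ∈ Φ ↔ ∃ a, a ≠ 0 ∧ IsD a 1 (u : GL3) := fun u => Iff.rfl
  have hsq : ∀ u : T, u * u ∈ Φ := by
    intro u
    rw [hmemΦ]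
    rcases hform u with ⟨a, s, ha, hs, hu⟩ | ⟨a, s, ha, hs, hu⟩
    · refine ⟨a * a, mul_ne_zero ha ha, ?_⟩
      have h1 := hu.mul_D hu
      rw [sign_sq hs] at h1
      exact h1
    · have hs0 : s ≠ 0 := by
        rcases hs with rfl | rfl
        · exact one_ne_zero
        · exact hneg0
      have h1 := hu.mul_W ha (sign_sq hs) ha hu
      rw [sign_sq hs, mul_assoc, inv_mul_cancel₀ ha, mul_one] at h1
      exact ⟨s, hs0, h1⟩
  have hsq' : ∀ φ ∈ Φ, ∃ u : T, φ = u * u := by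
    rintro φ ⟨a, ha, hφ⟩
    rcases zmod3_ne ha with rfl | rfl
    · refine ⟨1, Subtype.ext ?_⟩
      have h1 : IsD (1 : ZMod 3) 1 ((1 * 1 : T) : GL3) := by simpa using isD_one
      exact hφ.eq_of h1
    · have hss : (-1 : ZMod 3) * -1 = 1 := by decide
      let u : T := ⟨mkW 1 (-1) one_ne_zero hss, (hT _).2 ⟨1, -1, one_ne_zero, Or.inr rfl, Or.inr (isW_mkW one_ne_zero hss)⟩⟩
      have hu : IsW (1 : ZMod 3) (-1) (u : GL3) := isW_mkW one_ne_zero hss
      refine ⟨u, Subtype.ext ?_⟩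
      have h1 := hu.mul_W one_ne_zero hss one_ne_zero hu
      have e : (-1 : ZMod 3) * 1⁻¹ * 1 = -1 := by simp
      rw [e, hss] at h1
      exact hφ.eq_of h1
  have hΦst : ∀ γ : MulAut T, ∀ φ ∈ Φ, γ φ ∈ Φ := by
    intro γ φ hφ
    obtain ⟨u, rfl⟩ := hsq' φ hφ
    rw [map_mul]
    exact hsq _
  have hΦcyc : IsCyclic Φ := by
    let ψ : Φ →* ZMod 3 :=
      { toFun := fun x => ((x : T) : GL3) ![1, 0] 0
        map_one' := by
          show ((1 : GL3)) ![1, 0] 0 = 1
          simp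
        map_mul' := by
          rintro ⟨x, a, ha, hx⟩ ⟨y, b, hb, hy⟩
          have h1 := isD_val (hx.mul_D hy)
          rw [isD_val hx, isD_val hy]
          exact h1 }
    have hψ : Function.Injective ψ := by
      rintro ⟨x, a, ha, hx⟩ ⟨y, b, hb, hy⟩ h
      have h1 : a = b := by
        have h3 : ((x : T) : GL3) ![1, 0] 0 = ((y : T) : GL3) ![1, 0] 0 := h
        rwa [isD_val hx, isD_val hy] at h3
      rw [h1] at hx
      exact Subtype.ext (Subtype.ext (hx.eq_of hy))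
    exact isCyclic_of_subgroup_isDomain ψ hψ
  -- the cyclic subgroup of order four
  let N : Subgroup T :=
    { carrier := {u | (∃ a, a ≠ 0 ∧ IsD a 1 (u : GL3)) ∨ (∃ a, a ≠ 0 ∧ IsW a (-1) (u : GL3))}
      one_mem' := Or.inl ⟨1, one_ne_zero, isD_one⟩
      mul_mem' := by
        have hss : (-1 : ZMod 3) * -1 = 1 := by decide
        rintro u v (⟨a, ha, hu⟩ | ⟨a, ha, hu⟩) (⟨b, hb, hv⟩ | ⟨b, hb, hv⟩)
        · left
          refine ⟨a * b, mul_ne_zero ha hb, ?_⟩
          have h1 := hu.mul_D hv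
          rw [one_mul] at h1
          exact h1
        · right
          have h1 := hu.mul_W hb (by simp) ha hv
          rw [one_mul, one_mul] at h1
          exact ⟨_, mul_ne_zero (inv_ne_zero ha) hb, h1⟩
        · right
          have h1 := hu.mul_D hv
          rw [mul_one] at h1
          exact ⟨_, mul_ne_zero ha hb, h1⟩
        · left
          have h1 := hu.mul_W hb hss ha hv
          rw [hss] at h1
          exact ⟨_, mul_ne_zero (mul_ne_zero hneg0 (inv_ne_zero ha)) hb, h1⟩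
      inv_mem' := by
        have hss : (-1 : ZMod 3) * -1 = 1 := by decide
        rintro u (⟨a, ha, hu⟩ | ⟨a, ha, hu⟩)
        · exact Or.inl ⟨a⁻¹, inv_ne_zero ha, hu.inv ha (by simp)⟩
        · exact Or.inr ⟨_, mul_ne_zero hneg0 ha, hu.inv ha hss⟩ }
  have hmemN : ∀ u : T, u ∈ N ↔ (∃ a, a ≠ 0 ∧ IsD a 1 (u : GL3)) ∨ (∃ a, a ≠ 0 ∧ IsW a (-1) (u : GL3)) :=
    fun u => Iff.rfl
  have hNchar : ∀ u : T, u ∈ N ↔ u ∈ Φ ∨ u * u ≠ 1 := by
    have hss : (-1 : ZMod 3) * -1 = 1 := by decide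
    intro u
    constructor
    · rintro (h | ⟨a, ha, hu⟩)
      · exact Or.inl h
      · right
        intro h1
        have h3 := hu.mul_W ha hss ha hu
        rw [mul_assoc, inv_mul_cancel₀ ha, mul_one, hss] at h3
        have h4 : (u : GL3) * (u : GL3) = 1 := congrArg Subtype.val h1
        rw [h4] at h3
        exact hne (h3.inj isD_one hneg0).1
    · rintro (h | h)
      · exact Or.inl h
      · rcases hform u with ⟨a, s, ha, hs, hu⟩ | ⟨a, s, ha, hs, hu⟩
        · exfalso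
          apply h
          apply Subtype.ext
          have h1 := hu.mul_D hu
          rw [sign_sq hs, zmod3_sq ha] at h1
          exact h1.eq_of isD_one
        · rcases hs with rfl | rfl
          · exfalso
            apply h
            apply Subtype.ext
            have h1 := hu.mul_W ha (by simp) ha hu
            rw [one_mul, one_mul, inv_mul_cancel₀ ha] at h1
            exact h1.eq_of isD_one
          · exact Or.inr ⟨a, ha, hu⟩
  have hNst : ∀ γ : MulAut T, ∀ u ∈ N, γ u ∈ N := by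
    intro γ u hu
    rw [hNchar] at hu ⊢
    rcases hu with hu | hu
    · exact Or.inl (hΦst γ u hu)
    · right
      intro h
      apply hu
      rw [← map_mul] at h
      exact (map_eq_one_iff γ γ.injective).1 h
  apply isPGroup_mulAut_of_forall_odd
  intro β hodd
  have hΦfix := fix_of_cyclic_stable hΦst hΦcyc (h2.to_subgroup _) β hodd
  have hss : (-1 : ZMod 3) * -1 = 1 := by decide
  have hNfix := fix_step h2 β hodd Φ N hΦfix hNst hΦst (by
    rintro u (h | ⟨x, hx, hu⟩) v (h' | ⟨y, hy, hv⟩) hu' hv'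
    · exact absurd h hu'
    · exact absurd h hu'
    · exact absurd h' hv'
    · have h1 := (hu.inv hx hss).mul_W hy hss (mul_ne_zero hneg0 hx) hv
      rw [hss] at h1
      exact ⟨_, mul_ne_zero (mul_ne_zero hneg0 (inv_ne_zero (mul_ne_zero hneg0 hx))) hy, h1⟩)
  have hXfix := fix_step h2 β hodd N ⊤ hNfix (fun _ _ _ => trivial) hNst (by
    intro u _ v _ hu hv
    -- elements outside `N`
    have hout : ∀ w : T, w ∉ N → (∃ a, a ≠ 0 ∧ IsD a (-1) (w : GL3)) ∨ (∃ a, a ≠ 0 ∧ IsW a 1 (w : GL3)) := by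
      intro w hw
      rcases hform w with ⟨a, s, ha, hs, h⟩ | ⟨a, s, ha, hs, h⟩
      · rcases hs with rfl | rfl
        · exact absurd (Or.inl ⟨a, ha, h⟩) hw
        · exact Or.inl ⟨a, ha, h⟩
      · rcases hs with rfl | rfl
        · exact Or.inr ⟨a, ha, h⟩
        · exact absurd (Or.inr ⟨a, ha, h⟩) hw
    rcases hout u hu with ⟨x, hx, hu'⟩ | ⟨x, hx, hu'⟩ <;> rcases hout v hv with ⟨y, hy, hv'⟩ | ⟨y, hy, hv'⟩
    · left
      have h1 := (hu'.inv hx hss).mul_D hv'
      rw [hss] at h1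
      exact ⟨_, mul_ne_zero (inv_ne_zero hx) hy, h1⟩
    · right
      have h1 := (hu'.inv hx hss).mul_W hy hss (inv_ne_zero hx) hv'
      rw [mul_one] at h1
      exact ⟨_, mul_ne_zero (mul_ne_zero hneg0 (inv_ne_zero (inv_ne_zero hx))) hy, h1⟩
    · right
      have h1 := (hu'.inv hx (by simp)).mul_D hv'
      rw [one_mul] at h1
      exact ⟨_, mul_ne_zero (by simpa using hx) hy, h1⟩
    · left
      have h1 := (hu'.inv hx (by simp)).mul_W hy (by simp) (by simpa using hx) hv'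
      rw [one_mul] at h1
      exact ⟨_, by simpa using ⟨hx, hy⟩, h1⟩)
  apply MulEquiv.ext
  intro u
  exact hXfix u trivial

local notation "GL2" => ((Fin 2 → ZMod 2) ≃ₗ[ZMod 2] (Fin 2 → ZMod 2))

/-- The case `q = 2`. -/
theorem case_two (T : Subgroup GL2)
    (hT : ∀ f, f ∈ T ↔ ∃ a s : ZMod 2, a ≠ 0 ∧ (s = 1 ∨ s = -1) ∧
      ((∀ v, f v = ![a * v 0, s * a⁻¹ * v 1]) ∨ (∀ v, f v = ![s * a⁻¹ * v 1, a * v 0])))
    (h2 : IsPGroup 2 T) : IsPGroup 2 (MulAut T) := by
  classical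
  haveI : Finite GL2 := finite_GLq
  apply isPGroup_mulAut_of_forall_odd
  intro β hodd
  have hval : ∀ a s : ZMod 2, a ≠ 0 → (s = 1 ∨ s = -1) → a = 1 ∧ s = 1 := by decide
  have hform : ∀ u : T, u ≠ 1 → IsW (1 : ZMod 2) 1 (u : GL2) := by
    intro u hu
    obtain ⟨a, s, ha, hs, h⟩ := (hT u).1 u.2
    obtain ⟨rfl, rfl⟩ := hval a s ha hs
    rcases h with h | h
    · exfalso
      apply hu
      apply Subtype.ext
      have h1 : IsD (1 : ZMod 2) 1 (u : GL2) := h
      exact h1.eq_of isD_one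
    · exact h
  have hXfix := fix_step h2 β hodd ⊥ ⊤ (fun y hy => by
      rw [Subgroup.mem_bot] at hy
      rw [hy, map_one]) (fun _ _ _ => trivial) (fun γ y hy => by
      rw [Subgroup.mem_bot] at hy
      rw [hy, map_one]
      exact Subgroup.one_mem _) (by
    intro u _ v _ hu hv
    rw [Subgroup.mem_bot] at hu hv ⊢
    have h1 := hform u hu
    have h3 := hform v hv
    have h4 : u = v := Subtype.ext (h1.eq_of h3)
    rw [h4]
    simp)
  apply MulEquiv.ext
  intro u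
  exact hXfix u trivial

end small


/-- Let q = 2^m + 1 be a prime other than 5. Then the automorphism group of the group of linear maps of F_q² of the forms (x, y) ↦ (a x, ± a⁻¹ y) and (x, y) ↦ (± a⁻¹ y, a x) with a ≠ 0 is itself a 2-group. -/
theorem result (q m : ℕ) [Fact q.Prime] (hq : q = 2 ^ m + 1) (hq5 : q ≠ 5)
    (T : Subgroup ((Fin 2 → ZMod q) ≃ₗ[ZMod q] (Fin 2 → ZMod q)))
    (hT : ∀ f, f ∈ T ↔ ∃ a s : ZMod q, a ≠ 0 ∧ (s = 1 ∨ s = -1) ∧
      ((∀ v, f v = ![a * v 0, s * a⁻¹ * v 1]) ∨ (∀ v, f v = ![s * a⁻¹ * v 1, a * v 0]))) :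
    IsPGroup 2 (MulAut T) := by
  classical
  have hqq : q.Prime := Fact.out
  -- `T` is a 2-group
  have h2 : IsPGroup 2 T := by
    have hcard : ∀ a : ZMod q, a ≠ 0 → a ^ 2 ^ m = 1 := by
      intro a ha
      have h1 := ZMod.pow_card_sub_one_eq_one ha
      have e : q - 1 = 2 ^ m := by rw [hq, Nat.add_sub_cancel]
      rwa [e] at h1
    have hpowD : ∀ (n : ℕ) (a s : ZMod q) (f : (Fin 2 → ZMod q) ≃ₗ[ZMod q] (Fin 2 → ZMod q)),
        IsD a s f → IsD (a ^ n) (s ^ n) (f ^ n) := by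
      intro n a s f hf
      induction n with
      | zero => simpa using isD_one
      | succ n ih =>
        rw [pow_succ, pow_succ, pow_succ]
        exact ih.mul_D hf
    have hD1 : ∀ (a s : ZMod q) (f : (Fin 2 → ZMod q) ≃ₗ[ZMod q] (Fin 2 → ZMod q)), a ≠ 0 → (s = 1 ∨ s = -1) →
        IsD a s f → f ^ (2 ^ (m + 1)) = 1 := by
      intro a s f ha hs hf
      have h1 := hpowD (2 ^ (m + 1)) a s f hf
      have e1 : a ^ 2 ^ (m + 1) = 1 := by
        rw [pow_succ, pow_mul, hcard a ha, one_pow]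
      have e2 : s ^ 2 ^ (m + 1) = 1 := by
        rw [pow_succ', pow_mul, pow_two, sign_sq hs, one_pow]
      rw [e1, e2] at h1
      exact h1.eq_of isD_one
    intro u
    refine ⟨m + 2, Subtype.ext ?_⟩
    obtain ⟨a, s, ha, hs, h⟩ := (hT u).1 u.2
    rw [Subgroup.coe_pow]
    rcases h with h | h
    · have hu : IsD a s (u : (Fin 2 → ZMod q) ≃ₗ[ZMod q] (Fin 2 → ZMod q)) := h
      have h1 := hD1 a s _ ha hs hu
      rw [pow_succ (n := m + 1), pow_mul, h1, one_pow]
      rfl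
    · have hu : IsW a s (u : (Fin 2 → ZMod q) ≃ₗ[ZMod q] (Fin 2 → ZMod q)) := h
      have h1 := hu.mul_W ha (sign_sq hs) ha hu
      rw [sign_sq hs, mul_assoc, inv_mul_cancel₀ ha, mul_one] at h1
      have hs0 : s ≠ 0 := by
        rcases hs with rfl | rfl
        · exact one_ne_zero
        · exact neg_ne_zero.2 one_ne_zero
      have h3 := hD1 s 1 _ hs0 (Or.inl rfl) h1
      rw [← pow_two, ← pow_mul] at h3
      have e : 2 ^ (m + 2) = 2 * 2 ^ (m + 1) := by rw [pow_succ (n := m + 1)]; ring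
      rw [e, h3]
      rfl
  rcases m with _ | _ | _ | m
  · obtain rfl : q = 2 := by simpa using hq
    exact case_two T hT h2
  · obtain rfl : q = 3 := by simpa using hq
    exact case_three T hT h2
  · exfalso
    apply hq5
    simpa using hq
  · -- general case
    have hq8 : 9 ≤ q := by
      rw [hq]
      have : 1 ≤ 2 ^ m := Nat.one_le_two_pow
      have e : 2 ^ (m + 1 + 1 + 1) = 8 * 2 ^ m := by ring
      rw [e]
      omega
    have hq4 : q % 4 = 1 := by
      rw [hq]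
      have e : 2 ^ (m + 1 + 1 + 1) = 4 * (2 * 2 ^ m) := by ring
      rw [e]
      omega
    obtain ⟨i, hi⟩ : IsSquare (-1 : ZMod q) := (ZMod.exists_sq_eq_neg_one_iff (p := q)).2 (by omega)
    obtain ⟨g, hg⟩ := IsCyclic.exists_generator (α := (ZMod q)ˣ)
    have hord : orderOf g = q - 1 := by
      rw [orderOf_eq_card_of_forall_mem_zpowers hg, Nat.card_eq_fintype_card, ZMod.card_units_eq_totient,
        Nat.totient_prime hqq]
    have hg4 : ((g : ZMod q) * g) * (g * g) ≠ 1 := by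
      intro h
      have h1 : g ^ 4 = 1 := by
        apply Units.ext
        rw [Units.val_pow_eq_pow_val, Units.val_one, ← h]
        ring
      have h3 := orderOf_dvd_of_pow_eq_one h1
      rw [hord] at h3
      have := Nat.le_of_dvd (by norm_num) h3
      omega
    have hchar : ringChar (ZMod q) ≠ 2 := by
      rw [ZMod.ringChar_zmod_n]
      omega
    exact case_general (g : ZMod q) g.ne_zero hg4 i hi.symm hchar T hT h2

end Cfsg.Agent.S3382
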