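import Cfsg.Statements.S3383
import Mathlib
import Cfsg.Agent.Lib.Basic.Conj

set_option autoImplicit false
open Cfsg

namespace Cfsg.Agent.S3383

open MulAction Cfsg.Agent.Lib.Basic
open scoped Pointwise
set_option linter.style.haveILetI false

lemma card_dvd_of_free {Z X : Type*} [Group Z] [MulAction Z X]
    (h : ∀ b : X, stabilizer Z b = ⊥) [Finite X] : Nat.card Z ∣ Nat.card X := by
  have hequiv := selfEquivOrbitsQuotientProd (G := Z) (X := X) h
  rw [Nat.card_congr hequiv, Nat.card_prod]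
  exact dvd_mul_left _ _


/-- Let H be a Frobenius complement in a finite group L and K the Frobenius kernel (as a subgroup). Then K is characteristic in L, and every normal subgroup of L either contains K or is contained in K. -/
theorem result {L : Type*} [Group L] [Finite L]
    (H : Subgroup L) (hH : Cfsg.IsFrobeniusComplement H)
    (K : Subgroup L) (hK : (K : Set L) = Cfsg.frobeniusKernel H) :
    K.Characteristic ∧ ∀ N : Subgroup L, N.Normal → K ≤ N ∨ N ≤ K := by
  classical
  obtain ⟨hHbot, hHtop, htriv⟩ := hH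
  have hmemK : ∀ x, x ∈ K ↔ x = 1 ∨ ∀ g : L, g⁻¹ * x * g ∉ H := by
    intro x
    rw [← SetLike.mem_coe, hK]
    simp [frobeniusKernel, mem_conj_smul]
  have hHK : ∀ x ∈ H, x ∈ K → x = 1 := by
    intro x hx hxK
    rcases (hmemK x).mp hxK with h | h
    · exact h
    · exact absurd (by simpa using hx) (h 1)
  have hF : ∀ h ∈ H, h ≠ 1 → ∀ k ∈ K, h * k = k * h → k = 1 := by
    intro h hh h1 k hk hcomm
    by_contra hk1
    by_cases hkH : k ∈ H
    · exact hk1 (hHK k hkH hk)
    · have h2 := htriv k hkH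
      have hmem : h ∈ H ⊓ (MulAut.conj k • H) := by
        refine ⟨hh, mem_conj_smul.mpr ?_⟩
        have : k⁻¹ * h * k = h := by
          rw [mul_assoc, hcomm, inv_mul_cancel_left]
        rw [this]
        exact hh
      rw [h2] at hmem
      exact h1 hmem
  have hKn : K.Normal := by
    constructor
    intro x hx g
    rcases (hmemK x).mp hx with rfl | h
    · simp
    · rw [hmemK]
      right
      intro g' hg'
      apply h (g⁻¹ * g')
      have : (g⁻¹ * g')⁻¹ * x * (g⁻¹ * g') = g'⁻¹ * (g * x * g⁻¹) * g' := by group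
      rw [this]
      exact hg'
  -- `|H|` divides `|K| - 1`.
  let X := {k : K // k ≠ 1}
  letI : MulAction H X :=
    { smul := fun h k => ⟨⟨(h : L) * (k.1 : L) * (h : L)⁻¹, hKn.conj_mem _ k.1.2 _⟩, by
        intro hc
        apply k.2
        have h1 := congrArg Subtype.val hc
        simp only [Subgroup.coe_one] at h1
        apply Subtype.ext
        simpa using h1⟩
      one_smul := by
        rintro ⟨⟨k, hk⟩, hk1⟩
        apply Subtype.ext
        apply Subtype.ext
        show (((1 : H) : L)) * k * ((1 : H) : L)⁻¹ = k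
        simp
      mul_smul := by
        rintro ⟨a, ha⟩ ⟨b, hb⟩ ⟨⟨k, hk⟩, hk1⟩
        apply Subtype.ext
        apply Subtype.ext
        show (a * b) * k * (a * b)⁻¹ = a * (b * k * b⁻¹) * a⁻¹
        group }
  have hsmul : ∀ (h : H) (k : X), ((h • k).1 : L) = (h : L) * (k.1 : L) * (h : L)⁻¹ := fun _ _ => rfl
  have hfree : ∀ b : X, stabilizer H b = ⊥ := by
    intro b
    rw [Subgroup.eq_bot_iff_forall]
    rintro ⟨h, hh⟩ hb
    apply Subtype.ext
    show h = 1
    by_contra h1
    have hb' : (⟨h, hh⟩ : H) • b = b := hb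
    have h2 := congrArg (fun z : X => (z.1 : L)) hb'
    have h3 : h * (b.1 : L) * h⁻¹ = b.1 := h2
    have h4 : h * (b.1 : L) = b.1 * h := mul_inv_eq_iff_eq_mul.mp h3
    have h5 := hF h hh h1 _ b.1.2 h4
    exact b.2 (Subtype.ext h5)
  have hdvd : Nat.card H ∣ Nat.card X := card_dvd_of_free hfree
  have hcardX : Nat.card X + 1 = Nat.card K := by
    haveI := Fintype.ofFinite K
    rw [Nat.card_eq_fintype_card, Nat.card_eq_fintype_card]
    have h1 : Fintype.card X = Fintype.card K - 1 := by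
      simp only [X]
      rw [Fintype.card_subtype_compl]
      simp
    have h2 : 0 < Fintype.card K := Fintype.card_pos
    omega
  have hcop : Nat.Coprime (Nat.card K) (Nat.card H) := by
    obtain ⟨c, hc⟩ := hdvd
    rw [Nat.coprime_iff_gcd_eq_one, ← Nat.dvd_one]
    have h1 : Nat.gcd (Nat.card K) (Nat.card H) ∣ Nat.card X :=
      ((Nat.gcd_dvd_right _ _).trans (Dvd.intro _ hc.symm))
    have h2 : Nat.gcd (Nat.card K) (Nat.card H) ∣ Nat.card X + 1 := by
      rw [hcardX]
      exact Nat.gcd_dvd_left _ _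
    exact (Nat.dvd_add_right h1).mp h2
  have hpowK : ∀ x : L, x ^ Nat.card K = 1 → x ∈ K := by
    intro x hx
    by_contra hxK
    rw [hmemK] at hxK
    push Not at hxK
    obtain ⟨hx1, g, hg⟩ := hxK
    have h1 : (g⁻¹ * x * g) ^ Nat.card H = 1 := by
      have := pow_card_eq_one' (G := H) (x := ⟨_, hg⟩)
      exact congrArg Subtype.val this
    have h2 : (g⁻¹ * x * g) ^ Nat.card K = 1 := by
      have h3 := conj_pow (a := g⁻¹) (b := x) (i := Nat.card K)
      rw [inv_inv] at h3
      rw [h3, hx]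
      group
    have h3 := pow_gcd_eq_one.mpr ⟨h2, h1⟩
    rw [Nat.coprime_iff_gcd_eq_one.mp hcop, pow_one] at h3
    apply hx1
    have : x = g * (g⁻¹ * x * g) * g⁻¹ := by group
    rw [this, h3]
    group
  refine ⟨?_, ?_⟩
  · rw [Subgroup.characteristic_iff_map_le]
    rintro φ _ ⟨k, hk, rfl⟩
    apply hpowK
    have h1 := pow_card_eq_one' (G := K) (x := ⟨k, hk⟩)
    have h2 : k ^ Nat.card K = 1 := congrArg Subtype.val h1
    show (φ k) ^ Nat.card K = 1
    rw [← map_pow, h2, map_one]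
  · intro N hN
    by_cases hNK : N ≤ K
    · exact Or.inr hNK
    left
    obtain ⟨x, hxN, hxK⟩ := Set.not_subset.mp hNK
    have hxK' : x ∉ K := hxK
    rw [hmemK] at hxK'
    push Not at hxK'
    obtain ⟨hx1, g, hg⟩ := hxK'
    set h := g⁻¹ * x * g with hh
    have hhN : h ∈ N := by
      have := hN.conj_mem x hxN g⁻¹
      simpa [hh] using this
    have hh1 : h ≠ 1 := by
      intro h1
      apply hx1
      have : x = g * h * g⁻¹ := by rw [hh]; group
      rw [this, h1]
      group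
    let f : K → K := fun k => ⟨h * (k : L) * h⁻¹ * (k : L)⁻¹,
      K.mul_mem (hKn.conj_mem _ k.2 _) (K.inv_mem k.2)⟩
    have hinj : Function.Injective f := by
      rintro ⟨k, hk⟩ ⟨k', hk'⟩ hkk
      have h1 : h * k * h⁻¹ * k⁻¹ = h * k' * h⁻¹ * k'⁻¹ := congrArg Subtype.val hkk
      have h2 : h⁻¹ * (k'⁻¹ * k) = (k'⁻¹ * k) * h⁻¹ := by
        have h3 : k * h⁻¹ * k⁻¹ = k' * h⁻¹ * k'⁻¹ := by
          have h4 : h⁻¹ * (h * k * h⁻¹ * k⁻¹) = h⁻¹ * (h * k' * h⁻¹ * k'⁻¹) := by rw [h1]
          simpa [mul_assoc] using h4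
        have h4 : k'⁻¹ * (k * h⁻¹ * k⁻¹) * k = k'⁻¹ * (k' * h⁻¹ * k'⁻¹) * k := by rw [h3]
        have h5 : k'⁻¹ * (k * h⁻¹ * k⁻¹) * k = (k'⁻¹ * k) * h⁻¹ := by group
        have h6 : k'⁻¹ * (k' * h⁻¹ * k'⁻¹) * k = h⁻¹ * (k'⁻¹ * k) := by group
        rw [h5, h6] at h4
        exact h4.symm
      have h3 := hF h⁻¹ (H.inv_mem hg) (inv_ne_one.mpr hh1) _ (K.mul_mem (K.inv_mem hk') hk) h2
      apply Subtype.ext
      show k = k'
      exact (inv_mul_eq_one.mp h3).symm
    have hsurj := Finite.surjective_of_injective hinj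
    intro k hk
    obtain ⟨k0, hk0⟩ := hsurj ⟨k, hk⟩
    have h1 : k = h * (k0 : L) * h⁻¹ * (k0 : L)⁻¹ := (congrArg Subtype.val hk0).symm
    rw [h1, show h * (k0 : L) * h⁻¹ * (k0 : L)⁻¹ = h * ((k0 : L) * h⁻¹ * (k0 : L)⁻¹) by group]
    exact N.mul_mem hhN (hN.conj_mem _ (N.inv_mem hhN) _)

end Cfsg.Agent.S3383
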