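import Cfsg.Statements.S3419
import Cfsg.Agent.Lib.Recog.AltSpec

set_option autoImplicit false
open Cfsg

namespace Cfsg.Agent.S3419

theorem nosolv_of_section {G : Type*} [Group G] [Finite G] [Group.IsSolvable G] {n : ℕ}
    (h : ∃ (N H : Subgroup G) (_ : N.Normal), H.Normal ∧ N < H ∧
      IsSimpleGroup (↥H ⧸ N.subgroupOf H) ∧ ¬ IsMulCommutative (↥H ⧸ N.subgroupOf H) ∧
      ∀ p : ℕ, p.Prime → n < 2 * p → p ≤ n → p ∣ Nat.card (↥H ⧸ N.subgroupOf H)) : False := by
  obtain ⟨N, H, hN, hH, hNH, hs, hc, -⟩ := h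
  apply hc
  have hsolv : Group.IsSolvable (↥H ⧸ N.subgroupOf H) := inferInstance
  exact ⟨⟨IsSimpleGroup.comm_iff_isSolvable.mpr hsolv⟩⟩

theorem spec_contra {G : Type*} [Group G] [Finite G] {n p q : ℕ}
    (hspec : Set.range (orderOf : G → ℕ) = Set.range (orderOf : ↥(alternatingGroup (Fin n)) → ℕ))
    (hp : p.Prime) (hq : q.Prime) (hne : p ≠ q) (h1 : n < p + q) (h2 : n < p * q)
    (H : Subgroup G) (g : H) (hg : orderOf g = p * q) : False := by
  have hm : orderOf (g : G) ∈ Set.range (orderOf : ↥(alternatingGroup (Fin n)) → ℕ) := by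
    rw [← hspec]
    exact ⟨g, rfl⟩
  obtain ⟨σ, hσ⟩ := hm
  have h5 : orderOf (σ : Equiv.Perm (Fin n)) = p * q := by
    rw [Subgroup.orderOf_coe, hσ, Subgroup.orderOf_coe, hg]
  exact Lib.Recog.not_dvd_orderOf_perm hp hq hne h1 h2 (σ : Equiv.Perm (Fin n))
    ⟨by rw [h5]; exact Dvd.intro _ rfl, by rw [h5]; exact Dvd.intro_left _ rfl⟩

theorem card_alt_eq {n c : ℕ} (hn : 2 ≤ n) (h : n.factorial = 2 * c) :
    Nat.card ↥(alternatingGroup (Fin n)) = c := by
  haveI : Nontrivial (Fin n) := Fin.nontrivial_iff_two_le.mpr hn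
  have hcard : 2 * Nat.card (alternatingGroup (Fin n)) = n.factorial := by
    rw [two_mul_nat_card_alternatingGroup, Nat.card_perm, Nat.card_fin]
  omega


/-- Let n ≥ 5 and let G be a finite group with the same order and the same set of element orders as the alternating group of degree n. Then G is not solvable. -/
theorem result {G : Type*} [Group G] [Finite G] (n : ℕ) (hn : 5 ≤ n)
    (hcard : Nat.card G = Nat.card ↥(alternatingGroup (Fin n)))
    (hspec : Set.range (orderOf : G → ℕ) = Set.range (orderOf : ↥(alternatingGroup (Fin n)) → ℕ)) :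
    ¬ Group.IsSolvable G := by
  intro hsolv
  by_cases h6 : n = 6
  · subst h6
    have hc : Nat.card G = 45 * 8 := by
      rw [hcard, card_alt_eq (c := 360) (by norm_num) (by decide)]
    obtain ⟨H, hH⟩ := Lib.Basic.hall_exists _ 45 8 rfl hc (by norm_num)
    obtain ⟨g, hg⟩ := Lib.Recog.exists_order_mul_of_card (G := H) (r := 5) (s := 3) (a := 2)
      (by norm_num) (by norm_num) (by norm_num) (by rw [hH]; norm_num) (by norm_num)
      (by
        intro i hi h
        interval_cases i <;> simp_all)
      (by norm_num)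
    exact spec_contra hspec (by norm_num) (by norm_num) (by norm_num) (by norm_num) (by norm_num) H g hg
  by_cases h10 : n = 10
  · subst h10
    have hc : Nat.card G = 175 * 10368 := by
      rw [hcard, card_alt_eq (c := 1814400) (by norm_num) (by decide)]
    obtain ⟨H, hH⟩ := Lib.Basic.hall_exists _ 175 10368 rfl hc (by norm_num)
    obtain ⟨g, hg⟩ := Lib.Recog.exists_order_mul_of_card (G := H) (r := 7) (s := 5) (a := 2)
      (by norm_num) (by norm_num) (by norm_num) (by rw [hH]; norm_num) (by norm_num)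
      (by
        intro i hi h
        interval_cases i <;> simp_all)
      (by norm_num)
    exact spec_contra hspec (by norm_num) (by norm_num) (by norm_num) (by norm_num) (by norm_num) H g hg
  -- two primes
  have hex : ∃ p q : ℕ, p.Prime ∧ q.Prime ∧ n < 2 * p ∧ p ≤ n ∧ n < 2 * q ∧ q ≤ n ∧ p ≠ q := by
    rcases Nat.lt_or_ge n 12 with h | h
    · by_cases h5 : n = 5
      · exact ⟨3, 5, by norm_num, by norm_num, by omega, by omega, by omega, by omega, by norm_num⟩
      by_cases h11 : n = 11
      · exact ⟨7, 11, by norm_num, by norm_num, by omega, by omega, by omega, by omega, by norm_num⟩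
      · exact ⟨5, 7, by norm_num, by norm_num, by omega, by omega, by omega, by omega, by norm_num⟩
    · obtain ⟨p, q, hp, hq, h1, h2, h3⟩ := Lib.Recog.exists_two_primes (n / 2) (by omega)
      exact ⟨p, q, hp, hq, by omega, by omega, by omega, by omega, by omega⟩
  obtain ⟨p, q, hp, hq, h1, h2, h3, h4, hne⟩ := hex
  exact nosolv_of_section (Lib.Recog.alt_simple_section n hn hcard hspec hp hq h1 h2 h3 h4 hne)

end Cfsg.Agent.S3419
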