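import Cfsg.Statements.S3420
import Cfsg.Agent.Lib.Recog.AltSpec

set_option autoImplicit false
open Cfsg

namespace Cfsg.Agent.S3420




/-- Let n ≥ 11 and let G be a finite group with the same order and the same set of element orders as the alternating group of degree n. Then G has normal subgroups N < H such that H/N is a non-abelian simple group whose order is divisible by every prime p with n/2 < p ≤ n. -/
theorem result {G : Type*} [Group G] [Finite G] (n : ℕ) (hn : 11 ≤ n)
    (hcard : Nat.card G = Nat.card ↥(alternatingGroup (Fin n)))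
    (hspec : Set.range (orderOf : G → ℕ) = Set.range (orderOf : ↥(alternatingGroup (Fin n)) → ℕ)) :
    ∃ (N H : Subgroup G) (_ : N.Normal), H.Normal ∧ N < H ∧
      IsSimpleGroup (↥H ⧸ N.subgroupOf H) ∧ ¬ IsMulCommutative (↥H ⧸ N.subgroupOf H) ∧
      ∀ p : ℕ, p.Prime → n < 2 * p → p ≤ n → p ∣ Nat.card (↥H ⧸ N.subgroupOf H) := by
---PRE
  rcases Nat.lt_or_ge n 12 with h | h
  · exact Lib.Recog.alt_simple_section n (by omega) hcard hspec (p₀ := 7) (q₀ := 11) (by norm_num)
      (by norm_num) (by omega) (by omega) (by omega) (by omega) (by norm_num)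
  · obtain ⟨p, q, hp, hq, h1, h2, h3⟩ := Lib.Recog.exists_two_primes (n / 2) (by omega)
    exact Lib.Recog.alt_simple_section n (by omega) hcard hspec hp hq (by omega) (by omega)
      (by omega) (by omega) (by omega)

end Cfsg.Agent.S3420
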