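import Cfsg.Statements.S3431
import Cfsg.Agent.Lib.NSE.Counts
import Cfsg.Agent.Lib.NSE.N4
import Cfsg.Agent.Lib.NSE.N5
import Cfsg.Agent.Lib.NSE.N6
-- import your own Cfsg.Agent.* helpers here

set_option autoImplicit false
open Cfsg

namespace Cfsg.Agent.S3431

/-- Let n be 4, 5 or 6 and let G be a finite group whose set of sizes of same-order classes (the set of numbers #{g : o(g) = m} over the element orders m of G) equals that of the alternating group of degree n. Then G is isomorphic to that alternating group. -/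
theorem result {G : Type*} [Group G] [Finite G] (n : ℕ) (hn : n = 4 ∨ n = 5 ∨ n = 6)
    (h : ((fun m : ℕ => Nat.card {g : G // orderOf g = m}) '' Set.range (orderOf : G → ℕ)) = ((fun m : ℕ => Nat.card {g : ↥(alternatingGroup (Fin n)) // orderOf g = m}) '' Set.range (orderOf : ↥(alternatingGroup (Fin n)) → ℕ))) :
    Nonempty (G ≃* ↥(alternatingGroup (Fin n))) := by
  rcases hn with rfl | rfl | rfl
  · rw [Cfsg.Agent.Lib.NSE.rhs4] at h
    refine Cfsg.Agent.Lib.NSE.n4 ?_ ?_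
    · intro m hm
      obtain ⟨g, hg⟩ := (Cfsg.Agent.Lib.PGroups.OrderCount.oc_ne_zero_iff (G := G) (m := m)).1 hm
      have h1 : Cfsg.Agent.Lib.PGroups.OrderCount.oc G m ∈ ({1, 3, 8} : Set ℕ) := by
        rw [← h]
        exact ⟨m, ⟨g, hg⟩, rfl⟩
      simpa using h1
    · intro v hv
      have h1 : v ∈ ({1, 3, 8} : Set ℕ) := by simpa using hv
      rw [← h] at h1
      obtain ⟨m, -, hm⟩ := h1
      exact ⟨m, hm⟩
  · rw [Cfsg.Agent.Lib.NSE.rhs5] at h
    refine Cfsg.Agent.Lib.NSE.n5 ?_ ?_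
    · intro m hm
      obtain ⟨g, hg⟩ := (Cfsg.Agent.Lib.PGroups.OrderCount.oc_ne_zero_iff (G := G) (m := m)).1 hm
      have h1 : Cfsg.Agent.Lib.PGroups.OrderCount.oc G m ∈ ({1, 15, 20, 24} : Set ℕ) := by
        rw [← h]
        exact ⟨m, ⟨g, hg⟩, rfl⟩
      simpa using h1
    · intro v hv
      have h1 : v ∈ ({1, 15, 20, 24} : Set ℕ) := by simpa using hv
      rw [← h] at h1
      obtain ⟨m, -, hm⟩ := h1
      exact ⟨m, hm⟩
  · rw [Cfsg.Agent.Lib.NSE.rhs6] at h
    refine Cfsg.Agent.Lib.NSE.n6 ?_ ?_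
    · intro m hm
      obtain ⟨g, hg⟩ := (Cfsg.Agent.Lib.PGroups.OrderCount.oc_ne_zero_iff (G := G) (m := m)).1 hm
      have h1 : Cfsg.Agent.Lib.PGroups.OrderCount.oc G m ∈ ({1, 45, 80, 90, 144} : Set ℕ) := by
        rw [← h]
        exact ⟨m, ⟨g, hg⟩, rfl⟩
      simpa using h1
    · intro v hv
      have h1 : v ∈ ({1, 45, 80, 90, 144} : Set ℕ) := by simpa using hv
      rw [← h] at h1
      obtain ⟨m, -, hm⟩ := h1
      exact ⟨m, hm⟩

end Cfsg.Agent.S3431
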