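import Cfsg.Statements.S3704
import Mathlib

set_option autoImplicit false
open Cfsg

namespace Cfsg.Agent.S3704

open Matrix MulAction

section linalg

variable {G X Ω : Type*} [Group G] [MulAction G X] [MulAction G Ω] [Fintype X] [Fintype Ω] [DecidableEq X] [DecidableEq Ω]

/-- The all-one matrix. -/
def Jm (α β : Type*) : Matrix α β ℚ := Matrix.of fun _ _ => 1

/-- Invariant matrices. -/
def InvM (G : Type*) {X Ω : Type*} [Group G] [MulAction G X] [MulAction G Ω] (f : Matrix X Ω ℚ) : Prop :=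
  ∀ (y : G) (x : X) (ω : Ω), f (y • x) (y • ω) = f x ω

lemma col_sum_zero [IsPretransitive G Ω] {f : Matrix X Ω ℚ} (hf : InvM G f) (hr : ∀ x, ∑ ω, f x ω = 0) :
    ∀ ω, ∑ x, f x ω = 0 := by
  intro ω₀
  have hconst : ∀ ω, ∑ x, f x ω = ∑ x, f x ω₀ := by
    intro ω
    obtain ⟨y, hy⟩ := exists_smul_eq G ω₀ ω
    rw [← hy, ← Equiv.sum_comp (MulAction.toPerm y) (fun x => f x (y • ω₀))]
    apply Finset.sum_congr rfl
    intro x _
    exact hf y x ω₀
  have h1 : ∑ ω, ∑ x, f x ω = 0 := by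
    rw [Finset.sum_comm]
    exact Finset.sum_eq_zero (fun x _ => hr x)
  rw [Finset.sum_congr rfl (fun ω _ => hconst ω)] at h1
  simp only [Finset.sum_const, Finset.card_univ, nsmul_eq_mul] at h1
  rcases mul_eq_zero.mp h1 with h | h
  · exfalso
    haveI : Nonempty Ω := ⟨ω₀⟩
    have : Fintype.card Ω ≠ 0 := Fintype.card_ne_zero
    exact this (by exact_mod_cast h)
  · exact h

lemma gram_eq (h2 : ∀ a b c d : Ω, a ≠ b → c ≠ d → ∃ y : G, y • a = c ∧ y • b = d) [IsPretransitive G Ω]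
    (hn : 2 ≤ Fintype.card Ω) {f g : Matrix X Ω ℚ} (hf : InvM G f) (hg : InvM G g) (hr : ∀ x, ∑ ω, g x ω = 0) :
    ∃ c : ℚ, fᵀ * g = c • (1 - (1 / (Fintype.card Ω : ℚ)) • Jm Ω Ω) := by
  obtain ⟨ω₀, ω₁, h01⟩ := Fintype.exists_pair_of_one_lt_card (by omega : 1 < Fintype.card Ω)
  set S := fᵀ * g with hSdef
  have hSa : ∀ ω ω', S ω ω' = ∑ x, f x ω * g x ω' := by
    intro ω ω'
    rw [hSdef, Matrix.mul_apply]
    rfl
  have hS : ∀ (y : G) ω ω', S (y • ω) (y • ω') = S ω ω' := by
    intro y ω ω'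
    rw [hSa, hSa, ← Equiv.sum_comp (MulAction.toPerm y) (fun x => f x (y • ω) * g x (y • ω'))]
    apply Finset.sum_congr rfl
    intro x _
    show f (y • x) (y • ω) * g (y • x) (y • ω') = _
    rw [hf, hg]
  set A := S ω₀ ω₀ with hA
  set B := S ω₀ ω₁ with hB
  have hAall : ∀ ω, S ω ω = A := by
    intro ω
    obtain ⟨y, hy⟩ := exists_smul_eq G ω₀ ω
    rw [← hy, hS]
  have hBall : ∀ ω ω', ω ≠ ω' → S ω ω' = B := by
    intro ω ω' hne
    obtain ⟨y, hy, hy'⟩ := h2 ω₀ ω₁ ω ω' (fun h => h01 h) hne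
    rw [← hy, ← hy', hS]
  have hsum : ∀ ω, ∑ ω', S ω ω' = 0 := by
    intro ω
    simp only [hSa]
    rw [Finset.sum_comm]
    apply Finset.sum_eq_zero
    intro x _
    rw [← Finset.mul_sum, hr, mul_zero]
  have hAB : A + ((Fintype.card Ω : ℚ) - 1) * B = 0 := by
    have h := hsum ω₀
    rw [← Finset.add_sum_erase _ _ (Finset.mem_univ ω₀)] at h
    have h3 : ∑ ω' ∈ Finset.univ.erase ω₀, S ω₀ ω' = ∑ ω' ∈ Finset.univ.erase ω₀, B := by
      apply Finset.sum_congr rfl
      intro ω' hω'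
      exact hBall _ _ (Finset.ne_of_mem_erase hω').symm
    rw [h3, Finset.sum_const, Finset.card_erase_of_mem (Finset.mem_univ _), Finset.card_univ, nsmul_eq_mul,
      Nat.cast_sub (by omega)] at h
    simpa using h
  have hn0 : (Fintype.card Ω : ℚ) ≠ 0 := by
    have : (0 : ℚ) < Fintype.card Ω := by
      have : 0 < Fintype.card Ω := by omega
      exact_mod_cast this
    exact this.ne'
  have hn1 : (Fintype.card Ω : ℚ) - 1 ≠ 0 := by
    have : (2 : ℚ) ≤ Fintype.card Ω := by exact_mod_cast hn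
    intro h
    linarith
  refine ⟨(Fintype.card Ω : ℚ) / ((Fintype.card Ω : ℚ) - 1) * A, ?_⟩
  ext ω ω'
  by_cases hω : ω = ω'
  · subst hω
    rw [hAall]
    simp only [Matrix.smul_apply, Matrix.sub_apply, Matrix.one_apply_eq, Jm, Matrix.of_apply, smul_eq_mul, mul_one]
    field_simp
  · rw [hBall _ _ hω]
    simp only [Matrix.smul_apply, Matrix.sub_apply, Matrix.one_apply_ne hω, Jm, Matrix.of_apply, smul_eq_mul, mul_one,
      zero_sub]
    have hA' : A = -(((Fintype.card Ω : ℚ) - 1) * B) := by linarith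
    rw [hA']
    field_simp

lemma nonzero_gram {f : Matrix X Ω ℚ} (hf0 : f ≠ 0) [IsPretransitive G Ω] (hf : InvM G f) {c : ℚ}
    (hc : fᵀ * f = c • (1 - (1 / (Fintype.card Ω : ℚ)) • Jm Ω Ω)) (hn : 2 ≤ Fintype.card Ω) : c ≠ 0 := by
  intro h0
  rw [h0, zero_smul] at hc
  apply hf0
  ext x ω
  have h1 : (fᵀ * f) ω ω = 0 := by rw [hc]; rfl
  rw [Matrix.mul_apply] at h1
  simp only [Matrix.transpose_apply] at h1
  have h2 := (Finset.sum_eq_zero_iff_of_nonneg (fun i _ => mul_self_nonneg (f i ω))).mp h1 x (Finset.mem_univ x)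
  simpa using h2

/-- The main inequality: two orthogonal non-zero invariant matrices with zero row sums do not exist. -/
lemma no_two (hXΩ : Fintype.card X = Fintype.card Ω) [IsPretransitive G Ω]
    (hn : 2 ≤ Fintype.card Ω) {F E : Matrix X Ω ℚ} (hF : InvM G F) (hE : InvM G E)
    (hFr : ∀ x, ∑ ω, F x ω = 0) (hEr : ∀ x, ∑ ω, E x ω = 0) {c d : ℚ} (hc0 : c ≠ 0) (hd0 : d ≠ 0)
    (hc : Fᵀ * F = c • (1 - (1 / (Fintype.card Ω : ℚ)) • Jm Ω Ω))
    (hd : Eᵀ * E = d • (1 - (1 / (Fintype.card Ω : ℚ)) • Jm Ω Ω))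
    (hFE : Fᵀ * E = 0) : False := by
  set n : ℚ := (Fintype.card Ω : ℚ) with hndef
  have hn2 : (2 : ℚ) ≤ n := by
    rw [hndef]
    exact_mod_cast hn
  have hn0 : n ≠ 0 := by
    intro h
    linarith
  have hEF : Eᵀ * F = 0 := by
    have := congrArg Matrix.transpose hFE
    rwa [Matrix.transpose_mul, Matrix.transpose_transpose, Matrix.transpose_zero] at this
  have hFc := col_sum_zero hF hFr
  have hEc := col_sum_zero hE hEr
  have hFJ : F * Jm Ω Ω = 0 := by
    ext x ω
    simp [Matrix.mul_apply, Jm, hFr x]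
  have hEJ : E * Jm Ω Ω = 0 := by
    ext x ω
    simp [Matrix.mul_apply, Jm, hEr x]
  have hFP : F * (1 - (1 / n) • Jm Ω Ω) = F := by
    rw [Matrix.mul_sub, Matrix.mul_one, Matrix.mul_smul, hFJ, smul_zero, sub_zero]
  have hEP : E * (1 - (1 / n) • Jm Ω Ω) = E := by
    rw [Matrix.mul_sub, Matrix.mul_one, Matrix.mul_smul, hEJ, smul_zero, sub_zero]
  have hTFJ : Fᵀ * Jm X X = 0 := by
    ext ω x
    simp [Matrix.mul_apply, Jm, hFc ω]
  have hTEJ : Eᵀ * Jm X X = 0 := by
    ext ω x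
    simp [Matrix.mul_apply, Jm, hEc ω]
  have hJF : Jm X X * F = 0 := by
    ext x ω
    simp [Matrix.mul_apply, Jm, hFc ω]
  have hJE : Jm X X * E = 0 := by
    ext x ω
    simp [Matrix.mul_apply, Jm, hEc ω]
  have hJJ : Jm X X * Jm X X = n • Jm X X := by
    ext x y
    simp [Matrix.mul_apply, Jm, hndef, hXΩ]
  set R : Matrix X X ℚ := (1 / c) • (F * Fᵀ) + (1 / d) • (E * Eᵀ) + (1 / n) • Jm X X with hR
  have e1 : (F * Fᵀ) * (F * Fᵀ) = c • (F * Fᵀ) := by
    calc (F * Fᵀ) * (F * Fᵀ) = F * (Fᵀ * F) * Fᵀ := by simp only [Matrix.mul_assoc]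
      _ = c • (F * Fᵀ) := by
        rw [hc, Matrix.mul_smul, hFP, Matrix.smul_mul]
  have e2 : (E * Eᵀ) * (E * Eᵀ) = d • (E * Eᵀ) := by
    calc (E * Eᵀ) * (E * Eᵀ) = E * (Eᵀ * E) * Eᵀ := by simp only [Matrix.mul_assoc]
      _ = d • (E * Eᵀ) := by
        rw [hd, Matrix.mul_smul, hEP, Matrix.smul_mul]
  have e3 : (F * Fᵀ) * (E * Eᵀ) = 0 := by
    calc (F * Fᵀ) * (E * Eᵀ) = F * (Fᵀ * E) * Eᵀ := by simp only [Matrix.mul_assoc]
      _ = 0 := by rw [hFE, Matrix.mul_zero, Matrix.zero_mul]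
  have e4 : (E * Eᵀ) * (F * Fᵀ) = 0 := by
    calc (E * Eᵀ) * (F * Fᵀ) = E * (Eᵀ * F) * Fᵀ := by simp only [Matrix.mul_assoc]
      _ = 0 := by rw [hEF, Matrix.mul_zero, Matrix.zero_mul]
  have e5 : (F * Fᵀ) * Jm X X = 0 := by rw [Matrix.mul_assoc, hTFJ, Matrix.mul_zero]
  have e6 : (E * Eᵀ) * Jm X X = 0 := by rw [Matrix.mul_assoc, hTEJ, Matrix.mul_zero]
  have e7 : Jm X X * (F * Fᵀ) = 0 := by rw [← Matrix.mul_assoc, hJF, Matrix.zero_mul]
  have e8 : Jm X X * (E * Eᵀ) = 0 := by rw [← Matrix.mul_assoc, hJE, Matrix.zero_mul]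
  have hRR : R * R = R := by
    rw [hR]
    simp only [Matrix.add_mul, Matrix.mul_add, Matrix.smul_mul, Matrix.mul_smul, e1, e2, e3, e4, e5, e6, e7, e8, hJJ,
      smul_zero, add_zero, zero_add, smul_smul]
    congr 1
    · congr 1
      · congr 1
        field_simp
      · congr 1
        field_simp
    · congr 1
      field_simp
  have hRsymm : Rᵀ = R := by
    rw [hR]
    have hJt : (Jm X X)ᵀ = Jm X X := by
      ext x y
      simp [Jm]
    simp only [Matrix.transpose_add, Matrix.transpose_smul, Matrix.transpose_mul, Matrix.transpose_transpose, hJt]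
  have hdiag : ∀ x, R x x ≤ 1 := by
    intro x
    have h1 := congrFun (congrFun hRR x) x
    rw [Matrix.mul_apply] at h1
    have h2 : ∀ y, R x y * R y x = (R x y) ^ 2 := by
      intro y
      have : R y x = R x y := by
        have := congrFun (congrFun hRsymm x) y
        simpa using this
      rw [this, pow_two]
    simp only [h2] at h1
    have h3 : (R x x) ^ 2 ≤ R x x := by
      nth_rewrite 2 [← h1]
      exact Finset.single_le_sum (f := fun y => (R x y) ^ 2) (fun y _ => sq_nonneg _) (Finset.mem_univ x)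
    by_contra hcon
    push Not at hcon
    nlinarith
  have htrP : Matrix.trace ((1 : Matrix Ω Ω ℚ) - (1 / n) • Jm Ω Ω) = n - 1 := by
    rw [Matrix.trace_sub, Matrix.trace_one, Matrix.trace_smul]
    have : Matrix.trace (Jm Ω Ω) = n := by
      simp [Matrix.trace, Jm, hndef]
    rw [this]
    simp only [smul_eq_mul, hndef]
    field_simp
  have htrF : Matrix.trace (F * Fᵀ) = c * (n - 1) := by
    rw [Matrix.trace_mul_comm, hc, Matrix.trace_smul, htrP, smul_eq_mul]
  have htrE : Matrix.trace (E * Eᵀ) = d * (n - 1) := by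
    rw [Matrix.trace_mul_comm, hd, Matrix.trace_smul, htrP, smul_eq_mul]
  have htrJ : Matrix.trace (Jm X X) = n := by
    simp [Matrix.trace, Jm, hndef, hXΩ]
  have htrR : Matrix.trace R = 2 * n - 1 := by
    rw [hR, Matrix.trace_add, Matrix.trace_add, Matrix.trace_smul, Matrix.trace_smul, Matrix.trace_smul, htrF, htrE, htrJ]
    simp only [smul_eq_mul]
    field_simp
    ring
  have hle : Matrix.trace R ≤ n := by
    rw [Matrix.trace]
    calc ∑ x, R.diag x ≤ ∑ _x : X, (1 : ℚ) := Finset.sum_le_sum (fun x _ => hdiag x)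
      _ = n := by simp [hndef, hXΩ]
  rw [htrR] at hle
  linarith

end linalg



/-- Let G be a finite group acting faithfully and 2-transitively on a finite set Ω of size n, and let H be a subgroup of index n in G which is not transitive on Ω and fixes no point of Ω. Then H has exactly two orbits on Ω. -/
theorem result {G Ω : Type*} [Group G] [Finite G] [MulAction G Ω] [FaithfulSMul G Ω] [Finite Ω] (h2 : MulAction.IsMultiplyPretransitive G Ω 2) (H : Subgroup G) (hidx : H.index = Nat.card Ω) (hnt : ¬ MulAction.IsPretransitive H Ω) (hfix : ∀ a : Ω, ∃ h : H, h • a ≠ a) : Nat.card (MulAction.orbitRel.Quotient H Ω) = 2 := by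
  classical
  letI := Fintype.ofFinite G
  letI := Fintype.ofFinite Ω
  let X := G ⧸ H
  letI : Fintype X := Fintype.ofFinite _
  have hcardX : Fintype.card X = Fintype.card Ω := by
    rw [← Nat.card_eq_fintype_card, ← Nat.card_eq_fintype_card]
    exact hidx
  have htwo : ∀ a b c d : Ω, a ≠ b → c ≠ d → ∃ y : G, y • a = c ∧ y • b = d := by
    intro a b c d hab hcd
    exact (MulAction.is_two_pretransitive_iff (G := G) (α := Ω)).mp h2 hab hcd
  -- non-trivial quotient
  let Q := MulAction.orbitRel.Quotient H Ω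
  letI : Fintype Q := Fintype.ofFinite _
  have hexists : ∃ a b : Ω, b ∉ orbit H a := by
    by_contra hc
    push Not at hc
    apply hnt
    constructor
    intro a b
    obtain ⟨h, hh⟩ := hc a b
    exact ⟨h, hh⟩
  obtain ⟨a₀, b₀, hab₀⟩ := hexists
  have hn2 : 2 ≤ Fintype.card Ω := by
    have hne : a₀ ≠ b₀ := by
      rintro rfl
      exact hab₀ (mem_orbit_self _)
    exact Fintype.one_lt_card_iff.mpr ⟨a₀, b₀, hne⟩
  haveI htr : IsPretransitive G Ω := by
    constructor
    intro a b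
    by_cases hab : a = b
    · exact ⟨1, by simp [hab]⟩
    · obtain ⟨y, hy, -⟩ := htwo a b b a hab (Ne.symm hab)
      exact ⟨y, hy⟩
  have horbit : ∀ (a c : Ω) (k : H), k • c ∈ orbit H a ↔ c ∈ orbit H a := by
    intro a c k
    constructor
    · rintro ⟨k', hk'⟩
      refine ⟨k⁻¹ * k', ?_⟩
      show (k⁻¹ * k') • a = c
      rw [mul_smul]
      have : k' • a = k • c := hk'
      rw [this, inv_smul_smul]
    · rintro ⟨k', hk'⟩
      refine ⟨k * k', ?_⟩
      show (k * k') • a = k • c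
      rw [mul_smul]
      congr 1
  -- the indicator matrices
  let M : Ω → Matrix X Ω ℚ := fun a x ω => if (Quotient.out x)⁻¹ • ω ∈ orbit H a then 1 else 0
  have hMinv : ∀ a, InvM G (M a) := by
    intro a y x ω
    have h1 : (Quotient.out x)⁻¹ * y⁻¹ * (Quotient.out (y • x)) ∈ H := by
      have h3 : ((y * Quotient.out x : G) : G ⧸ H) = ((Quotient.out (y • x) : G) : G ⧸ H) := by
        rw [QuotientGroup.out_eq']
        conv_rhs => rw [← QuotientGroup.out_eq' x]
        rfl
      have := QuotientGroup.eq.mp h3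
      simpa [_root_.mul_inv_rev, mul_assoc] using this
    set k : H := ⟨_, h1⟩ with hk
    have h4 : (Quotient.out (y • x))⁻¹ • (y • ω) = k⁻¹ • ((Quotient.out x)⁻¹ • ω) := by
      show _ = ((((Quotient.out x)⁻¹ * y⁻¹ * (Quotient.out (y • x)))⁻¹ : G)) • ((Quotient.out x)⁻¹ • ω)
      simp [mul_smul, _root_.mul_inv_rev, mul_assoc]
    have h5 : (Quotient.out (y • x))⁻¹ • (y • ω) ∈ orbit H a ↔ (Quotient.out x)⁻¹ • ω ∈ orbit H a := by
      rw [h4]
      exact horbit a _ k⁻¹
    simp only [M, h5]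
  let s : Ω → ℚ := fun a => ∑ z, if z ∈ orbit H a then (1 : ℚ) else 0
  have hMr : ∀ a x, ∑ ω, M a x ω = s a := by
    intro a x
    exact Equiv.sum_comp (MulAction.toPerm (Quotient.out x)⁻¹) (fun z => if z ∈ orbit H a then (1 : ℚ) else 0)
  have hspos : ∀ a, s a ≠ 0 := by
    intro a
    have h1 : (1 : ℚ) ≤ s a := by
      have h2 := Finset.single_le_sum (f := fun z => if z ∈ orbit H a then (1 : ℚ) else 0)
        (fun z _ => by split_ifs <;> norm_num) (Finset.mem_univ a)
      rw [if_pos (mem_orbit_self a)] at h2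
      exact h2
    linarith
  let x₀ : X := ((1 : G) : G ⧸ H)
  have hM1 : ∀ a, M a x₀ (Quotient.out x₀ • a) = 1 := by
    intro a
    simp [M, mem_orbit_self]
  have hM0 : ∀ a b, b ∉ orbit H a → M a x₀ (Quotient.out x₀ • b) = 0 := by
    intro a b hb
    simp [M, hb]
  -- three orbits are impossible
  have hthree : ∀ a b c : Ω, b ∉ orbit H a → c ∉ orbit H a → c ∉ orbit H b → False := by
    intro a b c hab hac hbc
    have hba : a ∉ orbit H b := by
      intro h
      exact hab ((orbit_eq_iff.mpr h) ▸ mem_orbit_self _)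
    let f : Matrix X Ω ℚ := s b • M a - s a • M b
    let g₀ : Matrix X Ω ℚ := s c • M a - s a • M c
    have hfinv : InvM G f := by
      intro y x ω
      simp only [f, Matrix.sub_apply, Matrix.smul_apply]
      rw [hMinv a y x ω, hMinv b y x ω]
    have hginv : InvM G g₀ := by
      intro y x ω
      simp only [g₀, Matrix.sub_apply, Matrix.smul_apply]
      rw [hMinv a y x ω, hMinv c y x ω]
    have hfr : ∀ x, ∑ ω, f x ω = 0 := by
      intro x
      simp only [f, Matrix.sub_apply, Matrix.smul_apply, smul_eq_mul]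
      rw [Finset.sum_sub_distrib, ← Finset.mul_sum, ← Finset.mul_sum, hMr, hMr]
      ring
    have hgr : ∀ x, ∑ ω, g₀ x ω = 0 := by
      intro x
      simp only [g₀, Matrix.sub_apply, Matrix.smul_apply, smul_eq_mul]
      rw [Finset.sum_sub_distrib, ← Finset.mul_sum, ← Finset.mul_sum, hMr, hMr]
      ring
    have hf0 : f ≠ 0 := by
      intro h
      have h1 := congrFun (congrFun h x₀) (Quotient.out x₀ • a)
      simp only [f, Matrix.sub_apply, Matrix.smul_apply, smul_eq_mul, hM1, Matrix.zero_apply] at h1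
      rw [hM0 b a hba] at h1
      simp only [mul_one, mul_zero, sub_zero] at h1
      exact hspos b h1
    obtain ⟨cf, hcf⟩ := gram_eq htwo hn2 hfinv hfinv hfr
    obtain ⟨cg, hcg⟩ := gram_eq htwo hn2 hfinv hginv hgr
    have hcf0 := nonzero_gram hf0 hfinv hcf hn2
    let E : Matrix X Ω ℚ := cf • g₀ - cg • f
    have hEinv : InvM G E := by
      intro y x ω
      simp only [E, Matrix.sub_apply, Matrix.smul_apply]
      rw [hginv y x ω, hfinv y x ω]
    have hEr : ∀ x, ∑ ω, E x ω = 0 := by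
      intro x
      simp only [E, Matrix.sub_apply, Matrix.smul_apply, smul_eq_mul]
      rw [Finset.sum_sub_distrib, ← Finset.mul_sum, ← Finset.mul_sum, hfr, hgr]
      ring
    have hE0 : E ≠ 0 := by
      intro h
      have h1 := congrFun (congrFun h x₀) (Quotient.out x₀ • c)
      simp only [E, f, g₀, Matrix.sub_apply, Matrix.smul_apply, smul_eq_mul, hM1, Matrix.zero_apply] at h1
      rw [hM0 a c hac, hM0 b c hbc] at h1
      simp only [mul_one, mul_zero, sub_zero, zero_sub, sub_self] at h1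
      have h2 : cf * s a = 0 := by linarith
      rcases mul_eq_zero.mp h2 with h3 | h3
      · exact hcf0 h3
      · exact hspos a h3
    have hfE : fᵀ * E = 0 := by
      rw [Matrix.mul_sub, Matrix.mul_smul, Matrix.mul_smul, hcf, hcg, smul_smul, smul_smul, mul_comm, sub_self]
    obtain ⟨cE, hcE⟩ := gram_eq htwo hn2 hEinv hEinv hEr
    have hcE0 := nonzero_gram hE0 hEinv hcE hn2
    exact no_two hcardX hn2 hfinv hEinv hfr hEr hcf0 hcE0 hcf hcE hfE
  -- conclusion
  have hq : ∀ q₁ q₂ : Q, q₁ ≠ q₂ → Quotient.out q₂ ∉ orbit H (Quotient.out q₁) := by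
    intro q₁ q₂ hne hmem
    apply hne
    have h1 : (Quotient.mk (orbitRel H Ω) (Quotient.out q₂)) = Quotient.mk (orbitRel H Ω) (Quotient.out q₁) :=
      Quotient.sound hmem
    rw [Quotient.out_eq, Quotient.out_eq] at h1
    exact h1.symm
  have hle : Fintype.card Q ≤ 2 := by
    by_contra hc
    push Not at hc
    obtain ⟨q₁, q₂, q₃, h12, h13, h23⟩ := Fintype.two_lt_card_iff.mp hc
    exact hthree _ _ _ (hq _ _ h12) (hq _ _ h13) (hq _ _ h23)
  have hge : 2 ≤ Fintype.card Q := by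
    have hne : (Quotient.mk (orbitRel H Ω) a₀) ≠ Quotient.mk (orbitRel H Ω) b₀ := by
      intro h
      have h1 := Quotient.exact h
      have h2 : a₀ ∈ orbit H b₀ := h1
      exact hab₀ ((orbit_eq_iff.mpr h2) ▸ mem_orbit_self _)
    exact Fintype.one_lt_card_iff.mpr ⟨_, _, hne⟩
  have hfin := Nat.card_eq_fintype_card (α := Q)
  show Nat.card Q = 2
  omega

end Cfsg.Agent.S3704
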