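import Cfsg.Statements.S3707
import Mathlib
import Cfsg.Agent.Lib.Recog.JordanSet

set_option autoImplicit false
open Cfsg

namespace Cfsg.Agent.S3707

open MulAction SubMulAction Cfsg.Agent.Lib.Recog



/-- Let G be a finite primitive permutation group on Ω of degree n and Γ ⊂ Ω a subset with 1 < #Γ ≤ n/2 such that the pointwise stabilizer of Ω ∖ Γ is transitive on Γ. Then G is 3-transitive on Ω. -/
theorem result {G Ω : Type*} [Group G] [Finite G] [MulAction G Ω] [FaithfulSMul G Ω] [Finite Ω] (hprim : MulAction.IsPreprimitive G Ω) (Γ : Set Ω) (h1 : 1 < Γ.ncard) (h2 : 2 * Γ.ncard ≤ Nat.card Ω) (htr : ∀ x ∈ Γ, ∀ y ∈ Γ, ∃ g : G, (∀ z ∉ Γ, g • z = z) ∧ g • x = y) : MulAction.IsMultiplyPretransitive G Ω 3 := by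
  classical
  letI := Fintype.ofFinite G
  letI := Fintype.ofFinite Ω
  have hcompl : Γ.ncard + Γᶜ.ncard = Nat.card Ω := Set.ncard_add_ncard_compl Γ
  have h2' := h2
  set n := Γᶜ.ncard - 1 with hn
  have hsn : Γᶜ.ncard = n + 1 := by omega
  have hsn' : n + 2 < Nat.card Ω := by omega
  have hs_trans : IsPretransitive ↥(fixingSubgroup G Γᶜ) ↥(ofFixingSubgroup G Γᶜ) := by
    constructor
    rintro ⟨x, hx⟩ ⟨y, hy⟩
    have hx' : x ∈ Γ := by
      have h0 : x ∉ Γᶜ := hx
      simpa using h0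
    have hy' : y ∈ Γ := by
      have h0 : y ∉ Γᶜ := hy
      simpa using h0
    obtain ⟨g, hg, hgx⟩ := htr x hx' y hy'
    refine ⟨⟨g, (mem_fixingSubgroup_iff G).mpr (fun z hz => hg z hz)⟩, ?_⟩
    exact Subtype.ext hgx
  have h2t := hprim.is_two_pretransitive hsn hsn' hs_trans
  have h2T : TwoTrans G Ω := by
    intro a b c d hab hcd
    exact is_two_pretransitive_iff.mp h2t hab hcd
  refine isThreeTrans h2T Γ.toFinset ?_ ?_ ?_
  · intro x hx y hy
    obtain ⟨g, hg, hgx⟩ := htr x (by simpa using hx) y (by simpa using hy)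
    exact ⟨g, fun z hz => hg z (by simpa using hz), hgx⟩
  · rw [← Set.ncard_eq_toFinset_card']
    exact h1
  · rw [← Set.ncard_eq_toFinset_card', ← Nat.card_eq_fintype_card]
    exact h2'

end Cfsg.Agent.S3707
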