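import Cfsg.Statements.S3733
-- import your own Cfsg.Agent.* helpers here
import Mathlib
import Cfsg.Agent.Lib.Coprime.Conj

set_option autoImplicit false
open Cfsg

namespace Cfsg.Agent.S3733

open scoped IsMulCommutative
set_option linter.style.haveILetI false

/-- Let A and V be subgroups of a finite group with V abelian and nontrivial and A normalizing V. Suppose a nonempty finite family of proper subgroups of A partitions A: every non-identity element of A lies in exactly one member. If the number of members minus one is coprime to the order of V, then some member B of the family has a non-identity fixed point on V, that is V ∩ C(B) ≠ 1. -/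
theorem result {G : Type*} [Group G] [Finite G] (A V : Subgroup G) (hVab : IsMulCommutative V) (hV : V ≠ ⊥) (hAV : A ≤ Subgroup.normalizer (V : Set G)) (𝒜 : Finset (Subgroup G)) (hne : 𝒜.Nonempty) (hprop : ∀ B ∈ 𝒜, B < A) (hpart : ∀ a ∈ A, a ≠ 1 → ∃! B, B ∈ 𝒜 ∧ a ∈ B) (hk : (𝒜.card - 1).Coprime (Nat.card V)) : ∃ B ∈ 𝒜, V ⊓ Subgroup.centralizer (B : Set G) ≠ ⊥ := by
  classical
  by_contra hcon
  push Not at hcon
  haveI := hVab
  letI : Fintype A := Fintype.ofFinite A
  let ψ : A → V →* V := fun a =>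
    { toFun := fun v => ⟨a * v * (a : G)⁻¹, (Subgroup.mem_normalizer_iff.mp (hAV a.2) v).mp v.2⟩
      map_one' := by
        apply Subtype.ext
        simp
      map_mul' := by
        intro u v
        apply Subtype.ext
        simp [mul_assoc] }
  have hψval : ∀ a (v : V), ((ψ a v : V) : G) = a * v * (a : G)⁻¹ := fun _ _ => rfl
  have hψcomp : ∀ a b (v : V), ψ a (ψ b v) = ψ (a * b) v := by
    intro a b v
    apply Subtype.ext
    simp [hψval, mul_assoc]
  have hψone : ∀ v : V, ψ 1 v = v := by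
    intro v
    apply Subtype.ext
    simp [hψval]
  -- a product over a subgroup `B ≤ A` lies in `C_V(B)`
  have hfix0 : ∀ (S : Finset A) (b : A), (∀ a : A, a ∈ S ↔ b * a ∈ S) → ∀ v : V,
      ψ b (∏ a ∈ S, ψ a v) = ∏ a ∈ S, ψ a v := by
    intro S b hS v
    rw [map_prod]
    refine Finset.prod_equiv (Equiv.mulLeft b) (fun a => hS a) ?_
    intro a _
    rw [hψcomp]
    rfl
  have hcomm_of : ∀ (b : A) (w : V), ψ b w = w → (b : G) * w = w * b := by
    intro b w h1
    have h2 := congrArg Subtype.val h1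
    rw [hψval] at h2
    exact mul_inv_eq_iff_eq_mul.mp h2
  have hfix : ∀ B ∈ 𝒜, ∀ v : V, (∏ a ∈ Finset.univ.filter (fun a : A => (a : G) ∈ B), ψ a v) = 1 := by
    intro B hB v
    set w : V := ∏ a ∈ Finset.univ.filter (fun a : A => (a : G) ∈ B), ψ a v with hw
    have hwC : (w : G) ∈ V ⊓ Subgroup.centralizer (B : Set G) := by
      refine Subgroup.mem_inf.mpr ⟨w.2, ?_⟩
      rw [Subgroup.mem_centralizer_iff]
      intro b hb
      have hbA : b ∈ A := (hprop B hB).le hb
      apply hcomm_of ⟨b, hbA⟩ w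
      rw [hw]
      apply hfix0
      intro a
      simp only [Finset.mem_filter, Finset.mem_univ, true_and, Subgroup.coe_mul]
      exact (Subgroup.mul_mem_cancel_left B hb).symm
    rw [hcon B hB, Subgroup.mem_bot] at hwC
    exact Subtype.ext hwC
  -- the full norm is also trivial
  obtain ⟨B₀, hB₀⟩ := hne
  have hfull : ∀ v : V, (∏ a : A, ψ a v) = 1 := by
    intro v
    set w : V := ∏ a : A, ψ a v with hw
    have hwC : (w : G) ∈ V ⊓ Subgroup.centralizer (B₀ : Set G) := by
      refine Subgroup.mem_inf.mpr ⟨w.2, ?_⟩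
      rw [Subgroup.mem_centralizer_iff]
      intro b hb
      have hbA : b ∈ A := (hprop B₀ hB₀).le hb
      apply hcomm_of ⟨b, hbA⟩ w
      rw [hw]
      apply hfix0
      intro a
      simp
    rw [hcon B₀ hB₀, Subgroup.mem_bot] at hwC
    exact Subtype.ext hwC
  have hn : 1 ≤ 𝒜.card := Finset.card_pos.mpr ⟨B₀, hB₀⟩
  -- multiplicities
  have hcount : ∀ a : A, a ≠ 1 → (𝒜.filter (fun B => (a : G) ∈ B)).card = 1 := by
    intro a ha
    have ha' : (a : G) ≠ 1 := fun h => ha (Subtype.ext h)
    obtain ⟨B, ⟨hB, haB⟩, huniq⟩ := hpart a a.2 ha'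
    rw [Finset.card_eq_one]
    refine ⟨B, ?_⟩
    ext C
    simp only [Finset.mem_filter, Finset.mem_singleton]
    exact ⟨fun hC => huniq C hC, fun hC => hC ▸ ⟨hB, haB⟩⟩
  have hcount1 : (𝒜.filter (fun B => ((1 : A) : G) ∈ B)).card = 𝒜.card := by
    congr 1
    apply Finset.filter_true_of_mem
    intro B _
    exact B.one_mem
  have hkey : ∀ v : V, v ^ (𝒜.card - 1) = 1 := by
    intro v
    have h1 : (∏ B ∈ 𝒜, ∏ a ∈ Finset.univ.filter (fun a : A => (a : G) ∈ B), ψ a v) = 1 :=
      Finset.prod_eq_one (fun B hB => hfix B hB v)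
    have h2 : (∏ B ∈ 𝒜, ∏ a ∈ Finset.univ.filter (fun a : A => (a : G) ∈ B), ψ a v)
        = ∏ a : A, ∏ B ∈ 𝒜.filter (fun B => (a : G) ∈ B), ψ a v := by
      refine Finset.prod_comm' ?_
      intro B a
      simp only [Finset.mem_filter, Finset.mem_univ, true_and]
      tauto
    have h3 : (∏ a : A, ∏ B ∈ 𝒜.filter (fun B => (a : G) ∈ B), ψ a v)
        = ∏ a : A, ((if a = 1 then v ^ (𝒜.card - 1) else 1) * ψ a v) := by
      refine Finset.prod_congr rfl ?_
      intro a _
      rw [Finset.prod_const]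
      by_cases ha : a = 1
      · subst ha
        rw [hcount1, if_pos rfl, hψone, ← pow_succ]
        congr 1
        omega
      · rw [hcount a ha, if_neg ha, pow_one, one_mul]
    rw [Finset.prod_mul_distrib, hfull, mul_one] at h3
    rw [Finset.prod_ite_eq' Finset.univ (1 : A)] at h3
    simp only [Finset.mem_univ, if_true] at h3
    rw [← h3, ← h2, h1]
  apply hV
  rw [eq_bot_iff]
  intro x hx
  have h1 := hkey ⟨x, hx⟩
  have h2 : (⟨x, hx⟩ : V) ^ Nat.card V = 1 := pow_card_eq_one'
  have h3 : orderOf (⟨x, hx⟩ : V) = 1 :=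
    Nat.eq_one_of_dvd_coprimes hk (orderOf_dvd_of_pow_eq_one h1) (orderOf_dvd_of_pow_eq_one h2)
  have h4 : (⟨x, hx⟩ : V) = 1 := orderOf_eq_one_iff.mp h3
  rw [Subgroup.mem_bot]
  exact congrArg Subtype.val h4

end Cfsg.Agent.S3733
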