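import Cfsg.Statements.S3734
-- import your own Cfsg.Agent.* helpers here
import Mathlib
import Cfsg.Agent.Lib.Coprime.Partition

set_option autoImplicit false
open Cfsg

namespace Cfsg.Agent.S3734

open scoped commutatorElement
open Cfsg.Agent.Lib.Coprime

/-- Let A and G be subgroups of a finite group with A abelian, A normalizing G and the orders of A and G coprime. Then G is generated by the fixed-point subgroups C_G(B) of those subgroups B of A for which A/B is cyclic (that is, A = ⟨B, a⟩ for some a), and [G, A] is generated by the commutator subgroups [C_G(B), A] over the same subgroups B. -/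
theorem result {X : Type*} [Group X] [Finite X] (A G : Subgroup X) (hAab : IsMulCommutative A) (hAG : A ≤ Subgroup.normalizer (G : Set X)) (hcop : (Nat.card A).Coprime (Nat.card G)) : (⨆ B ∈ {B : Subgroup X | B ≤ A ∧ ∃ a ∈ A, B ⊔ Subgroup.zpowers a = A}, G ⊓ Subgroup.centralizer (B : Set X)) = G ∧ (⨆ B ∈ {B : Subgroup X | B ≤ A ∧ ∃ a ∈ A, B ⊔ Subgroup.zpowers a = A}, ⁅G ⊓ Subgroup.centralizer (B : Set X), A⁆) = ⁅G, A⁆ := by
  have hsolvA : Group.IsSolvable A := by
    have hab := (commutative_iff_mem_comm A).mp hAab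
    refine Group.isSolvable_of_comm ?_
    intro a b
    exact Subtype.ext (hab a a.2 b b.2)
  have hact : CoprimeAction A G := ⟨hAG, hcop, Or.inl hsolvA⟩
  have hfirst := le_iSup_centralizer_of_abelian_action hAab _ G rfl hAG hcop
  have hfirst' : (⨆ B ∈ {B : Subgroup X | B ≤ A ∧ ∃ a ∈ A, B ⊔ Subgroup.zpowers a = A}, G ⊓ Subgroup.centralizer (B : Set X)) = G :=
    le_antisymm (iSup₂_le (fun B _ => inf_le_left)) hfirst
  refine ⟨hfirst', ?_⟩
  -- notation
  let ℬ : Set (Subgroup X) := {B : Subgroup X | B ≤ A ∧ ∃ a ∈ A, B ⊔ Subgroup.zpowers a = A}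
  let Y : Subgroup X := ⨆ B ∈ ℬ, ⁅G ⊓ Subgroup.centralizer (B : Set X), A⁆
  let CA : Subgroup X := G ⊓ Subgroup.centralizer (A : Set X)
  have hcomm : ∀ a ∈ A, ∀ b ∈ A, a * b = b * a := (commutative_iff_mem_comm A).mp hAab
  -- `C_G(B)` is `A`-invariant
  have hAGB : ∀ B ∈ ℬ, A ≤ Subgroup.normalizer ((G ⊓ Subgroup.centralizer (B : Set X) : Subgroup X) : Set X) := by
    intro B hB a ha
    apply mem_normalizer_of_conj_le
    intro x hx
    obtain ⟨hx1, hx2⟩ := Subgroup.mem_inf.mp hx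
    refine Subgroup.mem_inf.mpr ⟨(Subgroup.mem_normalizer_iff.mp (hAG ha) x).mp hx1, ?_⟩
    rw [Subgroup.mem_centralizer_iff]
    intro b hb
    have hbA : b ∈ A := hB.1 hb
    have h1 := Subgroup.mem_centralizer_iff.mp hx2 b hb
    have h2 := hcomm a ha b hbA
    have h3 : b * a⁻¹ = a⁻¹ * b := by
      calc b * a⁻¹ = a⁻¹ * (a * b) * a⁻¹ := by group
        _ = a⁻¹ * (b * a) * a⁻¹ := by rw [h2]
        _ = a⁻¹ * b := by group
    calc b * (a * x * a⁻¹) = (b * a) * x * a⁻¹ := by group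
      _ = a * (b * x) * a⁻¹ := by rw [← h2]; group
      _ = a * (x * b) * a⁻¹ := by rw [h1]
      _ = a * x * (b * a⁻¹) := by group
      _ = a * x * (a⁻¹ * b) := by rw [h3]
      _ = a * x * a⁻¹ * b := by group
  have hactB : ∀ B ∈ ℬ, CoprimeAction A (G ⊓ Subgroup.centralizer (B : Set X)) :=
    fun B hB => hact.mono inf_le_left (hAGB B hB)
  have hYle : Y ≤ ⁅G, A⁆ := iSup₂_le (fun B _ => Subgroup.commutator_mono inf_le_left le_rfl)
  have hYG : Y ≤ G := hYle.trans hact.commutator_le_self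
  -- `A` normalizes `Y`
  have hYA : A ≤ Subgroup.normalizer (Y : Set X) := by
    intro a ha
    apply mem_normalizer_of_conj_le
    have : Y ≤ Y.comap (MulAut.conj a).toMonoidHom := by
      refine iSup₂_le (fun B hB => ?_)
      intro x hx
      rw [Subgroup.mem_comap]
      have h1 := (hactB B hB).le_normalizer_commutator ha
      have h2 := (Subgroup.mem_normalizer_iff.mp h1 x).mp hx
      have h3 : ⁅G ⊓ Subgroup.centralizer (B : Set X), A⁆ ≤ Y :=
        le_iSup₂_of_le (f := fun (B : Subgroup X) _ => ⁅G ⊓ Subgroup.centralizer (B : Set X), A⁆) B hB le_rfl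
      exact h3 h2
    intro x hx
    have := this hx
    simpa [MulAut.conj_apply] using this
  -- `C_G(A)` normalizes `Y`
  have hYC : CA ≤ Subgroup.normalizer (Y : Set X) := by
    intro c hc
    obtain ⟨hc1, hc2⟩ := Subgroup.mem_inf.mp hc
    apply mem_normalizer_of_conj_le
    have : Y ≤ Y.comap (MulAut.conj c).toMonoidHom := by
      refine iSup₂_le (fun B hB => ?_)
      intro x hx
      rw [Subgroup.mem_comap]
      have hcB : c ∈ G ⊓ Subgroup.centralizer (B : Set X) := by
        refine Subgroup.mem_inf.mpr ⟨hc1, ?_⟩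
        rw [Subgroup.mem_centralizer_iff]
        intro b hb
        exact Subgroup.mem_centralizer_iff.mp hc2 b (hB.1 hb)
      have h1 := (hactB B hB).le_normalizer_commutator' hcB
      have h2 := (Subgroup.mem_normalizer_iff.mp h1 x).mp hx
      have h3 : ⁅G ⊓ Subgroup.centralizer (B : Set X), A⁆ ≤ Y :=
        le_iSup₂_of_le (f := fun (B : Subgroup X) _ => ⁅G ⊓ Subgroup.centralizer (B : Set X), A⁆) B hB le_rfl
      exact h3 h2
    intro x hx
    have := this hx
    simpa [MulAut.conj_apply] using this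
  -- `G = Y C_G(A)`
  have hGY : G ≤ Y ⊔ CA := by
    refine hfirst.trans (iSup₂_le (fun B hB => ?_))
    intro x hx
    obtain ⟨n, hn, c, hc, rfl⟩ := (hactB B hB).exists_commutator_mul_centralizer hx
    have hnY : n ∈ Y :=
      (le_iSup₂_of_le (f := fun (B : Subgroup X) _ => ⁅G ⊓ Subgroup.centralizer (B : Set X), A⁆) B hB le_rfl) hn
    have hcCA : c ∈ CA := by
      obtain ⟨hc1, hc2⟩ := Subgroup.mem_inf.mp hc
      exact Subgroup.mem_inf.mpr ⟨(Subgroup.mem_inf.mp hc1).1, hc2⟩
    exact Subgroup.mul_mem_sup hnY hcCA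
  apply le_antisymm hYle
  rw [Subgroup.commutator_le]
  intro x hx a ha
  obtain ⟨y, hy, c, hc, rfl⟩ := (mem_sup_iff_of_le_normalizer hYC x).mp (hGY hx)
  have hca : c * a = a * c := (Subgroup.mem_centralizer_iff.mp (Subgroup.mem_inf.mp hc).2 a ha).symm
  have h1 : ⁅y * c, a⁆ = y * (a * y⁻¹ * a⁻¹) := by
    rw [commutatorElement_def]
    calc y * c * a * (y * c)⁻¹ * a⁻¹ = y * (c * a) * c⁻¹ * y⁻¹ * a⁻¹ := by group
      _ = y * (a * c) * c⁻¹ * y⁻¹ * a⁻¹ := by rw [hca]
      _ = y * (a * y⁻¹ * a⁻¹) := by group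
  rw [h1]
  exact Y.mul_mem hy ((Subgroup.mem_normalizer_iff.mp (hYA ha) y⁻¹).mp (Y.inv_mem hy))

end Cfsg.Agent.S3734
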