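import Cfsg.Statements.S3735
-- import your own Cfsg.Agent.* helpers here
import Mathlib
import Cfsg.Agent.Lib.Coprime.Action

set_option autoImplicit false
open Cfsg

namespace Cfsg.Agent.S3735

open Cfsg.Agent.Lib.Coprime

/-- Clifford's Theorem for actions on finite abelian groups, first part. Let H and V be subgroups of a finite group with V abelian and H normalizing V, and let A be a normal subgroup of H. If every H-invariant subgroup of V has an H-invariant complement in V, then every A-invariant subgroup of V has an A-invariant complement in V. -/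
theorem result {G : Type*} [Group G] [Finite G] (H A V : Subgroup G) (hVab : IsMulCommutative V) (hHV : H ≤ Subgroup.normalizer (V : Set G)) (hAH : A ≤ H) (hAn : H ≤ Subgroup.normalizer (A : Set G)) (hss : ∀ U : Subgroup G, U ≤ V → H ≤ Subgroup.normalizer (U : Set G) → ∃ W : Subgroup G, W ≤ V ∧ H ≤ Subgroup.normalizer (W : Set G) ∧ U ⊓ W = ⊥ ∧ U ⊔ W = V) (U : Subgroup G) (hUV : U ≤ V) (hAU : A ≤ Subgroup.normalizer (U : Set G)) : ∃ W : Subgroup G, W ≤ V ∧ A ≤ Subgroup.normalizer (W : Set G) ∧ U ⊓ W = ⊥ ∧ U ⊔ W = V := by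
  classical
  have hcomm : ∀ a ∈ V, ∀ b ∈ V, a * b = b * a := (commutative_iff_mem_comm V).mp hVab
  -- A-invariant
  let Inv : Subgroup G → Prop := fun W => W ≤ V ∧ A ≤ Subgroup.normalizer (W : Set G)
  have hAV : A ≤ Subgroup.normalizer (V : Set G) := hAH.trans hHV
  have hInvSup : ∀ W₁ W₂, Inv W₁ → Inv W₂ → Inv (W₁ ⊔ W₂) := by
    intro W₁ W₂ h₁ h₂
    refine ⟨sup_le h₁.1 h₂.1, ?_⟩
    intro a ha
    rw [← conj_map_eq_iff_mem_normalizer, Subgroup.map_sup,
      (conj_map_eq_iff_mem_normalizer W₁ a).mpr (h₁.2 ha),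
      (conj_map_eq_iff_mem_normalizer W₂ a).mpr (h₂.2 ha)]
  have hInvInf : ∀ W₁ W₂, Inv W₁ → Inv W₂ → Inv (W₁ ⊓ W₂) := by
    intro W₁ W₂ h₁ h₂
    refine ⟨inf_le_left.trans h₁.1, ?_⟩
    intro a ha
    rw [Subgroup.mem_normalizer_iff]
    intro x
    simp only [Subgroup.mem_inf]
    rw [Subgroup.mem_normalizer_iff.mp (h₁.2 ha) x, Subgroup.mem_normalizer_iff.mp (h₂.2 ha) x]
  have hInvBot : Inv ⊥ := by
    refine ⟨bot_le, ?_⟩
    intro a _
    rw [← conj_map_eq_iff_mem_normalizer]
    simp
  -- conjugation by `H` preserves invariance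
  have hInvConj : ∀ h ∈ H, ∀ W, Inv W → Inv (W.map (MulAut.conj h).toMonoidHom) := by
    intro h hh W hW
    refine ⟨?_, ?_⟩
    · rw [← (conj_map_eq_iff_mem_normalizer V h).mpr (hHV hh)]
      exact Subgroup.map_mono hW.1
    · intro a ha
      have h1 : h⁻¹ * a * h ∈ A := by
        have := (Subgroup.mem_normalizer_iff.mp (H.inv_mem hh |> hAn) a).mp ha
        simpa using this
      rw [← conj_map_eq_iff_mem_normalizer, conj_map_conj_map]
      have h2 := (conj_map_eq_iff_mem_normalizer W _).mpr (hW.2 h1)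
      have h3 : a * h = h * (h⁻¹ * a * h) := by group
      rw [h3, ← conj_map_conj_map, h2]
  -- atoms
  let IsAtomA : Subgroup G → Prop := fun T => Inv T ∧ T ≠ ⊥ ∧ ∀ T' : Subgroup G, Inv T' → T' ≤ T → T' = ⊥ ∨ T' = T
  -- every nontrivial invariant subgroup contains an atom
  have hatom : ∀ W : Subgroup G, Inv W → W ≠ ⊥ → ∃ T, IsAtomA T ∧ T ≤ W := by
    intro W hW hne
    let F : Set (Subgroup G) := {T | Inv T ∧ T ≠ ⊥ ∧ T ≤ W}
    have hF : F.Nonempty := ⟨W, hW, hne, le_rfl⟩
    obtain ⟨T, hT, hmin⟩ := (Set.toFinite F).exists_minimal hF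
    refine ⟨T, ⟨hT.1, hT.2.1, ?_⟩, hT.2.2⟩
    intro T' hT' hle
    by_cases hb : T' = ⊥
    · exact Or.inl hb
    · right
      exact le_antisymm hle (hmin ⟨hT', hb, hle.trans hT.2.2⟩ hle)
  -- the join of all atoms is `V`
  let Z : Subgroup G := sSup {T | IsAtomA T}
  have hZV : Z ≤ V := sSup_le (fun T hT => hT.1.1)
  have hconjAtom : ∀ h ∈ H, ∀ T, IsAtomA T → IsAtomA (T.map (MulAut.conj h).toMonoidHom) := by
    intro h hh T hT
    refine ⟨hInvConj h hh T hT.1, ?_, ?_⟩
    · intro hb
      apply hT.2.1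
      rw [eq_bot_iff]
      intro x hx
      have h1 : h * x * h⁻¹ ∈ T.map (MulAut.conj h).toMonoidHom := conj_mem_conj_map T h x hx
      rw [hb, Subgroup.mem_bot] at h1
      rw [Subgroup.mem_bot]
      have h2 : h * x = h := mul_inv_eq_one.mp h1
      exact mul_eq_left.mp h2
    · intro T' hT' hle
      have h1 : Inv (T'.map (MulAut.conj h⁻¹).toMonoidHom) := hInvConj _ (H.inv_mem hh) T' hT'
      have h2 : T'.map (MulAut.conj h⁻¹).toMonoidHom ≤ T := by
        intro x hx
        rw [mem_conj_map, inv_inv] at hx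
        have := hle hx
        rw [mem_conj_map] at this
        simpa [mul_assoc] using this
      rcases hT.2.2 _ h1 h2 with h3 | h3
      · left
        rw [eq_bot_iff]
        intro x hx
        have h4 : h⁻¹ * x * h⁻¹⁻¹ ∈ T'.map (MulAut.conj h⁻¹).toMonoidHom := conj_mem_conj_map T' h⁻¹ x hx
        rw [h3, Subgroup.mem_bot] at h4
        rw [Subgroup.mem_bot]
        have h5 : h⁻¹ * x = h⁻¹ := by
          have := mul_inv_eq_one.mp h4
          simpa using this
        exact mul_eq_left.mp h5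
      · right
        rw [← h3, conj_map_conj_map, mul_inv_cancel, conj_map_one]
  have hZH : H ≤ Subgroup.normalizer (Z : Set G) := by
    intro h hh
    apply mem_normalizer_of_conj_le
    have : Z ≤ Z.comap (MulAut.conj h).toMonoidHom := by
      refine sSup_le (fun T hT => ?_)
      intro x hx
      rw [Subgroup.mem_comap]
      have hmem : T.map (MulAut.conj h).toMonoidHom ≤ Z :=
        le_sSup (show T.map (MulAut.conj h).toMonoidHom ∈ {T | IsAtomA T} from hconjAtom h hh T hT)
      exact hmem (Subgroup.mem_map_of_mem _ hx)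
    intro x hx
    have := this hx
    simpa [MulAut.conj_apply] using this
  have hZeq : Z = V := by
    obtain ⟨W, hWV, hWH, hinf, hsup⟩ := hss Z hZV hZH
    by_cases hWb : W = ⊥
    · rw [hWb, sup_bot_eq] at hsup
      exact hsup
    · exfalso
      obtain ⟨T, hT, hTW⟩ := hatom W ⟨hWV, hAH.trans hWH⟩ hWb
      have hTZ : T ≤ Z := le_sSup hT
      apply hT.2.1
      rw [eq_bot_iff, ← hinf]
      exact le_inf hTZ hTW
  -- take a maximal complement
  let F : Set (Subgroup G) := {W | Inv W ∧ U ⊓ W = ⊥}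
  have hF : F.Nonempty := ⟨⊥, hInvBot, inf_bot_eq U⟩
  obtain ⟨W, hW, hmax⟩ := (Set.toFinite F).exists_maximal hF
  have hUinv : Inv U := ⟨hUV, hAU⟩
  have hUW : Inv (U ⊔ W) := hInvSup U W hUinv hW.1
  have hTle : ∀ T, IsAtomA T → T ≤ U ⊔ W := by
    intro T hT
    have hinfinv : Inv (T ⊓ (U ⊔ W)) := hInvInf _ _ hT.1 hUW
    rcases hT.2.2 _ hinfinv inf_le_left with h1 | h1
    · -- `T ∩ (U W) = 1`
      have hW' : Inv (W ⊔ T) := hInvSup W T hW.1 hT.1
      have hnorm : T ≤ Subgroup.normalizer (W : Set G) := by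
        intro t ht
        rw [Subgroup.mem_normalizer_iff]
        intro x
        constructor
        · intro hx
          have h2 := hcomm t (hT.1.1 ht) x (hW.1.1 hx)
          rw [h2]
          simpa using hx
        · intro hx
          by_cases hxV : x ∈ V
          · have h2 := hcomm t (hT.1.1 ht) x hxV
            rw [h2] at hx
            simpa using hx
          · exfalso
            apply hxV
            have h3 := hW.1.1 hx
            have h4 := V.mul_mem (V.mul_mem (V.inv_mem (hT.1.1 ht)) h3) (hT.1.1 ht)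
            simpa [mul_assoc] using h4
      have hinf' : U ⊓ (W ⊔ T) = ⊥ := by
        rw [eq_bot_iff]
        intro x hx
        obtain ⟨hxU, hxWT⟩ := Subgroup.mem_inf.mp hx
        obtain ⟨w, hw, t, ht, rfl⟩ := (mem_sup_iff_of_le_normalizer hnorm x).mp hxWT
        have ht1 : t = w⁻¹ * (w * t) := by group
        have htmem : t ∈ T ⊓ (U ⊔ W) := by
          refine Subgroup.mem_inf.mpr ⟨ht, ?_⟩
          rw [ht1, sup_comm]
          exact Subgroup.mul_mem_sup (W.inv_mem hw) hxU
        rw [h1, Subgroup.mem_bot] at htmem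
        subst htmem
        rw [mul_one] at hxU ⊢
        have : w ∈ U ⊓ W := Subgroup.mem_inf.mpr ⟨hxU, hw⟩
        rwa [hW.2] at this
      have hle := hmax ⟨hW', hinf'⟩ le_sup_left
      exact (le_sup_right.trans hle).trans le_sup_right
    · rw [← h1]
      exact inf_le_right
  refine ⟨W, hW.1.1, hW.1.2, hW.2, le_antisymm (sup_le hUV hW.1.1) ?_⟩
  rw [← hZeq]
  exact sSup_le (fun T hT => hTle T hT)

end Cfsg.Agent.S3735
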