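import Cfsg.Statements.S3736
-- import your own Cfsg.Agent.* helpers here
import Mathlib
import Cfsg.Agent.Lib.Coprime.Comm

set_option autoImplicit false
open Cfsg

namespace Cfsg.Agent.S3736

open scoped commutatorElement

/-- The Hall–Higman reduction for a minimal non-trivial action. Let B, A and P be subgroups of a finite group with P a p-group, B normalizing P, and A a normal subgroup of B of order prime to p. Suppose A does not centralize P but centralizes every proper B-invariant subgroup of P. Then [P, A] = P; P is elementary abelian or special; B acts irreducibly on P/Φ(P), that is, the only B-invariant subgroups of P containing Φ(P) are Φ(P) and P; and if p is odd then every element of P has order dividing p. -/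
theorem result {X : Type*} [Group X] [Finite X] {p : ℕ} [Fact p.Prime] (B A P : Subgroup X) (hP : IsPGroup p P) (hBP : B ≤ Subgroup.normalizer (P : Set X)) (hAB : A ≤ B) (hAn : B ≤ Subgroup.normalizer (A : Set X)) (hAp : (Nat.card A).Coprime p) (hnt : ⁅P, A⁆ ≠ ⊥) (hmin : ∀ U : Subgroup X, U < P → B ≤ Subgroup.normalizer (U : Set X) → ⁅U, A⁆ = ⊥) : ⁅P, A⁆ = P ∧ (Cfsg.IsElementaryAbelian p P ∨ Cfsg.IsSpecial p ↥P) ∧ (∀ U : Subgroup X, (frattini ↥P).map P.subtype ≤ U → U ≤ P → B ≤ Subgroup.normalizer (U : Set X) → U = (frattini ↥P).map P.subtype ∨ U = P) ∧ (p ≠ 2 → ∀ x ∈ P, x ^ p = 1) := by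
  open Cfsg.Agent.Lib.Coprime in
  have hact : CoprimeAction A P := coprimeAction_of_isPGroup hP hAp (hAB.trans hBP)
  open Cfsg.Agent.Lib.Coprime in
  have hBA : B ≤ Subgroup.normalizer ((⁅P, A⁆ : Subgroup X) : Set X) :=
    fun b hb => mem_normalizer_commutator (hBP hb) (hAn hb)
  -- Step 1
  have hcomm : ⁅P, A⁆ = P := by
    by_contra hne
    have h1 := hmin ⁅P, A⁆ (lt_of_le_of_ne hact.commutator_le_self hne) hBA
    exact hnt (hact.commutator_eq_bot_of_commutator_commutator h1)
  have hPne : P ≠ ⊥ := by
    rintro rfl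
    exact hnt (Subgroup.commutator_bot_left _)
  -- Frattini subgroup
  let Φ : Subgroup X := (frattini ↥P).map P.subtype
  have hΦle : Φ ≤ P := Subgroup.map_subtype_le _
  open Cfsg.Agent.Lib.Coprime in
  have hΦB : B ≤ Subgroup.normalizer (Φ : Set X) :=
    fun a ha => mem_normalizer_map_of_characteristic P (frattini ↥P) (hBP ha)
  open Cfsg.Agent.Lib.Coprime in
  have hΦP : P ≤ Subgroup.normalizer (Φ : Set X) :=
    fun a ha => mem_normalizer_map_of_characteristic P (frattini ↥P) (Subgroup.le_normalizer ha)
  open Cfsg.Agent.Lib.Coprime in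
  have hΦne : Φ ≠ P := frattini_map_ne hPne
  have hΦc : ⁅Φ, A⁆ = ⊥ := hmin Φ (lt_of_le_of_ne hΦle hΦne) hΦB
  have hΦC : Φ ≤ P ⊓ Subgroup.centralizer (A : Set X) := by
    intro x hx
    refine Subgroup.mem_inf.mpr ⟨hΦle hx, ?_⟩
    rw [Subgroup.mem_centralizer_iff]
    intro a ha
    have h1 := Subgroup.commutator_mem_commutator hx ha
    rw [hΦc, Subgroup.mem_bot, commutatorElement_eq_one_iff_mul_comm] at h1
    exact h1.symm
  -- the derived subgroup
  have hD : (commutator ↥P).map P.subtype = ⁅P, P⁆ := by
    have h4 : (⊤ : Subgroup ↥P).map P.subtype = P := by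
      rw [← MonoidHom.range_eq_map, Subgroup.range_subtype]
    rw [commutator_def, Subgroup.map_commutator, h4]
  haveI hPnil : Group.IsNilpotent P := hP.isNilpotent
  have hP'Φ : ⁅P, P⁆ ≤ Φ := by
    rw [← hD]
    exact Subgroup.map_mono Cfsg.Agent.Lib.Basic.commutator_le_frattini_of_isNilpotent
  have hP'le : ⁅P, P⁆ ≤ P := hP'Φ.trans hΦle
  open Cfsg.Agent.Lib.Coprime in
  have hP'A : A ≤ Subgroup.normalizer ((⁅P, P⁆ : Subgroup X) : Set X) :=
    fun a ha => mem_normalizer_commutator (hAB.trans hBP ha) (hAB.trans hBP ha)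
  open Cfsg.Agent.Lib.Coprime in
  have hP'P : P ≤ Subgroup.normalizer ((⁅P, P⁆ : Subgroup X) : Set X) :=
    fun a ha => mem_normalizer_commutator (Subgroup.le_normalizer ha) (Subgroup.le_normalizer ha)
  have hCP' : P ⊓ Subgroup.centralizer (A : Set X) ≤ ⁅P, P⁆ :=
    hact.centralizer_le_of_commutator_eq hP'le hP'A hP'P le_rfl hcomm
  have hΦD : Φ = ⁅P, P⁆ := le_antisymm (hΦC.trans hCP') hP'Φ
  have hCΦ : P ⊓ Subgroup.centralizer (A : Set X) = Φ :=
    le_antisymm (hCP'.trans hP'Φ) hΦC
  -- `Φ` is central in `P`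
  have hΦcent : ⁅P, Φ⁆ = ⊥ := by
    have h3 : ⁅⁅P, A⁆, Φ⁆ = ⊥ := by
      apply Subgroup.commutator_commutator_eq_bot_of_rotate
      · rw [Subgroup.commutator_comm A Φ, hΦc]
        exact Subgroup.commutator_bot_left _
      · rw [eq_bot_iff, ← hΦc]
        apply Subgroup.commutator_mono _ le_rfl
        rw [Subgroup.commutator_le]
        intro x hx y hy
        have h1 : y * x⁻¹ * y⁻¹ ∈ Φ :=
          (Subgroup.mem_normalizer_iff.mp (hΦP hy) x⁻¹).mp (Φ.inv_mem hx)
        have h2 := Φ.mul_mem hx h1
        simpa [commutatorElement_def, mul_assoc] using h2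
    rwa [hcomm] at h3
  have hcentral : ∀ z ∈ Φ, ∀ y ∈ P, z * y = y * z := by
    intro z hz y hy
    have h1 := Subgroup.commutator_mem_commutator hy hz
    rw [hΦcent, Subgroup.mem_bot, commutatorElement_eq_one_iff_mul_comm] at h1
    exact h1.symm
  have hpow : ∀ x ∈ P, x ^ p ∈ Φ := by
    intro x hx
    have h1 := Cfsg.Agent.Lib.Basic.pow_mem_frattini_of_isPGroup hP (⟨x, hx⟩ : P)
    exact ⟨_, h1, by simp⟩
  refine ⟨hcomm, ?_, ?_, ?_⟩
  · -- elementary abelian or special
    by_cases hab : ⁅P, P⁆ = ⊥
    · left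
      have hΦbot : Φ = ⊥ := by rw [hΦD, hab]
      refine ⟨?_, ?_⟩
      · rw [Cfsg.Agent.Lib.Coprime.commutative_iff_mem_comm]
        intro a ha b hb
        have h1 := Subgroup.commutator_mem_commutator ha hb
        rw [hab, Subgroup.mem_bot, commutatorElement_eq_one_iff_mul_comm] at h1
        exact h1
      · intro a ha
        have := hpow a ha
        rwa [hΦbot, Subgroup.mem_bot] at this
    · right
      have hZ : (Subgroup.center ↥P).map P.subtype ≤ P := Subgroup.map_subtype_le _
      have hZne : (Subgroup.center ↥P).map P.subtype ≠ P := by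
        intro he
        apply hab
        rw [eq_bot_iff, Subgroup.commutator_le]
        intro x hx y hy
        rw [← he] at hy
        obtain ⟨z, hz, rfl⟩ := hy
        rw [Subgroup.mem_bot, commutatorElement_eq_one_iff_mul_comm]
        have := (Subgroup.mem_center_iff.mp hz) ⟨x, hx⟩
        exact congrArg Subtype.val this
      open Cfsg.Agent.Lib.Coprime in
      have hZB : B ≤ Subgroup.normalizer (((Subgroup.center ↥P).map P.subtype : Subgroup X) : Set X) :=
        fun a ha => mem_normalizer_map_of_characteristic P (Subgroup.center ↥P) (hBP ha)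
      have hZc := hmin _ (lt_of_le_of_ne hZ hZne) hZB
      have hZle : (Subgroup.center ↥P).map P.subtype ≤ Φ := by
        rw [← hCΦ]
        intro x hx
        refine Subgroup.mem_inf.mpr ⟨hZ hx, ?_⟩
        rw [Subgroup.mem_centralizer_iff]
        intro a ha
        have h1 := Subgroup.commutator_mem_commutator hx ha
        rw [hZc, Subgroup.mem_bot, commutatorElement_eq_one_iff_mul_comm] at h1
        exact h1.symm
      have hΦZ : frattini ↥P = Subgroup.center ↥P := by
        apply le_antisymm
        · intro x hx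
          rw [Subgroup.mem_center_iff]
          intro y
          apply Subtype.ext
          exact (hcentral x ⟨x, hx, rfl⟩ y y.2).symm
        · intro x hx
          have h1 : (x : X) ∈ Φ := hZle ⟨x, hx, rfl⟩
          obtain ⟨w, hw, hwx⟩ := h1
          have : w = x := Subtype.ext hwx
          rwa [← this]
      have hDF : commutator ↥P = frattini ↥P := by
        apply Subgroup.map_injective P.subtype_injective
        rw [hD]
        exact hΦD.symm
      exact ⟨hP, hΦZ, hDF.trans hΦZ⟩
  · -- irreducibility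
    intro U hΦU hUP hBU
    by_cases hne : U = P
    · exact Or.inr hne
    · left
      have hc := hmin U (lt_of_le_of_ne hUP hne) hBU
      apply le_antisymm _ hΦU
      change U ≤ Φ
      rw [← hCΦ]
      intro x hx
      refine Subgroup.mem_inf.mpr ⟨hUP hx, ?_⟩
      rw [Subgroup.mem_centralizer_iff]
      intro a ha
      have h1 := Subgroup.commutator_mem_commutator hx ha
      rw [hc, Subgroup.mem_bot, commutatorElement_eq_one_iff_mul_comm] at h1
      exact h1.symm
  · -- exponent
    intro hp2
    have hp3 : 2 < p := lt_of_le_of_ne (Fact.out : p.Prime).two_le (Ne.symm hp2)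
    have hmulpow : ∀ x ∈ P, ∀ y ∈ P, (x * y) ^ p = x ^ p * y ^ p := by
      intro x hx y hy
      let c : X := y * x * y⁻¹ * x⁻¹
      have hcΦ : c ∈ Φ := by
        rw [hΦD]
        exact Subgroup.commutator_mem_commutator hy hx
      have hc : y * x = c * x * y := by
        simp only [c]
        group
      have hcx : c * x = x * c := hcentral c hcΦ x hx
      have hcy : c * y = y * c := hcentral c hcΦ y hy
      have h1 := Cfsg.Agent.Lib.Coprime.mul_pow_of_commutator_central x y c hc hcx hcy p
      have h2 := Cfsg.Agent.Lib.Coprime.conj_pow_of_commutator_central x y c hc hcx p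
      have hxp := hpow x hx
      have h3 : y * x ^ p * y⁻¹ = x ^ p := by
        rw [← hcentral _ hxp y hy]
        group
      rw [h3] at h2
      have hcp : c ^ p = 1 := by
        have := mul_eq_right.mp h2.symm
        exact this
      have hdvd : p ∣ p.choose 2 := (Fact.out : p.Prime).dvd_choose_self (by norm_num) hp3
      obtain ⟨k, hk⟩ := hdvd
      rw [h1, hk, pow_mul, hcp, one_pow, mul_one]
    let K : Subgroup X :=
      { carrier := {x | x ∈ P ∧ x ^ p = 1}
        one_mem' := ⟨P.one_mem, one_pow p⟩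
        mul_mem' := by
          rintro a b ⟨ha, ha'⟩ ⟨hb, hb'⟩
          exact ⟨P.mul_mem ha hb, by rw [hmulpow a ha b hb, ha', hb', one_mul]⟩
        inv_mem' := by
          rintro a ⟨ha, ha'⟩
          exact ⟨P.inv_mem ha, by rw [inv_pow, ha', inv_one]⟩ }
    have hle : ⁅P, A⁆ ≤ K := by
      rw [Subgroup.commutator_le]
      intro x hx a ha
      have hb : a * x⁻¹ * a⁻¹ ∈ P :=
        (Subgroup.mem_normalizer_iff.mp (hAB.trans hBP ha) x⁻¹).mp (P.inv_mem hx)
      refine ⟨?_, ?_⟩
      · have := P.mul_mem hx hb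
        simpa [commutatorElement_def, mul_assoc] using this
      · have h1 : ⁅x, a⁆ = x * (a * x⁻¹ * a⁻¹) := by
          simp [commutatorElement_def, mul_assoc]
        rw [h1, hmulpow x hx _ hb, conj_pow]
        have hxp := hpow x hx
        have hxC : x⁻¹ ^ p ∈ P ⊓ Subgroup.centralizer (A : Set X) := by
          rw [hCΦ, inv_pow]
          exact Φ.inv_mem hxp
        have h2 := Subgroup.mem_centralizer_iff.mp (Subgroup.mem_inf.mp hxC).2 a ha
        have h3 : a * x⁻¹ ^ p * a⁻¹ = x⁻¹ ^ p := by
          rw [h2]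
          group
        rw [h3, inv_pow, mul_inv_cancel]
    intro x hx
    rw [← hcomm] at hx
    exact (hle hx).2

end Cfsg.Agent.S3736
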