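import Cfsg.Statements.S3737
-- import your own Cfsg.Agent.* helpers here
import Mathlib
import Cfsg.Agent.Lib.Coprime.Baer
import Cfsg.Agent.Lib.Coprime.Comm
import Cfsg.Agent.Lib.Transfer.Frattini

set_option autoImplicit false
open Cfsg

namespace Cfsg.Agent.S3737

open Subgroup Cfsg.Agent.Lib.Coprime Cfsg.Agent.Lib.Coprime.Baer
open scoped commutatorElement

theorem class2_case {X : Type*} [Group X] [Finite X] {p : ℕ} [Fact p.Prime] (hp : p ≠ 2) (P Q G : Subgroup X)
    (hP : IsPGroup p P) (hQ : (Nat.card Q).Coprime p) (hPQ : P ≤ normalizer (Q : Set X)) (hG : IsPGroup p G)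
    (hPG : P ≤ normalizer (G : Set X)) (hQG : Q ≤ normalizer (G : Set X))
    (hC : G ⊓ centralizer (P : Set X) ≤ centralizer (Q : Set X))
    (hcen : ∀ x y z : G, ⁅x, y⁆ * z = z * ⁅x, y⁆) : Q ≤ centralizer (G : Set X) := by
  have hpp : p.Prime := Fact.out
  obtain ⟨k, hk⟩ := IsPGroup.iff_card.mp hG
  have hodd : Odd (Nat.card G) := by
    rw [hk]
    exact (hpp.odd_of_ne_two hp).pow
  obtain ⟨h, hh⟩ : ∃ h, 2 * h = Nat.card G + 1 := by
    obtain ⟨c, hc⟩ := hodd
    exact ⟨c + 1, by omega⟩
  have H : Hyp G h := ⟨hcen, fun x => by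
    rw [hh, pow_succ, pow_card_eq_one', one_mul]⟩
  letI iV : CommGroup (BaerT G) := baerCommGroup H
  haveI : Finite (BaerT G) := inferInstanceAs (Finite G)
  have hV : IsPGroup p (BaerT G) := IsPGroup.of_card (n := k) hk
  -- conjugation on `G`
  let c : normalizer (G : Set X) → MulAut G := fun a =>
    { toFun := fun g => ⟨a * g * (a : X)⁻¹, (mem_normalizer_iff.mp a.2 g).mp g.2⟩
      invFun := fun g => ⟨(a : X)⁻¹ * g * a, by
        have := (mem_normalizer_iff.mp (inv_mem a.2) g).mp g.2
        simpa using this⟩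
      left_inv := by
        intro g
        apply Subtype.ext
        simp [mul_assoc]
      right_inv := by
        intro g
        apply Subtype.ext
        simp [mul_assoc]
      map_mul' := by
        intro g g'
        apply Subtype.ext
        simp [mul_assoc] }
  have hc : ∀ (a : normalizer (G : Set X)) (g : G), ((c a g : G) : X) = a * g * (a : X)⁻¹ := fun a g => rfl
  let ρ : normalizer (G : Set X) →* MulAut (BaerT G) :=
    { toFun := fun a => baerAut H (c a)
      map_one' := by
        refine MulEquiv.ext fun (w : G) => ?_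
        show c 1 w = w
        apply Subtype.ext
        rw [hc]
        simp
      map_mul' := by
        intro a b
        refine MulEquiv.ext fun (w : G) => ?_
        show c (a * b) w = c a (c b w)
        apply Subtype.ext
        rw [hc, hc, hc]
        simp [mul_assoc] }
  have hρ : ∀ (a : normalizer (G : Set X)) (g : G), (ρ a (g : BaerT G) : G) = c a g := fun a g => rfl
  have hP' : IsPGroup p (P.subgroupOf (normalizer (G : Set X))) :=
    hP.of_equiv (Subgroup.subgroupOfEquivOfLe hPG).symm
  have hQ' : (Nat.card (Q.subgroupOf (normalizer (G : Set X)))).Coprime p := by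
    rw [Nat.card_congr (Subgroup.subgroupOfEquivOfLe hQG).toEquiv]
    exact hQ
  have hPQ' : P.subgroupOf (normalizer (G : Set X)) ≤ normalizer ((Q.subgroupOf (normalizer (G : Set X)) : Subgroup _) : Set _) := by
    intro u hu
    rw [mem_normalizer_iff]
    intro σ
    rw [mem_subgroupOf, mem_subgroupOf]
    exact mem_normalizer_iff.mp (hPQ (mem_subgroupOf.mp hu)) _
  have hkey := abelian_key hV ρ _ _ hP' hQ' hPQ' (by
    intro (v : G) hv σ hσ
    have hv' : (v : G).1 ∈ G ⊓ centralizer (P : Set X) := by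
      refine Subgroup.mem_inf.mpr ⟨(v : G).2, ?_⟩
      rw [mem_centralizer_iff]
      intro u hu
      have h1 := hv ⟨u, hPG hu⟩ (mem_subgroupOf.mpr hu)
      have h2 : ((c ⟨u, hPG hu⟩ (v : G) : G) : X) = (v : G).1 := congrArg Subtype.val h1
      rw [hc] at h2
      have h3 : u * (v : G).1 * u⁻¹ = (v : G).1 := h2
      exact mul_inv_eq_iff_eq_mul.mp h3
    have h4 := mem_centralizer_iff.mp (hC hv') σ.1 (mem_subgroupOf.mp hσ)
    show c σ v = v
    apply Subtype.ext
    rw [hc]
    rw [h4]
    simp)
  intro q hq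
  rw [mem_centralizer_iff]
  intro g hg
  have h1 := hkey ⟨q, hQG hq⟩ (mem_subgroupOf.mpr hq) (⟨g, hg⟩ : G)
  have h2 : ((c ⟨q, hQG hq⟩ (⟨g, hg⟩ : G) : G) : X) = g := congrArg Subtype.val h1
  rw [hc] at h2
  have h3 : q * g * q⁻¹ = g := h2
  exact (mul_inv_eq_iff_eq_mul.mp h3).symm

theorem main_aux {X : Type*} [Group X] [Finite X] {p : ℕ} [Fact p.Prime] (hp : p ≠ 2) (P Q : Subgroup X)
    (hP : IsPGroup p P) (hQ : (Nat.card Q).Coprime p) (hPQ : P ≤ normalizer (Q : Set X)) :
    ∀ (n : ℕ) (G : Subgroup X), Nat.card G = n → IsPGroup p G →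
    P ≤ normalizer (G : Set X) → Q ≤ normalizer (G : Set X) →
    G ⊓ centralizer (P : Set X) ≤ centralizer (Q : Set X) → Q ≤ centralizer (G : Set X) := by
  intro n
  induction n using Nat.strong_induction_on with
  | _ n IH =>
  intro G hn hG hPG hQG hC
  have hpp : p.Prime := Fact.out
  obtain ⟨k, hk⟩ := IsPGroup.iff_card.mp hG
  have hcop : (Nat.card Q).Coprime (Nat.card G) := by
    rw [hk]
    exact Nat.Coprime.pow_right k hQ
  have hsolv : Group.IsSolvable Q ∨ Group.IsSolvable G := by
    right
    haveI := hG.isNilpotent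
    infer_instance
  obtain ⟨H, hHdef⟩ : ∃ H, H = ⁅G, Q⁆ := ⟨_, rfl⟩
  have hHG : H ≤ G := hHdef ▸ Cfsg.Agent.Lib.Basic.commutator_le_of_le_normalizer hQG
  have hPH : P ≤ normalizer (H : Set X) := fun u hu =>
    hHdef ▸ mem_normalizer_commutator (hPG hu) (hPQ hu)
  have hQH : Q ≤ normalizer (H : Set X) := fun u hu =>
    hHdef ▸ mem_normalizer_commutator (hQG hu) (le_normalizer hu)
  by_cases hHne : H = G
  · -- `G = [G, Q]`
    by_cases hbot : G = ⊥
    · rw [hbot]
      intro x _
      rw [mem_centralizer_iff]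
      intro y hy
      have : y = 1 := hy
      simp [this]
    -- the Frattini subgroup is centralized
    obtain ⟨F, hFdef⟩ : ∃ F, F = (frattini G).map G.subtype := ⟨_, rfl⟩
    have hFG : F ≤ G := hFdef ▸ frattini_map_le G
    have hFne : F ≠ G := hFdef ▸ frattini_map_ne hbot
    have hFlt : F < G := lt_of_le_of_ne hFG hFne
    have hcard : Nat.card F < n := by
      rw [← hn]
      by_contra hlt
      push Not at hlt
      exact hFlt.ne (Subgroup.eq_of_le_of_card_ge hFG hlt)
    have hFnorm : normalizer (G : Set X) ≤ normalizer (F : Set X) := fun a ha =>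
      hFdef ▸ mem_normalizer_map_of_characteristic G (frattini G) ha
    have hQF := IH _ hcard F rfl (hG.to_le hFG) (hPG.trans hFnorm) (hQG.trans hFnorm)
      ((inf_le_inf_right _ hFG).trans hC)
    have h1 : ⁅⁅Q, F⁆, G⁆ = ⊥ := by
      rw [commutator_eq_bot_iff_le_centralizer.mpr hQF, commutator_bot_left]
    have h2 : ⁅⁅F, G⁆, Q⁆ = ⊥ := by
      have h3 : ⁅F, G⁆ ≤ F := by
        rw [commutator_le]
        intro f hf g hg
        have h4 : g ∈ normalizer (F : Set X) := hFnorm (le_normalizer hg)
        have h5 := (mem_normalizer_iff.mp h4 f⁻¹).mp (inv_mem hf)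
        rw [commutatorElement_def, show f * g * f⁻¹ * g⁻¹ = f * (g * f⁻¹ * g⁻¹) by group]
        exact mul_mem hf h5
      rw [commutator_comm]
      refine le_bot_iff.mp ((commutator_mono le_rfl h3).trans ?_)
      rw [commutator_eq_bot_iff_le_centralizer.mpr hQF]
    have h3 : ⁅⁅G, Q⁆, F⁆ = ⊥ := commutator_commutator_eq_bot_of_rotate h1 h2
    rw [← hHdef, hHne] at h3
    -- hence commutators are central
    apply class2_case hp P Q G hP hQ hPQ hG hPG hQG hC
    intro x y z
    have h4 : ⁅x, y⁆ ∈ frattini G := Cfsg.Agent.Lib.Transfer.commutator_mem_frattini hG x y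
    have h5 : (⁅x, y⁆ : G).1 ∈ F := by
      rw [hFdef]
      exact mem_map_of_mem _ h4
    have h6 := commutator_mem_commutator z.2 h5
    rw [h3, mem_bot, commutatorElement_eq_one_iff_mul_comm] at h6
    exact Subtype.ext h6.symm
  · have hlt : H < G := lt_of_le_of_ne hHG hHne
    have hcard : Nat.card H < n := by
      rw [← hn]
      by_contra hle
      push Not at hle
      exact hlt.ne (Subgroup.eq_of_le_of_card_ge hHG hle)
    have h1 := IH _ hcard H rfl (hG.to_le hHG) hPH hQH ((inf_le_inf_right _ hHG).trans hC)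
    have h2 : ⁅H, Q⁆ = ⊥ := by
      rw [commutator_comm]
      exact commutator_eq_bot_iff_le_centralizer.mpr h1
    have h3 := Cfsg.Agent.Lib.Basic.coprime_commutator_commutator hQG hcop hsolv
    rw [← hHdef, h2] at h3
    rw [← commutator_eq_bot_iff_le_centralizer, commutator_comm, ← hHdef]
    exact h3.symm

/-- Thompson's strengthening of the P × Q lemma for odd primes. Let p be an odd prime and let P, Q and G be subgroups of a finite group with P a p-group, Q of order prime to p and normalized by P, and G a p-group normalized by both P and Q. If every element of G centralized by P is centralized by Q, then Q centralizes G. -/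
theorem result {X : Type*} [Group X] [Finite X] {p : ℕ} [Fact p.Prime] (hp : p ≠ 2) (P Q G : Subgroup X) (hP : IsPGroup p P) (hQ : (Nat.card Q).Coprime p) (hPQ : P ≤ Subgroup.normalizer (Q : Set X)) (hG : IsPGroup p G) (hPG : P ≤ Subgroup.normalizer (G : Set X)) (hQG : Q ≤ Subgroup.normalizer (G : Set X)) (hC : G ⊓ Subgroup.centralizer (P : Set X) ≤ Subgroup.centralizer (Q : Set X)) : Q ≤ Subgroup.centralizer (G : Set X) := by
  exact main_aux hp P Q hP hQ hPQ _ G rfl hG hPG hQG hC

end Cfsg.Agent.S3737
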