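import Cfsg.Statements.S3773
-- import your own Cfsg.Agent.* helpers here
import Mathlib
import Cfsg.Agent.Lib.Coprime.QuadCW
import Cfsg.Agent.Lib.Transfer.Frattini
import Cfsg.Agent.Lib.Basic.Hall
import Cfsg.Agent.Lib.Basic.Frattini

set_option autoImplicit false
open Cfsg

namespace Cfsg.Agent.S3773

open Cfsg.Agent.Lib.Coprime.QuadCW
open scoped commutatorElement

theorem comm_pow_left' {G : Type*} [Group G] {a b : G} (h1 : Commute ⁅a, b⁆ a) (k : ℕ) :
    ⁅a ^ k, b⁆ = ⁅a, b⁆ ^ k := by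
  induction k with
  | zero => simp
  | succ k ih =>
    have e : ⁅a ^ (k + 1), b⁆ = a ^ k * ⁅a, b⁆ * a ^ (-(k : ℤ)) * ⁅a ^ k, b⁆ := by
      simp only [commutatorElement_def, zpow_neg, zpow_natCast]
      rw [pow_succ]
      group
    rw [e, ih, pow_succ]
    have : a ^ k * ⁅a, b⁆ * a ^ (-(k : ℤ)) = ⁅a, b⁆ := by
      rw [((h1.symm.pow_left k)).eq]
      simp
    rw [this, ((Commute.pow_right (Commute.refl _) k)).eq]

theorem comm_pow_right' {G : Type*} [Group G] {a b : G} (h2 : Commute ⁅a, b⁆ b) (k : ℕ) :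
    ⁅a, b ^ k⁆ = ⁅a, b⁆ ^ k := by
  have h3 : ⁅b, a⁆ = ⁅a, b⁆⁻¹ := (commutatorElement_inv a b).symm
  have h4 : Commute ⁅b, a⁆ b := by rw [h3]; exact h2.inv_left
  have e1 : ⁅a, b ^ k⁆ = ⁅b ^ k, a⁆⁻¹ := (commutatorElement_inv (b ^ k) a).symm
  rw [e1, comm_pow_left' h4, h3, inv_pow, inv_inv]

/-- Let G be a finite 2-group of nilpotency class at most 2 and exponent dividing 4 in which the elements x with x² = 1 form a subgroup N. Then |G| ≤ |N|³, and |G| < |N|³ unless G is special. -/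
theorem result {G : Type*} [Group G] [Finite G] (hG : IsPGroup 2 G) (hcl : (⊤ : Subgroup G).lowerCentralSeries 2 = ⊥) (hexp : ∀ x : G, x ^ 4 = 1) (hN : ∀ x y : G, x ^ 2 = 1 → y ^ 2 = 1 → (x * y) ^ 2 = 1) : Nat.card G ≤ Nat.card {x : G // x ^ 2 = 1} ^ 3 ∧ (¬ Cfsg.IsSpecial 2 G → Nat.card G < Nat.card {x : G // x ^ 2 = 1} ^ 3) := by
  classical
  haveI := Fact.mk Nat.prime_two
  -- commutators are central
  have hcen : ∀ x y z : G, Commute ⁅x, y⁆ z := by
    intro x y z
    have h1 : ⁅x, y⁆ ∈ (⊤ : Subgroup G).lowerCentralSeries 1 :=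
      Subgroup.commutator_mem_commutator (Subgroup.mem_top x) (Subgroup.mem_top y)
    have h2 : ⁅⁅x, y⁆, z⁆ ∈ (⊤ : Subgroup G).lowerCentralSeries 2 :=
      Subgroup.commutator_mem_commutator h1 (Subgroup.mem_top z)
    rw [hcl, Subgroup.mem_bot] at h2
    exact commutatorElement_eq_one_iff_commute.1 h2
  have hsq : ∀ x y : G, (x * y) ^ 2 = x ^ 2 * y ^ 2 * ⁅y, x⁆ := by
    intro x y
    have e1 : y * x = ⁅y, x⁆ * x * y := by
      rw [commutatorElement_def]
      group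
    have e2 := (hcen y x x).eq
    have e3 := (hcen y x y).eq
    calc (x * y) ^ 2 = x * (y * x) * y := by
          rw [pow_two]
          simp only [mul_assoc]
      _ = x * (⁅y, x⁆ * x * y) * y := by rw [← e1]
      _ = (x * ⁅y, x⁆) * x * y * y := by group
      _ = (⁅y, x⁆ * x) * x * y * y := by rw [e2]
      _ = ⁅y, x⁆ * (x * x * y) * y := by group
      _ = x ^ 2 * y ^ 2 * ⁅y, x⁆ := by
        have e4 : Commute ⁅y, x⁆ (x * x * y * y) :=
          ((((hcen y x x).mul_right (hcen y x x)).mul_right (hcen y x y)).mul_right (hcen y x y))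
        calc ⁅y, x⁆ * (x * x * y) * y = ⁅y, x⁆ * (x * x * y * y) := by group
          _ = (x * x * y * y) * ⁅y, x⁆ := e4.eq
          _ = x ^ 2 * y ^ 2 * ⁅y, x⁆ := by
            simp only [pow_two, mul_assoc]
  have hc2 : ∀ x y : G, ⁅y, x⁆ ^ 2 = 1 := by
    intro x y
    set c := ⁅y, x⁆ with hc
    have h1 : c ^ 4 = 1 := by
      rw [hc, ← comm_pow_left' (hcen y x y), hexp y]
      simp
    have h2 : ⁅y ^ 2, x ^ 2⁆ = c ^ 4 := by
      rw [comm_pow_right' (hcen (y ^ 2) x x), comm_pow_left' (hcen y x y), ← pow_mul]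
    have h3 : (x ^ 2 * y ^ 2) ^ 2 = c ^ 4 := by
      rw [hsq, ← pow_mul, ← pow_mul, h2]
      norm_num [hexp]
    have h4 : (x * y) ^ 4 = 1 := hexp _
    have h5 : ((x * y) ^ 2) ^ 2 = c ^ 4 * c ^ 2 := by
      rw [hsq, ← hc]
      have : Commute (x ^ 2 * y ^ 2) c := (hcen y x _).symm
      rw [this.mul_pow, h3]
    rw [← pow_mul] at h5
    norm_num at h5
    rw [h4, h1, one_mul] at h5
    exact h5.symm
  have hsqcen : ∀ x z : G, Commute (x ^ 2) z := by
    intro x z
    apply commutatorElement_eq_one_iff_commute.1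
    rw [comm_pow_left' (hcen x z x)]
    have := hc2 z x
    exact this
  -- the involutions
  have hinv : ∀ x : G, x ^ 2 = 1 → x⁻¹ ^ 2 = 1 := by
    intro x hx
    rw [inv_pow, hx, inv_one]
  let N : Subgroup G :=
    { carrier := {x | x ^ 2 = 1}
      mul_mem' := fun {a b} ha hb => hN a b ha hb
      one_mem' := by simp
      inv_mem' := fun {a} ha => hinv a ha }
  have hNmem : ∀ x, x ∈ N ↔ x ^ 2 = 1 := fun x => Iff.rfl
  have hNcard : Nat.card {x : G // x ^ 2 = 1} = Nat.card N := rfl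
  -- the central part
  let M : Subgroup G := N ⊓ Subgroup.center G
  have hMmem : ∀ x, x ∈ M ↔ x ^ 2 = 1 ∧ ∀ z, z * x = x * z := by
    intro x
    show x ∈ N ∧ x ∈ Subgroup.center G ↔ _
    rw [hNmem, Subgroup.mem_center_iff]
  have hsqM : ∀ x : G, x ^ 2 ∈ M := by
    intro x
    rw [hMmem]
    refine ⟨by rw [← pow_mul]; exact hexp x, fun z => (hsqcen x z).symm.eq⟩
  have hcM : ∀ x y : G, ⁅y, x⁆ ∈ M := by
    intro x y
    rw [hMmem]
    exact ⟨hc2 x y, fun z => (hcen y x z).symm.eq⟩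
  haveI hMn : M.Normal := by
    refine ⟨fun x hx g => ?_⟩
    have h1 := (hMmem x).1 hx
    have : g * x * g⁻¹ = x := by
      rw [h1.2 g]
      group
    rw [this]
    exact hx
  have hMN : M ≤ N := inf_le_left
  have hAc : ∀ a b : G ⧸ M, a * b = b * a := by
    intro a b
    obtain ⟨x, rfl⟩ := QuotientGroup.mk_surjective a
    obtain ⟨y, rfl⟩ := QuotientGroup.mk_surjective b
    rw [← QuotientGroup.mk_mul, ← QuotientGroup.mk_mul, QuotientGroup.eq_iff_div_mem]
    have : x * y / (y * x) = ⁅x, y⁆ := by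
      rw [commutatorElement_def, div_eq_mul_inv, mul_inv_rev]
      group
    rw [this]
    exact hcM y x
  have hZc : ∀ a b : M, a * b = b * a := by
    intro a b
    apply Subtype.ext
    exact ((hMmem _).1 b.2).2 a
  have hA2 : ∀ a : G ⧸ M, a ^ 2 = 1 := by
    intro a
    obtain ⟨x, rfl⟩ := QuotientGroup.mk_surjective a
    rw [← QuotientGroup.mk_pow]
    exact (QuotientGroup.eq_one_iff _).2 (hsqM x)
  have hZ2 : ∀ z : M, z ^ 2 = 1 := by
    intro z
    apply Subtype.ext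
    exact ((hMmem _).1 z.2).1
  -- `Q` and `B`
  have hcosq : ∀ (x : G) (m : M), (x * m) ^ 2 = x ^ 2 := by
    intro x m
    have h1 := (hMmem _).1 m.2
    rw [hsq, h1.1, mul_one]
    have : ⁅(m : G), x⁆ = 1 := by
      apply commutatorElement_eq_one_iff_commute.2
      exact (h1.2 x).symm
    rw [this, mul_one]
  have hkey1 : ∀ (a b z : G), (∀ g, g * z = z * g) → ⁅a * z, b⁆ = ⁅a, b⁆ := by
    intro a b z hz
    simp only [commutatorElement_def]
    have e : z * b = b * z := (hz b).symm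
    calc a * z * b * (a * z)⁻¹ * b⁻¹ = a * (z * b) * z⁻¹ * a⁻¹ * b⁻¹ := by group
      _ = a * (b * z) * z⁻¹ * a⁻¹ * b⁻¹ := by rw [e]
      _ = a * b * a⁻¹ * b⁻¹ := by group
  have hkey2 : ∀ (a b z : G), (∀ g, g * z = z * g) → ⁅a, b * z⁆ = ⁅a, b⁆ := by
    intro a b z hz
    simp only [commutatorElement_def]
    have e : z * a⁻¹ = a⁻¹ * z := (hz a⁻¹).symm
    calc a * (b * z) * a⁻¹ * (b * z)⁻¹ = a * b * (z * a⁻¹) * z⁻¹ * b⁻¹ := by group
      _ = a * b * (a⁻¹ * z) * z⁻¹ * b⁻¹ := by rw [e]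
      _ = a * b * a⁻¹ * b⁻¹ := by group
  have hbil1 : ∀ y x x' : G, ⁅y, x * x'⁆ = ⁅y, x⁆ * ⁅y, x'⁆ := by
    intro y x x'
    have e1 : x * ⁅y, x'⁆ * x⁻¹ = ⁅y, x'⁆ := by
      rw [← (hcen y x' x).eq]
      group
    calc ⁅y, x * x'⁆ = ⁅y, x⁆ * (x * ⁅y, x'⁆ * x⁻¹) := by
          simp only [commutatorElement_def]
          group
      _ = ⁅y, x⁆ * ⁅y, x'⁆ := by rw [e1]
  have hbil2 : ∀ y y' x : G, ⁅y * y', x⁆ = ⁅y, x⁆ * ⁅y', x⁆ := by
    intro y y' x
    have e1 : y * ⁅y', x⁆ * y⁻¹ = ⁅y', x⁆ := by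
      rw [← (hcen y' x y).eq]
      group
    calc ⁅y * y', x⁆ = (y * ⁅y', x⁆ * y⁻¹) * ⁅y, x⁆ := by
          simp only [commutatorElement_def]
          group
      _ = ⁅y', x⁆ * ⁅y, x⁆ := by rw [e1]
      _ = ⁅y, x⁆ * ⁅y', x⁆ := (hcen y' x _).eq
  let Q : G ⧸ M → M := fun a => ⟨a.out ^ 2, hsqM _⟩
  let B : G ⧸ M → G ⧸ M → M := fun a b => ⟨⁅b.out, a.out⁆, hcM _ _⟩
  have hcentM : ∀ (m : M) (g : G), g * (m : G) = m * g := fun m g => ((hMmem _).1 m.2).2 g
  have hQmk : ∀ x : G, ((Q (x : G ⧸ M) : M) : G) = x ^ 2 := by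
    intro x
    obtain ⟨m, hm⟩ := QuotientGroup.mk_out_eq_mul M x
    show ((x : G ⧸ M).out) ^ 2 = x ^ 2
    rw [hm, hcosq]
  have hBmk : ∀ x y : G, ((B (x : G ⧸ M) (y : G ⧸ M) : M) : G) = ⁅y, x⁆ := by
    intro x y
    obtain ⟨m, hm⟩ := QuotientGroup.mk_out_eq_mul M x
    obtain ⟨m', hm'⟩ := QuotientGroup.mk_out_eq_mul M y
    show ⁅(y : G ⧸ M).out, (x : G ⧸ M).out⁆ = ⁅y, x⁆
    rw [hm, hm', hkey1 _ _ _ (hcentM m'), hkey2 _ _ _ (hcentM m)]
  have hQ : ∀ a b, Q (a * b) = Q a * Q b * B a b := by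
    intro a b
    obtain ⟨x, rfl⟩ := QuotientGroup.mk_surjective a
    obtain ⟨y, rfl⟩ := QuotientGroup.mk_surjective b
    apply Subtype.ext
    rw [← QuotientGroup.mk_mul]
    simp only [Subgroup.coe_mul]
    rw [hQmk, hQmk, hQmk, hBmk, hsq]
  have h1 : ∀ a a' b, B (a * a') b = B a b * B a' b := by
    intro a a' b
    obtain ⟨x, rfl⟩ := QuotientGroup.mk_surjective a
    obtain ⟨x', rfl⟩ := QuotientGroup.mk_surjective a'
    obtain ⟨y, rfl⟩ := QuotientGroup.mk_surjective b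
    apply Subtype.ext
    rw [← QuotientGroup.mk_mul]
    simp only [Subgroup.coe_mul]
    rw [hBmk, hBmk, hBmk, hbil1]
  have h2 : ∀ a b b', B a (b * b') = B a b * B a b' := by
    intro a b b'
    obtain ⟨x, rfl⟩ := QuotientGroup.mk_surjective a
    obtain ⟨y, rfl⟩ := QuotientGroup.mk_surjective b
    obtain ⟨y', rfl⟩ := QuotientGroup.mk_surjective b'
    apply Subtype.ext
    rw [← QuotientGroup.mk_mul]
    simp only [Subgroup.coe_mul]
    rw [hBmk, hBmk, hBmk, hbil2]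
  -- the bound
  obtain ⟨K, hKdef⟩ : ∃ K, K = N.map (QuotientGroup.mk' M) := ⟨_, rfl⟩
  have hK : ∀ a, Q a = 1 → a ∈ K := by
    intro a ha
    obtain ⟨x, rfl⟩ := QuotientGroup.mk_surjective a
    have h3 : x ^ 2 = 1 := by
      rw [← hQmk, ha]
      rfl
    rw [hKdef]
    exact ⟨x, h3, rfl⟩
  have hbd := grp_bound hAc hZc hA2 hZ2 Q B hQ h1 h2 K hK
  have hcG : Nat.card G = Nat.card (G ⧸ M) * Nat.card M :=
    Subgroup.card_eq_card_quotient_mul_card_subgroup M
  have hcN : Nat.card N = Nat.card M * Nat.card K := by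
    rw [← Cfsg.Agent.Lib.Basic.card_comap_mk K, hKdef, Subgroup.comap_map_eq_self]
    rw [QuotientGroup.ker_mk']
    exact hMN
  have hMle : Nat.card M ≤ Nat.card N := Subgroup.card_le_of_le hMN
  have hNpos : 0 < Nat.card N := Nat.card_pos
  have hMpos : 0 < Nat.card M := Nat.card_pos
  rw [hNcard]
  have hmain : Nat.card G ≤ Nat.card N * Nat.card M ^ 2 := by
    rw [hcG, hcN]
    calc Nat.card (G ⧸ M) * Nat.card M ≤ (Nat.card K * Nat.card M ^ 2) * Nat.card M :=
          Nat.mul_le_mul_right _ hbd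
      _ = Nat.card M * Nat.card K * Nat.card M ^ 2 := by ring
  have hsq2 : Nat.card N * Nat.card M ^ 2 ≤ Nat.card N ^ 3 := by
    rw [pow_succ (Nat.card N) 2, mul_comm (Nat.card N ^ 2)]
    exact Nat.mul_le_mul_left _ (Nat.pow_le_pow_left hMle 2)
  refine ⟨hmain.trans hsq2, ?_⟩
  intro hns
  by_contra hnot
  rw [not_lt] at hnot
  apply hns
  have h3 : Nat.card N ^ 3 ≤ Nat.card N * Nat.card M ^ 2 := hnot.trans hmain
  have h4 : Nat.card N ≤ Nat.card M := by
    by_contra h5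
    rw [not_le] at h5
    have h6 : Nat.card N * Nat.card M ^ 2 < Nat.card N ^ 3 := by
      rw [pow_succ (Nat.card N) 2, mul_comm (Nat.card N ^ 2)]
      exact Nat.mul_lt_mul_of_pos_left (Nat.pow_lt_pow_left h5 (by norm_num)) hNpos
    omega
  have hMeq : M = N := Subgroup.eq_of_le_of_card_ge hMN h4
  have hmn : Nat.card M = Nat.card N := le_antisymm hMle h4
  have hk1 : Nat.card K = 1 := by
    rw [← hmn] at hcN
    have : Nat.card M * Nat.card K = Nat.card M * 1 := by rw [← hcN, mul_one]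
    exact Nat.eq_of_mul_eq_mul_left hMpos this
  have hGeq : Nat.card G = Nat.card N ^ 3 := le_antisymm (hmain.trans hsq2) hnot
  have hcard : Nat.card (G ⧸ M) = Nat.card M ^ 2 := by
    rw [hcG, ← hmn] at hGeq
    have : Nat.card (G ⧸ M) * Nat.card M = Nat.card M ^ 2 * Nat.card M := by
      rw [hGeq]
      ring
    exact Nat.eq_of_mul_eq_mul_right hMpos this
  have han : ∀ a, Q a = 1 → a = 1 := by
    intro a ha
    obtain ⟨x, rfl⟩ := QuotientGroup.mk_surjective a
    have h5 : x ^ 2 = 1 := by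
      rw [← hQmk, ha]
      rfl
    have h6 : x ∈ M := by
      rw [hMeq]
      exact h5
    exact (QuotientGroup.eq_one_iff x).2 h6
  obtain ⟨e1, e2, e3⟩ := grp_eq hAc hZc hA2 hZ2 Q B hQ h1 h2 han hcard
  have hcenM : Subgroup.center G ≤ M := by
    intro z hz
    have h5 := e2 (z : G ⧸ M) (fun b => by
      obtain ⟨y, rfl⟩ := QuotientGroup.mk_surjective b
      apply Subtype.ext
      rw [hBmk]
      apply commutatorElement_eq_one_iff_commute.2
      exact (Subgroup.mem_center_iff.1 hz y))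
    exact (QuotientGroup.eq_one_iff z).1 h5
  have hMcen : M = Subgroup.center G := le_antisymm inf_le_right hcenM
  refine ⟨hG, ?_, ?_⟩
  · rw [← hMcen]
    apply le_antisymm
    · exact Cfsg.Agent.Lib.Transfer.frattini_le_of_elementary M hsqM (fun x y => by
        have := hcM y x
        rwa [commutatorElement_def] at this)
    · have h5 := e1 ((frattini G).subgroupOf M) (fun a => by
        rw [Subgroup.mem_subgroupOf]
        exact Cfsg.Agent.Lib.Basic.pow_mem_frattini_of_isPGroup hG _)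
      intro m hm
      have h6 : (⟨m, hm⟩ : M) ∈ (frattini G).subgroupOf M := by
        rw [h5]
        trivial
      exact Subgroup.mem_subgroupOf.1 h6
  · rw [← hMcen]
    apply le_antisymm
    · rw [commutator_def, Subgroup.commutator_le]
      intro x _ y _
      exact hcM y x
    · have h5 := e3 ((commutator G).subgroupOf M) (fun a b => by
        rw [Subgroup.mem_subgroupOf]
        exact Subgroup.commutator_mem_commutator (Subgroup.mem_top _) (Subgroup.mem_top _))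
      intro m hm
      have h6 : (⟨m, hm⟩ : M) ∈ (commutator G).subgroupOf M := by
        rw [h5]
        trivial
      exact Subgroup.mem_subgroupOf.1 h6

end Cfsg.Agent.S3773
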