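import Cfsg.Statements.S3738
-- import your own Cfsg.Agent.* helpers here
import Mathlib
import Cfsg.Agent.Lib.Coprime.MinAct
import Cfsg.Agent.S3773

set_option autoImplicit false
open Cfsg

namespace Cfsg.Agent.S3738

open Cfsg.Agent.Lib.Coprime.MinAct
open scoped commutatorElement

theorem card_dvd_of_free_conj {X : Type*} [Group X] [Finite X] (D : Subgroup X) (S : Set X)
    (hS : ∀ g ∈ D, ∀ x ∈ S, g * x * g⁻¹ ∈ S)
    (hfree : ∀ g ∈ D, ∀ x ∈ S, g * x * g⁻¹ = x → g = 1) : Nat.card D ∣ S.ncard := by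
  classical
  letI : MulAction D S :=
    { smul := fun g x => ⟨(g : X) * x * (g : X)⁻¹, hS g g.2 x x.2⟩
      one_smul := fun x => Subtype.ext (by
        show ((1 : D) : X) * (x : X) * ((1 : D) : X)⁻¹ = x
        simp)
      mul_smul := fun a b x => Subtype.ext (by
        show ((a * b : D) : X) * (x : X) * ((a * b : D) : X)⁻¹ =
          (a : X) * ((b : X) * x * (b : X)⁻¹) * (a : X)⁻¹
        simp [mul_assoc]) }
  have hst : ∀ x : S, MulAction.stabilizer D x = ⊥ := by
    intro x
    rw [eq_bot_iff]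
    intro g hg
    rw [MulAction.mem_stabilizer_iff] at hg
    have h1 : (g : X) * x * (g : X)⁻¹ = x := congrArg Subtype.val hg
    rw [Subgroup.mem_bot]
    exact Subtype.ext (hfree g g.2 x x.2 h1)
  have e := MulAction.selfEquivOrbitsQuotientProd hst
  have h1 : Nat.card S = Nat.card (Quotient (MulAction.orbitRel D S)) * Nat.card D := by
    rw [Nat.card_congr e, Nat.card_prod]
  rw [← Nat.card_coe_set_eq, h1]
  exact Dvd.intro_left _ rfl

/-- Let d be a non-identity 3-element of a finite group and P a 2-subgroup normalized by d on which ⟨d⟩ acts faithfully (no non-identity power of d centralizes P) and without non-identity fixed points (C_P(d) = 1). If every abelian subgroup of P has 2-rank at most 2, then d has order 3. -/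
theorem result {X : Type*} [Group X] [Finite X] (d : X) (n : ℕ) (hn : 1 ≤ n) (hd : orderOf d = 3 ^ n) (P : Subgroup X) (hP : IsPGroup 2 P) (hdP : d ∈ Subgroup.normalizer (P : Set X)) (hfaith : Subgroup.zpowers d ⊓ Subgroup.centralizer (P : Set X) = ⊥) (hfpf : P ⊓ Subgroup.centralizer {d} = ⊥) (hrank : ∀ V : Subgroup X, V ≤ P → IsMulCommutative V → Cfsg.PRankLE 2 2 V) : orderOf d = 3 := by
  classical
  by_contra hne
  haveI hf2 : Fact (Nat.Prime 2) := ⟨Nat.prime_two⟩
  have hn2 : 2 ≤ n := by
    by_contra h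
    have : n = 1 := by omega
    rw [this, pow_one] at hd
    exact hne hd
  -- the element of order three
  obtain ⟨e, he⟩ : ∃ e, e = d ^ (3 ^ (n - 1)) := ⟨_, rfl⟩
  have hdn : orderOf d ≠ 0 := by rw [hd]; positivity
  have h3dvd : 3 ∣ orderOf d := by
    rw [hd]
    exact dvd_pow_self 3 (by omega)
  have h3div : orderOf d / 3 = 3 ^ (n - 1) := by
    rw [hd]
    obtain ⟨m, rfl⟩ : ∃ m, n = m + 1 := ⟨n - 1, by omega⟩
    simp [pow_succ]
  have heo : orderOf e = 3 := by
    rw [he, ← h3div]
    exact orderOf_pow_orderOf_div hdn h3dvd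
  have he1 : e ≠ 1 := by
    intro h
    rw [h, orderOf_one] at heo
    omega
  have heD : e ∈ Subgroup.zpowers d := by
    rw [he]
    exact Subgroup.pow_mem _ (Subgroup.mem_zpowers d) _
  -- powers
  have hpowe : ∀ g ∈ Subgroup.zpowers d, g ≠ 1 → ∃ m : ℕ, g ^ m = e := by
    intro g hg hg1
    obtain ⟨k, rfl⟩ := (mem_powers_iff_mem_zpowers (x := d)).mpr hg
    -- the order of `g`
    have hgo : orderOf (d ^ k) ∣ 3 ^ n := by
      rw [← hd]
      exact orderOf_dvd_of_pow_eq_one (by rw [← pow_mul, mul_comm, pow_mul, pow_orderOf_eq_one, one_pow])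
    obtain ⟨j, hjn, hj⟩ := (Nat.dvd_prime_pow Nat.prime_three).mp hgo
    have hj0 : j ≠ 0 := by
      intro h0
      rw [h0, pow_zero, orderOf_eq_one_iff] at hj
      exact hg1 hj
    obtain ⟨h, hh⟩ : ∃ h, h = (d ^ k) ^ (3 ^ (j - 1)) := ⟨_, rfl⟩
    have hho : orderOf h = 3 := by
      have h1 : orderOf (d ^ k) / 3 = 3 ^ (j - 1) := by
        rw [hj]
        obtain ⟨m, rfl⟩ : ∃ m, j = m + 1 := ⟨j - 1, by omega⟩
        simp [pow_succ]
      rw [hh, ← h1]
      exact orderOf_pow_orderOf_div (by rw [hj]; positivity) (by rw [hj]; exact dvd_pow_self 3 hj0)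
    obtain ⟨t, ht⟩ : ∃ t, h = e ^ t := by
      have h3 : h ^ 3 = 1 := by rw [← hho]; exact pow_orderOf_eq_one h
      have h4 : h = d ^ (k * 3 ^ (j - 1)) := by rw [hh, pow_mul]
      have h5 : d ^ (k * 3 ^ (j - 1) * 3) = 1 := by rw [pow_mul, ← h4, h3]
      have h6 := orderOf_dvd_of_pow_eq_one h5
      rw [hd] at h6
      obtain ⟨m, rfl⟩ : ∃ m, n = m + 1 := ⟨n - 1, by omega⟩
      rw [pow_succ] at h6
      have h7 : 3 ^ m ∣ k * 3 ^ (j - 1) := Nat.dvd_of_mul_dvd_mul_right (by norm_num) h6
      obtain ⟨t, ht⟩ := h7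
      refine ⟨t, ?_⟩
      rw [h4, ht, he, ← pow_mul]
      rfl
    have ht3 : t.Coprime (orderOf e) := by
      rw [heo, Nat.coprime_comm, Nat.Prime.coprime_iff_not_dvd Nat.prime_three]
      intro hdvd
      obtain ⟨s, rfl⟩ := hdvd
      rw [pow_mul, ← heo, pow_orderOf_eq_one, one_pow] at ht
      rw [ht, orderOf_one] at hho
      omega
    obtain ⟨m, hm⟩ := exists_pow_eq_self_of_coprime ht3
    refine ⟨3 ^ (j - 1) * m, ?_⟩
    rw [pow_mul, ← hh, ht, hm]
  obtain ⟨D, hDdef⟩ : ∃ D, D = Subgroup.zpowers d := ⟨_, rfl⟩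
  obtain ⟨A, hAdef⟩ : ∃ A, A = Subgroup.zpowers e := ⟨_, rfl⟩
  have hAD : A ≤ D := by
    rw [hAdef, hDdef, Subgroup.zpowers_le]
    exact heD
  have hDC : D ≤ Subgroup.centralizer (A : Set X) := by
    rw [hDdef, Subgroup.zpowers_le, Subgroup.mem_centralizer_iff]
    intro a ha
    rw [SetLike.mem_coe, hAdef] at ha
    obtain ⟨z, rfl⟩ := ha
    have h1 : Commute d e := by
      rw [he]
      exact (Commute.refl d).pow_right _
    exact (h1.zpow_right z).symm.eq
  have hDA : D ≤ Subgroup.normalizer (A : Set X) := hDC.trans (Subgroup.centralizer_le_normalizer _)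
  have hDP : D ≤ Subgroup.normalizer (P : Set X) := by
    rw [hDdef, Subgroup.zpowers_le]
    exact hdP
  have hcardA : Nat.card A = 3 := by
    rw [hAdef, Nat.card_zpowers, heo]
  have hcop : (Nat.card A).Coprime 2 := by
    rw [hcardA]
    norm_num
  have hnc : ¬ P ≤ Subgroup.centralizer (A : Set X) := by
    intro h
    have h1 : e ∈ Subgroup.zpowers d ⊓ Subgroup.centralizer (P : Set X) := by
      refine ⟨heD, ?_⟩
      show e ∈ Subgroup.centralizer (P : Set X)
      rw [Subgroup.mem_centralizer_iff]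
      intro y hy
      have h2 := Subgroup.mem_centralizer_iff.mp (h hy) e (by rw [hAdef]; exact Subgroup.mem_zpowers e)
      exact h2.symm
    rw [hfaith, Subgroup.mem_bot] at h1
    exact he1 h1
  obtain ⟨Q, hQP, hmin⟩ := exists_isMinAct hP hDP hAD hDA hcop hnc
  have hdQ : d ∈ Subgroup.normalizer (Q : Set X) := hmin.norm (by rw [hDdef]; exact Subgroup.mem_zpowers d)
  -- the rank bound
  have hrk : ∀ E : Subgroup X, E ≤ P → (∀ a ∈ E, ∀ b ∈ E, a * b = b * a) → (∀ a ∈ E, a ^ 2 = 1) →
      Nat.card E ≤ 4 := by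
    intro E hE hc hs
    have hcomm : IsMulCommutative E := ⟨⟨fun a b => Subtype.ext (hc a a.2 b b.2)⟩⟩
    have h1 := hrank E hE hcomm ⊤ (by
      exact ⟨⟨fun a b => Subtype.ext (Subtype.ext (hc _ a.1.2 _ b.1.2))⟩⟩) (by
      intro a _
      exact Subtype.ext (hs a a.2))
    rw [Subgroup.card_top] at h1
    simpa using h1
  -- Omega
  have hFcent : ∀ z ∈ IsMinAct.frat Q, ∀ y ∈ Q, y * z = z * y := fun z hz y hy => hmin.frat_central hy hz
  let Ω : Subgroup X :=
    { carrier := {u | u ∈ Q ∧ (∀ y ∈ Q, y * u = u * y) ∧ u ^ 2 = 1}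
      mul_mem' := by
        rintro a b ⟨ha, ha2, ha3⟩ ⟨hb, hb2, hb3⟩
        refine ⟨Q.mul_mem ha hb, ?_, ?_⟩
        · intro y hy
          rw [← mul_assoc, ha2 y hy, mul_assoc, hb2 y hy, mul_assoc]
        · have : Commute a b := (ha2 b hb).symm
          rw [this.mul_pow, ha3, hb3, one_mul]
      one_mem' := ⟨Q.one_mem, by simp, by simp⟩
      inv_mem' := by
        rintro a ⟨ha, ha2, ha3⟩
        refine ⟨Q.inv_mem ha, ?_, by rw [inv_pow, ha3, inv_one]⟩
        intro y hy
        have h1 := ha2 y hy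
        have : Commute y a := h1
        exact this.inv_right.eq }
  have hΩmem : ∀ u, u ∈ Ω ↔ u ∈ Q ∧ (∀ y ∈ Q, y * u = u * y) ∧ u ^ 2 = 1 := fun u => Iff.rfl
  have hΩle : Ω ≤ P := fun u hu => hQP hu.1
  have hΩcard : Nat.card Ω ≤ 4 := hrk Ω hΩle
    (fun a ha b hb => hb.2.1 a ha.1) (fun a ha => ha.2.2)
  -- involutions are central
  have hinv : ∀ t ∈ Q, t ^ 2 = 1 → t ∈ Ω := by
    intro t ht ht2
    by_cases hab : ∀ x ∈ Q, ∀ y ∈ Q, x * y = y * x
    · exact ⟨ht, fun y hy => hab y hy t ht, ht2⟩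
    push Not at hab
    obtain ⟨x, hx, y, hy, hxy⟩ := hab
    obtain ⟨c, hc⟩ : ∃ c, c = ⁅x, y⁆ := ⟨_, rfl⟩
    have hcF : c ∈ IsMinAct.frat Q := by
      rw [hc]
      exact hmin.comm_mem_frat hx hy
    have hc1 : c ≠ 1 := by
      rw [hc]
      intro h
      exact hxy (commutatorElement_eq_one_iff_mul_comm.mp h)
    have hc2 : c ^ 2 = 1 := by
      have hx2 := hmin.pow_mem_frat hx
      have h3 : x * c = c * x := hFcent c hcF x hx
      have h4 : c * c = ⁅x ^ 2, y⁆ := by
        have h5 : c * c = x * c * x⁻¹ * c := by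
          rw [h3]
          group
        rw [h5, hc]
        simp only [commutatorElement_def, pow_two, mul_inv_rev, mul_assoc, inv_mul_cancel_left]
      have h6 : ⁅x ^ 2, y⁆ = 1 := by
        rw [commutatorElement_eq_one_iff_mul_comm]
        exact (hFcent _ hx2 y hy).symm
      rw [pow_two, h4, h6]
    have hcΩ : c ∈ Ω := ⟨IsMinAct.frat_le hcF, fun z hz => hFcent c hcF z hz, hc2⟩
    -- `Ω` has order four
    have hΩ4 : Nat.card Ω = 4 := by
      have hΩp : IsPGroup 2 Ω := hP.to_le hΩle
      obtain ⟨k, hk⟩ := IsPGroup.iff_card.mp hΩp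
      have hk2 : k ≤ 2 := by
        by_contra h
        have : 2 ^ 3 ≤ 2 ^ k := Nat.pow_le_pow_right (by norm_num) (by omega)
        omega
      have hk0 : k ≠ 0 := by
        intro h0
        rw [h0, pow_zero] at hk
        have := Subgroup.eq_bot_of_card_eq Ω hk
        rw [this, Subgroup.mem_bot] at hcΩ
        exact hc1 hcΩ
      have hk1 : k ≠ 1 := by
        intro h0
        rw [h0, pow_one] at hk
        -- `d` fixes `c`
        have hdc : d * c * d⁻¹ ∈ Ω := by
          refine ⟨(Subgroup.mem_normalizer_iff.mp hdQ c).mp hcΩ.1, ?_, ?_⟩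
          · intro z hz
            have hz' : d⁻¹ * z * d ∈ Q := by
              have := (Subgroup.mem_normalizer_iff.mp (Subgroup.inv_mem _ hdQ) z).mp hz
              simpa using this
            have h7 := hcΩ.2.1 _ hz'
            calc z * (d * c * d⁻¹) = d * ((d⁻¹ * z * d) * c) * d⁻¹ := by group
              _ = d * (c * (d⁻¹ * z * d)) * d⁻¹ := by rw [h7]
              _ = d * c * d⁻¹ * z := by group
          · rw [conj_pow, hc2]
            simp
        have hdc1 : d * c * d⁻¹ ≠ 1 := by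
          intro h
          apply hc1
          have : c = d⁻¹ * (d * c * d⁻¹) * d := by group
          rw [this, h]
          group
        have h8 : (⟨d * c * d⁻¹, hdc⟩ : Ω) = ⟨c, hcΩ⟩ := by
          haveI : Nat.card Ω = 2 := hk
          have hne1 : (⟨d * c * d⁻¹, hdc⟩ : Ω) ≠ 1 := fun h => hdc1 (congrArg Subtype.val h)
          have hne2 : (⟨c, hcΩ⟩ : Ω) ≠ 1 := fun h => hc1 (congrArg Subtype.val h)
          have h9 : ∀ u v : Ω, u ≠ 1 → v ≠ 1 → u = v := by
            intro u v hu hv
            obtain ⟨a, b, hab, huniv⟩ := Nat.card_eq_two_iff.mp hk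
            have m : ∀ w : Ω, w = a ∨ w = b := by
              intro w
              have : w ∈ ({a, b} : Set Ω) := by rw [huniv]; trivial
              simpa using this
            rcases m 1 with h1 | h1 <;> rcases m u with h2 | h2 <;> rcases m v with h3 | h3 <;>
              first
                | exact absurd (h2.trans h1.symm) hu
                | exact absurd (h3.trans h1.symm) hv
                | exact h2.trans h3.symm
          exact h9 _ _ hne1 hne2
        have h10 : d * c * d⁻¹ = c := congrArg Subtype.val h8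
        have h11 : c ∈ P ⊓ Subgroup.centralizer {d} := by
          refine ⟨hΩle hcΩ, ?_⟩
          show c ∈ Subgroup.centralizer {d}
          rw [Subgroup.mem_centralizer_singleton_iff]
          calc c * d = (d * c * d⁻¹) * d := by rw [h10]
            _ = d * c := by group
        rw [hfpf, Subgroup.mem_bot] at h11
        exact hc1 h11
      have : k = 2 := by omega
      rw [hk, this]
      norm_num
    by_contra htΩ
    have hcomm_t : ∀ u ∈ Ω, u * t = t * u := fun u hu => (hu.2.1 t ht).symm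
    have htinv : t⁻¹ = t := by
      rw [inv_eq_iff_mul_eq_one, ← pow_two, ht2]
    let E : Subgroup X :=
      { carrier := {u | u ∈ Ω ∨ ∃ w ∈ Ω, u = w * t}
        mul_mem' := by
          rintro a b (ha | ⟨w, hw, rfl⟩) (hb | ⟨w', hw', rfl⟩)
          · exact Or.inl (Ω.mul_mem ha hb)
          · exact Or.inr ⟨a * w', Ω.mul_mem ha hw', by rw [mul_assoc]⟩
          · refine Or.inr ⟨w * b, Ω.mul_mem hw hb, ?_⟩
            rw [mul_assoc, mul_assoc, hcomm_t b hb]
          · refine Or.inl ?_
            have h1 : w * t * (w' * t) = w * w' * (t * t) := by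
              rw [mul_assoc, ← mul_assoc t, ← hcomm_t w' hw', mul_assoc w', mul_assoc]
            rw [h1, ← pow_two, ht2, mul_one]
            exact Ω.mul_mem hw hw'
        one_mem' := Or.inl Ω.one_mem
        inv_mem' := by
          rintro a (ha | ⟨w, hw, rfl⟩)
          · exact Or.inl (Ω.inv_mem ha)
          · refine Or.inr ⟨w⁻¹, Ω.inv_mem hw, ?_⟩
            rw [mul_inv_rev, htinv, hcomm_t _ (Ω.inv_mem hw)] }
    have hEmem : ∀ u, u ∈ E ↔ u ∈ Ω ∨ ∃ w ∈ Ω, u = w * t := fun u => Iff.rfl
    have hEQ : E ≤ Q := by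
      rintro u (hu | ⟨w, hw, rfl⟩)
      · exact hu.1
      · exact Q.mul_mem hw.1 ht
    have hEle : E ≤ P := hEQ.trans hQP
    have hΩE : Ω ≤ E := fun u hu => Or.inl hu
    have hEcomm : ∀ a ∈ E, ∀ b ∈ E, a * b = b * a := by
      rintro a (ha | ⟨w, hw, rfl⟩) b hb
      · exact (ha.2.1 b (hEQ hb)).symm
      · have hb' : b * t = t * b := by
          rcases hb with hb | ⟨w', hw', rfl⟩
          · exact hcomm_t b hb
          · calc w' * t * t = t * w' * t := by rw [hcomm_t w' hw']
              _ = t * (w' * t) := mul_assoc _ _ _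
        have hwb : w * b = b * w := (hw.2.1 b (hEQ hb)).symm
        rw [mul_assoc, ← hb', ← mul_assoc, hwb, mul_assoc]
    have hEsq : ∀ a ∈ E, a ^ 2 = 1 := by
      rintro a (ha | ⟨w, hw, rfl⟩)
      · exact ha.2.2
      · have : Commute w t := hcomm_t w hw
        rw [this.mul_pow, hw.2.2, ht2, one_mul]
    have h1 := hrk E hEle hEcomm hEsq
    have h2 : Nat.card Ω ∣ Nat.card E := Subgroup.card_dvd_of_le hΩE
    have h3 : Nat.card Ω < Nat.card E := by
      apply lt_of_le_of_ne (Nat.le_of_dvd Nat.card_pos h2)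
      intro h
      have h4 : Ω = E := Subgroup.eq_of_le_of_card_ge hΩE (le_of_eq h.symm)
      apply htΩ
      rw [h4]
      exact Or.inr ⟨1, Ω.one_mem, by simp⟩
    rw [hΩ4] at h2 h3
    obtain ⟨m, hm⟩ := h2
    rcases m with _ | _ | m
    · simp at hm
      have := Nat.card_pos (α := E)
      omega
    · omega
    · nlinarith
  -- apply S3773 to `Q`
  have hQ2 : IsPGroup 2 ↥Q := hmin.pgroup
  have hS := (Cfsg.Agent.S3773.result hQ2 ?_ ?_ ?_).1
  · -- the count
    have hcardN : Nat.card {x : ↥Q // x ^ 2 = 1} ≤ 4 := by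
      refine le_trans ?_ hΩcard
      apply Nat.card_le_card_of_injective (fun x : {x : ↥Q // x ^ 2 = 1} =>
        (⟨x.1, hinv x.1 x.1.2 (by simpa using congrArg Subtype.val x.2)⟩ : Ω))
      intro a b hab
      apply Subtype.ext
      apply Subtype.ext
      exact congrArg (fun u : Ω => (u : X)) hab
    have hQ64 : Nat.card Q ≤ 64 := by
      refine le_trans hS ?_
      calc Nat.card {x : ↥Q // x ^ 2 = 1} ^ 3 ≤ 4 ^ 3 := Nat.pow_le_pow_left hcardN 3
        _ = 64 := by norm_num
    -- the free action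
    have hfree := card_dvd_of_free_conj D (↑Q \ ↑(IsMinAct.frat Q)) (by
      rintro g hg x ⟨hx1, hx2⟩
      constructor
      · exact (Subgroup.mem_normalizer_iff.mp (hmin.norm hg) x).mp hx1
      · intro h
        apply hx2
        have hgn : g⁻¹ ∈ Subgroup.normalizer ((IsMinAct.frat Q : Subgroup X) : Set X) :=
          IsMinAct.frat_norm (Subgroup.inv_mem _ (hmin.norm hg))
        have := (Subgroup.mem_normalizer_iff.mp hgn _).mp h
        simpa [mul_assoc] using this) (by
      rintro g hg x ⟨hx1, hx2⟩ hfix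
      by_contra hg1
      obtain ⟨m, hm⟩ := hpowe g (by rw [← hDdef]; exact hg) hg1
      apply hx2
      apply hmin.fixed_le_frat hx1
      rw [Subgroup.mem_centralizer_iff]
      intro a ha
      rw [SetLike.mem_coe, hAdef] at ha
      have hcg : Commute g x := by
        show g * x = x * g
        calc g * x = (g * x * g⁻¹) * g := by group
          _ = x * g := by rw [hfix]
      have hce : Commute e x := by
        rw [← hm]
        exact hcg.pow_left m
      obtain ⟨z, rfl⟩ := ha
      exact (hce.zpow_left z).eq)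
    have hcardD : Nat.card D = 3 ^ n := by
      rw [hDdef, Nat.card_zpowers, hd]
    rw [hcardD] at hfree
    have h9 : 9 ∣ (↑Q \ ↑(IsMinAct.frat Q) : Set X).ncard :=
      dvd_trans (pow_dvd_pow 3 hn2) hfree
    -- orders
    have hFp : IsPGroup 2 (IsMinAct.frat Q) := hmin.pgroup.to_le IsMinAct.frat_le
    obtain ⟨a, ha⟩ := IsPGroup.iff_card.mp hmin.pgroup
    obtain ⟨b, hb⟩ := IsPGroup.iff_card.mp hFp
    have hsub : (↑Q \ ↑(IsMinAct.frat Q) : Set X).ncard + Nat.card (IsMinAct.frat Q) = Nat.card Q := by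
      have h1 := Set.ncard_sdiff_add_ncard_of_subset (s := (↑(IsMinAct.frat Q) : Set X)) (t := (↑Q : Set X))
        (fun u hu => IsMinAct.frat_le hu)
      have e1 : (↑Q : Set X).ncard = Nat.card Q := (Nat.card_coe_set_eq _).symm
      have e2 : (↑(IsMinAct.frat Q) : Set X).ncard = Nat.card (IsMinAct.frat Q) := (Nat.card_coe_set_eq _).symm
      rw [e1, e2] at h1
      exact h1
    have hlt : b < a := by
      have h1 : Nat.card (IsMinAct.frat Q) < Nat.card Q := by
        apply lt_of_le_of_ne (Subgroup.card_le_of_le IsMinAct.frat_le)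
        intro h
        exact hmin.frat_ne (Subgroup.eq_of_le_of_card_ge IsMinAct.frat_le (le_of_eq h.symm))
      rw [ha, hb] at h1
      exact (Nat.pow_lt_pow_iff_right (by norm_num)).mp h1
    obtain ⟨k, rfl⟩ : ∃ k, a = b + k := ⟨a - b, by omega⟩
    have hk0 : 0 < k := by omega
    have hdiff : (↑Q \ ↑(IsMinAct.frat Q) : Set X).ncard = 2 ^ b * (2 ^ k - 1) := by
      have h1 : 2 ^ (b + k) = 2 ^ b * 2 ^ k := pow_add 2 b k
      have h2 : 1 ≤ 2 ^ k := Nat.one_le_two_pow
      rw [ha, hb, h1] at hsub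
      rw [Nat.mul_sub, mul_one]
      omega
    have h9' : 9 ∣ 2 ^ k - 1 := by
      rw [hdiff] at h9
      have hcop9 : Nat.Coprime 9 (2 ^ b) := Nat.Coprime.pow_right _ (by norm_num)
      exact hcop9.dvd_of_dvd_mul_left h9
    have hk6 : 6 ≤ k := by
      by_contra hlt6
      have : k = 1 ∨ k = 2 ∨ k = 3 ∨ k = 4 ∨ k = 5 := by omega
      rcases this with rfl | rfl | rfl | rfl | rfl <;> norm_num at h9'
    have hQsize : 2 ^ (b + k) ≤ 64 := by rw [← ha]; exact hQ64
    have hbk : b + k ≤ 6 := by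
      by_contra hc
      have : 2 ^ 7 ≤ 2 ^ (b + k) := Nat.pow_le_pow_right (by norm_num) (by omega)
      omega
    have hb0 : b = 0 := by omega
    have hk6' : k = 6 := by omega
    -- so the Frattini subgroup is trivial, every element is an involution
    have hF1 : IsMinAct.frat Q = ⊥ := by
      apply Subgroup.eq_bot_of_card_eq
      rw [hb, hb0, pow_zero]
    have hall : ∀ x ∈ Q, x ∈ Ω := by
      intro x hx
      apply hinv x hx
      have := hmin.pow_mem_frat hx
      rw [hF1, Subgroup.mem_bot] at this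
      exact this
    have hle : Q ≤ Ω := hall
    have h1 := Subgroup.card_le_of_le hle
    rw [ha, hb0, hk6'] at h1
    norm_num at h1
    omega
  · -- class two
    show ⁅⁅(⊤ : Subgroup ↥Q), ⊤⁆, ⊤⁆ = ⊥
    rw [Subgroup.commutator_eq_bot_iff_le_centralizer, Subgroup.commutator_le]
    rintro x - y -
    rw [Subgroup.mem_centralizer_iff]
    rintro z -
    apply Subtype.ext
    exact hFcent _ (hmin.comm_mem_frat x.2 y.2) z z.2
  · intro x
    apply Subtype.ext
    exact hmin.pow_four x.2
  · intro x y hx hy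
    apply Subtype.ext
    have hx' : (x : X) ∈ Ω := hinv x x.2 (by simpa using congrArg Subtype.val hx)
    have hy' : (y : X) ∈ Ω := hinv y y.2 (by simpa using congrArg Subtype.val hy)
    exact (Ω.mul_mem hx' hy').2.2

end Cfsg.Agent.S3738
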