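import Cfsg.Statements.S3739
-- import your own Cfsg.Agent.* helpers here
import Mathlib
import Cfsg.Agent.Lib.Coprime.Rank3
import Cfsg.Agent.Lib.Coprime.Action
import Cfsg.Agent.Lib.Basic.Core
import Cfsg.Agent.Lib.Basic.Nilpotent

set_option autoImplicit false
open Cfsg

namespace Cfsg.Agent.S3739

open Subgroup
open scoped commutatorElement

theorem e8_of {G : Type*} [Group G] [Finite G] (W : Subgroup G) (hW : Cfsg.IsElementaryAbelian 2 W)
    (hc : Nat.card W = 4) {x : G} (hx2 : x ^ 2 = 1) (hxW : x ∉ W) (hxc : ∀ w ∈ W, w * x = x * w) :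
    ∃ E : Subgroup G, Cfsg.IsElementaryAbelian 2 E ∧ Nat.card E = 8 := by
  have hWc : ∀ a ∈ W, ∀ b ∈ W, a * b = b * a := fun a ha b hb =>
    congrArg Subtype.val (hW.1.is_comm.comm ⟨a, ha⟩ ⟨b, hb⟩)
  set E := W ⊔ zpowers x with hE
  have hE1 : E ≤ centralizer (W : Set G) := by
    apply sup_le
    · intro a ha
      exact Subgroup.mem_centralizer_iff.mpr fun b hb => hWc b hb a ha
    · rw [Subgroup.zpowers_le]
      exact Subgroup.mem_centralizer_iff.mpr fun b hb => hxc b hb
  have hE2 : E ≤ centralizer ({x} : Set G) := by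
    apply sup_le
    · intro a ha
      exact Subgroup.mem_centralizer_singleton_iff.mpr (hxc a ha)
    · rw [Subgroup.zpowers_le]
      exact Subgroup.mem_centralizer_singleton_iff.mpr rfl
  have hcomm : ∀ a ∈ E, ∀ b ∈ E, a * b = b * a := by
    intro a ha b hb
    have h1 : E ≤ centralizer ({a} : Set G) := by
      apply sup_le
      · intro w hw
        exact Subgroup.mem_centralizer_singleton_iff.mpr (Subgroup.mem_centralizer_iff.mp (hE1 ha) w hw)
      · rw [Subgroup.zpowers_le]
        exact Subgroup.mem_centralizer_singleton_iff.mpr (Subgroup.mem_centralizer_singleton_iff.mp (hE2 ha)).symm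
    exact Subgroup.mem_centralizer_singleton_iff.mp (h1 hb) |>.symm
  have hexp : ∀ a ∈ E, a ^ 2 = 1 := by
    let S : Subgroup G :=
      { carrier := {y | y ∈ E ∧ y ^ 2 = 1}
        mul_mem' := by
          rintro a b ⟨ha, ha'⟩ ⟨hb, hb'⟩
          refine ⟨E.mul_mem ha hb, ?_⟩
          have h1 := hcomm a ha b hb
          calc (a * b) ^ 2 = a * (b * a) * b := by
                simp only [pow_two]
                group
            _ = a * (a * b) * b := by rw [← h1]
            _ = a ^ 2 * b ^ 2 := by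
                simp only [pow_two]
                group
            _ = 1 := by rw [ha', hb', one_mul]
        one_mem' := ⟨E.one_mem, one_pow 2⟩
        inv_mem' := by
          rintro a ⟨ha, ha'⟩
          exact ⟨E.inv_mem ha, by rw [inv_pow, ha', inv_one]⟩ }
    have hle : E ≤ S := by
      apply sup_le
      · intro w hw
        exact ⟨Subgroup.mem_sup_left hw, hW.2 w hw⟩
      · rw [Subgroup.zpowers_le]
        exact ⟨Subgroup.mem_sup_right (Subgroup.mem_zpowers x), hx2⟩
    exact fun a ha => (hle ha).2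
  refine ⟨E, ⟨⟨⟨fun a b => Subtype.ext (hcomm _ a.2 _ b.2)⟩⟩, hexp⟩, ?_⟩
  have hn : zpowers x ≤ normalizer (W : Set G) := by
    rw [Subgroup.zpowers_le]
    apply Cfsg.Agent.Lib.Coprime.Soft.mem_normalizer_of_conj_le
    intro b hb
    rw [← hxc b hb, mul_assoc, mul_inv_cancel, mul_one]
    exact hb
  have h3 := Cfsg.Agent.Lib.Coprime.relIndex_sup_of_le_normalizer W (zpowers x) hn
  have hx1 : x ≠ 1 := fun h => hxW (h ▸ W.one_mem)
  have hord : orderOf x = 2 := orderOf_eq_prime hx2 hx1
  have h4 : W.relIndex (zpowers x) = 2 := by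
    have h5 := Subgroup.relIndex_dvd_card W (zpowers x)
    rw [Nat.card_zpowers, hord] at h5
    rcases (Nat.dvd_prime Nat.prime_two).mp h5 with h6 | h6
    · rw [Subgroup.relIndex_eq_one, Subgroup.zpowers_le] at h6
      exact absurd h6 hxW
    · exact h6
  have h7 := (W.subgroupOf E).card_mul_index
  rw [Nat.card_congr (Subgroup.subgroupOfEquivOfLe (le_sup_left : W ≤ E)).toEquiv, hc] at h7
  have h8 : (W.subgroupOf E).index = 2 := by
    show W.relIndex E = 2
    rw [hE, h3, h4]
  rw [h8] at h7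
  omega

theorem eq_one_or_of_mem_zpowers {G : Type*} [Group G] {w y : G} (hw : w ^ 2 = 1) (hy : y ∈ zpowers w) : y = 1 ∨ y = w := by
  obtain ⟨k, rfl⟩ := hy
  have h2 : w ^ (2 : ℤ) = 1 := by exact_mod_cast hw
  rcases Int.even_or_odd' k with ⟨m, rfl | rfl⟩
  · left
    show w ^ (2 * m) = 1
    rw [zpow_mul, h2, one_zpow]
  · right
    show w ^ (2 * m + 1) = w
    rw [zpow_add, zpow_mul, h2, one_zpow, one_mul, zpow_one]

theorem exists_order_prime_of_ne_bot {H : Type*} [Group H] [Finite H] (p : ℕ) [hp : Fact p.Prime] (hH : IsPGroup p H)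
    (A : Subgroup H) (hA : A ≠ ⊥) : ∃ x ∈ A, x ^ p = 1 ∧ x ≠ 1 := by
  have h1 : IsPGroup p A := hH.to_subgroup A
  obtain ⟨n, hn⟩ := IsPGroup.iff_card.mp h1
  have hn0 : n ≠ 0 := by
    rintro rfl
    rw [pow_zero] at hn
    exact hA (Subgroup.eq_bot_of_card_eq A hn)
  obtain ⟨x, hx⟩ := exists_prime_orderOf_dvd_card' (G := A) p (by rw [hn]; exact dvd_pow_self p hn0)
  refine ⟨x, x.2, ?_, ?_⟩
  · have h2 := pow_orderOf_eq_one x
    rw [hx] at h2
    exact congrArg Subtype.val h2
  · intro h2
    have h3 : x = 1 := Subtype.ext h2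
    rw [h3, orderOf_one] at hx
    exact hp.out.one_lt.ne hx

/-- Let G be a finite group with C_G(O₂(G)) ≤ O₂(G) containing an element of order 6, and let d be a non-identity 3-element of G normalizing a nontrivial elementary abelian 2-subgroup W with C_W(d) = 1. Then G has an elementary abelian subgroup of order 8. -/
theorem result {G : Type*} [Group G] [Finite G] (hchar : Subgroup.centralizer (Cfsg.pCore 2 G : Set G) ≤ Cfsg.pCore 2 G) (hsix : ∃ g : G, orderOf g = 6) (d : G) (hd1 : d ≠ 1) (hd : IsPGroup 3 ↥(Subgroup.zpowers d)) (W : Subgroup G) (hW : Cfsg.IsElementaryAbelian 2 W) (hW1 : W ≠ ⊥) (hdW : d ∈ Subgroup.normalizer (W : Set G)) (hfpf : W ⊓ Subgroup.centralizer {d} = ⊥) : ∃ E : Subgroup G, Cfsg.IsElementaryAbelian 2 E ∧ Nat.card E = 8 := by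
  classical
  haveI := Fintype.ofFinite G
  by_contra hno
  have hno' : ∀ E : Subgroup G, Cfsg.IsElementaryAbelian 2 E → Nat.card E ≠ 8 := fun E hE h => hno ⟨E, hE, h⟩
  haveI : Fact (Nat.Prime 2) := ⟨Nat.prime_two⟩
  haveI : Fact (Nat.Prime 3) := ⟨Nat.prime_three⟩
  have hWc : ∀ a ∈ W, ∀ b ∈ W, a * b = b * a := fun a ha b hb =>
    congrArg Subtype.val (hW.1.is_comm.comm ⟨a, ha⟩ ⟨b, hb⟩)
  -- `d` on `W`
  have hdW' : ∀ w ∈ W, d * w * d⁻¹ ∈ W := fun w hw => (Subgroup.mem_normalizer_iff.mp hdW w).mp hw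
  have hdf : ∀ w ∈ W, d * w * d⁻¹ = w → w = 1 := by
    intro w hw h
    have h1 : w ∈ W ⊓ centralizer ({d} : Set G) := by
      refine ⟨hw, ?_⟩
      show w ∈ centralizer _
      rw [Subgroup.mem_centralizer_singleton_iff]
      calc w * d = (d * w * d⁻¹) * d := by rw [h]
        _ = d * w := by group
    rw [hfpf] at h1
    exact h1
  obtain ⟨k₃, hk₃⟩ : ∃ k, d ^ (3 ^ k) = 1 := by
    obtain ⟨k, hk⟩ := hd ⟨d, Subgroup.mem_zpowers d⟩
    exact ⟨k, congrArg Subtype.val hk⟩
  -- order of `W`
  have hWp : IsPGroup 2 W := fun w => ⟨1, by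
    apply Subtype.ext
    have := hW.2 w.1 w.2
    simpa using this⟩
  have hWcard : Nat.card W = 4 := by
    obtain ⟨a, ha⟩ := IsPGroup.iff_card.mp hWp
    rcases a with _ | _ | _ | a
    · rw [pow_zero] at ha
      exact absurd (Subgroup.eq_bot_of_card_eq W ha) hW1
    · exfalso
      obtain ⟨w, hw, hw1⟩ := (Subgroup.bot_or_exists_ne_one W).resolve_left hW1
      have hle : zpowers w ≤ W := by rwa [Subgroup.zpowers_le]
      have hw2 := hW.2 w hw
      have hord : orderOf w = 2 := orderOf_eq_prime hw2 hw1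
      have hEq : zpowers w = W := Subgroup.eq_of_le_of_card_ge hle (by
        rw [Nat.card_zpowers, hord, ha]
        norm_num)
      have h1 := hdW' w hw
      rw [← hEq] at h1
      rcases eq_one_or_of_mem_zpowers hw2 h1 with h2 | h2
      · apply hw1
        have : d * w * d⁻¹ * d = 1 * d := by rw [h2]
        have h3 : d * w = d * 1 := by simpa using this
        exact mul_left_cancel h3
      · exact hw1 (hdf w hw h2)
    · exact ha
    · exfalso
      have hdvd : 2 ^ 3 ∣ Nat.card W := by
        rw [ha]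
        exact pow_dvd_pow 2 (by omega)
      obtain ⟨K, hK⟩ := Sylow.exists_subgroup_card_pow_prime 2 hdvd
      apply hno' (K.map W.subtype)
      · refine ⟨⟨⟨?_⟩⟩, ?_⟩
        · rintro ⟨_, a, -, rfl⟩ ⟨_, b, -, rfl⟩
          exact Subtype.ext (hWc _ a.2 _ b.2)
        · rintro _ ⟨a, -, rfl⟩
          exact hW.2 _ a.2
      · rw [Subgroup.card_map_of_injective W.subtype_injective, hK]
        norm_num
  -- `Q`
  set Q := Cfsg.pCore 2 G with hQ
  haveI hQn : Q.Normal := Cfsg.Agent.Lib.Basic.pCore_normal 2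
  have hQp : IsPGroup 2 Q := Cfsg.Agent.Lib.Basic.pCore_isPGroup 2
  obtain ⟨g, hg⟩ := hsix
  have hg6 : g ^ 6 = 1 := by rw [← hg]; exact pow_orderOf_eq_one g
  have hQ1 : Q ≠ ⊥ := by
    intro h
    have h1 : g ∈ Q := by
      apply hchar
      rw [h, Subgroup.mem_centralizer_iff]
      intro x hx
      have hx1 : x = 1 := hx
      rw [hx1, one_mul, mul_one]
    rw [h] at h1
    have h2 : g = 1 := h1
    rw [h2, orderOf_one] at hg
    omega
  set N := Q ⊓ centralizer (Q : Set G) with hN
  haveI hNn : N.Normal := by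
    rw [hN]
    exact Subgroup.normal_inf_normal Q (centralizer (Q : Set G))
  have hN1 : N ≠ ⊥ := by
    haveI : Nontrivial Q := (Subgroup.nontrivial_iff_ne_bot Q).mpr hQ1
    haveI := hQp.center_nontrivial
    obtain ⟨z, hz⟩ := exists_ne (1 : center Q)
    intro h4
    have h5 : ((z : Q) : G) ∈ N := by
      refine ⟨(z : Q).2, ?_⟩
      show _ ∈ centralizer _
      rw [Subgroup.mem_centralizer_iff]
      intro m hm
      have := (Subgroup.mem_center_iff.mp z.2) ⟨m, hm⟩
      exact congrArg Subtype.val this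
    rw [h4] at h5
    apply hz
    apply Subtype.ext
    apply Subtype.ext
    exact h5
  obtain ⟨S, hWS⟩ := IsPGroup.exists_le_sylow hWp
  have hQS : Q ≤ S := Cfsg.Agent.Lib.Basic.pCore_le_sylow S
  have hNS : N ≤ S := inf_le_left.trans hQS
  have hA : N.subgroupOf S ≠ ⊥ := by
    rw [Ne, Subgroup.subgroupOf_eq_bot]
    intro h
    apply hN1
    rw [eq_bot_iff]
    intro x hx
    have := Subgroup.disjoint_def.mp h hx (hNS hx)
    exact this
  haveI hSnil : Group.IsNilpotent S := (S.isPGroup').isNilpotent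
  have h1 := Cfsg.Agent.Lib.Basic.normal_inf_center_ne_bot (N.subgroupOf S) hA
  obtain ⟨z', hz', hz'2, hz'1⟩ := exists_order_prime_of_ne_bot 2 S.isPGroup' _ h1
  set z : G := (z' : G) with hzdef
  have hz1 : z ≠ 1 := fun h => hz'1 (Subtype.ext h)
  have hz2 : z ^ 2 = 1 := congrArg Subtype.val hz'2
  have hzN : z ∈ N := hz'.1
  have hzcen : ∀ w ∈ W, w * z = z * w := by
    intro w hw
    have := (Subgroup.mem_center_iff.mp hz'.2) ⟨w, hWS hw⟩
    exact congrArg Subtype.val this
  have hinvW : ∀ x : G, x ^ 2 = 1 → (∀ w ∈ W, w * x = x * w) → x ∈ W := by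
    intro x hx2 hxc
    by_contra hxW
    obtain ⟨E, hE1, hE2⟩ := e8_of W hW hWcard hx2 hxW hxc
    exact hno' E hE1 hE2
  have hzW : z ∈ W := hinvW z hz2 hzcen
  -- the three involutions
  let c : G → G := fun x => d * x * d⁻¹
  have hcW : ∀ w ∈ W, c w ∈ W := hdW'
  have hcinj : ∀ x y, c x = c y → x = y := by
    intro x y h
    have h1 : d * x * d⁻¹ = d * y * d⁻¹ := h
    exact mul_left_cancel (mul_right_cancel h1)
  have hc1 : ∀ x, c x = 1 → x = 1 := by
    intro x h
    apply hcinj
    rw [h]
    simp [c]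
  have hcne : ∀ w ∈ W, w ≠ 1 → c w ≠ w := fun w hw h1 h2 => h1 (hdf w hw h2)
  have hcc : ∀ w ∈ W, w ≠ 1 → c (c w) ≠ w := by
    intro v hv h1 h2
    have hpow : ∀ m : ℕ, d ^ (2 * m + 1) * v * (d ^ (2 * m + 1))⁻¹ = c v := by
      intro m
      induction m with
      | zero => simp [c]
      | succ m ih =>
        have e : 2 * (m + 1) + 1 = 2 + (2 * m + 1) := by ring
        have h3 : d ^ 2 * (c v) * (d ^ 2)⁻¹ = c v := by
          have h4 : c (c v) = v := h2
          have h5 : d ^ 2 * (c v) * (d ^ 2)⁻¹ = c (c (c v)) := by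
            simp only [c, pow_two]
            group
          rw [h5]
          exact congrArg c h4
        rw [e, pow_add]
        calc d ^ 2 * d ^ (2 * m + 1) * v * (d ^ 2 * d ^ (2 * m + 1))⁻¹
            = d ^ 2 * (d ^ (2 * m + 1) * v * (d ^ (2 * m + 1))⁻¹) * (d ^ 2)⁻¹ := by group
          _ = d ^ 2 * c v * (d ^ 2)⁻¹ := by rw [ih]
          _ = c v := h3
    obtain ⟨m, hm⟩ : Odd (3 ^ k₃) := Odd.pow (by decide)
    have h3 := hpow m
    rw [← hm, hk₃] at h3
    simp at h3
    exact hcne v hv h1 h3.symm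
  have hWset : ∀ z ∈ W, z ≠ 1 → ∀ w ∈ W, w = 1 ∨ w = z ∨ w = c z ∨ w = c (c z) := by
    intro z hzW hz1 w hw
    have hz₁1 : c z ≠ 1 := fun h => hz1 (hc1 _ h)
    have hz₂1 : c (c z) ≠ 1 := fun h => hz₁1 (hc1 _ h)
    have hne01 := hcne z hzW hz1
    have hne02 := hcc z hzW hz1
    have hne12 := hcne (c z) (hcW _ hzW) hz₁1
    let T : Finset G := Finset.univ.filter (· ∈ W)
    have hTc : T.card = 4 := by
      rw [← hWcard, Nat.card_eq_fintype_card, Fintype.card_subtype]
    let S' : Finset G := {1, z, c z, c (c z)}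
    have hSc : S'.card = 4 := by
      rw [Finset.card_insert_of_notMem, Finset.card_insert_of_notMem, Finset.card_insert_of_notMem,
        Finset.card_singleton]
      · simpa using hne12.symm
      · simp only [Finset.mem_insert, Finset.mem_singleton, not_or]
        exact ⟨hne01.symm, hne02.symm⟩
      · simp only [Finset.mem_insert, Finset.mem_singleton, not_or]
        exact ⟨fun h => hz1 h.symm, fun h => hz₁1 h.symm, fun h => hz₂1 h.symm⟩
    have hST : S' ⊆ T := by
      intro x hx
      refine Finset.mem_filter.mpr ⟨Finset.mem_univ _, ?_⟩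
      simp only [S', Finset.mem_insert, Finset.mem_singleton] at hx
      rcases hx with rfl | rfl | rfl | rfl
      · exact W.one_mem
      · exact hzW
      · exact hcW _ hzW
      · exact hcW _ (hcW _ hzW)
    have heq := Finset.eq_of_subset_of_card_le hST (by rw [hTc, hSc])
    have h1 : w ∈ S' := by
      rw [heq]
      exact Finset.mem_filter.mpr ⟨Finset.mem_univ _, hw⟩
    simpa only [S', Finset.mem_insert, Finset.mem_singleton] using h1
  have hcN : ∀ x ∈ N, c x ∈ N := fun x hx => hNn.conj_mem x hx d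
  have hWN : W ≤ N := by
    intro w hw
    rcases hWset z hzW hz1 w hw with rfl | rfl | rfl | rfl
    · exact N.one_mem
    · exact hzN
    · exact hcN _ hzN
    · exact hcN _ (hcN _ hzN)
  have hWQ : W ≤ Q := hWN.trans inf_le_left
  have hWcQ : ∀ w ∈ W, ∀ x ∈ Q, w * x = x * w := by
    intro w hw x hx
    have h2 : w ∈ centralizer (Q : Set G) := (hWN hw).2
    exact (Subgroup.mem_centralizer_iff.mp h2 x hx).symm
  haveI hWn : W.Normal := ⟨fun w hw x => by
    apply hinvW
    · rw [conj_pow, hW.2 w hw, mul_one, mul_inv_cancel]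
    · intro v hv
      exact hWcQ v hv _ (hQn.conj_mem w (hWQ hw) x)⟩
  -- the element `u`
  set u := g ^ 2 with hu
  set t := g ^ 3 with ht
  have hu3 : u ^ 3 = 1 := by
    rw [hu, ← pow_mul]
    exact hg6
  have ht2 : t ^ 2 = 1 := by
    rw [ht, ← pow_mul]
    exact hg6
  have hu1 : u ≠ 1 := pow_ne_one_of_lt_orderOf (by norm_num) (by omega)
  have ht1 : t ≠ 1 := pow_ne_one_of_lt_orderOf (by norm_num) (by omega)
  have hut : u * t = t * u := by
    rw [hu, ht, ← pow_add, ← pow_add, add_comm]
  have huC : u ∈ centralizer (W : Set G) := by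
    rw [Subgroup.mem_centralizer_iff]
    by_contra hcon
    push Not at hcon
    obtain ⟨w, hw, hwu⟩ := hcon
    let e : G → G := fun x => u * x * u⁻¹
    have heW : ∀ x ∈ W, e x ∈ W := fun x hx => hWn.conj_mem x hx u
    have heinj : ∀ x y, e x = e y → x = y := by
      intro x y h
      have h1 : u * x * u⁻¹ = u * y * u⁻¹ := h
      exact mul_left_cancel (mul_right_cancel h1)
    have he3 : ∀ x, e (e (e x)) = x := by
      intro x
      have h1 : u * u * u = 1 := by rw [← hu3, pow_succ, pow_two]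
      have h2 : e (e (e x)) = (u * u * u) * x * (u * u * u)⁻¹ := by
        simp only [e]
        group
      rw [h2, h1]
      simp
    have hw1 : w ≠ 1 := by
      rintro rfl
      simp at hwu
    have hew : e w ≠ w := by
      intro h
      apply hwu
      have h1 : u * w * u⁻¹ = w := h
      calc w * u = (u * w * u⁻¹) * u := by rw [h1]
        _ = u * w := by group
    have heew : e (e w) ≠ w := by
      intro h
      apply hew
      have h1 := he3 w
      rw [h] at h1
      exact h1
    have heew' : e (e w) ≠ e w := fun h => hew (heinj _ _ h)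
    have he1 : ∀ x, x ≠ 1 → e x ≠ 1 := by
      intro x hx h
      apply hx
      apply heinj
      rw [h]
      simp [e]
    have ht_e : ∀ x, t * e x * t⁻¹ = e (t * x * t⁻¹) := by
      intro x
      have h1 : t * u = u * t := hut.symm
      have h2 : u⁻¹ * t⁻¹ = t⁻¹ * u⁻¹ := by
        rw [← mul_inv_rev, ← mul_inv_rev, hut]
      calc t * (u * x * u⁻¹) * t⁻¹ = (t * u) * x * (u⁻¹ * t⁻¹) := by group
        _ = (u * t) * x * (t⁻¹ * u⁻¹) := by rw [h1, h2]
        _ = u * (t * x * t⁻¹) * u⁻¹ := by group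
    -- the set `W` under `e`
    have hWe : ∀ x ∈ W, x = 1 ∨ x = w ∨ x = e w ∨ x = e (e w) := by
      intro x hx
      let T : Finset G := Finset.univ.filter (· ∈ W)
      have hTc : T.card = 4 := by
        rw [← hWcard, Nat.card_eq_fintype_card, Fintype.card_subtype]
      let S' : Finset G := {1, w, e w, e (e w)}
      have hSc : S'.card = 4 := by
        rw [Finset.card_insert_of_notMem, Finset.card_insert_of_notMem, Finset.card_insert_of_notMem,
          Finset.card_singleton]
        · simpa using heew'.symm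
        · simp only [Finset.mem_insert, Finset.mem_singleton, not_or]
          exact ⟨hew.symm, heew.symm⟩
        · simp only [Finset.mem_insert, Finset.mem_singleton, not_or]
          exact ⟨fun h => hw1 h.symm, fun h => he1 _ hw1 h.symm, fun h => he1 _ (he1 _ hw1) h.symm⟩
      have hST : S' ⊆ T := by
        intro y hy
        refine Finset.mem_filter.mpr ⟨Finset.mem_univ _, ?_⟩
        simp only [S', Finset.mem_insert, Finset.mem_singleton] at hy
        rcases hy with rfl | rfl | rfl | rfl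
        · exact W.one_mem
        · exact hw
        · exact heW _ hw
        · exact heW _ (heW _ hw)
      have heq := Finset.eq_of_subset_of_card_le hST (by rw [hTc, hSc])
      have h1 : x ∈ S' := by
        rw [heq]
        exact Finset.mem_filter.mpr ⟨Finset.mem_univ _, hx⟩
      simpa only [S', Finset.mem_insert, Finset.mem_singleton] using h1
    have htw := hWn.conj_mem w hw t
    have htw1 : t * w * t⁻¹ ≠ 1 := by
      intro h
      apply hw1
      have : t * w * t⁻¹ * t = 1 * t := by rw [h]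
      have h3 : t * w = t * 1 := by simpa using this
      exact mul_left_cancel h3
    have htt : ∀ x, t * (t * x * t⁻¹) * t⁻¹ = x := by
      intro x
      have h1 : t * t = 1 := by rw [← pow_two]; exact ht2
      calc t * (t * x * t⁻¹) * t⁻¹ = (t * t) * x * (t * t)⁻¹ := by group
        _ = x := by rw [h1]; simp
    rcases hWe _ htw with h | h | h | h
    · exact htw1 h
    · -- `t` fixes `w`
      have h2 : t * e w * t⁻¹ = e w := by rw [ht_e, h]
      have h3 : t * e (e w) * t⁻¹ = e (e w) := by rw [ht_e, h2]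
      have htW : t ∈ W := by
        apply hinvW t ht2
        intro v hv
        have h5 : t * v * t⁻¹ = v := by
          rcases hWe v hv with rfl | rfl | rfl | rfl
          · simp
          · exact h
          · exact h2
          · exact h3
        calc v * t = (t * v * t⁻¹) * t := by rw [h5]
          _ = t * v := by group
      have h6 : e t = t := by
        show u * t * u⁻¹ = t
        rw [hut]
        group
      rcases hWe t htW with h7 | h7 | h7 | h7
      · exact ht1 h7
      · rw [h7] at h6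
        exact hew h6
      · rw [h7] at h6
        exact heew' h6
      · rw [h7] at h6
        have h8 := he3 w
        rw [h6] at h8
        exact heew h8
    · -- `t w = e w`
      have h2 : t * (t * w * t⁻¹) * t⁻¹ = e (e w) := by rw [h, ht_e, h]
      rw [htt] at h2
      exact heew h2.symm
    · have h2 : t * (t * w * t⁻¹) * t⁻¹ = e w := by
        rw [h, ht_e, ht_e, h, he3]
      rw [htt] at h2
      exact hew h2.symm
  -- passing to a central element of a Sylow `3`-subgroup
  obtain ⟨P₃, hdP₃⟩ := IsPGroup.exists_le_sylow hd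
  have hdP : d ∈ (P₃ : Subgroup G) := hdP₃ (Subgroup.mem_zpowers d)
  have huord : orderOf u = 3 := orderOf_eq_prime hu3 hu1
  have huP : IsPGroup 3 (zpowers u) := IsPGroup.of_card (n := 1) (by
    rw [Nat.card_zpowers, huord, pow_one])
  obtain ⟨P', huP'⟩ := IsPGroup.exists_le_sylow huP
  obtain ⟨g₀, hg₀⟩ := MulAction.exists_smul_eq G P' P₃
  have hu₁ : g₀ * u * g₀⁻¹ ∈ (P₃ : Subgroup G) := by
    rw [← hg₀]
    exact ⟨u, huP' (Subgroup.mem_zpowers u), rfl⟩
  have hu₁C : g₀ * u * g₀⁻¹ ∈ centralizer (W : Set G) :=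
    (inferInstance : (centralizer (W : Set G)).Normal).conj_mem u huC g₀
  have hu₁1 : g₀ * u * g₀⁻¹ ≠ 1 := by
    intro h
    apply hu1
    have : g₀ * u * g₀⁻¹ * g₀ = 1 * g₀ := by rw [h]
    have h3 : g₀ * u = g₀ * 1 := by simpa using this
    exact mul_left_cancel h3
  have hA₃ : (centralizer (W : Set G)).subgroupOf P₃ ≠ ⊥ := by
    intro h
    have h1 : (⟨_, hu₁⟩ : P₃) ∈ (centralizer (W : Set G)).subgroupOf P₃ := hu₁C
    rw [h] at h1
    have h2 : (⟨_, hu₁⟩ : P₃) = 1 := h1
    exact hu₁1 (congrArg Subtype.val h2)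
  haveI hPnil : Group.IsNilpotent P₃ := (P₃.isPGroup').isNilpotent
  have h3 := Cfsg.Agent.Lib.Basic.normal_inf_center_ne_bot ((centralizer (W : Set G)).subgroupOf P₃) hA₃
  obtain ⟨x, hx, hx3, hx1⟩ := exists_order_prime_of_ne_bot 3 P₃.isPGroup' _ h3
  set u₀ : G := (x : G) with hu₀
  have hu₀3 : u₀ ^ 3 = 1 := congrArg Subtype.val hx3
  have hu₀1 : u₀ ≠ 1 := fun h => hx1 (Subtype.ext h)
  have hu₀C : u₀ ∈ centralizer (W : Set G) := hx.1
  have hu₀d : u₀ * d = d * u₀ := by
    have := (Subgroup.mem_center_iff.mp hx.2) ⟨d, hdP⟩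
    exact (congrArg Subtype.val this).symm
  -- apply the theorem
  have hmain := Cfsg.Agent.Lib.Coprime.Rank3.t1 hQp (W.subgroupOf Q)
    (by rw [Nat.card_congr (Subgroup.subgroupOfEquivOfLe hWQ).toEquiv, hWcard])
    (by
      intro y
      constructor
      · intro hy
        exact Subtype.ext (hW.2 _ hy)
      · intro hy
        apply hinvW
        · exact congrArg Subtype.val hy
        · intro w hw
          exact hWcQ w hw _ y.2)
    (by
      intro v hv y
      exact Subtype.ext (hWcQ _ hv _ y.2))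
    (MulAut.conjNormal u₀) (MulAut.conjNormal d)
    (by rw [← map_mul, ← map_mul, hu₀d])
    (by rw [← map_pow, hu₀3, map_one])
    ⟨k₃, by rw [← map_pow, hk₃, map_one]⟩
    (by
      intro v hv h
      apply Subtype.ext
      apply hdf _ hv
      have := congrArg Subtype.val h
      simpa using this)
    (by
      intro v hv
      apply Subtype.ext
      have h2 : (v : G) * u₀ = u₀ * (v : G) := Subgroup.mem_centralizer_iff.mp hu₀C _ hv
      show u₀ * (v : G) * u₀⁻¹ = v
      rw [← h2]
      group)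
  have hu₀Q : u₀ ∈ Q := by
    apply hchar
    rw [Subgroup.mem_centralizer_iff]
    intro y hy
    have h2 : (MulAut.conjNormal u₀ : MulAut Q) ⟨y, hy⟩ = ⟨y, hy⟩ := by rw [hmain]; rfl
    have h4 : u₀ * y * u₀⁻¹ = y := by
      have := congrArg Subtype.val h2
      simpa using this
    calc y * u₀ = (u₀ * y * u₀⁻¹) * u₀ := by rw [h4]
      _ = u₀ * y := by group
  have h5 : (⟨u₀, hu₀Q⟩ : Q) = 1 := Cfsg.Agent.Lib.Coprime.Rank3.eq_one_of_pow_three hQp (Subtype.ext hu₀3)
  exact hu₀1 (congrArg Subtype.val h5)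

end Cfsg.Agent.S3739
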