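import Cfsg.Statements.S3742
-- import your own Cfsg.Agent.* helpers here
import Mathlib

set_option autoImplicit false
open Cfsg

namespace Cfsg.Agent.S3742

open QuaternionGroup

abbrev Q8 := QuaternionGroup 2

def ev (u v : Q8) : Q8 → Q8
  | a k => u ^ k.val
  | xa k => v * u ^ k.val

def good (u v : Q8) : Prop := u * u = a 2 ∧ v * v = a 2 ∧ v ≠ u ∧ v ≠ u⁻¹

instance (u v : Q8) : Decidable (good u v) := by unfold good; infer_instance

def cls (p q r : Q8) : Bool × Bool :=
  let s1 : Bool := decide (a 1 = p ∨ a 1 = q ∨ a 1 = r)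
  let s2 : Bool := decide (xa 0 = p ∨ xa 0 = q ∨ xa 0 = r)
  let s3 : Bool := decide (xa 3 = p ∨ xa 3 = q ∨ xa 3 = r)
  (xor s1 s2, xor s1 s3)

def act (u v : Q8) (d : Bool × Bool) : Bool × Bool :=
  cls u (if d.1 then v⁻¹ else v) (if d.2 then (u * v)⁻¹ else u * v)

theorem ev_mul : ∀ u v : Q8, good u v → ∀ x y : Q8, ev u v (x * y) = ev u v x * ev u v y := by
  decide +kernel

theorem ev_inj : ∀ u v : Q8, good u v → ∀ x y : Q8, ev u v x = ev u v y → x = y := by
  decide +kernel

theorem act_comp : ∀ u v u' v' : Q8, good u v → good u' v' → ∀ d : Bool × Bool,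
    act (ev u v u') (ev u v v') d = act u v (act u' v' d) := by
  decide +kernel

theorem act_one : ∀ d : Bool × Bool, act (a 1) (xa 0) d = d := by
  decide +kernel

theorem act_inj : ∀ u v u' v' : Q8, good u v → good u' v' →
    (∀ d : Bool × Bool, act u v d = act u' v' d) → u = u' ∧ v = v' := by
  decide +kernel

theorem act_surj : ∀ σ : Equiv.Perm (Bool × Bool), ∃ u v : Q8, good u v ∧ ∀ d, act u v d = σ d := by
  decide +kernel

theorem ev_good (φ : MulAut Q8) : good (φ (a 1)) (φ (xa 0)) := by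
  have h1 : ∀ x : Q8, x ≠ 1 → x * x = 1 ∨ x * x = a 2 := by decide +kernel
  have e1 : φ (a 1) * φ (a 1) = φ (a 2) := by rw [← map_mul]; rfl
  have e2 : φ (xa 0) * φ (xa 0) = φ (a 2) := by rw [← map_mul]; rfl
  have h2 : φ (a 2) = a 2 := by
    have h3 : φ (a 1) ≠ 1 := by
      intro h
      have : φ (a 1) = φ 1 := by rw [h, map_one]
      exact absurd (φ.injective this) (by decide +kernel)
    rcases h1 _ h3 with h | h
    · rw [e1] at h
      have : φ (a 2) = φ 1 := by rw [h, map_one]
      exact absurd (φ.injective this) (by decide +kernel)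
    · rwa [e1] at h
  refine ⟨by rw [e1, h2], by rw [e2, h2], ?_, ?_⟩
  · intro h
    exact absurd (φ.injective h) (by decide +kernel)
  · intro h
    rw [← map_inv] at h
    exact absurd (φ.injective h) (by decide +kernel)

theorem ev_eq (φ : MulAut Q8) : ∀ x : Q8, φ x = ev (φ (a 1)) (φ (xa 0)) x := by
  have h1 : ∀ k : ZMod 4, (a 1 : Q8) ^ k.val = a k := by decide +kernel
  have h2 : ∀ k : ZMod 4, (xa 0 : Q8) * (a 1) ^ k.val = xa k := by decide +kernel
  rintro (k | k)
  · show φ (a k) = φ (a 1) ^ k.val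
    rw [← map_pow, h1]
  · show φ (xa k) = φ (xa 0) * φ (a 1) ^ k.val
    rw [← map_pow, ← map_mul, h2]

theorem act_mul (φ ψ : MulAut Q8) (d : Bool × Bool) :
    act ((φ * ψ) (a 1)) ((φ * ψ) (xa 0)) d = act (φ (a 1)) (φ (xa 0)) (act (ψ (a 1)) (ψ (xa 0)) d) := by
  rw [← act_comp _ _ _ _ (ev_good φ) (ev_good ψ)]
  rw [MulAut.mul_apply, MulAut.mul_apply, ev_eq φ (ψ (a 1)), ev_eq φ (ψ (xa 0))]

/-- the action on the four diagonals -/
def thetaFun (φ : MulAut Q8) : Equiv.Perm (Bool × Bool) where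
  toFun := act (φ (a 1)) (φ (xa 0))
  invFun := act (φ⁻¹ (a 1)) (φ⁻¹ (xa 0))
  left_inv := by
    intro d
    rw [← act_mul]
    simp only [inv_mul_cancel]
    exact act_one d
  right_inv := by
    intro d
    rw [← act_mul]
    simp only [mul_inv_cancel]
    exact act_one d

def theta : MulAut Q8 →* Equiv.Perm (Bool × Bool) where
  toFun := thetaFun
  map_one' := by
    ext d : 1
    exact act_one d
  map_mul' := by
    intro φ ψ
    ext d : 1
    exact act_mul φ ψ d

theorem theta_inj : Function.Injective theta := by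
  intro φ ψ h
  have h1 : ∀ d, act (φ (a 1)) (φ (xa 0)) d = act (ψ (a 1)) (ψ (xa 0)) d := by
    intro d
    exact congrArg (fun σ : Equiv.Perm (Bool × Bool) => σ d) h
  obtain ⟨e1, e2⟩ := act_inj _ _ _ _ (ev_good φ) (ev_good ψ) h1
  ext x
  rw [ev_eq φ, ev_eq ψ, e1, e2]

theorem ev_autO (u v : Q8) (h : good u v) : Function.Bijective (ev u v) :=
  (Finite.injective_iff_bijective).mp (fun x y e => ev_inj u v h x y e)

noncomputable def autOf (u v : Q8) (h : good u v) : MulAut Q8 :=
  MulEquiv.ofBijective (⟨⟨ev u v, by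
    have : ev u v 1 * ev u v 1 = ev u v 1 := by
      rw [← ev_mul u v h]; simp
    simpa using this⟩, ev_mul u v h⟩ : Q8 →* Q8) (ev_autO u v h)

theorem theta_surj : Function.Surjective theta := by
  intro σ
  obtain ⟨u, v, h, e⟩ := act_surj σ
  refine ⟨autOf u v h, ?_⟩
  have e1 : (autOf u v h) (a 1) = u := by
    show ev u v (a 1) = u
    have : ∀ u v : Q8, ev u v (a 1) = u := by decide +kernel
    exact this u v
  have e2 : (autOf u v h) (xa 0) = v := by
    show ev u v (xa 0) = v
    have : ∀ u v : Q8, ev u v (xa 0) = v := by decide +kernel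
    exact this u v
  ext d : 1
  show act ((autOf u v h) (a 1)) ((autOf u v h) (xa 0)) d = σ d
  rw [e1, e2, e]

/-- The automorphism group of the quaternion group of order 8 is isomorphic to the symmetric group of degree 4. -/
theorem result : Nonempty (MulAut (QuaternionGroup 2) ≃* Equiv.Perm (Fin 4)) := by
  have e : Bool × Bool ≃ Fin 4 := Fintype.equivFinOfCardEq (by simp)
  exact ⟨(MulEquiv.ofBijective theta ⟨theta_inj, theta_surj⟩).trans (Equiv.permCongrHom e)⟩

end Cfsg.Agent.S3742
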