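import Cfsg.Statements.S3743
-- import your own Cfsg.Agent.* helpers here
import Mathlib
import Cfsg.Agent.Lib.Components.Basic

set_option autoImplicit false
open Cfsg

namespace Cfsg.Agent.S3743

open Cfsg.Agent.Lib.Components

/-- In a finite group G, every subnormal nilpotent subgroup lies in the Fitting subgroup F(G), and, for a set of primes π, every subnormal subgroup all of whose prime divisors lie in π lies in O_π(G). -/
theorem result {G : Type*} [Group G] [Finite G] (A : Subgroup G) (hA : A.IsSubnormal) : (Group.IsNilpotent A → A ≤ Cfsg.fittingSubgroup G) ∧ ∀ π : Set ℕ, (∀ p : ℕ, p.Prime → p ∣ Nat.card A → p ∈ π) → A ≤ Cfsg.piCore π G := by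
  refine ⟨fun hn => subnormal_le_fitting hA hn, fun π hπ => ?_⟩
  obtain ⟨N, hN, hAN, hPN⟩ := exists_normal_of_subnormal
    (fun X : Subgroup G => ∀ p : ℕ, p.Prime → p ∣ Nat.card X → p ∈ π)
    (fun X g hX p hp hd => hX p hp (by
      rwa [Subgroup.card_map_of_injective (f := (MulAut.conj g).toMonoidHom)
        (MulEquiv.injective _)] at hd))
    (fun p hp hd => by
      simp at hd
      exact absurd hd hp.one_lt.ne')
    (fun X Y hXY _ hX hY p hp hd => by
      have := hd.trans (card_sup_dvd_of_le_normalizer hXY)
      rcases (Nat.Prime.dvd_mul hp).mp this with h | h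
      · exact hX p hp h
      · exact hY p hp h)
    hA hπ
  exact hAN.trans (le_sSup ⟨hN, hPN⟩)

end Cfsg.Agent.S3743
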