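import Cfsg.Statements.S3744
-- import your own Cfsg.Agent.* helpers here
import Mathlib
import Cfsg.Agent.Lib.Coprime.PSolvable

set_option autoImplicit false
open Cfsg

namespace Cfsg.Agent.S3744

open Cfsg.Agent.Lib.Coprime

/-- A finite p-soluble group has a p-complement, all its p-complements are conjugate, and every subgroup of order prime to p lies in one of them. Here a p-complement is a subgroup of order prime to p whose index is a power of p. -/
theorem result {G : Type*} [Group G] [Finite G] {p : ℕ} [Fact p.Prime] (hG : Cfsg.IsPSolvable p G) : (∃ H : Subgroup G, (Nat.card H).Coprime p ∧ ∃ n : ℕ, H.index = p ^ n) ∧ (∀ H₁ H₂ : Subgroup G, (Nat.card H₁).Coprime p → (∃ n : ℕ, H₁.index = p ^ n) → (Nat.card H₂).Coprime p → (∃ n : ℕ, H₂.index = p ^ n) → ∃ g : G, H₂ = H₁.map (MulAut.conj g).toMonoidHom) ∧ (∀ U : Subgroup G, (Nat.card U).Coprime p → ∃ H : Subgroup G, (Nat.card H).Coprime p ∧ (∃ n : ℕ, H.index = p ^ n) ∧ ∃ g : G, U.map (MulAut.conj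 g).toMonoidHom ≤ H) := by
  obtain ⟨H, hH, hidx, hU⟩ := exists_pComplement _ rfl hG
  have hcard : ∀ K : Subgroup G, (Nat.card K).Coprime p → (∃ n : ℕ, K.index = p ^ n) →
      Nat.card K = Nat.card H := by
    rintro K hK ⟨m, hm⟩
    obtain ⟨n, hn⟩ := hidx
    have e : Nat.card K * p ^ m = Nat.card H * p ^ n := by
      rw [← hm, ← hn, Subgroup.card_mul_index, Subgroup.card_mul_index]
    apply Nat.dvd_antisymm
    · exact (Nat.Coprime.pow_right n hK).dvd_of_dvd_mul_right ⟨p ^ m, e.symm⟩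
    · exact (Nat.Coprime.pow_right m hH).dvd_of_dvd_mul_right ⟨p ^ n, e⟩
  have hconj : ∀ K : Subgroup G, (Nat.card K).Coprime p → (∃ n : ℕ, K.index = p ^ n) →
      ∃ g : G, K = H.map (MulAut.conj g).toMonoidHom := by
    intro K hK hKi
    obtain ⟨g, hg⟩ := hU K hK
    have h1 : K.map (MulAut.conj g).toMonoidHom = H := by
      apply Subgroup.eq_of_le_of_card_ge hg
      rw [card_conj_map, hcard K hK hKi]
    refine ⟨g⁻¹, ?_⟩
    rw [← h1, conj_map_conj_map, inv_mul_cancel, conj_map_one]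
  refine ⟨⟨H, hH, hidx⟩, ?_, fun U hUc => ?_⟩
  · intro H₁ H₂ h1 h1i h2 h2i
    obtain ⟨a, rfl⟩ := hconj H₁ h1 h1i
    obtain ⟨b, rfl⟩ := hconj H₂ h2 h2i
    refine ⟨b * a⁻¹, ?_⟩
    rw [conj_map_conj_map, mul_assoc, inv_mul_cancel, mul_one]
  · obtain ⟨g, hg⟩ := hU U hUc
    exact ⟨H, hH, hidx, g, hg⟩

end Cfsg.Agent.S3744
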