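import Cfsg.Statements.S3745
-- import your own Cfsg.Agent.* helpers here
import Mathlib
import Cfsg.Agent.Lib.Coprime.Hall

set_option autoImplicit false
open Cfsg

namespace Cfsg.Agent.S3745

open Cfsg.Agent.Lib.Coprime

/-- Coprime action on a solvable group and Hall subgroups. Let A and G be subgroups of a finite group with A normalizing G, the orders of A and G coprime, and G solvable, and let π be a set of primes. Then (a) G has an A-invariant Hall π-subgroup; (b) any two A-invariant Hall π-subgroups of G are conjugate by an element of C_G(A); (c) every A-invariant π-subgroup of G lies in an A-invariant Hall π-subgroup of G. -/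
theorem result {X : Type*} [Group X] [Finite X] (A G : Subgroup X) (hAG : A ≤ Subgroup.normalizer (G : Set X)) (hcop : (Nat.card A).Coprime (Nat.card G)) (hsolv : Group.IsSolvable G) (π : Set ℕ) : (∃ H : Subgroup X, Cfsg.IsPiHallOf π H G ∧ A ≤ Subgroup.normalizer (H : Set X)) ∧ (∀ H₁ H₂ : Subgroup X, Cfsg.IsPiHallOf π H₁ G → A ≤ Subgroup.normalizer (H₁ : Set X) → Cfsg.IsPiHallOf π H₂ G → A ≤ Subgroup.normalizer (H₂ : Set X) → ∃ c ∈ G ⊓ Subgroup.centralizer (A : Set X), H₂ = H₁.map (MulAut.conj c).toMonoidHom) ∧ (∀ U : Subgroup X, U ≤ G → A ≤ Subgroup.normalizer (U : Set X) → (∀ p : ℕ, p.Prime → p ∣ Nat.card U → p ∈ π) → ∃ H : Subgroup X, Cfsg.IsPiHallOf π H G ∧ A ≤ Subgroup.normalizer (H : Set X) ∧ U ≤ H) := by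
  have h : CoprimeAction A G := ⟨hAG, hcop, Or.inr hsolv⟩
  refine ⟨?_, ?_, ?_⟩
  · obtain ⟨H, h1, h2, -⟩ := exists_invariant_hall π _ h hsolv rfl (bot_le : (⊥ : Subgroup X) ≤ G)
      (fun a _ => by
        apply mem_normalizer_of_conj_le
        intro x hx
        rw [Subgroup.mem_bot] at hx ⊢
        simp [hx])
      (fun q hq hd => by
        simp at hd
        exact absurd hd hq.one_lt.ne')
    exact ⟨H, h1, h2⟩
  · intro H₁ H₂ h1 hA1 h2 hA2
    exact invariant_hall_conj h hsolv h1 hA1 h2 hA2
  · intro U hUG hAU hU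
    exact exists_invariant_hall π _ h hsolv rfl hUG hAU hU

end Cfsg.Agent.S3745
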