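import Cfsg.Statements.S3746
-- import your own Cfsg.Agent.* helpers here
import Mathlib
import Cfsg.Agent.Lib.Components.Quasi
import Cfsg.Agent.Lib.Components.Layer
import Cfsg.Agent.Lib.Coprime.Comm

set_option autoImplicit false
open Cfsg

namespace Cfsg.Agent.S3746

open scoped commutatorElement
open Cfsg.Agent.Lib.Components

/-- Let Z ≤ Z(G) be a central subgroup of a finite group G and E a subgroup of G containing Z whose image E/Z is a component of G/Z (subnormal and quasisimple). Then the derived subgroup [E, E] is a component of G. -/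
theorem result {G : Type*} [Group G] [Finite G] (Z : Subgroup G) (hZ : Z ≤ Subgroup.center G) [Z.Normal] (E : Subgroup G) (hZE : Z ≤ E) (hE : Cfsg.IsComponent (E.map (QuotientGroup.mk' Z))) : Cfsg.IsComponent ⁅E, E⁆ := by
  set f := QuotientGroup.mk' Z with hf
  have hker : f.ker = Z := QuotientGroup.ker_mk' Z
  have hEcomap : (E.map f).comap f = E := by
    rw [Subgroup.comap_map_eq, hker]; exact sup_eq_left.mpr hZE
  have hEsub : E.IsSubnormal := hEcomap ▸ hE.1.comap f
  have hKE : ⁅E, E⁆ ≤ E := Subgroup.le_normalizer_iff_commutator_le_right.mp Subgroup.le_normalizer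
  have hKsub : (⁅E, E⁆ : Subgroup G).IsSubnormal := by
    refine .step _ E hKE hEsub ?_
    rw [Subgroup.normal_subgroupOf_iff_le_normalizer hKE]
    intro e he
    exact Cfsg.Agent.Lib.Coprime.mem_normalizer_commutator (Subgroup.le_normalizer he) (Subgroup.le_normalizer he)
  have hperf : ⁅E.map f, E.map f⁆ = E.map f := component_self hE
  have h1 : (⁅E, E⁆ : Subgroup G).map f = E.map f := by rw [Subgroup.map_commutator, hperf]
  have hsup : E ≤ ⁅E, E⁆ ⊔ Z := by
    have h2 : E ≤ ((⁅E, E⁆ : Subgroup G).map f).comap f := by rw [h1, hEcomap]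
    rwa [Subgroup.comap_map_eq, hker] at h2
  have hZc : ∀ z ∈ Z, ∀ y : G, z * y = y * z := fun z hz y =>
    (Subgroup.mem_center_iff.mp (hZ hz) y).symm
  have hKperf : ⁅(⁅E, E⁆ : Subgroup G), ⁅E, E⁆⁆ = ⁅E, E⁆ := by
    apply le_antisymm (Subgroup.le_normalizer_iff_commutator_le_right.mp Subgroup.le_normalizer)
    rw [Subgroup.commutator_le]
    intro a ha b hb
    obtain ⟨k, hk, z, hz, rfl⟩ := Subgroup.mem_sup_of_normal_right.mp (hsup ha)
    obtain ⟨k', hk', z', hz', rfl⟩ := Subgroup.mem_sup_of_normal_right.mp (hsup hb)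
    have e1 : ⁅k * z, k' * z'⁆ = ⁅k, k'⁆ := by
      simp only [commutatorElement_def]
      calc k * z * (k' * z') * (k * z)⁻¹ * (k' * z')⁻¹
          = k * (z * k') * z' * z⁻¹ * k⁻¹ * z'⁻¹ * k'⁻¹ := by group
        _ = k * k' * (z * z' * z⁻¹) * k⁻¹ * z'⁻¹ * k'⁻¹ := by rw [hZc z hz k']; group
        _ = k * k' * z' * k⁻¹ * z'⁻¹ * k'⁻¹ := by rw [hZc z hz z']; group
        _ = k * k' * (z' * k⁻¹) * z'⁻¹ * k'⁻¹ := by group
        _ = k * k' * k⁻¹ * k'⁻¹ := by rw [hZc z' hz' k⁻¹]; group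
    rw [e1]
    exact Subgroup.commutator_mem_commutator hk hk'
  let φ : ↥(⁅E, E⁆ : Subgroup G) →* ↥(E.map f) :=
    (f.comp (⁅E, E⁆ : Subgroup G).subtype).codRestrict (E.map f) (fun x =>
      ⟨x, hKE x.2, rfl⟩)
  refine ⟨hKsub, qs_of_central_surjective hE.2 (isPerfect_of_commutator_self hKperf) φ ?_ ?_⟩
  · rintro ⟨y, hy⟩
    rw [← h1] at hy
    obtain ⟨x, hx, rfl⟩ := hy
    exact ⟨⟨x, hx⟩, rfl⟩
  · intro x hx
    have h4 : f (x : G) = 1 := congrArg Subtype.val hx
    have h5 : (x : G) ∈ Z := by rwa [← MonoidHom.mem_ker, hker] at h4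
    rw [Subgroup.mem_center_iff]
    intro y
    exact Subtype.ext (hZc _ h5 _).symm

end Cfsg.Agent.S3746
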