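import Cfsg.Statements.S3747
-- import your own Cfsg.Agent.* helpers here
import Mathlib
import Cfsg.Agent.Lib.Components.Quasi
import Cfsg.Agent.Lib.Components.Layer
import Cfsg.Agent.Lib.Components.Basic
import Cfsg.Agent.Lib.Components.Layer2
import Cfsg.Agent.Lib.Coprime.Action

set_option autoImplicit false
open Cfsg

namespace Cfsg.Agent.S3747

open scoped commutatorElement
open Cfsg.Agent.Lib.Components

/-- the part of (a): a normal subgroup commuting with a centre-free component inside its closure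
is trivial. -/
theorem eq_bot_aux {G : Type*} [Group G] [Finite G] (K : Subgroup G) (hK : IsComponent K)
    (hZ : Subgroup.center ↥K = ⊥) (M : Subgroup G) [hM : M.Normal] (hc : ⁅K, M⁆ = ⊥)
    (T : Finset (Subgroup G))
    (hT : ∀ L ∈ T, ∃ g : G, L = K.map (MulAut.conj g).toMonoidHom)
    (hle : M ≤ ⨆ L ∈ T, L) : M = ⊥ := by
  classical
  have hz : ∀ x ∈ K, (∀ y ∈ K, x * y = y * x) → x = 1 := by
    intro x hx h
    have : (⟨x, hx⟩ : K) ∈ Subgroup.center ↥K := by
      rw [Subgroup.mem_center_iff]
      rintro ⟨y, hy⟩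
      exact Subtype.ext (h y hy).symm
    rw [hZ, Subgroup.mem_bot] at this
    exact congrArg Subtype.val this
  have hcomm : ∀ k ∈ K, ∀ m ∈ M, k * m = m * k := commutes_of_commutator_eq_bot hc
  induction T using Finset.induction_on with
  | empty =>
    simpa using hle
  | insert L T' hL ih =>
    apply ih (fun L' hL' => hT L' (Finset.mem_insert_of_mem hL'))
    obtain ⟨g, rfl⟩ := hT L (Finset.mem_insert_self _ _)
    set L := K.map (MulAut.conj g).toMonoidHom with hLdef
    set I : Subgroup G := ⨆ L' ∈ T', L' with hI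
    have hLc : IsComponent L := component_conj hK g
    have hLI : ⁅L, I⁆ = ⊥ := by
      have : I ≤ Subgroup.centralizer (L : Set G) := by
        refine iSup₂_le fun L' hL' => ?_
        obtain ⟨g', hg'⟩ := hT L' (Finset.mem_insert_of_mem hL')
        have hL'c : IsComponent L' := hg' ▸ component_conj hK g'
        rcases component_eq_or_commute hLc hL'c with h | h
        · exact absurd (h ▸ hL') hL
        · rw [Subgroup.commutator_comm] at h
          exact Subgroup.commutator_eq_bot_iff_le_centralizer.mp h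
      rw [Subgroup.commutator_comm]
      exact Subgroup.commutator_eq_bot_iff_le_centralizer.mpr this
    have hLI' : ∀ l ∈ L, ∀ i ∈ I, l * i = i * l := commutes_of_commutator_eq_bot hLI
    have hnorm : I ≤ Subgroup.normalizer (L : Set G) := by
      intro i hi
      apply Cfsg.Agent.Lib.Coprime.mem_normalizer_of_conj_le
      intro l hl
      rw [← hLI' l hl i hi]
      simpa [mul_assoc] using hl
    intro x hx
    have hx' : x ∈ L ⊔ I := by
      have := hle hx
      rw [Finset.iSup_insert] at this
      exact this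
    obtain ⟨l, hl, i, hi, rfl⟩ :=
      (Cfsg.Agent.Lib.Coprime.mem_sup_iff_of_le_normalizer hnorm x).mp hx'
    suffices l = 1 by simpa [this] using hi
    -- `l * i` commutes with `L`
    obtain ⟨k, hk, rfl⟩ := hl
    have hxL : ∀ y ∈ L, (MulAut.conj g).toMonoidHom k * i * y = y * ((MulAut.conj g).toMonoidHom k * i) := by
      rintro _ ⟨y, hy, rfl⟩
      have h1 : g⁻¹ * ((MulAut.conj g).toMonoidHom k * i) * g ∈ M :=
        by simpa using hM.conj_mem _ hx g⁻¹
      have h2 := hcomm y hy _ h1
      have h3 : ((MulAut.conj g).toMonoidHom y) * ((MulAut.conj g).toMonoidHom k * i) =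
          g * (y * (g⁻¹ * ((MulAut.conj g).toMonoidHom k * i) * g)) * g⁻¹ := by
        simp only [MulEquiv.toMonoidHom_eq_coe, MonoidHom.coe_coe, MulAut.conj_apply]; group
      have h4 : ((MulAut.conj g).toMonoidHom k * i) * ((MulAut.conj g).toMonoidHom y) =
          g * ((g⁻¹ * ((MulAut.conj g).toMonoidHom k * i) * g) * y) * g⁻¹ := by
        simp only [MulEquiv.toMonoidHom_eq_coe, MonoidHom.coe_coe, MulAut.conj_apply]; group
      rw [h3, h4, h2]
    have hk1 : k = 1 := by
      apply hz k hk
      intro y hy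
      have h5 := hxL _ ⟨y, hy, rfl⟩
      have h6 := hLI' _ ⟨y, hy, rfl⟩ i hi
      simp only [MulEquiv.toMonoidHom_eq_coe, MonoidHom.coe_coe, MulAut.conj_apply] at h5 h6
      have h7 : g * k * g⁻¹ * (g * y * g⁻¹) = g * y * g⁻¹ * (g * k * g⁻¹) := by
        have : g * k * g⁻¹ * (g * y * g⁻¹) * i = g * y * g⁻¹ * (g * k * g⁻¹) * i := by
          calc g * k * g⁻¹ * (g * y * g⁻¹) * i = g * k * g⁻¹ * (g * y * g⁻¹ * i) := mul_assoc ..
            _ = g * k * g⁻¹ * (i * (g * y * g⁻¹)) := by rw [h6]
            _ = g * k * g⁻¹ * i * (g * y * g⁻¹) := (mul_assoc ..).symm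
            _ = g * y * g⁻¹ * (g * k * g⁻¹ * i) := h5
            _ = g * y * g⁻¹ * (g * k * g⁻¹) * i := (mul_assoc ..).symm
        exact mul_right_cancel this
      have h8 : g * (k * y) * g⁻¹ = g * (y * k) * g⁻¹ := by
        convert h7 using 1 <;> group
      exact mul_left_cancel (mul_right_cancel h8)
    simp [hk1]

theorem closure_le_aux {G : Type*} [Group G] [Finite G] (K : Subgroup G) :
    ∃ T : Finset (Subgroup G), (∀ L ∈ T, ∃ g : G, L = K.map (MulAut.conj g).toMonoidHom) ∧
      Subgroup.normalClosure (K : Set G) ≤ ⨆ L ∈ T, L := by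
  classical
  let S : Set (Subgroup G) := {L | ∃ g : G, L = K.map (MulAut.conj g).toMonoidHom}
  have hS : S.Finite := Set.toFinite S
  refine ⟨hS.toFinset, fun L hL => by simpa [S] using hL, ?_⟩
  rw [Subgroup.normalClosure, Subgroup.closure_le]
  intro y hy
  obtain ⟨k, hk, hconj⟩ := Group.mem_conjugatesOfSet_iff.mp hy
  obtain ⟨c, rfl⟩ := isConj_iff.mp hconj
  have hL : K.map (MulAut.conj c).toMonoidHom ∈ hS.toFinset := by
    rw [Set.Finite.mem_toFinset]; exact ⟨c, rfl⟩
  have : c * k * c⁻¹ ∈ K.map (MulAut.conj c).toMonoidHom := ⟨k, hk, rfl⟩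
  exact (le_iSup₂_of_le (f := fun (L : Subgroup G) (_ : L ∈ hS.toFinset) => L) _ hL le_rfl) this

theorem closure_min_aux {G : Type*} [Group G] [Finite G] (K : Subgroup G) (hK : IsComponent K)
    (hZ : Subgroup.center ↥K = ⊥) :
    Subgroup.normalClosure (K : Set G) ≠ ⊥ ∧ ∀ N : Subgroup G, N.Normal →
      N ≤ Subgroup.normalClosure (K : Set G) → N = ⊥ ∨ N = Subgroup.normalClosure (K : Set G) := by
  have hle : K ≤ Subgroup.normalClosure (K : Set G) := Subgroup.le_normalClosure
  constructor
  · intro h
    rw [h, le_bot_iff] at hle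
    exact component_ne_bot hK hle
  · intro N hN hNle
    rcases component_le_or_commute hK hN.isSubnormal with h | h
    · right
      exact le_antisymm hNle (Subgroup.normalClosure_le_normal h)
    · left
      obtain ⟨T, hT, hTle⟩ := closure_le_aux K
      exact eq_bot_aux K hK hZ N h T hT (hNle.trans hTle)

theorem center_eq_bot_aux {G : Type*} [Group G] [Finite G] (hF : Cfsg.fittingSubgroup G = ⊥)
    (K : Subgroup G) (hK : K.IsSubnormal) : Subgroup.center ↥K = ⊥ := by
  have h1 : ((Subgroup.center ↥K).map K.subtype).IsSubnormal :=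
    Subgroup.IsSubnormal.trans' (Subgroup.Normal.isSubnormal inferInstance) hK
  have h2 : Group.IsNilpotent ↥((Subgroup.center ↥K).map K.subtype) := by
    have : IsMulCommutative ↥((Subgroup.center ↥K).map K.subtype) := by
      constructor
      constructor
      rintro ⟨_, x, hx, rfl⟩ ⟨_, y, hy, rfl⟩
      apply Subtype.ext
      show (x : G) * y = y * x
      exact congrArg Subtype.val (Subgroup.mem_center_iff.mp hx y).symm
    exact isNilpotent_of_forall_commute fun a b => mul_comm' a b
  have h3 := subnormal_le_fitting h1 h2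
  rw [hF, le_bot_iff] at h3
  exact (Subgroup.map_eq_bot_iff_of_injective _ K.subtype_injective).mp h3

theorem le_layer_aux {G : Type*} [Group G] [Finite G] (hF : Cfsg.fittingSubgroup G = ⊥)
    (N : Subgroup G) (hN1 : N ≠ ⊥) (hN2 : N.Normal)
    (hN3 : ∀ N' : Subgroup G, N'.Normal → N' ≤ N → N' = ⊥ ∨ N' = N) : N ≤ Cfsg.layer G := by
  let S : Set (Subgroup G) := {K | K.IsSubnormal ∧ K ≠ ⊥ ∧ K ≤ N}
  have hSfin : S.Finite := Set.toFinite S
  have hSne : S.Nonempty := ⟨N, hN2.isSubnormal, hN1, le_rfl⟩
  obtain ⟨K, ⟨hKs, hK1, hKN⟩, hKmin⟩ := hSfin.exists_minimal hSne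
  have hZ := center_eq_bot_aux hF K hKs
  have hnt : Nontrivial K := (Subgroup.nontrivial_iff_ne_bot K).mpr hK1
  have hsimple : IsSimpleGroup K := by
    refine ⟨fun H hH => ?_⟩
    by_cases hH1 : H = ⊥
    · exact Or.inl hH1
    · right
      have h1 : (H.map K.subtype).IsSubnormal :=
        Subgroup.IsSubnormal.trans' hH.isSubnormal hKs
      have h2 : H.map K.subtype ≠ ⊥ := by
        intro h
        exact hH1 ((Subgroup.map_eq_bot_iff_of_injective _ K.subtype_injective).mp h)
      have hle : H.map K.subtype ≤ K := Subgroup.map_subtype_le H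
      have h3 := hKmin ⟨h1, h2, hle.trans hKN⟩ hle
      rw [eq_top_iff]
      rintro ⟨x, hx⟩ -
      obtain ⟨y, hy, hyx⟩ := h3 hx
      have : y = ⟨x, hx⟩ := Subtype.ext hyx
      exact this ▸ hy
  have hperf : Group.IsPerfect K := by
    rcases hsimple.eq_bot_or_eq_top_of_normal (commutator K) inferInstance with h | h
    · exfalso
      have hc := (commutator_eq_bot_iff_center_eq_top K).mp h
      rw [hZ] at hc
      exact bot_ne_top hc
    · exact ⟨h⟩
  have hq : IsQuasisimple K := by
    refine qs_of_surjective_simple hperf (MonoidHom.id K) Function.surjective_id ?_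
    rw [hZ]
    ext x
    simp
  have hKlayer : K ≤ Cfsg.layer G := component_le_layer ⟨hKs, hq⟩
  rcases hN3 (N ⊓ Cfsg.layer G) inferInstance inf_le_left with h | h
  · exfalso
    have : K ≤ N ⊓ Cfsg.layer G := le_inf hKN hKlayer
    rw [h, le_bot_iff] at this
    exact hK1 this
  · exact h ▸ inf_le_right

/-- Let G be a finite group. (a) If K is a component of G with trivial centre, then the normal closure of K in G is a minimal normal subgroup of G. (b) If the Fitting subgroup of G is trivial, then the layer E(G) is generated by the minimal normal subgroups of G. -/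
theorem result {G : Type*} [Group G] [Finite G] : (∀ K : Subgroup G, Cfsg.IsComponent K → Subgroup.center ↥K = ⊥ → (Subgroup.normalClosure (K : Set G) ≠ ⊥ ∧ ∀ N : Subgroup G, N.Normal → N ≤ Subgroup.normalClosure (K : Set G) → N = ⊥ ∨ N = Subgroup.normalClosure (K : Set G))) ∧ (Cfsg.fittingSubgroup G = ⊥ → sSup {N : Subgroup G | N ≠ ⊥ ∧ N.Normal ∧ ∀ N' : Subgroup G, N'.Normal → N' ≤ N → N' = ⊥ ∨ N' = N} = Cfsg.layer G) := by
  refine ⟨fun K hK hZ => closure_min_aux K hK hZ, fun hF => ?_⟩
  apply le_antisymm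
  · refine sSup_le ?_
    rintro N ⟨hN1, hN2, hN3⟩
    exact le_layer_aux hF N hN1 hN2 hN3
  · apply layer_le
    intro L hL
    have hZ := center_eq_bot_aux hF L hL.1
    have hcl := closure_min_aux L hL hZ
    exact Subgroup.le_normalClosure.trans
      (le_sSup ⟨hcl.1, Subgroup.normalClosure_normal, hcl.2⟩)

end Cfsg.Agent.S3747
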