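import Cfsg.Statements.S3748
-- import your own Cfsg.Agent.* helpers here
import Mathlib
import Cfsg.Agent.Lib.Coprime.Wielandt
import Cfsg.Agent.Lib.Basic.Nilpotent
import Cfsg.Agent.Lib.Components.Basic

set_option autoImplicit false
open Cfsg

namespace Cfsg.Agent.S3748

open Cfsg.Agent.Lib.Coprime.Wielandt in
theorem aux1 {G : Type*} [Group G] [Finite G] (M : Subgroup G) (hM : M ≠ ⊤)
    (hprim : ∀ N : Subgroup G, N ≤ M → M ≤ Subgroup.normalizer (N : Set G) → N ≠ ⊥ → Subgroup.normalizer (N : Set G) = M)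
    (L : Subgroup G) (hL : L.IsSubnormal) (hLM : L ≤ M) : L = ⊥ := by
  obtain ⟨T, hT, hTM, hmax⟩ := exists_largest ⊤ M
  have hMT : M ≤ Subgroup.normalizer (T : Set G) := by
    intro m hm
    rw [← Cfsg.Agent.Lib.Coprime.conj_map_eq_iff_mem_normalizer]
    apply Subgroup.eq_of_le_of_card_ge
    · apply hmax _ (hT.conj_of_mem (Subgroup.mem_top m))
      calc Cj m T ≤ Cj m M := Subgroup.map_mono hTM
        _ = M := cj_eq_of_mem hm
    · rw [Cfsg.Agent.Lib.Coprime.card_conj_map]
  have hLT : L ≤ T := hmax L (snIn_top_iff.mpr hL) hLM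
  by_cases hTb : T = ⊥
  · exact le_bot_iff.mp (hTb ▸ hLT)
  exfalso
  have hN := hprim T hTM hMT hTb
  have hn : ¬ (⊤ : Subgroup G) ≤ Subgroup.normalizer (T : Set G) := by
    rw [hN]
    intro h
    exact hM (top_le_iff.mp h)
  obtain ⟨x, _, h1, h2⟩ := hT.exists_conj_normalizes hn
  rw [hN] at h2
  have h3 := hmax _ (hT.conj_of_mem (Subgroup.mem_top x)) h2
  apply h1
  apply Subgroup.eq_of_le_of_card_ge h3
  rw [Cfsg.Agent.Lib.Coprime.card_conj_map]

/-- Call a proper subgroup M of G primitive when M = N_G(N) for every non-trivial normal subgroup N of M. If M is a primitive subgroup of the finite group G, then no non-trivial subnormal subgroup of G is contained in M; in particular M ∩ F(G) = 1. -/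
theorem result {G : Type*} [Group G] [Finite G] (M : Subgroup G) (hM : M ≠ ⊤) (hprim : ∀ N : Subgroup G, N ≤ M → M ≤ Subgroup.normalizer (N : Set G) → N ≠ ⊥ → Subgroup.normalizer (N : Set G) = M) : (∀ L : Subgroup G, L.IsSubnormal → L ≤ M → L = ⊥) ∧ M ⊓ Cfsg.fittingSubgroup G = ⊥ := by
  refine ⟨aux1 M hM hprim, ?_⟩
  apply aux1 M hM hprim _ _ inf_le_left
  have h1 : (Cfsg.fittingSubgroup G).Normal := Cfsg.Agent.Lib.Components.fitting_mem.1
  have h2 := Cfsg.Agent.Lib.Components.fitting_mem (G := G) |>.2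
  have h3 : ((M ⊓ Cfsg.fittingSubgroup G).subgroupOf (Cfsg.fittingSubgroup G)).IsSubnormal :=
    Cfsg.Agent.Lib.Basic.isSubnormal_of_isNilpotent _
  exact Subgroup.IsSubnormal.trans inf_le_right h3 h1.isSubnormal

end Cfsg.Agent.S3748
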