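import Cfsg.Statements.S3749
-- import your own Cfsg.Agent.* helpers here
import Mathlib
import Cfsg.Agent.Lib.Basic.Glauberman
import Cfsg.Agent.Lib.Basic.Core

set_option autoImplicit false
open Cfsg

namespace Cfsg.Agent.S3749

open Cfsg.Agent.Lib.Basic
open scoped Pointwise
theorem mem_norm_conj {G : Type*} [Group G] [Finite G] {P : Subgroup G} {g : G} (h : ∀ u ∈ P, g * u * g⁻¹ ∈ P) :
    g ∈ Subgroup.normalizer (P : Set G) := by
  have h1 : P.map (MulAut.conj g).toMonoidHom ≤ P := by
    rintro _ ⟨u, hu, rfl⟩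
    exact h u hu
  have h2 : P.map (MulAut.conj g).toMonoidHom = P :=
    Subgroup.eq_of_le_of_card_ge h1 (by
      rw [Subgroup.card_map_of_injective (MulAut.conj g).injective])
  rw [Subgroup.mem_normalizer_iff]
  intro u
  constructor
  · exact h u
  · intro hu
    rw [← h2] at hu
    obtain ⟨v, hv, e⟩ := hu
    have : v = u := by
      have e' : g * v * g⁻¹ = g * u * g⁻¹ := e
      simpa using e'
    rwa [← this]

/-- Call a proper subgroup M of G primitive when M = N_G(N) for every non-trivial normal subgroup N of M. Let M be a primitive subgroup of the finite group G, p a prime with O_p(M) ≠ 1, and N a normal subgroup of G with M ∩ N = 1. Then p does not divide the order of N; for every prime q there is exactly one Sylow q-subgroup of N normalized by M; and if the order of N has at least two prime divisors then M is not a maximal subgroup of G. -/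
theorem result {G : Type*} [Group G] [Finite G] (M : Subgroup G) (hM : M ≠ ⊤) (hprim : ∀ N : Subgroup G, N ≤ M → M ≤ Subgroup.normalizer (N : Set G) → N ≠ ⊥ → Subgroup.normalizer (N : Set G) = M) {p : ℕ} [Fact p.Prime] (hOp : Cfsg.pCore p ↥M ≠ ⊥) (N : Subgroup G) [N.Normal] (hMN : M ⊓ N = ⊥) : ¬ p ∣ Nat.card N ∧ (∀ q : ℕ, [Fact q.Prime] → ∃! Q : Sylow q ↥N, M ≤ Subgroup.normalizer ((Q : Subgroup ↥N).map N.subtype : Set G)) ∧ ((∃ q r : ℕ, q.Prime ∧ r.Prime ∧ q ≠ r ∧ q ∣ Nat.card N ∧ r ∣ Nat.card N) → ¬ IsCoatom M) := by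
  classical
  have hp : p.Prime := Fact.out
  obtain ⟨P, hPdef⟩ : ∃ P, P = (Cfsg.pCore p ↥M).map M.subtype := ⟨_, rfl⟩
  have hPM : P ≤ M := by
    rw [hPdef]
    exact Subgroup.map_subtype_le _
  have hPp : IsPGroup p P := by
    rw [hPdef]
    exact (pCore_isPGroup p).map M.subtype
  have hPne : P ≠ ⊥ := by
    rw [hPdef, Ne, Subgroup.map_eq_bot_iff_of_injective _ M.subtype_injective]
    exact hOp
  have hMconj : ∀ (m : G), m ∈ M → ∀ u ∈ P, m * u * m⁻¹ ∈ P := by
    have hN' := pCore_normal p (G := ↥M)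
    intro m hm u hu
    rw [hPdef] at hu ⊢
    obtain ⟨v, hv, rfl⟩ := hu
    exact ⟨⟨m, hm⟩ * v * ⟨m, hm⟩⁻¹, hN'.conj_mem v hv ⟨m, hm⟩, rfl⟩
  have hMP : M ≤ Subgroup.normalizer (P : Set G) := by
    intro m hm
    rw [Subgroup.mem_normalizer_iff]
    intro u
    constructor
    · exact hMconj m hm u
    · intro hu
      have := hMconj m⁻¹ (M.inv_mem hm) _ hu
      simpa [mul_assoc] using this
  have hnP : Subgroup.normalizer (P : Set G) = M := hprim P hPM hMP hPne
  have hCN : ∀ n ∈ N, (∀ a ∈ P, a * n = n * a) → n = 1 := by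
    intro n hn hc
    have h1 : n ∈ Subgroup.normalizer (P : Set G) := by
      rw [Subgroup.mem_normalizer_iff]
      intro u
      constructor
      · intro hu
        have e : n * u * n⁻¹ = u := by
          rw [← hc u hu]
          group
        rw [e]
        exact hu
      · intro hu
        have e : n⁻¹ * (n * u * n⁻¹) * n = n * u * n⁻¹ := by
          have := hc _ hu
          calc n⁻¹ * (n * u * n⁻¹) * n = n⁻¹ * ((n * u * n⁻¹) * n) := by group
            _ = n⁻¹ * (n * (n * u * n⁻¹)) := by rw [this]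
            _ = n * u * n⁻¹ := by group
        have e2 : n⁻¹ * (n * u * n⁻¹) * n = u := by group
        rw [e2] at e
        rw [e]
        exact hu
    rw [hnP] at h1
    have h2 : n ∈ M ⊓ N := ⟨h1, hn⟩
    rw [hMN] at h2
    exact h2
  -- (a)
  have hnp : ¬ p ∣ Nat.card N := by
    intro hd
    letI act : MulAction P N :=
      { smul := fun a n => ⟨(a : G) * n * (a : G)⁻¹, ‹N.Normal›.conj_mem n n.2 a⟩
        one_smul := fun n => by
          apply Subtype.ext
          show ((1 : P) : G) * n * ((1 : P) : G)⁻¹ = n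
          simp
        mul_smul := fun a b n => by
          apply Subtype.ext
          show ((a * b : P) : G) * n * ((a * b : P) : G)⁻¹ = (a : G) * ((b : G) * n * (b : G)⁻¹) * (a : G)⁻¹
          simp only [Subgroup.coe_mul, mul_inv_rev]
          group }
    have hmod := hPp.card_modEq_card_fixedPoints N
    have hfix : Nat.card (MulAction.fixedPoints P N) = 1 := by
      have hone : (1 : N) ∈ MulAction.fixedPoints P N := by
        intro a
        apply Subtype.ext
        show (a : G) * ((1 : N) : G) * (a : G)⁻¹ = ((1 : N) : G)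
        simp
      rw [Nat.card_eq_one_iff_unique]
      refine ⟨⟨fun x y => ?_⟩, ⟨⟨1, hone⟩⟩⟩
      have key : ∀ z : MulAction.fixedPoints P N, z = ⟨1, hone⟩ := by
        intro z
        apply Subtype.ext
        apply Subtype.ext
        apply hCN _ (z.1).2
        intro a ha
        have h3 := z.2 ⟨a, ha⟩
        have h4 : a * ((z.1 : N) : G) * a⁻¹ = ((z.1 : N) : G) := congrArg Subtype.val h3
        exact mul_inv_eq_iff_eq_mul.1 h4
      rw [key x, key y]
    rw [hfix] at hmod
    have h1 : Nat.card N % p = 0 := Nat.mod_eq_zero_of_dvd hd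
    have h2 : Nat.card N % p = 1 % p := hmod
    rw [h1, Nat.mod_eq_of_lt hp.one_lt] at h2
    exact absurd h2 (by norm_num)
  have hPN : P ≤ Subgroup.normalizer (N : Set G) := by
    rw [Subgroup.normalizer_eq_top_iff.2 ‹N.Normal›]
    exact le_top
  have hcop : (Nat.card P).Coprime (Nat.card N) := by
    obtain ⟨k, hk⟩ := IsPGroup.iff_card.1 hPp
    rw [hk]
    exact Nat.Coprime.pow_left k ((Nat.Prime.coprime_iff_not_dvd hp).2 hnp)
  have hsolv : Group.IsSolvable P ∨ Group.IsSolvable N := by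
    left
    haveI : Group.IsNilpotent P := hPp.isNilpotent
    infer_instance
  -- uniqueness for `P`-invariant Sylow subgroups
  have huniq : ∀ (q : ℕ) [Fact q.Prime] (Q₁ Q₂ : Sylow q N),
      P ≤ Subgroup.normalizer (((Q₁ : Subgroup N).map N.subtype : Subgroup G) : Set G) →
      P ≤ Subgroup.normalizer (((Q₂ : Subgroup N).map N.subtype : Subgroup G) : Set G) → Q₁ = Q₂ := by
    intro q _ Q₁ Q₂ h1 h2
    obtain ⟨c, hc, e⟩ := invariant_sylow_conj hPN hcop hsolv q Q₁ Q₂ h1 h2
    have hc1 : (c : G) = 1 := hCN _ c.2 (fun a ha => (Subgroup.mem_centralizer_iff.1 hc a ha))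
    have hc2 : c = 1 := Subtype.ext hc1
    rw [hc2, map_one, one_smul] at e
    exact e
  have hexistsM : ∀ (q : ℕ) [Fact q.Prime], ∃ Q : Sylow q N,
      M ≤ Subgroup.normalizer (((Q : Subgroup N).map N.subtype : Subgroup G) : Set G) := by
    intro q _
    obtain ⟨Q, hQ⟩ := exists_invariant_sylow hPN hcop hsolv q
    refine ⟨Q, ?_⟩
    -- conjugating by `m` preserves the property
    have hconjQ : ∀ m ∈ M, ∀ u ∈ (Q : Subgroup N).map N.subtype, m * u * m⁻¹ ∈ (Q : Subgroup N).map N.subtype := by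
      intro m hm
      let σ : MulAut N := MulAut.conjNormal m
      have hσ : ∀ w : N, ((σ w : N) : G) = m * w * m⁻¹ := fun w => MulAut.conjNormal_apply m w
      have hσQ : σ • Q = Q := by
        apply huniq q (σ • Q) Q _ hQ
        intro a ha
        apply mem_norm_conj
        rintro _ ⟨w₀, hw₀, rfl⟩
        obtain ⟨w, hw, rfl⟩ := Subgroup.mem_smul_pointwise_iff_exists _ _ _ |>.1 hw₀
        have ha' : m⁻¹ * a * m⁻¹⁻¹ ∈ P := hMconj _ (M.inv_mem hm) a ha
        have h1 : m⁻¹ * a * m⁻¹⁻¹ ∈ Subgroup.normalizer (((Q : Subgroup N).map N.subtype : Subgroup G) : Set G) :=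
          hQ ha'
        have h2 := (Subgroup.mem_normalizer_iff.1 h1 (w : G)).1 ⟨w, hw, rfl⟩
        obtain ⟨w', hw', e⟩ := h2
        refine ⟨σ w', Subgroup.mem_smul_pointwise_iff_exists _ _ _ |>.2 ⟨w', hw', rfl⟩, ?_⟩
        have e' : (w' : G) = m⁻¹ * a * m⁻¹⁻¹ * w * (m⁻¹ * a * m⁻¹⁻¹)⁻¹ := e
        show ((σ w' : N) : G) = a * ((σ w : N) : G) * a⁻¹
        rw [hσ, hσ, e']
        group
      rintro _ ⟨w, hw, rfl⟩
      have h3 : σ w ∈ ((σ • Q : Sylow q N) : Subgroup N) :=
        Subgroup.mem_smul_pointwise_iff_exists _ _ _ |>.2 ⟨w, hw, rfl⟩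
      rw [hσQ] at h3
      exact ⟨σ w, h3, hσ w⟩
    intro m hm
    exact mem_norm_conj (hconjQ m hm)
  refine ⟨hnp, ?_, ?_⟩
  · intro q _
    obtain ⟨Q, hQ⟩ := hexistsM q
    refine ⟨Q, hQ, fun Q' hQ' => huniq q Q' Q (hPM.trans hQ') (hPM.trans hQ)⟩
  · rintro ⟨q, r, hq, hr, hqr, hqd, hrd⟩ hco
    haveI := Fact.mk hq
    obtain ⟨Q, hQ⟩ := hexistsM q
    obtain ⟨Qh, hQh⟩ : ∃ Qh, Qh = (Q : Subgroup N).map N.subtype := ⟨_, rfl⟩
    have hQN : Qh ≤ N := by
      rw [hQh]
      exact Subgroup.map_subtype_le _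
    have hQp : IsPGroup q Qh := by
      rw [hQh]
      exact Q.2.map N.subtype
    have hQne : Qh ≠ ⊥ := by
      intro h0
      rw [hQh, Subgroup.map_eq_bot_iff_of_injective _ N.subtype_injective] at h0
      exact Q.ne_bot_of_dvd_card hqd h0
    have hQ' : M ≤ Subgroup.normalizer (Qh : Set G) := by
      rw [hQh]
      exact hQ
    have hsup : M ⊔ Qh = ⊤ := by
      apply hco.2
      refine lt_of_le_of_ne le_sup_left ?_
      intro e
      obtain ⟨x, hx, hx1⟩ := (Subgroup.bot_or_exists_ne_one Qh).resolve_left hQne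
      have h1 : x ∈ M := by
        rw [e]
        exact Subgroup.mem_sup_right hx
      have h2 : x ∈ M ⊓ N := ⟨h1, hQN hx⟩
      rw [hMN] at h2
      exact hx1 h2
    have hNQ : N ≤ Qh := by
      intro n hn
      have h1 : n ∈ ((M ⊔ Qh : Subgroup G) : Set G) := by
        rw [hsup]
        trivial
      rw [Subgroup.coe_mul_of_left_le_normalizer_right M Qh hQ', Set.mem_mul] at h1
      obtain ⟨m, hm, u, hu, rfl⟩ := h1
      have hmN : m ∈ N := by
        have := N.mul_mem hn (N.inv_mem (hQN hu))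
        simpa using this
      have h2 : m ∈ M ⊓ N := ⟨hm, hmN⟩
      rw [hMN] at h2
      have h3 : m = 1 := h2
      rw [h3, one_mul]
      exact hu
    have hNp : IsPGroup q N := hQp.to_le hNQ
    obtain ⟨k, hk⟩ := IsPGroup.iff_card.1 hNp
    rw [hk] at hrd
    have := (Nat.prime_dvd_prime_iff_eq hr hq).1 (hr.dvd_of_dvd_pow hrd)
    exact hqr this.symm

end Cfsg.Agent.S3749
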