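import Cfsg.Statements.S3750
-- import your own Cfsg.Agent.* helpers here
import Mathlib
import Cfsg.Agent.Lib.Components.Layer2
import Cfsg.Agent.Lib.Components.Quasi
import Cfsg.Agent.Lib.LocalEven.GFit

set_option autoImplicit false
open Cfsg

namespace Cfsg.Agent.S3750

open Cfsg.Agent.Lib.Components

/-- Call a proper subgroup M of G primitive when M = N_G(N) for every non-trivial normal subgroup N of M. Let M be a primitive subgroup of the finite group G and N a normal subgroup of G with M ∩ F*(N) ≠ 1. Then F(G) = 1 and F*(N) = F*(G) = E(G); in particular every minimal normal subgroup of G is contained in N. -/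
theorem result {G : Type*} [Group G] [Finite G] (M : Subgroup G) (hM : M ≠ ⊤) (hprim : ∀ N : Subgroup G, N ≤ M → M ≤ Subgroup.normalizer (N : Set G) → N ≠ ⊥ → Subgroup.normalizer (N : Set G) = M) (N : Subgroup G) [N.Normal] (hMF : M ⊓ (Cfsg.generalizedFittingSubgroup ↥N).map N.subtype ≠ ⊥) : Cfsg.fittingSubgroup G = ⊥ ∧ (Cfsg.generalizedFittingSubgroup ↥N).map N.subtype = Cfsg.generalizedFittingSubgroup G ∧ Cfsg.generalizedFittingSubgroup G = Cfsg.layer G ∧ ∀ K : Subgroup G, K.Normal → K ≠ ⊥ → (∀ K' : Subgroup G, K'.Normal → K' ≤ K → K' = ⊥ ∨ K' = K) → K ≤ N := by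
  classical
  have hNn : N.Normal := inferInstance
  have hFeq : Cfsg.generalizedFittingSubgroup G ⊓ N = (Cfsg.generalizedFittingSubgroup ↥N).map N.subtype :=
    gfit_inf_normal N hNn
  obtain ⟨F, hFdef⟩ : ∃ F, F = (Cfsg.generalizedFittingSubgroup ↥N).map N.subtype := ⟨_, rfl⟩
  rw [← hFdef] at hMF hFeq ⊢
  have hFn : F.Normal := by
    rw [← hFeq]
    infer_instance
  have hFN : F ≤ N := by
    rw [hFdef]
    exact Subgroup.map_subtype_le _
  -- `X = M ∩ F`
  obtain ⟨X, hXdef⟩ : ∃ X, X = M ⊓ F := ⟨_, rfl⟩
  rw [← hXdef] at hMF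
  have hXM : X ≤ M := by
    rw [hXdef]
    exact inf_le_left
  have hXF : X ≤ F := by
    rw [hXdef]
    exact inf_le_right
  have hMX : M ≤ Subgroup.normalizer (X : Set G) := by
    intro m hm
    rw [Subgroup.mem_normalizer_iff]
    intro u
    constructor
    · intro hu
      rw [hXdef] at hu ⊢
      exact ⟨M.mul_mem (M.mul_mem hm hu.1) (M.inv_mem hm), hFn.conj_mem _ hu.2 m⟩
    · intro hu
      rw [hXdef] at hu ⊢
      have h1 : u = m⁻¹ * (m * u * m⁻¹) * m⁻¹⁻¹ := by group
      refine ⟨?_, ?_⟩
      · rw [h1]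
        exact M.mul_mem (M.mul_mem (M.inv_mem hm) hu.1) (M.inv_mem (M.inv_mem hm))
      · rw [h1]
        exact hFn.conj_mem _ hu.2 m⁻¹
  have hnX : Subgroup.normalizer (X : Set G) = M := hprim X hXM hMX hMF
  have hAbot : ∀ A : Subgroup G, A.Normal → A ≤ Subgroup.centralizer (X : Set G) → A = ⊥ := by
    intro A hAn hAC
    by_contra hne
    have h1 : A ≤ M := by
      rw [← hnX]
      exact hAC.trans (Subgroup.centralizer_le_normalizer _)
    have h2 : Subgroup.normalizer (A : Set G) = ⊤ := Subgroup.normalizer_eq_top_iff.2 hAn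
    have h3 := hprim A h1 (by rw [h2]; exact le_top) hne
    rw [h2] at h3
    exact hM h3.symm
  have hCN : Subgroup.centralizer (N : Set G) = ⊥ :=
    hAbot _ inferInstance (Subgroup.centralizer_le (fun x hx => hFN (hXF hx)))
  have hCF : Subgroup.centralizer (F : Set G) = ⊥ := by
    haveI := hFn
    exact hAbot _ inferInstance (Subgroup.centralizer_le (fun x hx => hXF hx))
  -- the Fitting part
  obtain ⟨D, hDdef⟩ : ∃ D, D = Cfsg.fittingSubgroup G ⊓ N := ⟨_, rfl⟩
  have hDn : D.Normal := by
    rw [hDdef]
    haveI := fitting_normal (G := G)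
    infer_instance
  have hDN : D ≤ N := by
    rw [hDdef]
    exact inf_le_right
  have hDmap : (Cfsg.fittingSubgroup ↥N).map N.subtype = D := by
    rw [hDdef]
    exact map_fitting_subnormal hNn.isSubnormal
  have hDbot : D = ⊥ := by
    by_contra hne
    haveI hnil : Group.IsNilpotent D := by
      rw [hDdef]
      exact isNilpotent_of_le inf_le_left fitting_isNilpotent
    haveI : Nontrivial D := (Subgroup.nontrivial_iff_ne_bot D).2 hne
    have hc := Group.IsNilpotent.center_ne_bot (G := D)
    obtain ⟨z, hz, hz1⟩ := (Subgroup.bot_or_exists_ne_one _).resolve_left hc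
    have hB : ((Subgroup.center D).map D.subtype).Normal := map_center_normal hDn
    have hBle : (Subgroup.center D).map D.subtype ≤ Subgroup.centralizer (F : Set G) := by
      rintro _ ⟨w, hw, rfl⟩
      rw [Subgroup.mem_centralizer_iff]
      intro x hx
      rw [hFdef] at hx
      obtain ⟨y, hy, rfl⟩ := hx
      unfold Cfsg.generalizedFittingSubgroup at hy
      obtain ⟨w', hw'⟩ : ∃ w' : N, (w' : G) = ((w : D) : G) := ⟨⟨(w : D), hDN (w : D).2⟩, rfl⟩
      have hle : Cfsg.layer ↥N ⊔ Cfsg.fittingSubgroup ↥N ≤
          (Subgroup.centralizer ({w'} : Set N)) := by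
        refine sup_le ?_ ?_
        · intro l hl
          have hwF : w' ∈ Cfsg.fittingSubgroup ↥N := by
            have h1 : (w' : G) ∈ (Cfsg.fittingSubgroup ↥N).map N.subtype := by
              rw [hDmap, hw']
              exact (w : D).2
            obtain ⟨v, hv, e⟩ := h1
            have : v = w' := Subtype.ext e
            rwa [← this]
          rw [Subgroup.mem_centralizer_singleton_iff]
          have := Subgroup.mem_centralizer_iff.1 (layer_le_centralizer_fitting hl) _ hwF
          exact this.symm
        · intro f hf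
          have hfD : (f : G) ∈ D := by
            rw [← hDmap]
            exact ⟨f, hf, rfl⟩
          rw [Subgroup.mem_centralizer_singleton_iff]
          apply Subtype.ext
          have := Subgroup.mem_center_iff.1 hw ⟨f, hfD⟩
          have h2 := congrArg Subtype.val this
          show (f : G) * (w' : G) = (w' : G) * f
          rw [hw']
          exact h2
      have h5 := Subgroup.mem_centralizer_singleton_iff.1 (hle hy)
      have h7 := congrArg Subtype.val h5
      show (y : G) * ((w : D) : G) = ((w : D) : G) * (y : G)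
      rw [← hw']
      exact h7
    rw [hCF] at hBle
    have hmem : (z : G) ∈ (Subgroup.center D).map D.subtype := ⟨z, hz, rfl⟩
    have h6 := hBle hmem
    exact hz1 (Subtype.ext (Subgroup.mem_bot.1 h6))
  have hfit : Cfsg.fittingSubgroup G = ⊥ := by
    rw [eq_bot_iff, ← hCN]
    rw [← Subgroup.commutator_eq_bot_iff_le_centralizer, eq_bot_iff, ← hDbot, hDdef]
    haveI := fitting_normal (G := G)
    exact Subgroup.commutator_le_inf _ _
  have hgfit : Cfsg.generalizedFittingSubgroup G = Cfsg.layer G := by
    unfold Cfsg.generalizedFittingSubgroup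
    rw [hfit, sup_bot_eq]
  have hlayN : Cfsg.layer G ≤ N := by
    refine layer_le fun L hL => ?_
    rcases component_le_or_commute hL hNn.isSubnormal with h | h
    · exact h
    · exfalso
      rw [Subgroup.commutator_eq_bot_iff_le_centralizer, hCN] at h
      exact component_ne_bot hL (le_bot_iff.1 h)
  refine ⟨hfit, ?_, hgfit, ?_⟩
  · rw [← hFeq, hgfit]
    exact inf_eq_left.2 hlayN
  · intro K hKn hKne hmin
    rcases hmin (K ⊓ N) inferInstance inf_le_left with h | h
    · exfalso
      have h1 : ⁅K, N⁆ ≤ K ⊓ N := Subgroup.commutator_le_inf K N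
      rw [h, le_bot_iff, Subgroup.commutator_eq_bot_iff_le_centralizer, hCN] at h1
      exact hKne (le_bot_iff.1 h1)
    · exact inf_eq_left.1 h

end Cfsg.Agent.S3750
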