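import Cfsg.Statements.S3751
-- import your own Cfsg.Agent.* helpers here
import Mathlib
import Cfsg.Agent.Lib.Basic.Core
import Cfsg.Agent.Lib.LocalEven2.CharP

set_option autoImplicit false
open Cfsg

namespace Cfsg.Agent.S3751

open Cfsg.Agent.Lib.Basic Subgroup
open scoped Pointwise

universe u₀

section aux

variable {G : Type u₀} [Group G] [Finite G] {p : ℕ}

/-- conjugation as a homomorphism -/
abbrev cj (g : G) : G →* G := (MulAut.conj g).toMonoidHom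

theorem mem_norm_conj {P : Subgroup G} {g : G} (h : ∀ u ∈ P, g * u * g⁻¹ ∈ P) :
    g ∈ normalizer (P : Set G) := by
  have h1 : P.map (cj g) ≤ P := by
    rintro _ ⟨u, hu, rfl⟩
    exact h u hu
  have h2 : P.map (cj g) = P :=
    Subgroup.eq_of_le_of_card_ge h1 (by
      rw [Subgroup.card_map_of_injective (MulAut.conj g).injective])
  rw [mem_normalizer_iff]
  intro u
  constructor
  · exact h u
  · intro hu
    rw [← h2] at hu
    obtain ⟨v, hv, e⟩ := hu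
    have : v = u := by
      have e' : g * v * g⁻¹ = g * u * g⁻¹ := e
      simpa using e'
    rwa [← this]

theorem norm_map_le (T : Subgroup G) (g : G) :
    (normalizer (T : Set G)).map (cj g) ≤ normalizer ((T.map (cj g) : Subgroup G) : Set G) := by
  rintro _ ⟨n, hn, rfl⟩
  apply mem_norm_conj
  rintro _ ⟨t, ht, rfl⟩
  refine ⟨n * t * n⁻¹, (mem_normalizer_iff.1 hn t).1 ht, ?_⟩
  show g * (n * t * n⁻¹) * g⁻¹ = (g * n * g⁻¹) * (g * t * g⁻¹) * (g * n * g⁻¹)⁻¹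
  group

theorem map_cj_inv (T : Subgroup G) (g : G) : (T.map (cj g)).map (cj g⁻¹) = T := by
  ext x
  constructor
  · rintro ⟨_, ⟨t, ht, rfl⟩, rfl⟩
    have : g⁻¹ * (g * t * g⁻¹) * g⁻¹⁻¹ = t := by group
    show g⁻¹ * (g * t * g⁻¹) * g⁻¹⁻¹ ∈ T
    rw [this]
    exact ht
  · intro hx
    refine ⟨g * x * g⁻¹, ⟨x, hx, rfl⟩, ?_⟩
    show g⁻¹ * (g * x * g⁻¹) * g⁻¹⁻¹ = x
    group

theorem map_cj_inv' (T : Subgroup G) (g : G) : (T.map (cj g⁻¹)).map (cj g) = T := by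
  have := map_cj_inv T g⁻¹
  rwa [inv_inv] at this

theorem norm_map_eq (T : Subgroup G) (g : G) :
    (normalizer (T : Set G)).map (cj g) = normalizer ((T.map (cj g) : Subgroup G) : Set G) := by
  apply le_antisymm (norm_map_le T g)
  have h1 := norm_map_le (T.map (cj g)) g⁻¹
  rw [map_cj_inv] at h1
  intro x hx
  have h2 : g⁻¹ * x * g⁻¹⁻¹ ∈ normalizer (T : Set G) := h1 ⟨x, hx, rfl⟩
  refine ⟨_, h2, ?_⟩
  show g * (g⁻¹ * x * g⁻¹⁻¹) * g⁻¹ = x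
  group

theorem exists_norm_step {E D : Subgroup G} [Fact p.Prime] (hE : IsPGroup p E) (hDE : D < E) :
    ∃ u ∈ E, u ∉ D ∧ u ∈ normalizer (D : Set G) := by
  haveI : Group.IsNilpotent E := hE.isNilpotent
  have hlt : D.subgroupOf E < ⊤ := by
    rw [lt_top_iff_ne_top]
    intro h
    rw [Subgroup.subgroupOf_eq_top] at h
    exact absurd h (not_le_of_gt hDE)
  have h1 := normalizerCondition_of_isNilpotent (G := E) (D.subgroupOf E) hlt
  obtain ⟨u, hu, hu2⟩ := SetLike.exists_of_lt h1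
  refine ⟨u, u.2, fun h => hu2 (mem_subgroupOf.2 h), ?_⟩
  apply mem_norm_conj
  intro d hd
  have hd' : d ∈ E := hDE.le hd
  have h2 := (mem_normalizer_iff.1 hu ⟨d, hd'⟩).1 (mem_subgroupOf.2 hd)
  exact mem_subgroupOf.1 h2

theorem le_pCoreOf' {M B : Subgroup G} (hBM : B ≤ M) (hn : M ≤ normalizer (B : Set G))
    (hp : IsPGroup p B) : B ≤ (Cfsg.pCore p ↥M).map M.subtype := by
  have hN : (B.subgroupOf M).Normal := by
    refine ⟨fun x hx g => ?_⟩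
    rw [mem_subgroupOf] at hx ⊢
    exact (mem_normalizer_iff.1 (hn g.2) x).1 hx
  have hP : IsPGroup p (B.subgroupOf M) := hp.comap_of_injective M.subtype M.subtype_injective
  have h1 := le_pCore hN hP
  intro b hb
  exact ⟨⟨b, hBM hb⟩, h1 (mem_subgroupOf.2 hb), rfl⟩

def Loc (p : ℕ) (M : Subgroup G) : Prop :=
  ∃ T : Subgroup G, IsPGroup p T ∧ T ≠ ⊥ ∧ M = normalizer (T : Set G)

def MaxLoc (p : ℕ) (M : Subgroup G) : Prop :=
  Loc p M ∧ ∀ L : Subgroup G, Loc p L → M ≤ L → L = M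

theorem loc_ne_top (hOp : Cfsg.pCore p G = ⊥) {M : Subgroup G} (hL : Loc p M) : M ≠ ⊤ := by
  obtain ⟨T, h1, h2, rfl⟩ := hL
  intro ht
  have hT : T.Normal := normalizer_eq_top_iff.1 ht
  have := le_pCore hT h1
  rw [hOp] at this
  exact h2 (le_bot_iff.1 this)

theorem loc_conj {M : Subgroup G} (hL : Loc p M) (g : G) : Loc p (M.map (cj g)) := by
  obtain ⟨T, h1, h2, rfl⟩ := hL
  refine ⟨T.map (cj g), h1.map _, ?_, norm_map_eq T g⟩
  rw [Ne, Subgroup.map_eq_bot_iff_of_injective _ (MulAut.conj g).injective]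
  exact h2

theorem maxLoc_conj {M : Subgroup G} (hL : MaxLoc p M) (g : G) : MaxLoc p (M.map (cj g)) := by
  refine ⟨loc_conj hL.1 g, fun L hLL hle => ?_⟩
  have h1 : M ≤ L.map (cj g⁻¹) := by
    have := Subgroup.map_mono (f := cj g⁻¹) hle
    rwa [map_cj_inv] at this
  have h2 := hL.2 _ (loc_conj hLL g⁻¹) h1
  rw [← h2, map_cj_inv']

theorem exists_maxLoc {L : Subgroup G} (hL : Loc p L) : ∃ M, MaxLoc p M ∧ L ≤ M := by
  obtain ⟨M, hLM, hmax⟩ := (Set.toFinite {M : Subgroup G | Loc p M}).exists_le_maximal hL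
  exact ⟨M, ⟨hmax.prop, fun L' hL' hle => le_antisymm (hmax.le_of_ge hL' hle) hle⟩, hLM⟩

theorem loc_char (hloc : Cfsg.IsOfLocalCharacteristic p G) {M : Subgroup G} (hL : Loc p M) :
    centralizer (Cfsg.pCore p ↥M : Set ↥M) ≤ Cfsg.pCore p ↥M := by
  obtain ⟨T, h1, h2, rfl⟩ := hL
  exact hloc.2 T h1 h2

theorem maxLoc_norm_eq [Fact p.Prime] (hloc : Cfsg.IsOfLocalCharacteristic p G) {M : Subgroup G} (hM : MaxLoc p M)
    {A : Subgroup G} (hA : A ≠ ⊥) (hAM : A ≤ M) (hMA : M ≤ normalizer (A : Set G)) :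
    normalizer (A : Set G) = M := by
  classical
  obtain ⟨R, hRdef⟩ : ∃ R, R = (Cfsg.pCore p ↥A).map A.subtype := ⟨_, rfl⟩
  have hRp : IsPGroup p R := by
    rw [hRdef]
    exact (pCore_isPGroup p).map _
  have hRne : R ≠ ⊥ := by
    intro hR
    apply hA
    have hQn : (Cfsg.pCore p ↥M).Normal := pCore_normal p _
    obtain ⟨Q, hQdef⟩ : ∃ Q, Q = (Cfsg.pCore p ↥M).map M.subtype := ⟨_, rfl⟩
    have hQp : IsPGroup p Q := by
      rw [hQdef]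
      exact (pCore_isPGroup p).map _
    have hMQ : ∀ m ∈ M, ∀ q ∈ Q, m * q * m⁻¹ ∈ Q := by
      intro m hm q hq
      rw [hQdef] at hq ⊢
      obtain ⟨v, hv, rfl⟩ := hq
      exact ⟨⟨m, hm⟩ * v * ⟨m, hm⟩⁻¹, hQn.conj_mem v hv ⟨m, hm⟩, rfl⟩
    have hB : A ⊓ Q ≤ R := by
      rw [hRdef]
      apply le_pCoreOf' inf_le_left
      · intro a ha
        apply mem_norm_conj
        rintro b ⟨hb1, hb2⟩
        exact ⟨A.mul_mem (A.mul_mem ha hb1) (A.inv_mem ha), hMQ a (hAM ha) b hb2⟩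
      · exact hQp.to_le inf_le_right
    rw [hR, le_bot_iff] at hB
    rw [eq_bot_iff]
    intro x hx
    rw [Subgroup.mem_bot]
    have hxM := hAM hx
    have hxc : (⟨x, hxM⟩ : M) ∈ centralizer (Cfsg.pCore p ↥M : Set ↥M) := by
      rw [mem_centralizer_iff]
      intro y hy
      have h1 : (y : G) ∈ Q := by
        rw [hQdef]
        exact ⟨y, hy, rfl⟩
      have h2 : (y : G) * x * (y : G)⁻¹ * x⁻¹ ∈ A ⊓ Q := by
        refine ⟨A.mul_mem ?_ (A.inv_mem hx), ?_⟩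
        · exact (mem_normalizer_iff.1 (hMA y.2) x).1 hx
        · have e : (y : G) * x * (y : G)⁻¹ * x⁻¹ = y * (x * (y : G)⁻¹ * x⁻¹) := by group
          rw [e]
          exact Q.mul_mem h1 (hMQ x hxM _ (Q.inv_mem h1))
      rw [hB, Subgroup.mem_bot] at h2
      apply Subtype.ext
      show (y : G) * x = x * y
      have h3 : (y : G) * x * (y : G)⁻¹ = x := by
        rwa [mul_inv_eq_one] at h2
      exact mul_inv_eq_iff_eq_mul.1 h3
    have hxQ := loc_char hloc hM.1 hxc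
    have h4 : x ∈ A ⊓ Q := by
      refine ⟨hx, ?_⟩
      rw [hQdef]
      exact ⟨_, hxQ, rfl⟩
    rw [hB] at h4
    exact h4
  have hNR : normalizer (A : Set G) ≤ normalizer (R : Set G) := by
    rw [hRdef]
    exact Cfsg.Agent.Lib.LocalEven2.normalizer_le_normalizer_pCoreOf A
  have h1 := hM.2 (normalizer (R : Set G)) ⟨R, hRp, hRne, rfl⟩ (hMA.trans hNR)
  rw [h1] at hNR
  exact le_antisymm hNR hMA

theorem pcore_ne_bot [Fact p.Prime] (hloc : Cfsg.IsOfLocalCharacteristic p G) {M : Subgroup G} (hM : Loc p M) :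
    (Cfsg.pCore p ↥M).map M.subtype ≠ ⊥ := by
  intro h0
  rw [Subgroup.map_eq_bot_iff_of_injective _ M.subtype_injective] at h0
  have h1 := loc_char hloc hM
  rw [h0] at h1
  obtain ⟨T, h2, h3, rfl⟩ := hM
  apply h3
  rw [eq_bot_iff]
  intro t ht
  rw [Subgroup.mem_bot]
  have ht' : t ∈ normalizer (T : Set G) := Subgroup.le_normalizer ht
  have h4 : (⟨t, ht'⟩ : normalizer (T : Set G)) ∈
      centralizer (((⊥ : Subgroup (normalizer (T : Set G))) : Subgroup _) : Set (normalizer (T : Set G))) := by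
    rw [mem_centralizer_iff]
    intro y hy
    have : y = 1 := hy
    rw [this, one_mul, mul_one]
  have h5 := h1 h4
  exact congrArg Subtype.val (Subgroup.mem_bot.1 h5)

theorem pair_ok [Fact p.Prime] (hloc : Cfsg.IsOfLocalCharacteristic p G) {M₁ M₂ : Subgroup G}
    (h1 : MaxLoc p M₁) (h2 : MaxLoc p M₂) (hne : M₁ ≠ M₂)
    (hQ1 : (Cfsg.pCore p ↥M₁).map M₁.subtype ≤ M₂) (hQ2 : (Cfsg.pCore p ↥M₂).map M₂.subtype ≤ M₁) :
    ∃ M₁ M₂ : Subgroup G, M₁ ≠ M₂ ∧ (∀ A : Subgroup G, A ≠ ⊥ → A ≤ M₁ ⊓ M₂ →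
      (M₁ ≤ normalizer (A : Set G) → M₂ ⊓ normalizer (A : Set G) = M₁ ⊓ M₂) ∧
      (M₂ ≤ normalizer (A : Set G) → M₁ ⊓ normalizer (A : Set G) = M₁ ⊓ M₂)) ∧
      centralizer (Cfsg.pCore p ↥M₁ : Set ↥M₁) ≤ Cfsg.pCore p ↥M₁ ∧
      centralizer (Cfsg.pCore p ↥M₂ : Set ↥M₂) ≤ Cfsg.pCore p ↥M₂ ∧
      (Cfsg.pCore p ↥M₁).map M₁.subtype ⊔ (Cfsg.pCore p ↥M₂).map M₂.subtype ≤ M₁ ⊓ M₂ := by
  refine ⟨M₁, M₂, hne, ?_, loc_char hloc h1.1, loc_char hloc h2.1, sup_le ?_ ?_⟩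
  · intro A hA hle
    refine ⟨fun h3 => ?_, fun h3 => ?_⟩
    · rw [maxLoc_norm_eq hloc h1 hA (hle.trans inf_le_left) h3, inf_comm]
    · rw [maxLoc_norm_eq hloc h2 hA (hle.trans inf_le_right) h3]
  · exact le_inf (map_subtype_le _) hQ1
  · exact le_inf hQ2 (map_subtype_le _)

/-- The central step. -/
theorem main_step [Fact p.Prime] (hloc : Cfsg.IsOfLocalCharacteristic p G) (hOp : Cfsg.pCore p G = ⊥)
    {M₁ M₂ D : Subgroup G} (h1 : MaxLoc p M₁) (h2 : MaxLoc p M₂) (hne : M₁ ≠ M₂) (hDne : D ≠ ⊥)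
    (hDp : IsPGroup p D) (hD1 : D ≤ M₁) (hD2 : D ≤ M₂)
    (hDmax : ∀ D' : Subgroup G, D ≤ D' → IsPGroup p D' → (∃ M₃ M₄ : Subgroup G, MaxLoc p M₃ ∧ MaxLoc p M₄ ∧ M₃ ≠ M₄ ∧
      D' ≤ M₃ ∧ D' ≤ M₄) → D' = D)
    (hQ : ¬ (Cfsg.pCore p ↥M₁).map M₁.subtype ≤ M₂) :
    ∃ M₁ M₂ : Subgroup G, M₁ ≠ M₂ ∧ (∀ A : Subgroup G, A ≠ ⊥ → A ≤ M₁ ⊓ M₂ →
      (M₁ ≤ normalizer (A : Set G) → M₂ ⊓ normalizer (A : Set G) = M₁ ⊓ M₂) ∧
      (M₂ ≤ normalizer (A : Set G) → M₁ ⊓ normalizer (A : Set G) = M₁ ⊓ M₂)) ∧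
      centralizer (Cfsg.pCore p ↥M₁ : Set ↥M₁) ≤ Cfsg.pCore p ↥M₁ ∧
      centralizer (Cfsg.pCore p ↥M₂ : Set ↥M₂) ≤ Cfsg.pCore p ↥M₂ ∧
      (Cfsg.pCore p ↥M₁).map M₁.subtype ⊔ (Cfsg.pCore p ↥M₂).map M₂.subtype ≤ M₁ ⊓ M₂ := by
  classical
  obtain ⟨Q₁, hQ₁def⟩ : ∃ Q₁, Q₁ = (Cfsg.pCore p ↥M₁).map M₁.subtype := ⟨_, rfl⟩
  obtain ⟨Q₂, hQ₂def⟩ : ∃ Q₂, Q₂ = (Cfsg.pCore p ↥M₂).map M₂.subtype := ⟨_, rfl⟩
  rw [← hQ₁def] at hQ
  have hQ₁M : Q₁ ≤ M₁ := by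
    rw [hQ₁def]
    exact map_subtype_le _
  have hQ₂M : Q₂ ≤ M₂ := by
    rw [hQ₂def]
    exact map_subtype_le _
  have hQ₁p : IsPGroup p Q₁ := by
    rw [hQ₁def]
    exact (pCore_isPGroup p).map _
  have hQ₂p : IsPGroup p Q₂ := by
    rw [hQ₂def]
    exact (pCore_isPGroup p).map _
  have hMQ₂ : M₂ ≤ normalizer (Q₂ : Set G) := by
    intro m hm
    apply mem_norm_conj
    intro q hq
    rw [hQ₂def] at hq ⊢
    obtain ⟨v, hv, rfl⟩ := hq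
    exact ⟨⟨m, hm⟩ * v * ⟨m, hm⟩⁻¹, (pCore_normal p ↥M₂).conj_mem v hv ⟨m, hm⟩, rfl⟩
  have hMQ₁ : M₁ ≤ normalizer (Q₁ : Set G) := by
    intro m hm
    apply mem_norm_conj
    intro q hq
    rw [hQ₁def] at hq ⊢
    obtain ⟨v, hv, rfl⟩ := hq
    exact ⟨⟨m, hm⟩ * v * ⟨m, hm⟩⁻¹, (pCore_normal p ↥M₁).conj_mem v hv ⟨m, hm⟩, rfl⟩
  -- the element `u`
  have hEp : IsPGroup p (D ⊔ Q₁ : Subgroup G) :=
    hDp.to_sup_of_normal_right' hQ₁p (hD1.trans hMQ₁)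
  have hEM : D ⊔ Q₁ ≤ M₁ := sup_le hD1 hQ₁M
  have hDE : D < D ⊔ Q₁ := by
    refine lt_of_le_of_ne le_sup_left ?_
    intro e
    apply hQ
    have : Q₁ ≤ D := by
      rw [e]
      exact le_sup_right
    exact this.trans hD2
  obtain ⟨u, huE, huD, huN⟩ := exists_norm_step hEp hDE
  have hstep : ∀ v, v ∈ normalizer (D : Set G) → v ∉ D → IsPGroup p (D ⊔ zpowers v : Subgroup G) →
      ∀ M₃ M₄ : Subgroup G, MaxLoc p M₃ → MaxLoc p M₄ → M₃ ≠ M₄ → D ≤ M₃ → D ≤ M₄ → v ∈ M₃ → v ∈ M₄ → False := by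
    intro v _ hvD hp M₃ M₄ h3 h4 hne' h5 h6 h7 h8
    have h9 := hDmax (D ⊔ zpowers v) le_sup_left hp ⟨M₃, M₄, h3, h4, hne',
      sup_le h5 ((zpowers_le).2 h7), sup_le h6 ((zpowers_le).2 h8)⟩
    apply hvD
    rw [← h9]
    exact mem_sup_right (mem_zpowers v)
  have hup : IsPGroup p (D ⊔ zpowers u : Subgroup G) := hEp.to_le (sup_le le_sup_left ((zpowers_le).2 huE))
  have huM₁ : u ∈ M₁ := hEM huE
  -- `N(D) ≤ M₁`
  obtain ⟨M₃, hM₃, hNM₃⟩ := exists_maxLoc (p := p) (L := normalizer (D : Set G)) ⟨D, hDp, hDne, rfl⟩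
  have hM₃eq : M₃ = M₁ := by
    by_contra hne3
    exact hstep u huN huD hup M₁ M₃ h1 hM₃ (Ne.symm hne3) hD1 ((le_normalizer).trans hNM₃) huM₁ (hNM₃ huN)
  have hNM₁ : normalizer (D : Set G) ≤ M₁ := hM₃eq ▸ hNM₃
  have huM₂ : u ∉ M₂ := fun h => hstep u huN huD hup M₁ M₂ h1 h2 hne hD1 hD2 huM₁ h
  -- `D` is a maximal `p`-subgroup of `M₂`
  have hDsyl : ∀ D' : Subgroup G, D' ≤ M₂ → IsPGroup p D' → D ≤ D' → D' = D := by
    intro D' h3 h4 h5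
    by_contra hne3
    have hlt : D < D' := lt_of_le_of_ne h5 (Ne.symm hne3)
    obtain ⟨v, hvD', hvD, hvN⟩ := exists_norm_step h4 hlt
    exact hstep v hvN hvD (h4.to_le (sup_le h5 ((zpowers_le).2 hvD'))) M₁ M₂ h1 h2 hne hD1 hD2 (hNM₁ hvN) (h3 hvD')
  have hQ₂D : Q₂ ≤ D := by
    have h3 := hDsyl (D ⊔ Q₂) (sup_le hD2 hQ₂M)
      (hDp.to_sup_of_normal_right' hQ₂p (hD2.trans hMQ₂)) le_sup_left
    rw [← h3]
    exact le_sup_right
  -- the new pair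
  have hM₄ := maxLoc_conj h2 u
  have hne4 : M₂ ≠ M₂.map (cj u) := by
    intro e
    apply huM₂
    have h3 : u ∈ normalizer (M₂ : Set G) := by
      apply mem_norm_conj
      intro m hm
      rw [e]
      refine ⟨m, hm, rfl⟩
    have h4 := Cfsg.Agent.Lib.LocalEven2.normalizer_le_normalizer_pCoreOf (p := p) M₂ h3
    have h5 : u ∈ normalizer (Q₂ : Set G) := by
      rw [hQ₂def]
      exact h4
    rw [maxLoc_norm_eq hloc h2 (by rw [hQ₂def]; exact pcore_ne_bot hloc h2.1) hQ₂M hMQ₂] at h5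
    exact h5
  have hDM₄ : D ≤ M₂.map (cj u) := by
    intro d hd
    have h3 : u⁻¹ * d * u⁻¹⁻¹ ∈ D := (mem_normalizer_iff.1 (inv_mem huN) d).1 hd
    refine ⟨_, hD2 h3, ?_⟩
    show u * (u⁻¹ * d * u⁻¹⁻¹) * u⁻¹ = d
    group
  have hQ₄ : (Cfsg.pCore p ↥(M₂.map (cj u))).map (M₂.map (cj u)).subtype ≤ D := by
    have hle := le_pCoreOf' (p := p) (M := M₂) (B := ((Cfsg.pCore p ↥(M₂.map (cj u))).map (M₂.map (cj u)).subtype).map (cj u⁻¹)) ?_ ?_ ?_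
    · rw [← hQ₂def] at hle
      have h3 := hle.trans hQ₂D
      intro x hx
      have h4 := h3 ⟨x, hx, rfl⟩
      have h5 : u⁻¹ * x * u⁻¹⁻¹ ∈ D := h4
      have h6 := (mem_normalizer_iff.1 (inv_mem huN) x).2 h5
      exact h6
    · rintro _ ⟨_, ⟨y, _, rfl⟩, rfl⟩
      obtain ⟨m, hm, e⟩ := y.2
      have e' : u * m * u⁻¹ = (y : G) := e
      show u⁻¹ * (y : G) * u⁻¹⁻¹ ∈ M₂
      rw [← e']
      have : u⁻¹ * (u * m * u⁻¹) * u⁻¹⁻¹ = m := by group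
      rw [this]
      exact hm
    · intro m hm
      apply mem_norm_conj
      rintro _ ⟨_, ⟨y, hy, rfl⟩, rfl⟩
      have hm' : (u * m * u⁻¹) ∈ M₂.map (cj u) := ⟨m, hm, rfl⟩
      have h3 := (pCore_normal p (G := ↥(M₂.map (cj u)))).conj_mem y hy ⟨_, hm'⟩
      refine ⟨_, ⟨_, h3, rfl⟩, ?_⟩
      show u⁻¹ * (((⟨_, hm'⟩ * y * (⟨_, hm'⟩ : ↥(M₂.map (cj u)))⁻¹ : ↥(M₂.map (cj u))) : G)) * u⁻¹⁻¹ =
        m * (u⁻¹ * (y : G) * u⁻¹⁻¹) * m⁻¹
      simp only [Subgroup.coe_mul, Subgroup.coe_inv]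
      group
    · exact ((pCore_isPGroup p).map _).map _
  exact pair_ok hloc h2 hM₄ hne4 (hQ₂def ▸ (hQ₂D.trans hDM₄)) (hQ₄.trans hD2)

end aux

/-- Two distinct subgroups M₁, M₂ of G form a primitive pair when, for {i, j} = {1, 2}, every non-trivial normal subgroup A of M_i contained in M₁ ∩ M₂ satisfies N_{M_j}(A) = M₁ ∩ M₂; the pair has characteristic p when moreover C_{M_i}(O_p(M_i)) ≤ O_p(M_i) for both i and O_p(M₁)O_p(M₂) ≤ M₁ ∩ M₂. Let G be a finite group, p a prime dividing its order, with O_p(G) = 1 and every p-local subgroup of characteristic p. Then either G has a primitive pair of characteristic p, or every maximal p-local subgroup M of G is strongly p-embedded in G: M is a proper subgroup, p divides its order, and for every g ∉ M the order of M ∩ gMg⁻¹ is prime to p. -/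
theorem result {G : Type*} [Group G] [Finite G] {p : ℕ} [Fact p.Prime] (hloc : Cfsg.IsOfLocalCharacteristic p G) (hOp : Cfsg.pCore p G = ⊥) : (∃ M₁ M₂ : Subgroup G, M₁ ≠ M₂ ∧ (∀ A : Subgroup G, A ≠ ⊥ → A ≤ M₁ ⊓ M₂ → (M₁ ≤ Subgroup.normalizer (A : Set G) → M₂ ⊓ Subgroup.normalizer (A : Set G) = M₁ ⊓ M₂) ∧ (M₂ ≤ Subgroup.normalizer (A : Set G) → M₁ ⊓ Subgroup.normalizer (A : Set G) = M₁ ⊓ M₂)) ∧ Subgroup.centralizer (Cfsg.pCore p ↥M₁ : Set ↥M₁) ≤ Cfsg.pCore p ↥M₁ ∧ Subgroup.centralizer (Cfsg.pCore p ↥M₂ : Set ↥M₂) ≤ Cfsg.pCore p ↥M₂ ∧ (Cfsg.pCore p ↥M₁).map M₁.subtype ⊔ (Cfsg.pCore p ↥M₂).map M₂.subtype ≤ M₁ ⊓ M₂) ∨ (∀ M : Subgroup G, (∃ T : Subgroup G, IsPGroup p T ∧ T ≠ ⊥ ∧ M = Subgroup.normalizer (T : Set G)) → (∀ L : Subgroup G, (∃ T : Subgroup G, IsPGroup p T ∧ T ≠ ⊥ ∧ L = Subgroup.normalizer (T : Set G)) → M ≤ L → L = M) → M ≠ ⊤ ∧ p ∣ Nat.card M ∧ ∀ g : G, g ∉ M →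 ¬ p ∣ Nat.card ↥(M ⊓ M.map (MulAut.conj g).toMonoidHom)) := by
  classical
  by_cases hS : ∀ M : Subgroup G, MaxLoc p M → ∀ g : G, g ∉ M → ¬ p ∣ Nat.card ↥(M ⊓ M.map (MulAut.conj g).toMonoidHom)
  · right
    intro M hM1 hM2
    have hMm : MaxLoc p M := ⟨hM1, hM2⟩
    refine ⟨loc_ne_top hOp hM1, ?_, hS M hMm⟩
    obtain ⟨T, h1, h2, rfl⟩ := hM1
    haveI : Nontrivial T := (Subgroup.nontrivial_iff_ne_bot T).2 h2
    obtain ⟨k, hk⟩ := IsPGroup.iff_card.1 h1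
    have hk0 : k ≠ 0 := by
      rintro rfl
      rw [pow_zero] at hk
      have := Finite.one_lt_card_iff_nontrivial.2 ‹Nontrivial T›
      omega
    have h3 : p ∣ Nat.card T := by
      rw [hk]
      exact dvd_pow_self p hk0
    exact h3.trans (Subgroup.card_dvd_of_le (Subgroup.le_normalizer))
  · left
    push Not at hS
    obtain ⟨M, hM, g, hg, hd⟩ := hS
    -- the family
    obtain ⟨y, hy⟩ := exists_prime_orderOf_dvd_card' (G := ↥(M ⊓ M.map (MulAut.conj g).toMonoidHom)) p hd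
    have hne0 : M ≠ M.map (cj g) := by
      intro e
      apply hg
      have h3 : g ∈ normalizer (M : Set G) := by
        apply mem_norm_conj
        intro m hm
        rw [e]
        exact ⟨m, hm, rfl⟩
      have h4 : g ∈ normalizer (((Cfsg.pCore p ↥M).map M.subtype : Subgroup G) : Set G) :=
        Cfsg.Agent.Lib.LocalEven2.normalizer_le_normalizer_pCoreOf (p := p) M h3
      rw [maxLoc_norm_eq hloc hM (pcore_ne_bot hloc hM.1) (map_subtype_le _) (by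
        intro m hm
        apply mem_norm_conj
        rintro _ ⟨v, hv, rfl⟩
        exact ⟨⟨m, hm⟩ * v * ⟨m, hm⟩⁻¹, (pCore_normal p ↥M).conj_mem v hv ⟨m, hm⟩, rfl⟩)] at h4
      exact h4
    let S : Set (Subgroup G) := {D | D ≠ ⊥ ∧ IsPGroup p D ∧ ∃ M₃ M₄ : Subgroup G, MaxLoc p M₃ ∧ MaxLoc p M₄ ∧ M₃ ≠ M₄ ∧ D ≤ M₃ ∧ D ≤ M₄}
    have hS0 : (zpowers (y : G)) ∈ S := by
      have hy' : orderOf (y : G) = p := by
        rw [Subgroup.orderOf_coe]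
        exact hy
      have hy1 : (y : G) ≠ 1 := by
        intro e
        rw [e, orderOf_one] at hy'
        exact (Fact.out : p.Prime).one_lt.ne hy'
      refine ⟨?_, ?_, M, M.map (cj g), hM, maxLoc_conj hM g, hne0, ?_, ?_⟩
      · rw [Ne, zpowers_eq_bot]
        exact hy1
      · apply IsPGroup.of_card (n := 1)
        rw [Nat.card_zpowers, hy', pow_one]
      · rw [zpowers_le]
        exact y.2.1
      · rw [zpowers_le]
        exact y.2.2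
    obtain ⟨D, hDle, hDmax⟩ := (Set.toFinite S).exists_le_maximal hS0
    obtain ⟨hDne, hDp, M₁, M₂, h1, h2, hne, hD1, hD2⟩ := hDmax.prop
    have hDmax' : ∀ D' : Subgroup G, D ≤ D' → IsPGroup p D' → (∃ M₃ M₄ : Subgroup G, MaxLoc p M₃ ∧ MaxLoc p M₄ ∧ M₃ ≠ M₄ ∧
      D' ≤ M₃ ∧ D' ≤ M₄) → D' = D := by
      intro D' h3 h4 h5
      have h6 : D' ∈ S := ⟨fun e => hDne (le_bot_iff.1 (e ▸ h3)), h4, h5⟩
      exact le_antisymm (hDmax.le_of_ge h6 h3) h3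
    by_cases hQ1 : (Cfsg.pCore p ↥M₁).map M₁.subtype ≤ M₂
    · by_cases hQ2 : (Cfsg.pCore p ↥M₂).map M₂.subtype ≤ M₁
      · exact pair_ok hloc h1 h2 hne hQ1 hQ2
      · exact main_step hloc hOp h2 h1 (Ne.symm hne) hDne hDp hD2 hD1
          (fun D' h3 h4 h5 => hDmax' D' h3 h4 h5) hQ2
    · exact main_step hloc hOp h1 h2 hne hDne hDp hD1 hD2 hDmax' hQ1

end Cfsg.Agent.S3751
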