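import Cfsg.Statements.S3752
-- import your own Cfsg.Agent.* helpers here
import Mathlib
import Cfsg.Agent.Lib.Components.Layer2
import Cfsg.Agent.Lib.OddLocal.NilParts
import Cfsg.Agent.Lib.LocalEven.GFit
import Cfsg.Agent.Lib.Basic.Core

set_option autoImplicit false
open Cfsg

namespace Cfsg.Agent.S3752

open Cfsg.Agent.Lib.OddLocal Subgroup

set_option linter.unusedSectionVars false

section aux

variable {G : Type*} [Group G] [Finite G]

theorem mem_norm_conj {P : Subgroup G} {g : G} (h : ∀ u ∈ P, g * u * g⁻¹ ∈ P) :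
    g ∈ normalizer (P : Set G) := by
  have h1 : P.map (MulAut.conj g).toMonoidHom ≤ P := by
    rintro _ ⟨u, hu, rfl⟩
    exact h u hu
  have h2 : P.map (MulAut.conj g).toMonoidHom = P :=
    Subgroup.eq_of_le_of_card_ge h1 (by
      rw [Subgroup.card_map_of_injective (MulAut.conj g).injective])
  rw [mem_normalizer_iff]
  intro u
  constructor
  · exact h u
  · intro hu
    rw [← h2] at hu
    obtain ⟨v, hv, e⟩ := hu
    have : v = u := by
      have e' : g * v * g⁻¹ = g * u * g⁻¹ := e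
      simpa using e'
    rwa [← this]

theorem conj_mem_of_norm {P : Subgroup G} {g u : G} (hg : g ∈ normalizer (P : Set G)) (hu : u ∈ P) :
    g * u * g⁻¹ ∈ P := (mem_normalizer_iff.mp hg u).mp hu

theorem conj_inv_mem_of_norm {P : Subgroup G} {g u : G} (hg : g ∈ normalizer (P : Set G)) (hu : u ∈ P) :
    g⁻¹ * u * g ∈ P := by
  have := conj_mem_of_norm (P := P) (inv_mem hg) hu
  simpa using this

/-- Elements of coprime order and `q`-power order: trivial. -/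
theorem eq_one_of_pow_of_coprime {q : ℕ} {x : G} {k : ℕ} (h : x ^ q ^ k = 1)
    (hc : (orderOf x).Coprime q) : x = 1 := by
  have h1 : orderOf x ∣ q ^ k := orderOf_dvd_of_pow_eq_one h
  have h2 : (orderOf x).Coprime (q ^ k) := Nat.Coprime.pow_right _ hc
  have h3 : orderOf x = 1 := Nat.eq_one_of_dvd_coprimes h2 dvd_rfl h1
  exact orderOf_eq_one_iff.mp h3

theorem conj_mem_centralizer {B : Subgroup G} {g a : G} (hg : g ∈ normalizer (B : Set G))
    (ha : a ∈ centralizer (B : Set G)) : g * a * g⁻¹ ∈ centralizer (B : Set G) := by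
  rw [mem_centralizer_iff]
  intro y hy
  have := mem_centralizer_iff.mp ha _ (conj_inv_mem_of_norm hg hy)
  calc y * (g * a * g⁻¹) = g * ((g⁻¹ * y * g) * a) * g⁻¹ := by group
    _ = g * (a * (g⁻¹ * y * g)) * g⁻¹ := by rw [this]
    _ = (g * a * g⁻¹) * y := by group

theorem zpowers_isPGroup {s : ℕ} {a : G} {k : ℕ} (h : a ^ s ^ k = 1) : IsPGroup s (zpowers a) := by
  rintro ⟨z, hz⟩
  obtain ⟨n, rfl⟩ := mem_zpowers_iff.mp hz
  refine ⟨k, Subtype.ext ?_⟩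
  simp only [SubgroupClass.coe_pow, OneMemClass.coe_one]
  rw [← zpow_natCast, ← zpow_mul, mul_comm, zpow_mul, zpow_natCast, h, one_zpow]

/-- The `s`-elements of `M ∩ C(O_{s'}(H))`. -/
def sGen (M H : Subgroup G) (s : ℕ) : Set G :=
  {a | a ∈ M ∧ a ∈ centralizer (Oq' s H : Set G) ∧ ∃ k : ℕ, a ^ s ^ k = 1}

/-- The key commutation. -/
theorem comm_key {M H : Subgroup G} {s : ℕ} [Fact s.Prime] (hHn : Group.IsNilpotent H)
    (hHM : H ≤ M) (hN : M ≤ normalizer (H : Set G))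
    (hC : ∀ x ∈ M, (∀ h ∈ H, h * x = x * h) → x ∈ H) {a b : G} (ha : a ∈ sGen M H s)
    (hb : b ∈ M) (hbc : ∀ u ∈ Oq s H, u * b = b * u) (hbo : (orderOf b).Coprime s) :
    a * b = b * a := by
  obtain ⟨haM, haC, k, hk⟩ := ha
  have hNA : M ≤ normalizer (Oq s H : Set G) := fun m hm => mem_normalizer_Oq hHn (hN hm)
  have hNB : M ≤ normalizer (Oq' s H : Set G) := fun m hm => mem_normalizer_Oq' hHn (hN hm)
  have haCe : ∀ y ∈ Oq' s H, y * a = a * y := fun y hy => mem_centralizer_iff.mp haC y hy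
  have hbC : b ∈ centralizer (Oq s H : Set G) := mem_centralizer_iff.mpr hbc
  set c := a⁻¹ * b⁻¹ * a * b with hc
  have hcM : c ∈ M := by
    rw [hc]
    exact mul_mem (mul_mem (mul_mem (inv_mem haM) (inv_mem hb)) haM) hb
  have hc1 : c ∈ centralizer (Oq' s H : Set G) := by
    have h1 : b⁻¹ * a * b⁻¹⁻¹ ∈ centralizer (Oq' s H : Set G) :=
      conj_mem_centralizer (hNB (inv_mem hb)) haC
    have h2 : c = a⁻¹ * (b⁻¹ * a * b⁻¹⁻¹) := by rw [hc]; group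
    rw [h2]
    exact mul_mem (inv_mem haC) h1
  have hc2 : c ∈ centralizer (Oq s H : Set G) := by
    have h1 : a⁻¹ * b⁻¹ * a⁻¹⁻¹ ∈ centralizer (Oq s H : Set G) :=
      conj_mem_centralizer (hNA (inv_mem haM)) (inv_mem hbC)
    have h2 : c = (a⁻¹ * b⁻¹ * a⁻¹⁻¹) * b := by rw [hc]; group
    rw [h2]
    exact mul_mem h1 hbC
  have hcH : c ∈ H := by
    apply hC c hcM
    intro h hh
    exact (comm_of_comm_parts s hHn (u := c)
      (fun u hu => (mem_centralizer_iff.mp hc2 u hu).symm)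
      (fun u hu => (mem_centralizer_iff.mp hc1 u hu).symm) hh).symm
  obtain ⟨x, hx, y, hy, hcxy⟩ := exists_parts s hHn hcH
  -- `a x` is an `s`-element
  have hsup : IsPGroup s ((zpowers a ⊔ Oq s H : Subgroup G)) := by
    apply IsPGroup.to_sup_of_normal_right' (zpowers_isPGroup hk) (Oq_isPGroup s H)
    rw [zpowers_le]
    exact hNA haM
  have hwmem : a * x ∈ zpowers a ⊔ Oq s H :=
    mul_mem (mem_sup_left (mem_zpowers a)) (mem_sup_right hx)
  obtain ⟨k', hk'⟩ := hsup ⟨a * x, hwmem⟩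
  have hk'' : (a * x) ^ s ^ k' = 1 := by
    have := congrArg Subtype.val hk'
    simpa using this
  have hcomm : Commute (a * x) y := by
    have h1 : Commute a y := (haCe y hy).symm
    have h2 : Commute x y := Oq_comm_Oq' hHn hx hy
    exact h1.mul_left h2
  -- conjugate of `a`
  have hconj : b⁻¹ * a * b = (a * x) * y := by
    rw [mul_assoc a x y, ← hcxy, hc]
    group
  have hy1 : y = 1 := by
    have h1 : (b⁻¹ * a * b) ^ s ^ (k + k') = 1 := by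
      have h2 : (b⁻¹ * a * b) ^ s ^ (k + k') = b⁻¹ * a ^ s ^ (k + k') * b := by
        have := conj_pow (a := b⁻¹) (b := a) (i := s ^ (k + k'))
        simpa using this
      rw [h2, pow_add, pow_mul, hk, one_pow]
      group
    rw [hconj, hcomm.mul_pow, pow_add, mul_comm (s ^ k), pow_mul, hk'', one_pow, one_mul] at h1
    rw [← pow_add] at h1
    exact eq_one_of_pow_of_coprime h1 (orderOf_Oq'_coprime hy)
  have hcx : c = x := by rw [hcxy, hy1, mul_one]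
  have hcb : Commute c b := by
    rw [hcx]
    exact hbc x hx
  -- raising to `m = orderOf b`
  have hcm : c ^ orderOf b = 1 := by
    have h1 : a⁻¹ * b⁻¹ * a = c * b⁻¹ := by rw [hc]; group
    have h2 : (a⁻¹ * b⁻¹ * a) ^ orderOf b = 1 := by
      have h3 := conj_pow (a := a⁻¹) (b := b⁻¹) (i := orderOf b)
      rw [inv_inv] at h3
      rw [h3, inv_pow, pow_orderOf_eq_one]
      group
    rw [h1, (hcb.inv_right).mul_pow, inv_pow, pow_orderOf_eq_one, inv_one, mul_one] at h2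
    exact h2
  have hc1' : c = 1 := by
    obtain ⟨j, hj⟩ := Cfsg.Agent.Lib.PGroups.exists_orderOf_of_mem_isPGroup (Oq_isPGroup s H) hx
    have h1 : orderOf c ∣ orderOf b := orderOf_dvd_of_pow_eq_one hcm
    have h2 : orderOf c ∣ s ^ j := by rw [hcx, hj]
    have h3 : orderOf c = 1 := Nat.eq_one_of_dvd_coprimes (Nat.Coprime.pow_right j hbo) h1 h2
    exact orderOf_eq_one_iff.mp h3
  have h4 : a⁻¹ * b⁻¹ * a * b = 1 := hc1'
  calc a * b = (b * a) * (a⁻¹ * b⁻¹ * a * b) := by group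
    _ = b * a := by rw [h4, mul_one]

theorem sGen_closure_le {M H : Subgroup G} {s : ℕ} : closure (sGen M H s) ≤ M :=
  (closure_le _).mpr fun _ ha => ha.1

theorem le_sGen_closure {M H : Subgroup G} {s : ℕ} [Fact s.Prime] (hHn : Group.IsNilpotent H)
    (hHM : H ≤ M) : Oq s H ≤ closure (sGen M H s) := by
  intro x hx
  apply Subgroup.subset_closure
  refine ⟨hHM (Oq_le s H hx), mem_centralizer_iff.mpr fun y hy => (Oq_comm_Oq' hHn hx hy).symm, ?_⟩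
  obtain ⟨k, hk⟩ := Cfsg.Agent.Lib.PGroups.exists_orderOf_of_mem_isPGroup (Oq_isPGroup s H) hx
  exact ⟨k, by rw [← hk, pow_orderOf_eq_one]⟩

theorem sGen_closure_norm {M H : Subgroup G} {s : ℕ} [Fact s.Prime] (hHn : Group.IsNilpotent H)
    (hN : M ≤ normalizer (H : Set G)) : M ≤ normalizer (closure (sGen M H s) : Set G) := by
  intro g hg
  apply mem_norm_conj
  have : closure (sGen M H s) ≤ (closure (sGen M H s)).comap (MulAut.conj g).toMonoidHom := by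
    rw [closure_le]
    rintro a ⟨haM, haC, k, hk⟩
    apply Subgroup.subset_closure
    refine ⟨mul_mem (mul_mem hg haM) (inv_mem hg),
      conj_mem_centralizer (mem_normalizer_Oq' hHn (hN hg)) haC, k, ?_⟩
    show (g * a * g⁻¹) ^ s ^ k = 1
    rw [conj_pow, hk]
    group
  exact fun u hu => this hu

/-- Cross commutation. -/
theorem comm_cross {M₁ M₂ H₁ H₂ : Subgroup G} {s : ℕ} [Fact s.Prime] (hn1 : Group.IsNilpotent H₁)
    (hn2 : Group.IsNilpotent H₂) (hN1 : M₁ ≤ normalizer (H₁ : Set G))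
    (hN2 : M₂ ≤ normalizer (H₂ : Set G)) (h12 : H₁ ≤ M₂) (h21 : H₂ ≤ M₁) {x y : G}
    (hx : x ∈ Oq s H₁) (hy : y ∈ Oq' s H₂) : x * y = y * x := by
  have hyM : y ∈ M₁ := h21 (Oq'_le s H₂ hy)
  have hxM : x ∈ M₂ := h12 (Oq_le s H₁ hx)
  have h1 : x * y * x⁻¹ * y⁻¹ ∈ Oq' s H₂ :=
    mul_mem (conj_mem_of_norm (mem_normalizer_Oq' hn2 (hN2 hxM)) hy) (inv_mem hy)
  have h2 : x * y * x⁻¹ * y⁻¹ ∈ Oq s H₁ := by
    have h3 : x * y * x⁻¹ * y⁻¹ = x * (y * x⁻¹ * y⁻¹) := by group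
    rw [h3]
    exact mul_mem hx (conj_mem_of_norm (mem_normalizer_Oq hn1 (hN1 hyM)) (inv_mem hx))
  obtain ⟨k, hk⟩ := Cfsg.Agent.Lib.PGroups.exists_orderOf_of_mem_isPGroup (Oq_isPGroup s H₁) h2
  have h3 : x * y * x⁻¹ * y⁻¹ = 1 :=
    eq_one_of_pow_of_coprime (k := k) (by rw [← hk, pow_orderOf_eq_one]) (orderOf_Oq'_coprime h1)
  calc x * y = (x * y * x⁻¹ * y⁻¹) * (y * x) := by group
    _ = y * x := by rw [h3, one_mul]

theorem half {M₁ M₂ H₁ H₂ : Subgroup G} {s : ℕ} [Fact s.Prime]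
    (hP : ∀ A : Subgroup G, A ≠ ⊥ → A ≤ M₁ ⊓ M₂ → M₂ ≤ normalizer (A : Set G) →
      M₁ ⊓ normalizer (A : Set G) = M₁ ⊓ M₂)
    (hn1 : Group.IsNilpotent H₁) (hn2 : Group.IsNilpotent H₂)
    (h11 : H₁ ≤ M₁) (h12 : H₁ ≤ M₂) (h21 : H₂ ≤ M₁) (h22 : H₂ ≤ M₂)
    (hN1 : M₁ ≤ normalizer (H₁ : Set G)) (hN2 : M₂ ≤ normalizer (H₂ : Set G))
    (hC1 : ∀ x ∈ M₁, (∀ h ∈ H₁, h * x = x * h) → x ∈ H₁)
    (hb2 : Oq' s H₂ ≠ ⊥) : closure (sGen M₁ H₁ s) ≤ closure (sGen M₂ H₂ s) := by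
  have hcomm : ∀ a ∈ sGen M₁ H₁ s, ∀ b ∈ Oq' s H₂, b * a = a * b := by
    intro a ha b hb
    refine (comm_key hn1 h11 hN1 hC1 ha (h21 (Oq'_le s H₂ hb)) ?_ (orderOf_Oq'_coprime hb)).symm
    intro u hu
    exact comm_cross hn1 hn2 hN1 hN2 h12 h21 hu hb
  have h1 : closure (sGen M₁ H₁ s) ≤ centralizer (Oq' s H₂ : Set G) :=
    (closure_le _).mpr fun a ha => mem_centralizer_iff.mpr fun b hb => hcomm a ha b hb
  have h2 : closure (sGen M₁ H₁ s) ≤ M₁ ⊓ M₂ := by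
    rw [← hP _ hb2 (le_inf ((Oq'_le s H₂).trans h21) ((Oq'_le s H₂).trans h22))
      (fun m hm => mem_normalizer_Oq' hn2 (hN2 hm))]
    exact le_inf sGen_closure_le (h1.trans (centralizer_le_normalizer _))
  rw [closure_le]
  intro a ha
  apply Subgroup.subset_closure
  exact ⟨(h2 (Subgroup.subset_closure ha)).2, h1 (Subgroup.subset_closure ha), ha.2.2⟩

/-- No nontrivial subgroup of the intersection is normal in both. -/
theorem no_common {M₁ M₂ A : Subgroup G} (hne : M₁ ≠ M₂)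
    (hP : ∀ A : Subgroup G, A ≠ ⊥ → A ≤ M₁ ⊓ M₂ → (M₁ ≤ normalizer (A : Set G) →
      M₂ ⊓ normalizer (A : Set G) = M₁ ⊓ M₂) ∧ (M₂ ≤ normalizer (A : Set G) →
      M₁ ⊓ normalizer (A : Set G) = M₁ ⊓ M₂))
    (hA : A ≠ ⊥) (hX : A ≤ M₁ ⊓ M₂) (h1 : M₁ ≤ normalizer (A : Set G))
    (h2 : M₂ ≤ normalizer (A : Set G)) : False := by
  obtain ⟨h3, h4⟩ := hP A hA hX
  have h5 := h3 h1
  have h6 := h4 h2
  rw [inf_eq_left.mpr h2] at h5
  rw [inf_eq_left.mpr h1] at h6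
  exact hne (h6.trans h5.symm)

theorem pair_key {M₁ M₂ H₁ H₂ : Subgroup G} {s : ℕ} [Fact s.Prime] (hne : M₁ ≠ M₂)
    (hP : ∀ A : Subgroup G, A ≠ ⊥ → A ≤ M₁ ⊓ M₂ → (M₁ ≤ normalizer (A : Set G) →
      M₂ ⊓ normalizer (A : Set G) = M₁ ⊓ M₂) ∧ (M₂ ≤ normalizer (A : Set G) →
      M₁ ⊓ normalizer (A : Set G) = M₁ ⊓ M₂))
    (hn1 : Group.IsNilpotent H₁) (hn2 : Group.IsNilpotent H₂)
    (h11 : H₁ ≤ M₁) (h12 : H₁ ≤ M₂) (h21 : H₂ ≤ M₁) (h22 : H₂ ≤ M₂)
    (hN1 : M₁ ≤ normalizer (H₁ : Set G)) (hN2 : M₂ ≤ normalizer (H₂ : Set G))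
    (hC1 : ∀ x ∈ M₁, (∀ h ∈ H₁, h * x = x * h) → x ∈ H₁)
    (hC2 : ∀ x ∈ M₂, (∀ h ∈ H₂, h * x = x * h) → x ∈ H₂)
    (ha1 : Oq s H₁ ≠ ⊥) (hb1 : Oq' s H₁ ≠ ⊥) (hb2 : Oq' s H₂ ≠ ⊥) : False := by
  have e1 := half (fun A h1 h2 h3 => (hP A h1 h2).2 h3) hn1 hn2 h11 h12 h21 h22 hN1 hN2 hC1 hb2
  have e2 := half (fun A h1 h2 h3 => by
    have h4 := (hP A h1 (by rwa [inf_comm])).1 h3
    rw [h4, inf_comm]) hn2 hn1 h22 h21 h12 h11 hN2 hN1 hC2 hb1
  have e : closure (sGen M₁ H₁ s) = closure (sGen M₂ H₂ s) := le_antisymm e1 e2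
  have hne' : closure (sGen M₁ H₁ s) ≠ ⊥ := by
    intro h
    apply ha1
    exact le_bot_iff.mp (h ▸ le_sGen_closure hn1 h11)
  refine no_common hne hP hne' (le_inf sGen_closure_le (e ▸ sGen_closure_le)) ?_ ?_
  · exact sGen_closure_norm hn1 hN1
  · rw [e]
    exact sGen_closure_norm hn2 hN2

theorem isP_of_Oq'_bot {H : Subgroup G} {s : ℕ} [Fact s.Prime] (hn : Group.IsNilpotent H)
    (h : Oq' s H = ⊥) : IsPGroup s H := by
  intro x
  obtain ⟨a, ha, b, hb, e⟩ := exists_parts s hn x.2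
  rw [h, mem_bot] at hb
  rw [hb, mul_one] at e
  obtain ⟨k, hk⟩ := Cfsg.Agent.Lib.PGroups.exists_orderOf_of_mem_isPGroup (Oq_isPGroup s H) ha
  refine ⟨k, Subtype.ext ?_⟩
  simp only [SubgroupClass.coe_pow, OneMemClass.coe_one]
  rw [e, ← hk]
  exact pow_orderOf_eq_one a

theorem Oq'_bot_of_other {M₁ M₂ H₁ H₂ : Subgroup G} {s : ℕ} [Fact s.Prime]
    (hn1 : Group.IsNilpotent H₁) (hn2 : Group.IsNilpotent H₂)
    (h12 : H₁ ≤ M₂) (h21 : H₂ ≤ M₁)
    (hN1 : M₁ ≤ normalizer (H₁ : Set G)) (hN2 : M₂ ≤ normalizer (H₂ : Set G))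
    (hC1 : ∀ x ∈ M₁, (∀ h ∈ H₁, h * x = x * h) → x ∈ H₁)
    (h : Oq' s H₁ = ⊥) : Oq' s H₂ = ⊥ := by
  rw [eq_bot_iff]
  intro y hy
  rw [mem_bot]
  have hp := isP_of_Oq'_bot hn1 h
  have h1 : y ∈ H₁ := by
    apply hC1 y (h21 (Oq'_le s H₂ hy))
    intro u hu
    have hu' : u ∈ Oq s H₁ := by
      obtain ⟨k, hk⟩ := hp ⟨u, hu⟩
      apply mem_Oq hn1 hu (k := k)
      have := congrArg Subtype.val hk
      simpa using this
    exact comm_cross hn1 hn2 hN1 hN2 h12 h21 hu' hy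
  obtain ⟨k, hk⟩ := hp ⟨y, h1⟩
  have := congrArg Subtype.val hk
  exact eq_one_of_pow_of_coprime (k := k) (by simpa using this) (orderOf_Oq'_coprime hy)

theorem pair_primary {M₁ M₂ H₁ H₂ : Subgroup G} (hne : M₁ ≠ M₂)
    (hP : ∀ A : Subgroup G, A ≠ ⊥ → A ≤ M₁ ⊓ M₂ → (M₁ ≤ normalizer (A : Set G) →
      M₂ ⊓ normalizer (A : Set G) = M₁ ⊓ M₂) ∧ (M₂ ≤ normalizer (A : Set G) →
      M₁ ⊓ normalizer (A : Set G) = M₁ ⊓ M₂))
    (hn1 : Group.IsNilpotent H₁) (hn2 : Group.IsNilpotent H₂)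
    (h11 : H₁ ≤ M₁) (h12 : H₁ ≤ M₂) (h21 : H₂ ≤ M₁) (h22 : H₂ ≤ M₂)
    (hN1 : M₁ ≤ normalizer (H₁ : Set G)) (hN2 : M₂ ≤ normalizer (H₂ : Set G))
    (hC1 : ∀ x ∈ M₁, (∀ h ∈ H₁, h * x = x * h) → x ∈ H₁)
    (hC2 : ∀ x ∈ M₂, (∀ h ∈ H₂, h * x = x * h) → x ∈ H₂) :
    ∃ s : ℕ, s.Prime ∧ IsPGroup s H₁ ∧ IsPGroup s H₂ := by
  have hH1 : H₁ ≠ ⊥ := by
    intro h1
    have hM1 : M₁ = ⊥ := by
      rw [eq_bot_iff]
      intro x hx
      have := hC1 x hx (fun h hh => by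
        rw [h1, mem_bot] at hh
        rw [hh, one_mul, mul_one])
      rwa [h1] at this
    have hH2 : H₂ = ⊥ := le_bot_iff.mp (hM1 ▸ h21)
    have hM2 : M₂ = ⊥ := by
      rw [eq_bot_iff]
      intro x hx
      have := hC2 x hx (fun h hh => by
        rw [hH2, mem_bot] at hh
        rw [hh, one_mul, mul_one])
      rwa [hH2] at this
    exact hne (hM1.trans hM2.symm)
  have hcard : Nat.card H₁ ≠ 1 := by
    intro h
    exact hH1 ((card_eq_one).mp h)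
  obtain ⟨s, hs, hsd⟩ := Nat.exists_prime_and_dvd hcard
  haveI : Fact s.Prime := ⟨hs⟩
  refine ⟨s, hs, ?_⟩
  have ha1 : Oq s H₁ ≠ ⊥ := Oq_ne_bot hn1 hsd
  by_cases hb1 : Oq' s H₁ = ⊥
  · exact ⟨isP_of_Oq'_bot hn1 hb1, isP_of_Oq'_bot hn2
      (Oq'_bot_of_other hn1 hn2 h12 h21 hN1 hN2 hC1 hb1)⟩
  by_cases hb2 : Oq' s H₂ = ⊥
  · exact ⟨isP_of_Oq'_bot hn1 (Oq'_bot_of_other hn2 hn1 h21 h12 hN2 hN1 hC2 hb2),
      isP_of_Oq'_bot hn2 hb2⟩
  · exact (pair_key hne hP hn1 hn2 h11 h12 h21 h22 hN1 hN2 hC1 hC2 ha1 hb1 hb2).elim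

open Cfsg.Agent.Lib.Components in
theorem comp_down {K B A : Subgroup G} (hKB : K ≤ B) (hBA : B ≤ A)
    (h : Cfsg.IsComponent (K.subgroupOf A)) : Cfsg.IsComponent (K.subgroupOf B) := by
  have h1 : K.subgroupOf A ≤ B.subgroupOf A := fun x hx => hKB hx
  have h2 := component_subgroupOf h h1
  have h3 := Cfsg.Agent.Lib.LocalEven.comp_map_equiv (subgroupOfEquivOfLe hBA) h2
  convert h3 using 1
  ext ⟨x, hx⟩
  constructor
  · intro hxK
    exact ⟨⟨⟨x, hBA hx⟩, hx⟩, hxK, rfl⟩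
  · rintro ⟨⟨⟨y, hy⟩, hy'⟩, hyK, e⟩
    have e' : y = x := congrArg Subtype.val e
    subst e'
    exact hyK

open Cfsg.Agent.Lib.Components in
theorem comp_up {K B A : Subgroup G} (hKB : K ≤ B) (hBA : B ≤ A)
    (hsn : (B.subgroupOf A).IsSubnormal)
    (h : Cfsg.IsComponent (K.subgroupOf B)) : Cfsg.IsComponent (K.subgroupOf A) := by
  have h3 := Cfsg.Agent.Lib.LocalEven.comp_map_equiv (subgroupOfEquivOfLe hBA).symm h
  have h4 := component_map_of_subnormal hsn h3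
  convert h4 using 1
  ext ⟨x, hx⟩
  constructor
  · intro hxK
    exact ⟨⟨⟨x, hx⟩, hKB hxK⟩, ⟨⟨x, hKB hxK⟩, hxK, rfl⟩, rfl⟩
  · rintro ⟨y, ⟨z, hz, rfl⟩, e⟩
    have e' : z.1 = x := congrArg Subtype.val e
    obtain ⟨z, hzB⟩ := z
    have e'' : z = x := e'
    subst e''
    exact hz

theorem le_norm_map {M : Subgroup G} {N : Subgroup M} (hN : N.Normal) :
    M ≤ normalizer ((N.map M.subtype : Subgroup G) : Set G) := by
  intro x hx
  apply mem_norm_conj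
  rintro _ ⟨t, ht, rfl⟩
  exact ⟨⟨x, hx⟩ * t * ⟨x, hx⟩⁻¹, hN.conj_mem t ht _, rfl⟩

open Cfsg.Agent.Lib.Components in
theorem layer_map_le {M₁ M₂ : Subgroup G}
    (h₁ : (Cfsg.generalizedFittingSubgroup M₁).map M₁.subtype ≤ M₂)
    (h₂ : (Cfsg.generalizedFittingSubgroup M₂).map M₂.subtype ≤ M₁) :
    (Cfsg.layer M₁).map M₁.subtype ≤ (Cfsg.layer M₂).map M₂.subtype := by
  rw [map_le_iff_le_comap]
  apply layer_le
  intro K hK
  obtain ⟨Kh, hKh⟩ : ∃ Kh : Subgroup G, Kh = K.map M₁.subtype := ⟨_, rfl⟩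
  have hsub : Kh.subgroupOf M₁ = K := by
    rw [hKh]
    exact comap_map_eq_self_of_injective M₁.subtype_injective K
  have hc1 : Cfsg.IsComponent (Kh.subgroupOf M₁) := by rwa [hsub]
  have hKM1 : Kh ≤ M₁ := by rw [hKh]; exact map_subtype_le _
  have hKM2 : Kh ≤ M₂ := by
    rw [hKh]
    exact (map_mono (component_le_gfit hK)).trans h₁
  have hcX := comp_down (le_inf hKM1 hKM2) (inf_le_left : M₁ ⊓ M₂ ≤ M₁) hc1
  obtain ⟨T, hT⟩ : ∃ T : Subgroup G, T = (Cfsg.generalizedFittingSubgroup M₂).map M₂.subtype :=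
    ⟨_, rfl⟩
  have hTM2 : T ≤ M₂ := by rw [hT]; exact map_subtype_le _
  have hTM1 : T ≤ M₁ := by rw [hT]; exact h₂
  have hTN : M₂ ≤ normalizer (T : Set G) := by
    rw [hT]
    exact le_norm_map (N := Cfsg.generalizedFittingSubgroup M₂) inferInstance
  have hTnX : (T.subgroupOf (M₁ ⊓ M₂)).Normal :=
    (normal_subgroupOf_iff_le_normalizer (le_inf hTM1 hTM2)).mpr (inf_le_right.trans hTN)
  have hKT : Kh ≤ T := by
    rcases component_le_or_commute hcX hTnX.isSubnormal with h | h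
    · intro x hx
      exact h (show (⟨x, le_inf hKM1 hKM2 hx⟩ : ↥(M₁ ⊓ M₂)) ∈ Kh.subgroupOf (M₁ ⊓ M₂) from hx)
    · intro x hx
      have hx2 : (⟨x, hKM2 hx⟩ : M₂) ∈ centralizer (Cfsg.generalizedFittingSubgroup M₂ : Set M₂) := by
        rw [mem_centralizer_iff]
        intro t ht
        have htT : (t : G) ∈ T := by rw [hT]; exact ⟨t, ht, rfl⟩
        have h4 := commutator_mem_commutator
          (show (⟨x, le_inf hKM1 hKM2 hx⟩ : ↥(M₁ ⊓ M₂)) ∈ Kh.subgroupOf (M₁ ⊓ M₂) from hx)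
          (show (⟨t, ⟨hTM1 htT, t.2⟩⟩ : ↥(M₁ ⊓ M₂)) ∈ T.subgroupOf (M₁ ⊓ M₂) from htT)
        rw [h] at h4
        have h5 := commutatorElement_eq_one_iff_mul_comm.mp (mem_bot.mp h4)
        apply Subtype.ext
        have h6 := congrArg Subtype.val h5
        exact h6.symm
      have h3 := centralizer_gfit_le hx2
      rw [hT]
      exact ⟨_, h3, rfl⟩
  have hcT := comp_down hKT (le_inf hTM1 hTM2) hcX
  have hTn2 : (T.subgroupOf M₂).Normal := (normal_subgroupOf_iff_le_normalizer hTM2).mpr hTN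
  have hc2 := comp_up hKT hTM2 hTn2.isSubnormal hcT
  have h7 := component_le_layer hc2
  intro x hx
  have hx1 : (x : G) ∈ Kh := by rw [hKh]; exact ⟨x, hx, rfl⟩
  exact ⟨⟨x, hKM2 hx1⟩, h7 (show (⟨x, hKM2 hx1⟩ : M₂) ∈ Kh.subgroupOf M₂ from hx1), rfl⟩

end aux

/-- Bender's Theorem on primitive pairs. Two distinct subgroups M₁, M₂ of G form a primitive pair when, for {i, j} = {1, 2}, every non-trivial normal subgroup A of M_i contained in M₁ ∩ M₂ satisfies N_{M_j}(A) = M₁ ∩ M₂; the pair has characteristic p when moreover C_{M_i}(O_p(M_i)) ≤ O_p(M_i) for both i and O_p(M₁)O_p(M₂) ≤ M₁ ∩ M₂. If (M₁, M₂) is a primitive pair of the finite group G with F*(M₁) ≤ M₂ and F*(M₂) ≤ M₁, then for some prime p the pair has characteristic p. -/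
theorem result {G : Type*} [Group G] [Finite G] (M₁ M₂ : Subgroup G) (hne : M₁ ≠ M₂) (hP : ∀ A : Subgroup G, A ≠ ⊥ → A ≤ M₁ ⊓ M₂ → (M₁ ≤ Subgroup.normalizer (A : Set G) → M₂ ⊓ Subgroup.normalizer (A : Set G) = M₁ ⊓ M₂) ∧ (M₂ ≤ Subgroup.normalizer (A : Set G) → M₁ ⊓ Subgroup.normalizer (A : Set G) = M₁ ⊓ M₂)) (h₁ : (Cfsg.generalizedFittingSubgroup ↥M₁).map M₁.subtype ≤ M₂) (h₂ : (Cfsg.generalizedFittingSubgroup ↥M₂).map M₂.subtype ≤ M₁) : ∃ p : ℕ, p.Prime ∧ Subgroup.centralizer (Cfsg.pCore p ↥M₁ : Set ↥M₁) ≤ Cfsg.pCore p ↥M₁ ∧ Subgroup.centralizer (Cfsg.pCore p ↥M₂ : Set ↥M₂) ≤ Cfsg.pCore p ↥M₂ ∧ (Cfsg.pCore p ↥M₁).map M₁.subtype ⊔ (Cfsg.pCore p ↥M₂).map M₂.subtype ≤ M₁ ⊓ M₂ := by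
  classical
  have hE : (Cfsg.layer M₁).map M₁.subtype = (Cfsg.layer M₂).map M₂.subtype :=
    le_antisymm (layer_map_le h₁ h₂) (layer_map_le h₂ h₁)
  have hbot : (Cfsg.layer M₁).map M₁.subtype = ⊥ := by
    by_contra hne'
    refine no_common hne hP hne' (le_inf (map_subtype_le _) (by rw [hE]; exact map_subtype_le _))
      (le_norm_map (N := Cfsg.layer M₁) inferInstance) ?_
    rw [hE]
    exact le_norm_map (N := Cfsg.layer M₂) inferInstance
  have hl1 : Cfsg.layer M₁ = ⊥ := (map_eq_bot_iff_of_injective _ M₁.subtype_injective).mp hbot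
  have hl2 : Cfsg.layer M₂ = ⊥ :=
    (map_eq_bot_iff_of_injective _ M₂.subtype_injective).mp (hE ▸ hbot)
  have hg1 := Cfsg.Agent.Lib.Components.gfit_eq_fitting_of_layer_eq_bot hl1
  have hg2 := Cfsg.Agent.Lib.Components.gfit_eq_fitting_of_layer_eq_bot hl2
  rw [hg1] at h₁
  rw [hg2] at h₂
  have hc1 : centralizer (Cfsg.fittingSubgroup M₁ : Set M₁) ≤ Cfsg.fittingSubgroup M₁ := by
    have := Cfsg.Agent.Lib.Components.centralizer_gfit_le (G := M₁)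
    rwa [hg1] at this
  have hc2 : centralizer (Cfsg.fittingSubgroup M₂ : Set M₂) ≤ Cfsg.fittingSubgroup M₂ := by
    have := Cfsg.Agent.Lib.Components.centralizer_gfit_le (G := M₂)
    rwa [hg2] at this
  have nil_map : ∀ M : Subgroup G, Group.IsNilpotent ((Cfsg.fittingSubgroup M).map M.subtype) := by
    intro M
    have e := (Cfsg.fittingSubgroup M).equivMapOfInjective _ M.subtype_injective
    haveI := Cfsg.Agent.Lib.Components.fitting_isNilpotent (G := M)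
    exact Group.nilpotent_of_surjective e.toMonoidHom e.surjective
  have cent_map : ∀ M : Subgroup G, centralizer (Cfsg.fittingSubgroup M : Set M) ≤ Cfsg.fittingSubgroup M →
      ∀ x ∈ M, (∀ h ∈ (Cfsg.fittingSubgroup M).map M.subtype, h * x = x * h) →
        x ∈ (Cfsg.fittingSubgroup M).map M.subtype := by
    intro M hc x hx h
    refine ⟨⟨x, hx⟩, hc ?_, rfl⟩
    rw [mem_centralizer_iff]
    intro t ht
    exact Subtype.ext (h t ⟨t, ht, rfl⟩)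
  obtain ⟨s, hs, hp1, hp2⟩ := pair_primary hne hP (nil_map M₁) (nil_map M₂) (map_subtype_le _) h₁ h₂
    (map_subtype_le _) (le_norm_map (N := Cfsg.fittingSubgroup M₁) inferInstance)
    (le_norm_map (N := Cfsg.fittingSubgroup M₂) inferInstance) (cent_map M₁ hc1) (cent_map M₂ hc2)
  haveI : Fact s.Prime := ⟨hs⟩
  have eq_core : ∀ M : Subgroup G, IsPGroup s ((Cfsg.fittingSubgroup M).map M.subtype) →
      Cfsg.pCore s M = Cfsg.fittingSubgroup M := by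
    intro M hp
    apply le_antisymm (Cfsg.Agent.Lib.Basic.pCore_le_fittingSubgroup s)
    apply Cfsg.Agent.Lib.Basic.le_pCore inferInstance
    have e := (Cfsg.fittingSubgroup M).equivMapOfInjective _ M.subtype_injective
    exact hp.of_injective e.toMonoidHom e.injective
  refine ⟨s, hs, ?_⟩
  rw [eq_core M₁ hp1, eq_core M₂ hp2]
  exact ⟨hc1, hc2, sup_le (le_inf (map_subtype_le _) h₁) (le_inf h₂ (map_subtype_le _))⟩

end Cfsg.Agent.S3752
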