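import Cfsg.Statements.S3754
-- import your own Cfsg.Agent.* helpers here
import Mathlib
import Cfsg.Agent.Lib.Components.Signal
import Cfsg.Agent.Lib.Basic.Core
import Cfsg.Agent.Lib.Basic.Frattini
import Cfsg.Agent.Lib.PLocal.PSolv
import Cfsg.Agent.Lib.Coprime.PSolvable
import Cfsg.Agent.Lib.PGroups.Parts
import Cfsg.Agent.Lib.Transfer.Basic
import Cfsg.Agent.Lib.Basic.CoprimeAction

set_option autoImplicit false
open Cfsg

namespace Cfsg.Agent.S3754

open Subgroup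
open scoped Pointwise commutatorElement

section

variable {M : Type*} [Group M] [Finite M] {p : ℕ} [hpf : Fact p.Prime]

/-- `O_p` of the quotient by `O_p` is trivial. -/
theorem pCore_quot_self' : Cfsg.pCore p (M ⧸ Cfsg.pCore p M) = ⊥ := by
  haveI hQn : (Cfsg.pCore p M).Normal := Cfsg.Agent.Lib.Basic.pCore_normal p
  haveI hPn : (Cfsg.pCore p (M ⧸ Cfsg.pCore p M)).Normal := Cfsg.Agent.Lib.Basic.pCore_normal p
  have hPp : IsPGroup p (Cfsg.pCore p (M ⧸ Cfsg.pCore p M)) := Cfsg.Agent.Lib.Basic.pCore_isPGroup p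
  have hM : (Cfsg.pCore p (M ⧸ Cfsg.pCore p M)).comap (QuotientGroup.mk' (Cfsg.pCore p M)) ≤ Cfsg.pCore p M := by
    apply Cfsg.Agent.Lib.Basic.le_pCore (hPn.comap _)
    rintro ⟨x, hx⟩
    obtain ⟨k, hk⟩ := hPp ⟨_, hx⟩
    have h1 : (x ^ p ^ k : M) ∈ Cfsg.pCore p M := by
      rw [← QuotientGroup.eq_one_iff]
      have := congrArg Subtype.val hk
      simpa using this
    obtain ⟨m, hm⟩ := Cfsg.Agent.Lib.Basic.pCore_isPGroup (G := M) p ⟨_, h1⟩
    refine ⟨k + m, ?_⟩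
    apply Subtype.ext
    have := congrArg Subtype.val hm
    simpa [pow_add, pow_mul] using this
  rw [eq_bot_iff]
  intro q hq
  obtain ⟨x, rfl⟩ := QuotientGroup.mk'_surjective (Cfsg.pCore p M) q
  rw [mem_bot]
  exact (QuotientGroup.eq_one_iff x).mpr (hM hq)

/-- A `p'`-element of `A T`, with `A` a `p`-group normalizing `T`, lies in `T`. -/
theorem pp_mem {A T : Subgroup M} (hA : IsPGroup p A) (hAT : A ≤ normalizer (T : Set M)) {g : M}
    (hg : g ∈ A ⊔ T) (hc : (orderOf g).Coprime p) : g ∈ T := by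
  have h1 : ((A ⊔ T : Subgroup M) : Set M) = (A : Set M) * T :=
    Subgroup.coe_mul_of_left_le_normalizer_right A T hAT
  have hg' : g ∈ (A : Set M) * (T : Set M) := by rw [← h1]; exact hg
  obtain ⟨a, ha, t, ht, rfl⟩ := Set.mem_mul.mp hg'
  have hpow : ∀ k : ℕ, ∃ t' ∈ T, (a * t) ^ k = a ^ k * t' := by
    intro k
    induction k with
    | zero => exact ⟨1, T.one_mem, by simp⟩
    | succ k ih =>
      obtain ⟨t', ht', h⟩ := ih
      refine ⟨a⁻¹ * t' * a * t, T.mul_mem ?_ ht, ?_⟩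
      · have := (Subgroup.mem_normalizer_iff.mp (hAT (A.inv_mem ha)) t').mp ht'
        simpa using this
      · rw [pow_succ, h, pow_succ]
        group
  obtain ⟨t', ht', h⟩ := hpow (orderOf (a * t))
  rw [pow_orderOf_eq_one] at h
  have h2 : a ^ orderOf (a * t) ∈ T := by
    have : a ^ orderOf (a * t) = t'⁻¹ := eq_inv_of_mul_eq_one_left h.symm
    rw [this]
    exact T.inv_mem ht'
  obtain ⟨j, hj⟩ := hA ⟨a, ha⟩
  have h3 : a ^ p ^ j = 1 := by
    have := congrArg Subtype.val hj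
    simpa using this
  have h4 : (orderOf (a * t)).Coprime (orderOf a) := by
    have : orderOf a ∣ p ^ j := orderOf_dvd_of_pow_eq_one h3
    exact Nat.Coprime.coprime_dvd_right this (Nat.Coprime.pow_right j hc)
  obtain ⟨m, hm⟩ := exists_pow_eq_self_of_coprime h4
  have h5 : a ∈ T := by
    rw [← hm]
    exact T.pow_mem h2 m
  exact T.mul_mem h5 ht

/-- The group `⟨A, A^x⟩`. -/
abbrev LL (A : Subgroup M) (x : M) : Subgroup M := A ⊔ A.map (MulAut.conj x).toMonoidHom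

theorem LL_le {A T : Subgroup M} {x : M} (h : ∀ a ∈ A, x * a * x⁻¹ * a⁻¹ ∈ T) : LL A x ≤ A ⊔ T := by
  refine sup_le le_sup_left ?_
  rintro _ ⟨a, ha, rfl⟩
  show x * a * x⁻¹ ∈ A ⊔ T
  have h1 : x * a * x⁻¹ = (x * a * x⁻¹ * a⁻¹) * a := by group
  rw [h1]
  exact Subgroup.mul_mem _ (Subgroup.mem_sup_right (h a ha)) (Subgroup.mem_sup_left ha)

/-- `[O^p(L), A] = O^p(L)` as soon as `x ∈ O^p(L)`. -/
theorem comm_residual {A : Subgroup M} (hA : IsPGroup p A) {x : M}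
    (hx : x ∈ (Cfsg.pResidual p ↥(LL A x)).map (LL A x).subtype) :
    ⁅(Cfsg.pResidual p ↥(LL A x)).map (LL A x).subtype, A⁆ = (Cfsg.pResidual p ↥(LL A x)).map (LL A x).subtype := by
  set L := LL A x with hL
  set N := (Cfsg.pResidual p ↥L).map L.subtype with hN
  have hAL : A ≤ L := le_sup_left
  have hnorm : ∀ g ∈ L, ∀ n ∈ N, g * n * g⁻¹ ∈ N := by
    rintro g hg _ ⟨n, hn, rfl⟩
    refine ⟨⟨g, hg⟩ * n * (⟨g, hg⟩ : L)⁻¹, ?_, rfl⟩
    exact (Cfsg.Agent.Lib.Transfer.pResidual_normal p ↥L).conj_mem n hn _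
  have hAN : A ≤ normalizer (N : Set M) := by
    intro a ha
    rw [Subgroup.mem_normalizer_iff]
    intro n
    refine ⟨hnorm a (hAL ha) n, fun h => ?_⟩
    have := hnorm a⁻¹ (L.inv_mem (hAL ha)) _ h
    simpa [mul_assoc] using this
  apply le_antisymm
  · exact Cfsg.Agent.Lib.Basic.commutator_le_of_le_normalizer hAN
  · rw [hN, Subgroup.map_le_iff_le_comap]
    show Subgroup.closure _ ≤ _
    rw [Subgroup.closure_le]
    intro g hg
    have hg' : Nat.Coprime (orderOf g) p := hg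
    rw [SetLike.mem_coe, Subgroup.mem_comap]
    have hc : (orderOf (g : M)).Coprime p := by rwa [Subgroup.orderOf_coe]
    refine pp_mem hA (Subgroup.normalizer_commutator_ge_right N A) ?_ hc
    refine LL_le (T := ⁅N, A⁆) (fun a ha => ?_) g.2
    exact Subgroup.commutator_mem_commutator hx ha

/-- The index computation. -/
theorem idx_eq {G : Type*} [Group G] [Finite G] {Ab B D : Subgroup G} (hAb : IsPGroup p Ab)
    (hBA : B ≤ Ab) (hBD : B ≤ D) (hidx : B.relIndex Ab ≤ p) (hnot : ¬ Ab ≤ D) :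
    D.relIndex Ab = p := by
  have hp : p.Prime := hpf.out
  have h1 : (D ⊓ Ab).relIndex Ab = D.relIndex Ab := Subgroup.inf_relIndex_right D Ab
  have h2 := Subgroup.relIndex_mul_relIndex B (D ⊓ Ab) Ab (le_inf hBD hBA) inf_le_right
  rw [h1] at h2
  obtain ⟨k, hk⟩ := IsPGroup.iff_card.mp hAb
  have h3 := Subgroup.relIndex_dvd_card D Ab
  rw [hk] at h3
  obtain ⟨j, -, hj⟩ := (Nat.dvd_prime_pow hp).mp h3
  have hj0 : j ≠ 0 := by
    rintro rfl
    rw [pow_zero, Subgroup.relIndex_eq_one] at hj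
    exact hnot hj
  have hpos : 0 < B.relIndex (D ⊓ Ab) := Nat.pos_of_ne_zero Subgroup.index_ne_zero_of_finite
  have h4 : D.relIndex Ab ≤ p := by
    calc D.relIndex Ab ≤ B.relIndex (D ⊓ Ab) * D.relIndex Ab := Nat.le_mul_of_pos_left _ hpos
      _ = B.relIndex Ab := h2
      _ ≤ p := hidx
  have h5 : p ^ 1 ≤ p ^ j := Nat.pow_le_pow_right hp.pos (by omega)
  rw [pow_one] at h5
  rw [hj] at h4 ⊢
  omega

/-- A `p`-element of a `p'`-group is trivial. -/
theorem trivial_of_pelt {G : Type*} [Group G] [Finite G] {Y : Subgroup G} (hY : (Nat.card Y).Coprime p)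
    {w : G} (hw : w ∈ Y) {k : ℕ} (hk : w ^ p ^ k = 1) : w = 1 := by
  have h1 : orderOf w ∣ p ^ k := orderOf_dvd_of_pow_eq_one hk
  have h2 : orderOf w ∣ Nat.card Y := Subgroup.orderOf_dvd_natCard Y hw
  have h3 : orderOf w = 1 :=
    Nat.eq_one_of_dvd_coprimes (Nat.Coprime.pow_right k hY) h2 h1
  exact orderOf_eq_one_iff.mp h3

/-- An element `u` of a `p'`-group, conjugating an element of order dividing `p`. -/
theorem comm_fixed {G : Type*} [Group G] [Finite G] {Y : Subgroup G} (hY : (Nat.card Y).Coprime p)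
    {y a : G} (hap : a ^ p = 1) (hu : y * a * y⁻¹ * a⁻¹ ∈ Y)
    (hcomm : a * (y * a * y⁻¹ * a⁻¹) = (y * a * y⁻¹ * a⁻¹) * a) : a * y = y * a := by
  set u := y * a * y⁻¹ * a⁻¹ with hudef
  have h1 : a * y * a⁻¹ = u⁻¹ * y := by
    rw [hudef]
    group
  have h2 : a * u * a⁻¹ = u := by
    rw [mul_inv_eq_iff_eq_mul]
    exact hcomm
  have hit : ∀ k : ℕ, a ^ k * y * (a ^ k)⁻¹ = u⁻¹ ^ k * y := by
    intro k
    induction k with
    | zero => simp
    | succ k ih =>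
      have h3 : a ^ (k + 1) * y * (a ^ (k + 1))⁻¹ = a * (a ^ k * y * (a ^ k)⁻¹) * a⁻¹ := by
        rw [pow_succ']
        group
      rw [h3, ih]
      have h4 : a * (u⁻¹ ^ k * y) * a⁻¹ = (a * u⁻¹ ^ k * a⁻¹) * (a * y * a⁻¹) := by group
      have h5 : a * u⁻¹ ^ k * a⁻¹ = u⁻¹ ^ k := by
        rw [← conj_pow]
        have : a * u⁻¹ * a⁻¹ = u⁻¹ := by
          have h6 : a * u⁻¹ * a⁻¹ = (a * u * a⁻¹)⁻¹ := by group
          rw [h6, h2]
        rw [this]
      rw [h4, h5, h1, ← mul_assoc, ← pow_succ]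
  have h3 := hit p
  rw [hap] at h3
  simp only [one_mul, inv_one, mul_one] at h3
  have h4 : u⁻¹ ^ p = 1 := by
    have : u⁻¹ ^ p * y = 1 * y := by rw [← h3, one_mul]
    exact mul_right_cancel this
  have h5 : u ^ p ^ 1 = 1 := by
    rw [pow_one]
    rwa [inv_pow, inv_eq_one] at h4
  have h6 := trivial_of_pelt hY hu h5
  have h7 : y * a * y⁻¹ = a := by
    rw [hudef, mul_inv_eq_one] at h6
    exact h6
  rw [mul_inv_eq_iff_eq_mul] at h7
  exact h7.symm

end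

/-- Let M be a finite p-soluble group and A a p-subgroup of M with Φ(A) ≤ O_p(M) but A ≰ O_p(M). Then there is x ∈ O_{p,p'}(M) such that L = ⟨A, xAx⁻¹⟩ satisfies: x ∈ O^p(L) and O^p(L) ≤ O_{p,p'}(M); [O^p(L), A] = O^p(L); A ∩ O_p(L) has index p in A; and [A ∩ O_p(L), L] ≤ O_p(M). Here O^p(L) is the subgroup generated by the p'-elements of L and O_{p,p'}(M) the preimage of O_{p'}(M/O_p(M)). -/
theorem result {M : Type*} [Group M] [Finite M] {p : ℕ} [Fact p.Prime] (hM : Cfsg.IsPSolvable p M) (A : Subgroup M) (hA : IsPGroup p A) (hΦ : (frattini ↥A).map A.subtype ≤ Cfsg.pCore p M) (hnot : ¬ A ≤ Cfsg.pCore p M) : ∃ x ∈ (Cfsg.pPrimeCore p (M ⧸ Cfsg.pCore p M)).comap (QuotientGroup.mk' (Cfsg.pCore p M)), x ∈ (Cfsg.pResidual p ↥(A ⊔ A.map (MulAut.conj x).toMonoidHom)).map (A ⊔ A.map (MulAut.conj x).toMonoidHom).subtype ∧ (Cfsg.pResidual p ↥(A ⊔ A.map (MulAut.conj x).toMonoidHom)).map (A ⊔ A.map (MulAut.conj x).toMonoidHom).subtype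 ≤ (Cfsg.pPrimeCore p (M ⧸ Cfsg.pCore p M)).comap (QuotientGroup.mk' (Cfsg.pCore p M)) ∧ ⁅(Cfsg.pResidual p ↥(A ⊔ A.map (MulAut.conj x).toMonoidHom)).map (A ⊔ A.map (MulAut.conj x).toMonoidHom).subtype, A⁆ = (Cfsg.pResidual p ↥(A ⊔ A.map (MulAut.conj x).toMonoidHom)).map (A ⊔ A.map (MulAut.conj x).toMonoidHom).subtype ∧ (A ⊓ (Cfsg.pCore p ↥(A ⊔ A.map (MulAut.conj x).toMonoidHom)).map (A ⊔ A.map (MulAut.conj x).toMonoidHom).subtype).relIndex A = p ∧ ⁅A ⊓ (Cfsg.pCore p ↥(A ⊔ A.map (MulAut.conj x).toMonoidHom)).map (A ⊔ A.map (MulAut.conj x).toMonoidHom).subtype, A ⊔ A.map (MulAut.conj x).toMonoidHom⁆ ≤ Cfsg.pCore p M := by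
  classical
  have hp : p.Prime := Fact.out
  set P := Cfsg.pCore p M with hP
  haveI hPn : P.Normal := Cfsg.Agent.Lib.Basic.pCore_normal p
  let π : M →* M ⧸ P := QuotientGroup.mk' P
  have hπ : Function.Surjective π := QuotientGroup.mk'_surjective P
  have hπ1 : ∀ x, π x = 1 ↔ x ∈ P := fun x => QuotientGroup.eq_one_iff x
  set Yb := Cfsg.pPrimeCore p (M ⧸ P) with hYb
  haveI hYbn : Yb.Normal := Cfsg.Agent.Lib.Basic.pPrimeCore_normal p
  have hYbc : (Nat.card Yb).Coprime p := Cfsg.Agent.Lib.Basic.pPrimeCore_coprime p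
  have hYbd : ¬ p ∣ Nat.card Yb := fun h => by
    have := Nat.eq_one_of_dvd_coprimes hYbc h (dvd_refl p)
    exact hp.one_lt.ne' this
  set Y := Yb.comap (QuotientGroup.mk' P) with hY
  haveI hYn : Y.Normal := hYbn.comap _
  set Ab := A.map π with hAbdef
  haveI hnilA : Group.IsNilpotent ↥A := hA.isNilpotent
  have hAcomm : ∀ a ∈ A, ∀ b ∈ A, π a * π b = π b * π a := by
    intro a ha b hb
    have h1 : ⁅(⟨a, ha⟩ : A), (⟨b, hb⟩ : A)⁆ ∈ commutator ↥A :=
      Subgroup.commutator_mem_commutator (Subgroup.mem_top _) (Subgroup.mem_top _)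
    have h2 := Cfsg.Agent.Lib.Basic.commutator_le_frattini_of_isNilpotent h1
    have h3 : (a * b * a⁻¹ * b⁻¹ : M) ∈ P := hΦ ⟨_, h2, rfl⟩
    have h4 := (hπ1 _).mpr h3
    simp only [map_mul, map_inv] at h4
    rw [mul_inv_eq_one, mul_inv_eq_iff_eq_mul] at h4
    exact h4
  have hApow : ∀ a ∈ A, π a ^ p = 1 := by
    intro a ha
    have h2 := Cfsg.Agent.Lib.Basic.pow_mem_frattini_of_isPGroup hA (⟨a, ha⟩ : A)
    have h3 : (a ^ p : M) ∈ P := hΦ ⟨_, h2, rfl⟩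
    have h4 := (hπ1 _).mpr h3
    rwa [map_pow] at h4
  have hAb : Cfsg.IsElementaryAbelian p Ab := by
    refine ⟨⟨⟨?_⟩⟩, ?_⟩
    · rintro ⟨_, a, ha, rfl⟩ ⟨_, b, hb, rfl⟩
      exact Subtype.ext (hAcomm a ha b hb)
    · rintro _ ⟨a, ha, rfl⟩
      exact hApow a ha
  have hAbp : IsPGroup p Ab := Cfsg.Agent.Lib.Components.ea_isPGroup hAb
  have hsol : Cfsg.IsPSolvable p (M ⧸ P) := Cfsg.Agent.Lib.Coprime.isPSolvable_map π hπ hM
  have hcore : Cfsg.pCore p (M ⧸ P) = ⊥ := pCore_quot_self'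
  have hC := Cfsg.Agent.Lib.PLocal.centralizer_pPrimeCore_le_of_isPSolvable hsol hcore
  have hpelt : ∀ {w : M ⧸ P}, w ∈ Yb → ∀ {k : ℕ}, w ^ p ^ k = 1 → w = 1 := fun hw _ hk =>
    trivial_of_pelt hYbc hw hk
  have hnotC : ¬ Yb ≤ centralizer (Ab : Set (M ⧸ P)) := by
    intro hle
    apply hnot
    intro a ha
    have h1 : π a ∈ centralizer (Yb : Set (M ⧸ P)) := by
      rw [Subgroup.mem_centralizer_iff]
      intro y hy
      have h2 := hle hy
      rw [Subgroup.mem_centralizer_iff] at h2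
      exact (h2 (π a) ⟨a, ha, rfl⟩).symm
    have h3 := hC h1
    have h4 : π a ^ p ^ 1 = 1 := by rw [pow_one]; exact hApow a ha
    exact (hπ1 a).mp (hpelt h3 h4)
  have hAbN : Ab ≤ normalizer (Yb : Set (M ⧸ P)) := by
    rw [Subgroup.normalizer_eq_top_iff.mpr hYbn]
    exact le_top
  obtain ⟨B, hBA, hBi, hB⟩ := Cfsg.Agent.Lib.Components.exists_hyperplane_not_le hAb hYbd hAbN hnotC
  -- the family `S`
  let S : Set M := {x | π x ∈ Yb ∧ (centralizer ({π x} : Set (M ⧸ P))).relIndex Ab = p}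
  have hmemc : ∀ {u v : M ⧸ P}, v ∈ centralizer ({u} : Set (M ⧸ P)) ↔ u * v = v * u := by
    intro u v
    rw [Subgroup.mem_centralizer_iff]
    simp
  have hSne : S.Nonempty := by
    rw [SetLike.not_le_iff_exists] at hB
    obtain ⟨u, ⟨huY, huB⟩, hu⟩ := hB
    obtain ⟨x, rfl⟩ := hπ u
    refine ⟨x, huY, idx_eq hAbp hBA ?_ hBi ?_⟩
    · intro b hb
      have := Subgroup.mem_centralizer_iff.mp huB b hb
      exact hmemc.mpr this.symm
    · intro hle
      apply hu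
      rw [Subgroup.mem_centralizer_iff]
      intro b hb
      exact (hmemc.mp (hle hb)).symm
  obtain ⟨x₀, hx₀S, hmin⟩ := Set.exists_min_image S (fun x => Nat.card ↥(LL A x)) (Set.toFinite S) hSne
  obtain ⟨hx₀Y, hx₀i⟩ := hx₀S
  have hx₀n : ¬ Ab ≤ centralizer ({π x₀} : Set (M ⧸ P)) := by
    intro hle
    have h1 := Subgroup.relIndex_eq_one.mpr hle
    rw [hx₀i] at h1
    exact hp.one_lt.ne' h1
  rw [SetLike.not_le_iff_exists] at hx₀n
  obtain ⟨_, ⟨a, ha, rfl⟩, hanot⟩ := hx₀n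
  have hanot' : π x₀ * π a ≠ π a * π x₀ := fun h => hanot (hmemc.mpr h)
  set z := x₀ * a * x₀⁻¹ * a⁻¹ with hz
  have hAL0 : A ≤ LL A x₀ := le_sup_left
  have hconjL0 : ∀ b ∈ A, x₀ * b * x₀⁻¹ ∈ LL A x₀ := fun b hb => Subgroup.mem_sup_right ⟨b, hb, rfl⟩
  have hzL : z ∈ LL A x₀ :=
    (LL A x₀).mul_mem (hconjL0 a ha) ((LL A x₀).inv_mem (hAL0 ha))
  have hπz : π z = π x₀ * π a * (π x₀)⁻¹ * (π a)⁻¹ := by
    rw [hz]
    simp only [map_mul, map_inv]
  have hzY : π z ∈ Yb := by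
    rw [hπz]
    have h1 : π x₀ * π a * (π x₀)⁻¹ * (π a)⁻¹ = π x₀ * (π a * (π x₀)⁻¹ * (π a)⁻¹) := by group
    rw [h1]
    exact Yb.mul_mem hx₀Y (hYbn.conj_mem _ (Yb.inv_mem hx₀Y) _)
  obtain ⟨zp, x₁, hzeq, -, ⟨k, hk⟩, hx₁p, hzpz, hx₁z⟩ := Cfsg.Agent.Lib.PGroups.exists_pPart p z
  have hzp1 : π zp = 1 := by
    have h1 : π zp ∈ Yb := by
      obtain ⟨n, hn⟩ := Subgroup.mem_zpowers_iff.mp hzpz
      rw [← hn, map_zpow]
      exact Yb.zpow_mem hzY n
    refine hpelt h1 (k := k) ?_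
    rw [← map_pow, ← hk, pow_orderOf_eq_one, map_one]
  have hπx₁ : π x₁ = π z := by
    rw [hzeq, map_mul, hzp1, one_mul]
  have hx₁c : (orderOf x₁).Coprime p :=
    ((Nat.Prime.coprime_iff_not_dvd hp).mpr hx₁p).symm
  have hx₁Y : π x₁ ∈ Yb := hπx₁ ▸ hzY
  have hx₁L0 : x₁ ∈ LL A x₀ := by
    obtain ⟨n, hn⟩ := Subgroup.mem_zpowers_iff.mp hx₁z
    rw [← hn]
    exact (LL A x₀).zpow_mem hzL n
  have hx₁i : (centralizer ({π x₁} : Set (M ⧸ P))).relIndex Ab = p := by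
    have h0 : ((centralizer ({π x₀} : Set (M ⧸ P))) ⊓ Ab).relIndex Ab = p := by
      rw [Subgroup.inf_relIndex_right, hx₀i]
    refine idx_eq hAbp inf_le_right ?_ (le_of_eq h0) ?_
    · rintro _ ⟨hb, b, hbA, rfl⟩
      have h1 : π x₀ * π b = π b * π x₀ := hmemc.mp hb
      rw [hπx₁]
      apply hmemc.mpr
      have h2 := hAcomm a ha b hbA
      rw [hπz]
      have c1 : Commute (π x₀) (π b) := h1
      have c2 : Commute (π a) (π b) := h2
      exact (((c1.mul_left c2).mul_left c1.inv_left).mul_left c2.inv_left).eq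
    · intro hle
      apply hanot'
      have h1 : π a ∈ Ab := ⟨a, ha, rfl⟩
      have h2 := hmemc.mp (hle h1)
      rw [hπx₁] at h2
      rw [hπz] at hzY h2
      have h3 := comm_fixed hYbc (hApow a ha) hzY h2.symm
      exact h3.symm
  have hx₁S : x₁ ∈ S := ⟨hx₁Y, hx₁i⟩
  have hLle : LL A x₁ ≤ LL A x₀ := by
    refine sup_le hAL0 ?_
    rintro _ ⟨b, hb, rfl⟩
    exact (LL A x₀).mul_mem ((LL A x₀).mul_mem hx₁L0 (hAL0 hb)) ((LL A x₀).inv_mem hx₁L0)
  have hLeq : LL A x₁ = LL A x₀ := Subgroup.eq_of_le_of_card_ge hLle (hmin x₁ hx₁S)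
  have hx₁L : x₁ ∈ LL A x₁ := by rw [hLeq]; exact hx₁L0
  have hx₁Y' : x₁ ∈ Y := hx₁Y
  have hx₁N : x₁ ∈ (Cfsg.pResidual p ↥(LL A x₁)).map (LL A x₁).subtype := by
    refine ⟨⟨x₁, hx₁L⟩, Subgroup.subset_closure ?_, rfl⟩
    show Nat.Coprime (orderOf (⟨x₁, hx₁L⟩ : LL A x₁)) p
    rwa [Subgroup.orderOf_mk]
  have claim1 : ∀ b ∈ (Cfsg.pCore p ↥(LL A x₁)).map (LL A x₁).subtype, π b * π x₁ = π x₁ * π b := by
    rintro _ ⟨b', hb', rfl⟩
    let X : LL A x₁ := ⟨x₁, hx₁L⟩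
    haveI hcn : (Cfsg.pCore p ↥(LL A x₁)).Normal := Cfsg.Agent.Lib.Basic.pCore_normal p
    have h1 : b' * X * b'⁻¹ * X⁻¹ ∈ Cfsg.pCore p ↥(LL A x₁) := by
      have h2 : b' * X * b'⁻¹ * X⁻¹ = b' * (X * b'⁻¹ * X⁻¹) := by group
      rw [h2]
      exact mul_mem hb' (hcn.conj_mem _ (inv_mem hb') _)
    obtain ⟨k, hk⟩ := Cfsg.Agent.Lib.Basic.pCore_isPGroup (G := ↥(LL A x₁)) p ⟨_, h1⟩
    have hk' : (b' * X * b'⁻¹ * X⁻¹) ^ p ^ k = 1 := by
      have := congrArg Subtype.val hk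
      simpa using this
    have hk2 := congrArg (π.comp (LL A x₁).subtype) hk'
    simp only [map_pow, map_mul, map_inv, map_one] at hk2
    have hXc : (LL A x₁).subtype X = x₁ := rfl
    have hgen : (LL A x₁).subtype b' = (b' : M) := rfl
    simp only [MonoidHom.comp_apply, hXc] at hk2
    have hwY : π ((LL A x₁).subtype b') * π x₁ * (π ((LL A x₁).subtype b'))⁻¹ * (π x₁)⁻¹ ∈ Yb :=
      Yb.mul_mem (hYbn.conj_mem _ hx₁Y _) (Yb.inv_mem hx₁Y)
    have h3 := hpelt hwY hk2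
    rw [mul_inv_eq_one, mul_inv_eq_iff_eq_mul] at h3
    exact h3
  have claim2 : ∀ b ∈ A, π b * π x₁ = π x₁ * π b → ∀ g ∈ LL A x₁, π b * π g = π g * π b := by
    intro b hb hbx
    have h0 : LL A x₁ ≤ (centralizer ({π b} : Set (M ⧸ P))).comap π := by
      refine sup_le ?_ ?_
      · intro c hc
        exact hmemc.mpr (hAcomm b hb c hc)
      · rintro _ ⟨c, hc, rfl⟩
        refine hmemc.mpr ?_
        have c1 : Commute (π b) (π x₁) := hbx
        have c2 : Commute (π b) (π c) := hAcomm b hb c hc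
        have c3 := (c1.mul_right c2).mul_right c1.inv_right
        show π b * π (x₁ * c * x₁⁻¹) = π (x₁ * c * x₁⁻¹) * π b
        simp only [map_mul, map_inv]
        exact c3.eq
    intro g hg
    exact hmemc.mp (h0 hg)
  have claim3 : ∀ b ∈ A, π b * π x₁ = π x₁ * π b → b ∈ (Cfsg.pCore p ↥(LL A x₁)).map (LL A x₁).subtype := by
    intro b hb hbx
    have hc2 := claim2 b hb hbx
    let W : Subgroup ↥(LL A x₁) := ((zpowers (π b)).comap π).comap (LL A x₁).subtype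
    have hWn : W.Normal := by
      constructor
      intro w hw g
      show π ((g : M) * (w : M) * (g : M)⁻¹) ∈ zpowers (π b)
      have hw' : π (w : M) ∈ zpowers (π b) := hw
      obtain ⟨n, hn⟩ := Subgroup.mem_zpowers_iff.mp hw'
      have h1 : Commute (π b) (π (g : M)) := hc2 g g.2
      have h2 : Commute (π (w : M)) (π (g : M)) := by
        rw [← hn]
        exact h1.zpow_left n
      have h3 : π ((g : M) * (w : M) * (g : M)⁻¹) = π (w : M) := by
        simp only [map_mul, map_inv]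
        rw [mul_inv_eq_iff_eq_mul]
        exact h2.symm.eq
      rw [h3]
      exact hw'
    have hWp : IsPGroup p W := by
      rintro ⟨w, hw⟩
      have hw' : π (w : M) ∈ zpowers (π b) := hw
      obtain ⟨n, hn⟩ := Subgroup.mem_zpowers_iff.mp hw'
      have h1 : π (w : M) ^ p = 1 := by
        rw [← hn, ← zpow_natCast, ← zpow_mul, mul_comm, zpow_mul, zpow_natCast, hApow b hb, one_zpow]
      have h2 : (w : M) ^ p ∈ P := by
        rw [← hπ1, map_pow]
        exact h1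
      obtain ⟨m, hm⟩ := Cfsg.Agent.Lib.Basic.pCore_isPGroup (G := M) p ⟨_, h2⟩
      have hm' : ((w : M) ^ p) ^ p ^ m = 1 := by
        have := congrArg Subtype.val hm
        simpa using this
      refine ⟨1 + m, ?_⟩
      apply Subtype.ext
      apply Subtype.ext
      show (w : M) ^ p ^ (1 + m) = 1
      rw [pow_add, pow_one, pow_mul]
      exact hm'
    have hWle : W ≤ Cfsg.pCore p ↥(LL A x₁) := Cfsg.Agent.Lib.Basic.le_pCore hWn hWp
    have hbL : b ∈ LL A x₁ := Subgroup.mem_sup_left hb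
    exact ⟨⟨b, hbL⟩, hWle (Subgroup.mem_zpowers (π b)), rfl⟩
  refine ⟨x₁, hx₁Y', hx₁N, ?_, comm_residual hA hx₁N, ?_, ?_⟩
  · rw [Subgroup.map_le_iff_le_comap]
    show Subgroup.closure _ ≤ _
    rw [Subgroup.closure_le]
    intro g hg
    have hg' : Nat.Coprime (orderOf g) p := hg
    rw [SetLike.mem_coe, Subgroup.mem_comap]
    have hc : (orderOf (g : M)).Coprime p := by rwa [Subgroup.orderOf_coe]
    have hAY : A ≤ normalizer (Y : Set M) := by
      rw [Subgroup.normalizer_eq_top_iff.mpr hYn]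
      exact le_top
    refine pp_mem hA hAY ?_ hc
    refine LL_le (T := Y) (fun b _ => ?_) g.2
    have h1 : x₁ * b * x₁⁻¹ * b⁻¹ = x₁ * (b * x₁⁻¹ * b⁻¹) := by group
    rw [h1]
    exact Y.mul_mem hx₁Y' (hYn.conj_mem _ (Y.inv_mem hx₁Y') _)
  · have heq : A ⊓ (Cfsg.pCore p ↥(LL A x₁)).map (LL A x₁).subtype
        = A ⊓ (centralizer ({π x₁} : Set (M ⧸ P))).comap π := by
      ext b
      constructor
      · rintro ⟨hb, hbO⟩
        exact ⟨hb, hmemc.mpr (claim1 b hbO).symm⟩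
      · rintro ⟨hb, hbC⟩
        exact ⟨hb, claim3 b hb (hmemc.mp hbC).symm⟩
    rw [heq, Subgroup.inf_relIndex_left, Subgroup.relIndex_comap]
    exact hx₁i
  · rw [Subgroup.commutator_le]
    rintro b ⟨hbA, hbO⟩ g hg
    have h1 := claim2 b hbA (claim1 b hbO) g hg
    rw [← hπ1, commutatorElement_def]
    simp only [map_mul, map_inv]
    rw [h1]
    group

end Cfsg.Agent.S3754
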