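import Cfsg.Statements.S3760
-- import your own Cfsg.Agent.* helpers here
import Mathlib
import Cfsg.Agent.Lib.Coprime.Conj

set_option autoImplicit false
open Cfsg

namespace Cfsg.Agent.S3760

open Cfsg.Agent.Lib.Coprime in
theorem fix_iff {G : Type*} [Group G] {X : Type*} [MulAction G X] (x : X) (K : Subgroup G) (g : G) :
    K.map (MulAut.conj g).toMonoidHom ≤ MulAction.stabilizer G x ↔ ∀ k ∈ K, k • (g⁻¹ • x) = g⁻¹ • x := by
  constructor
  · intro h k hk
    have h1 := h (conj_mem_conj_map K g k hk)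
    rw [MulAction.mem_stabilizer_iff] at h1
    have : (g * k * g⁻¹) • x = x := h1
    calc k • (g⁻¹ • x) = g⁻¹ • ((g * k * g⁻¹) • x) := by
          rw [smul_smul, smul_smul]; congr 1; group
      _ = g⁻¹ • x := by rw [this]
  · intro h y hy
    rw [mem_conj_map] at hy
    rw [MulAction.mem_stabilizer_iff]
    have h1 := h _ hy
    have : (g⁻¹ * y * g) • (g⁻¹ • x) = g⁻¹ • (y • x) := by
      rw [smul_smul, smul_smul]; congr 1; group
    rw [this] at h1
    exact smul_left_cancel _ h1

/-- Let the group G act transitively on a set X, let x ∈ X with stabilizer H = G_x, and let K ≤ H. Then N_G(K) acts transitively on the set of fixed points of K if and only if every G-conjugate of K contained in H is already an H-conjugate of K. -/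
theorem result {G : Type*} [Group G] {X : Type*} [MulAction G X] (htrans : ∀ a b : X, ∃ g : G, g • a = b) (x : X) (K : Subgroup G) (hK : K ≤ MulAction.stabilizer G x) : (∀ a b : X, (∀ k ∈ K, k • a = a) → (∀ k ∈ K, k • b = b) → ∃ g ∈ Subgroup.normalizer (K : Set G), g • a = b) ↔ ∀ g : G, K.map (MulAut.conj g).toMonoidHom ≤ MulAction.stabilizer G x → ∃ h ∈ MulAction.stabilizer G x, K.map (MulAut.conj g).toMonoidHom = K.map (MulAut.conj h).toMonoidHom := by
  classical
  open Cfsg.Agent.Lib.Coprime in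
  constructor
  · intro h g hg
    have h1 : ∀ k ∈ K, k • (g⁻¹ • x) = g⁻¹ • x := (fix_iff x K g).mp hg
    have h2 : ∀ k ∈ K, k • x = x := fun k hk => hK hk
    obtain ⟨n, hn, hnx⟩ := h x (g⁻¹ • x) h2 h1
    refine ⟨g * n, ?_, ?_⟩
    · rw [MulAction.mem_stabilizer_iff, mul_smul, hnx, smul_inv_smul]
    · have := (conj_map_eq_iff_mem_normalizer K n).mpr hn
      rw [← conj_map_conj_map, this]
  · intro h a b ha hb
    have key : ∀ c : X, (∀ k ∈ K, k • c = c) → ∃ n ∈ Subgroup.normalizer (K : Set G), n • x = c := by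
      intro c hc
      obtain ⟨g, rfl⟩ := htrans x c
      have h1 : K.map (MulAut.conj g⁻¹).toMonoidHom ≤ MulAction.stabilizer G x := by
        rw [fix_iff]
        simpa using hc
      obtain ⟨s, hs, hse⟩ := h g⁻¹ h1
      refine ⟨g * s, ?_, ?_⟩
      · rw [← conj_map_eq_iff_mem_normalizer, ← conj_map_conj_map, ← hse, conj_map_conj_map,
          mul_inv_cancel, conj_map_one]
      · rw [mul_smul, MulAction.mem_stabilizer_iff.mp hs]
    obtain ⟨n₁, hn₁, h₁⟩ := key a ha
    obtain ⟨n₂, hn₂, h₂⟩ := key b hb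
    refine ⟨n₂ * n₁⁻¹, mul_mem hn₂ (inv_mem hn₁), ?_⟩
    rw [mul_smul, ← h₁, inv_smul_smul, h₂]

end Cfsg.Agent.S3760
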