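import Cfsg.Statements.S3762
-- import your own Cfsg.Agent.* helpers here
import Mathlib
import Cfsg.Agent.Lib.Coprime.SympType2

set_option autoImplicit false
open Cfsg

namespace Cfsg.Agent.S3762

open Subgroup Cfsg.Agent.Lib.Coprime.SympType
open scoped commutatorElement

theorem eight_facts {X : Type*} [Group X] [Finite X] (hc : Nat.card X = 8) (hna : ¬ IsMulCommutative X) :
    Nat.card (center X) = 2 ∧ ∀ x y : X, ⁅x, y⁆ ∈ center X ∧ x ^ 2 ∈ center X := by
  classical
  haveI hf2 : Fact (Nat.Prime 2) := ⟨Nat.prime_two⟩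
  have hX : IsPGroup 2 X := IsPGroup.of_card (n := 3) (by rw [hc]; norm_num)
  have hnc : ¬ IsCyclic (X ⧸ center X) := by
    intro h
    apply hna
    have h1 := commutative_of_cyclic_center_quotient (QuotientGroup.mk' (center X)) (by rw [QuotientGroup.ker_mk'])
    exact ⟨⟨fun a b => h1 a b⟩⟩
  have hmul : Nat.card (X ⧸ center X) * Nat.card (center X) = 8 := by
    rw [← hc]; exact (Subgroup.card_eq_card_quotient_mul_card_subgroup _).symm
  haveI : Nonempty X := ⟨1⟩
  haveI : Nontrivial X := Finite.one_lt_card_iff_nontrivial.mp (by omega)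
  haveI := hX.center_nontrivial
  have hc1 : 1 < Nat.card (center X) := Finite.one_lt_card_iff_nontrivial.mpr inferInstance
  have hq : Nat.card (X ⧸ center X) = 4 := by
    have hd : Nat.card (X ⧸ center X) ∣ 2 ^ 3 := by
      norm_num; exact Dvd.intro _ hmul
    obtain ⟨k, hk, hk'⟩ := (Nat.dvd_prime_pow Nat.prime_two).mp hd
    interval_cases k
    · exfalso
      apply hnc
      have : Subsingleton (X ⧸ center X) := (Nat.card_eq_one_iff_unique.mp (by simpa using hk')).1
      exact inferInstance
    · exfalso
      apply hnc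
      haveI : Fact (Nat.Prime (Nat.card (X ⧸ center X))) := ⟨by rw [hk']; exact Nat.prime_two⟩
      exact isCyclic_of_prime_card rfl
    · simpa using hk'
    · exfalso
      rw [hk'] at hmul
      omega
  have hC2 : Nat.card (center X) = 2 := by
    rw [hq] at hmul
    omega
  refine ⟨hC2, fun x y => ?_⟩
  have hcomm := IsPGroup.commutative_of_card_eq_prime_sq (p := 2) (G := X ⧸ center X) (by rw [hq]; norm_num)
  have hsq : ∀ y : X ⧸ center X, y ^ 2 = 1 := by
    intro y
    have h1 : orderOf y ∣ 2 ^ 2 := by
      norm_num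
      rw [← hq]; exact orderOf_dvd_natCard y
    obtain ⟨k, hk, hk'⟩ := (Nat.dvd_prime_pow Nat.prime_two).mp h1
    interval_cases k
    · have : orderOf y = 1 := by simpa using hk'
      rw [orderOf_eq_one_iff.mp this, one_pow]
    · have : orderOf y = 2 := by simpa using hk'
      rw [← this]; exact pow_orderOf_eq_one y
    · exfalso
      apply hnc
      exact isCyclic_of_orderOf_eq_card y (by rw [hk', hq]; norm_num)
  constructor
  · rw [← QuotientGroup.eq_one_iff]
    rw [commutatorElement_def]
    simp only [QuotientGroup.mk_mul, QuotientGroup.mk_inv]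
    rw [hcomm (x : X ⧸ center X) (y : X ⧸ center X)]
    group
  · rw [← QuotientGroup.eq_one_iff, QuotientGroup.mk_pow]
    exact hsq _

/-- Let G be a finite p-group of symplectic type: every characteristic abelian subgroup of G is cyclic. Then G = E ∗ R is a central product of subgroups E and R (they commute elementwise and generate G) where E is extraspecial or trivial, and R is cyclic, or p = 2 and R is dihedral, semidihedral or generalized quaternion of order at least 16. -/
theorem result {G : Type*} [Group G] [Finite G] {p : ℕ} [Fact p.Prime] (hG : IsPGroup p G) (hsymp : ∀ A : Subgroup G, A.Characteristic → IsMulCommutative A → IsCyclic A) : ∃ E R : Subgroup G, (∀ e ∈ E, ∀ r ∈ R, e * r = r * e) ∧ E ⊔ R = ⊤ ∧ (E = ⊥ ∨ Cfsg.IsExtraspecial p ↥E) ∧ (IsCyclic R ∨ (p = 2 ∧ 16 ≤ Nat.card R ∧ ((∃ m : ℕ, Nonempty (↥R ≃* DihedralGroup m)) ∨ (∃ m : ℕ, Nonempty (↥R ≃* QuaternionGroup m)) ∨ Cfsg.IsQuasiDihedral ↥R))) := by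
  classical
  have hp : p.Prime := Fact.out
  by_cases hnt : Nontrivial G
  swap
  · haveI : Subsingleton G := not_nontrivial_iff_subsingleton.mp hnt
    refine ⟨⊥, ⊤, fun e _ r _ => Subsingleton.elim _ _, Subsingleton.elim _ _, Or.inl rfl, Or.inl ?_⟩
    exact isCyclic_of_subsingleton
  have hcc : IsCyclic (center G) := hsymp _ inferInstance inferInstance
  let Z : Subgroup G :=
    { carrier := {x | x ∈ center G ∧ x ^ p = 1}
      mul_mem' := by
        rintro a b ⟨ha, ha'⟩ ⟨hb, hb'⟩
        refine ⟨mul_mem ha hb, ?_⟩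
        rw [(show Commute a b from (mem_center_iff.mp ha b).symm).mul_pow, ha', hb', one_mul]
      one_mem' := ⟨one_mem _, one_pow p⟩
      inv_mem' := by
        rintro a ⟨ha, ha'⟩
        exact ⟨inv_mem ha, by rw [inv_pow, ha', inv_one]⟩ }
  have hZc : Z ≤ center G := fun x hx => hx.1
  haveI hZn : Z.Normal := ⟨fun x hx g => by
    have h1 : g * x * g⁻¹ = x := by
      rw [(mem_center_iff.mp hx.1 g)]; group
    rw [h1]; exact hx⟩
  have hZu : ∀ z ∈ center G, z ^ p = 1 → z ∈ Z := fun z h1 h2 => ⟨h1, h2⟩
  have hZch : Z.Characteristic := by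
    rw [Subgroup.characteristic_iff_le_comap]
    intro ϕ x hx
    refine ⟨?_, ?_⟩
    · rw [mem_center_iff]
      intro g
      obtain ⟨g, rfl⟩ := ϕ.surjective g
      show ϕ g * ϕ x = ϕ x * ϕ g
      rw [← map_mul, ← map_mul, mem_center_iff.mp hx.1 g]
    · show (ϕ x) ^ p = 1
      rw [← map_pow, hx.2, map_one]
  have hZp : Nat.card Z = p := by
    haveI := hG.center_nontrivial
    have hcp : p ∣ Nat.card (center G) := by
      rcases (hG.to_subgroup (center G)).card_eq_or_dvd with h1 | h1
      · exact absurd h1 (Finite.one_lt_card_iff_nontrivial.mpr inferInstance).ne'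
      · exact h1
    obtain ⟨z, hz⟩ := exists_prime_orderOf_dvd_card' p hcp
    have hz1 : (z : G) ^ p = 1 := by
      have := pow_orderOf_eq_one z
      rw [hz] at this
      exact congrArg Subtype.val this
    have hzZ : (z : G) ∈ Z := ⟨z.2, hz1⟩
    have hle : Z ≤ center G := hZc
    haveI : IsCyclic Z := isCyclic_of_injective (Subgroup.inclusion hle) (Subgroup.inclusion_injective hle)
    obtain ⟨g, hg⟩ := IsCyclic.exists_generator (α := Z)
    have h1 : orderOf g = Nat.card Z := orderOf_eq_card_of_forall_mem_zpowers hg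
    have h2 : g ^ p = 1 := Subtype.ext g.2.2
    have h3 : Nat.card Z ∣ p := by
      rw [← h1]; exact orderOf_dvd_of_pow_eq_one h2
    have h4 : p ∣ Nat.card Z := by
      have : orderOf (⟨z, hzZ⟩ : Z) = p := by
        rw [← hz, ← Subgroup.orderOf_coe]
        exact (Subgroup.orderOf_coe z)
      rw [← this]; exact orderOf_dvd_natCard _
    exact Nat.dvd_antisymm h3 h4
  -- `D`
  have hDch : (DD p Z).Characteristic := by
    rw [Subgroup.characteristic_iff_le_comap]
    intro ϕ x hx
    obtain ⟨h1, h2⟩ := mem_DD.mp hx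
    have hZf : ∀ z ∈ Z, ϕ z ∈ Z := fun z hz => (Subgroup.characteristic_iff_le_comap.mp hZch ϕ) hz
    show ϕ x ∈ DD p Z
    refine mem_DD.mpr ⟨fun g => ?_, ?_⟩
    · obtain ⟨g, rfl⟩ := ϕ.surjective g
      have := hZf _ (h1 g)
      simpa using this
    · have := hZf _ h2
      simpa using this
  haveI := hDch
  have hD0ch : (DD p Z ⊓ centralizer (DD p Z : Set G)).Characteristic := by
    rw [Subgroup.characteristic_iff_le_comap]
    intro ϕ x hx
    obtain ⟨h1, h2⟩ := Subgroup.mem_inf.mp hx
    have hc2 : (centralizer (DD p Z : Set G)).Characteristic := inferInstance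
    exact Subgroup.mem_inf.mpr ⟨(Subgroup.characteristic_iff_le_comap.mp hDch ϕ) h1,
      (Subgroup.characteristic_iff_le_comap.mp hc2 ϕ) h2⟩
  have hD : IsCyclic ↥(DD p Z ⊓ centralizer (DD p Z : Set G)) := by
    apply hsymp _ hD0ch
    refine ⟨⟨fun a b => Subtype.ext ?_⟩⟩
    have h1 := (Subgroup.mem_inf.mp a.2).2
    rw [mem_centralizer_iff] at h1
    exact (h1 b (Subgroup.mem_inf.mp b.2).1).symm
  -- a maximal good subgroup
  have hZD : Z ≤ DD p Z := by
    intro z hz
    refine mem_DD.mpr ⟨fun g => ?_, Z.pow_mem hz p⟩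
    have h1 : z * g * z⁻¹ * g⁻¹ = 1 := by
      rw [← mem_center_iff.mp hz.1 g]; group
    rw [h1]; exact Z.one_mem
  have hS : ({H : Subgroup G | Good p Z H}).Nonempty := ⟨Z, le_refl _, hZD, fun x hx _ => hx⟩
  obtain ⟨H, hHm⟩ := (Set.toFinite _).exists_maximal hS
  have hH : Good p Z H := hHm.prop
  have hmax : ∀ K : Subgroup G, Good p Z K → H ≤ K → K ≤ H := fun K h1 h2 => hHm.le_of_ge h1 h2
  have htop := sup_centralizer_eq_top hG hZc hZp hH
  haveI hHn : H.Normal := normal_of_between hH.le hH.sub
  have hno := noNormalE_centralizer hG hZc hZp hZu hD hH hmax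
  have hRH : ∀ r ∈ centralizer (H : Set G), ∀ h ∈ H, h * r = r * h := fun r hr h hh => by
    rw [mem_centralizer_iff] at hr
    exact hr h hh
  have hfinal : IsCyclic ↥(centralizer (H : Set G)) ∨ (p = 2 ∧ 16 ≤ Nat.card ↥(centralizer (H : Set G)) ∧
      ((∃ m : ℕ, Nonempty (↥(centralizer (H : Set G)) ≃* DihedralGroup m)) ∨
        (∃ m : ℕ, Nonempty (↥(centralizer (H : Set G)) ≃* QuaternionGroup m)) ∨
        Cfsg.IsQuasiDihedral ↥(centralizer (H : Set G)))) := by
    rcases classify_noNormalE (hG.to_subgroup _) hno with h | ⟨h2, hna, htypes⟩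
    · exact Or.inl h
    · refine Or.inr ⟨h2, ?_, htypes⟩
      by_contra hlt
      push Not at hlt
      subst h2
      obtain ⟨k, hk⟩ := IsPGroup.iff_card.mp (hG.to_subgroup (centralizer (H : Set G)))
      have hk4 : k < 4 := by
        rw [hk] at hlt
        have : (2 : ℕ) ^ k < 2 ^ 4 := by simpa using hlt
        exact (Nat.pow_lt_pow_iff_right (by norm_num)).mp this
      have hcommR : ∀ a b : ↥(centralizer (H : Set G)), a * b = b * a := by
        by_cases hk3 : k = 3
        · -- order 8
          subst hk3
          obtain ⟨hC2, hfacts⟩ := eight_facts (by rw [hk]; norm_num) hna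
          have hcentG : ∀ c ∈ center ↥(centralizer (H : Set G)), ((c : ↥(centralizer (H : Set G))) : G) ∈ Z := by
            intro c hc
            apply hZu
            · rw [mem_center_iff]
              intro g
              have hg : g ∈ H ⊔ centralizer (H : Set G) := by rw [htop]; exact mem_top g
              obtain ⟨h, hh, r, hr, rfl⟩ := Subgroup.mem_sup_of_normal_left.mp hg
              have h1 := hRH c c.2 h hh
              have h2 : r * (c : G) = c * r := congrArg Subtype.val (mem_center_iff.mp hc ⟨r, hr⟩)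
              calc h * r * (c : G) = h * (r * c) := by group
                _ = h * (c * r) := by rw [h2]
                _ = (h * c) * r := by group
                _ = c * h * r := by rw [h1]
                _ = c * (h * r) := by group
            · have := pow_card_eq_one' (x := (⟨c, hc⟩ : center ↥(centralizer (H : Set G))))
              rw [hC2] at this
              exact congrArg (fun t : center ↥(centralizer (H : Set G)) => (((t : ↥(centralizer (H : Set G))) : G))) this
          have hRD : ∀ r : ↥(centralizer (H : Set G)), (r : G) ∈ DD 2 Z := by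
            intro r
            refine mem_DD.mpr ⟨fun g => ?_, ?_⟩
            · have hg : g ∈ H ⊔ centralizer (H : Set G) := by rw [htop]; exact mem_top g
              obtain ⟨h, hh, r', hr', rfl⟩ := Subgroup.mem_sup_of_normal_left.mp hg
              have h1 := hcentG _ (hfacts r ⟨r', hr'⟩).1
              have h2 : ((⁅r, (⟨r', hr'⟩ : ↥(centralizer (H : Set G)))⁆ : ↥(centralizer (H : Set G))) : G) =
                  r * r' * (r : G)⁻¹ * r'⁻¹ := by
                rw [commutatorElement_def]; rfl
              rw [h2] at h1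
              have h3 := hRH r r.2 h hh
              have h4 : (r : G) * (h * r') * (r : G)⁻¹ * (h * r')⁻¹ = h * (r * r' * (r : G)⁻¹ * r'⁻¹) * h⁻¹ := by
                calc (r : G) * (h * r') * (r : G)⁻¹ * (h * r')⁻¹ = (r * h) * r' * (r : G)⁻¹ * r'⁻¹ * h⁻¹ := by group
                  _ = (h * r) * r' * (r : G)⁻¹ * r'⁻¹ * h⁻¹ := by rw [h3]
                  _ = _ := by group
              rw [h4]
              exact hZn.conj_mem _ h1 h
            · exact hcentG _ (hfacts r r).2
          intro a b
          apply Subtype.ext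
          exact comm_of_maximal hZc hZp hH hmax (hRD a) (hRD b) a.2 b.2
        · have hk2 : k ≤ 2 := by omega
          have hdiv : Nat.card ↥(centralizer (H : Set G)) ∣ 2 ^ 2 := by
            rw [hk]; exact pow_dvd_pow 2 hk2
          interval_cases k
          · have : Subsingleton ↥(centralizer (H : Set G)) := (Nat.card_eq_one_iff_unique.mp (by simpa using hk)).1
            intro a b; exact Subsingleton.elim _ _
          · haveI : Fact (Nat.Prime (Nat.card ↥(centralizer (H : Set G)))) := ⟨by rw [hk]; exact Nat.prime_two⟩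
            haveI := isCyclic_of_prime_card (α := ↥(centralizer (H : Set G))) rfl
            exact fun a b => (IsCyclic.isMulCommutative (α := ↥(centralizer (H : Set G)))).is_comm.comm a b
          · exact IsPGroup.commutative_of_card_eq_prime_sq (p := 2) hk
      exact hna ⟨⟨hcommR⟩⟩
  by_cases hHZ : H = Z
  · refine ⟨⊥, centralizer (H : Set G), fun e he r _ => ?_, ?_, Or.inl rfl, hfinal⟩
    · rw [Subgroup.mem_bot] at he
      rw [he, one_mul, mul_one]
    · rw [bot_sup_eq]
      have : H ≤ centralizer (H : Set G) := by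
        intro z hz
        rw [mem_centralizer_iff]
        intro y _
        rw [hHZ] at hz
        exact mem_center_iff.mp (hZc hz) y
      rwa [sup_eq_right.mpr this] at htop
  · refine ⟨H, centralizer (H : Set G), fun e he r hr => hRH r hr e he, htop,
      Or.inr (extraspecial_of_good hG hZc hZp hH hHZ), hfinal⟩

end Cfsg.Agent.S3762
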