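import Cfsg.Statements.S3763
import Cfsg.Agent.Lib.Basic.Extra2

set_option autoImplicit false
open Cfsg

namespace Cfsg.Agent.S3763

/-- Let E be an extraspecial 2-group of order 2^(2n+1). Then the largest elementary abelian subgroups of E have order 2^n or 2^(n+1); and two extraspecial 2-groups of the same order whose largest elementary abelian subgroups have the same order are isomorphic. -/
theorem result {E : Type*} [Group E] [Finite E] (hE : Cfsg.IsExtraspecial 2 E) (n : ℕ) (hn : Nat.card E = 2 ^ (2 * n + 1)) : ((Cfsg.PRankLE 2 n E ∧ ¬ Cfsg.PRankLE 2 (n - 1) E) ∨ (Cfsg.PRankLE 2 (n + 1) E ∧ ¬ Cfsg.PRankLE 2 n E)) ∧ ∀ (E' : Type*) [Group E'] [Finite E'], Cfsg.IsExtraspecial 2 E' → Nat.card E' = Nat.card E → (∀ k : ℕ, Cfsg.PRankLE 2 k E ↔ Cfsg.PRankLE 2 k E') → Nonempty (E ≃* E') := by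
  have hcases := Cfsg.Agent.Lib.Basic.extraspecial2_rank_cases hE n hn
  refine ⟨?_, ?_⟩
  · rcases hcases with ⟨-, h1, h2⟩ | ⟨-, h1, h2⟩
    · exact Or.inr ⟨h1, h2⟩
    · exact Or.inl ⟨h1, h2⟩
  · intro E' _ _ hE' hc hrank
    have hcases' := Cfsg.Agent.Lib.Basic.extraspecial2_rank_cases hE' n (hc.trans hn)
    refine Cfsg.Agent.Lib.Basic.extraspecial2_iso hE hE' hc.symm ?_
    rcases hcases with ⟨h0, h1, h2⟩ | ⟨h0, h1, h2⟩ <;>
      rcases hcases' with ⟨h0', h1', h2'⟩ | ⟨h0', h1', h2'⟩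
    · rw [h0, h0']
    · exact absurd ((hrank n).2 h1') h2
    · exact absurd ((hrank n).1 h1) h2'
    · rw [h0, h0']

end Cfsg.Agent.S3763
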