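import Cfsg.Statements.S3766
-- import your own Cfsg.Agent.* helpers here
import Mathlib
import Cfsg.Agent.Lib.OddLocal.NilParts
import Cfsg.Agent.Lib.Coprime.Omega1
import Cfsg.Agent.Lib.Coprime.SZ
import Cfsg.Agent.Lib.Basic.Solv1
import Cfsg.Agent.Lib.Coprime.Wielandt

set_option autoImplicit false
open Cfsg

namespace Cfsg.Agent.S3766

open Subgroup

def Chief {G : Type*} [Group G] (U V : Subgroup G) : Prop :=
  U.Normal ∧ V.Normal ∧ V < U ∧ ∀ W : Subgroup G, W.Normal → V ≤ W → W ≤ U → W = V ∨ W = U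

theorem eq_bot_of_le_comm {G : Type*} [Group G] {F T : Subgroup G} (hF : Group.IsNilpotent F)
    (hT : T ≤ F) (h : T ≤ ⁅T, F⁆) : T = ⊥ := by
  obtain ⟨n, hn⟩ := (Subgroup.isNilpotent_iff_lowerCentralSeries F).mp hF
  have hall : ∀ m : ℕ, T ≤ F.lowerCentralSeries m := by
    intro m
    induction m with
    | zero => exact hT
    | succ m ih =>
      rw [Subgroup.lowerCentralSeries_succ]
      exact h.trans (Subgroup.commutator_mono ih le_rfl)
  exact le_bot_iff.mp (hn ▸ hall n)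

/-- A normal nilpotent subgroup centralizes chief factors. -/
theorem nil_centralizes {G : Type*} [Group G] [Finite G] {F : Subgroup G} (hFn : F.Normal)
    (hF : Group.IsNilpotent F) {U V : Subgroup G} (hc : Chief U V) {g u : G} (hg : g ∈ F) (hu : u ∈ U) :
    u * g * u⁻¹ * g⁻¹ ∈ V := by
  classical
  obtain ⟨hUn, hVn, hVU, hmin⟩ := hc
  by_cases hUF : U ⊓ F ≤ V
  · apply hUF
    refine mem_inf.mpr ⟨?_, ?_⟩
    · have h1 : u * g * u⁻¹ * g⁻¹ = u * (g * u⁻¹ * g⁻¹) := by group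
      rw [h1]
      exact mul_mem hu (hUn.conj_mem _ (inv_mem hu) g)
    · exact mul_mem (hFn.conj_mem _ hg u) (inv_mem hg)
  have hne : ({T : Subgroup G | T.Normal ∧ T ≤ U ⊓ F ∧ ¬ T ≤ V}).Nonempty :=
    ⟨U ⊓ F, (haveI := hUn; haveI := hFn; inferInstance), le_rfl, hUF⟩
  obtain ⟨T, ⟨hTn, hTUF, hTV⟩, hTmin⟩ := (Set.toFinite _).exists_minimal hne
  have hcomm : ⁅T, F⁆ ≤ V := by
    by_contra hcon
    have hle : ⁅T, F⁆ ≤ T := Subgroup.commutator_le_left T F
    have h1 : T ≤ ⁅T, F⁆ := hTmin ⟨Subgroup.commutator_normal T F, hle.trans hTUF, hcon⟩ hle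
    have h2 := eq_bot_of_le_comm hF (hTUF.trans inf_le_right) h1
    exact hTV (h2 ▸ bot_le)
  have hsup : T ⊔ V = U := by
    have h1 := hmin (T ⊔ V) (sup_normal T V) le_sup_right (sup_le (hTUF.trans inf_le_left) hVU.le)
    rcases h1 with h1 | h1
    · exact absurd (le_sup_left.trans h1.le) hTV
    · exact h1
  have hu' : u ∈ T ⊔ V := hsup ▸ hu
  obtain ⟨t, ht, v, hv, rfl⟩ := (Subgroup.mem_sup_of_normal_right).mp hu'
  have h1 : t * v * g * (t * v)⁻¹ * g⁻¹ =
      t * (v * (g * v⁻¹ * g⁻¹)) * t⁻¹ * (t * g * t⁻¹ * g⁻¹) := by group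
  rw [h1]
  refine mul_mem (hVn.conj_mem _ (mul_mem hv (hVn.conj_mem _ (inv_mem hv) g)) t) ?_
  apply hcomm
  exact Subgroup.commutator_mem_commutator ht hg

/-- The hypothesis: centralizing all chief factors within `F`. -/
def IsC {G : Type*} [Group G] (F : Subgroup G) (c : G) : Prop :=
  ∀ U V : Subgroup G, Chief U V → U ≤ F → ∀ u ∈ U, u * c * u⁻¹ * c⁻¹ ∈ V

/-- Chain argument. -/
theorem key {G : Type*} [Group G] [Finite G] (F : Subgroup G) {c : G} (hc : IsC F c) :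
    ∀ (n : ℕ) (T : Subgroup G), Nat.card T = n → T.Normal → T ≤ F → (orderOf c).Coprime (Nat.card T) →
      ∀ u ∈ T, u * c = c * u := by
  intro n
  induction n using Nat.strong_induction_on with
  | _ n IH =>
  intro T hn hTn hTF hcop u hu
  classical
  by_cases hbot : T = ⊥
  · subst hbot
    have : u = 1 := hu
    rw [this, one_mul, mul_one]
  have hne : ({W : Subgroup G | W.Normal ∧ W < T}).Nonempty :=
    ⟨⊥, inferInstance, bot_lt_iff_ne_bot.mpr hbot⟩
  obtain ⟨T₁, ⟨hT₁n, hT₁T⟩, hT₁max⟩ := (Set.toFinite _).exists_maximal hne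
  have hchief : Chief T T₁ := by
    refine ⟨hTn, hT₁n, hT₁T, ?_⟩
    intro W hWn hW1 hW2
    by_cases hWT : W = T
    · exact Or.inr hWT
    · left
      exact le_antisymm (hT₁max ⟨hWn, lt_of_le_of_ne hW2 hWT⟩ hW1) hW1
  have hw := hc T T₁ hchief hTF u hu
  have hT₁lt : Nat.card T₁ < n := by
    rw [← hn]
    exact Cfsg.Agent.Lib.Coprime.Wielandt.card_lt_of_lt' hT₁T
  have hdvd : Nat.card T₁ ∣ Nat.card T := Subgroup.card_dvd_of_le hT₁T.le
  have hcop1 : (orderOf c).Coprime (Nat.card T₁) := hcop.coprime_dvd_right hdvd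
  obtain ⟨w, hwdef⟩ : ∃ w, w = u * c * u⁻¹ * c⁻¹ := ⟨_, rfl⟩
  rw [← hwdef] at hw
  have hwc : w * c = c * w := IH _ hT₁lt T₁ rfl hT₁n (hT₁T.le.trans hTF) hcop1 w hw
  -- `u c u⁻¹ = w c`
  have hstep : u * c * u⁻¹ = w * c := by
    rw [hwdef]
    group
  have hpow : ∀ m : ℕ, u * c ^ m * u⁻¹ = w ^ m * c ^ m := by
    intro m
    induction m with
    | zero => simp
    | succ m ih =>
      have h1 : u * c ^ (m + 1) * u⁻¹ = (u * c ^ m * u⁻¹) * (u * c * u⁻¹) := by
        rw [pow_succ]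
        group
      rw [h1, ih, hstep]
      have h2 : Commute c w := hwc.symm
      have h3 : c ^ m * w = w * c ^ m := (h2.pow_left m).eq
      calc w ^ m * c ^ m * (w * c) = w ^ m * (c ^ m * w) * c := by group
        _ = w ^ m * (w * c ^ m) * c := by rw [h3]
        _ = w ^ (m + 1) * c ^ (m + 1) := by
          rw [pow_succ w, pow_succ c]
          group
  have hm := hpow (orderOf c)
  rw [pow_orderOf_eq_one, mul_one, mul_one, mul_inv_cancel] at hm
  have hw1 : w = 1 := by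
    have h1 : orderOf w ∣ orderOf c := orderOf_dvd_of_pow_eq_one hm.symm
    have h2 : orderOf w ∣ Nat.card T := Subgroup.orderOf_dvd_natCard T (hT₁T.le hw)
    exact orderOf_eq_one_iff.mp (Nat.eq_one_of_dvd_coprimes hcop h1 h2)
  rw [hw1, one_mul] at hstep
  calc u * c = (u * c * u⁻¹) * u := by group
    _ = c * u := by rw [hstep]

theorem normal_Oq {G : Type*} [Group G] [Finite G] {F : Subgroup G} (hFn : F.Normal)
    (hF : Group.IsNilpotent F) (r : ℕ) [Fact r.Prime] : (Cfsg.Agent.Lib.OddLocal.Oq r F).Normal := by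
  rw [← normalizer_eq_top_iff, eq_top_iff]
  intro y _
  exact Cfsg.Agent.Lib.OddLocal.mem_normalizer_Oq hF (by rw [normalizer_eq_top_iff.mpr hFn]; trivial)

theorem normal_Oq' {G : Type*} [Group G] [Finite G] {F : Subgroup G} (hFn : F.Normal)
    (hF : Group.IsNilpotent F) (r : ℕ) [Fact r.Prime] : (Cfsg.Agent.Lib.OddLocal.Oq' r F).Normal := by
  rw [← normalizer_eq_top_iff, eq_top_iff]
  intro y _
  exact Cfsg.Agent.Lib.OddLocal.mem_normalizer_Oq' hF (by rw [normalizer_eq_top_iff.mpr hFn]; trivial)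

/-- `r`-elements in the hypothesis class centralize `O_{r'}(F)`. -/
theorem mem_cent {G : Type*} [Group G] [Finite G] {F : Subgroup G} (hFn : F.Normal)
    (hF : Group.IsNilpotent F) {r : ℕ} [Fact r.Prime] {b : G} {B : ℕ} (hbc : IsC F b)
    (hbo : orderOf b = r ^ B) :
    b ∈ centralizer ((Cfsg.Agent.Lib.OddLocal.Oq' r F : Subgroup G) : Set G) := by
  rw [mem_centralizer_iff]
  intro e he
  refine key F hbc _ _ rfl (normal_Oq' hFn hF r) (Cfsg.Agent.Lib.OddLocal.Oq'_le r F) ?_ e he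
  rw [hbo]
  exact (Nat.Coprime.pow_right B (Cfsg.Agent.Lib.OddLocal.Oq'_card_coprime r F)).symm

/-- Commutators of coprime primary elements are `r`-elements when they lie in `F`. -/
theorem comm_part {G : Type*} [Group G] [Finite G] {F : Subgroup G} (hFn : F.Normal)
    (hF : Group.IsNilpotent F) {r : ℕ} [Fact r.Prime] {a b : G} {B : ℕ}
    (hbc : IsC F b) (hbo : orderOf b = r ^ B)
    (ht : a * b * a⁻¹ * b⁻¹ ∈ F) : a * b * a⁻¹ * b⁻¹ ∈ Cfsg.Agent.Lib.OddLocal.Oq r F := by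
  obtain ⟨t₁, ht₁, t₂, ht₂, hte⟩ := Cfsg.Agent.Lib.OddLocal.exists_parts r hF ht
  have hcomm12 : t₁ * t₂ = t₂ * t₁ := Cfsg.Agent.Lib.OddLocal.Oq_comm_Oq' hF ht₁ ht₂
  have hb2 : t₂ * b = b * t₂ :=
    mem_centralizer_iff.mp (mem_cent hFn hF hbc hbo) t₂ ht₂
  have hOqn := normal_Oq hFn hF r
  have hsP : IsPGroup r ↥(zpowers b ⊔ Cfsg.Agent.Lib.OddLocal.Oq r F) := by
    apply IsPGroup.to_sup_of_normal_right'
    · rw [Cfsg.Agent.Lib.PGroups.isPGroup_zpowers_iff]
      exact ⟨B, hbo⟩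
    · exact Cfsg.Agent.Lib.OddLocal.Oq_isPGroup r F
    · rw [normalizer_eq_top_iff.mpr hOqn]
      exact le_top
  obtain ⟨s, hs⟩ : ∃ s, s = t₁ * b := ⟨_, rfl⟩
  have hsmem : s ∈ zpowers b ⊔ Cfsg.Agent.Lib.OddLocal.Oq r F := by
    rw [hs, sup_comm]
    exact Subgroup.mul_mem_sup ht₁ (mem_zpowers b)
  obtain ⟨K₁, hK₁⟩ := Cfsg.Agent.Lib.PGroups.exists_orderOf_of_mem_isPGroup hsP hsmem
  have hts : t₂ * s = s * t₂ := by
    rw [hs]
    calc t₂ * (t₁ * b) = (t₂ * t₁) * b := by group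
      _ = t₁ * (t₂ * b) := by rw [← hcomm12]; group
      _ = t₁ * (b * t₂) := by rw [hb2]
      _ = t₁ * b * t₂ := by group
  have hconj : t₂ * s = a * b * a⁻¹ := by
    rw [hs]
    calc t₂ * (t₁ * b) = (t₁ * t₂) * b := by rw [hcomm12]; group
      _ = (a * b * a⁻¹ * b⁻¹) * b := by rw [hte]
      _ = a * b * a⁻¹ := by group
  obtain ⟨K, hK⟩ : ∃ K, K = max B K₁ := ⟨_, rfl⟩
  have hpow1 : (t₂ * s) ^ r ^ K = 1 := by
    rw [hconj, conj_pow]
    have : b ^ r ^ K = 1 := by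
      apply orderOf_dvd_iff_pow_eq_one.mp
      rw [hbo, hK]
      exact pow_dvd_pow _ (le_max_left _ _)
    rw [this]
    group
  have hpow2 : s ^ r ^ K = 1 := by
    apply orderOf_dvd_iff_pow_eq_one.mp
    rw [hK₁, hK]
    exact pow_dvd_pow _ (le_max_right _ _)
  have hcomm : Commute t₂ s := hts
  rw [hcomm.mul_pow, hpow2, mul_one] at hpow1
  have ht21 : t₂ = 1 := by
    have h1 : orderOf t₂ ∣ r ^ K := orderOf_dvd_of_pow_eq_one hpow1
    have h2 := Cfsg.Agent.Lib.OddLocal.orderOf_Oq'_coprime ht₂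
    exact orderOf_eq_one_iff.mp (Nat.eq_one_of_dvd_coprimes (h2.pow_right K) dvd_rfl h1)
  rw [hte, ht21, mul_one]
  exact ht₁

theorem IsC.mul' {G : Type*} [Group G] {F : Subgroup G} {c d : G} (hc : IsC F c) (hd : IsC F d) :
    IsC F (c * d) := by
  intro U V hch hUF u hu
  have h1 : u * (c * d) * u⁻¹ * (c * d)⁻¹ =
      (u * c * u⁻¹ * c⁻¹) * (c * (u * d * u⁻¹ * d⁻¹) * c⁻¹) := by group
  rw [h1]
  exact mul_mem (hc U V hch hUF u hu) (hch.2.1.conj_mem _ (hd U V hch hUF u hu) c)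

theorem IsC.inv' {G : Type*} [Group G] {F : Subgroup G} {c : G} (hc : IsC F c) : IsC F c⁻¹ := by
  intro U V hch hUF u hu
  have h2 := hc U V hch hUF (c⁻¹ * u * c) (by
    have := hch.1.conj_mem u hu c⁻¹
    simpa using this)
  have h1 : u * c⁻¹ * u⁻¹ * c⁻¹⁻¹ = ((c⁻¹ * u * c) * c * (c⁻¹ * u * c)⁻¹ * c⁻¹)⁻¹ := by group
  rw [h1]
  exact inv_mem h2

theorem IsC.conj' {G : Type*} [Group G] {F : Subgroup G} {c : G} (hc : IsC F c) (t : G) :
    IsC F (t * c * t⁻¹) := by
  intro U V hch hUF u hu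
  have h2 := hc U V hch hUF (t⁻¹ * u * t) (by
    have := hch.1.conj_mem u hu t⁻¹
    simpa using this)
  have h1 : u * (t * c * t⁻¹) * u⁻¹ * (t * c * t⁻¹)⁻¹ =
      t * ((t⁻¹ * u * t) * c * (t⁻¹ * u * t)⁻¹ * c⁻¹) * t⁻¹ := by group
  rw [h1]
  exact hch.2.1.conj_mem _ h2 t

theorem main {G : Type*} [Group G] [Finite G] (hG : Group.IsSolvable G) (N : Subgroup G) [hNn : N.Normal]
    (F : Subgroup G) (hFdef : F = (Cfsg.fittingSubgroup ↥N).map N.subtype) {g : G} (hgN : g ∈ N)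
    (hg : IsC F g) : g ∈ F := by
  classical
  haveI hsolvN : Group.IsSolvable N := by
    exact solvable_of_solvable_injective N.subtype_injective
  haveI := Cfsg.Agent.Lib.Basic.fittingSubgroup_characteristic (G := N)
  have hFn : F.Normal := by
    rw [hFdef]
    exact Cfsg.Agent.Lib.Coprime.normal_map_subtype_of_characteristic N _
  have hF : Group.IsNilpotent F := by
    subst hFdef
    haveI := Cfsg.Agent.Lib.Basic.fittingSubgroup_isNilpotent (G := N)
    exact nilpotent_of_surjective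
      (Subgroup.equivMapOfInjective _ _ N.subtype_injective).toMonoidHom (MulEquiv.surjective _)
  let C : Subgroup G :=
    { carrier := {c | c ∈ N ∧ IsC F c}
      mul_mem' := fun ha hb => ⟨mul_mem ha.1 hb.1, ha.2.mul' hb.2⟩
      one_mem' := ⟨one_mem _, fun U V hch _ u _ => by
        have : u * 1 * u⁻¹ * (1 : G)⁻¹ = 1 := by group
        rw [this]
        exact one_mem _⟩
      inv_mem' := fun ha => ⟨inv_mem ha.1, ha.2.inv'⟩ }
  have hCmem : ∀ c, c ∈ C ↔ c ∈ N ∧ IsC F c := fun c => Iff.rfl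
  have hCn : C.Normal := ⟨fun c hc t => ⟨hNn.conj_mem _ hc.1 t, hc.2.conj' t⟩⟩
  have hCnil : Group.IsNilpotent C := by
    apply Cfsg.Agent.Lib.Coprime.Omega1.isNilpotent_of_primary_commute
    rintro ⟨a, ha⟩ ⟨b, hb⟩ q r A B hq hr hqr hao hbo
    rw [Subgroup.orderOf_mk] at hao hbo
    haveI : Fact q.Prime := ⟨hq⟩
    haveI : Fact r.Prime := ⟨hr⟩
    obtain ⟨t, ht⟩ : ∃ t, t = a * b * a⁻¹ * b⁻¹ := ⟨_, rfl⟩
    have hO'q := normal_Oq' hFn hF q
    have hO'r := normal_Oq' hFn hF r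
    have hacen := mem_cent hFn hF ha.2 hao
    have hbcen := mem_cent hFn hF hb.2 hbo
    have hcenq : t ∈ centralizer ((Cfsg.Agent.Lib.OddLocal.Oq' q F : Subgroup G) : Set G) := by
      have h1 : t = a * (b * a⁻¹ * b⁻¹) := by rw [ht]; group
      rw [h1]
      exact mul_mem hacen (Subgroup.normal_centralizer.conj_mem _ (inv_mem hacen) b)
    have hcenr : t ∈ centralizer ((Cfsg.Agent.Lib.OddLocal.Oq' r F : Subgroup G) : Set G) := by
      have h1 : t = (a * b * a⁻¹) * b⁻¹ := by rw [ht]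
      rw [h1]
      exact mul_mem (Subgroup.normal_centralizer.conj_mem _ hbcen a) (inv_mem hbcen)
    have hqle : Cfsg.Agent.Lib.OddLocal.Oq q F ≤ Cfsg.Agent.Lib.OddLocal.Oq' r F := by
      intro e he
      obtain ⟨k, hk⟩ := Cfsg.Agent.Lib.PGroups.exists_orderOf_of_mem_isPGroup
        (Cfsg.Agent.Lib.OddLocal.Oq_isPGroup q F) he
      apply Cfsg.Agent.Lib.OddLocal.mem_Oq' hF (Cfsg.Agent.Lib.OddLocal.Oq_le q F he)
      rw [hk]
      exact Nat.Coprime.pow_left k ((Nat.coprime_primes hq hr).mpr hqr)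
    have htF : t ∈ F := by
      have htN : t ∈ N := by
        rw [ht]
        exact mul_mem (mul_mem (mul_mem ha.1 hb.1) (inv_mem ha.1)) (inv_mem hb.1)
      have hcomm : ∀ e ∈ F, t * e = e * t := by
        intro e he
        apply Cfsg.Agent.Lib.OddLocal.comm_of_comm_parts q hF ?_ ?_ he
        · intro x hx
          exact (mem_centralizer_iff.mp hcenr x (hqle hx)).symm
        · intro x hx
          exact (mem_centralizer_iff.mp hcenq x hx).symm
      have h1 : (⟨t, htN⟩ : N) ∈ centralizer ((Cfsg.fittingSubgroup N : Subgroup N) : Set N) := by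
        rw [mem_centralizer_iff]
        intro e he
        apply Subtype.ext
        have h2 : (e : G) ∈ F := by
          rw [hFdef]
          exact ⟨e, he, rfl⟩
        exact (hcomm _ h2).symm
      have h2 := Cfsg.Agent.Lib.Basic.centralizer_fittingSubgroup_le h1
      rw [hFdef]
      exact ⟨_, h2, rfl⟩
    have h3 : t ∈ Cfsg.Agent.Lib.OddLocal.Oq r F := by
      rw [ht] at htF ⊢
      exact comm_part hFn hF hb.2 hbo htF
    have h4 : t⁻¹ ∈ Cfsg.Agent.Lib.OddLocal.Oq q F := by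
      have h5 : t⁻¹ = b * a * b⁻¹ * a⁻¹ := by rw [ht]; group
      rw [h5]
      apply comm_part hFn hF ha.2 hao
      rw [← h5]
      exact inv_mem htF
    obtain ⟨k, hk⟩ := Cfsg.Agent.Lib.PGroups.exists_orderOf_of_mem_isPGroup
      (Cfsg.Agent.Lib.OddLocal.Oq_isPGroup r F) h3
    obtain ⟨l, hl⟩ := Cfsg.Agent.Lib.PGroups.exists_orderOf_of_mem_isPGroup
      (Cfsg.Agent.Lib.OddLocal.Oq_isPGroup q F) h4
    rw [orderOf_inv] at hl
    have ht1 : t = 1 := by
      have hc : (q ^ l).Coprime (r ^ k) := Nat.Coprime.pow _ _ ((Nat.coprime_primes hq hr).mpr hqr)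
      apply orderOf_eq_one_iff.mp
      exact Nat.eq_one_of_dvd_coprimes hc (by rw [← hl]) (by rw [← hk])
    apply Subtype.ext
    rw [ht, mul_inv_eq_one, mul_inv_eq_iff_eq_mul] at ht1
    exact ht1
  have hCle : C ≤ F := by
    have h1 : (C.subgroupOf N) ≤ Cfsg.fittingSubgroup N := by
      apply Cfsg.Agent.Lib.Basic.le_fittingSubgroup_of_nilpotent
      · exact hCn.subgroupOf N
      · have hle : C ≤ N := fun c hc => hc.1
        exact nilpotent_of_surjective (Subgroup.subgroupOfEquivOfLe hle).symm.toMonoidHom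
          (MulEquiv.surjective _)
    intro c hc
    rw [hFdef]
    exact ⟨⟨c, hc.1⟩, h1 hc, rfl⟩
  exact hCle ⟨hgN, hg⟩

theorem forward {G : Type*} [Group G] [Finite G] (N : Subgroup G) [hNn : N.Normal]
    {g : G} (hg : g ∈ (Cfsg.fittingSubgroup ↥N).map N.subtype) :
    g ∈ N ∧ ∀ U V : Subgroup G, Chief U V → ∀ u ∈ U, u * g * u⁻¹ * g⁻¹ ∈ V := by
  haveI := Cfsg.Agent.Lib.Basic.fittingSubgroup_characteristic (G := N)
  have hFn : ((Cfsg.fittingSubgroup ↥N).map N.subtype).Normal :=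
    Cfsg.Agent.Lib.Coprime.normal_map_subtype_of_characteristic N _
  have hF : Group.IsNilpotent ((Cfsg.fittingSubgroup ↥N).map N.subtype) := by
    haveI := Cfsg.Agent.Lib.Basic.fittingSubgroup_isNilpotent (G := N)
    exact nilpotent_of_surjective
      (Subgroup.equivMapOfInjective _ _ N.subtype_injective).toMonoidHom (MulEquiv.surjective _)
  refine ⟨Subgroup.map_subtype_le _ hg, ?_⟩
  intro U V hch u hu
  exact nil_centralizes hFn hF hch hg hu

/-- Let G be a finite solvable group and N a normal subgroup of G. Call a pair V < U of normal subgroups of G a chief factor of G when no normal subgroup of G lies strictly between them; an element g centralizes the chief factor U/V when u g u⁻¹ g⁻¹ ∈ V for all u ∈ U. Then an element of G lies in the Fitting subgroup F(N) if and only if it lies in N and centralizes every chief factor of G; and also if and only if it lies in N and centralizes every chief factor U/V of G with U ≤ F(N).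 -/
theorem result {G : Type*} [Group G] [Finite G] (hG : Group.IsSolvable G) (N : Subgroup G) [N.Normal] (g : G) : (g ∈ (Cfsg.fittingSubgroup ↥N).map N.subtype ↔ g ∈ N ∧ ∀ U V : Subgroup G, (U.Normal ∧ V.Normal ∧ V < U ∧ ∀ W : Subgroup G, W.Normal → V ≤ W → W ≤ U → W = V ∨ W = U) → ∀ u ∈ U, u * g * u⁻¹ * g⁻¹ ∈ V) ∧ (g ∈ (Cfsg.fittingSubgroup ↥N).map N.subtype ↔ g ∈ N ∧ ∀ U V : Subgroup G, (U.Normal ∧ V.Normal ∧ V < U ∧ ∀ W : Subgroup G, W.Normal → V ≤ W → W ≤ U → W = V ∨ W = U) → U ≤ (Cfsg.fittingSubgroup ↥N).map N.subtype → ∀ u ∈ U, u * g * u⁻¹ * g⁻¹ ∈ V) := by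
  refine ⟨⟨fun h => ?_, fun h => ?_⟩, ⟨fun h => ?_, fun h => ?_⟩⟩
  · obtain ⟨h1, h2⟩ := forward N h
    exact ⟨h1, fun U V hch => h2 U V hch⟩
  · refine main hG N _ rfl h.1 ?_
    intro U V hch _
    exact h.2 U V hch
  · obtain ⟨h1, h2⟩ := forward N h
    exact ⟨h1, fun U V hch _ => h2 U V hch⟩
  · refine main hG N _ rfl h.1 ?_
    intro U V hch hUF
    exact h.2 U V hch hUF

end Cfsg.Agent.S3766
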