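import Cfsg.Statements.S3767
-- import your own Cfsg.Agent.* helpers here
import Mathlib
import Cfsg.Agent.Lib.Coprime.SpCyclic

set_option autoImplicit false
open Cfsg

namespace Cfsg.Agent.S3767

/-- Let P be an extraspecial p-group of order p^(2n+1) and H a cyclic group of order h prime to p acting on P (inside a common finite group: H normalizes P) so that C_P(x) = Z(P) for every non-identity x ∈ H. Then h divides p^n + 1 or h divides p^n − 1. -/
theorem result {G : Type*} [Group G] [Finite G] {p : ℕ} [Fact p.Prime] (P H : Subgroup G) (hP : Cfsg.IsExtraspecial p ↥P) (n : ℕ) (hn : Nat.card P = p ^ (2 * n + 1)) (hH : IsCyclic H) (hcop : (Nat.card H).Coprime p) (hHP : H ≤ Subgroup.normalizer (P : Set G)) (hfix : ∀ x ∈ H, x ≠ 1 → P ⊓ Subgroup.centralizer {x} = (Subgroup.center ↥P).map P.subtype) : Nat.card H ∣ p ^ n + 1 ∨ Nat.card H ∣ p ^ n - 1 := by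
  classical
  have hp : p.Prime := Fact.out
  obtain ⟨g₀, hg₀⟩ := IsCyclic.exists_generator (α := H)
  obtain ⟨x, hx⟩ : ∃ x : G, x = (g₀ : G) := ⟨_, rfl⟩
  have hxH : x ∈ H := by rw [hx]; exact g₀.2
  have hord : orderOf x = Nat.card H := by
    rw [hx, Subgroup.orderOf_coe]
    exact orderOf_eq_card_of_forall_mem_zpowers hg₀
  have hh : 0 < Nat.card H := Nat.card_pos
  have hxN := hHP hxH
  have hconj : ∀ (k : ℕ) (u : G), u ∈ P → x ^ k * u * (x ^ k)⁻¹ ∈ P := by
    intro k u hu
    have hxk : x ^ k ∈ Subgroup.normalizer (P : Set G) := Subgroup.pow_mem _ hxN k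
    exact (Subgroup.mem_normalizer_iff.mp hxk u).mp hu
  have hconj' : ∀ (u : G), u ∈ P → x⁻¹ * u * (x⁻¹)⁻¹ ∈ P := by
    intro u hu
    have hxk : x⁻¹ ∈ Subgroup.normalizer (P : Set G) := Subgroup.inv_mem _ hxN
    exact (Subgroup.mem_normalizer_iff.mp hxk u).mp hu
  let α : ↥P ≃* ↥P :=
    { toFun := fun y => ⟨x * y * x⁻¹, by simpa using hconj 1 y y.2⟩
      invFun := fun y => ⟨x⁻¹ * y * (x⁻¹)⁻¹, hconj' y y.2⟩
      left_inv := by
        intro y
        apply Subtype.ext
        simp [mul_assoc]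
      right_inv := by
        intro y
        apply Subtype.ext
        simp [mul_assoc]
      map_mul' := by
        intro a b
        apply Subtype.ext
        simp [mul_assoc] }
  have hα : ∀ y : ↥P, ((α y : ↥P) : G) = x * y * x⁻¹ := fun y => rfl
  have hαi : ∀ (i : ℕ) (y : ↥P), (((α : ↥P → ↥P)^[i] y : ↥P) : G) = x ^ i * y * (x ^ i)⁻¹ := by
    intro i
    induction i with
    | zero => intro y; simp
    | succ i ih =>
      intro y
      rw [Function.iterate_succ_apply, ih, hα, pow_succ]
      group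
  have hxh : x ^ Nat.card H = 1 := by
    rw [← hord]
    exact pow_orderOf_eq_one x
  have hZ : ∀ z ∈ Subgroup.center ↥P, α z = z := by
    intro z hz
    apply Subtype.ext
    rw [hα]
    by_cases hx1 : x = 1
    · rw [hx1]; simp
    have h1 := hfix x hxH hx1
    have h2 : (z : G) ∈ P ⊓ Subgroup.centralizer {x} := by
      rw [h1]
      exact ⟨z, hz, rfl⟩
    have h3 : (z : G) * x = x * z := Subgroup.mem_centralizer_singleton_iff.mp h2.2
    rw [← h3]
    group
  have hmain := Cfsg.Agent.Lib.Coprime.SpCyc.ext_main hP hn α hh hcop ?_ ?_ hZ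
  · rcases hmain with h1 | h1
    · right
      have hpos : 1 ≤ p ^ n := Nat.one_le_pow _ _ hp.pos
      rw [← ZMod.natCast_eq_zero_iff, Nat.cast_sub hpos, Nat.cast_pow, Nat.cast_one, h1, sub_self]
    · left
      rw [← ZMod.natCast_eq_zero_iff, Nat.cast_add, Nat.cast_pow, Nat.cast_one, h1]
      simp
  · intro y
    apply Subtype.ext
    rw [hαi, hxh]
    simp
  · intro i hi hih y hy
    have hxi : x ^ i ≠ 1 := by
      intro h0
      have := orderOf_dvd_of_pow_eq_one h0
      rw [hord] at this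
      exact absurd (Nat.le_of_dvd hi this) (by omega)
    have h1 := hfix (x ^ i) (Subgroup.pow_mem _ hxH i) hxi
    have h2 : (y : G) ∈ P ⊓ Subgroup.centralizer {x ^ i} := by
      refine ⟨y.2, ?_⟩
      show (y : G) ∈ Subgroup.centralizer {x ^ i}
      rw [Subgroup.mem_centralizer_singleton_iff]
      have h3 := congrArg Subtype.val hy
      rw [hαi] at h3
      rw [eq_comm]
      calc x ^ i * (y : G) = x ^ i * y * (x ^ i)⁻¹ * x ^ i := by group
        _ = y * x ^ i := by rw [h3]
    rw [h1] at h2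
    obtain ⟨z, hz, hzy⟩ := h2
    have : z = y := Subtype.ext hzy
    rwa [← this]

end Cfsg.Agent.S3767
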