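import Cfsg.Statements.S3768
-- import your own Cfsg.Agent.* helpers here
import Mathlib
import Cfsg.Agent.S0035
import Cfsg.Agent.Lib.Basic.Frobenius2
import Cfsg.Agent.Lib.Basic.SchurZassenhaus

set_option autoImplicit false
open Cfsg

namespace Cfsg.Agent.S3768

open scoped Pointwise

open Subgroup in
theorem comm_surj {G : Type*} [Group G] [Finite G] {K : Subgroup G} {y : G}
    (h : K ⊓ centralizer {y} = ⊥) (L : Subgroup G) (hLK : L ≤ K)
    (hLy : ∀ l ∈ L, l * y * l⁻¹ * y⁻¹ ∈ L) {w : G} (hw : w ∈ L) :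
    ∃ l ∈ L, l * y * l⁻¹ * y⁻¹ = w := by
  let φ : L → L := fun l => ⟨l * y * (l : G)⁻¹ * y⁻¹, hLy l l.2⟩
  have hinj : Function.Injective φ := by
    intro a b hab
    have h1 : (a : G) * y * (a : G)⁻¹ * y⁻¹ = b * y * (b : G)⁻¹ * y⁻¹ := congrArg Subtype.val hab
    have h2 : (a : G) * y * (a : G)⁻¹ = b * y * (b : G)⁻¹ := mul_right_cancel h1
    have h3 : (b : G)⁻¹ * a ∈ K ⊓ centralizer {y} := by
      refine mem_inf.mpr ⟨mul_mem (inv_mem (hLK b.2)) (hLK a.2), ?_⟩
      rw [mem_centralizer_singleton_iff]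
      calc (b : G)⁻¹ * a * y = (b : G)⁻¹ * ((a : G) * y * (a : G)⁻¹) * a := by group
        _ = (b : G)⁻¹ * (b * y * (b : G)⁻¹) * a := by rw [h2]
        _ = y * ((b : G)⁻¹ * a) := by group
    rw [h] at h3
    have h4 : (b : G)⁻¹ * a = 1 := h3
    apply Subtype.ext
    rw [inv_mul_eq_one] at h4
    exact h4.symm
  obtain ⟨l, hl⟩ := (Finite.injective_iff_surjective.mp hinj) ⟨w, hw⟩
  exact ⟨l, l.2, congrArg Subtype.val hl⟩

/-- Let G be a finite Frobenius group with Frobenius complement R and Frobenius kernel K (the identity together with the elements in no conjugate of R), and let N be a normal subgroup of G not containing K. Then G/N is a Frobenius group with Frobenius complement RN/N whose Frobenius kernel is the image of K. -/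
theorem result {G : Type*} [Group G] [Finite G] (R : Subgroup G) (hR : Cfsg.IsFrobeniusComplement R) (N : Subgroup G) [N.Normal] (hKN : ¬ Cfsg.frobeniusKernel R ⊆ N) : Cfsg.IsFrobeniusComplement (R.map (QuotientGroup.mk' N)) ∧ Cfsg.frobeniusKernel (R.map (QuotientGroup.mk' N)) = QuotientGroup.mk' N '' Cfsg.frobeniusKernel R := by
  classical
  obtain ⟨K, hKk, hKn, hc⟩ := Cfsg.Agent.S0035.result R hR
  have hConj : Cfsg.Agent.Lib.Basic.IsConjDisjoint R := hR.2.2
  have hfpf : ∀ y ∈ R, y ≠ 1 → K ⊓ Subgroup.centralizer {y} = ⊥ := fun y hy hne =>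
    hConj.fpf_of_complement hc.disjoint hy hne
  have hKN : ¬ K ≤ N := by
    intro h
    apply hKN
    rw [← hKk]
    exact h
  -- `N ≤ K`
  have hNK : N ≤ K := by
    intro x hx
    by_contra hxK
    have hxK' : x ∉ Cfsg.frobeniusKernel R := by
      rw [← hKk]
      exact hxK
    simp only [Cfsg.frobeniusKernel, Set.mem_setOf_eq, not_or, not_forall, not_not] at hxK'
    obtain ⟨hx1, g, hg⟩ := hxK'
    rw [Cfsg.Agent.Lib.Basic.mem_conj_smul] at hg
    have hyN : g⁻¹ * x * g ∈ N := by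
      have := ‹N.Normal›.conj_mem x hx g⁻¹
      simpa using this
    have hy1 : g⁻¹ * x * g ≠ 1 := by
      intro h
      apply hx1
      have h2 : x = g * (g⁻¹ * x * g) * g⁻¹ := by group
      rw [h2, h]
      group
    apply hKN
    intro k hk
    have hLy : ∀ l ∈ K, l * (g⁻¹ * x * g) * l⁻¹ * (g⁻¹ * x * g)⁻¹ ∈ K := by
      intro l hl
      have h3 : l * (g⁻¹ * x * g) * l⁻¹ * (g⁻¹ * x * g)⁻¹ =
          l * ((g⁻¹ * x * g) * l⁻¹ * (g⁻¹ * x * g)⁻¹) := by group
      rw [h3]
      exact mul_mem hl (hKn.conj_mem _ (inv_mem hl) _)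
    obtain ⟨l, hl, hlw⟩ := comm_surj (hfpf _ hg hy1) K le_rfl hLy hk
    rw [← hlw]
    exact mul_mem (‹N.Normal›.conj_mem _ hyN l) (inv_mem hyN)
  let f := QuotientGroup.mk' N
  have hf : Function.Surjective f := QuotientGroup.mk'_surjective N
  have hker : ∀ x, f x = 1 ↔ x ∈ N := fun x => by
    rw [← MonoidHom.mem_ker, QuotientGroup.ker_mk']
  have hcb : Subgroup.IsComplement' (K.map f) (R.map f) := Cfsg.Agent.Lib.Basic.isComplement'_map_mk hc hNK
  haveI hKbn : (K.map f).Normal := hKn.map f hf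
  have hKb : K.map f ≠ ⊥ := by
    intro h
    apply hKN
    intro k hk
    rw [← hker]
    have : f k ∈ K.map f := Subgroup.mem_map_of_mem f hk
    rw [h] at this
    exact this
  have hRN : ∀ r ∈ R, r ≠ 1 → f r ≠ 1 := by
    intro r hr hr1 h
    rw [hker] at h
    exact hr1 (Subgroup.disjoint_def.mp hc.disjoint (hNK h) hr)
  have hRb : R.map f ≠ ⊥ := by
    intro h
    apply hR.1
    rw [eq_bot_iff]
    intro r hr
    by_contra hr1
    have : f r ∈ R.map f := Subgroup.mem_map_of_mem f hr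
    rw [h] at this
    exact hRN r hr hr1 this
  have hfpfb : ∀ h ∈ R.map f, h ≠ 1 → K.map f ⊓ Subgroup.centralizer {h} = ⊥ := by
    rintro _ ⟨r, hr, rfl⟩ hne
    have hr1 : r ≠ 1 := by
      rintro rfl
      exact hne (map_one f)
    rw [eq_bot_iff]
    rintro z hz
    obtain ⟨⟨k, hk, rfl⟩, hz2⟩ := Subgroup.mem_inf.mp hz
    rw [Subgroup.mem_centralizer_singleton_iff] at hz2
    have hw : k * r * k⁻¹ * r⁻¹ ∈ N := by
      rw [← hker, map_mul, map_mul, map_mul, map_inv, map_inv, hz2]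
      group
    have hLy : ∀ l ∈ N, l * r * l⁻¹ * r⁻¹ ∈ N := by
      intro l hl
      have h3 : l * r * l⁻¹ * r⁻¹ = l * (r * l⁻¹ * r⁻¹) := by group
      rw [h3]
      exact mul_mem hl (‹N.Normal›.conj_mem _ (inv_mem hl) r)
    obtain ⟨n, hn, hnw⟩ := comm_surj (hfpf r hr hr1) N hNK hLy hw
    have h2 : n * r * n⁻¹ = k * r * k⁻¹ := mul_right_cancel hnw
    have h3 : n⁻¹ * k ∈ K ⊓ Subgroup.centralizer {r} := by
      refine Subgroup.mem_inf.mpr ⟨mul_mem (inv_mem (hNK hn)) hk, ?_⟩
      rw [Subgroup.mem_centralizer_singleton_iff]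
      calc n⁻¹ * k * r = n⁻¹ * (k * r * k⁻¹) * k := by group
        _ = n⁻¹ * (n * r * n⁻¹) * k := by rw [h2]
        _ = r * (n⁻¹ * k) := by group
    rw [hfpf r hr hr1] at h3
    have h4 : n⁻¹ * k = 1 := h3
    rw [inv_mul_eq_one] at h4
    have h5 : f k = 1 := by
      rw [hker, ← h4]
      exact hn
    rw [h5]
    exact one_mem _
  refine ⟨(Cfsg.Agent.Lib.Basic.isFrobeniusComplement_iff_fpf hcb hKb hRb).mpr hfpfb, ?_⟩
  rw [← hKk]
  ext x
  simp only [Cfsg.frobeniusKernel, Set.mem_setOf_eq, Set.mem_image, SetLike.mem_coe]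
  constructor
  · intro hx
    have hx' : x ∈ K.map f := by
      have hmem : x ∈ K.map f ⊔ R.map f := by
        rw [hcb.sup_eq_top]
        exact Subgroup.mem_top _
      obtain ⟨k', hk', r', hr', hkr⟩ := (Subgroup.mem_sup_of_normal_left).mp hmem
      by_cases hr1 : r' = 1
      · rw [← hkr, hr1, mul_one]
        exact hk'
      · rcases hx with hx | hx
        · rw [hx]
          exact one_mem _
        · exfalso
          have hLy : ∀ l ∈ K.map f, l * r' * l⁻¹ * r'⁻¹ ∈ K.map f := by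
            intro l hl
            have h3 : l * r' * l⁻¹ * r'⁻¹ = l * (r' * l⁻¹ * r'⁻¹) := by group
            rw [h3]
            exact mul_mem hl (hKbn.conj_mem _ (inv_mem hl) _)
          obtain ⟨t, ht, htw⟩ := comm_surj (hfpfb r' hr' hr1) (K.map f) le_rfl hLy hk'
          apply hx t
          rw [Cfsg.Agent.Lib.Basic.mem_conj_smul]
          have h4 : t⁻¹ * x * t = r' := by
            rw [← hkr, ← htw]
            group
          rw [h4]
          exact hr'
    obtain ⟨k, hk, rfl⟩ := hx'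
    exact ⟨k, hk, rfl⟩
  · rintro ⟨k, hk, rfl⟩
    by_cases h1 : f k = 1
    · exact Or.inl h1
    · refine Or.inr fun g hg => h1 ?_
      rw [Cfsg.Agent.Lib.Basic.mem_conj_smul] at hg
      have h2 : g⁻¹ * f k * g ∈ K.map f := by
        have := hKbn.conj_mem _ (Subgroup.mem_map_of_mem f hk) g⁻¹
        simpa using this
      have h3 := Subgroup.disjoint_def.mp hcb.disjoint h2 hg
      have h4 : f k = g * (g⁻¹ * f k * g) * g⁻¹ := by group
      rw [h4, h3]
      group

end Cfsg.Agent.S3768
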