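import Cfsg.Statements.S3771
-- import your own Cfsg.Agent.* helpers here
import Mathlib
import Cfsg.Agent.Lib.Basic.Nilpotent
import Cfsg.Agent.Lib.Transfer.Frattini
import Cfsg.Agent.Lib.Struct.Basic

set_option autoImplicit false
open Cfsg

namespace Cfsg.Agent.S3771

theorem ncard_coe_sub {R : Type*} [Group R] (H : Subgroup R) : (H : Set R).ncard = Nat.card H :=
  (Nat.card_coe_set_eq _).symm

/-- Let p be a prime and R a finite p-group of p-rank at most 2 (no elementary abelian subgroup of order p³) in which every element has order dividing p. Then R has order at most p³. -/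
theorem result {R : Type*} [Group R] [Finite R] {p : ℕ} [Fact p.Prime] (hR : IsPGroup p R) (hrank : Cfsg.PRankLE p 2 R) (hexp : ∀ x : R, x ^ p = 1) : Nat.card R ≤ p ^ 3 := by
  have hp : p.Prime := Fact.out
  haveI : Group.IsNilpotent R := hR.isNilpotent
  let F : Set (Subgroup R) := {M | M.Normal ∧ IsMulCommutative M}
  have hF : F.Nonempty := ⟨⊥, Subgroup.normal_bot, inferInstance⟩
  obtain ⟨N, ⟨hN, hNab⟩, hmax⟩ := (Set.toFinite F).exists_maximal hF
  haveI := hN
  haveI := hNab
  have hC : Subgroup.centralizer (N : Set R) = N :=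
    Cfsg.Agent.Lib.Basic.centralizer_eq_of_maximal_abelian_normal N
      (fun M hM hMab hNM => le_antisymm (hmax ⟨hM, hMab⟩ hNM) hNM)
  have hcardN : Nat.card N ≤ p ^ 2 := hrank N hNab (fun a _ => hexp a)
  have hp3 : p ^ 2 ≤ p ^ 3 := Nat.pow_le_pow_right hp.pos (by norm_num)
  by_cases hN1 : N = ⊥
  · have htop : (⊤ : Subgroup R) ≤ N := by
      intro x _
      rw [← hC, Subgroup.mem_centralizer_iff]
      intro y hy
      have : y = 1 := by
        rw [hN1] at hy
        exact Subgroup.mem_bot.mp hy
      simp [this]
    have h1 : Nat.card R = Nat.card N := by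
      rw [← Subgroup.card_top (G := R), top_le_iff.mp htop]
    rw [h1]
    exact hcardN.trans hp3
  obtain ⟨z, hzN, hz1, hzc, hzp⟩ := Cfsg.Agent.Lib.Transfer.exists_central_of_normal hR hN1
  have hoz : orderOf z = p := orderOf_eq_prime hzp hz1
  have hcz : Nat.card (Subgroup.zpowers z) = p := by rw [Nat.card_zpowers, hoz]
  have hzle : Subgroup.zpowers z ≤ N := (Subgroup.zpowers_le).mpr hzN
  by_cases hk1 : N ≤ Subgroup.zpowers z
  · have htop : (⊤ : Subgroup R) ≤ N := by
      intro x _
      rw [← hC, Subgroup.mem_centralizer_iff]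
      intro y hy
      obtain ⟨k, rfl⟩ := hk1 hy
      exact ((Commute.zpow_left (show Commute z x from (hzc x).symm) k)).eq
    have h1 : Nat.card R = Nat.card N := by
      rw [← Subgroup.card_top (G := R), top_le_iff.mp htop]
    rw [h1]
    exact hcardN.trans hp3
  · obtain ⟨a, haN, haz⟩ := SetLike.not_le_iff_exists.mp hk1
    -- `N` is generated by `a` and `z`
    let T : Subgroup R := Subgroup.closure ({a, z} : Set R)
    have hTN : T ≤ N := by
      rw [Subgroup.closure_le]
      rintro x (rfl | rfl)
      · exact haN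
      · exact hzN
    have hzT : Subgroup.zpowers z ≤ T :=
      Subgroup.zpowers_le.mpr (Subgroup.subset_closure (by simp))
    have haT : a ∈ T := Subgroup.subset_closure (by simp)
    obtain ⟨j, hj⟩ := (hR.to_subgroup T).exists_card_eq
    have hlt : p < Nat.card T := by
      rw [← hcz]
      have hlt' : Subgroup.zpowers z < T := lt_of_le_of_ne hzT (fun e => haz (e ▸ haT))
      have := Set.ncard_lt_ncard (s := (Subgroup.zpowers z : Set R)) (t := (T : Set R)) hlt'
        (Set.toFinite _)
      rwa [ncard_coe_sub, ncard_coe_sub] at this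
    have hj2 : 2 ≤ j := by
      rw [hj] at hlt
      by_contra hcon
      have : j ≤ 1 := by omega
      have h1 : p ^ j ≤ p ^ 1 := Nat.pow_le_pow_right hp.pos this
      simp at h1
      omega
    have hTge : p ^ 2 ≤ Nat.card T := by
      rw [hj]
      exact Nat.pow_le_pow_right hp.pos hj2
    have hTeq : T = N := Subgroup.eq_of_le_of_card_ge hTN (hcardN.trans hTge)
    have hCa : Subgroup.centralizer ({a} : Set R) ≤ N := by
      intro x hx
      rw [← hC, Subgroup.mem_centralizer_iff]
      have hle : T ≤ Subgroup.centralizer ({x} : Set R) := by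
        rw [Subgroup.closure_le]
        rintro y (rfl | rfl)
        · rw [SetLike.mem_coe, Subgroup.mem_centralizer_iff]
          rintro _ rfl
          exact ((Subgroup.mem_centralizer_iff.mp hx) _ rfl).symm
        · rw [SetLike.mem_coe, Subgroup.mem_centralizer_iff]
          rintro _ rfl
          exact hzc _
      intro y hy
      rw [← hTeq] at hy
      exact ((Subgroup.mem_centralizer_iff.mp (hle hy)) x rfl).symm
    -- the class of `a` misses `⟨z⟩`
    have hidx : (Subgroup.centralizer ({a} : Set R)).index ≤ p := by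
      have hclass : Nat.card {y // IsConj a y} = (Subgroup.centralizer ({a} : Set R)).index :=
        Cfsg.Agent.Lib.Struct.card_isConj_eq_index a
      obtain ⟨m, hm⟩ := IsPGroup.iff_card.mp hR
      have hd : (Subgroup.centralizer ({a} : Set R)).index ∣ p ^ m := by
        rw [← hm]
        exact Subgroup.index_dvd_card _
      obtain ⟨i, -, hi⟩ := (Nat.dvd_prime_pow hp).mp hd
      have hS : {y | IsConj a y} ⊆ (N : Set R) \ (Subgroup.zpowers z : Set R) := by
        intro y hy
        obtain ⟨c, rfl⟩ := isConj_iff.mp hy
        refine ⟨Subgroup.Normal.conj_mem hN a haN c, ?_⟩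
        rintro ⟨k, hk⟩
        apply haz
        have : a = c⁻¹ * (z ^ k) * c := by
          have hk' : z ^ k = c * a * c⁻¹ := hk
          rw [hk']; group
        rw [this]
        have hcomm : Commute c⁻¹ (z ^ k) := (Commute.zpow_right (show Commute c⁻¹ z from (hzc c⁻¹)) k)
        rw [hcomm.eq]
        simp
      have h2 : ({y | IsConj a y} : Set R).ncard ≤ p ^ 2 - p := by
        have h3 := Set.ncard_le_ncard hS (Set.toFinite _)
        rw [Set.ncard_sdiff (fun x hx => hzle hx) (Set.toFinite _), ncard_coe_sub,
          ncard_coe_sub, hcz] at h3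
        omega
      have h3 : ({y | IsConj a y} : Set R).ncard = (Subgroup.centralizer ({a} : Set R)).index := by
        rw [← hclass, ← Nat.card_coe_set_eq]
        rfl
      rw [hi]
      rw [h3, hi] at h2
      by_contra hcon
      have hi2 : 2 ≤ i := by
        by_contra h
        have : i ≤ 1 := by omega
        have h1 : p ^ i ≤ p ^ 1 := Nat.pow_le_pow_right hp.pos this
        simp at h1
        omega
      have h4 : p ^ 2 ≤ p ^ i := Nat.pow_le_pow_right hp.pos hi2
      have := hp.pos
      have h5 : 0 < p ^ 2 := by positivity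
      omega
    have h1 := Subgroup.card_mul_index (Subgroup.centralizer ({a} : Set R))
    have h2 : Nat.card (Subgroup.centralizer ({a} : Set R)) ≤ p ^ 2 :=
      (Nat.le_of_dvd Nat.card_pos (Subgroup.card_dvd_of_le hCa)).trans hcardN
    rw [← h1]
    calc _ ≤ p ^ 2 * p := Nat.mul_le_mul h2 hidx
      _ = p ^ 3 := by ring

end Cfsg.Agent.S3771
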