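import Cfsg.Statements.S3772
-- import your own Cfsg.Agent.* helpers here
import Mathlib
import Cfsg.Agent.Lib.Transfer.Frattini

set_option autoImplicit false
open Cfsg

namespace Cfsg.Agent.S3772

open Subgroup

/-- sign function -/
noncomputable def sgn {G : Type*} [Group G] (a : G) : ℤ := by
  classical exact if a = 1 then 1 else -1

theorem sgn_one {G : Type*} [Group G] : sgn (1 : G) = 1 := by
  simp [sgn]

theorem sgn_ne_one {G : Type*} [Group G] {a : G} (h : a ≠ 1) : sgn a = -1 := by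
  simp [sgn, h]

theorem sgn_sq {G : Type*} [Group G] (a : G) : sgn a * sgn a = 1 := by
  by_cases h : a = 1
  · simp [h, sgn_one]
  · simp [sgn_ne_one h]

/-- The restriction of the sign to the center. -/
noncomputable def zf {G : Type*} [Group G] (w : G) : ℤ := by
  classical exact if w ∈ center G then sgn (w ^ 2) else 0

theorem zf_mem {G : Type*} [Group G] {w : G} (h : w ∈ center G) : zf w = sgn (w ^ 2) := by
  simp [zf, h]

theorem zf_not_mem {G : Type*} [Group G] {w : G} (h : w ∉ center G) : zf w = 0 := by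
  simp [zf, h]

section
variable {G : Type*} [Group G]

/-- The setting: a central subgroup of order two. -/
structure Setting (Φ : Subgroup G) : Prop where
  central : ∀ a ∈ Φ, ∀ y : G, y * a = a * y
  sgn_mul : ∀ a ∈ Φ, ∀ b ∈ Φ, sgn (a * b) = sgn a * sgn b
  sq : ∀ x : G, x ^ 2 ∈ Φ
  comm : ∀ x y : G, x * y * x⁻¹ * y⁻¹ ∈ Φ

variable {Φ : Subgroup G} (H : Setting Φ)
include H

theorem Setting.eps_mul (x w : G) :
    sgn ((x * w) ^ 2) = sgn (w * x * w⁻¹ * x⁻¹) * sgn (x ^ 2) * sgn (w ^ 2) := by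
  have hκ := H.comm w x
  have h1 : (x * w) ^ 2 = (w * x * w⁻¹ * x⁻¹) * (x ^ 2 * w ^ 2) := by
    have h2 : x * (w * x * w⁻¹ * x⁻¹) = (w * x * w⁻¹ * x⁻¹) * x := H.central _ hκ x
    simp only [pow_two]
    calc x * w * (x * w) = x * (w * x * w⁻¹ * x⁻¹) * (x * w) * w := by group
      _ = (w * x * w⁻¹ * x⁻¹) * x * (x * w) * w := by rw [h2]
      _ = _ := by group
  rw [h1, H.sgn_mul _ hκ _ (mul_mem (H.sq x) (H.sq w)), H.sgn_mul _ (H.sq x) _ (H.sq w), ← mul_assoc]

theorem Setting.beta_mul (w x x' : G) :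
    sgn (w * (x * x') * w⁻¹ * (x * x')⁻¹) = sgn (w * x * w⁻¹ * x⁻¹) * sgn (w * x' * w⁻¹ * x'⁻¹) := by
  have hκ := H.comm w x
  have hκ' := H.comm w x'
  have h1 : w * (x * x') * w⁻¹ * (x * x')⁻¹ = (w * x * w⁻¹ * x⁻¹) * (w * x' * w⁻¹ * x'⁻¹) := by
    have h3 : x * (w * x' * w⁻¹ * x'⁻¹) = (w * x' * w⁻¹ * x'⁻¹) * x := H.central _ hκ' x
    calc w * (x * x') * w⁻¹ * (x * x')⁻¹
        = (w * x * w⁻¹) * (w * x' * w⁻¹ * x'⁻¹) * x⁻¹ := by group
      _ = (w * x * w⁻¹ * x⁻¹) * (x * (w * x' * w⁻¹ * x'⁻¹)) * x⁻¹ := by group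
      _ = (w * x * w⁻¹ * x⁻¹) * ((w * x' * w⁻¹ * x'⁻¹) * x) * x⁻¹ := by rw [h3]
      _ = _ := by group
  rw [h1, H.sgn_mul _ hκ _ hκ']

omit H in
theorem beta_sum_mem [Fintype G] {w : G} (hw : w ∈ center G) :
    (∑ x : G, sgn (w * x * w⁻¹ * x⁻¹)) = (Nat.card G : ℤ) := by
  have h1 : ∀ x : G, sgn (w * x * w⁻¹ * x⁻¹) = 1 := by
    intro x
    have h2 : w * x = x * w := (mem_center_iff.mp hw x).symm
    rw [h2]
    simp [sgn_one]
  simp [h1, Nat.card_eq_fintype_card]

theorem Setting.beta_sum_not_mem [Fintype G] {w : G} (hw : w ∉ center G) :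
    (∑ x : G, sgn (w * x * w⁻¹ * x⁻¹)) = 0 := by
  rw [mem_center_iff] at hw
  push Not at hw
  obtain ⟨x₀, hx₀⟩ := hw
  have h1 : sgn (w * x₀ * w⁻¹ * x₀⁻¹) = -1 := by
    apply sgn_ne_one
    intro h
    apply hx₀
    have h2 : w * x₀ * w⁻¹ * x₀⁻¹ * (x₀ * w) = 1 * (x₀ * w) := by rw [h]
    simp only [one_mul] at h2
    rw [← h2]
    group
  have h2 := Equiv.sum_comp (Equiv.mulLeft x₀) (fun x => sgn (w * x * w⁻¹ * x⁻¹))
  simp only [Equiv.coe_mulLeft, H.beta_mul, h1] at h2
  rw [← Finset.mul_sum] at h2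
  linarith

theorem Setting.sum_sq [Fintype G] :
    (∑ x : G, sgn (x ^ 2)) * (∑ x : G, sgn (x ^ 2)) = (Nat.card G : ℤ) * ∑ w : G, zf w := by
  have h1 : ∀ x : G, sgn (x ^ 2) * ∑ y : G, sgn (y ^ 2) =
      ∑ w : G, sgn (w * x * w⁻¹ * x⁻¹) * sgn (w ^ 2) := by
    intro x
    rw [← Equiv.sum_comp (Equiv.mulLeft x) (fun y => sgn (y ^ 2)), Finset.mul_sum]
    apply Finset.sum_congr rfl
    intro w _
    simp only [Equiv.coe_mulLeft]
    rw [H.eps_mul x w]
    have := sgn_sq (x ^ 2)
    calc sgn (x ^ 2) * (sgn (w * x * w⁻¹ * x⁻¹) * sgn (x ^ 2) * sgn (w ^ 2))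
        = (sgn (x ^ 2) * sgn (x ^ 2)) * (sgn (w * x * w⁻¹ * x⁻¹) * sgn (w ^ 2)) := by ring
      _ = _ := by rw [this, one_mul]
  rw [Finset.sum_mul]
  simp only [h1]
  rw [Finset.sum_comm, Finset.mul_sum]
  apply Finset.sum_congr rfl
  intro w _
  rw [← Finset.sum_mul]
  by_cases hw : w ∈ center G
  · rw [beta_sum_mem hw, zf_mem hw]
  · rw [H.beta_sum_not_mem hw, zf_not_mem hw]
    simp

theorem Setting.sum_center [Fintype G] :
    ((∀ z ∈ center G, z ^ 2 = 1) ∧ (∑ w : G, zf w) = (Nat.card (center G) : ℤ)) ∨ (∑ w : G, zf w) = 0 := by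
  classical
  by_cases hall : ∀ z ∈ center G, z ^ 2 = 1
  · left
    refine ⟨hall, ?_⟩
    have h1 : ∀ w : G, zf w = if w ∈ center G then 1 else 0 := by
      intro w
      split_ifs with hw
      · rw [zf_mem hw, hall w hw, sgn_one]
      · exact zf_not_mem hw
    simp only [h1]
    rw [Finset.sum_boole, Nat.card_eq_fintype_card, Fintype.card_subtype]
  · right
    push Not at hall
    obtain ⟨z₀, hz₀, hz₀1⟩ := hall
    have h1 := Equiv.sum_comp (Equiv.mulLeft z₀) (fun w => zf w)
    have h2 : ∀ w : G, zf (z₀ * w) = - zf w := by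
      intro w
      by_cases hw : w ∈ center G
      · rw [zf_mem (mul_mem hz₀ hw), zf_mem hw, H.eps_mul]
        have h3 : w * z₀ * w⁻¹ * z₀⁻¹ = 1 := by
          rw [(mem_center_iff.mp hw z₀).symm]
          group
        rw [h3, sgn_one, sgn_ne_one hz₀1]
        ring
      · have h3 : z₀ * w ∉ center G := by
          intro h
          apply hw
          have := mul_mem (inv_mem hz₀) h
          simpa using this
        rw [zf_not_mem h3, zf_not_mem hw]
        simp
    simp only [Equiv.coe_mulLeft, h2] at h1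
    rw [Finset.sum_neg_distrib] at h1
    linarith

end

/-- Let G be a finite 2-group whose Frattini subgroup Φ(G) has order 2, with |G : Φ(G)| = 2^d, and let j be the number of elements x of G with x² = 1. Then j = 2^d, or j = 2^d + 2^(d−r) or j = 2^d − 2^(d−r) for some positive integer r with 2r ≤ d. Moreover if d = 2r and j is 2^d + 2^r or 2^d − 2^r, then G is extraspecial. -/
theorem result {G : Type*} [Group G] [Finite G] (hG : IsPGroup 2 G) (hΦ : Nat.card (frattini G) = 2) (d : ℕ) (hd : (frattini G).index = 2 ^ d) : (Nat.card {x : G // x ^ 2 = 1} = 2 ^ d ∨ ∃ r : ℕ, 1 ≤ r ∧ 2 * r ≤ d ∧ (Nat.card {x : G // x ^ 2 = 1} = 2 ^ d + 2 ^ (d - r) ∨ Nat.card {x : G // x ^ 2 = 1} + 2 ^ (d - r) = 2 ^ d)) ∧ (∀ r : ℕ, d = 2 * r → (Nat.card {x : G // x ^ 2 = 1} = 2 ^ d + 2 ^ r ∨ Nat.card {x : G // x ^ 2 = 1} + 2 ^ r = 2 ^ d) → Cfsg.IsExtraspecial 2 G) := by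
  classical
  haveI : Fintype G := Fintype.ofFinite G
  haveI : Fact (Nat.Prime 2) := ⟨Nat.prime_two⟩
  -- the central subgroup of order two
  obtain ⟨c, hcΦ, hc1, hcall⟩ : ∃ c ∈ frattini G, c ≠ 1 ∧ ∀ a ∈ frattini G, a = 1 ∨ a = c := by
    have h1 : 1 < Nat.card (frattini G) := by omega
    have h2 : frattini G ≠ ⊥ := (Subgroup.one_lt_card_iff_ne_bot _).mp h1
    rcases Subgroup.bot_or_exists_ne_one (frattini G) with h3 | ⟨c, hc, hc1⟩
    · exact absurd h3 h2
    refine ⟨c, hc, hc1, fun a ha => ?_⟩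
    by_contra hne
    push Not at hne
    have h3 : ({⟨1, one_mem _⟩, ⟨a, ha⟩, ⟨c, hc⟩} : Finset (frattini G)).card = 3 := by
      rw [Finset.card_eq_three]
      refine ⟨_, _, _, ?_, ?_, ?_, rfl⟩
      · intro h
        exact hne.1 (congrArg Subtype.val h).symm
      · intro h
        exact hc1 (congrArg Subtype.val h).symm
      · intro h
        exact hne.2 (congrArg Subtype.val h)
    have h4 := Finset.card_le_univ ({⟨1, one_mem _⟩, ⟨a, ha⟩, ⟨c, hc⟩} : Finset (frattini G))
    rw [h3, ← Nat.card_eq_fintype_card, hΦ] at h4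
    omega
  have hc2 : c * c = 1 := by
    have h1 : c * c ∈ frattini G := mul_mem hcΦ hcΦ
    rcases hcall _ h1 with h2 | h2
    · exact h2
    · exact absurd (mul_eq_left.mp h2) hc1
  haveI hΦn : (frattini G).Normal := inferInstance
  have hS : Setting (frattini G) := by
    refine ⟨?_, ?_, ?_, ?_⟩
    · intro a ha y
      rcases hcall a ha with rfl | rfl
      · simp
      · have h1 := hΦn.conj_mem a ha y
        rcases hcall _ h1 with h2 | h2
        · exfalso
          apply hc1
          have h3 : y * a = y := by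
            calc y * a = y * a * y⁻¹ * y := by group
              _ = y := by rw [h2, one_mul]
          simpa using h3
        · calc y * a = y * a * y⁻¹ * y := by group
            _ = a * y := by rw [h2]
    · intro a ha b hb
      rcases hcall a ha with rfl | rfl
      · simp [sgn_one]
      · rcases hcall b hb with rfl | rfl
        · simp [sgn_one]
        · rw [hc2, sgn_one, sgn_ne_one hc1]
          norm_num
    · exact fun x => Cfsg.Agent.Lib.Transfer.pow_mem_frattini hG x
    · exact fun x y => Cfsg.Agent.Lib.Transfer.commutator_mem_frattini hG x y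
  -- cardinalities
  have hcardG : Nat.card G = 2 ^ (d + 1) := by
    have h1 := (frattini G).card_mul_index
    rw [hΦ, hd] at h1
    rw [← h1, pow_succ, mul_comm]
  have hΦZ : frattini G ≤ center G := by
    intro a ha
    rw [mem_center_iff]
    exact fun y => hS.central a ha y
  obtain ⟨f, hf⟩ := IsPGroup.iff_card.mp (hG.to_subgroup (center G))
  have hf1 : 1 ≤ f := by
    by_contra hlt
    have h0 : f = 0 := by omega
    rw [h0, pow_zero] at hf
    have h1 := Subgroup.card_le_of_le hΦZ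
    omega
  have hfle : f ≤ d + 1 := by
    have h1 := (center G).card_le_card_group
    rw [hf, hcardG] at h1
    exact (Nat.pow_le_pow_iff_right (by norm_num)).mp h1
  -- the counting function
  obtain ⟨S, hSdef⟩ : ∃ S : ℤ, S = ∑ x : G, sgn (x ^ 2) := ⟨_, rfl⟩
  obtain ⟨j, hjdef⟩ : ∃ j, j = Nat.card {x : G // x ^ 2 = 1} := ⟨_, rfl⟩
  rw [← hjdef]
  have hSj : S = 2 * (j : ℤ) - 2 ^ (d + 1) := by
    have h1 : ∀ x : G, sgn (x ^ 2) = 2 * (if x ^ 2 = 1 then 1 else 0) - 1 := by
      intro x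
      by_cases hx : x ^ 2 = 1
      · simp [hx, sgn_one]
      · simp [hx, sgn_ne_one hx]
    rw [hSdef]
    simp only [h1]
    rw [Finset.sum_sub_distrib, ← Finset.mul_sum, Finset.sum_boole, hjdef, Nat.card_eq_fintype_card,
      Fintype.card_subtype]
    simp only [Finset.sum_const, Finset.card_univ, nsmul_eq_mul, mul_one]
    rw [← Nat.card_eq_fintype_card, hcardG]
    push_cast
    ring
  have hkey : ((∀ z ∈ center G, z ^ 2 = 1) ∧ S * S = 2 ^ (d + 1 + f)) ∨ S = 0 := by
    have h1 := hS.sum_sq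
    rw [← hSdef] at h1
    rcases hS.sum_center with ⟨h2, h3⟩ | h2
    · left
      refine ⟨h2, ?_⟩
      rw [h1, h3, hcardG, hf]
      push_cast
      ring
    · right
      rw [h2, mul_zero] at h1
      exact mul_self_eq_zero.mp h1
  have hnotall : ¬ ∀ x : G, x ^ 2 = 1 := by
    intro hall
    have h1 : ∀ x y : G, x * y * x⁻¹ * y⁻¹ = 1 := by
      intro x y
      have h2 : (x * y) ^ 2 = 1 := hall _
      have h3 : x ^ 2 = 1 := hall x
      have h4 : y ^ 2 = 1 := hall y
      have hxi : x⁻¹ = x := by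
        rw [inv_eq_iff_mul_eq_one, ← pow_two, h3]
      have hyi : y⁻¹ = y := by
        rw [inv_eq_iff_mul_eq_one, ← pow_two, h4]
      rw [hxi, hyi]
      rw [pow_two] at h2
      rw [← h2]
      group
    have h2 : frattini G ≤ ⊥ := Cfsg.Agent.Lib.Transfer.frattini_le_of_elementary (p := 2) ⊥
      (fun x => by rw [hall x]; exact one_mem _) (fun x y => by rw [h1]; exact one_mem _)
    have h3 : frattini G = ⊥ := le_bot_iff.mp h2
    rw [h3] at hΦ
    simp at hΦ
  have hpow : ∀ t : ℕ, S * S = 2 ^ (2 * t) → S = 2 ^ t ∨ S = -2 ^ t := by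
    intro t ht
    have h1 : S * S = (2 ^ t) * (2 ^ t) := by
      rw [ht, two_mul, pow_add]
    exact mul_self_eq_mul_self_iff.mp h1
  constructor
  · rcases hkey with ⟨hz, hSS⟩ | hS0
    · right
      have h1 : S.natAbs * S.natAbs = 2 ^ (d + 1 + f) := by
        have := congrArg Int.natAbs hSS
        simpa [Int.natAbs_mul, Int.natAbs_pow] using this
      obtain ⟨t, _, ht⟩ := (Nat.dvd_prime_pow Nat.prime_two).mp (Dvd.intro _ h1)
      rw [ht, ← pow_add] at h1
      have ht2 : t + t = d + 1 + f := Nat.pow_right_injective (le_refl 2) h1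
      obtain ⟨t', rfl⟩ : ∃ t', t = t' + 1 := ⟨t - 1, by omega⟩
      have hfd : f < d + 1 := by
        by_contra hge
        have hfe : f = d + 1 := by omega
        have h2 : Nat.card (center G) = Nat.card G := by rw [hf, hcardG, hfe]
        have h3 : center G = ⊤ := Subgroup.eq_top_of_card_eq _ h2
        exact hnotall fun x => hz x (h3 ▸ mem_top x)
      have hSS' : S * S = 2 ^ (2 * (t' + 1)) := by
        rw [hSS, two_mul, ht2]
      refine ⟨d - t', by omega, by omega, ?_⟩
      have hdr : d - (d - t') = t' := by omega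
      rw [hdr]
      rcases hpow _ hSS' with h3 | h3
      · left
        rw [h3] at hSj
        rw [pow_succ, pow_succ] at hSj
        have h4 : (j : ℤ) = 2 ^ d + 2 ^ t' := by linarith
        exact_mod_cast h4
      · right
        rw [h3] at hSj
        rw [pow_succ, pow_succ] at hSj
        have h4 : (j : ℤ) + 2 ^ t' = 2 ^ d := by linarith
        exact_mod_cast h4
    · left
      rw [hS0] at hSj
      rw [pow_succ] at hSj
      have h4 : (j : ℤ) = 2 ^ d := by linarith
      exact_mod_cast h4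
  · intro r hdr hj
    have hS2 : S * S = 2 ^ (d + 2) := by
      rcases hj with hj | hj
      · have h3 : (j : ℤ) = 2 ^ d + 2 ^ r := by exact_mod_cast hj
        have h4 : S = 2 ^ (r + 1) := by
          rw [hSj, h3, pow_succ, pow_succ]
          ring
        rw [h4, ← pow_add]
        congr 1
        omega
      · have h3 : (j : ℤ) + 2 ^ r = 2 ^ d := by exact_mod_cast hj
        have h4 : S = - 2 ^ (r + 1) := by
          rw [hSj, pow_succ, pow_succ, ← h3]
          ring
        rw [h4, neg_mul_neg, ← pow_add]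
        congr 1
        omega
    have hf2 : f = 1 := by
      rcases hkey with ⟨_, hSS⟩ | hS0
      · rw [hS2] at hSS
        have h1 : (2 : ℤ) ^ (d + 2) = ((2 ^ (d + 2) : ℕ) : ℤ) := by push_cast; rfl
        have h2 : (2 : ℤ) ^ (d + 1 + f) = ((2 ^ (d + 1 + f) : ℕ) : ℤ) := by push_cast; rfl
        rw [h1, h2] at hSS
        have h3 : 2 ^ (d + 2) = 2 ^ (d + 1 + f) := by exact_mod_cast hSS
        have h4 := Nat.pow_right_injective (le_refl 2) h3
        omega
      · rw [hS0] at hS2
        have h5 : (0 : ℤ) < 2 ^ (d + 2) := by positivity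
        have h6 : (0 : ℤ) = 2 ^ (d + 2) := by simpa using hS2
        exact absurd h6 h5.ne
    have hcardZ : Nat.card (center G) = 2 := by rw [hf, hf2, pow_one]
    have hΦeq : frattini G = center G :=
      Subgroup.eq_of_le_of_card_ge hΦZ (by rw [hcardZ, hΦ])
    have hcomm_le : commutator G ≤ center G := hΦeq ▸ Cfsg.Agent.Lib.Transfer.commutator_le_frattini hG
    have hcomm_ne : commutator G ≠ ⊥ := by
      intro h
      have h1 : center G = ⊤ := (_root_.commutator_eq_bot_iff_center_eq_top G).mp h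
      have h2 : Nat.card G = 2 := by
        rw [← hcardZ, h1]
        exact (Nat.card_congr Subgroup.topEquiv.toEquiv).symm
      exact hnotall fun x => by
        rw [← h2]
        exact pow_card_eq_one'
    have hcomm_eq : commutator G = center G := by
      apply Subgroup.eq_of_le_of_card_ge hcomm_le
      rw [hcardZ]
      exact (Subgroup.one_lt_card_iff_ne_bot _).mpr hcomm_ne
    exact ⟨⟨hG, hΦeq, hcomm_eq⟩, hcardZ⟩

end Cfsg.Agent.S3772
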