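import Cfsg.Statements.S3774
-- import your own Cfsg.Agent.* helpers here
import Mathlib
import Cfsg.Agent.Lib.Basic.Nilpotent

set_option autoImplicit false
open Cfsg

namespace Cfsg.Agent.S3774

open Subgroup

/-- The last nontrivial power of `g`. -/
noncomputable def phi {G : Type*} [Group G] (g : G) : G := g ^ (orderOf g / 2)

theorem phi_map {G : Type*} [Group G] (a : MulAut G) (g : G) : phi (a g) = a (phi g) := by
  have h1 : orderOf (a g) = orderOf g := orderOf_injective a.toMonoidHom a.injective g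
  rw [phi, phi, h1, map_pow]

theorem phi_spec {G : Type*} [Group G] [Finite G] (hG : IsPGroup 2 G) (g : G) (hg : g ≠ 1) :
    phi g ≠ 1 ∧ (phi g) ^ 2 = 1 := by
  obtain ⟨k, hk⟩ := IsPGroup.iff_orderOf.mp hG g
  have hk0 : k ≠ 0 := by
    rintro rfl
    rw [pow_zero, orderOf_eq_one_iff] at hk
    exact hg hk
  obtain ⟨l, rfl⟩ := Nat.exists_eq_succ_of_ne_zero hk0
  have h1 : orderOf g / 2 = 2 ^ l := by
    rw [hk, Nat.succ_eq_add_one, pow_succ]
    simp
  constructor
  · rw [phi, h1]
    intro h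
    have := orderOf_dvd_of_pow_eq_one h
    rw [hk] at this
    have h2 := Nat.le_of_dvd (by positivity) this
    rw [Nat.succ_eq_add_one, pow_succ] at h2
    have h3 : 0 < 2 ^ l := by positivity
    omega
  · rw [phi, h1, ← pow_mul, ← pow_succ, ← Nat.succ_eq_add_one, ← hk, pow_orderOf_eq_one]

/-- Let G be a nontrivial finite 2-group whose automorphism group permutes the involutions of G transitively. Then every involution of G is central, so that the involutions together with 1 form the subgroup Ω₁(Z(G)), and if this subgroup has order q then |G| is a power of q. -/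
theorem result {G : Type*} [Group G] [Finite G] [Nontrivial G] (hG : IsPGroup 2 G) (htrans : ∀ x y : G, x ≠ 1 → x ^ 2 = 1 → y ≠ 1 → y ^ 2 = 1 → ∃ a : MulAut G, a x = y) : (∀ x : G, x ^ 2 = 1 → x ∈ Subgroup.center G) ∧ ∃ m : ℕ, Nat.card G = Nat.card {z : G // z ^ 2 = 1} ^ m := by
  classical
  haveI : Fintype G := Fintype.ofFinite G
  haveI : Group.IsNilpotent G := hG.isNilpotent
  -- a central involution
  obtain ⟨z₀, hz₀c, hz₀1, hz₀2⟩ : ∃ z ∈ Subgroup.center G, z ≠ 1 ∧ z ^ 2 = 1 := by
    have h1 : Subgroup.center G ≠ ⊥ := by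
      have := Cfsg.Agent.Lib.Basic.normal_inf_center_ne_bot (⊤ : Subgroup G) (by
        exact top_ne_bot)
      simpa using this
    rcases Subgroup.bot_or_exists_ne_one (Subgroup.center G) with h2 | ⟨z, hz, hz1⟩
    · exact absurd h2 h1
    obtain ⟨h3, h4⟩ := phi_spec hG z hz1
    refine ⟨phi z, pow_mem hz _, h3, h4⟩
  have hcent : ∀ x : G, x ^ 2 = 1 → x ∈ Subgroup.center G := by
    intro x hx
    by_cases hx1 : x = 1
    · exact hx1 ▸ one_mem _
    obtain ⟨a, rfl⟩ := htrans z₀ x hz₀1 hz₀2 hx1 hx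
    rw [Subgroup.mem_center_iff]
    intro g
    have h1 := Subgroup.mem_center_iff.mp hz₀c (a⁻¹ g)
    have h2 := congrArg a h1
    simpa using h2
  refine ⟨hcent, ?_⟩
  -- the subgroup of elements of order at most two
  let N : Subgroup G :=
    { carrier := {x | x ^ 2 = 1}
      mul_mem' := by
        intro x y hx hy
        have hc : Commute x y := Subgroup.mem_center_iff.mp (hcent x hx) y |>.symm
        show (x * y) ^ 2 = 1
        rw [hc.mul_pow, show x ^ 2 = 1 from hx, show y ^ 2 = 1 from hy, one_mul]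
      one_mem' := by simp
      inv_mem' := by
        intro x hx
        show x⁻¹ ^ 2 = 1
        rw [inv_pow, show x ^ 2 = 1 from hx, inv_one] }
  have hNcard : Nat.card {z : G // z ^ 2 = 1} = Nat.card N := rfl
  obtain ⟨a, ha⟩ := IsPGroup.iff_card.mp (hG.to_subgroup N)
  obtain ⟨n, hn⟩ := IsPGroup.iff_card.mp hG
  rw [hNcard, ha, hn]
  -- fibers
  let S : Finset G := Finset.univ.erase 1
  let I : Finset G := (Finset.univ.filter (fun x : G => x ^ 2 = 1)).erase 1
  have hSI : ∀ g ∈ S, phi g ∈ I := by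
    intro g hg
    obtain ⟨h1, h2⟩ := phi_spec hG g (Finset.ne_of_mem_erase hg)
    simp [I, h1, h2]
  have hfib : ∀ x ∈ I, ∀ y ∈ I, (S.filter (fun g => phi g = x)).card ≤ (S.filter (fun g => phi g = y)).card := by
    intro x hx y hy
    have hx1 : x ≠ 1 := Finset.ne_of_mem_erase hx
    have hy1 : y ≠ 1 := Finset.ne_of_mem_erase hy
    have hx2 : x ^ 2 = 1 := by simpa using (Finset.mem_of_mem_erase hx)
    have hy2 : y ^ 2 = 1 := by simpa using (Finset.mem_of_mem_erase hy)
    obtain ⟨b, hb⟩ := htrans x y hx1 hx2 hy1 hy2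
    apply Finset.card_le_card_of_injOn b
    · intro g hg
      have hg' := Finset.mem_filter.mp hg
      simp only [S, Finset.coe_filter, Set.mem_setOf_eq, Finset.mem_erase, Finset.mem_univ, and_true]
      refine ⟨?_, ?_⟩
      · intro h
        have : g = 1 := by simpa using h
        exact (Finset.ne_of_mem_erase hg'.1) this
      · rw [phi_map, hg'.2, hb]
    · exact b.injective.injOn
  have hcardS : S.card = 2 ^ n - 1 := by
    rw [Finset.card_erase_of_mem (Finset.mem_univ _), Finset.card_univ, ← Nat.card_eq_fintype_card, hn]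
  have hcardI : I.card = 2 ^ a - 1 := by
    rw [Finset.card_erase_of_mem (by simp), ← ha, ← hNcard, Nat.card_eq_fintype_card, Fintype.card_subtype]
  have hdvd : (2 ^ a - 1) ∣ (2 ^ n - 1) := by
    rw [← hcardI, ← hcardS]
    have hz₀I : z₀ ∈ I := by simp [I, hz₀1, hz₀2]
    have h1 := Finset.card_eq_sum_card_fiberwise hSI
    rw [h1, Finset.sum_const_nat (m := (S.filter (fun g => phi g = z₀)).card)]
    · exact dvd_mul_right _ _
    · intro x hx
      exact le_antisymm (hfib x hx z₀ hz₀I) (hfib z₀ hz₀I x hx)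
  have ha0 : a ≠ 0 := by
    rintro rfl
    have h1 : Nat.card N = 1 := by simpa using ha
    have h2 : z₀ ∈ N := hz₀2
    have := (Subgroup.card_eq_one.mp h1)
    rw [this, mem_bot] at h2
    exact hz₀1 h2
  have hgcd := Nat.pow_sub_one_gcd_pow_sub_one 2 a n
  rw [Nat.gcd_eq_left hdvd] at hgcd
  have h3 : 2 ^ a = 2 ^ Nat.gcd a n := by
    have h4 : 1 ≤ 2 ^ a := Nat.one_le_two_pow
    have h5 : 1 ≤ 2 ^ Nat.gcd a n := Nat.one_le_two_pow
    omega
  have h4 : a = Nat.gcd a n := Nat.pow_right_injective (le_refl 2) h3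
  have h5 : a ∣ n := by
    rw [h4]
    exact Nat.gcd_dvd_right a n
  obtain ⟨m, rfl⟩ := h5
  exact ⟨m, by rw [pow_mul]⟩

end Cfsg.Agent.S3774
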