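import Cfsg.Statements.S3775
-- import your own Cfsg.Agent.* helpers here
import Mathlib

set_option autoImplicit false
open Cfsg

namespace Cfsg.Agent.S3775

open Subgroup

noncomputable def toEndAux {p : ℕ} {N' : Type*} [CommGroup N'] [Module (ZMod p) (Additive N')]
    (f : N' →* N') : Module.End (ZMod p) (Additive N') :=
  AddMonoidHom.toZModLinearMap p (MonoidHom.toAdditive f)

theorem toEndAux_apply {p : ℕ} {N' : Type*} [CommGroup N'] [Module (ZMod p) (Additive N')]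
    (f : N' →* N') (v : Additive N') : toEndAux (p := p) f v = Additive.ofMul (f v.toMul) := rfl

theorem maschke_aux {E X : Type*} [CommGroup E] [Group X] [Finite X] {p : ℕ} [hp : Fact p.Prime]
    [Module (ZMod p) (Additive E)] (hX : ¬ p ∣ Nat.card X) (ψ : X → E →* E) (h1 : ∀ e, ψ 1 e = e)
    (hm : ∀ a b e, ψ (a * b) e = ψ a (ψ b e)) (F : Subgroup E) (hF : ∀ x, ∀ f ∈ F, ψ x f ∈ F) :
    ∃ F' : Subgroup E, (∀ x, ∀ f ∈ F', ψ x f ∈ F') ∧ F ⊓ F' = ⊥ ∧ F ⊔ F' = ⊤ := by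
  classical
  let ρ : Representation (ZMod p) X (Additive E) :=
    { toFun := fun x => toEndAux (ψ x)
      map_one' := by
        apply LinearMap.ext
        intro v
        rw [toEndAux_apply, h1]
        rfl
      map_mul' := fun a b => by
        apply LinearMap.ext
        intro v
        rw [toEndAux_apply, hm]
        rfl }
  haveI : NeZero ((Nat.card X : ℕ) : ZMod p) := ⟨by rwa [Ne, ZMod.natCast_eq_zero_iff]⟩
  let S₀ : Submodule (ZMod p) (Additive E) := AddSubgroup.toZModSubmodule p (Subgroup.toAddSubgroup F)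
  have hS₀ : ∀ e : E, Additive.ofMul e ∈ S₀ ↔ e ∈ F := fun e => Iff.rfl
  let S : Subrepresentation ρ := ⟨S₀, by
    intro g v hv
    exact hF g v.toMul hv⟩
  obtain ⟨T, hT⟩ := exists_isCompl S
  have hdis : S₀ ⊓ T.toSubmodule = ⊥ := by
    have := congrArg Subrepresentation.toSubmodule hT.inf_eq_bot
    exact this
  have hcod : S₀ ⊔ T.toSubmodule = ⊤ := by
    have := congrArg Subrepresentation.toSubmodule hT.sup_eq_top
    exact this
  refine ⟨{ carrier := {e | Additive.ofMul e ∈ T.toSubmodule}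
            mul_mem' := fun {a b} ha hb => T.toSubmodule.add_mem ha hb
            one_mem' := T.toSubmodule.zero_mem
            inv_mem' := fun {a} ha => T.toSubmodule.neg_mem ha }, ?_, ?_, ?_⟩
  · intro x f hf
    exact T.apply_mem_toSubmodule x hf
  · rw [eq_bot_iff]
    rintro e ⟨he1, he2⟩
    have h3 : Additive.ofMul e ∈ S₀ ⊓ T.toSubmodule := ⟨he1, he2⟩
    rw [hdis, Submodule.mem_bot] at h3
    exact h3
  · rw [eq_top_iff]
    intro e _
    have h3 : Additive.ofMul e ∈ S₀ ⊔ T.toSubmodule := by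
      rw [hcod]
      exact Submodule.mem_top
    obtain ⟨a, ha, b, hb, hab⟩ := Submodule.mem_sup.mp h3
    rw [Subgroup.mem_sup]
    exact ⟨a.toMul, ha, b.toMul, hb, hab⟩

theorem maschke_mul {E X : Type*} [CommGroup E] [Group X] [Finite X] {p : ℕ} [hp : Fact p.Prime]
    (hexp : ∀ e : E, e ^ p = 1) (hX : ¬ p ∣ Nat.card X) (ψ : X → E →* E) (h1 : ∀ e, ψ 1 e = e)
    (hm : ∀ a b e, ψ (a * b) e = ψ a (ψ b e)) (F : Subgroup E) (hF : ∀ x, ∀ f ∈ F, ψ x f ∈ F) :
    ∃ F' : Subgroup E, (∀ x, ∀ f ∈ F', ψ x f ∈ F') ∧ F ⊓ F' = ⊥ ∧ F ⊔ F' = ⊤ := by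
  letI : Module (ZMod p) (Additive E) := AddCommGroup.zmodModule (fun v => by
    show p • v = 0
    have := hexp v.toMul
    exact congrArg Additive.ofMul this)
  exact maschke_aux hX ψ h1 hm F hF

/-- invariant subgroups -/
def InvS {A : Type*} [CommGroup A] (X : Subgroup (MulAut A)) (B : Subgroup A) : Prop :=
  ∀ x ∈ X, ∀ b ∈ B, x b ∈ B

theorem mas {A : Type*} [CommGroup A] {p : ℕ} [hp : Fact p.Prime] (X : Subgroup (MulAut A)) [Finite X]
    (hX : ¬ p ∣ Nat.card X) (U U' V : Subgroup A) (hUU' : U ≤ U') (hU'V : U' ≤ V) (hUi : InvS X U)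
    (hU'i : InvS X U') (hVi : InvS X V) (hexp : ∀ v ∈ V, v ^ p ∈ U) :
    ∃ W, InvS X W ∧ U ≤ W ∧ W ≤ V ∧ U' ⊓ W = U ∧ U' ⊔ W = V := by
  classical
  let f : ↥X → (↥V →* ↥V) := fun x => ((x : MulAut A).toMonoidHom.comp V.subtype).codRestrict V (fun v => hVi x x.2 v v.2)
  have hf : ∀ (x : ↥X) (v : ↥V), ((f x v : ↥V) : A) = (x : MulAut A) v := fun _ _ => rfl
  let ψ : ↥X → ((↥V ⧸ U.subgroupOf V) →* (↥V ⧸ U.subgroupOf V)) := fun x =>
    QuotientGroup.map _ _ (f x) (by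
      intro v hv
      exact hUi x x.2 v hv)
  have hψ : ∀ (x : ↥X) (v : ↥V), ψ x (QuotientGroup.mk v) = QuotientGroup.mk (f x v) := fun _ _ => rfl
  have hexpE : ∀ e : ↥V ⧸ U.subgroupOf V, e ^ p = 1 := by
    intro e
    obtain ⟨v, rfl⟩ := QuotientGroup.mk_surjective e
    rw [← QuotientGroup.mk_pow, QuotientGroup.eq_one_iff]
    exact hexp v v.2
  obtain ⟨F', hF'i, hF'1, hF'2⟩ := maschke_mul hexpE hX ψ
    (by
      intro e
      obtain ⟨v, rfl⟩ := QuotientGroup.mk_surjective e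
      rw [hψ]
      congr 1)
    (by
      intro a b e
      obtain ⟨v, rfl⟩ := QuotientGroup.mk_surjective e
      rw [hψ, hψ, hψ]
      congr 1)
    ((U'.subgroupOf V).map (QuotientGroup.mk' (U.subgroupOf V)))
    (by
      rintro x _ ⟨v, hv, rfl⟩
      refine ⟨f x v, hU'i x x.2 v hv, rfl⟩)
  have hker : ∀ v : ↥V, (v : A) ∈ U → QuotientGroup.mk' (U.subgroupOf V) v = 1 :=
    fun v hv => (QuotientGroup.eq_one_iff v).mpr hv
  refine ⟨(F'.comap (QuotientGroup.mk' (U.subgroupOf V))).map V.subtype, ?_, ?_, map_subtype_le _, ?_, ?_⟩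
  · rintro x hx _ ⟨v, hv, rfl⟩
    refine ⟨f ⟨x, hx⟩ v, ?_, rfl⟩
    exact hF'i ⟨x, hx⟩ _ hv
  · intro u hu
    refine ⟨⟨u, hU'V (hUU' hu)⟩, ?_, rfl⟩
    show QuotientGroup.mk' (U.subgroupOf V) ⟨u, hU'V (hUU' hu)⟩ ∈ F'
    rw [hker _ hu]
    exact one_mem _
  · apply le_antisymm
    · rintro y ⟨hy1, v, hv, rfl⟩
      have h1 : QuotientGroup.mk' (U.subgroupOf V) v ∈ ((U'.subgroupOf V).map (QuotientGroup.mk' (U.subgroupOf V))) ⊓ F' :=
        ⟨⟨v, hy1, rfl⟩, hv⟩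
      rw [hF'1, Subgroup.mem_bot] at h1
      have h2 : v ∈ U.subgroupOf V := (QuotientGroup.eq_one_iff v).mp h1
      exact h2
    · intro u hu
      refine ⟨hUU' hu, ⟨u, hU'V (hUU' hu)⟩, ?_, rfl⟩
      show QuotientGroup.mk' (U.subgroupOf V) ⟨u, hU'V (hUU' hu)⟩ ∈ F'
      rw [hker _ hu]
      exact one_mem _
  · apply le_antisymm
    · exact sup_le hU'V (map_subtype_le _)
    · intro v hv
      have h1 : QuotientGroup.mk' (U.subgroupOf V) ⟨v, hv⟩ ∈ ((U'.subgroupOf V).map (QuotientGroup.mk' (U.subgroupOf V))) ⊔ F' := by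
        rw [hF'2]
        exact mem_top _
      obtain ⟨_, ⟨u', hu', rfl⟩, f', hf', he⟩ := Subgroup.mem_sup.mp h1
      obtain ⟨w, hw⟩ := QuotientGroup.mk'_surjective (U.subgroupOf V) f'
      have hwF : w ∈ F'.comap (QuotientGroup.mk' (U.subgroupOf V)) := by
        rw [Subgroup.mem_comap, hw]
        exact hf'
      have h2 : QuotientGroup.mk' (U.subgroupOf V) (u' * w) = QuotientGroup.mk' (U.subgroupOf V) ⟨v, hv⟩ := by
        rw [map_mul, hw, he]
      rw [QuotientGroup.mk'_apply, QuotientGroup.mk'_apply, QuotientGroup.eq] at h2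
      have h3 : (((u' * w)⁻¹ * ⟨v, hv⟩ : ↥V) : A) ∈ U := h2
      have h4 : v = (u' : A) * (w : A) * (((u' * w)⁻¹ * ⟨v, hv⟩ : ↥V) : A) := by
        simp only [Subgroup.coe_mul, mul_inv_rev, Subgroup.coe_inv]
        group
      rw [h4]
      apply Subgroup.mul_mem
      · apply Subgroup.mul_mem
        · exact (le_sup_left : U' ≤ _) hu'
        · exact (le_sup_right : _ ≤ U' ⊔ _) ⟨w, hwF, rfl⟩
      · exact (le_sup_left : U' ≤ _) (hUU' h3)

section main
variable {A : Type*} [CommGroup A]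

theorem invS_of_map {X : Subgroup (MulAut A)} {B : Subgroup A} (h : ∀ x ∈ X, B.map x.toMonoidHom = B) : InvS X B := by
  intro x hx b hb
  rw [← h x hx]
  exact ⟨b, hb, rfl⟩

theorem map_of_invS {X : Subgroup (MulAut A)} {B : Subgroup A} (h : InvS X B) : ∀ x ∈ X, B.map x.toMonoidHom = B := by
  intro x hx
  apply le_antisymm
  · rintro _ ⟨b, hb, rfl⟩
    exact h x hx b hb
  · intro b hb
    refine ⟨x⁻¹ b, h x⁻¹ (X.inv_mem hx) b hb, ?_⟩
    show x (x⁻¹ b) = b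
    simp

/-- elements of order dividing `p` -/
def om (p : ℕ) (A : Type*) [CommGroup A] : Subgroup A := (powMonoidHom p : A →* A).ker

theorem mem_om {p : ℕ} {a : A} : a ∈ om p A ↔ a ^ p = 1 := Iff.rfl

/-- the subgroup of `p`-th powers -/
def pw (p : ℕ) (S : Subgroup A) : Subgroup A := S.map (powMonoidHom p)

theorem invS_bot (X : Subgroup (MulAut A)) : InvS X (⊥ : Subgroup A) := by
  intro x _ b hb
  rw [Subgroup.mem_bot] at hb ⊢
  rw [hb, map_one]

theorem invS_inf {X : Subgroup (MulAut A)} {B C : Subgroup A} (hB : InvS X B) (hC : InvS X C) : InvS X (B ⊓ C) :=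
  fun x hx b hb => ⟨hB x hx b hb.1, hC x hx b hb.2⟩

theorem invS_sup {X : Subgroup (MulAut A)} {B C : Subgroup A} (hB : InvS X B) (hC : InvS X C) : InvS X (B ⊔ C) := by
  intro x hx b hb
  obtain ⟨y, hy, z, hz, rfl⟩ := Subgroup.mem_sup.mp hb
  rw [map_mul]
  exact Subgroup.mul_mem_sup (hB x hx y hy) (hC x hx z hz)

theorem invS_om {p : ℕ} (X : Subgroup (MulAut A)) : InvS X (om p A) := by
  intro x _ b hb
  rw [mem_om] at hb ⊢
  rw [← map_pow, hb, map_one]

theorem invS_pw {p : ℕ} {X : Subgroup (MulAut A)} {S : Subgroup A} (hS : InvS X S) : InvS X (pw p S) := by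
  rintro x hx _ ⟨s, hs, rfl⟩
  refine ⟨x s, hS x hx s hs, ?_⟩
  show (x s) ^ p = x (s ^ p)
  rw [map_pow]

theorem invS_pre {p : ℕ} {X : Subgroup (MulAut A)} {C : Subgroup A} (hC : InvS X C) :
    InvS X (C.comap (powMonoidHom p)) := by
  intro x hx b hb
  show (x b) ^ p ∈ C
  rw [← map_pow]
  exact hC x hx _ hb

/-- reducibility of the socle -/
def Red (X : Subgroup (MulAut A)) (p : ℕ) (S : Subgroup A) : Prop :=
  ∃ Y, InvS X Y ∧ Y ≤ S ⊓ om p A ∧ Y ≠ ⊥ ∧ Y ≠ S ⊓ om p A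

theorem decomp [Finite A] {p : ℕ} [hp : Fact p.Prime] (X : Subgroup (MulAut A)) [Finite X]
    (hX : ¬ p ∣ Nat.card X) : ∀ (n : ℕ) (S : Subgroup A), Nat.card S = n → InvS X S → Red X p S →
      ∃ S₁ S₂, InvS X S₁ ∧ InvS X S₂ ∧ S₁ ≠ ⊥ ∧ S₂ ≠ ⊥ ∧ S₁ ⊓ S₂ = ⊥ ∧ S₁ ⊔ S₂ = S := by
  intro n
  induction n using Nat.strong_induction_on with
  | _ n ih =>
  rintro S hn hS ⟨Y, hY, hYle, hY0, hYne⟩
  by_cases hT : pw p S = ⊥
  · have hSe : ∀ s ∈ S, s ^ p = 1 := by
      intro s hs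
      have : s ^ p ∈ pw p S := ⟨s, hs, rfl⟩
      rw [hT] at this
      exact this
    obtain ⟨W, hW, -, hWS, hinf, hsup⟩ := mas X hX ⊥ Y S bot_le (fun y hy => (hYle hy).1) (invS_bot X) hY hS (by
      intro v hv
      rw [hSe v hv]
      exact one_mem _)
    refine ⟨Y, W, hY, hW, hY0, ?_, hinf, hsup⟩
    rintro rfl
    apply hYne
    rw [sup_bot_eq] at hsup
    apply le_antisymm hYle
    rw [hsup]
    exact inf_le_left
  · have hTlt : Nat.card (pw p S) < Nat.card S := by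
      by_contra hge
      push Not at hge
      have hsurj := (powMonoidHom p : A →* A).subgroupMap_surjective S
      have hbij := Function.Surjective.bijective_of_nat_card_le hsurj hge
      have hY1 : ∃ y ∈ Y, y ≠ 1 := by
        by_contra hcon
        push Not at hcon
        apply hY0
        rw [eq_bot_iff]
        intro y hy
        exact hcon y hy
      obtain ⟨y, hy, hy1⟩ := hY1
      have hyS := hYle hy
      have h1 : (powMonoidHom p : A →* A).subgroupMap S ⟨y, hyS.1⟩ = (powMonoidHom p : A →* A).subgroupMap S 1 := by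
        apply Subtype.ext
        rw [map_one]
        exact hyS.2
      have h2 := hbij.1 h1
      exact hy1 (congrArg Subtype.val h2)
    have hTi := invS_pw (p := p) hS
    have hTS : pw p S ≤ S := by
      rintro _ ⟨s, hs, rfl⟩
      exact S.pow_mem hs p
    obtain ⟨B₁, C₁, hB₁, hC₁, hB₁0, hBC, hBCs, halt⟩ : ∃ B₁ C₁, InvS X B₁ ∧ InvS X C₁ ∧ B₁ ≠ ⊥ ∧ B₁ ⊓ C₁ = ⊥ ∧ B₁ ⊔ C₁ = pw p S ∧
        (C₁ ≠ ⊥ ∨ pw p S ⊓ om p A ≠ S ⊓ om p A) := by
      by_cases hred : Red X p (pw p S)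
      · obtain ⟨B, C, h1, h2, h3, h4, h5, h6⟩ := ih _ (hn ▸ hTlt) _ rfl hTi hred
        exact ⟨B, C, h1, h2, h3, h5, h6, Or.inl h4⟩
      · refine ⟨pw p S, ⊥, hTi, invS_bot X, hT, inf_bot_eq _, sup_bot_eq _, Or.inr ?_⟩
        intro heq
        exact hred ⟨Y, hY, heq ▸ hYle, hY0, heq ▸ hYne⟩
    have hB₁T : B₁ ≤ pw p S := hBCs ▸ le_sup_left
    have hC₁T : C₁ ≤ pw p S := hBCs ▸ le_sup_right
    have hB₁S := hB₁T.trans hTS
    have hC₁S := hC₁T.trans hTS
    -- first step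
    obtain ⟨Wc, hWc, hC₁Wc, hWcC₂, hinfc, hsupc⟩ := mas X hX C₁ (C₁ ⊔ (B₁ ⊓ om p A)) (S ⊓ C₁.comap (powMonoidHom p)) le_sup_left
      (by
        apply sup_le
        · intro c hc
          exact ⟨hC₁S hc, C₁.pow_mem hc p⟩
        · rintro q ⟨hq1, hq2⟩
          refine ⟨hB₁S hq1, ?_⟩
          show q ^ p ∈ C₁
          rw [show q ^ p = 1 from hq2]
          exact one_mem _)
      hC₁ (invS_sup hC₁ (invS_inf hB₁ (invS_om X))) (invS_inf hS (invS_pre hC₁)) (fun v hv => hv.2)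
    have h1 : Wc ⊓ (B₁ ⊓ om p A) = ⊥ := by
      rw [eq_bot_iff]
      rintro y ⟨hy1, hy2⟩
      have h3 : y ∈ (C₁ ⊔ (B₁ ⊓ om p A)) ⊓ Wc := ⟨(le_sup_right : _ ≤ C₁ ⊔ _) hy2, hy1⟩
      rw [hinfc] at h3
      have h4 : y ∈ B₁ ⊓ C₁ := ⟨hy2.1, h3⟩
      rwa [hBC] at h4
    have h2 : ∀ z ∈ S ⊓ C₁.comap (powMonoidHom p), ∃ w ∈ Wc, ∃ q ∈ B₁ ⊓ om p A, w * q = z := by
      intro z hz
      rw [← hsupc] at hz
      obtain ⟨y, hy, w, hw, rfl⟩ := Subgroup.mem_sup.mp hz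
      obtain ⟨c, hc, q, hq, rfl⟩ := Subgroup.mem_sup.mp hy
      refine ⟨c * w, Wc.mul_mem (hC₁Wc hc) hw, q, hq, ?_⟩
      rw [mul_right_comm]
    have h3 : ∀ z ∈ S ⊓ om p A, ∃ w ∈ Wc ⊓ om p A, ∃ q ∈ B₁ ⊓ om p A, w * q = z := by
      rintro z ⟨hz1, hz2⟩
      obtain ⟨w, hw, q, hq, rfl⟩ := h2 z ⟨hz1, by
        show z ^ p ∈ C₁
        rw [show z ^ p = 1 from hz2]
        exact one_mem _⟩
      refine ⟨w, ⟨hw, ?_⟩, q, hq, rfl⟩
      have h5 : (w * q) ^ p = 1 := hz2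
      have h6 : q ^ p = 1 := hq.2
      rw [mul_pow, h6, mul_one] at h5
      exact h5
    -- second step
    have hSomB : S ⊓ om p A ≤ S ⊓ B₁.comap (powMonoidHom p) := by
      rintro z ⟨hz1, hz2⟩
      refine ⟨hz1, ?_⟩
      show z ^ p ∈ B₁
      rw [show z ^ p = 1 from hz2]
      exact one_mem _
    have hWcS : Wc ≤ S := hWcC₂.trans inf_le_left
    obtain ⟨Wb, hWb, hB₁Wb, hWbB₂, hinfb, hsupb⟩ := mas X hX B₁ (B₁ ⊔ (Wc ⊓ om p A)) (S ⊓ B₁.comap (powMonoidHom p)) le_sup_left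
      (by
        apply sup_le
        · intro c hc
          exact ⟨hB₁S hc, B₁.pow_mem hc p⟩
        · rintro q ⟨hq1, hq2⟩
          refine ⟨hWcS hq1, ?_⟩
          show q ^ p ∈ B₁
          rw [show q ^ p = 1 from hq2]
          exact one_mem _)
      hB₁ (invS_sup hB₁ (invS_inf hWc (invS_om X))) (invS_inf hS (invS_pre hB₁)) (fun v hv => hv.2)
    have h4 : Wb ⊓ (Wc ⊓ om p A) = ⊥ := by
      rw [eq_bot_iff]
      rintro y ⟨hy1, hy2⟩
      have h5 : y ∈ (B₁ ⊔ (Wc ⊓ om p A)) ⊓ Wb := ⟨(le_sup_right : _ ≤ B₁ ⊔ _) hy2, hy1⟩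
      rw [hinfb] at h5
      have h6 : y ∈ Wc ⊓ (B₁ ⊓ om p A) := ⟨hy2.1, h5, hy2.2⟩
      rwa [h1] at h6
    have h5 : ∀ z ∈ S ⊓ B₁.comap (powMonoidHom p), ∃ w ∈ Wb, ∃ q ∈ Wc ⊓ om p A, w * q = z := by
      intro z hz
      rw [← hsupb] at hz
      obtain ⟨y, hy, w, hw, rfl⟩ := Subgroup.mem_sup.mp hz
      obtain ⟨c, hc, q, hq, rfl⟩ := Subgroup.mem_sup.mp hy
      refine ⟨c * w, Wb.mul_mem (hB₁Wb hc) hw, q, hq, ?_⟩
      rw [mul_right_comm]
    have hWbS : Wb ≤ S := hWbB₂.trans inf_le_left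
    refine ⟨Wb, Wc, hWb, hWc, ?_, ?_, ?_, ?_⟩
    · intro h
      apply hB₁0
      rw [h] at hB₁Wb
      exact le_bot_iff.mp hB₁Wb
    · intro h
      rcases halt with h6 | h6
      · apply h6
        rw [h] at hC₁Wc
        exact le_bot_iff.mp hC₁Wc
      · apply h6
        apply le_antisymm
        · exact inf_le_inf_right _ hTS
        · intro z hz
          obtain ⟨w, hw, q, hq, rfl⟩ := h3 z hz
          have hw1 : w = 1 := by
            have := hw.1
            rw [h] at this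
            exact this
          rw [hw1, one_mul]
          exact ⟨hB₁T hq.1, hq.2⟩
    · rw [eq_bot_iff]
      rintro y ⟨hy1, hy2⟩
      have h6 : y ^ p ∈ B₁ ⊓ C₁ := ⟨(hWbB₂ hy1).2, (hWcC₂ hy2).2⟩
      rw [hBC] at h6
      have h7 : y ^ p = 1 := h6
      have h8 : y ∈ Wb ⊓ (Wc ⊓ om p A) := ⟨hy1, hy2, h7⟩
      rwa [h4] at h8
    · apply le_antisymm (sup_le hWbS hWcS)
      intro a ha
      have h6 : a ^ p ∈ B₁ ⊔ C₁ := by
        rw [hBCs]
        exact ⟨a, ha, rfl⟩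
      obtain ⟨b, hb, c, hc, hbc⟩ := Subgroup.mem_sup.mp h6
      obtain ⟨s, hs, hsb⟩ := hB₁T hb
      have hsb' : s ^ p = b := hsb
      obtain ⟨s', hs', hsc⟩ := hC₁T hc
      have hsc' : s' ^ p = c := hsc
      obtain ⟨w, hw, q, hq, hwq⟩ := h5 s ⟨hs, by
        show s ^ p ∈ B₁
        rw [hsb']
        exact hb⟩
      obtain ⟨w', hw', q', hq', hwq'⟩ := h2 s' ⟨hs', by
        show s' ^ p ∈ C₁
        rw [hsc']
        exact hc⟩
      have hq1 : q ^ p = 1 := hq.2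
      have hq1' : q' ^ p = 1 := hq'.2
      have hb' : b = w ^ p := by
        rw [← hsb', ← hwq, mul_pow, hq1, mul_one]
      have hc' : c = w' ^ p := by
        rw [← hsc', ← hwq', mul_pow, hq1', mul_one]
      have h7 : (a * (w * w')⁻¹) ^ p = 1 := by
        rw [mul_pow, inv_pow, mul_pow, ← hb', ← hc', hbc, mul_inv_cancel]
      have h8 : a * (w * w')⁻¹ ∈ S ⊓ om p A :=
        ⟨S.mul_mem ha (S.inv_mem (S.mul_mem (hWbS hw) (hWcS hw'))), h7⟩
      obtain ⟨w₂, hw₂, q₂, hq₂, hwq₂⟩ := h3 _ h8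
      have h9 : a = (w * q₂) * (w' * w₂) := by
        have : a = (a * (w * w')⁻¹) * (w * w') := by group
        rw [this, ← hwq₂]
        ac_rfl
      rw [h9]
      exact Subgroup.mul_mem_sup (Wb.mul_mem hw (hB₁Wb hq₂.1)) (Wc.mul_mem hw' hw₂.1)

end main

/-- Let A be a finite abelian p-group and X a group of automorphisms of A of order prime to p. Call a subgroup of A invariant when every element of X maps it onto itself. Then the following are equivalent: (i) A is not the direct product of two nontrivial invariant subgroups; (ii) every invariant subgroup of A is one of the subgroups Ω_i(A) = {a : a^(p^i) = 1}; (iii) the subgroup Ω₁(A) of elements of order dividing p has no invariant subgroups other than 1 and itself. -/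
theorem result {A : Type*} [CommGroup A] [Finite A] {p : ℕ} [Fact p.Prime] (hA : IsPGroup p A) (X : Subgroup (MulAut A)) (hX : (Nat.card X).Coprime p) : ((¬ ∃ B C : Subgroup A, B ≠ ⊥ ∧ C ≠ ⊥ ∧ (∀ x ∈ X, B.map x.toMonoidHom = B) ∧ (∀ x ∈ X, C.map x.toMonoidHom = C) ∧ B ⊓ C = ⊥ ∧ B ⊔ C = ⊤) ↔ (∀ B : Subgroup A, (∀ x ∈ X, B.map x.toMonoidHom = B) → ∃ i : ℕ, ∀ a : A, a ∈ B ↔ a ^ p ^ i = 1)) ∧ ((∀ B : Subgroup A, (∀ x ∈ X, B.map x.toMonoidHom = B) → ∃ i : ℕ, ∀ a : A, a ∈ B ↔ a ^ p ^ i = 1) ↔ (∀ B : Subgroup A, (∀ x ∈ X, B.map x.toMonoidHom = B) → (∀ b ∈ B, b ^ p = 1) → B = ⊥ ∨ ∀ a : A, a ∈ B ↔ a ^ p = 1)) := by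
  classical
  haveI : Finite (MulAut A) := Finite.of_injective (fun x : MulAut A => (x : A → A)) DFunLike.coe_injective
  have hpp : p.Prime := Fact.out
  have hX' : ¬ p ∣ Nat.card X := by
    intro h
    exact hpp.one_lt.ne' (Nat.Coprime.eq_one_of_dvd hX.symm h)
  have h13 : ∀ (hP1 : ¬ ∃ B C : Subgroup A, B ≠ ⊥ ∧ C ≠ ⊥ ∧ (∀ x ∈ X, B.map x.toMonoidHom = B) ∧ (∀ x ∈ X, C.map x.toMonoidHom = C) ∧ B ⊓ C = ⊥ ∧ B ⊔ C = ⊤),
      (∀ B : Subgroup A, (∀ x ∈ X, B.map x.toMonoidHom = B) → (∀ b ∈ B, b ^ p = 1) → B = ⊥ ∨ ∀ a : A, a ∈ B ↔ a ^ p = 1) := by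
    intro hP1 B hB hBe
    by_contra hcon
    push Not at hcon
    obtain ⟨hB0, a, ha⟩ := hcon
    have hBi := invS_of_map hB
    have hne : B ≠ ⊤ ⊓ om p A := by
      intro h
      rcases ha with ⟨h1, h2⟩ | ⟨h1, h2⟩
      · exact h2 (hBe a h1)
      · apply h1
        rw [h]
        exact ⟨mem_top _, h2⟩
    obtain ⟨S₁, S₂, h1, h2, h3, h4, h5, h6⟩ := decomp X hX' _ ⊤ rfl (fun _ _ _ _ => mem_top _)
      ⟨B, hBi, fun b hb => ⟨mem_top _, hBe b hb⟩, hB0, hne⟩
    exact hP1 ⟨S₁, S₂, h3, h4, map_of_invS h1, map_of_invS h2, h5, h6⟩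
  have h32 : (∀ B : Subgroup A, (∀ x ∈ X, B.map x.toMonoidHom = B) → (∀ b ∈ B, b ^ p = 1) → B = ⊥ ∨ ∀ a : A, a ∈ B ↔ a ^ p = 1) →
      (∀ B : Subgroup A, (∀ x ∈ X, B.map x.toMonoidHom = B) → ∃ i : ℕ, ∀ a : A, a ∈ B ↔ a ^ p ^ i = 1) := by
    intro hP3
    have key : ∀ (i : ℕ) (B : Subgroup A), InvS X B → (∀ b ∈ B, b ^ p ^ i = 1) → ∃ j : ℕ, ∀ a : A, a ∈ B ↔ a ^ p ^ j = 1 := by
      intro i
      induction i with
      | zero =>
        intro B _ hBe
        refine ⟨0, fun a => ?_⟩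
        rw [pow_zero, pow_one]
        constructor
        · intro h
          have := hBe a h
          rwa [pow_zero, pow_one] at this
        · rintro rfl
          exact one_mem _
      | succ i ih =>
        intro B hB hBe
        by_cases hB0 : B = ⊥
        · subst hB0
          refine ⟨0, fun a => ?_⟩
          rw [pow_zero, pow_one]
          exact Subgroup.mem_bot
        have hom0 : B ⊓ om p A ≠ ⊥ := by
          -- a nontrivial `p`-group has an element of order `p`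
          have hnt : Nontrivial B := (Subgroup.nontrivial_iff_ne_bot B).mpr hB0
          obtain ⟨n, hn⟩ := IsPGroup.iff_card.mp (hA.to_subgroup B)
          have hd : p ∣ Nat.card B := by
            rw [hn]
            apply dvd_pow_self
            rintro rfl
            rw [pow_zero] at hn
            have h2 : (1 : ℕ) < Nat.card B := Finite.one_lt_card
            omega
          obtain ⟨y, hy⟩ := exists_prime_orderOf_dvd_card' p hd
          intro h
          have h3 : (y : A) ∈ B ⊓ om p A := ⟨y.2, by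
            show (y : A) ^ p = 1
            rw [← hy]
            exact congrArg Subtype.val (pow_orderOf_eq_one y)⟩
          rw [h, Subgroup.mem_bot] at h3
          have h4 : y = 1 := Subtype.ext h3
          rw [h4, orderOf_one] at hy
          exact hpp.one_lt.ne hy
        rcases hP3 _ (map_of_invS (invS_inf hB (invS_om X))) (fun b hb => hb.2) with h1 | h1
        · exact absurd h1 hom0
        have hOm : ∀ a : A, a ^ p = 1 → a ∈ B := fun a ha => ((h1 a).mpr ha).1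
        obtain ⟨j, hj⟩ := ih (pw p B) (invS_pw hB) (by
          rintro _ ⟨b, hb, rfl⟩
          show (b ^ p) ^ p ^ i = 1
          rw [← pow_mul, ← pow_succ']
          exact hBe b hb)
        refine ⟨j + 1, fun a => ?_⟩
        constructor
        · intro ha
          have h2 : a ^ p ∈ pw p B := ⟨a, ha, rfl⟩
          have h3 := (hj _).mp h2
          rwa [← pow_mul, ← pow_succ'] at h3
        · intro ha
          have h3 : a ^ p ∈ pw p B := by
            rw [hj, ← pow_mul, ← pow_succ']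
            exact ha
          obtain ⟨b, hb, hba⟩ := h3
          have hba' : b ^ p = a ^ p := hba
          have h4 : (a * b⁻¹) ^ p = 1 := by
            rw [mul_pow, inv_pow, hba', mul_inv_cancel]
          have h5 := hOm _ h4
          have h6 : a = (a * b⁻¹) * b := by group
          rw [h6]
          exact B.mul_mem h5 hb
    intro B hB
    obtain ⟨n, hn⟩ := IsPGroup.iff_card.mp hA
    exact key n B (invS_of_map hB) (fun b _ => by
      rw [← hn]
      exact pow_card_eq_one')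
  have h21 : (∀ B : Subgroup A, (∀ x ∈ X, B.map x.toMonoidHom = B) → ∃ i : ℕ, ∀ a : A, a ∈ B ↔ a ^ p ^ i = 1) →
      (¬ ∃ B C : Subgroup A, B ≠ ⊥ ∧ C ≠ ⊥ ∧ (∀ x ∈ X, B.map x.toMonoidHom = B) ∧ (∀ x ∈ X, C.map x.toMonoidHom = C) ∧ B ⊓ C = ⊥ ∧ B ⊔ C = ⊤) := by
    rintro hP2 ⟨B, C, hB0, hC0, hB, hC, hinf, -⟩
    obtain ⟨i, hi⟩ := hP2 B hB
    obtain ⟨j, hj⟩ := hP2 C hC
    rcases le_total i j with hij | hij
    · apply hB0
      rw [eq_bot_iff, ← hinf]
      intro b hb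
      refine ⟨hb, (hj b).mpr ?_⟩
      have h1 := (hi b).mp hb
      rw [← Nat.sub_add_cancel hij, pow_add, mul_comm, pow_mul, h1, one_pow]
    · apply hC0
      rw [eq_bot_iff, ← hinf]
      intro b hb
      refine ⟨(hi b).mpr ?_, hb⟩
      have h1 := (hj b).mp hb
      rw [← Nat.sub_add_cancel hij, pow_add, mul_comm, pow_mul, h1, one_pow]
  have h23 : (∀ B : Subgroup A, (∀ x ∈ X, B.map x.toMonoidHom = B) → ∃ i : ℕ, ∀ a : A, a ∈ B ↔ a ^ p ^ i = 1) →
      (∀ B : Subgroup A, (∀ x ∈ X, B.map x.toMonoidHom = B) → (∀ b ∈ B, b ^ p = 1) → B = ⊥ ∨ ∀ a : A, a ∈ B ↔ a ^ p = 1) := by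
    intro hP2 B hB hBe
    obtain ⟨i, hi⟩ := hP2 B hB
    cases i with
    | zero =>
      left
      rw [eq_bot_iff]
      intro a ha
      have := (hi a).mp ha
      rwa [pow_zero, pow_one] at this
    | succ i =>
      right
      intro a
      refine ⟨hBe a, fun h => (hi a).mpr ?_⟩
      rw [pow_succ', pow_mul, h, one_pow]
  exact ⟨⟨fun h => h32 (h13 h), h21⟩, ⟨h23, h32⟩⟩

end Cfsg.Agent.S3775
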