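import Cfsg.Statements.S3778
-- import your own Cfsg.Agent.* helpers here
import Mathlib

set_option autoImplicit false
open Cfsg

namespace Cfsg.Agent.S3778

open Subgroup
open scoped commutatorElement

theorem lcs_normal (G : Type*) [Group G] (i : ℕ) :
    ((⊤ : Subgroup G).lowerCentralSeries i).Normal := by
  induction i with
  | zero => rw [Subgroup.lowerCentralSeries_zero]; infer_instance
  | succ n ih =>
    rw [Subgroup.lowerCentralSeries_succ]
    haveI := ih
    infer_instance

/-- The centralizer of `L i / L (i+2)`. -/
def Ci (G : Type*) [Group G] (i : ℕ) : Subgroup G :=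
  haveI := lcs_normal G (i + 2)
  (centralizer (((⊤ : Subgroup G).lowerCentralSeries i).map
    (QuotientGroup.mk' ((⊤ : Subgroup G).lowerCentralSeries (i + 2))) : Set _)).comap
      (QuotientGroup.mk' ((⊤ : Subgroup G).lowerCentralSeries (i + 2)))

theorem mem_Ci {G : Type*} [Group G] (i : ℕ) (x : G) :
    x ∈ Ci G i ↔ ∀ y ∈ (⊤ : Subgroup G).lowerCentralSeries i,
      ⁅y, x⁆ ∈ (⊤ : Subgroup G).lowerCentralSeries (i + 2) := by
  haveI := lcs_normal G (i + 2)
  unfold Ci
  rw [Subgroup.mem_comap, mem_centralizer_iff]
  constructor
  · intro h y hy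
    have h1 := h _ (mem_map_of_mem _ hy)
    rw [← QuotientGroup.eq_one_iff, ← QuotientGroup.mk'_apply, map_commutatorElement,
      commutatorElement_eq_one_iff_mul_comm]
    exact h1
  · rintro h _ ⟨y, hy, rfl⟩
    have h1 := h y hy
    rw [← QuotientGroup.eq_one_iff, ← QuotientGroup.mk'_apply, map_commutatorElement,
      commutatorElement_eq_one_iff_mul_comm] at h1
    exact h1

theorem Ci_ne_top {G : Type*} [Group G] (c i : ℕ) (hi : i + 1 < c)
    (hc : ∀ j, j < c → (⊤ : Subgroup G).lowerCentralSeries j ≠ ⊥)
    (hc' : (⊤ : Subgroup G).lowerCentralSeries c = ⊥) : Ci G i ≠ ⊤ := by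
  intro h
  have h1 : (⊤ : Subgroup G).lowerCentralSeries (i + 1) ≤ (⊤ : Subgroup G).lowerCentralSeries (i + 2) := by
    rw [Subgroup.lowerCentralSeries_succ (n := i), Subgroup.commutator_le]
    intro y hy x _
    exact (mem_Ci i x).1 (h ▸ mem_top x) y hy
  have h2 : ∀ k, (⊤ : Subgroup G).lowerCentralSeries (i + 1 + k) = (⊤ : Subgroup G).lowerCentralSeries (i + 1) := by
    intro k
    induction k with
    | zero => rfl
    | succ k ih =>
      have h3 : (⊤ : Subgroup G).lowerCentralSeries (i + 1 + (k + 1)) =
          ⁅(⊤ : Subgroup G).lowerCentralSeries (i + 1 + k), ⊤⁆ := by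
        rw [← Subgroup.lowerCentralSeries_succ]
        rfl
      rw [h3, ih, ← Subgroup.lowerCentralSeries_succ]
      exact le_antisymm (Subgroup.lowerCentralSeries_antitone _ (Nat.le_succ _)) h1
  have h3 := h2 (c - (i + 1))
  rw [show i + 1 + (c - (i + 1)) = c by omega, hc'] at h3
  exact hc (i + 1) hi h3.symm

theorem card_mul_le_of_ne_top {G : Type*} [Group G] [Finite G] {p : ℕ} [Fact p.Prime]
    (hG : IsPGroup p G) (H K : Subgroup G) (hHK : H ≤ K) (hne : H ≠ K) :
    p * Nat.card H ≤ Nat.card K := by
  have hp : p.Prime := Fact.out
  obtain ⟨n, hn⟩ := IsPGroup.iff_card.mp (hG.to_subgroup K)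
  have hd := Subgroup.card_dvd_of_le hHK
  rw [hn] at hd
  obtain ⟨m, hm, hm'⟩ := (Nat.dvd_prime_pow hp).1 hd
  have hmn : m ≠ n := by
    rintro rfl
    apply hne
    apply Subgroup.eq_of_le_of_card_ge hHK
    rw [hn, hm']
  have hlt : m + 1 ≤ n := by omega
  rw [hm', hn, ← pow_succ']
  exact Nat.pow_le_pow_right hp.pos hlt

/-- If G is a finite p-group in which every conjugacy class has at most p^b elements (every element has centralizer of index at most p^b), then G is abelian when b = 0, and when b ≥ 1 its nilpotency class c satisfies (c − 1)(p − 1) < bp, that is c < bp/(p − 1) + 1, and hence c ≤ 2b. -/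
theorem result {G : Type*} [Group G] [Finite G] {p : ℕ} [Fact p.Prime] (hG : IsPGroup p G) (b : ℕ) (hb : ∀ x : G, (Subgroup.centralizer ({x} : Set G)).index ≤ p ^ b) : ∃ c : ℕ, (⊤ : Subgroup G).lowerCentralSeries c = ⊥ ∧ (b ≠ 0 → (c - 1) * (p - 1) < b * p ∧ c ≤ 2 * b) ∧ (b = 0 → c ≤ 1) := by
  classical
  have hp : p.Prime := Fact.out
  haveI hnilG : Group.IsNilpotent (⊤ : Subgroup G) := (hG.to_subgroup ⊤).isNilpotent
  have hex := (Subgroup.isNilpotent_iff_lowerCentralSeries (⊤ : Subgroup G)).1 hnilG
  obtain ⟨c, hcdef⟩ : ∃ c, c = Nat.find hex := ⟨_, rfl⟩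
  have hc : (⊤ : Subgroup G).lowerCentralSeries c = ⊥ := hcdef ▸ Nat.find_spec hex
  have hcmin : ∀ j, j < c → (⊤ : Subgroup G).lowerCentralSeries j ≠ ⊥ := by
    intro j hj
    rw [hcdef] at hj
    exact Nat.find_min hex hj
  refine ⟨c, hc, ?_, ?_⟩
  · intro hb0
    have hbpos : 0 < b := Nat.pos_of_ne_zero hb0
    have hmain : (c - 1) * (p - 1) < b * p := by
      by_cases hc2 : c < 2
      · have : c - 1 = 0 := by omega
        rw [this, zero_mul]
        exact Nat.mul_pos hbpos hp.pos
      push Not at hc2
      obtain ⟨a, ha⟩ : ∃ a, c = a + 2 := ⟨c - 2, by omega⟩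
      have hac : c - 1 = a + 1 := by omega
      rw [hac]
      haveI := Fintype.ofFinite G
      -- averaging
      have hx : ∃ x : G, p * ((Finset.range (a + 1)).filter (fun i => x ∈ Ci G i)).card < a + 1 := by
        by_contra hall
        push Not at hall
        have hsum : ∑ x : G, p * ((Finset.range (a + 1)).filter (fun i => x ∈ Ci G i)).card =
            ∑ i ∈ Finset.range (a + 1), p * Nat.card (Ci G i) := by
          simp_rw [Finset.card_filter, Finset.mul_sum]
          rw [Finset.sum_comm]
          refine Finset.sum_congr rfl fun i _ => ?_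
          rw [← Finset.mul_sum, Finset.sum_boole]
          simp [Nat.card_eq_fintype_card, Fintype.card_subtype]
        have hle : ∑ i ∈ Finset.range (a + 1), p * Nat.card (Ci G i) ≤ (a + 1) * Nat.card G := by
          calc ∑ i ∈ Finset.range (a + 1), p * Nat.card (Ci G i)
              ≤ ∑ _i ∈ Finset.range (a + 1), Nat.card G := by
                refine Finset.sum_le_sum fun i hi => ?_
                have hi' : i < a + 1 := Finset.mem_range.mp hi
                have h1 := card_mul_le_of_ne_top hG (Ci G i) ⊤ le_top
                  (Ci_ne_top c i (by omega) hcmin hc)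
                simpa using h1
            _ = _ := by simp
        have h1mem : ∀ i, (1 : G) ∈ Ci G i := fun i => one_mem _
        have hone : ((Finset.range (a + 1)).filter (fun i => (1 : G) ∈ Ci G i)).card = a + 1 := by
          rw [Finset.filter_true_of_mem fun i _ => h1mem i, Finset.card_range]
        have hlow : (a + 1) * Nat.card G < ∑ x : G, p * ((Finset.range (a + 1)).filter (fun i => x ∈ Ci G i)).card := by
          rw [← Finset.add_sum_erase _ _ (Finset.mem_univ (1 : G)), hone]
          have h2 : ∑ x ∈ Finset.univ.erase (1 : G), (a + 1) ≤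
              ∑ x ∈ Finset.univ.erase (1 : G), p * ((Finset.range (a + 1)).filter (fun i => x ∈ Ci G i)).card :=
            Finset.sum_le_sum fun x _ => hall x
          rw [Finset.sum_const, smul_eq_mul, Finset.card_erase_of_mem (Finset.mem_univ _),
            Finset.card_univ] at h2
          have hcardG : Fintype.card G ≥ 1 := Fintype.card_pos
          rw [Nat.card_eq_fintype_card]
          have h3 : (a + 1) * Fintype.card G = (Fintype.card G - 1) * (a + 1) + (a + 1) := by
            obtain ⟨t, ht⟩ : ∃ t, Fintype.card G = t + 1 := ⟨Fintype.card G - 1, by omega⟩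
            rw [ht]
            simp
            ring
          have h4 : 2 * (a + 1) ≤ p * (a + 1) := Nat.mul_le_mul_right _ hp.two_le
          omega
        rw [hsum] at hlow
        omega
      obtain ⟨x, hx⟩ := hx
      -- the chain
      obtain ⟨I, hI⟩ : ∃ I, I = (Finset.range (a + 1)).filter (fun i => x ∉ Ci G i) := ⟨_, rfl⟩
      have hcardI : ((Finset.range (a + 1)).filter (fun i => x ∈ Ci G i)).card + I.card = a + 1 := by
        rw [hI, Finset.card_filter_add_card_filter_not, Finset.card_range]
      obtain ⟨D, hD⟩ : ∃ D : Subgroup G, D = centralizer ({x} : Set G) := ⟨_, rfl⟩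
      have hchain : ∀ d j, j + d = c → Nat.card D * p ^ (I.filter (fun i => j ≤ i)).card ≤
          Nat.card (((⊤ : Subgroup G).lowerCentralSeries j ⊔ D : Subgroup G)) := by
        intro d
        induction d with
        | zero =>
          intro j hj
          have hjc : j = c := by omega
          subst hjc
          have h1 : I.filter (fun i => j ≤ i) = ∅ := by
            rw [hI]
            ext i
            simp only [Finset.mem_filter, Finset.mem_range, Finset.notMem_empty, iff_false]
            omega
          rw [h1, Finset.card_empty, pow_zero, mul_one]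
          exact Nat.card_le_card_of_injective _ (Subgroup.inclusion_injective (le_sup_right))
        | succ d ih =>
          intro j hj
          have h1 := ih (j + 1) (by omega)
          have hsubset : ((⊤ : Subgroup G).lowerCentralSeries (j + 1) ⊔ D : Subgroup G) ≤
              ((⊤ : Subgroup G).lowerCentralSeries j ⊔ D : Subgroup G) :=
            sup_le_sup_right (Subgroup.lowerCentralSeries_antitone _ (Nat.le_succ j)) D
          by_cases hjI : j ∈ I
          · have h2 : I.filter (fun i => j ≤ i) = insert j (I.filter (fun i => j + 1 ≤ i)) := by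
              ext i
              simp only [Finset.mem_filter, Finset.mem_insert]
              constructor
              · rintro ⟨h3, h4⟩
                by_cases h5 : i = j
                · exact Or.inl h5
                · exact Or.inr ⟨h3, by omega⟩
              · rintro (rfl | ⟨h3, h4⟩)
                · exact ⟨hjI, le_rfl⟩
                · exact ⟨h3, by omega⟩
            have h3 : j ∉ I.filter (fun i => j + 1 ≤ i) := by
              simp
            rw [h2, Finset.card_insert_of_notMem h3, pow_succ]
            have hne : ((⊤ : Subgroup G).lowerCentralSeries (j + 1) ⊔ D : Subgroup G) ≠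
                ((⊤ : Subgroup G).lowerCentralSeries j ⊔ D : Subgroup G) := by
              intro heq
              rw [hI, Finset.mem_filter] at hjI
              apply hjI.2
              rw [mem_Ci]
              intro y hy
              have hy' : y ∈ ((⊤ : Subgroup G).lowerCentralSeries (j + 1) ⊔ D : Subgroup G) := by
                rw [heq]
                exact mem_sup_left hy
              haveI := lcs_normal G (j + 1)
              obtain ⟨u, hu, d', hd', rfl⟩ := (Subgroup.mem_sup_of_normal_left).mp hy'
              have hd'c : d' * x = x * d' := by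
                rw [hD] at hd'
                exact (mem_centralizer_singleton_iff.mp hd')
              have h5 : ⁅u * d', x⁆ = ⁅u, x⁆ := by
                rw [commutatorElement_def, commutatorElement_def]
                calc u * d' * x * (u * d')⁻¹ * x⁻¹ = u * (d' * x) * d'⁻¹ * u⁻¹ * x⁻¹ := by group
                  _ = u * (x * d') * d'⁻¹ * u⁻¹ * x⁻¹ := by rw [hd'c]
                  _ = _ := by group
              rw [h5]
              rw [show j + 2 = j + 1 + 1 by rfl, Subgroup.lowerCentralSeries_succ (n := j + 1)]
              exact Subgroup.commutator_mem_commutator hu (mem_top x)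
            have h4 := card_mul_le_of_ne_top hG _ _ hsubset hne
            calc Nat.card D * (p ^ (I.filter (fun i => j + 1 ≤ i)).card * p)
                = (Nat.card D * p ^ (I.filter (fun i => j + 1 ≤ i)).card) * p := by ring
              _ ≤ Nat.card ((⊤ : Subgroup G).lowerCentralSeries (j + 1) ⊔ D : Subgroup G) * p :=
                  Nat.mul_le_mul_right _ h1
              _ = p * Nat.card ((⊤ : Subgroup G).lowerCentralSeries (j + 1) ⊔ D : Subgroup G) := by ring
              _ ≤ _ := h4
          · have h2 : I.filter (fun i => j ≤ i) = I.filter (fun i => j + 1 ≤ i) := by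
              ext i
              simp only [Finset.mem_filter]
              constructor
              · rintro ⟨h3, h4⟩
                refine ⟨h3, ?_⟩
                by_contra h5
                have h6 : i = j := by omega
                exact hjI (h6 ▸ h3)
              · rintro ⟨h3, h4⟩
                exact ⟨h3, by omega⟩
            rw [h2]
            exact h1.trans (Subgroup.card_le_of_le hsubset)
      have h0 := hchain c 0 (by omega)
      rw [Subgroup.lowerCentralSeries_zero, top_sup_eq] at h0
      have hfilter0 : I.filter (fun i => 0 ≤ i) = I := Finset.filter_true_of_mem fun i _ => Nat.zero_le i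
      rw [hfilter0, Subgroup.card_top] at h0
      have hidx := hb x
      rw [← hD] at hidx
      have hcard : Nat.card D * D.index = Nat.card G := Subgroup.card_mul_index D
      have hDpos : 0 < Nat.card D := Nat.card_pos
      have hpow : p ^ I.card ≤ D.index := by
        rw [← hcard] at h0
        exact Nat.le_of_mul_le_mul_left h0 hDpos
      have hIb : I.card ≤ b := by
        have h1 := hpow.trans hidx
        exact (Nat.pow_le_pow_iff_right hp.one_lt).1 h1
      obtain ⟨q, hq⟩ : ∃ q, p = q + 1 := ⟨p - 1, by have := hp.pos; omega⟩
      obtain ⟨t, ht⟩ : ∃ t, t = ((Finset.range (a + 1)).filter (fun i => x ∈ Ci G i)).card := ⟨_, rfl⟩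
      rw [← ht] at hcardI hx
      have hq1 : p - 1 = q := by omega
      rw [hq1]
      rw [hq] at hx ⊢
      have h5 : (a + 1) * (q + 1) = (t + I.card) * (q + 1) := by rw [hcardI]
      have h6 : I.card * (q + 1) ≤ b * (q + 1) := Nat.mul_le_mul_right _ hIb
      nlinarith
    refine ⟨hmain, ?_⟩
    have h2p := hp.two_le
    obtain ⟨q, hq⟩ : ∃ q, p = q + 2 := ⟨p - 2, by omega⟩
    have hq1 : p - 1 = q + 1 := by omega
    rw [hq1, hq] at hmain
    by_contra hcon
    push Not at hcon
    have h3 : 2 * b ≤ c - 1 := by omega
    have h4 : 2 * b * (q + 1) ≤ (c - 1) * (q + 1) := Nat.mul_le_mul_right _ h3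
    nlinarith
  · intro hb0
    subst hb0
    rw [pow_zero] at hb
    have hcomm : (⊤ : Subgroup G).lowerCentralSeries 1 = ⊥ := by
      rw [show (1 : ℕ) = 0 + 1 by rfl, Subgroup.lowerCentralSeries_succ, Subgroup.lowerCentralSeries_zero, eq_bot_iff,
        Subgroup.commutator_le]
      intro x _ y _
      have h1 := hb y
      have h2 : (centralizer ({y} : Set G)).index = 1 := by
        have h3 : (centralizer ({y} : Set G)).index ≠ 0 := Subgroup.index_ne_zero_of_finite
        omega
      have h3 := Subgroup.index_eq_one.mp h2
      have h4 : x ∈ centralizer ({y} : Set G) := h3 ▸ mem_top x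
      rw [mem_centralizer_singleton_iff] at h4
      rw [Subgroup.mem_bot, commutatorElement_eq_one_iff_mul_comm]
      exact h4
    by_contra hcon
    push Not at hcon
    exact hcmin 1 hcon hcomm

end Cfsg.Agent.S3778
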