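import Cfsg.Statements.S3780
-- import your own Cfsg.Agent.* helpers here
import Mathlib
import Cfsg.Agent.Lib.Basic.Solv2
import Cfsg.Agent.Lib.Transfer.Frattini

set_option autoImplicit false
open Cfsg

namespace Cfsg.Agent.S3780

open Subgroup

/-- Kernels are submultiplicative in cardinality. -/
theorem card_ker_comp_le {A : Type*} [AddCommGroup A] [Finite A] (f g : AddMonoid.End A) :
    Nat.card (AddMonoidHom.ker (g * f)) ≤ Nat.card (AddMonoidHom.ker f) * Nat.card (AddMonoidHom.ker g) := by
  classical
  -- restrict `f` to the kernel of `g * f`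
  let K := AddMonoidHom.ker (g * f)
  let r : K →+ AddMonoidHom.ker g :=
    { toFun := fun x => ⟨f x, x.2⟩
      map_zero' := by
        apply Subtype.ext
        simp
      map_add' := by
        intro x y
        apply Subtype.ext
        simp }
  have h1 := AddSubgroup.card_mul_index (AddMonoidHom.ker r)
  rw [AddSubgroup.index_ker] at h1
  have h2 : Nat.card (AddMonoidHom.ker r) ≤ Nat.card (AddMonoidHom.ker f) := by
    let j : AddMonoidHom.ker r → AddMonoidHom.ker f := fun x => ⟨x.1.1, by
      have h4 : r x.1 = 0 := x.2
      exact congrArg Subtype.val h4⟩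
    apply Nat.card_le_card_of_injective j
    intro x y hxy
    apply Subtype.ext
    apply Subtype.ext
    have h4 := congrArg Subtype.val hxy
    exact h4
  have h3 : Nat.card r.range ≤ Nat.card (AddMonoidHom.ker g) := AddSubgroup.card_le_card_addGroup _
  calc Nat.card K = Nat.card (AddMonoidHom.ker r) * Nat.card r.range := h1.symm
    _ ≤ _ := Nat.mul_le_mul h2 h3

theorem card_ker_pow_le {A : Type*} [AddCommGroup A] [Finite A] (T : AddMonoid.End A) (k : ℕ) :
    Nat.card (AddMonoidHom.ker (T ^ k)) ≤ Nat.card (AddMonoidHom.ker T) ^ k := by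
  induction k with
  | zero =>
    rw [pow_zero, pow_zero]
    have : AddMonoidHom.ker (1 : AddMonoid.End A) = ⊥ := by
      ext x
      exact Iff.rfl
    rw [this]
    simp
  | succ k ih =>
    rw [pow_succ, pow_succ]
    exact (card_ker_comp_le T (T ^ k)).trans (by
      rw [mul_comm]
      exact Nat.mul_le_mul_right _ ih)

/-- Counting the elements of a module annihilated by `p` on which `α ^ p = 1`. -/
theorem card_le_of_pow {A : Type*} [AddCommGroup A] [Finite A] {p : ℕ} (hp : p.Prime) (hA : ∀ a : A, p • a = 0)
    (α : AddMonoid.End A) (hα : α ^ p = 1) :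
    Nat.card A ≤ Nat.card (AddMonoidHom.ker (α - 1)) ^ p := by
  have hpz : (p : AddMonoid.End A) = 0 := by
    ext a
    simpa using hA a
  obtain ⟨r, hr⟩ := (Commute.one_right (α - 1)).exists_add_pow_prime_eq hp
  rw [sub_add_cancel, hα, one_pow, hpz] at hr
  simp only [zero_mul, add_zero] at hr
  have h0 : (α - 1) ^ p = 0 := by
    have : (1 : AddMonoid.End A) = (α - 1) ^ p + 1 := hr
    exact (add_eq_right.mp this.symm)
  have h1 := card_ker_pow_le (α - 1) p
  rw [h0] at h1
  refine le_trans ?_ h1
  have : AddMonoidHom.ker (0 : AddMonoid.End A) = ⊤ := by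
    ext x
    exact ⟨fun _ => trivial, fun _ => rfl⟩
  rw [this]
  exact (Nat.card_congr AddSubgroup.topEquiv.toEquiv).ge

/-- Let V be a finite abelian p-group and α an automorphism of V of order p whose fixed-point subgroup has order p^n. Then V can be generated by pn elements: some subset of V with at most pn elements generates V. -/
theorem result {V : Type*} [CommGroup V] [Finite V] {p : ℕ} [Fact p.Prime] (hV : IsPGroup p V) (α : MulAut V) (hα : orderOf α = p) (n : ℕ) (hfix : Nat.card {v : V // α v = v} = p ^ n) : ∃ S : Finset V, S.card ≤ p * n ∧ Subgroup.closure (S : Set V) = ⊤ := by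
  classical
  have hp : p.Prime := Fact.out
  -- the subgroup of elements of order at most `p`
  let Ω : Subgroup V := (powMonoidHom p : V →* V).ker
  have hΩ : ∀ x : V, x ∈ Ω ↔ x ^ p = 1 := fun x => MonoidHom.mem_ker
  -- the action on it
  let αΩ : Ω →* Ω :=
    { toFun := fun x => ⟨α x, by
        rw [hΩ, ← map_pow, (hΩ x).mp x.2, map_one]⟩
      map_one' := by
        apply Subtype.ext
        simp
      map_mul' := by
        intro x y
        apply Subtype.ext
        simp }
  let A := Additive Ω
  let αA : AddMonoid.End A := MonoidHom.toAdditive αΩ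
  have hpow : ∀ (k : ℕ) (x : Ω), ((αA ^ k) (Additive.ofMul x)).toMul.1 = (α ^ k) x.1 := by
    intro k
    induction k with
    | zero => intro x; simp
    | succ k ih =>
      intro x
      rw [AddMonoid.End.coe_pow, Function.iterate_succ_apply', ← AddMonoid.End.coe_pow, pow_succ', MulAut.mul_apply, ← ih x]
      rfl
  have hαp : αA ^ p = 1 := by
    refine AddMonoidHom.ext fun a => ?_
    apply Additive.toMul.injective
    apply Subtype.ext
    have h1 := hpow p (Additive.toMul a)
    have h2 : α ^ p = 1 := by
      rw [← hα]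
      exact pow_orderOf_eq_one α
    rw [h2, MulAut.one_apply] at h1
    exact h1
  have hA : ∀ a : A, p • a = 0 := by
    intro a
    apply Additive.toMul.injective
    apply Subtype.ext
    exact (hΩ _).mp (Additive.toMul a).2
  have h1 := card_le_of_pow hp hA αA hαp
  have h2 : Nat.card (AddMonoidHom.ker (αA - 1)) ≤ p ^ n := by
    rw [← hfix]
    let j : AddMonoidHom.ker (αA - 1) → {v : V // α v = v} := fun x => ⟨(Additive.toMul x.1).1, by
      have h3 := x.2
      rw [AddMonoidHom.mem_ker] at h3
      have h4 : αA x.1 = x.1 := by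
        have h5 : αA x.1 - x.1 = 0 := h3
        exact sub_eq_zero.mp h5
      exact congrArg (fun y : A => (Additive.toMul y).1) h4⟩
    apply Nat.card_le_card_of_injective j
    intro x y hxy
    apply Subtype.ext
    apply Additive.toMul.injective
    apply Subtype.ext
    have h4 := congrArg Subtype.val hxy
    exact h4
  have hcardΩ : Nat.card Ω ≤ p ^ (n * p) := by
    have h3 : Nat.card Ω = Nat.card A := rfl
    rw [h3, pow_mul]
    exact h1.trans (Nat.pow_le_pow_left h2 p)
  -- the Frattini subgroup has small index
  have hind : (frattini V).index ≤ Nat.card Ω := by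
    let φ : V →* V := powMonoidHom p
    have h4 : φ.range ≤ frattini V := by
      rintro _ ⟨x, rfl⟩
      exact Cfsg.Agent.Lib.Transfer.pow_mem_frattini hV x
    have h5 : (frattini V).index ∣ φ.range.index := Subgroup.index_dvd_of_le h4
    have h6 : φ.range.index = Nat.card Ω := by
      have h7 := Subgroup.card_mul_index φ.range
      have h8 := Subgroup.card_mul_index φ.ker
      rw [Subgroup.index_ker] at h8
      have h9 : 0 < Nat.card φ.range := Nat.card_pos
      have h10 : Nat.card φ.ker = Nat.card Ω := rfl
      rw [h10] at h8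
      rw [← h8, mul_comm] at h7
      exact Nat.eq_of_mul_eq_mul_right h9 h7
    rw [← h6]
    exact Nat.le_of_dvd (Nat.pos_of_ne_zero Subgroup.index_ne_zero_of_finite) h5
  obtain ⟨d, hd⟩ := hV.index (frattini V)
  have hdn : d ≤ n * p := by
    have h3 : p ^ d ≤ p ^ (n * p) := by
      rw [← hd]
      exact hind.trans hcardΩ
    exact (Nat.pow_le_pow_iff_right hp.one_lt).mp h3
  haveI : Fintype V := Fintype.ofFinite V
  obtain ⟨T, _, hT, hcl⟩ := (Cfsg.Agent.Lib.Basic.burnside_basis d hV hd).1 Finset.univ (by simp)
  exact ⟨T, by rw [hT, mul_comm]; exact hdn, hcl⟩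

end Cfsg.Agent.S3780
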