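import Cfsg.Statements.S3781
-- import your own Cfsg.Agent.* helpers here
import Mathlib
import Cfsg.Agent.Lib.Struct.Basic

set_option autoImplicit false
open Cfsg

namespace Cfsg.Agent.S3781

open Subgroup
open scoped commutatorElement

/-- Iterated commutators with the whole group. -/
def iterG {G : Type*} [Group G] (A : Subgroup G) : ℕ → Subgroup G
  | 0 => A
  | k + 1 => ⁅iterG A k, ⊤⁆

theorem iterG_succ' {G : Type*} [Group G] (A : Subgroup G) (k : ℕ) :
    iterG A (k + 1) = iterG ⁅A, ⊤⁆ k := by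
  induction k with
  | zero => rfl
  | succ k ih =>
    show ⁅iterG A (k + 1), ⊤⁆ = ⁅iterG ⁅A, ⊤⁆ k, ⊤⁆
    rw [ih]

theorem iterG_normal {G : Type*} [Group G] (A : Subgroup G) [hA : A.Normal] (k : ℕ) : (iterG A k).Normal := by
  induction k with
  | zero => exact hA
  | succ k ih =>
    haveI := ih
    show (⁅iterG A k, ⊤⁆ : Subgroup G).Normal
    infer_instance

theorem iterG_mono {G : Type*} [Group G] {A B : Subgroup G} (h : A ≤ B) (k : ℕ) : iterG A k ≤ iterG B k := by
  induction k with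
  | zero => exact h
  | succ k ih => exact commutator_mono ih le_rfl

theorem commutator_top_le_self {G : Type*} [Group G] (A : Subgroup G) [hA : A.Normal] : ⁅A, (⊤ : Subgroup G)⁆ ≤ A :=
  (commutator_le_left A ⊤)

theorem iterG_le {G : Type*} [Group G] (A : Subgroup G) [hA : A.Normal] (k : ℕ) : iterG A k ≤ A := by
  induction k with
  | zero => exact le_rfl
  | succ k ih =>
    haveI := iterG_normal A k
    exact (commutator_top_le_self _).trans ih

theorem comm_lcs_le {G : Type*} [Group G] (n : ℕ) : ∀ (A : Subgroup G) [A.Normal],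
    ⁅A, (⊤ : Subgroup G).lowerCentralSeries n⁆ ≤ iterG A (n + 1) := by
  induction n with
  | zero =>
    intro A _
    exact le_rfl
  | succ n ih =>
    intro A _
    haveI := iterG_normal A (n + 2)
    rw [Subgroup.lowerCentralSeries_succ, commutator_comm]
    apply Cfsg.Agent.Lib.Struct.three_subgroups
    · rw [commutator_comm ⊤ A]
      have h1 := ih (⁅A, (⊤ : Subgroup G)⁆)
      rw [← iterG_succ'] at h1
      exact h1
    · exact commutator_mono (ih A) le_rfl

theorem sup_comm_le {G : Type*} [Group G] (X B : Subgroup G) [hB : B.Normal] :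
    ⁅X ⊔ B, (⊤ : Subgroup G)⁆ ≤ ⁅X, (⊤ : Subgroup G)⁆ ⊔ B := by
  rw [commutator_le]
  intro a ha g _
  obtain ⟨x, hx, b, hb, rfl⟩ := mem_sup_of_normal_right.mp ha
  have h1 : ⁅x * b, g⁆ = (x * (b * g * b⁻¹ * g⁻¹) * x⁻¹) * (x * g * x⁻¹ * g⁻¹) := by
    rw [commutatorElement_def]
    group
  rw [h1]
  refine mul_mem (mem_sup_right ?_) (mem_sup_left ?_)
  · refine hB.conj_mem _ ?_ x
    have h2 : g * b⁻¹ * g⁻¹ ∈ B := hB.conj_mem _ (inv_mem hb) g
    rw [show b * g * b⁻¹ * g⁻¹ = b * (g * b⁻¹ * g⁻¹) by group]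
    exact mul_mem hb h2
  · exact commutator_mem_commutator hx (mem_top g)

theorem le_of_le_comm {G : Type*} [Group G] [Group.IsNilpotent G] (A B : Subgroup G) [hB : B.Normal]
    (h : A ≤ ⁅A, (⊤ : Subgroup G)⁆ ⊔ B) : A ≤ B := by
  have key : ∀ k : ℕ, A ≤ (⊤ : Subgroup G).lowerCentralSeries k ⊔ B := by
    intro k
    induction k with
    | zero => exact le_sup_of_le_left le_top
    | succ k ih =>
      refine h.trans (sup_le ?_ le_sup_right)
      refine (commutator_mono ih le_rfl).trans ((sup_comm_le _ _).trans ?_)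
      exact le_rfl
  obtain ⟨m, hm⟩ := Subgroup.nilpotent_iff_lowerCentralSeries.mp (inferInstance : Group.IsNilpotent G)
  have := key m
  rwa [hm, bot_sup_eq] at this

theorem iterG_le_of_relIndex {G : Type*} [Group G] [Finite G] {p : ℕ} [Fact p.Prime] (hG : IsPGroup p G)
    (k : ℕ) : ∀ (A B : Subgroup G) [A.Normal] [B.Normal], B ≤ A → B.relIndex A ≤ p ^ k → iterG A k ≤ B := by
  haveI : Group.IsNilpotent G := hG.isNilpotent
  have hp : p.Prime := Fact.out
  induction k with
  | zero =>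
    intro A B _ _ hBA h
    have h1 : B.relIndex A ≠ 0 := by
      obtain ⟨m, hm⟩ := (hG.to_subgroup A).index (B.subgroupOf A)
      have hm' : B.relIndex A = p ^ m := hm
      rw [hm']
      exact pow_ne_zero _ hp.ne_zero
    have h2 : B.relIndex A = 1 := by
      rw [pow_zero] at h
      omega
    exact relIndex_eq_one.mp h2
  | succ k ih =>
    intro A B _ _ hBA h
    by_cases hAB : A ≤ B
    · exact (iterG_le A _).trans hAB
    obtain ⟨A', hA'⟩ : ∃ A', A' = ⁅A, (⊤ : Subgroup G)⁆ ⊔ B := ⟨_, rfl⟩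
    haveI hA'n : A'.Normal := by
      rw [hA']
      exact Subgroup.sup_normal _ _
    have hBA' : B ≤ A' := hA' ▸ le_sup_right
    have hA'A : A' ≤ A := by
      rw [hA']
      exact sup_le (commutator_top_le_self A) hBA
    have hne : ¬ A ≤ A' := by
      intro h1
      rw [hA'] at h1
      exact hAB (le_of_le_comm A B h1)
    obtain ⟨m, hm⟩ := (hG.to_subgroup A).index (A'.subgroupOf A)
    have hm' : A'.relIndex A = p ^ m := hm
    have hm0 : m ≠ 0 := by
      rintro rfl
      rw [pow_zero] at hm'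
      exact hne (relIndex_eq_one.mp hm')
    have hpm : p ≤ A'.relIndex A := by
      rw [hm']
      calc p = p ^ 1 := (pow_one p).symm
        _ ≤ p ^ m := Nat.pow_le_pow_right hp.pos (by omega)
    have hmul := Subgroup.relIndex_mul_relIndex B A' A hBA' hA'A
    have hle : B.relIndex A' ≤ p ^ k := by
      have h3 : B.relIndex A' * p ≤ p ^ k * p := by
        calc B.relIndex A' * p ≤ B.relIndex A' * A'.relIndex A := Nat.mul_le_mul_left _ hpm
          _ = B.relIndex A := hmul
          _ ≤ p ^ (k + 1) := h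
          _ = p ^ k * p := pow_succ p k
      exact Nat.le_of_mul_le_mul_right h3 hp.pos
    have h4 := ih A' B hBA' hle
    rw [iterG_succ']
    refine (iterG_mono ?_ k).trans h4
    rw [hA']
    exact le_sup_left

theorem lcs_normal {G : Type*} [Group G] (N : Subgroup G) [hN : N.Normal] (k : ℕ) :
    (N.lowerCentralSeries k).Normal := by
  induction k with
  | zero => exact hN
  | succ k ih =>
    haveI := ih
    rw [Subgroup.lowerCentralSeries_succ]
    infer_instance

/-- Let G be a finite p-group and n ≥ 1, and write γ_1(G) = G, γ_{k+1}(G) = [γ_k(G), G], and likewise γ_k(N) for a subgroup N. Let N be a normal subgroup of G contained in γ_n(G). If i > 1 and γ_{i+1}(N) ≠ 1, then |γ_i(N) : γ_{i+1}(N)| ≥ p^n. -/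
theorem result {G : Type*} [Group G] [Finite G] {p : ℕ} [Fact p.Prime] (hG : IsPGroup p G) (n : ℕ) (hn : 1 ≤ n) (N : Subgroup G) [N.Normal] (hN : N ≤ (⊤ : Subgroup G).lowerCentralSeries (n - 1)) (i : ℕ) (hi : 1 < i) (hne : N.lowerCentralSeries i ≠ ⊥) : p ^ n ≤ (N.lowerCentralSeries i).relIndex (N.lowerCentralSeries (i - 1)) := by
  haveI : Group.IsNilpotent G := hG.isNilpotent
  have hp : p.Prime := Fact.out
  obtain ⟨j, rfl⟩ : ∃ j, i = j + 1 := ⟨i - 1, by omega⟩
  simp only [Nat.add_sub_cancel]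
  obtain ⟨A, hA⟩ : ∃ A, A = N.lowerCentralSeries j := ⟨_, rfl⟩
  obtain ⟨B, hB⟩ : ∃ B, B = N.lowerCentralSeries (j + 1) := ⟨_, rfl⟩
  rw [← hA, ← hB]
  rw [← hB] at hne
  haveI hAn : A.Normal := hA ▸ lcs_normal N j
  haveI hBn : B.Normal := hB ▸ lcs_normal N (j + 1)
  have hBA : B ≤ A := by
    rw [hA, hB]
    exact Subgroup.lowerCentralSeries_antitone N (Nat.le_succ j)
  by_contra hlt
  push Not at hlt
  obtain ⟨m, hm⟩ := (hG.to_subgroup A).index (B.subgroupOf A)
  have hm' : B.relIndex A = p ^ m := hm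
  rw [hm'] at hlt
  have hmn : m < n := (Nat.pow_lt_pow_iff_right hp.one_lt).mp hlt
  have hle : B.relIndex A ≤ p ^ (n - 1) := by
    rw [hm']
    exact Nat.pow_le_pow_right hp.pos (by omega)
  have h1 := iterG_le_of_relIndex hG (n - 1) A B hBA hle
  have h2 : B ≤ ⁅B, (⊤ : Subgroup G)⁆ ⊔ ⊥ := by
    rw [sup_bot_eq]
    calc B = ⁅A, N⁆ := by rw [hA, hB, Subgroup.lowerCentralSeries_succ]
      _ ≤ ⁅A, (⊤ : Subgroup G).lowerCentralSeries (n - 1)⁆ := commutator_mono le_rfl hN
      _ ≤ iterG A (n - 1 + 1) := comm_lcs_le _ A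
      _ ≤ ⁅B, (⊤ : Subgroup G)⁆ := commutator_mono h1 le_rfl
  exact hne (le_bot_iff.mp (le_of_le_comm B ⊥ h2))

end Cfsg.Agent.S3781
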