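import Cfsg.Statements.S3783
-- import your own Cfsg.Agent.* helpers here
import Mathlib
import Cfsg.Agent.Lib.Coprime.PLen
import Cfsg.Agent.Lib.Coprime.NormElim
import Cfsg.Agent.Lib.Char.PBlock
import Cfsg.Agent.Lib.PLocal.PSolv
import Cfsg.Agent.Lib.Basic.Glauberman
import Cfsg.Agent.Lib.Basic.CoprimeAction2
import Cfsg.Agent.Lib.Transfer.Frattini
import Cfsg.Agent.Lib.PGroups.Parts
import Cfsg.Agent.Lib.PGroups.Coset
import Cfsg.Agent.Lib.LocalEven.PClosed

set_option autoImplicit false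
open Cfsg

namespace Cfsg.Agent.S3783

open Subgroup

theorem eq_top_of_exists_sylow_le {G : Type*} [Group G] [Finite G] (L : Subgroup G)
    (h : ∀ (p : ℕ) [Fact p.Prime], ∃ P : Sylow p G, (P : Subgroup G) ≤ L) : L = ⊤ := by
  rw [← Subgroup.index_eq_one]
  by_contra hne
  obtain ⟨p, hp, hdvd⟩ := Nat.exists_prime_and_dvd hne
  haveI : Fact p.Prime := ⟨hp⟩
  obtain ⟨P, hP⟩ := h p
  exact P.not_dvd_index (hdvd.trans (Subgroup.index_dvd_of_le hP))

theorem hd_number {p m : ℕ} (hp : p.Prime) (i : ℕ) (hi0 : 0 < i) (hi : i < p ^ (m + 1)) :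
    ∃ j, (i * j) % p ^ (m + 1) = p ^ m % p ^ (m + 1) := by
  obtain ⟨e, i', hi', rfl⟩ := Nat.exists_eq_pow_mul_and_not_dvd hi0.ne' p hp.ne_one
  have he : e ≤ m := by
    have h1 : p ^ e ≤ p ^ e * i' :=
      Nat.le_mul_of_pos_right _ (Nat.pos_of_ne_zero (by rintro rfl; exact hi' (dvd_zero _)))
    have h2 : p ^ e < p ^ (m + 1) := lt_of_le_of_lt h1 hi
    have := (Nat.pow_lt_pow_iff_right hp.one_lt).mp h2
    omega
  have hc : i'.Coprime (p ^ (m + 1)) :=
    Nat.Coprime.pow_right _ ((hp.coprime_iff_not_dvd).mpr hi').symm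
  obtain ⟨r, hr⟩ := Nat.exists_mul_mod_eq_one_of_coprime hc (Nat.one_lt_pow (by omega) hp.one_lt)
  refine ⟨p ^ (m - e) * r, ?_⟩
  have h3 : p ^ e * i' * (p ^ (m - e) * r) = p ^ m * (i' * r) := by
    have : p ^ m = p ^ e * p ^ (m - e) := by
      rw [← pow_add]
      congr 1
      omega
    rw [this]
    ring
  rw [h3]
  have h4 : i' * r ≡ 1 [MOD p ^ (m + 1)] := by
    show i' * r % p ^ (m + 1) = 1 % p ^ (m + 1)
    rw [hr.2, Nat.mod_eq_of_lt (Nat.one_lt_pow (by omega) hp.one_lt)]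
  have h5 := h4.mul_left (p ^ m)
  rw [mul_one] at h5
  exact h5

theorem core1 {H V : Type*} [Group H] [Group V] {p : ℕ} [Fact p.Prime]
    (hV : ∀ a b : V, a * b = b * a) (hexp : ∀ v : V, v ^ p = 1) (α : H →* MulAut V) (x : H)
    (Q : Subgroup H) [Finite Q] (hQc : ∀ a ∈ Q, ∀ b ∈ Q, a * b = b * a)
    (hQx : ∀ a ∈ Q, x * a * x⁻¹ ∈ Q) (hp : ¬ p ∣ Nat.card Q) {N d : ℕ} (hN0 : 0 < N)
    (hxN : x ^ N = 1) (hsum : ∀ v, ((List.range N).map fun i => α (x ^ i) v).prod = 1)
    (hd : ∀ i, 0 < i → i < N → ∃ j, (i * j) % N = d % N) (a : H) (ha : a ∈ Q) (v : V) :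
    α (x ^ d * a * (x ^ d)⁻¹) v = α a v := by
  let θ : ↥Q →* ↥Q :=
    { toFun := fun a => ⟨x * a * x⁻¹, hQx a a.2⟩
      map_one' := by
        apply Subtype.ext
        simp
      map_mul' := fun a b => by
        apply Subtype.ext
        simp [mul_assoc] }
  have hθ : ∀ (n : ℕ) (a : ↥Q), ((θ^[n] a : ↥Q) : H) = x ^ n * a * (x ^ n)⁻¹ := by
    intro n a
    induction n with
    | zero => simp
    | succ n ih =>
      rw [Function.iterate_succ_apply']
      show x * ((θ^[n] a : ↥Q) : H) * x⁻¹ = _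
      rw [ih, pow_succ']
      group
  let S₀ : V →* V := (α x).toMonoidHom
  have hS₀ : ∀ (n : ℕ) (v : V), S₀^[n] v = α (x ^ n) v := by
    intro n v
    induction n with
    | zero => simp
    | succ n ih =>
      rw [Function.iterate_succ_apply', ih, pow_succ', map_mul]
      rfl
  let α' : ↥Q →* MulAut V := α.comp Q.subtype
  have h := Cfsg.Agent.Lib.Coprime.NormElim.norm_lemma_mul (A := ↥Q) (N' := V) (p := p)
    (fun a b => Subtype.ext (hQc _ a.2 _ b.2)) hV hexp hp α' S₀ θ hN0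
    (fun a => by
      apply Subtype.ext
      rw [hθ, hxN]
      simp)
    (fun a v => by
      show α x (α a v) = α (x * a * x⁻¹) (α x v)
      rw [map_mul, map_mul, map_inv]
      simp)
    (fun v => by
      simp only [hS₀]
      exact hsum v)
    hd ⟨a, ha⟩ v
  have h2 : ((θ^[d] ⟨a, ha⟩ : ↥Q) : H) = x ^ d * a * (x ^ d)⁻¹ := hθ d ⟨a, ha⟩
  rw [← h2]
  exact h

/-- Conjugation action on the Frattini quotient. -/
noncomputable def acV {H : Type*} [Group H] (U : Subgroup H) [U.Normal] :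
    H →* MulAut (↥U ⧸ frattini ↥U) where
  toFun g := QuotientGroup.congr (frattini ↥U) (frattini ↥U) (MulAut.conjNormal g)
    ((Subgroup.characteristic_iff_map_eq.mp inferInstance) _)
  map_one' := by
    ext v
    induction v using QuotientGroup.induction_on with
    | H u =>
      simp
  map_mul' := fun a b => by
    ext v
    induction v using QuotientGroup.induction_on with
    | H u =>
      simp
      rfl

theorem acV_mk {H : Type*} [Group H] (U : Subgroup H) [U.Normal] (g : H) (u : ↥U) :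
    acV U g (QuotientGroup.mk u) = QuotientGroup.mk (MulAut.conjNormal g u) := rfl

theorem list_norm {H : Type*} [Group H] (x u : H) (n : ℕ) :
    ((List.range n).map fun i => x ^ i * u * (x ^ i)⁻¹).prod = (u * x) ^ n * (x ^ n)⁻¹ := by
  induction n with
  | zero => simp
  | succ n ih =>
    rw [List.range_succ, List.map_append, List.prod_append, ih]
    simp only [List.map_cons, List.map_nil, List.prod_cons, List.prod_nil, mul_one]
    rw [pow_succ (u * x) n, pow_succ x n]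
    group

theorem ab_map {G Q : Type*} [Group G] [Finite G] [Group Q] (f : G →* Q) (hf : Function.Surjective f)
    {q : ℕ} [Fact q.Prime] (h : ∀ P : Sylow q G, IsMulCommutative (P : Subgroup G))
    (R : Sylow q Q) : IsMulCommutative (R : Subgroup Q) := by
  obtain ⟨P, rfl⟩ := Sylow.mapSurjective_surjective hf q R
  have hP := (h P).is_comm.comm
  refine ⟨⟨?_⟩⟩
  rintro ⟨_, a, ha, rfl⟩ ⟨_, b, hb, rfl⟩
  apply Subtype.ext
  have := hP ⟨a, ha⟩ ⟨b, hb⟩
  have h2 : a * b = b * a := congrArg Subtype.val this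
  show f a * f b = f b * f a
  rw [← map_mul, h2, map_mul]

theorem lemmaM_aux {H : Type*} [Group H] [Finite H] {p : ℕ} [hp : Fact p.Prime] (hG : Cfsg.IsPSolvable p H)
    (U : Subgroup H) [hUn : U.Normal] (hUp : IsPGroup p U) (hCU : centralizer (U : Set H) ≤ U)
    (hOq0 : Cfsg.pCore p (H ⧸ U) = ⊥)
    (hab : ∀ (q : ℕ) [Fact q.Prime], q ≠ p → ∀ Q : Sylow q H, IsMulCommutative (Q : Subgroup H))
    {m : ℕ} (hexp : ∀ y : H, (∃ k, orderOf y = p ^ k) → y ^ (p ^ (m + 1)) = 1)
    (x : H) (hx : ∃ k, orderOf x = p ^ k) : x ^ (p ^ m) ∈ U := by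
  classical
  have hπ : Function.Surjective (QuotientGroup.mk' U) := QuotientGroup.mk'_surjective U
  have hHq : Cfsg.IsPSolvable p (H ⧸ U) := Cfsg.Agent.Lib.Coprime.isPSolvable_map _ hπ hG
  have hCK0 := Cfsg.Agent.Lib.PLocal.centralizer_pPrimeCore_le_of_isPSolvable hHq hOq0
  have hab' : ∀ (q : ℕ) [Fact q.Prime], q ≠ p → ∀ Q : Sylow q (H ⧸ U), IsMulCommutative (Q : Subgroup (H ⧸ U)) :=
    fun q _ hq Q => ab_map _ hπ (hab q hq) Q
  obtain ⟨K, hKdef⟩ : ∃ K, K = Cfsg.pPrimeCore p (H ⧸ U) := ⟨_, rfl⟩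
  rw [← hKdef] at hCK0
  haveI hKn : K.Normal := hKdef ▸ Cfsg.Agent.Lib.Basic.pPrimeCore_normal p
  have hKc : (Nat.card K).Coprime p := hKdef ▸ Cfsg.Agent.Lib.Basic.pPrimeCore_coprime p
  have hpp : p.Prime := hp.out
  -- the action on the Frattini quotient
  have hV : ∀ a b : ↥U ⧸ frattini ↥U, a * b = b * a := by
    intro a b
    obtain ⟨a, rfl⟩ := QuotientGroup.mk_surjective a
    obtain ⟨b, rfl⟩ := QuotientGroup.mk_surjective b
    rw [← QuotientGroup.mk_mul, ← QuotientGroup.mk_mul, QuotientGroup.eq_iff_div_mem]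
    have := Cfsg.Agent.Lib.Transfer.commutator_mem_frattini hUp a b
    have e : a * b / (b * a) = a * b * a⁻¹ * b⁻¹ := by
      rw [div_eq_mul_inv, mul_inv_rev]
      group
    rw [e]
    exact this
  have hVexp : ∀ v : ↥U ⧸ frattini ↥U, v ^ p = 1 := by
    intro v
    obtain ⟨a, rfl⟩ := QuotientGroup.mk_surjective v
    rw [← QuotientGroup.mk_pow, QuotientGroup.eq_one_iff]
    exact Cfsg.Agent.Lib.Transfer.pow_mem_frattini hUp a
  have htriv : ∀ u ∈ U, acV U u = 1 := by
    intro u hu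
    ext v
    obtain ⟨a, rfl⟩ := QuotientGroup.mk_surjective v
    rw [acV_mk]
    show (QuotientGroup.mk _ : ↥U ⧸ frattini ↥U) = QuotientGroup.mk a
    rw [QuotientGroup.eq_iff_div_mem]
    have := Cfsg.Agent.Lib.Transfer.commutator_mem_frattini hUp ⟨u, hu⟩ a
    have e : MulAut.conjNormal u a = ⟨u, hu⟩ * a * (⟨u, hu⟩ : ↥U)⁻¹ := Subtype.ext (MulAut.conjNormal_apply _ _)
    rw [e, div_eq_mul_inv]
    exact this
  let α : H ⧸ U →* MulAut (↥U ⧸ frattini ↥U) := QuotientGroup.lift U (acV U) htriv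
  have hα : ∀ g, α (QuotientGroup.mk' U g) = acV U g := fun g => rfl
  have hpK : ∀ y ∈ K, ∀ k : ℕ, y ^ (p ^ k) = 1 → y = 1 := by
    intro y hy k hyk
    have h1 : orderOf y ∣ p ^ k := orderOf_dvd_of_pow_eq_one hyk
    have h2 : orderOf y ∣ Nat.card K := by
      have := orderOf_dvd_natCard (⟨y, hy⟩ : K)
      rwa [Subgroup.orderOf_mk] at this
    have h3 : (Nat.card K).Coprime (p ^ k) := Nat.Coprime.pow_right _ hKc
    have h4 : orderOf y = 1 := Nat.Coprime.eq_one_of_dvd (Nat.Coprime.coprime_dvd_left h2 h3) h1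
    exact orderOf_eq_one_iff.mp h4
  -- faithfulness on K
  have hfaith : ∀ k ∈ K, α k = 1 → k = 1 := by
    intro k hk hk1
    obtain ⟨g, rfl⟩ := hπ k
    obtain ⟨a, b, hab1, hcomm, ⟨ka, hka⟩, hb, ha2, hb2⟩ := Cfsg.Agent.Lib.PGroups.exists_pPart p g
    have hπa : QuotientGroup.mk' U a = 1 := by
      have h1 : QuotientGroup.mk' U a ∈ K := by
        obtain ⟨j, rfl⟩ := mem_zpowers_iff.mp ha2
        rw [map_zpow]
        exact K.zpow_mem hk j
      apply hpK _ h1 ka
      rw [← map_pow, ← hka, pow_orderOf_eq_one, map_one]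
    have hgb : QuotientGroup.mk' U g = QuotientGroup.mk' U b := by
      rw [hab1, map_mul, hπa, one_mul]
    rw [hgb] at hk1 ⊢
    have hb1 : acV U b = 1 := hk1
    have hcentral : zpowers b ≤ centralizer (U : Set H) := by
      apply Cfsg.Agent.Lib.Basic.le_centralizer_of_trivial_on_frattini
      · rw [Subgroup.normalizer_eq_top_iff.mpr hUn]
        exact le_top
      · rw [Nat.card_zpowers]
        obtain ⟨n, hn⟩ := IsPGroup.iff_card.mp (hUp.to_subgroup (frattini ↥U))
        rw [hn]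
        exact Nat.Coprime.pow_right _ ((hpp.coprime_iff_not_dvd).mpr hb).symm
      · intro a' ha' u hu
        obtain ⟨j, rfl⟩ := mem_zpowers_iff.mp ha'
        have h5 : acV U (b ^ j) = 1 := by rw [map_zpow, hb1, one_zpow]
        have h6 := congrArg (fun E : MulAut (↥U ⧸ frattini ↥U) => E (QuotientGroup.mk (⟨u, hu⟩ : ↥U))) h5
        simp only [acV_mk] at h6
        have h7 : (QuotientGroup.mk (MulAut.conjNormal (b ^ j) ⟨u, hu⟩) : ↥U ⧸ frattini ↥U)
            = QuotientGroup.mk ⟨u, hu⟩ := h6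
        rw [QuotientGroup.eq_iff_div_mem] at h7
        refine ⟨_, h7, ?_⟩
        rw [div_eq_mul_inv, map_mul, map_inv]
        show ((MulAut.conjNormal (b ^ j) ⟨u, hu⟩ : ↥U) : H) * u⁻¹ = _
        rw [MulAut.conjNormal_apply]
    have hbU : b ∈ U := hCU (hcentral (mem_zpowers b))
    obtain ⟨n, hn⟩ := hUp ⟨b, hbU⟩
    have h8 : b ^ (p ^ n) = 1 := congrArg Subtype.val hn
    obtain ⟨i, -, hi⟩ := (Nat.dvd_prime_pow hpp).mp (orderOf_dvd_of_pow_eq_one h8)
    have h9 : i = 0 := by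
      by_contra hne
      apply hb
      rw [hi]
      exact dvd_pow_self p hne
    rw [h9, pow_zero, orderOf_eq_one_iff] at hi
    rw [hi, map_one]
  obtain ⟨k₀, hk₀⟩ := hx
  have hxN := hexp x ⟨k₀, hk₀⟩
  have hx₀ : x ^ (p ^ k₀) = 1 := by rw [← hk₀, pow_orderOf_eq_one]
  -- the norm relation
  have hsum : ∀ v, ((List.range (p ^ (m + 1))).map fun i => α ((QuotientGroup.mk' U x) ^ i) v).prod = 1 := by
    intro v
    obtain ⟨u, rfl⟩ := QuotientGroup.mk_surjective v
    have h2 : ((List.range (p ^ (m + 1))).map fun i => α ((QuotientGroup.mk' U x) ^ i) (QuotientGroup.mk u : ↥U ⧸ frattini ↥U))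
        = (List.range (p ^ (m + 1))).map ((QuotientGroup.mk' (frattini ↥U)) ∘ fun i => MulAut.conjNormal (x ^ i) u) := by
      apply List.map_congr_left
      intro i _
      rw [← map_pow, hα, acV_mk]
      rfl
    rw [h2, ← List.map_map, ← map_list_prod]
    have h3 : ((List.range (p ^ (m + 1))).map fun i => MulAut.conjNormal (x ^ i) u).prod = 1 := by
      apply Subtype.ext
      have h4 := map_list_prod U.subtype ((List.range (p ^ (m + 1))).map fun i => MulAut.conjNormal (x ^ i) u)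
      have h5 : (((List.range (p ^ (m + 1))).map fun i => MulAut.conjNormal (x ^ i) u).prod : H) = _ := h4
      rw [h5, List.map_map]
      have h6 : ((List.map (⇑U.subtype ∘ fun i => (MulAut.conjNormal (x ^ i)) u) (List.range (p ^ (m + 1))))).prod
          = ((List.range (p ^ (m + 1))).map fun i => x ^ i * (u : H) * (x ^ i)⁻¹).prod := by
        congr 1
      rw [h6, list_norm, hxN]
      have h7 : ((u : H) * x) ^ (p ^ (m + 1)) = 1 := by
        apply hexp
        have h8 : ((u : H) * x) ^ (p ^ k₀) ∈ U := by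
          rw [← QuotientGroup.eq_one_iff, ← QuotientGroup.mk'_apply, map_pow, map_mul]
          have h9 : QuotientGroup.mk' U (u : H) = 1 := (QuotientGroup.eq_one_iff _).mpr u.2
          rw [h9, one_mul, ← map_pow, hx₀, map_one]
        obtain ⟨n, hn⟩ := hUp ⟨_, h8⟩
        have h10 : (((u : H) * x) ^ (p ^ k₀)) ^ (p ^ n) = 1 := congrArg Subtype.val hn
        rw [← pow_mul, ← pow_add] at h10
        obtain ⟨i, -, hi⟩ := (Nat.dvd_prime_pow hpp).mp (orderOf_dvd_of_pow_eq_one h10)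
        exact ⟨i, hi⟩
      rw [h7]
      simp
    rw [h3, map_one]
  -- each prime
  have hkey : ∀ (q : ℕ) [Fact q.Prime], ∃ P : Sylow q K,
      (P : Subgroup K) ≤ (centralizer ({(QuotientGroup.mk' U x) ^ (p ^ m)} : Set (H ⧸ U))).subgroupOf K := by
    intro q _
    by_cases hq : q = p
    · subst hq
      obtain ⟨P⟩ : Nonempty (Sylow q K) := inferInstance
      refine ⟨P, ?_⟩
      intro a ha
      obtain ⟨n, hn⟩ := P.2 ⟨a, ha⟩
      have h1 : (a : H ⧸ U) ^ (q ^ n) = 1 := congrArg (fun z : ↥(P : Subgroup K) => ((z : K) : H ⧸ U)) hn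
      have h2 := hpK _ a.2 n h1
      rw [Subgroup.mem_subgroupOf, h2]
      exact one_mem _
    · obtain ⟨P, hP⟩ := Cfsg.Agent.Lib.Basic.exists_invariant_sylow (A := zpowers (QuotientGroup.mk' U x)) (K := K)
        (by
          rw [Subgroup.normalizer_eq_top_iff.mpr hKn]
          exact le_top)
        (by
          rw [Nat.card_zpowers]
          have h1 : orderOf (QuotientGroup.mk' U x) ∣ p ^ k₀ := by
            apply orderOf_dvd_of_pow_eq_one
            rw [← map_pow, hx₀, map_one]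
          exact Nat.Coprime.coprime_dvd_left h1 (Nat.Coprime.pow_left _ hKc.symm))
        (Or.inl inferInstance) q
      refine ⟨P, ?_⟩
      obtain ⟨Q, hQdef⟩ : ∃ Q, Q = (P : Subgroup K).map K.subtype := ⟨_, rfl⟩
      rw [← hQdef] at hP
      have hQp : IsPGroup q Q := hQdef ▸ P.2.map K.subtype
      obtain ⟨R, hR⟩ := hQp.exists_le_sylow
      have hQc : ∀ a ∈ Q, ∀ b ∈ Q, a * b = b * a := by
        intro a ha b hb
        have := (hab' q hq R).is_comm.comm ⟨a, hR ha⟩ ⟨b, hR hb⟩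
        exact congrArg Subtype.val this
      have hQK : Q ≤ K := hQdef ▸ Subgroup.map_subtype_le _
      have hQx : ∀ a ∈ Q, (QuotientGroup.mk' U x) * a * (QuotientGroup.mk' U x)⁻¹ ∈ Q := by
        intro a ha
        have h1 := hP (mem_zpowers (QuotientGroup.mk' U x))
        exact (Subgroup.mem_normalizer_iff.mp h1 a).mp ha
      have hQcard : ¬ p ∣ Nat.card Q := by
        intro hd
        have h1 : Nat.card Q ∣ Nat.card K := by
          have h2 := Subgroup.card_dvd_of_le hQK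
          exact h2
        have h3 := hd.trans h1
        exact hpp.one_lt.ne' (Nat.Coprime.eq_one_of_dvd hKc.symm h3)
      intro a ha
      have ha2 : (a : H ⧸ U) ∈ Q := hQdef ▸ ⟨a, ha, rfl⟩
      rw [Subgroup.mem_subgroupOf, Subgroup.mem_centralizer_iff]
      rintro _ rfl
      have h4 : α ((QuotientGroup.mk' U x) ^ (p ^ m) * (a : H ⧸ U) * ((QuotientGroup.mk' U x) ^ (p ^ m))⁻¹) = α a := by
        ext v
        exact core1 hV hVexp α (QuotientGroup.mk' U x) Q hQc hQx hQcard (Nat.pos_of_ne_zero (pow_ne_zero _ hpp.ne_zero))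
          (by rw [← map_pow, hxN, map_one]) hsum (fun i hi0 hi => hd_number hpp i hi0 hi) a ha2 v
      have h5 : α ((QuotientGroup.mk' U x) ^ (p ^ m) * (a : H ⧸ U) * ((QuotientGroup.mk' U x) ^ (p ^ m))⁻¹ * (a : H ⧸ U)⁻¹) = 1 := by
        rw [map_mul, h4, map_inv, mul_inv_cancel]
      have h6 := hfaith _ (K.mul_mem (hKn.conj_mem _ a.2 _) (K.inv_mem a.2)) h5
      have h7 : (QuotientGroup.mk' U x) ^ (p ^ m) * (a : H ⧸ U) = (a : H ⧸ U) * (QuotientGroup.mk' U x) ^ (p ^ m) := by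
        rw [mul_inv_eq_one, mul_inv_eq_iff_eq_mul] at h6
        exact h6
      exact h7
  have htop := eq_top_of_exists_sylow_le _ hkey
  have hz : (QuotientGroup.mk' U x) ^ (p ^ m) ∈ centralizer (K : Set (H ⧸ U)) := by
    rw [Subgroup.mem_centralizer_iff]
    intro k hk
    have h1 : (⟨k, hk⟩ : K) ∈ (centralizer ({(QuotientGroup.mk' U x) ^ (p ^ m)} : Set (H ⧸ U))).subgroupOf K := by
      rw [htop]
      exact mem_top _
    rw [Subgroup.mem_subgroupOf, Subgroup.mem_centralizer_iff] at h1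
    exact (h1 _ rfl).symm
  have hzK := hCK0 hz
  have hz1 := hpK _ hzK 1 (by
    rw [pow_one, ← pow_mul, ← pow_succ, ← map_pow, hxN, map_one])
  rw [← map_pow, QuotientGroup.mk'_apply, QuotientGroup.eq_one_iff] at hz1
  exact hz1

theorem lemmaM {H : Type*} [Group H] [Finite H] {p : ℕ} [hp : Fact p.Prime] (hG : Cfsg.IsPSolvable p H)
    (hO : Cfsg.pPrimeCore p H = ⊥)
    (hab : ∀ (q : ℕ) [Fact q.Prime], q ≠ p → ∀ Q : Sylow q H, IsMulCommutative (Q : Subgroup H))
    {m : ℕ} (hexp : ∀ y : H, (∃ k, orderOf y = p ^ k) → y ^ (p ^ (m + 1)) = 1)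
    (x : H) (hx : ∃ k, orderOf x = p ^ k) : x ^ (p ^ m) ∈ Cfsg.pCore p H := by
  have hCU0 := Cfsg.Agent.Lib.Char.centralizer_pCore_le_of_isPSolvable hG hO
  have hOq0 : Cfsg.pCore p (H ⧸ Cfsg.pCore p H) = ⊥ := by
    rw [Cfsg.Agent.Lib.LocalEven.pCore_quotient _ (Cfsg.Agent.Lib.Basic.pCore_isPGroup p)]
    rw [Subgroup.map_eq_bot_iff, QuotientGroup.ker_mk']
  exact lemmaM_aux hG _ (Cfsg.Agent.Lib.Basic.pCore_isPGroup p) hCU0 hOq0 hab hexp x hx

universe u₀

theorem main_ind {p : ℕ} [hp : Fact p.Prime] (n : ℕ) : ∀ (G : Type u₀) [Group G] [Finite G],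
    Cfsg.IsPSolvable p G →
    (∀ (q : ℕ) [Fact q.Prime], q ≠ p → ∀ Q : Sylow q G, IsMulCommutative (Q : Subgroup G)) →
    (∀ y : G, (∃ k, orderOf y = p ^ k) → y ^ (p ^ n) = 1) → Cfsg.PLengthLE p n G := by
  have hpp : p.Prime := hp.out
  induction n with
  | zero =>
    intro G _ _ _ _ hexp
    show (Cfsg.upperPSeries p G (2 * 0 + 1)).1 = ⊤
    rw [eq_top_iff]
    apply Cfsg.Agent.Lib.Coprime.PLen.step_even (k := 0) (by simp) (Y := ⊥) bot_le
    intro x _
    obtain ⟨a, b, hab1, hcomm, ha, hb, -, -⟩ := Cfsg.Agent.Lib.PGroups.exists_pPart p x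
    have ha1 := hexp a ha
    rw [pow_zero, pow_one] at ha1
    rw [ha1, one_mul] at hab1
    subst hab1
    refine ⟨orderOf x, ((hpp.coprime_iff_not_dvd).mpr hb).symm, ?_⟩
    rw [pow_orderOf_eq_one]
    exact one_mem _
  | succ n IH =>
    intro G _ _ hG hab hexp
    have hkey : ∀ g : G, (∃ k, orderOf g = p ^ k) → g ^ (p ^ n) ∈ (Cfsg.upperPSeries p G (2 * 0 + 2)).1 := by
      intro g hg
      rw [Cfsg.Agent.Lib.PLocal.upper_succ_odd p G 0, Subgroup.mem_comap]
      have hf := QuotientGroup.mk'_surjective (Cfsg.upperPSeries p G (2 * 0 + 1)).1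
      have := lemmaM (Cfsg.Agent.Lib.Coprime.isPSolvable_map _ hf hG) (Cfsg.Agent.Lib.PLocal.pPrimeCore_upper_eq_bot 0)
        (fun q _ hq Q => ab_map _ hf (hab q hq) Q) (m := n)
        (fun y hy => by
          obtain ⟨g', rfl, hg'⟩ := Cfsg.Agent.Lib.PGroups.exists_pElement_lift _ hf hy
          rw [← map_pow, hexp g' hg', map_one])
        (QuotientGroup.mk' _ g)
        (by
          obtain ⟨k, hk⟩ := hg
          have h1 : orderOf (QuotientGroup.mk' (Cfsg.upperPSeries p G (2 * 0 + 1)).1 g) ∣ p ^ k := by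
            apply orderOf_dvd_of_pow_eq_one
            rw [← map_pow, ← hk, pow_orderOf_eq_one, map_one]
          obtain ⟨i, -, hi⟩ := (Nat.dvd_prime_pow hpp).mp h1
          exact ⟨i, hi⟩)
      rw [map_pow]
      exact this
    have hf2 := QuotientGroup.mk'_surjective (Cfsg.upperPSeries p G (2 * 0 + 2)).1
    have hL := IH (G ⧸ (Cfsg.upperPSeries p G (2 * 0 + 2)).1) (Cfsg.Agent.Lib.Coprime.isPSolvable_map _ hf2 hG)
      (fun q _ hq Q => ab_map _ hf2 (hab q hq) Q)
      (fun y hy => by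
        obtain ⟨g', rfl, hg'⟩ := Cfsg.Agent.Lib.PGroups.exists_pElement_lift _ hf2 hy
        rw [← map_pow, QuotientGroup.mk'_apply, QuotientGroup.eq_one_iff]
        exact hkey g' hg')
    let f : (G ⧸ (Cfsg.upperPSeries p G (2 * 0 + 2)).1) →*
        ↥((⊤ : Subgroup G).map (QuotientGroup.mk' (Cfsg.upperPSeries p G (2 * 0 + 2)).1)) :=
      (MonoidHom.id _).codRestrict _ (fun y => by
        obtain ⟨g, rfl⟩ := hf2 y
        exact ⟨g, mem_top _, rfl⟩)
    have hfs : Function.Surjective f := by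
      rintro ⟨y, hy⟩
      exact ⟨y, rfl⟩
    have hF := Cfsg.Agent.Lib.Coprime.PLen.pLength_map f hfs hL
    have hfin := Cfsg.Agent.Lib.Coprime.PLen.section_le (V := ⊤) (m := 1) le_top
      (Cfsg.Agent.Lib.PLocal.upper_le_succ 2) hF
    show (Cfsg.upperPSeries p G (2 * (n + 1) + 1)).1 = ⊤
    rw [eq_top_iff, add_comm n 1]
    exact hfin

/-- Let G be a finite p-soluble group in which, for every prime q ≠ p, the Sylow q-subgroups are abelian. If the Sylow p-subgroups of G have exponent dividing p^n, then G has p-length at most n. -/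
theorem result {G : Type*} [Group G] [Finite G] {p : ℕ} [Fact p.Prime] (hG : Cfsg.IsPSolvable p G) (hab : ∀ (q : ℕ) [Fact q.Prime], q ≠ p → ∀ Q : Sylow q G, IsMulCommutative (Q : Subgroup G)) (n : ℕ) (hexp : ∀ (P : Sylow p G), ∀ x ∈ (P : Subgroup G), x ^ p ^ n = 1) : Cfsg.PLengthLE p n G := by
  apply main_ind n G hG hab
  intro y ⟨k, hk⟩
  have hP : IsPGroup p (zpowers y) := by
    rw [IsPGroup.iff_card, Nat.card_zpowers]
    exact ⟨k, hk⟩
  obtain ⟨P, hP2⟩ := hP.exists_le_sylow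
  exact hexp P y (hP2 (mem_zpowers y))

end Cfsg.Agent.S3783
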