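import Cfsg.Statements.S3784
-- import your own Cfsg.Agent.* helpers here
import Mathlib

set_option autoImplicit false
open Cfsg

namespace Cfsg.Agent.S3784

theorem aux (x n : ℕ) (hn : Odd n) :
    (x ^ 2 - 1) ∣ x ^ (n - 1) - 1 := by
  obtain ⟨k, rfl⟩ := hn
  have : 2 * k + 1 - 1 = 2 * k := by omega
  rw [this, pow_mul]
  have := Nat.sub_dvd_pow_sub_pow (x ^ 2) 1 k
  simpa using this

theorem odd_sq_sub (x : ℕ) (hx : Odd x) (h2 : 2 ≤ x) :
    2 * (x + 1) ∣ x ^ 2 - 1 ∧ 2 * (x - 1) ∣ x ^ 2 - 1 := by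
  obtain ⟨k, rfl⟩ := hx
  have hk : 1 ≤ k := by omega
  obtain ⟨j, rfl⟩ : ∃ j, k = j + 1 := ⟨k - 1, by omega⟩
  have e : (2 * (j + 1) + 1) ^ 2 - 1 = 2 * (2 * (j + 1) + 1 + 1) * (2 * (j+1) / 2 ) * 1 := by
    have : 2 * (j + 1) / 2 = j + 1 := by omega
    rw [this]
    have : (2 * (j + 1) + 1) ^ 2 = 2 * (2 * (j + 1) + 1 + 1) * (j + 1) * 1 + 1 := by ring
    omega
  constructor
  · rw [e]
    exact ⟨(2 * (j+1) / 2) * 1, by ring⟩
  · have e2 : 2 * (j + 1) + 1 - 1 = 2 * (j + 1) := by omega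
    rw [e2]
    have : (2 * (j + 1) + 1) ^ 2 - 1 = 2 * (2 * (j + 1)) * (j + 2) := by
      have : (2 * (j + 1) + 1) ^ 2 = 2 * (2 * (j + 1)) * (j + 2) + 1 := by ring
      omega
    rw [this]
    exact ⟨j + 2, by ring⟩

theorem two_pow_dvd_of_le {c a : ℕ} (h : c ≤ a) : 2 ^ c ∣ 2 ^ a := pow_dvd_pow 2 h

theorem case_p_two (q a b : ℕ) (hq : q.Prime) (hq2 : q ≠ 2) (ha : 1 ≤ a) (hb : 1 ≤ b)
    (h : 2 ^ a = q ^ b + 1) : b = 1 ∧ a.Prime ∧ q + 1 = 2 ^ a := by
  have hodd : Odd q := hq.eq_two_or_odd'.resolve_left hq2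
  have hq3 : 3 ≤ q := by
    have := hq.two_le
    rcases hodd with ⟨k, rfl⟩
    omega
  have hbodd : Odd b := by
    by_contra hne
    rw [Nat.not_odd_iff_even] at hne
    obtain ⟨c, rfl⟩ := hne
    have hcpos : 1 ≤ c := by omega
    have hodd' : Odd (q ^ c) := hodd.pow
    obtain ⟨k, hk⟩ := hodd'
    have hsq : q ^ (c + c) = 4 * (k * (k + 1)) + 1 := by
      rw [pow_add, hk]; ring
    rw [hsq] at h
    rcases Nat.lt_or_ge a 2 with h1 | h1
    · have : a = 1 := by omega
      subst this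
      have hk0 : k * (k + 1) = 0 := by omega
      have hk00 : k = 0 := by
        rcases Nat.mul_eq_zero.mp hk0 with h0 | h0
        · exact h0
        · omega
      subst hk00
      have : q ^ c = 1 := by simpa using hk
      have : 2 ≤ q ^ c := by
        calc 2 ≤ q := by omega
          _ = q ^ 1 := (pow_one q).symm
          _ ≤ q ^ c := Nat.pow_le_pow_right (by omega) hcpos
      omega
    · have : 4 ∣ 2 ^ a := by
        have : (2:ℕ) ^ 2 ∣ 2 ^ a := pow_dvd_pow 2 h1
        simpa using this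
      omega
  have hdvd : q + 1 ∣ 2 ^ a := by
    rw [h]
    have := Odd.nat_add_dvd_pow_add_pow q 1 hbodd
    simpa using this
  obtain ⟨c, hca, hc⟩ := (Nat.dvd_prime_pow Nat.prime_two).mp hdvd
  have hb1 : b = 1 := by
    by_contra hne
    have hb3 : 1 < b := by omega
    have hlt : q + 1 < q ^ b + 1 := by
      have : q ^ 1 < q ^ b := Nat.pow_lt_pow_right (by omega) hb3
      simp only [pow_one] at this
      omega
    have hca' : c < a := by
      rw [← h, hc] at hlt
      exact (Nat.pow_lt_pow_iff_right (by norm_num)).mp hlt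
    have h1 : 2 * (q + 1) ∣ 2 ^ a := by
      rw [hc]
      have : (2:ℕ) * 2 ^ c = 2 ^ (c + 1) := by ring
      rw [this]
      exact pow_dvd_pow 2 hca'
    have h2 : 2 * (q + 1) ∣ q ^ (b - 1) - 1 :=
      (odd_sq_sub q hodd (by omega)).1.trans (aux q b hbodd)
    have hpos : 1 ≤ q ^ (b - 1) := Nat.one_le_pow _ _ (by omega)
    have h3 : q ^ b + 1 = q * (q ^ (b - 1) - 1) + (q + 1) := by
      have : q ^ b = q * q ^ (b - 1) := by
        rw [← pow_succ']
        congr 1
        omega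
      rw [this, Nat.mul_sub, mul_one]
      have : q ≤ q * q ^ (b - 1) := Nat.le_mul_of_pos_right _ (by omega)
      omega
    have h4 : 2 * (q + 1) ∣ q + 1 := by
      have h5 : 2 * (q + 1) ∣ q * (q ^ (b - 1) - 1) + (q + 1) := by
        rw [← h3, ← h]; exact h1
      exact (Nat.dvd_add_right (h2.mul_left q)).mp h5
    have := Nat.le_of_dvd (by omega) h4
    omega
  subst hb1
  have hq1 : q + 1 = 2 ^ a := by simpa using h.symm
  refine ⟨rfl, ?_, hq1⟩
  have ha1 : a ≠ 1 := by
    rintro rfl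
    omega
  have hqe : 2 ^ a - 1 = q := by omega
  exact (Nat.prime_of_pow_sub_one_prime ha1 (by rw [hqe]; exact hq)).2

theorem case_q_two (p a b : ℕ) (hp : p.Prime) (hp2 : p ≠ 2) (ha : 1 ≤ a) (hb : 1 ≤ b)
    (h : p ^ a = 2 ^ b + 1) : (a = 1 ∧ (∃ m : ℕ, b = 2 ^ m) ∧ p = 2 ^ b + 1) ∨ (p ^ a = 9 ∧ 2 ^ b = 8) := by
  have hodd : Odd p := hp.eq_two_or_odd'.resolve_left hp2
  have hp3 : 3 ≤ p := by
    have := hp.two_le
    rcases hodd with ⟨k, rfl⟩
    omega
  rcases Nat.even_or_odd a with hae | hao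
  · right
    obtain ⟨c, rfl⟩ := hae
    have hcpos : 1 ≤ c := by omega
    set x := p ^ c with hx
    have hx3 : 3 ≤ x := by
      calc 3 ≤ p := hp3
        _ = p ^ 1 := (pow_one p).symm
        _ ≤ p ^ c := Nat.pow_le_pow_right (by omega) hcpos
    have h1 : (x - 1) * (x + 1) = 2 ^ b := by
      have : p ^ (c + c) = x * x := by rw [pow_add]
      rw [this] at h
      clear_value x
      obtain ⟨y, rfl⟩ : ∃ y, x = y + 1 := ⟨x - 1, by omega⟩
      have : y + 1 - 1 = y := by omega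
      rw [this]
      have e : (y + 1) * (y + 1) = y * (y + 1 + 1) + 1 := by ring
      omega
    obtain ⟨i, _, hi⟩ := (Nat.dvd_prime_pow Nat.prime_two).mp (Dvd.intro _ h1)
    obtain ⟨j, _, hj⟩ := (Nat.dvd_prime_pow Nat.prime_two).mp (Dvd.intro_left _ h1)
    have hij : i < j := by
      have : 2 ^ i < 2 ^ j := by omega
      exact (Nat.pow_lt_pow_iff_right (by norm_num)).mp this
    have hi0 : i ≠ 0 := by
      rintro rfl
      have : x = 2 := by simpa using (by omega : x = 2)
      omega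
    obtain ⟨i', rfl⟩ : ∃ i', i = i' + 1 := ⟨i - 1, by omega⟩
    have hi' : i' = 0 := by
      by_contra hne
      have h4 : 4 ∣ 2 ^ (i' + 1) := by
        have : (2:ℕ) ^ 2 ∣ 2 ^ (i' + 1) := pow_dvd_pow 2 (by omega)
        simpa using this
      have h4' : 4 ∣ 2 ^ j := by
        have : (2:ℕ) ^ 2 ∣ 2 ^ j := pow_dvd_pow 2 (by omega)
        simpa using this
      omega
    subst hi'
    have hx33 : x = 3 := by
      have : x - 1 = 2 := by simpa using hi
      omega
    have hc1 : p ^ c = 3 := hx33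
    have hp33 : p = 3 := by
      have hd : p ∣ 3 := by
        rw [← hc1]
        exact dvd_pow_self p (by omega)
      have := (Nat.prime_dvd_prime_iff_eq hp Nat.prime_three).mp hd
      exact this
    have h9 : p ^ (c + c) = 9 := by
      rw [pow_add, hc1]; norm_num
    refine ⟨h9, ?_⟩
    omega
  · left
    have hdvd : p - 1 ∣ 2 ^ b := by
      have := Nat.sub_dvd_pow_sub_pow p 1 a
      simp only [one_pow] at this
      have e : p ^ a - 1 = 2 ^ b := by rw [h]; simp
      rwa [e] at this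
    obtain ⟨c, hca, hc⟩ := (Nat.dvd_prime_pow Nat.prime_two).mp hdvd
    have ha1 : a = 1 := by
      by_contra hne
      have ha3 : 1 < a := by omega
      have hlt : p - 1 < p ^ a - 1 := by
        have : p ^ 1 < p ^ a := Nat.pow_lt_pow_right (by omega) ha3
        simp only [pow_one] at this
        omega
      have hca' : c < b := by
        have e : p ^ a - 1 = 2 ^ b := by rw [h]; simp
        rw [e, hc] at hlt
        exact (Nat.pow_lt_pow_iff_right (by norm_num)).mp hlt
      have h1 : 2 * (p - 1) ∣ 2 ^ b := by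
        rw [hc]
        have : (2:ℕ) * 2 ^ c = 2 ^ (c + 1) := by ring
        rw [this]
        exact pow_dvd_pow 2 hca'
      have h2 : 2 * (p - 1) ∣ p ^ (a - 1) - 1 :=
        (odd_sq_sub p hodd (by omega)).2.trans (aux p a hao)
      have hpos : 1 ≤ p ^ (a - 1) := Nat.one_le_pow _ _ (by omega)
      have h3 : 2 ^ b = p * (p ^ (a - 1) - 1) + (p - 1) := by
        have e : p ^ a = p * p ^ (a - 1) := by
          rw [← pow_succ']
          congr 1
          omega
        have e2 : 2 ^ b = p ^ a - 1 := by rw [h]; simp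
        rw [e2, e, Nat.mul_sub, mul_one]
        have : p ≤ p * p ^ (a - 1) := Nat.le_mul_of_pos_right _ (by omega)
        omega
      have h4 : 2 * (p - 1) ∣ p - 1 := by
        have h5 : 2 * (p - 1) ∣ p * (p ^ (a - 1) - 1) + (p - 1) := by
          rw [← h3]; exact h1
        exact (Nat.dvd_add_right (h2.mul_left p)).mp h5
      have := Nat.le_of_dvd (by omega) h4
      omega
    subst ha1
    have hpe : p = 2 ^ b + 1 := by simpa using h
    refine ⟨rfl, ?_, hpe⟩
    exact Nat.pow_of_pow_add_prime (a := 2) (by norm_num) (by omega) (by rw [← hpe]; exact hp)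

/-- Let p, q be primes and a, b positive integers with p^a = q^b + 1. Then either p = 2, b = 1, a is prime and q = 2^a − 1; or q = 2, a = 1, b is a power of 2 and p = 2^b + 1; or p^a = 9 and q^b = 8. -/
theorem result (p q a b : ℕ) (hp : p.Prime) (hq : q.Prime) (ha : 1 ≤ a) (hb : 1 ≤ b) (h : p ^ a = q ^ b + 1) : (p = 2 ∧ b = 1 ∧ a.Prime ∧ q + 1 = 2 ^ a) ∨ (q = 2 ∧ a = 1 ∧ (∃ m : ℕ, b = 2 ^ m) ∧ p = 2 ^ b + 1) ∨ (p ^ a = 9 ∧ q ^ b = 8) := by
  have hparity : p = 2 ∨ q = 2 := by
    by_contra hne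
    push Not at hne
    have hp' : Odd p := hp.eq_two_or_odd'.resolve_left hne.1
    have hq' : Odd q := hq.eq_two_or_odd'.resolve_left hne.2
    have h1 : Odd (p ^ a) := hp'.pow
    have h2 : Even (q ^ b + 1) := (hq'.pow).add_one
    rw [← h] at h2
    exact (Nat.not_even_iff_odd.mpr h1) h2
  rcases hparity with rfl | rfl
  · by_cases hq2 : q = 2
    · subst hq2
      exfalso
      have h1 : Even (2 ^ a) := (even_two).pow_of_ne_zero (by omega)
      have h2 : Even (2 ^ b) := (even_two).pow_of_ne_zero (by omega)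
      rw [h] at h1
      exact (Nat.not_even_iff_odd.mpr h2.add_one) h1
    · obtain ⟨h1, h2, h3⟩ := case_p_two q a b hq hq2 ha hb h
      exact Or.inl ⟨rfl, h1, h2, h3⟩
  · by_cases hp2 : p = 2
    · subst hp2
      exfalso
      have h1 : Even (2 ^ a) := (even_two).pow_of_ne_zero (by omega)
      have h2 : Even (2 ^ b) := (even_two).pow_of_ne_zero (by omega)
      rw [h] at h1
      exact (Nat.not_even_iff_odd.mpr h2.add_one) h1
    · rcases case_q_two p a b hp hp2 ha hb h with ⟨h1, h2, h3⟩ | ⟨h1, h2⟩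
      · exact Or.inr (Or.inl ⟨rfl, h1, h2, h3⟩)
      · exact Or.inr (Or.inr ⟨h1, h2⟩)

end Cfsg.Agent.S3784
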