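import Cfsg.Statements.S3785
-- import your own Cfsg.Agent.* helpers here
import Mathlib
import Cfsg.Agent.Lib.Coprime.Omega1
import Cfsg.Agent.Lib.OddLocal.NilParts
import Cfsg.Agent.Lib.Basic.Solv1
import Cfsg.Agent.Lib.Components.Basic

set_option autoImplicit false
open Cfsg

namespace Cfsg.Agent.S3785

open Subgroup Cfsg Cfsg.Agent.Lib.Coprime.Omega1 Cfsg.Agent.Lib.OddLocal

open scoped commutatorElement in
theorem orderOf_conj' {G : Type*} [Group G] (t x : G) : orderOf (t * x * t⁻¹) = orderOf x :=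
  Cfsg.Agent.Lib.PGroups.orderOf_conj_eq t x

/-- Let G be a finite solvable group whose Fitting subgroup F(G) has odd order. If an element g of G commutes with every element of prime order of F(G), then g ∈ F(G). -/
theorem result {G : Type*} [Group G] [Finite G] (hG : Group.IsSolvable G) (hodd : Odd (Nat.card (Cfsg.fittingSubgroup G))) (g : G) (hg : ∀ x ∈ Cfsg.fittingSubgroup G, (orderOf x).Prime → g * x = x * g) : g ∈ Cfsg.fittingSubgroup G := by
  classical
  haveI := hG
  haveI hFn : (fittingSubgroup G).Normal := Cfsg.Agent.Lib.Basic.fittingSubgroup_normal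
  have hnil : Group.IsNilpotent (fittingSubgroup G) := Cfsg.Agent.Lib.Basic.fittingSubgroup_isNilpotent
  -- `p`-elements of the Fitting subgroup lie in `O_p`
  have hpF : ∀ (p : ℕ) [Fact p.Prime] (x : G) (k : ℕ), x ∈ fittingSubgroup G → x ^ p ^ k = 1 → x ∈ pCore p G := by
    intro p _ x k hx hxk
    have h1 := mem_Oq hnil hx hxk
    have h2 : (Oq p (fittingSubgroup G)).Normal := by
      constructor
      intro n hn t
      have h3 := mem_normalizer_Oq (q := p) hnil (y := t) (by
        rw [Subgroup.normalizer_eq_top_iff.mpr hFn]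
        exact mem_top t)
      exact (mem_normalizer_iff.mp h3 n).mp hn
    exact Cfsg.Agent.Lib.Basic.le_pCore h2 (Oq_isPGroup p _) h1
  have hpCoreF : ∀ (p : ℕ) [Fact p.Prime], pCore p G ≤ fittingSubgroup G := fun p _ =>
    Cfsg.Agent.Lib.Basic.pCore_le_fittingSubgroup p
  -- the centralizer of the elements of prime order
  let D : Subgroup G := centralizer {x | x ∈ fittingSubgroup G ∧ (orderOf x).Prime}
  have hDmem : ∀ d ∈ D, ∀ x ∈ fittingSubgroup G, (orderOf x).Prime → d * x = x * d := by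
    intro d hd x hx hxp
    exact (mem_centralizer_iff.mp hd x ⟨hx, hxp⟩).symm
  have hgD : g ∈ D := by
    rw [mem_centralizer_iff]
    rintro x ⟨hx, hxp⟩
    exact (hg x hx hxp).symm
  haveI hDn : D.Normal := by
    constructor
    intro d hd t
    rw [mem_centralizer_iff]
    rintro x ⟨hx, hxp⟩
    have h1 : t⁻¹ * x * t ∈ fittingSubgroup G := by
      have := hFn.conj_mem x hx t⁻¹
      simpa using this
    have h2 : (orderOf (t⁻¹ * x * t)).Prime := by
      rw [Cfsg.Agent.Lib.PGroups.orderOf_conj_inv_eq]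
      exact hxp
    have h3 := hDmem d hd _ h1 h2
    calc x * (t * d * t⁻¹) = t * ((t⁻¹ * x * t) * d) * t⁻¹ := by group
      _ = t * (d * (t⁻¹ * x * t)) * t⁻¹ := by rw [h3]
      _ = t * d * t⁻¹ * x := by group
  -- Claim A
  have hA : ∀ (p : ℕ) [Fact p.Prime] (x : G), x ∈ D → (orderOf x).Coprime p →
      x ∈ centralizer (pCore p G : Set G) := by
    intro p _ x hx hxp
    have hpp : p.Prime := Fact.out
    by_cases hp2 : p = 2
    · subst hp2
      have h1 : pCore 2 G = ⊥ := by
        obtain ⟨k, hk⟩ := IsPGroup.iff_card.mp (Cfsg.Agent.Lib.Basic.pCore_isPGroup (G := G) 2)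
        have h2 : Nat.card (pCore 2 G) ∣ Nat.card (fittingSubgroup G) :=
          Subgroup.card_dvd_of_le (hpCoreF 2)
        cases k with
        | zero =>
          rw [pow_zero] at hk
          exact Subgroup.card_eq_one.mp hk
        | succ k =>
          exfalso
          rw [hk] at h2
          have h3 : 2 ∣ Nat.card (fittingSubgroup G) := (dvd_pow_self 2 k.succ_ne_zero).trans h2
          exact (Nat.not_even_iff_odd.mpr hodd) (even_iff_two_dvd.mpr h3)
      rw [h1]
      rw [mem_centralizer_iff]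
      intro y hy
      have : y = 1 := hy
      simp [this]
    · have h1 := omega_trivial hp2 (zpowers x) (pCore p G) (by rwa [Nat.card_zpowers])
        (Cfsg.Agent.Lib.Basic.pCore_isPGroup p) (by
          rw [Subgroup.normalizer_eq_top_iff.mpr (Cfsg.Agent.Lib.Basic.pCore_normal p)]
          exact le_top)
        (by
          intro y hy hyp a ha
          obtain ⟨i, rfl⟩ := mem_zpowers_iff.mp ha
          have h2 : x * y = y * x := hDmem x hx y (hpCoreF p hy) (hyp ▸ hpp)
          have h3 : Commute x y := h2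
          exact h3.zpow_left i)
      exact h1 (mem_zpowers x)
  -- Claim B
  have hB : ∀ (q : ℕ) [Fact q.Prime] (x f : G) (a : ℕ), x ∈ D → orderOf x = q ^ a → f ∈ fittingSubgroup G →
      (orderOf f).Coprime q → x * f = f * x := by
    intro q _ x f a hx hxa hf hfq
    have hqq : q.Prime := Fact.out
    have h1 : f ∈ centralizer ({x} : Set G) := by
      apply Cfsg.Agent.Lib.PGroups.mem_of_primary_powers
      intro w hw hpp
      obtain ⟨r, l, hr, hl, hrl⟩ := hpp
      have hr' : r.Prime := hr.nat_prime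
      haveI : Fact r.Prime := ⟨hr'⟩
      have hdvd : orderOf w ∣ orderOf f := orderOf_dvd_of_mem_zpowers hw
      have hrq : r ≠ q := by
        rintro rfl
        have h2 : r ∣ orderOf f := (dvd_pow_self r hl.ne').trans (hrl ▸ hdvd)
        exact (Nat.Prime.coprime_iff_not_dvd hr').mp hfq.symm h2
      have hwF : w ∈ fittingSubgroup G := (zpowers_le.mpr hf) hw
      have hwO : w ∈ pCore r G := hpF r w l hwF (by rw [hrl]; exact pow_orderOf_eq_one w)
      have hxC := hA r x hx (by
        rw [hxa]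
        exact Nat.Coprime.pow_left a ((Nat.coprime_primes hqq hr').mpr hrq.symm))
      have h3 := mem_centralizer_iff.mp hxC w hwO
      rw [mem_centralizer_singleton_iff]
      exact h3
    exact (mem_centralizer_singleton_iff.mp h1).symm
  -- Claim C: the commutator lies in `F`
  have hcentN : ∀ (p : ℕ) [Fact p.Prime], (centralizer (pCore p G : Set G)).Normal := fun p _ => by
    haveI := Cfsg.Agent.Lib.Basic.pCore_normal (G := G) p
    infer_instance
  have hC : ∀ (q r a b : ℕ) (x y : G), q.Prime → r.Prime → q ≠ r → x ∈ D → y ∈ D → orderOf x = q ^ a → orderOf y = r ^ b →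
      x * y * x⁻¹ * y⁻¹ ∈ fittingSubgroup G := by
    intro q r a b x y hq hr hqr hx hy hxa hyb
    apply Cfsg.Agent.Lib.Basic.centralizer_fittingSubgroup_le
    have hle : fittingSubgroup G ≤ centralizer ({x * y * x⁻¹ * y⁻¹} : Set G) := by
      rw [Cfsg.Agent.Lib.Basic.fittingSubgroup_eq_iSup_pCore]
      refine iSup_le fun p => ?_
      haveI : Fact (p : ℕ).Prime := ⟨p.2⟩
      intro w hw
      rw [mem_centralizer_singleton_iff]
      have hmem : x * y * x⁻¹ * y⁻¹ ∈ centralizer (pCore (p : ℕ) G : Set G) := by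
        haveI := hcentN (p : ℕ)
        by_cases hpq : (p : ℕ) = q
        · have hpr : (p : ℕ) ≠ r := by
            rw [hpq]
            exact hqr
          have hy' := hA (p : ℕ) y hy (by
            rw [hyb]
            exact Nat.Coprime.pow_left b ((Nat.coprime_primes hr p.2).mpr hpr.symm))
          have h1 : x * y * x⁻¹ ∈ centralizer (pCore (p : ℕ) G : Set G) :=
            Subgroup.Normal.conj_mem inferInstance y hy' x
          exact mul_mem h1 (inv_mem hy')
        · have hx' := hA (p : ℕ) x hx (by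
            rw [hxa]
            exact Nat.Coprime.pow_left a ((Nat.coprime_primes hq p.2).mpr (Ne.symm hpq)))
          have h1 : y * x⁻¹ * y⁻¹ ∈ centralizer (pCore (p : ℕ) G : Set G) :=
            Subgroup.Normal.conj_mem inferInstance _ (inv_mem hx') y
          rw [show x * y * x⁻¹ * y⁻¹ = x * (y * x⁻¹ * y⁻¹) by group]
          exact mul_mem hx' h1
      exact mem_centralizer_iff.mp hmem w hw
    rw [mem_centralizer_iff]
    intro f hf
    exact mem_centralizer_singleton_iff.mp (hle hf)
  -- Claim D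
  have hDcl : ∀ (q : ℕ) [Fact q.Prime] (a : ℕ) (x y : G), x ∈ D → y ∈ D → orderOf x = q ^ a →
      x * y * x⁻¹ * y⁻¹ ∈ fittingSubgroup G → x * y * x⁻¹ * y⁻¹ ∈ pCore q G := by
    intro q _ a x y hx hy hxa hc
    have hqq : q.Prime := Fact.out
    obtain ⟨u, hu, b, hb, hcub⟩ := exists_parts q hnil hc
    obtain ⟨k, hk⟩ := Cfsg.Agent.Lib.PGroups.exists_orderOf_of_mem_isPGroup (Oq_isPGroup q _) hu
    have huO : u ∈ pCore q G := hpF q u k (Oq_le q _ hu) (by rw [← hk]; exact pow_orderOf_eq_one u)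
    have hbq : (orderOf b).Coprime q := orderOf_Oq'_coprime hb
    have hbF : b ∈ fittingSubgroup G := Oq'_le q _ hb
    obtain ⟨z, hz⟩ : ∃ z, z = y * x⁻¹ * y⁻¹ := ⟨_, rfl⟩
    have hzD : z ∈ D := hz ▸ hDn.conj_mem _ (inv_mem hx) y
    have hzord : orderOf z = q ^ a := by
      rw [hz, orderOf_conj', orderOf_inv, hxa]
    have hzb : Commute z b := hB q z b a hzD hzord hbF hbq
    have hcxz : x * y * x⁻¹ * y⁻¹ = x * z := by
      rw [hz]
      group
    obtain ⟨w, hw⟩ : ∃ w, w = z * b⁻¹ := ⟨_, rfl⟩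
    have hxw : w = x⁻¹ * u := by
      rw [hcxz] at hcub
      rw [hw]
      have h1 : z = x⁻¹ * (u * b) := by
        rw [← hcub]
        group
      rw [h1]
      group
    have hpsup : IsPGroup q (zpowers x ⊔ pCore q G : Subgroup G) :=
      IsPGroup.to_sup_of_normal_right (by
        rw [Cfsg.Agent.Lib.PGroups.isPGroup_zpowers_iff]
        exact ⟨a, hxa⟩) (Cfsg.Agent.Lib.Basic.pCore_isPGroup q)
    have hwmem : w ∈ (zpowers x ⊔ pCore q G : Subgroup G) := by
      rw [hxw]
      exact mul_mem (mem_sup_left (inv_mem (mem_zpowers x))) (mem_sup_right huO)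
    obtain ⟨K₁, hK₁⟩ := hpsup ⟨w, hwmem⟩
    have hK₁' : w ^ q ^ K₁ = 1 := congrArg Subtype.val hK₁
    obtain ⟨K, hK⟩ : ∃ K, K = K₁ + a := ⟨_, rfl⟩
    have hwK : w ^ q ^ K = 1 := by
      rw [hK, pow_add, pow_mul, hK₁', one_pow]
    have hzK : z ^ q ^ K = 1 := by
      have h1 : z ^ q ^ a = 1 := by
        rw [← hzord]
        exact pow_orderOf_eq_one z
      rw [hK, add_comm, pow_add, pow_mul, h1, one_pow]
    have hbK : b ^ q ^ K = 1 := by
      have h1 : Commute z b⁻¹ := hzb.inv_right
      rw [hw, h1.mul_pow, hzK, one_mul, inv_pow, inv_eq_one] at hwK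
      exact hwK
    have hb1 : orderOf b = 1 := by
      have h1 := orderOf_dvd_of_pow_eq_one hbK
      exact Nat.eq_one_of_dvd_coprimes (Nat.Coprime.pow_right K hbq) dvd_rfl h1
    rw [orderOf_eq_one_iff] at hb1
    rw [hcub, hb1, mul_one]
    exact huO
  have hnilD : Group.IsNilpotent D := by
    apply isNilpotent_of_primary_commute
    intro x y q r a b hq hr hqr hxa hyb
    haveI : Fact q.Prime := ⟨hq⟩
    haveI : Fact r.Prime := ⟨hr⟩
    have hxa' : orderOf (x : G) = q ^ a := by rw [Subgroup.orderOf_coe]; exact hxa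
    have hyb' : orderOf (y : G) = r ^ b := by rw [Subgroup.orderOf_coe]; exact hyb
    have h1 := hC q r a b x y hq hr hqr x.2 y.2 hxa' hyb'
    have h2 := hC r q b a y x hr hq hqr.symm y.2 x.2 hyb' hxa'
    have h3 := hDcl q a x y x.2 y.2 hxa' h1
    have h4 := hDcl r b y x y.2 x.2 hyb' h2
    have h5 : (x : G) * y * (x : G)⁻¹ * (y : G)⁻¹ = ((y : G) * x * (y : G)⁻¹ * (x : G)⁻¹)⁻¹ := by group
    obtain ⟨k, hk⟩ := Cfsg.Agent.Lib.PGroups.exists_orderOf_of_mem_isPGroup (Cfsg.Agent.Lib.Basic.pCore_isPGroup q) h3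
    obtain ⟨l, hl⟩ := Cfsg.Agent.Lib.PGroups.exists_orderOf_of_mem_isPGroup (Cfsg.Agent.Lib.Basic.pCore_isPGroup r) h4
    have h6 : orderOf ((x : G) * y * (x : G)⁻¹ * (y : G)⁻¹) = 1 := by
      have h7 : orderOf ((x : G) * y * (x : G)⁻¹ * (y : G)⁻¹) = r ^ l := by
        rw [h5, orderOf_inv, hl]
      have h8 : orderOf ((x : G) * y * (x : G)⁻¹ * (y : G)⁻¹) ∣ q ^ k := hk.dvd
      have h9 : orderOf ((x : G) * y * (x : G)⁻¹ * (y : G)⁻¹) ∣ r ^ l := h7.dvd
      exact Nat.eq_one_of_dvd_coprimes (Nat.Coprime.pow _ _ ((Nat.coprime_primes hq hr).mpr hqr)) h8 h9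
    rw [orderOf_eq_one_iff] at h6
    apply Subtype.ext
    have h7 : (x : G) * y * (x : G)⁻¹ * (y : G)⁻¹ = 1 := h6
    have h8 : (x : G) * y = y * x := by
      have h9 : (x : G) * y * (x : G)⁻¹ = y := by
        rw [mul_inv_eq_one] at h7
        exact h7
      rw [mul_inv_eq_iff_eq_mul] at h9
      exact h9
    exact h8
  exact Cfsg.Agent.Lib.Components.le_fitting hDn hnilD hgD

end Cfsg.Agent.S3785
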