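import Cfsg.Statements.S3790
-- import your own Cfsg.Agent.* helpers here
import Mathlib
import Cfsg.Agent.Lib.Coprime.PLen

set_option autoImplicit false
open Cfsg

namespace Cfsg.Agent.S3790

open Subgroup Cfsg Cfsg.Agent.Lib.OddLocal Cfsg.Agent.Lib.Coprime.PLen

universe u

theorem main_aux (p : ℕ) [Fact p.Prime] : ∀ (r : ℕ) (q : Fin r → ℕ), (∀ i, (q i).Prime ∧ q i ≠ p) →
    ∀ l : Fin r → ℕ, ∀ (G : Type u) [Group G] [Finite G],
    (∀ s : ℕ, s.Prime → s ∣ Nat.card G → s ≠ p → ∃ i, q i = s) →
    (∀ i, PLengthLE (q i) (l i) G) → PLengthLE p (Finset.univ.prod fun i => 1 + l i) G := by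
  intro r
  induction r with
  | zero =>
    intro q hq l G _ _ hcover hl
    have hp : p.Prime := Fact.out
    have hG : IsPGroup p G := by
      rw [IsPGroup.iff_card]
      have h1 : ∀ s : ℕ, s.Prime → s ∣ Nat.card G → s = p := by
        intro s hs hsd
        by_contra hne
        obtain ⟨i, _⟩ := hcover s hs hsd hne
        exact i.elim0
      have hne : Nat.card G ≠ 0 := Nat.card_pos.ne'
      exact ⟨(Nat.card G).primeFactorsList.length, (Nat.eq_prime_pow_of_unique_prime_dvd hne (fun {s} hs hd => h1 s hs hd))⟩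
    simp only [Finset.univ_eq_empty, Finset.prod_empty]
    have h1 : (⊤ : Subgroup G) ≤ (upperPSeries p G 2).1 := by
      apply step_odd (k := 1) (Y := ⊥) (by decide) bot_le
      intro x _
      obtain ⟨j, hj⟩ := hG x
      exact ⟨j, hj ▸ one_mem _⟩
    have h2 : (⊤ : Subgroup G) ≤ (upperPSeries p G 3).1 := by
      apply step_even (k := 2) (Y := (upperPSeries p G 2).1) (by decide) le_rfl
      intro x _
      exact ⟨1, Nat.coprime_one_left p, by rw [pow_one]; exact h1 (mem_top x)⟩
    exact top_le_iff.mp h2
  | succ r IH =>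
    intro q hq l G _ _ hcover hl
    have hp : p.Prime := Fact.out
    obtain ⟨t, ht⟩ : ∃ t, t = q (Fin.last r) := ⟨_, rfl⟩
    obtain ⟨lt, hlt⟩ : ∃ lt, lt = l (Fin.last r) := ⟨_, rfl⟩
    haveI : Fact t.Prime := ⟨ht ▸ (hq _).1⟩
    have htp : t ≠ p := ht ▸ (hq _).2
    obtain ⟨L, hL⟩ : ∃ L, L = Finset.univ.prod fun i : Fin r => 1 + l i.castSucc := ⟨_, rfl⟩
    -- the sections of the `t`-series
    have hsec : ∀ j : ℕ, PLengthLE p L ((upperPSeries t G (2 * j + 1)).1.map (QuotientGroup.mk' (upperPSeries t G (2 * j)).1)) := by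
      intro j
      rw [hL]
      apply IH (fun i => q i.castSucc) (fun i => hq _) (fun i => l i.castSucc)
      · intro s hs hsd hsp
        have h1 : s ∣ Nat.card G := by
          refine hsd.trans ((Subgroup.card_subgroup_dvd_card _).trans (Subgroup.card_quotient_dvd_card _))
        obtain ⟨i, hi⟩ := hcover s hs h1 hsp
        cases i using Fin.lastCases with
        | last =>
          exfalso
          rw [← ht] at hi
          subst hi
          have h2 : ((upperPSeries t G (2 * j + 1)).1.map (QuotientGroup.mk' (upperPSeries t G (2 * j)).1)) ≤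
              pPrimeCore t (G ⧸ (upperPSeries t G (2 * j)).1) := by
            rw [upperPSeries_succ_even t (2 * j) (by simp)]
            exact map_le_iff_le_comap.mpr le_rfl
          have h3 := Cfsg.Agent.Lib.Components.coprime_card_pPrimeCore (G := G ⧸ (upperPSeries t G (2 * j)).1) t
          have h4 : t ∣ Nat.card (pPrimeCore t (G ⧸ (upperPSeries t G (2 * j)).1)) :=
            hsd.trans (Subgroup.card_dvd_of_le h2)
          exact hs.one_lt.ne' (Nat.Coprime.eq_one_of_dvd h3.symm h4)
        | cast i => exact ⟨i, hi⟩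
      · intro i
        haveI : Fact (q i.castSucc).Prime := ⟨(hq _).1⟩
        exact pLength_subgroup _ (pLength_map _ (QuotientGroup.mk'_surjective _) (hl _))
    have hclaim : ∀ j : ℕ, (upperPSeries t G (2 * j)).1 ≤ (upperPSeries p G (2 * (j * L) + 1)).1 := by
      intro j
      induction j with
      | zero => exact bot_le
      | succ j ih =>
        have h1 := section_le (U := (upperPSeries t G (2 * j)).1) (V := (upperPSeries t G (2 * j + 1)).1)
          (Cfsg.Agent.Lib.PLocal.upper_le_succ (2 * j)) ih (hsec j)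
        rw [show j * L + L = (j + 1) * L by ring] at h1
        apply stay_odd h1
        intro x hx
        obtain ⟨n, hn⟩ := series_elem_odd (p := t) (k := 2 * j + 1) (by simp) hx
        exact ⟨t ^ n, Nat.Coprime.pow_left n ((Nat.coprime_primes (Fact.out) hp).mpr htp), hn⟩
    have h1 := section_le (U := (upperPSeries t G (2 * lt)).1) (V := (upperPSeries t G (2 * lt + 1)).1)
      (Cfsg.Agent.Lib.PLocal.upper_le_succ (2 * lt)) (hclaim lt) (hsec lt)
    have h2 : (upperPSeries t G (2 * lt + 1)).1 = ⊤ := by
      have := hl (Fin.last r)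
      rw [← ht, ← hlt] at this
      exact this
    rw [h2] at h1
    rw [Fin.prod_univ_castSucc, ← hL, ← hlt]
    rw [show L * (1 + lt) = lt * L + L by ring]
    exact top_le_iff.mp h1

/-- Let G be a finite solvable group and p a prime. Suppose p₁, …, p_r are distinct primes, all different from p, that include every prime dividing the order of G other than p, and that G has p_i-length at most l_i for each i. Then G has p-length at most the product of the numbers 1 + l_i. -/
theorem result {G : Type*} [Group G] [Finite G] (hG : Group.IsSolvable G) (p : ℕ) [Fact p.Prime] (r : ℕ) (q : Fin r → ℕ) (hq : ∀ i, (q i).Prime ∧ q i ≠ p) (hinj : Function.Injective q) (hcover : ∀ s : ℕ, s.Prime → s ∣ Nat.card G → s ≠ p → ∃ i, q i = s) (l : Fin r → ℕ) (hl : ∀ i, Cfsg.PLengthLE (q i) (l i) G) : Cfsg.PLengthLE p (Finset.univ.prod fun i => 1 + l i) G := by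
  exact main_aux p r q hq l G hcover hl

end Cfsg.Agent.S3790
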