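import Cfsg.Statements.S3791
-- import your own Cfsg.Agent.* helpers here
import Mathlib
import Cfsg.Agent.Lib.Coprime.PLen

set_option autoImplicit false
open Cfsg

namespace Cfsg.Agent.S3791

open Subgroup Cfsg Cfsg.Agent.Lib.OddLocal Cfsg.Agent.Lib.Coprime.PLen

universe u

theorem main_aux {r : ℕ} (q : Fin r → ℕ) (hq : ∀ i, (q i).Prime) (d : Fin r → ℕ) :
    ∀ (n : ℕ) (G : Type u) [Group G] [Finite G], Nat.card G = n →
    (∀ s : ℕ, s.Prime → s ∣ Nat.card G → ∃ i, q i = s) →
    ∀ l : Fin r → ℕ, (∀ i, PLengthLE (q i) (l i) G) →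
    (∀ i, haveI := Fact.mk (hq i); ∀ P : Subgroup G, IsPGroup (q i) P → D P (d i) = ⊥) →
    derivedSeries G (Finset.univ.sum fun i => d i * l i) = ⊥ := by
  intro n
  induction n using Nat.strong_induction_on with
  | _ n IH =>
  intro G _ _ hn hcover l hl hd
  classical
  by_cases hsub : Subsingleton G
  · exact Subsingleton.elim _ _
  haveI : Nontrivial G := not_subsingleton_iff_nontrivial.mp hsub
  have key : ∀ i, derivedSeries G (Finset.univ.sum fun i => d i * l i) ≤ pPrimeCore (q i) G := by
    intro i
    haveI : Fact (q i).Prime := Fact.mk (hq i)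
    cases hli : l i with
    | zero =>
      have h1 := hl i
      rw [hli] at h1
      have h2 : (upperPSeries (q i) G 1).1 = ⊤ := h1
      rw [upperPSeries_one] at h2
      rw [h2]
      exact le_top
    | succ m =>
      obtain ⟨T, hT⟩ : ∃ T, T = pPrimePCore (q i) G := ⟨_, rfl⟩
      haveI hTn : T.Normal := hT ▸ pPrimePCore_normal (q i)
      have hTne : T ≠ ⊥ := hT ▸ pPrimePCore_ne_bot (hl i)
      have hcard : Nat.card (G ⧸ T) < n := by
        rw [← hn, Subgroup.card_eq_card_quotient_mul_card_subgroup T]
        have h1 : 1 < Nat.card T := (Subgroup.one_lt_card_iff_ne_bot T).mpr hTne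
        have h2 : 0 < Nat.card (G ⧸ T) := Nat.card_pos
        nlinarith
      have hf := QuotientGroup.mk'_surjective T
      have h1 := IH _ hcard (G ⧸ T) rfl
        (fun s hs hsd => hcover s hs (hsd.trans (Subgroup.card_quotient_dvd_card T)))
        (Function.update l i m)
        (by
          intro j
          by_cases hj : j = i
          · subst hj
            rw [Function.update_self]
            apply pLength_shift T hT
            rw [← hli]
            exact hl j
          · rw [Function.update_of_ne hj]
            haveI : Fact (q j).Prime := Fact.mk (hq j)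
            exact pLength_map _ hf (hl j))
        (by
          intro j R hR
          haveI : Fact (q j).Prime := Fact.mk (hq j)
          exact D_pSubgroup_map _ hf (hd j) R hR)
      have h2 : (Finset.univ.sum fun j => d j * l j) =
          (Finset.univ.sum fun j => d j * (Function.update l i m) j) + d i := by
        rw [← Finset.add_sum_erase _ _ (Finset.mem_univ i), ← Finset.add_sum_erase _ (fun j => d j * (Function.update l i m) j) (Finset.mem_univ i)]
        rw [Function.update_self, hli]
        have h3 : (∑ x ∈ Finset.univ.erase i, d x * Function.update l i m x) = ∑ x ∈ Finset.univ.erase i, d x * l x := by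
          apply Finset.sum_congr rfl
          intro x hx
          rw [Function.update_of_ne (Finset.ne_of_mem_erase hx)]
        rw [h3]
        ring
      obtain ⟨s', hs'⟩ : ∃ s', s' = (Finset.univ.sum fun j => d j * (Function.update l i m) j) := ⟨_, rfl⟩
      rw [← hs'] at h1 h2
      have h4 : derivedSeries G s' ≤ T := by
        have h5 := map_derivedSeries_eq hf s'
        rw [h1, Subgroup.map_eq_bot_iff, QuotientGroup.ker_mk'] at h5
        exact h5
      rw [h2, ← D_top, ← D_add, D_top]
      refine (D_mono h4 _).trans ?_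
      rw [hT]
      exact D_pPrimePCore_le (hd i)
  rw [eq_bot_iff]
  intro x hx
  rw [mem_bot]
  by_contra hx1
  have hord : orderOf x ≠ 1 := by
    rw [Ne, orderOf_eq_one_iff]
    exact hx1
  obtain ⟨t, ht, htd⟩ := Nat.exists_prime_and_dvd hord
  obtain ⟨i, hi⟩ := hcover t ht (htd.trans (orderOf_dvd_natCard x))
  subst hi
  have h1 : orderOf x ∣ Nat.card (pPrimeCore (q i) G) := by
    have h2 := orderOf_dvd_natCard (⟨x, key i hx⟩ : pPrimeCore (q i) G)
    rwa [Subgroup.orderOf_mk] at h2
  have h2 := Cfsg.Agent.Lib.Components.coprime_card_pPrimeCore (G := G) (q i)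
  have h3 : q i ∣ Nat.card (pPrimeCore (q i) G) := htd.trans h1
  exact (hq i).one_lt.ne' (Nat.Coprime.eq_one_of_dvd h2.symm h3)

/-- The Hall–Higman bound on derived length: let G be a finite solvable group, let p₁, …, p_r be distinct primes that include every prime dividing the order of G, and suppose that for each i the Sylow p_i-subgroups of G have derived length at most d_i and G has p_i-length at most l_i. Then G has derived length at most Σ d_i l_i. -/
theorem result {G : Type*} [Group G] [Finite G] (hG : Group.IsSolvable G) (r : ℕ) (q : Fin r → ℕ) (hq : ∀ i, (q i).Prime) (hinj : Function.Injective q) (hcover : ∀ s : ℕ, s.Prime → s ∣ Nat.card G → ∃ i, q i = s) (d l : Fin r → ℕ) (hd : ∀ i, ∀ P : Subgroup G, (haveI := Fact.mk (hq i); ∃ S : Sylow (q i) G, (S : Subgroup G) = P) → derivedSeries ↥P (d i) = ⊥) (hl : ∀ i, Cfsg.PLengthLE (q i) (l i) G) : derivedSeries G (Finset.univ.sum fun i => d i * l i) = ⊥ := by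
  refine main_aux q hq d _ G rfl hcover l hl ?_
  intro i P hP
  haveI : Fact (q i).Prime := Fact.mk (hq i)
  obtain ⟨S, hS⟩ := hP.exists_le_sylow
  have h1 := hd i S ⟨S, rfl⟩
  rw [← D_eq_bot_iff] at h1
  exact le_bot_iff.mp (h1 ▸ D_mono hS _)

end Cfsg.Agent.S3791
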