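import Cfsg.Statements.S3794
-- import your own Cfsg.Agent.* helpers here
import Mathlib
import Cfsg.Agent.Lib.Basic.Solv1
import Cfsg.Agent.Lib.Basic.Core
import Cfsg.Agent.Lib.Coprime.SchurBasic

set_option autoImplicit false
open Cfsg

namespace Cfsg.Agent.S3794

open Subgroup Cfsg.Agent.Lib.Basic
open scoped commutatorElement

theorem elim_lemma {R M : Type*} [CommRing R] [AddCommGroup M] [Module R M] (σ₁ σ₂ σ₃ : R →+* R)
    (e₀ e₁ e₂ e₃ : M) (hL : ∀ x, x • e₀ + σ₁ x • e₁ + σ₂ x • e₂ + σ₃ x • e₃ = 0) (s t u : R) :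
    ((s - σ₁ s) * (t - σ₂ t) * (u - σ₃ u)) • e₀ = 0 := by
  have h1 := hL 1
  have h2 := hL s
  have h3 := hL t
  have h4 := hL u
  have h5 := hL (s * t)
  have h6 := hL (s * u)
  have h7 := hL (t * u)
  have h8 := hL (s * t * u)
  simp only [map_one, map_mul] at h1 h5 h6 h7 h8
  linear_combination (norm := module) h8 - σ₁ s • h7 - σ₂ t • h6 - σ₃ u • h5 + (σ₁ s * σ₂ t) • h4 + (σ₁ s * σ₃ u) • h3 + (σ₂ t * σ₃ u) • h2 - (σ₁ s * σ₂ t * σ₃ u) • h1

theorem elim2 {R k V : Type*} [CommRing R] [Field k] [AddCommGroup V] [Module k V]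
    (φ : R →+* Module.End k V) (σ₁ σ₂ σ₃ : R →+* R) (e₀ e₁ e₂ e₃ : V)
    (hL : ∀ x, φ x e₀ + φ (σ₁ x) e₁ + φ (σ₂ x) e₂ + φ (σ₃ x) e₃ = 0) (s t u : R) :
    φ ((s - σ₁ s) * (t - σ₂ t) * (u - σ₃ u)) e₀ = 0 := by
  letI : Module R V := Module.compHom V φ
  exact elim_lemma σ₁ σ₂ σ₃ e₀ e₁ e₂ e₃ hL s t u

theorem lemmaA {k V A : Type*} [Field k] [AddCommGroup V] [Module k V] [CommGroup A] [Finite A]
    (hcard : (Nat.card A : k) ≠ 0) (h2 : (2:k) ≠ 0) (ρ : A →* Module.End k V) (S : Module.End k V)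
    (θ : A →* A) (hθ4 : ∀ a, θ (θ (θ (θ a))) = a) (hS : ∀ a, S * ρ a = ρ (θ a) * S)
    (hN : (1 : Module.End k V) + S + S^2 + S^3 = 0) : ∀ a, ρ (θ (θ a)) = ρ a := by
  classical
  haveI : NeZero (Nat.card A : k) := ⟨hcard⟩
  let φ : MonoidAlgebra k A →ₐ[k] Module.End k V := MonoidAlgebra.lift k (Module.End k V) A ρ
  let Θ : MonoidAlgebra k A →+* MonoidAlgebra k A := MonoidAlgebra.mapDomainRingHom k θ
  have hφof : ∀ a, φ (MonoidAlgebra.of k A a) = ρ a := fun a => MonoidAlgebra.lift_of ρ a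
  have hΘof : ∀ a, Θ (MonoidAlgebra.of k A a) = MonoidAlgebra.of k A (θ a) := fun a => by
    simp [Θ]
  have hS' : ∀ x : MonoidAlgebra k A, S * φ x = φ (Θ x) * S := by
    intro x
    induction x using MonoidAlgebra.induction_on with
    | of a => rw [hφof, hΘof, hφof, hS]
    | add a b ha hb => rw [map_add, map_add, map_add, mul_add, add_mul, ha, hb]
    | smul r a ha =>
      have h1 : Θ (r • a) = r • Θ a := by
        simp [Θ]
      rw [h1, map_smul, map_smul, mul_smul_comm, ha, smul_mul_assoc]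
  have hΘ4 : ∀ x, Θ (Θ (Θ (Θ x))) = x := by
    intro x
    induction x using MonoidAlgebra.induction_on with
    | of a => rw [hΘof, hΘof, hΘof, hΘof, hθ4]
    | add a b ha hb => simp only [map_add, ha, hb]
    | smul r a ha =>
      have h1 : ∀ y : MonoidAlgebra k A, Θ (r • y) = r • Θ y := by
        intro y
        simp [Θ]
      rw [h1, h1, h1, h1, ha]
  have hrad : ∀ x : MonoidAlgebra k A, φ x * φ x = 0 → φ x = 0 := by
    intro x hx
    let φr : MonoidAlgebra k A →+* Module.End k V := φ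
    let I := RingHom.ker φr
    haveI : IsSemisimpleRing (MonoidAlgebra k A ⧸ I) :=
      RingHom.isSemisimpleRing_of_surjective (Ideal.Quotient.mk I) Ideal.Quotient.mk_surjective
    have h3 : (Ideal.Quotient.mk I x) ^ 2 = 0 := by
      rw [← map_pow, Ideal.Quotient.eq_zero_iff_mem]
      show φ (x ^ 2) = 0
      rw [pow_two, map_mul, hx]
    have h4 : Ideal.Quotient.mk I x = 0 := pow_eq_zero_iff (two_ne_zero) |>.mp h3
    exact Ideal.Quotient.eq_zero_iff_mem.mp h4
  have hL : ∀ (v : V) (x : MonoidAlgebra k A), φ x v + φ (Θ x) (S v) + φ (Θ (Θ x)) (S (S v))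
      + φ (Θ (Θ (Θ x))) (S (S (S v))) = 0 := by
    intro v x
    have h0 := congrArg (fun E : Module.End k V => E (φ x v)) hN
    simp only [LinearMap.add_apply, Module.End.one_apply, LinearMap.zero_apply, pow_two, pow_succ, pow_zero, one_mul, Module.End.mul_apply] at h0
    have s1 : ∀ (w : V) (y : MonoidAlgebra k A), S (φ y w) = φ (Θ y) (S w) := fun w y =>
      congrArg (fun E : Module.End k V => E w) (hS' y)
    rw [s1, s1, s1] at h0
    convert h0 using 2
  have hmain : ∀ (s t u : MonoidAlgebra k A),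
      φ ((s - Θ s) * (t - Θ (Θ t)) * (u - Θ (Θ (Θ u)))) = 0 := by
    intro s t u
    apply LinearMap.ext
    intro v
    exact elim2 (φ : MonoidAlgebra k A →+* Module.End k V) Θ (Θ.comp Θ) (Θ.comp (Θ.comp Θ)) v (S v) (S (S v)) (S (S (S v)))
      (fun x => hL v x) s t u
  intro a
  let t := MonoidAlgebra.of k A a
  set y := t - Θ (Θ t) with hy
  have hyτ : Θ (Θ y) = -y := by
    rw [hy, map_sub, map_sub, hΘ4]
    ring
  have hy3 : Θ (Θ (Θ y)) = - Θ y := by
    rw [hyτ, map_neg]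
  have hy4 : Θ (Θ (Θ (Θ y))) = y := hΘ4 y
  have e1 := hmain y t (Θ y)
  rw [← hy, hy4] at e1
  have e2 := hmain (Θ y) t y
  rw [← hy, hyτ, map_neg] at e2
  have hX₁ : φ (y * (y - Θ y)) = 0 := by
    apply hrad
    rw [← map_mul]
    have : y * (y - Θ y) * (y * (y - Θ y)) = (- y) * ((y - Θ y) * y * (Θ y - y)) := by ring
    rw [this, map_mul, e1, mul_zero]
  have hX₂ : φ (y * (y + Θ y)) = 0 := by
    apply hrad
    rw [← map_mul]
    have : y * (y + Θ y) * (y * (y + Θ y)) = y * ((Θ y - -y) * y * (y - -Θ y)) := by ring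
    rw [this, map_mul, e2, mul_zero]
  have hX₃ : φ (y * y) = 0 := by
    have h5 : y * (y - Θ y) + y * (y + Θ y) = (2 : k) • (y * y) := by
      rw [two_smul]
      ring
    have h6 := congrArg φ h5
    rw [map_add, hX₁, hX₂, map_smul, add_zero] at h6
    exact (smul_eq_zero.mp h6.symm).resolve_left h2
  have hy0 : φ y = 0 := by
    apply hrad
    rw [← map_mul]
    exact hX₃
  have h7 : φ t = φ (Θ (Θ t)) := by
    rw [hy, map_sub] at hy0
    exact sub_eq_zero.mp hy0
  have h8 : φ (Θ (Θ t)) = ρ (θ (θ a)) := by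
    show φ (Θ (Θ (MonoidAlgebra.of k A a))) = _
    rw [hΘof, hΘof, hφof]
  rw [← h8, ← h7]
  exact hφof a


theorem eq_of_sq_aux {K : Type*} [Group K] [Finite K] (hodd : Odd (Nat.card K)) (y : K) :
    y = ((y * y) ^ (Nat.card K / 2))⁻¹ := by
  obtain ⟨m, hm⟩ := hodd
  have hm2 : Nat.card K / 2 = m := by omega
  rw [hm2]
  have hy : y ^ (2 * m + 1) = 1 := by
    rw [← hm]; exact pow_card_eq_one'
  rw [eq_inv_iff_mul_eq_one, ← pow_two, ← pow_mul, ← pow_succ']
  exact hy

theorem commute_of_sq {K : Type*} [Group K] [Finite K] (hodd : Odd (Nat.card K)) {y z : K}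
    (h : y * y * z = z * (y * y)) : y * z = z * y := by
  have h1 := eq_of_sq_aux hodd y
  have hc : Commute (y * y) z := h
  have h2 : Commute (((y * y) ^ (Nat.card K / 2))⁻¹) z := (hc.pow_left _).inv_left
  rw [← h1] at h2
  exact h2

theorem eq_one_of_sq {K : Type*} [Group K] [Finite K] (hodd : Odd (Nat.card K)) {y : K}
    (h : y * y = 1) : y = 1 := by
  rw [eq_of_sq_aux hodd y, h]
  simp

theorem tau_trivial {K : Type*} [Group K] [Finite K] [hsol : Group.IsSolvable K] (σ : K ≃* K)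
    (hfpf : ∀ g, σ g = g → g = 1) (h4 : ∀ g, σ (σ (σ (σ g))) = g) (hodd : Odd (Nat.card K))
    (Pr : Subgroup K → Prop) (hPr : ∀ A B, A ≤ B → Pr B → Pr A)
    (Hab : ∀ A : Subgroup K, (∀ x ∈ A, σ x ∈ A) → (∀ a ∈ A, ∀ b ∈ A, a * b = b * a) → Pr A →
      ∀ a ∈ A, σ (σ a) = a) :
    ∀ (n : ℕ) (Q : Subgroup K), Nat.card Q = n → (∀ x ∈ Q, σ x ∈ Q) → Pr Q →
      ∀ x ∈ Q, σ (σ x) = x := by
  intro n
  induction n using Nat.strong_induction_on with
  | _ n ih =>
  intro Q hn hinv hpr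
  have IH : ∀ L : Subgroup K, L < Q → (∀ x ∈ L, σ x ∈ L) → ∀ x ∈ L, σ (σ x) = x := by
    intro L hL hLinv
    refine ih (Nat.card L) ?_ L rfl hLinv (hPr L Q hL.le hpr)
    rw [← hn]
    exact Nat.lt_of_le_of_ne (Nat.le_of_dvd Nat.card_pos (Subgroup.card_dvd_of_le hL.le))
      (fun h => hL.ne (Subgroup.eq_of_le_of_card_ge hL.le h.ge))
  have claim : ∀ u ∈ Q, σ (σ u) = u⁻¹ → u = 1 := by
    intro u hu hτ
    have hsq : u⁻¹ = u → u = 1 := by
      intro h
      apply eq_one_of_sq hodd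
      nth_rewrite 1 [← h]
      exact inv_mul_cancel u
    have huL : u ∈ closure ({u, σ u} : Set K) := Subgroup.subset_closure (by simp)
    have hσuL : σ u ∈ closure ({u, σ u} : Set K) := Subgroup.subset_closure (by simp)
    have hLQ : closure ({u, σ u} : Set K) ≤ Q := by
      rw [Subgroup.closure_le]
      rintro x (rfl | rfl)
      · exact hu
      · exact hinv _ hu
    have hLinv : ∀ x ∈ closure ({u, σ u} : Set K), σ x ∈ closure ({u, σ u} : Set K) := by
      intro x hx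
      induction hx using Subgroup.closure_induction with
      | mem x hx =>
        rcases hx with rfl | rfl
        · exact hσuL
        · rw [hτ]
          exact inv_mem huL
      | one => simp [one_mem]
      | mul a b _ _ ha hb => rw [map_mul]; exact mul_mem ha hb
      | inv a _ ha => rw [map_inv]; exact inv_mem ha
    by_cases hLne : closure ({u, σ u} : Set K) = Q
    swap
    · have h1 := IH _ (lt_of_le_of_ne hLQ hLne) hLinv u huL
      rw [hτ] at h1
      exact hsq h1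
    by_cases hQb : Q = ⊥
    · subst hQb
      exact (Subgroup.mem_bot.mp hu)
    have hQ' : ⁅Q, Q⁆ < Q := Group.IsSolvable.commutator_lt_of_ne_bot hQb
    have hQ'inv : ∀ x ∈ ⁅Q, Q⁆, σ x ∈ ⁅Q, Q⁆ := by
      intro x hx
      have h1 : σ x ∈ (⁅Q, Q⁆).map σ.toMonoidHom := ⟨x, hx, rfl⟩
      rw [Subgroup.map_commutator] at h1
      have h2 : Q.map σ.toMonoidHom ≤ Q := by
        rintro _ ⟨y, hy, rfl⟩
        exact hinv y hy
      exact Subgroup.commutator_mono h2 h2 h1
    have hτQ' := IH _ hQ' hQ'inv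
    have hcom : ∀ y ∈ Q, σ (σ y) = y⁻¹ → ∀ z ∈ ⁅Q, Q⁆, y * z = z * y := by
      intro y hy hτy z hz
      have hzQ : z ∈ Q := hQ'.le hz
      have hm : y * z * y⁻¹ ∈ ⁅Q, Q⁆ := by
        have e : y * z * y⁻¹ = ⁅y, z⁆ * z := by
          simp only [commutatorElement_def]
          group
        rw [e]
        exact mul_mem (Subgroup.commutator_mem_commutator hy hzQ) hz
      have h1 := hτQ' _ hm
      simp only [map_mul, map_inv, hτy, hτQ' z hz, inv_inv] at h1
      apply commute_of_sq hodd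
      calc y * y * z = y * y * z * y⁻¹ * y⁻¹ * y * y := by group
        _ = y * (y * z * y⁻¹) * y⁻¹ * y * y := by group
        _ = y * (y⁻¹ * z * y) * y⁻¹ * y * y := by rw [h1]
        _ = z * (y * y) := by group
    have hτa : σ (σ (σ u)) = (σ u)⁻¹ := by
      rw [hτ, map_inv]
    have hc : u * σ u * u⁻¹ * (σ u)⁻¹ ∈ ⁅Q, Q⁆ :=
      Subgroup.commutator_mem_commutator hu (hinv _ hu)
    set c := u * σ u * u⁻¹ * (σ u)⁻¹ with hcdef
    have hcb : u * c = c * u := hcom u hu hτ c hc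
    have hσc : σ c = c := by
      have e0 : σ c = σ u * u⁻¹ * (σ u)⁻¹ * u := by
        rw [hcdef]
        simp only [map_mul, map_inv, hτ, inv_inv]
      have e : u⁻¹ * (σ u)⁻¹ = (σ u)⁻¹ * u⁻¹ * c := by
        rw [hcdef]
        group
      calc σ c = σ u * (u⁻¹ * (σ u)⁻¹) * u := by rw [e0]; group
        _ = σ u * ((σ u)⁻¹ * u⁻¹ * c) * u := by rw [e]
        _ = u⁻¹ * (c * u) := by group
        _ = u⁻¹ * (u * c) := by rw [hcb]
        _ = c := by group
    have hc1 : c = 1 := hfpf c hσc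
    have hab : u * σ u = σ u * u := by
      have h1 : u * σ u * u⁻¹ * (σ u)⁻¹ = 1 := hc1
      calc u * σ u = u * σ u * u⁻¹ * (σ u)⁻¹ * (σ u * u) := by group
        _ = σ u * u := by rw [h1, one_mul]
    have hcomm : ∀ x ∈ ({u, σ u} : Set K), ∀ y ∈ ({u, σ u} : Set K), x * y = y * x := by
      rintro x (rfl | rfl) y (rfl | rfl)
      · rfl
      · exact hab
      · exact hab.symm
      · rfl
    have hcL := Subgroup.isMulCommutative_closure hcomm
    have hcL2 : ∀ a ∈ closure ({u, σ u} : Set K), ∀ b ∈ closure ({u, σ u} : Set K), a * b = b * a := by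
      intro a ha b hb
      have := hcL.is_comm.comm (⟨a, ha⟩ : closure ({u, σ u} : Set K)) ⟨b, hb⟩
      exact congrArg (fun z : closure ({u, σ u} : Set K) => (z : K)) this
    have h1 := Hab _ hLinv hcL2 (hPr _ Q hLQ hpr) u huL
    rw [hτ] at h1
    exact hsq h1
  intro x hx
  have h1 : x * (σ (σ x))⁻¹ = 1 := by
    apply claim _ (mul_mem hx (inv_mem (hinv _ (hinv _ hx))))
    simp only [map_mul, map_inv, h4, mul_inv_rev, inv_inv]
  have h2 := mul_inv_eq_one.mp h1
  exact h2.symm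

theorem exists_eq_of_mem {K : Type*} [Group K] [Finite K] (σ : K ≃* K)
    (hfpf : ∀ g, σ g = g → g = 1) (Q : Subgroup K) (hQ : ∀ x ∈ Q, σ x ∈ Q) :
    ∀ h ∈ Q, ∃ g ∈ Q, g⁻¹ * σ g = h := by
  intro h hh
  let f : Q → Q := fun x => ⟨(x : K)⁻¹ * σ x, mul_mem (inv_mem x.2) (hQ _ x.2)⟩
  have hinj : Function.Injective f := by
    intro x y hxy
    have h1 : (x : K)⁻¹ * σ x = (y : K)⁻¹ * σ y := congrArg Subtype.val hxy
    have h2 : σ ((y : K) * (x : K)⁻¹) = (y : K) * (x : K)⁻¹ := by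
      rw [map_mul, map_inv]
      have h3 : σ (y : K) = (y : K) * ((x : K)⁻¹ * σ x) := by
        rw [h1]; group
      rw [h3]
      group
    have h4 := hfpf _ h2
    apply Subtype.ext
    exact (mul_inv_eq_one.mp h4).symm
  obtain ⟨g, hg⟩ := (Finite.injective_iff_surjective.mp hinj) ⟨h, hh⟩
  exact ⟨g, g.2, congrArg Subtype.val hg⟩

theorem mem_of_fix {K : Type*} [Group K] [Finite K] (σ : K ≃* K)
    (hfpf : ∀ g, σ g = g → g = 1) (Q : Subgroup K) (hQ : ∀ x ∈ Q, σ x ∈ Q) (g : K)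
    (hg : g⁻¹ * σ g ∈ Q) : g ∈ Q := by
  obtain ⟨n, hn, hgn⟩ := exists_eq_of_mem σ hfpf Q hQ _ hg
  have h2 : σ (g * n⁻¹) = g * n⁻¹ := by
    rw [map_mul, map_inv]
    have h3 : σ g = g * (n⁻¹ * σ n) := by
      rw [hgn]; group
    rw [h3]
    group
  have h4 := hfpf _ h2
  rw [mul_inv_eq_one.mp h4]
  exact hn

theorem odd_card {G : Type*} [Group G] [Finite G] (σ : G ≃* G) (hfpf : ∀ g, σ g = g → g = 1)
    (h4 : ∀ g, σ (σ (σ (σ g))) = g) : Odd (Nat.card G) := by
  classical
  have hs4 : (σ : MulAut G) ^ 4 = 1 := by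
    ext g
    exact h4 g
  let Z : Subgroup (MulAut G) := Subgroup.zpowers (σ : MulAut G)
  haveI : Fact (Nat.Prime 2) := ⟨Nat.prime_two⟩
  have hZ : IsPGroup 2 Z := by
    rintro ⟨x, k, rfl⟩
    refine ⟨2, ?_⟩
    apply Subtype.ext
    show ((σ : MulAut G) ^ k) ^ (2 ^ 2) = 1
    rw [show (2 : ℕ) ^ 2 = 4 from rfl, ← zpow_natCast, ← zpow_mul, mul_comm, zpow_mul]
    have : ((σ : MulAut G) ^ ((4 : ℕ) : ℤ)) = 1 := by
      rw [zpow_natCast]; exact hs4
    rw [this, one_zpow]
  have h1 := hZ.card_modEq_card_fixedPoints G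
  have hfix : Nat.card (MulAction.fixedPoints Z G) = 1 := by
    rw [Nat.card_eq_one_iff_unique]
    refine ⟨⟨?_⟩, ⟨⟨1, ?_⟩⟩⟩
    · rintro ⟨a, ha⟩ ⟨b, hb⟩
      apply Subtype.ext
      have ha1 : σ a = a := ha ⟨σ, Subgroup.mem_zpowers _⟩
      have hb1 : σ b = b := hb ⟨σ, Subgroup.mem_zpowers _⟩
      exact (hfpf a ha1).trans (hfpf b hb1).symm
    · rintro ⟨x, _⟩
      exact map_one x
  rw [hfix] at h1
  rw [Nat.odd_iff]
  exact h1

theorem K_abelian {K V : Type*} {p : ℕ} [hpf : Fact p.Prime] [Group K] [Finite K] [AddCommGroup V]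
    [Module (ZMod p) V] [hsol : Group.IsSolvable K] (σ : K ≃* K) (hfpf : ∀ g, σ g = g → g = 1)
    (h4 : ∀ g, σ (σ (σ (σ g))) = g) (hp2 : p ≠ 2) (ρ : K →* Module.End (ZMod p) V)
    (hρ : ∀ g, ρ g = 1 → g = 1) (S : Module.End (ZMod p) V) (hS : ∀ g, S * ρ g = ρ (σ g) * S)
    (hN : (1 : Module.End (ZMod p) V) + S + S ^ 2 + S ^ 3 = 0) (hO : pCore p K = ⊥) :
    ∀ a b : K, a * b = b * a := by
  classical
  have hodd := odd_card σ hfpf h4
  set F := fittingSubgroup K with hF
  have hFn : F.Normal := fittingSubgroup_normal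
  have hFnil : Group.IsNilpotent F := fittingSubgroup_isNilpotent
  have hFchar : F.Characteristic := fittingSubgroup_characteristic
  have hFinv : ∀ x ∈ F, σ x ∈ F := by
    intro x hx
    have h1 : F.map σ.toMonoidHom = F := (Subgroup.characteristic_iff_map_eq.mp hFchar) σ
    rw [← h1]
    exact ⟨x, hx, rfl⟩
  have hpF : ¬ p ∣ Nat.card F := by
    intro hd
    have hne := (default : Sylow p F).ne_bot_of_dvd_card hd
    apply hne
    have h1 := sylow_map_le_pCore_of_nilpotent hFn hFnil p (default : Sylow p F)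
    rw [hO] at h1
    rw [eq_bot_iff]
    intro x hx
    have h2 := h1 ⟨x, hx, rfl⟩
    rw [Subgroup.mem_bot] at h2 ⊢
    exact Subtype.ext h2
  have h2ne : (2 : ZMod p) ≠ 0 := by
    intro h
    have h3 : ((2 : ℕ) : ZMod p) = 0 := by exact_mod_cast h
    rw [ZMod.natCast_eq_zero_iff] at h3
    exact hp2 ((Nat.prime_dvd_prime_iff_eq hpf.out Nat.prime_two).mp h3)
  have Hab : ∀ A : Subgroup K, (∀ x ∈ A, σ x ∈ A) → (∀ a ∈ A, ∀ b ∈ A, a * b = b * a) →
      ¬ p ∣ Nat.card A → ∀ a ∈ A, σ (σ a) = a := by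
    intro A hAinv hAc hAp a ha
    letI cg : CommGroup A := { (inferInstance : Group A) with
      mul_comm := fun x y => Subtype.ext (hAc _ x.2 _ y.2) }
    have hcard : (Nat.card A : ZMod p) ≠ 0 := by
      rw [Ne, ZMod.natCast_eq_zero_iff]
      exact hAp
    let θ : A →* A :=
      { toFun := fun x => ⟨σ x, hAinv _ x.2⟩
        map_one' := Subtype.ext (map_one σ)
        map_mul' := fun x y => Subtype.ext (map_mul σ _ _) }
    have h5 := lemmaA (k := ZMod p) hcard h2ne (ρ.comp A.subtype) S θ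
      (fun x => Subtype.ext (h4 _)) (fun x => hS _) hN ⟨a, ha⟩
    have h6 : ρ (σ (σ a)) = ρ a := h5
    have h7 : ρ (σ (σ a) * a⁻¹) = 1 := by
      rw [map_mul, h6, ← map_mul, mul_inv_cancel, map_one]
    exact mul_inv_eq_one.mp (hρ _ h7)
  have hτF := tau_trivial σ hfpf h4 hodd (fun A => ¬ p ∣ Nat.card A)
    (fun A B hAB hB hd => hB (hd.trans (Subgroup.card_dvd_of_le hAB))) Hab _ F rfl hFinv hpF
  have hinvF : ∀ u ∈ F, σ u = u⁻¹ := by
    intro u hu
    obtain ⟨x, hx, rfl⟩ := exists_eq_of_mem σ hfpf F hFinv u hu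
    rw [map_mul, map_inv, hτF x hx]
    group
  have hFab : ∀ u ∈ F, ∀ v ∈ F, u * v = v * u := by
    intro u hu v hv
    have h1 := hinvF _ (mul_mem hu hv)
    rw [map_mul, hinvF u hu, hinvF v hv, mul_inv_rev] at h1
    have h2 : (u⁻¹ * v⁻¹)⁻¹ = (v⁻¹ * u⁻¹)⁻¹ := congrArg _ h1
    simpa using h2.symm
  have hcent : ∀ g : K, g⁻¹ * σ g ∈ centralizer (F : Set K) := by
    intro g
    rw [Subgroup.mem_centralizer_iff]
    intro u hu
    have hm : g * u * g⁻¹ ∈ F := hFn.conj_mem u hu g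
    have h1 := hinvF _ hm
    rw [map_mul, map_mul, map_inv, hinvF u hu] at h1
    -- σ g u⁻¹ (σ g)⁻¹ = g u⁻¹ g⁻¹
    have h2 : (g⁻¹ * σ g) * u⁻¹ = u⁻¹ * (g⁻¹ * σ g) := by
      have h3 : σ g * u⁻¹ = g * u⁻¹ * g⁻¹ * σ g := by
        rw [show g * u⁻¹ * g⁻¹ = (g * u * g⁻¹)⁻¹ by group, ← h1]
        group
      calc (g⁻¹ * σ g) * u⁻¹ = g⁻¹ * (σ g * u⁻¹) := by group
        _ = g⁻¹ * (g * u⁻¹ * g⁻¹ * σ g) := by rw [h3]
        _ = u⁻¹ * (g⁻¹ * σ g) := by group
    have h3 : u * (g⁻¹ * σ g) = (g⁻¹ * σ g) * u := by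
      calc u * (g⁻¹ * σ g) = u * ((g⁻¹ * σ g) * u⁻¹) * u := by group
        _ = u * (u⁻¹ * (g⁻¹ * σ g)) * u := by rw [h2]
        _ = (g⁻¹ * σ g) * u := by group
    exact h3
  have hall : ∀ g : K, g ∈ F := by
    intro g
    exact mem_of_fix σ hfpf F hFinv g (centralizer_fittingSubgroup_le (hcent g))
  intro a b
  exact hFab a (hall a) b (hall b)


theorem exists_fixed {P N' : Type*} {p : ℕ} [hpf : Fact p.Prime] [Group P] [Group N'] [Finite N']
    (hP : IsPGroup p P) (hV : p ∣ Nat.card N') (f : P →* MulAut N') :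
    ∃ v : N', v ≠ 1 ∧ ∀ x, f x v = v := by
  classical
  letI : MulAction P N' := MulAction.compHom N' f
  have h1 := hP.card_modEq_card_fixedPoints N'
  have h2 : p ∣ Nat.card (MulAction.fixedPoints P N') := (Nat.ModEq.dvd_iff h1 (dvd_refl p)).mp hV
  have h0 : (1 : N') ∈ MulAction.fixedPoints P N' := fun x => map_one (f x)
  haveI : Nonempty (MulAction.fixedPoints P N') := ⟨⟨1, h0⟩⟩
  have hcard : 1 < Nat.card (MulAction.fixedPoints P N') :=
    lt_of_lt_of_le hpf.out.one_lt (Nat.le_of_dvd Nat.card_pos h2)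
  haveI : Nontrivial (MulAction.fixedPoints P N') := (Finite.one_lt_card_iff_nontrivial).mp hcard
  obtain ⟨⟨v, hv⟩, hne⟩ := exists_ne (⟨1, h0⟩ : MulAction.fixedPoints P N')
  exact ⟨v, fun h => hne (Subtype.ext h), fun x => hv x⟩

/-- Linear map of a homomorphism. -/
noncomputable def toEndAux {p : ℕ} {N' : Type*} [CommGroup N'] [Module (ZMod p) (Additive N')] (f : N' →* N') :
    Module.End (ZMod p) (Additive N') :=
  AddMonoidHom.toZModLinearMap p (MonoidHom.toAdditive f)

theorem toEndAux_apply {p : ℕ} {N' : Type*} [CommGroup N'] [Module (ZMod p) (Additive N')] (f : N' →* N')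
    (v : Additive N') : toEndAux (p := p) f v = Additive.ofMul (f v.toMul) := rfl

theorem core_abstract_aux {K N' : Type*} {p : ℕ} [hpf : Fact p.Prime] [Group K] [Finite K]
    [Group.IsSolvable K] [CommGroup N'] [Module (ZMod p) (Additive N')] (σ : K ≃* K) (hfpf : ∀ g, σ g = g → g = 1)
    (h4 : ∀ g, σ (σ (σ (σ g))) = g) (hp2 : p ≠ 2)
    (α : K →* MulAut N') (hα : ∀ g, α g = 1 → g = 1) (S₀ : N' →* N')
    (hS : ∀ g v, S₀ (α g v) = α (σ g) (S₀ v))
    (hN : ∀ v, v * S₀ v * S₀ (S₀ v) * S₀ (S₀ (S₀ v)) = 1) (hO : pCore p K = ⊥) :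
    ∀ a b : K, a * b = b * a := by
  classical
  let ρ : K →* Module.End (ZMod p) (Additive N') :=
    { toFun := fun g => toEndAux (α g).toMonoidHom
      map_one' := by
        apply LinearMap.ext
        intro v
        rw [toEndAux_apply, map_one]
        rfl
      map_mul' := fun a b => by
        apply LinearMap.ext
        intro v
        rw [toEndAux_apply, map_mul]
        rfl }
  have hρ : ∀ g, ρ g = 1 → g = 1 := by
    intro g hg
    apply hα
    ext v
    have := congrArg (fun E : Module.End (ZMod p) (Additive N') => E (Additive.ofMul v)) hg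
    exact this
  have hS' : ∀ g, toEndAux S₀ * ρ g = ρ (σ g) * toEndAux S₀ := by
    intro g
    apply LinearMap.ext
    intro v
    show Additive.ofMul (S₀ (α g v.toMul)) = Additive.ofMul (α (σ g) (S₀ v.toMul))
    rw [hS]
  have hN' : (1 : Module.End (ZMod p) (Additive N')) + toEndAux S₀ + toEndAux S₀ ^ 2 + toEndAux S₀ ^ 3 = 0 := by
    apply LinearMap.ext
    intro v
    exact congrArg Additive.ofMul (hN v.toMul)
  exact K_abelian σ hfpf h4 hp2 ρ hρ (toEndAux S₀) hS' hN' hO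

theorem core_abstract {K N' : Type*} {p : ℕ} [hpf : Fact p.Prime] [Group K] [Finite K]
    [Group.IsSolvable K] [CommGroup N'] (σ : K ≃* K) (hfpf : ∀ g, σ g = g → g = 1)
    (h4 : ∀ g, σ (σ (σ (σ g))) = g) (hp2 : p ≠ 2) (hexp : ∀ v : N', v ^ p = 1)
    (α : K →* MulAut N') (hα : ∀ g, α g = 1 → g = 1) (S₀ : N' →* N')
    (hS : ∀ g v, S₀ (α g v) = α (σ g) (S₀ v))
    (hN : ∀ v, v * S₀ v * S₀ (S₀ v) * S₀ (S₀ (S₀ v)) = 1) (hO : pCore p K = ⊥) :
    ∀ a b : K, a * b = b * a := by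
  letI : Module (ZMod p) (Additive N') := AddCommGroup.zmodModule (fun v => by
    show p • v = 0
    have := hexp v.toMul
    exact congrArg Additive.ofMul this)
  exact core_abstract_aux σ hfpf h4 hp2 α hα S₀ hS hN hO

theorem central_of_min {G : Type*} [Group G] [Finite G] [hsol : Group.IsSolvable G] (σ : G ≃* G)
    (hfpf : ∀ g, σ g = g → g = 1) (h4 : ∀ g, σ (σ (σ (σ g))) = g) (N : Subgroup G) [hNn : N.Normal]
    (hNinv : ∀ x ∈ N, σ x ∈ N) (hNb : N ≠ ⊥)
    (hmin : ∀ M : Subgroup G, M.Normal → M ≠ ⊥ → (∀ x ∈ M, σ x ∈ M) → M ≤ N → M = N) :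
    commutator G ≤ centralizer (N : Set G) := by
  classical
  have hodd := odd_card σ hfpf h4
  have hσ3 : ∀ x, σ (σ (σ (σ x))) = x := h4
  -- N abelian
  have hNc : ⁅N, N⁆ = ⊥ := by
    by_contra hne
    have h1 := hmin ⁅N, N⁆ (Subgroup.commutator_normal _ _) hne (by
      intro x hx
      have h1 : σ x ∈ (⁅N, N⁆).map σ.toMonoidHom := ⟨x, hx, rfl⟩
      rw [Subgroup.map_commutator] at h1
      have h2 : N.map σ.toMonoidHom ≤ N := by
        rintro _ ⟨y, hy, rfl⟩
        exact hNinv y hy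
      exact Subgroup.commutator_mono h2 h2 h1) (Subgroup.commutator_le_self N)
    exact (Group.IsSolvable.commutator_lt_of_ne_bot hNb).ne h1
  have hab : ∀ a ∈ N, ∀ b ∈ N, a * b = b * a := by
    intro a ha b hb
    have h1 : ⁅a, b⁆ ∈ ⁅N, N⁆ := Subgroup.commutator_mem_commutator ha hb
    rw [hNc, Subgroup.mem_bot] at h1
    exact commutatorElement_eq_one_iff_mul_comm.mp h1
  -- the prime
  obtain ⟨p, hp, hpd⟩ : ∃ p, p.Prime ∧ p ∣ Nat.card N := by
    apply Nat.exists_prime_and_dvd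
    intro h
    exact hNb (Subgroup.card_eq_one.mp h)
  haveI hpf : Fact p.Prime := ⟨hp⟩
  have hp2 : p ≠ 2 := by
    rintro rfl
    have h1 : 2 ∣ Nat.card G := hpd.trans (Subgroup.card_subgroup_dvd_card N)
    exact (Nat.not_even_iff_odd.mpr hodd) (even_iff_two_dvd.mpr h1)
  -- exponent
  let Ω : Subgroup G :=
    { carrier := {x | x ∈ N ∧ x ^ p = 1}
      one_mem' := ⟨one_mem _, one_pow _⟩
      mul_mem' := fun {a b} ha hb => ⟨mul_mem ha.1 hb.1, by
        have hc : Commute a b := hab a ha.1 b hb.1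
        rw [hc.mul_pow, ha.2, hb.2, one_mul]⟩
      inv_mem' := fun {a} ha => ⟨inv_mem ha.1, by rw [inv_pow, ha.2, inv_one]⟩ }
  have hΩN : Ω = N := by
    apply hmin Ω
    · constructor
      intro x hx g
      refine ⟨hNn.conj_mem x hx.1 g, ?_⟩
      rw [conj_pow, hx.2]
      group
    · obtain ⟨x, hx⟩ := exists_prime_orderOf_dvd_card' p hpd
      intro h
      have hx1 : (x : G) ∈ Ω := ⟨x.2, by
        have := pow_orderOf_eq_one x
        rw [hx] at this
        exact congrArg Subtype.val this⟩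
      rw [h, Subgroup.mem_bot] at hx1
      have hx2 : x = 1 := Subtype.ext hx1
      rw [hx2, orderOf_one] at hx
      exact hp.one_lt.ne hx
    · intro x hx
      refine ⟨hNinv _ hx.1, ?_⟩
      rw [← map_pow, hx.2, map_one]
    · intro x hx
      exact hx.1
  have hexp : ∀ v ∈ N, v ^ p = 1 := by
    intro v hv
    rw [← hΩN] at hv
    exact hv.2
  -- the centralizer
  set C : Subgroup G := centralizer (N : Set G) with hC
  have hmemC : ∀ c, c ∈ C ↔ ∀ h ∈ N, h * c = c * h := by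
    intro c
    exact Subgroup.mem_centralizer_iff
  haveI hCn : C.Normal := by
    constructor
    intro c hc g
    rw [hmemC] at hc ⊢
    intro h hh
    have h1 := hc _ (hNn.conj_mem h hh g⁻¹)
    calc h * (g * c * g⁻¹) = g * ((g⁻¹ * h * g⁻¹⁻¹) * c) * g⁻¹ := by group
      _ = g * (c * (g⁻¹ * h * g⁻¹⁻¹)) * g⁻¹ := by rw [h1]
      _ = g * c * g⁻¹ * h := by group
  have hCinv : ∀ x ∈ C, σ x ∈ C := by
    intro x hx
    rw [hmemC] at hx ⊢
    intro h hh
    have h1 := hx (σ (σ (σ h))) (hNinv _ (hNinv _ (hNinv _ hh)))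
    have h2 := congrArg σ h1
    rw [map_mul, map_mul, h4] at h2
    exact h2
  have hCmap : C.map σ.toMonoidHom = C := by
    apply le_antisymm
    · rintro _ ⟨y, hy, rfl⟩
      exact hCinv y hy
    · intro x hx
      exact ⟨σ (σ (σ x)), hCinv _ (hCinv _ (hCinv _ hx)), h4 x⟩
  let σK : (G ⧸ C) ≃* (G ⧸ C) := QuotientGroup.congr C C σ hCmap
  have hσK : ∀ g : G, σK (g : G ⧸ C) = ((σ g : G) : G ⧸ C) := fun g => rfl
  have hKfpf : ∀ k, σK k = k → k = 1 := by
    intro k
    induction k using QuotientGroup.induction_on with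
    | H g =>
      intro hk
      rw [hσK] at hk
      have h1 : g⁻¹ * σ g ∈ C := by
        rw [← QuotientGroup.eq]
        exact hk.symm
      exact (QuotientGroup.eq_one_iff g).mpr (mem_of_fix σ hfpf C hCinv g h1)
  have hK4 : ∀ k, σK (σK (σK (σK k))) = k := by
    intro k
    induction k using QuotientGroup.induction_on with
    | H g =>
      rw [hσK, hσK, hσK, hσK, h4]
  -- the action
  let α₀ : G →* MulAut N := MulAut.conjNormal
  have hα₀ : ∀ g (v : N), ((α₀ g v : N) : G) = g * v * g⁻¹ := fun g v => rfl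
  have hα₀C : ∀ c ∈ C, α₀ c = 1 := by
    intro c hc
    ext v
    rw [hα₀]
    have h1 := (hmemC c).mp hc v v.2
    show c * (v : G) * c⁻¹ = v
    rw [← h1]
    group
  let α : (G ⧸ C) →* MulAut N := QuotientGroup.lift C α₀ hα₀C
  have hαmk : ∀ (g : G) (v : N), α (g : G ⧸ C) v = α₀ g v := fun g v => rfl
  -- fixed points
  have hO : pCore p (G ⧸ C) = ⊥ := by
    let P := pCore p (G ⧸ C)
    have hPp : IsPGroup p P := pCore_isPGroup p
    obtain ⟨v, hv1, hv2⟩ := exists_fixed hPp hpd (α.comp P.subtype)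
    let P₁ : Subgroup G := P.comap (QuotientGroup.mk' C)
    haveI hP₁n : P₁.Normal := by
      haveI : P.Normal := pCore_normal p (G ⧸ C)
      exact Subgroup.Normal.comap this _
    have hP₁inv : ∀ x ∈ P₁, σ x ∈ P₁ := by
      intro x hx
      have h1 : P.map σK.toMonoidHom = P :=
        (Subgroup.characteristic_iff_map_eq.mp (pCore_characteristic p)) σK
      show ((σ x : G) : G ⧸ C) ∈ P
      rw [← h1]
      exact ⟨(x : G ⧸ C), hx, rfl⟩
    let M : Subgroup G := N ⊓ centralizer (P₁ : Set G)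
    have hMN : M = N := by
      apply hmin M
      · constructor
        intro m hm g
        refine Subgroup.mem_inf.mpr ⟨hNn.conj_mem _ (Subgroup.mem_inf.mp hm).1 g, ?_⟩
        rw [Subgroup.mem_centralizer_iff]
        intro y hy
        have h1 := Subgroup.mem_centralizer_iff.mp (Subgroup.mem_inf.mp hm).2 _ (hP₁n.conj_mem y hy g⁻¹)
        calc y * (g * m * g⁻¹) = g * ((g⁻¹ * y * g⁻¹⁻¹) * m) * g⁻¹ := by group
          _ = g * (m * (g⁻¹ * y * g⁻¹⁻¹)) * g⁻¹ := by rw [h1]
          _ = g * m * g⁻¹ * y := by group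
      · intro h
        apply hv1
        have hvM : (v : G) ∈ M := by
          refine Subgroup.mem_inf.mpr ⟨v.2, ?_⟩
          rw [Subgroup.mem_centralizer_iff]
          intro y hy
          have h1 := hv2 ⟨(y : G ⧸ C), hy⟩
          have h2 : y * (v : G) * y⁻¹ = v := congrArg Subtype.val h1
          calc y * (v : G) = (y * (v : G) * y⁻¹) * y := by group
            _ = v * y := by rw [h2]
        rw [h, Subgroup.mem_bot] at hvM
        exact Subtype.ext hvM
      · intro x hx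
        obtain ⟨hx1, hx2⟩ := Subgroup.mem_inf.mp hx
        refine Subgroup.mem_inf.mpr ⟨hNinv _ hx1, ?_⟩
        rw [Subgroup.mem_centralizer_iff]
        intro y hy
        have h1 := Subgroup.mem_centralizer_iff.mp hx2 (σ (σ (σ y))) (hP₁inv _ (hP₁inv _ (hP₁inv _ hy)))
        have h2 := congrArg σ h1
        rw [map_mul, map_mul, h4] at h2
        exact h2
      · exact inf_le_left
    rw [eq_bot_iff]
    intro k hk
    obtain ⟨g, rfl⟩ := QuotientGroup.mk_surjective k
    rw [Subgroup.mem_bot, QuotientGroup.eq_one_iff, hmemC]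
    intro h hh
    rw [← hMN] at hh
    exact (Subgroup.mem_centralizer_iff.mp (Subgroup.mem_inf.mp hh).2 g hk).symm
  -- apply core
  letI cg : CommGroup N := { (inferInstance : Group N) with
    mul_comm := fun a b => Subtype.ext (hab _ a.2 _ b.2) }
  let S₀ : N →* N :=
    { toFun := fun x => ⟨σ x, hNinv _ x.2⟩
      map_one' := Subtype.ext (map_one σ)
      map_mul' := fun x y => Subtype.ext (map_mul σ _ _) }
  have hKab := core_abstract (N' := N) σK hKfpf hK4 hp2 (fun v => Subtype.ext (hexp _ v.2)) α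
    (by
      intro k hk
      induction k using QuotientGroup.induction_on with
      | H g =>
        apply (QuotientGroup.eq_one_iff g).mpr
        rw [hmemC]
        intro h hh
        have h1 := congrArg (fun E : MulAut N => ((E ⟨h, hh⟩ : N) : G)) hk
        have h2 : g * h * g⁻¹ = h := h1
        calc h * g = (g * h * g⁻¹) * g := by rw [h2]
          _ = g * h := by group)
    S₀
    (by
      intro k v
      induction k using QuotientGroup.induction_on with
      | H g =>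
        apply Subtype.ext
        show σ (g * v * g⁻¹) = σ g * σ v * (σ g)⁻¹
        rw [map_mul, map_mul, map_inv])
    (by
      intro v
      apply Subtype.ext
      show (v : G) * σ v * σ (σ v) * σ (σ (σ v)) = 1
      apply hfpf
      rw [map_mul, map_mul, map_mul, h4]
      have hm : σ (v : G) * σ (σ v) * σ (σ (σ v)) ∈ N :=
        mul_mem (mul_mem (hNinv _ v.2) (hNinv _ (hNinv _ v.2))) (hNinv _ (hNinv _ (hNinv _ v.2)))
      rw [hab _ hm _ v.2]
      group)
    hO
  rw [_root_.commutator_def, Subgroup.commutator_le]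
  intro a _ b _
  rw [← QuotientGroup.eq_one_iff]
  have h1 := hKab (a : G ⧸ C) (b : G ⧸ C)
  simp only [commutatorElement_def, QuotientGroup.mk_mul, QuotientGroup.mk_inv, h1]
  group

universe u₀

theorem main_aux : ∀ (n : ℕ) (G : Type u₀) [Group G] [Finite G], Nat.card G = n →
    Group.IsSolvable G → ∀ σ : G ≃* G, (∀ g, σ g = g → g = 1) → (∀ g, σ (σ (σ (σ g))) = g) →
    Group.IsNilpotent (commutator G) := by
  intro n
  induction n using Nat.strong_induction_on with
  | _ n ih =>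
  intro G _ _ hn hsol σ hfpf h4
  by_cases hG : Subsingleton G
  · have : Subsingleton (commutator G) := inferInstance
    exact Group.isNilpotent_of_subsingleton
  rw [not_subsingleton_iff_nontrivial] at hG
  obtain ⟨N, hN⟩ := (Set.toFinite {N : Subgroup G | N.Normal ∧ N ≠ ⊥ ∧ ∀ x ∈ N, σ x ∈ N}).exists_minimal
    ⟨⊤, inferInstance, top_ne_bot, fun _ _ => mem_top _⟩
  obtain ⟨hNn, hNb, hNinv⟩ := hN.1
  have hmin : ∀ M : Subgroup G, M.Normal → M ≠ ⊥ → (∀ x ∈ M, σ x ∈ M) → M ≤ N → M = N := by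
    intro M h1 h2 h3 h5
    exact le_antisymm h5 (hN.2 ⟨h1, h2, h3⟩ h5)
  have hcen := central_of_min σ hfpf h4 N hNinv hNb hmin
  have hNmap : N.map σ.toMonoidHom = N := by
    apply le_antisymm
    · rintro _ ⟨y, hy, rfl⟩
      exact hNinv y hy
    · intro x hx
      exact ⟨σ (σ (σ x)), hNinv _ (hNinv _ (hNinv _ hx)), h4 x⟩
  let σQ : (G ⧸ N) ≃* (G ⧸ N) := QuotientGroup.congr N N σ hNmap
  have hσQ : ∀ g : G, σQ (g : G ⧸ N) = ((σ g : G) : G ⧸ N) := fun g => rfl
  have hQfpf : ∀ k, σQ k = k → k = 1 := by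
    intro k
    induction k using QuotientGroup.induction_on with
    | H g =>
      intro hk
      rw [hσQ] at hk
      have h1 : g⁻¹ * σ g ∈ N := by
        rw [← QuotientGroup.eq]
        exact hk.symm
      exact (QuotientGroup.eq_one_iff g).mpr (mem_of_fix σ hfpf N hNinv g h1)
  have hQ4 : ∀ k, σQ (σQ (σQ (σQ k))) = k := by
    intro k
    induction k using QuotientGroup.induction_on with
    | H g =>
      rw [hσQ, hσQ, hσQ, hσQ, h4]
  have hcard : Nat.card (G ⧸ N) < n := by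
    have h1 := Subgroup.card_mul_index N
    rw [Subgroup.index] at h1
    have h2 : 1 < Nat.card N := Nat.lt_of_le_of_ne Nat.card_pos (fun h => hNb (Subgroup.card_eq_one.mp h.symm))
    rw [← hn, ← h1]
    exact lt_mul_of_one_lt_left Nat.card_pos h2
  have hIH := ih _ hcard (G ⧸ N) rfl inferInstance σQ hQfpf hQ4
  let f : commutator G →* commutator (G ⧸ N) :=
    ((QuotientGroup.mk' N).comp (commutator G).subtype).codRestrict _ (fun x =>
      Cfsg.Agent.Lib.Coprime.SchurBasic.mem_commutator_map (QuotientGroup.mk' N) x.2)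
  refine Subgroup.isNilpotent_of_ker_le_center f ?_
  intro x hx
  have hxN : (x : G) ∈ N := by
    have h1 : ((x : G) : G ⧸ N) = 1 := congrArg Subtype.val hx
    exact (QuotientGroup.eq_one_iff _).mp h1
  rw [Subgroup.mem_center_iff]
  intro y
  apply Subtype.ext
  exact (Subgroup.mem_centralizer_iff.mp (hcen y.2) x hxN).symm

/-- Let G be a finite solvable group with an automorphism σ satisfying σ⁴ = 1 and fixing only the identity. Then the derived subgroup G' is nilpotent. -/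
theorem result {G : Type*} [Group G] [Finite G] (hG : Group.IsSolvable G) (σ : MulAut G) (hσ : σ ^ 4 = 1) (hfpf : ∀ g : G, σ g = g → g = 1) : Group.IsNilpotent (commutator G) := by
  classical
  exact main_aux _ G rfl hG σ (fun g hg => hfpf g hg) (fun g => by
    have := congrArg (fun τ : MulAut G => τ g) hσ
    exact this)

end Cfsg.Agent.S3794
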