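import Cfsg.Statements.S3799
-- import your own Cfsg.Agent.* helpers here
import Mathlib
import Cfsg.Agent.Lib.Basic.Frattini

set_option autoImplicit false
open Cfsg

namespace Cfsg.Agent.S3799

open Matrix
open scoped commutatorElement

section heis

variable {p n : ℕ}

/-- The Heisenberg group. -/
@[ext] structure Heis (p n : ℕ) where
  x : Fin n → ZMod p
  y : Fin n → ZMod p
  z : ZMod p

variable [Fact p.Prime]

instance : Group (Heis p n) where
  mul a b := ⟨a.x + b.x, a.y + b.y, a.z + b.z + a.x ⬝ᵥ b.y⟩
  one := ⟨0, 0, 0⟩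
  inv a := ⟨-a.x, -a.y, -a.z + a.x ⬝ᵥ a.y⟩
  mul_assoc a b c := by
    apply Heis.ext
    · exact add_assoc _ _ _
    · exact add_assoc _ _ _
    · show a.z + b.z + a.x ⬝ᵥ b.y + c.z + (a.x + b.x) ⬝ᵥ c.y = a.z + (b.z + c.z + b.x ⬝ᵥ c.y) + a.x ⬝ᵥ (b.y + c.y)
      rw [add_dotProduct, dotProduct_add]
      ring
  one_mul a := by
    apply Heis.ext
    · exact zero_add _
    · exact zero_add _
    · show 0 + a.z + (0 : Fin n → ZMod p) ⬝ᵥ a.y = a.z
      rw [zero_dotProduct]; ring
  mul_one a := by
    apply Heis.ext
    · exact add_zero _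
    · exact add_zero _
    · show a.z + 0 + a.x ⬝ᵥ (0 : Fin n → ZMod p) = a.z
      rw [dotProduct_zero]; ring
  inv_mul_cancel a := by
    apply Heis.ext
    · exact neg_add_cancel _
    · exact neg_add_cancel _
    · show -a.z + a.x ⬝ᵥ a.y + a.z + (-a.x) ⬝ᵥ a.y = 0
      rw [neg_dotProduct]; ring

@[simp] theorem Heis.mul_x (a b : Heis p n) : (a * b).x = a.x + b.x := rfl
@[simp] theorem Heis.mul_y (a b : Heis p n) : (a * b).y = a.y + b.y := rfl
@[simp] theorem Heis.mul_z (a b : Heis p n) : (a * b).z = a.z + b.z + a.x ⬝ᵥ b.y := rfl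
@[simp] theorem Heis.one_x : (1 : Heis p n).x = 0 := rfl
@[simp] theorem Heis.one_y : (1 : Heis p n).y = 0 := rfl
@[simp] theorem Heis.one_z : (1 : Heis p n).z = 0 := rfl
@[simp] theorem Heis.inv_x (a : Heis p n) : (a⁻¹).x = -a.x := rfl
@[simp] theorem Heis.inv_y (a : Heis p n) : (a⁻¹).y = -a.y := rfl
@[simp] theorem Heis.inv_z (a : Heis p n) : (a⁻¹).z = -a.z + a.x ⬝ᵥ a.y := rfl

def heisEquiv : Heis p n ≃ (Fin n → ZMod p) × (Fin n → ZMod p) × ZMod p where
  toFun a := (a.x, a.y, a.z)
  invFun t := ⟨t.1, t.2.1, t.2.2⟩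
  left_inv _ := rfl
  right_inv _ := rfl

instance : Finite (Heis p n) := Finite.of_equiv _ heisEquiv.symm

theorem heis_card : Nat.card (Heis p n) = p ^ (1 + 2 * n) := by
  rw [Nat.card_congr heisEquiv, Nat.card_prod, Nat.card_prod, Nat.card_fun, Nat.card_eq_fintype_card,
    ZMod.card]
  simp only [Nat.card_eq_fintype_card, Fintype.card_fin, ZMod.card]
  ring

theorem heis_pow (a : Heis p n) (k : ℕ) :
    (a ^ k) = ⟨k • a.x, k • a.y, k • a.z + ((k.choose 2 : ℕ) : ZMod p) * (a.x ⬝ᵥ a.y)⟩ := by
  induction k with
  | zero => 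
    apply Heis.ext <;> simp
  | succ k ih =>
    rw [pow_succ, ih]
    apply Heis.ext
    · simp [add_smul]
    · simp [add_smul]
    · simp only [Heis.mul_z, smul_dotProduct]
      rw [Nat.choose_succ_succ' k 1, Nat.choose_one_right]
      simp only [nsmul_eq_mul, smul_eq_mul, Nat.cast_add, Nat.cast_one]
      ring

theorem heis_pow_p (hp : p ≠ 2) (a : Heis p n) : a ^ p = 1 := by
  have hpp : p.Prime := Fact.out
  rw [heis_pow]
  have h2 : 2 < p := lt_of_le_of_ne hpp.two_le (Ne.symm hp)
  have h3 : ((p.choose 2 : ℕ) : ZMod p) = 0 :=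
    (ZMod.natCast_eq_zero_iff _ _).mpr (hpp.dvd_choose_self (by norm_num) h2)
  apply Heis.ext
  · funext i; simp
  · funext i; simp
  · simp [h3]

/-- The central element with third coordinate `c`. -/
def hz (c : ZMod p) : Heis p n := ⟨0, 0, c⟩

theorem mem_center_heis (a : Heis p n) : a ∈ Subgroup.center (Heis p n) ↔ a.x = 0 ∧ a.y = 0 := by
  classical
  rw [Subgroup.mem_center_iff]
  constructor
  · intro h
    constructor
    · funext k
      have h1 := congrArg Heis.z (h ⟨0, Pi.single k 1, 0⟩)
      simp at h1
      simpa using h1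
    · funext k
      have h1 := congrArg Heis.z (h ⟨Pi.single k 1, 0, 0⟩)
      simp at h1
      simpa using h1
  · rintro ⟨h1, h2⟩ g
    apply Heis.ext
    · simp [h1]
    · simp [h2]
    · simp [h1, h2]; ring

theorem comm_heis (hn : 1 ≤ n) : commutator (Heis p n) = Subgroup.center (Heis p n) := by
  classical
  apply le_antisymm
  · rw [commutator_eq_closure, Subgroup.closure_le]
    rintro _ ⟨g, h, rfl⟩
    rw [SetLike.mem_coe, mem_center_heis]
    constructor
    · simp [commutatorElement_def]
    · simp [commutatorElement_def]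
  · intro a ha
    obtain ⟨h1, h2⟩ := (mem_center_heis a).mp ha
    let k : Fin n := ⟨0, hn⟩
    have e : a = ⁅(⟨Pi.single k a.z, 0, 0⟩ : Heis p n), (⟨0, Pi.single k 1, 0⟩ : Heis p n)⁆ := by
      apply Heis.ext
      · simp [commutatorElement_def, h1]
      · simp [commutatorElement_def, h2]
      · simp [commutatorElement_def]
    rw [e]
    exact Subgroup.commutator_mem_commutator (Subgroup.mem_top _) (Subgroup.mem_top _)

theorem center_card_heis : Nat.card (Subgroup.center (Heis p n)) = p := by
  have e : Subgroup.center (Heis p n) ≃ ZMod p :=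
    { toFun := fun a => a.1.z
      invFun := fun c => ⟨⟨0, 0, c⟩, (mem_center_heis _).mpr ⟨rfl, rfl⟩⟩
      left_inv := by
        rintro ⟨a, ha⟩
        obtain ⟨h1, h2⟩ := (mem_center_heis a).mp ha
        apply Subtype.ext
        apply Heis.ext
        · exact h1.symm
        · exact h2.symm
        · rfl
      right_inv := fun c => rfl }
  rw [Nat.card_congr e, Nat.card_eq_fintype_card, ZMod.card]

/-- Matrix form over an auxiliary index type. -/
def heisM (a : Heis p n) : Matrix (Option (Option (Fin n))) (Option (Option (Fin n))) (ZMod p)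
  | none, none => 1
  | none, some none => a.z
  | none, some (some k) => a.x k
  | some none, none => 0
  | some none, some none => 1
  | some none, some (some _) => 0
  | some (some _), none => 0
  | some (some k), some none => a.y k
  | some (some k), some (some l) => if k = l then 1 else 0

theorem heisM_one : heisM (1 : Heis p n) = 1 := by
  ext i j
  rcases i with _ | _ | k <;> rcases j with _ | _ | l <;>
    simp [heisM, Matrix.one_apply]

theorem heisM_mul (a b : Heis p n) : heisM (a * b) = heisM a * heisM b := by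
  ext i j
  rw [Matrix.mul_apply, Fintype.sum_option, Fintype.sum_option]
  rcases i with _ | _ | k <;> rcases j with _ | _ | l <;>
    simp [heisM, dotProduct, Finset.sum_ite_eq]
  · ring
  · ring

theorem heisM_inj : Function.Injective (heisM : Heis p n → _) := by
  intro a b h
  apply Heis.ext
  · funext k
    exact congrFun (congrFun h none) (some (some k))
  · funext k
    exact congrFun (congrFun h (some (some k))) (some none)
  · exact congrFun (congrFun h none) (some none)

end heis

theorem extraspecial_of_equiv {H Y : Type*} [Group H] [Group Y] [Finite H] [Finite Y] {p : ℕ} [Fact p.Prime]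
    (e : H ≃* Y) (hc : commutator H = Subgroup.center H) (hcard : Nat.card (Subgroup.center H) = p)
    (hpg : IsPGroup p H) (hpow : ∀ x : H, x ^ p = 1) : Cfsg.IsExtraspecial p Y := by
  have hcen : (Subgroup.center H).map e.toMonoidHom = Subgroup.center Y := by
    ext y
    constructor
    · rintro ⟨x, hx, rfl⟩
      rw [Subgroup.mem_center_iff]
      intro g
      obtain ⟨g, rfl⟩ := e.surjective g
      show e g * e x = e x * e g
      rw [← map_mul, ← map_mul, (Subgroup.mem_center_iff.mp hx) g]
    · intro hy
      refine ⟨e.symm y, ?_, by simp⟩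
      rw [SetLike.mem_coe, Subgroup.mem_center_iff]
      intro g
      apply e.injective
      rw [map_mul, map_mul, e.apply_symm_apply]
      exact (Subgroup.mem_center_iff.mp hy) (e g)
  have hcomm : commutator Y = Subgroup.center Y := by
    rw [← hcen, ← hc, commutator_def, commutator_def, Subgroup.map_commutator,
      Subgroup.map_top_of_surjective _ e.surjective]
  have hpgY : IsPGroup p Y := hpg.of_surjective e.toMonoidHom e.surjective
  haveI : Group.IsNilpotent Y := hpgY.isNilpotent
  have hfr : frattini Y = Subgroup.center Y := by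
    apply le_antisymm
    · apply Cfsg.Agent.Lib.Basic.frattini_le_of_commutator_le_of_pow_mem (p := p) Fact.out
      · exact hcomm.le
      · intro x
        obtain ⟨x, rfl⟩ := e.surjective x
        rw [← map_pow, hpow, map_one]
        exact one_mem _
    · rw [← hcomm]
      exact Cfsg.Agent.Lib.Basic.commutator_le_frattini_of_isNilpotent
  refine ⟨⟨hpgY, hfr, hcomm⟩, ?_⟩
  rw [← hcard, ← hcen]
  exact Nat.card_congr ((Subgroup.center H).equivMapOfInjective _ e.injective).toEquiv.symm

/-- For every odd prime p and every n ≥ 1 there is an extraspecial p-group of order p^(1+2n) and exponent p; concretely, the general linear group of degree n + 2 over the field with p elements contains such a subgroup. -/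
theorem result (p : ℕ) [Fact p.Prime] (hp : p ≠ 2) (n : ℕ) (hn : 1 ≤ n) : ∃ E : Subgroup (Matrix.GeneralLinearGroup (Fin (n + 2)) (ZMod p)), Cfsg.IsExtraspecial p ↥E ∧ Nat.card E = p ^ (1 + 2 * n) ∧ ∀ x ∈ E, x ^ p = 1 := by
  classical
  have hcardI : Fintype.card (Option (Option (Fin n))) = n + 2 := by simp
  have e : Option (Option (Fin n)) ≃ Fin (n + 2) := Fintype.equivFinOfCardEq hcardI
  let R := Matrix.reindexAlgEquiv (ZMod p) (ZMod p) e
  let f : Heis p n →* Matrix (Fin (n + 2)) (Fin (n + 2)) (ZMod p) :=
    { toFun := fun a => R (heisM a)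
      map_one' := by rw [heisM_one, map_one]
      map_mul' := fun a b => by rw [heisM_mul, map_mul] }
  let g : Heis p n →* Matrix.GeneralLinearGroup (Fin (n + 2)) (ZMod p) := MonoidHom.toHomUnits f
  have hg : Function.Injective g := by
    intro a b h
    have h1 : f a = f b := congrArg Units.val h
    exact heisM_inj (R.injective h1)
  refine ⟨g.range, ?_, ?_, ?_⟩
  · have e' : Heis p n ≃* g.range := MonoidHom.ofInjective hg
    exact extraspecial_of_equiv e' (comm_heis hn) center_card_heis
      (IsPGroup.of_card heis_card) (heis_pow_p hp)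
  · have e' : Heis p n ≃* g.range := MonoidHom.ofInjective hg
    rw [← heis_card (p := p) (n := n)]
    exact Nat.card_congr e'.toEquiv.symm
  · rintro _ ⟨a, rfl⟩
    rw [← map_pow, heis_pow_p hp, map_one]

end Cfsg.Agent.S3799
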