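import Cfsg.Statements.S3800
-- import your own Cfsg.Agent.* helpers here
import Mathlib
import Cfsg.Agent.Lib.Coprime.Sylow
import Cfsg.Agent.Lib.Basic.Core

set_option autoImplicit false
open Cfsg

namespace Cfsg.Agent.S3800

open Cfsg.Agent.Lib.Coprime

theorem inf_eq_bot_aux {G : Type*} [Group G] [Finite G] {p : ℕ} [Fact p.Prime]
    (N : Subgroup G) (hN : (Nat.card N).Coprime p) (P : Subgroup G) (hP : IsPGroup p P) :
    P ⊓ N = ⊥ := by
  obtain ⟨a, ha⟩ := IsPGroup.iff_card.mp hP
  have hd : Disjoint P N := Subgroup.disjoint_of_coprime_natCard (by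
    rw [ha]; exact (Nat.Coprime.pow_right a hN).symm)
  exact hd.eq_bot

/-- Frattini-type argument: if `x` normalizes `P N`, then `x ∈ N · N_G(P)`. -/
theorem exists_mem_normalizer {G : Type*} [Group G] [Finite G] {p : ℕ} [Fact p.Prime]
    (N : Subgroup G) [N.Normal] (hN : (Nat.card N).Coprime p) (P : Subgroup G) (hP : IsPGroup p P)
    (x : G) (hx : ∀ y ∈ P, x * y * x⁻¹ ∈ N ⊔ P) :
    ∃ n ∈ N, n * x ∈ Subgroup.normalizer (P : Set G) := by
  have hp : Nat.Prime p := Fact.out
  let M : Subgroup G := N ⊔ P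
  have hPM : P ≤ M := le_sup_right
  have hrel : P.relIndex M = Nat.card N := by
    have h1 : Nat.card (P ⊔ N : Subgroup G) = Nat.card N * N.relIndex P :=
      Cfsg.Agent.Lib.Basic.card_sup_eq_of_normal P N
    have h2 : N.relIndex P = Nat.card P := by
      apply relIndex_eq_card_of_inf_bot
      rw [inf_comm]
      exact inf_eq_bot_aux N hN P hP
    have h3 := card_mul_relIndex hPM
    have h4 : M = P ⊔ N := sup_comm _ _
    rw [h4, h1, h2] at h3
    rw [h4]
    rw [mul_comm] at h3
    exact Nat.eq_of_mul_eq_mul_right Nat.card_pos h3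
  have hi : ¬ p ∣ P.relIndex M := by
    rw [hrel]
    exact fun hd => by
      have := Nat.dvd_gcd hd (dvd_refl p)
      rw [hN] at this
      exact hp.one_lt.ne' (Nat.dvd_one.mp this)
  have hQ : P.map (MulAut.conj x).toMonoidHom ≤ M := by
    rintro _ ⟨y, hy, rfl⟩
    exact hx y hy
  obtain ⟨m, hm, hmx⟩ := conj_in_of_isPGroup M P _ hPM hQ (isPGroup_conj_map hP x) hi
    (card_conj_map _ _).symm
  obtain ⟨n, hn, u, hu, rfl⟩ := Subgroup.mem_sup_of_normal_left.mp hm
  refine ⟨n⁻¹, N.inv_mem hn, ?_⟩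
  have hPu : P.map (MulAut.conj (n * u)).toMonoidHom = P.map (MulAut.conj n).toMonoidHom := by
    rw [← conj_map_conj_map, (conj_map_eq_iff_mem_normalizer P u).mpr (Subgroup.le_normalizer hu)]
  rw [← conj_map_eq_iff_mem_normalizer, ← conj_map_conj_map, hmx, hPu, conj_map_conj_map,
    inv_mul_cancel, conj_map_one]

/-- Let G be a finite group, N a normal subgroup of G whose order is prime to p, and P a p-subgroup of G. Then in G/N the normalizer of the image of P is the image of N_G(P), and the centralizer of the image of P is the image of C_G(P). -/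
theorem result {G : Type*} [Group G] [Finite G] {p : ℕ} [Fact p.Prime] (N : Subgroup G) [N.Normal] (hN : (Nat.card N).Coprime p) (P : Subgroup G) (hP : IsPGroup p P) : Subgroup.normalizer ((P.map (QuotientGroup.mk' N)) : Set (G ⧸ N)) = (Subgroup.normalizer (P : Set G)).map (QuotientGroup.mk' N) ∧ Subgroup.centralizer ((P.map (QuotientGroup.mk' N)) : Set (G ⧸ N)) = (Subgroup.centralizer (P : Set G)).map (QuotientGroup.mk' N) := by
  have hinf := inf_eq_bot_aux N hN P hP
  let f := QuotientGroup.mk' N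
  have hker : f.ker = N := QuotientGroup.ker_mk' N
  have hf : Function.Surjective f := QuotientGroup.mk'_surjective N
  have hsup : ∀ x : G, (f x ∈ P.map f) → x ∈ N ⊔ P := by
    intro x hx
    obtain ⟨y, hy, hyx⟩ := hx
    have h1 : x * y⁻¹ ∈ f.ker := by
      rw [MonoidHom.mem_ker, map_mul, map_inv, hyx, mul_inv_cancel]
    rw [hker] at h1
    have e : x = x * y⁻¹ * y := by group
    rw [e]
    exact Subgroup.mul_mem_sup h1 hy
  have hnorm : ∀ x : G, (∀ y ∈ P, f (x * y * x⁻¹) ∈ P.map f) → f x ∈ (Subgroup.normalizer (P : Set G)).map f := by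
    intro x hx
    obtain ⟨n, hn, hnx⟩ := exists_mem_normalizer N hN P hP x (fun y hy => hsup _ (hx y hy))
    refine ⟨n * x, hnx, ?_⟩
    have : f n = 1 := by rw [← MonoidHom.mem_ker, hker]; exact hn
    rw [map_mul, this, one_mul]
  constructor
  · apply le_antisymm
    · intro z hz
      obtain ⟨x, rfl⟩ := hf z
      apply hnorm
      intro y hy
      rw [map_mul, map_mul, map_inv]
      exact (Subgroup.mem_normalizer_iff.mp hz (f y)).mp ⟨y, hy, rfl⟩
    · exact Subgroup.le_normalizer_map f
  · apply le_antisymm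
    · intro z hz
      obtain ⟨x, rfl⟩ := hf z
      have hz' : ∀ y ∈ P, f (x * y * x⁻¹) = f y := by
        intro y hy
        have := (Subgroup.mem_centralizer_iff.mp hz) (f y) ⟨y, hy, rfl⟩
        rw [map_mul, map_mul, map_inv, ← this]
        group
      obtain ⟨n, hn, hnx⟩ := exists_mem_normalizer N hN P hP x
        (fun y hy => hsup _ (by rw [hz' y hy]; exact ⟨y, hy, rfl⟩))
      have hfn : f n = 1 := by rw [← MonoidHom.mem_ker, hker]; exact hn
      refine ⟨n * x, Subgroup.mem_centralizer_iff.mpr ?_, by rw [map_mul, hfn, one_mul]⟩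
      intro y hy
      have h1 : (n * x) * y * (n * x)⁻¹ * y⁻¹ ∈ P ⊓ N := by
        refine Subgroup.mem_inf.mpr ⟨P.mul_mem ((Subgroup.mem_normalizer_iff.mp hnx y).mp hy) (P.inv_mem hy), ?_⟩
        rw [← hker, MonoidHom.mem_ker]
        have e2 := hz' y hy
        simp only [map_mul, map_inv, hfn, one_mul, inv_one, mul_one] at e2 ⊢
        rw [e2]
        group
      rw [hinf, Subgroup.mem_bot] at h1
      have h2 : (n * x) * y * (n * x)⁻¹ = y := mul_inv_eq_one.mp h1
      exact (mul_inv_eq_iff_eq_mul.mp h2).symm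
    · rintro _ ⟨x, hx, rfl⟩
      refine Subgroup.mem_centralizer_iff.mpr ?_
      rintro _ ⟨y, hy, rfl⟩
      rw [← map_mul, ← map_mul, (Subgroup.mem_centralizer_iff.mp hx) y hy]

end Cfsg.Agent.S3800
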