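import Cfsg.Statements.S3979
import Mathlib

set_option autoImplicit false
open Cfsg

namespace Cfsg.Agent.S3979


/-- A finite cyclic group has trivial Schur multiplier: every finite stem extension of it is an isomorphism, said through `HasCyclicSchurMultiplier G 1`. -/
theorem result {G : Type*} [Group G] [Finite G] [IsCyclic G] : Cfsg.HasCyclicSchurMultiplier G 1 := by
  classical
  refine ⟨⟨G, inferInstance, inferInstance, MonoidHom.id G, ?_, ?_⟩, ?_⟩
  · refine ⟨fun g => ⟨g, rfl⟩, ?_, ?_⟩
    · intro g hg
      have : g = 1 := hg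
      rw [this]; exact Subgroup.one_mem _
    · intro g hg
      have : g = 1 := hg
      rw [this]; exact Subgroup.one_mem _
  · have h1 : Subsingleton (MonoidHom.id G).ker := by
      constructor
      rintro ⟨a, ha⟩ ⟨b, hb⟩
      have ha' : a = 1 := ha
      have hb' : b = 1 := hb
      exact Subtype.ext (ha'.trans hb'.symm)
    have h2 : Subsingleton (Multiplicative (ZMod 1)) := inferInstanceAs (Subsingleton (ZMod 1))
    exact ⟨⟨⟨fun _ => 1, fun _ => 1, fun _ => Subsingleton.elim _ _, fun _ => Subsingleton.elim _ _⟩,
      fun _ _ => Subsingleton.elim _ _⟩⟩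
  · intro Γ _ _ σ hσ
    refine ⟨1, ?_⟩
    rintro ⟨x, hx⟩
    refine ⟨1, ?_⟩
    have hcomm : ∀ a b : Γ, a * b = b * a :=
      (MonoidHom.isMulCommutative_of_isCyclic_of_ker_le_center σ hσ.2.1).is_comm.comm
    have hbot : commutator Γ = ⊥ := by
      rw [commutator_def, Subgroup.commutator_eq_bot_iff_le_centralizer]
      intro a _
      rw [Subgroup.mem_centralizer_iff]
      intro b _
      exact hcomm b a
    have hx1 : x = 1 := by
      have := hσ.2.2 hx
      rw [hbot] at this
      exact Subgroup.mem_bot.mp this
    subst hx1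
    rfl

end Cfsg.Agent.S3979
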