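import Cfsg.Statements.S3950
-- import your own Cfsg.Agent.* helpers here
import Mathlib
import Cfsg.Agent.Lib.Coprime.SchurBasic
import Cfsg.Agent.S3979

set_option autoImplicit false
open Cfsg

namespace Cfsg.Agent.S3950

/-- The cocycle from two characters. -/
def cocycle {G : Type*} [CommGroup G] {p : ℕ} (φ₁ φ₂ : G →* Multiplicative (ZMod p)) :
    Cfsg.Agent.Lib.Coprime.SchurBasic.BiAdd G (ZMod p) where
  toFun x y := (φ₁ x).toAdd * (φ₂ y).toAdd
  map_mul_left x x' y := by
    rw [map_mul]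
    show ((φ₁ x).toAdd + (φ₁ x').toAdd) * _ = _
    rw [add_mul]
  map_mul_right x y y' := by
    rw [map_mul]
    show _ * ((φ₂ y).toAdd + (φ₂ y').toAdd) = _
    rw [mul_add]

/-- A noncyclic finite abelian group has two independent characters modulo some prime. -/
theorem exists_chars {G : Type*} [CommGroup G] [Finite G] (h : ¬ IsCyclic G) :
    ∃ (p : ℕ) (_ : p.Prime) (φ₁ φ₂ : G →* Multiplicative (ZMod p)) (x y : G),
      (φ₁ x).toAdd * (φ₂ y).toAdd - (φ₁ y).toAdd * (φ₂ x).toAdd = 1 := by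
  classical
  obtain ⟨ι, _, n, hn, ⟨e⟩⟩ := CommGroup.equiv_prod_multiplicative_zmod_of_finite G
  by_cases hcop : Pairwise (Function.onFun Nat.Coprime n)
  · exfalso
    apply h
    have e2 := ZMod.prodEquivPi n hcop
    let f : Multiplicative (ZMod (∏ i, n i)) →* G :=
      e.symm.toMonoidHom.comp
        { toFun := fun a i => Multiplicative.ofAdd (e2 a.toAdd i)
          map_one' := by
            funext i
            show Multiplicative.ofAdd (e2 0 i) = 1
            rw [map_zero]; rfl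
          map_mul' := by
            intro a b
            funext i
            show Multiplicative.ofAdd (e2 (a.toAdd + b.toAdd) i) = _
            rw [map_add]; rfl }
    refine isCyclic_of_surjective f ?_
    intro g
    refine ⟨Multiplicative.ofAdd (e2.symm (fun i => (e g i).toAdd)), ?_⟩
    apply e.injective
    simp [f]
  · simp only [Pairwise, not_forall] at hcop
    obtain ⟨i, j, hij, hnc⟩ := hcop
    obtain ⟨p, hp, hpi, hpj⟩ := Nat.Prime.not_coprime_iff_dvd.mp hnc
    let c : ∀ k : ι, (p ∣ n k) → (G →* Multiplicative (ZMod p)) := fun k hk =>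
      ((ZMod.castHom hk (ZMod p)).toAddMonoidHom.toMultiplicative).comp
        ((Pi.evalMonoidHom _ k).comp e.toMonoidHom)
    refine ⟨p, hp, c i hpi, c j hpj, e.symm (Pi.mulSingle i (Multiplicative.ofAdd 1)),
      e.symm (Pi.mulSingle j (Multiplicative.ofAdd 1)), ?_⟩
    have hc : ∀ (k : ι) (hk : p ∣ n k) (g : G),
        (c k hk g).toAdd = ZMod.castHom hk (ZMod p) (e g k).toAdd := fun _ _ _ => rfl
    have h1 : (c i hpi (e.symm (Pi.mulSingle i (Multiplicative.ofAdd 1)))).toAdd = 1 := by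
      rw [hc, MulEquiv.apply_symm_apply, Pi.mulSingle_eq_same, toAdd_ofAdd, map_one]
    have h2 : (c j hpj (e.symm (Pi.mulSingle j (Multiplicative.ofAdd 1)))).toAdd = 1 := by
      rw [hc, MulEquiv.apply_symm_apply, Pi.mulSingle_eq_same, toAdd_ofAdd, map_one]
    have h3 : (c i hpi (e.symm (Pi.mulSingle j (Multiplicative.ofAdd 1)))).toAdd = 0 := by
      rw [hc, MulEquiv.apply_symm_apply, Pi.mulSingle_eq_of_ne hij, toAdd_one, map_zero]
    rw [h1, h2, h3]
    simp
theorem hxy' {G : Type*} [CommGroup G] {p : ℕ} (φ₁ φ₂ : G →* Multiplicative (ZMod p)) (x y : G)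
    (h : (φ₁ x).toAdd * (φ₂ y).toAdd - (φ₁ y).toAdd * (φ₂ x).toAdd = 1) :
    (cocycle φ₁ φ₂).toFun x y - (cocycle φ₁ φ₂).toFun y x = 1 := h

/-- A finite abelian group has trivial Schur multiplier if and only if it is cyclic. -/
theorem result {G : Type*} [CommGroup G] [Finite G] : Cfsg.HasCyclicSchurMultiplier G 1 ↔ IsCyclic G := by
  classical
  constructor
  · intro h
    by_contra hnc
    obtain ⟨p, hp, φ₁, φ₂, x, y, hxy⟩ := exists_chars hnc
    haveI : Fact p.Prime := ⟨hp⟩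
    have hδ : (cocycle φ₁ φ₂).toFun x y - (cocycle φ₁ φ₂).toFun y x = 1 := hxy' φ₁ φ₂ x y hxy
    have h2 := Cfsg.Agent.Lib.Coprime.SchurBasic.Twist.inc_mem_commutator (β := cocycle φ₁ φ₂)
      (x := x) (y := y) (mul_comm _ _)
    rw [hδ] at h2
    have hstem : Cfsg.IsStemExtension (Cfsg.Agent.Lib.Coprime.SchurBasic.Twist.proj :
        Cfsg.Agent.Lib.Coprime.SchurBasic.Twist (cocycle φ₁ φ₂) →* G) := by
      refine ⟨Cfsg.Agent.Lib.Coprime.SchurBasic.Twist.proj_surjective,
        Cfsg.Agent.Lib.Coprime.SchurBasic.Twist.ker_proj_le_center, ?_⟩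
      intro a ha
      have ha' : a.fst = 1 := ha
      have h1 : a = Cfsg.Agent.Lib.Coprime.SchurBasic.Twist.inc a.snd :=
        Cfsg.Agent.Lib.Coprime.SchurBasic.Twist.ext ha' rfl
      have h4 : ((Cfsg.Agent.Lib.Coprime.SchurBasic.Twist.incHom (β := cocycle φ₁ φ₂)
          (Multiplicative.ofAdd (1 : ZMod p))) ^ (ZMod.val a.snd)) = a := by
        rw [← map_pow, ← ofAdd_nsmul]
        have h5 : (ZMod.val a.snd) • (1 : ZMod p) = a.snd := by
          rw [nsmul_eq_mul, mul_one, ZMod.natCast_zmod_val]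
        rw [h5]
        exact h1.symm
      rw [← h4]
      exact Subgroup.pow_mem _ h2 _
    obtain ⟨π, hπ⟩ := h.2 _ _ hstem
    have h3 : (Cfsg.Agent.Lib.Coprime.SchurBasic.Twist.inc 1 : Cfsg.Agent.Lib.Coprime.SchurBasic.Twist (cocycle φ₁ φ₂)) ∈
        (Cfsg.Agent.Lib.Coprime.SchurBasic.Twist.proj :
        Cfsg.Agent.Lib.Coprime.SchurBasic.Twist (cocycle φ₁ φ₂) →* G).ker := rfl
    obtain ⟨t, ht⟩ := hπ ⟨_, h3⟩
    have hs : Subsingleton (Multiplicative (ZMod 1)) := inferInstanceAs (Subsingleton (ZMod 1))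
    have ht1 : t = 1 := Subsingleton.elim _ _
    rw [ht1, map_one] at ht
    have h6 : (Cfsg.Agent.Lib.Coprime.SchurBasic.Twist.inc 1 : Cfsg.Agent.Lib.Coprime.SchurBasic.Twist (cocycle φ₁ φ₂)) = 1 :=
      (congrArg (fun z : (Cfsg.Agent.Lib.Coprime.SchurBasic.Twist.proj :
        Cfsg.Agent.Lib.Coprime.SchurBasic.Twist (cocycle φ₁ φ₂) →* G).ker => (z : Cfsg.Agent.Lib.Coprime.SchurBasic.Twist (cocycle φ₁ φ₂))) ht).symm
    have h7 : (1 : ZMod p) = 0 := congrArg Cfsg.Agent.Lib.Coprime.SchurBasic.Twist.snd h6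
    exact one_ne_zero h7
  · intro h
    exact Cfsg.Agent.S3979.result

end Cfsg.Agent.S3950
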