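import Cfsg.Statements.S3951
-- import your own Cfsg.Agent.* helpers here
import Mathlib
import Cfsg.Agent.Lib.Coprime.SchurBasic

set_option autoImplicit false
open Cfsg

namespace Cfsg.Agent.S3951

open Cfsg.Agent.Lib.Coprime.SchurBasic in
/-- The cocycle `((a, b), (a', b')) ↦ a b'`. -/
def cocycle (m n : ℕ) (hnm : n ∣ m) : BiAdd (Multiplicative (ZMod m × ZMod n)) (ZMod n) where
  toFun x y := ZMod.castHom hnm (ZMod n) x.toAdd.1 * y.toAdd.2
  map_mul_left x x' y := by
    show ZMod.castHom hnm (ZMod n) (x.toAdd.1 + x'.toAdd.1) * _ = _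
    rw [map_add, add_mul]
  map_mul_right x y y' := by
    show _ * (y.toAdd.2 + y'.toAdd.2) = _
    rw [mul_add]

/-- For positive integers `m` and `n` with `n` dividing `m`, the Schur multiplier of the abelian group `ZMod m × ZMod n` (written multiplicatively) is cyclic of order `n`. In particular the elementary abelian group of order `p ^ 2` has multiplier of order `p`. -/
theorem result (m n : ℕ) [NeZero m] [NeZero n] (hnm : n ∣ m) : Cfsg.HasCyclicSchurMultiplier (Multiplicative (ZMod m × ZMod n)) n := by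
  classical
  refine ⟨⟨Cfsg.Agent.Lib.Coprime.SchurBasic.Twist (cocycle m n hnm), inferInstance, inferInstance,
    Cfsg.Agent.Lib.Coprime.SchurBasic.Twist.proj, ⟨Cfsg.Agent.Lib.Coprime.SchurBasic.Twist.proj_surjective,
      Cfsg.Agent.Lib.Coprime.SchurBasic.Twist.ker_proj_le_center, ?_⟩,
    ⟨Cfsg.Agent.Lib.Coprime.SchurBasic.Twist.kerEquiv⟩⟩, ?_⟩
  · -- the kernel is in the commutator
    intro a ha
    have ha' : a.fst = 1 := ha
    have h1 : a = Cfsg.Agent.Lib.Coprime.SchurBasic.Twist.inc a.snd :=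
      Cfsg.Agent.Lib.Coprime.SchurBasic.Twist.ext ha' rfl
    let x₀ : Multiplicative (ZMod m × ZMod n) := Multiplicative.ofAdd (1, 0)
    let y₀ : Multiplicative (ZMod m × ZMod n) := Multiplicative.ofAdd (0, 1)
    have h2 := Cfsg.Agent.Lib.Coprime.SchurBasic.Twist.inc_mem_commutator (β := cocycle m n hnm)
      (x := x₀) (y := y₀) (mul_comm _ _)
    have h3 : (cocycle m n hnm).toFun x₀ y₀ - (cocycle m n hnm).toFun y₀ x₀ = 1 := by
      show ZMod.castHom hnm (ZMod n) (1 : ZMod m) * (1 : ZMod n) - ZMod.castHom hnm (ZMod n) (0 : ZMod m) * (0 : ZMod n) = 1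
      rw [map_one, map_zero]
      simp
    rw [h3] at h2
    have h4 : ((Cfsg.Agent.Lib.Coprime.SchurBasic.Twist.incHom (β := cocycle m n hnm)
        (Multiplicative.ofAdd (1 : ZMod n))) ^ (ZMod.val a.snd)) = a := by
      rw [← map_pow, ← ofAdd_nsmul]
      have h5 : (ZMod.val a.snd) • (1 : ZMod n) = a.snd := by
        rw [nsmul_eq_mul, mul_one, ZMod.natCast_zmod_val]
      rw [h5]
      exact h1.symm
    rw [← h4]
    exact Subgroup.pow_mem _ h2 _
  · -- every stem extension has kernel a quotient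
    intro Γ _ _ τ hτ
    obtain ⟨a, ha⟩ := hτ.1 (Multiplicative.ofAdd ((1 : ZMod m), (0 : ZMod n)))
    obtain ⟨b, hb⟩ := hτ.1 (Multiplicative.ofAdd ((0 : ZMod m), (1 : ZMod n)))
    have hqcomm : ∀ x y : Multiplicative (ZMod m × ZMod n), x * y = y * x := mul_comm
    let c : Γ := a * b * a⁻¹ * b⁻¹
    have hcker : c ∈ τ.ker := by
      show τ (a * b * a⁻¹ * b⁻¹) = 1
      simp only [map_mul, map_inv, hqcomm (τ a) (τ b)]
      group
    have hcen : ∀ k ∈ τ.ker, ∀ g : Γ, g * k = k * g := fun k hk g =>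
      (Subgroup.mem_center_iff.mp (hτ.2.1 hk)) g
    have hcz : ∀ z ∈ Subgroup.zpowers c, ∀ g : Γ, g * z = z * g := by
      intro z hz g
      exact hcen z ((Subgroup.zpowers_le.mpr hcker) hz) g
    haveI hKn : (Subgroup.zpowers c).Normal := by
      constructor
      intro z hz g
      rw [hcz z hz g]
      simpa using hz
    -- generators
    have hcl : Subgroup.closure (({a, b} : Set Γ) ∪ (τ.ker : Set Γ)) = ⊤ := by
      rw [eq_top_iff]
      intro g _
      have hak : a ∈ Subgroup.closure (({a, b} : Set Γ) ∪ (τ.ker : Set Γ)) :=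
        Subgroup.subset_closure (Or.inl (Or.inl rfl))
      have hbk : b ∈ Subgroup.closure (({a, b} : Set Γ) ∪ (τ.ker : Set Γ)) :=
        Subgroup.subset_closure (Or.inl (Or.inr rfl))
      let u : ZMod m := (τ g).toAdd.1
      let v : ZMod n := (τ g).toAdd.2
      have hτg : τ (a ^ u.val * b ^ v.val) = τ g := by
        rw [map_mul, map_pow, map_pow, ha, hb]
        show Multiplicative.ofAdd _ = _
        apply Multiplicative.toAdd.injective
        apply Prod.ext
        · show (u.val • (1 : ZMod m)) + (v.val • (0 : ZMod m)) = u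
          simp [u]
        · show (u.val • (0 : ZMod n)) + (v.val • (1 : ZMod n)) = v
          simp [v]
      have hk : (a ^ u.val * b ^ v.val)⁻¹ * g ∈ τ.ker := by
        rw [MonoidHom.mem_ker, map_mul, map_inv, hτg]
        simp
      have hk' : (a ^ u.val * b ^ v.val)⁻¹ * g ∈ Subgroup.closure (({a, b} : Set Γ) ∪ (τ.ker : Set Γ)) :=
        Subgroup.subset_closure (Or.inr hk)
      have := Subgroup.mul_mem _ (Subgroup.mul_mem _ (Subgroup.pow_mem _ hak u.val) (Subgroup.pow_mem _ hbk v.val)) hk'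
      have h5 : a ^ u.val * b ^ v.val * ((a ^ u.val * b ^ v.val)⁻¹ * g) = g := by group
      rwa [h5] at this
    have hcomm : commutator Γ ≤ Subgroup.zpowers c := by
      refine Cfsg.Agent.Lib.Coprime.SchurBasic.commutator_le_of_closure _ _ hcl ?_
      have hk1 : ∀ k ∈ τ.ker, ∀ g : Γ, k * g * k⁻¹ * g⁻¹ = 1 := by
        intro k hk g
        rw [← hcen k hk g]
        group
      have hk2 : ∀ k ∈ τ.ker, ∀ g : Γ, g * k * g⁻¹ * k⁻¹ = 1 := by
        intro k hk g
        rw [hcen k hk g]
        group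
      intro x hx y hy
      rcases hx with (hx | hx) | hx
      · rcases hy with (hy | hy) | hy
        · rw [hx, hy]; simp
        · rw [hx, hy]; exact Subgroup.mem_zpowers _
        · rw [hk2 y hy]; exact Subgroup.one_mem _
      · rcases hy with (hy | hy) | hy
        · have h1 : x * y * x⁻¹ * y⁻¹ = c⁻¹ := by
            rw [hx, hy]
            show b * a * b⁻¹ * a⁻¹ = (a * b * a⁻¹ * b⁻¹)⁻¹
            group
          rw [h1]
          exact Subgroup.inv_mem _ (Subgroup.mem_zpowers _)
        · have hx' : x = b := hx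
          have hy' : y = b := hy
          rw [hx', hy']; simp
        · rw [hk2 y hy]; exact Subgroup.one_mem _
      · rw [hk1 x hx]; exact Subgroup.one_mem _
    -- `c ^ n = 1`
    have hbn : b ^ n ∈ τ.ker := by
      rw [MonoidHom.mem_ker, map_pow, hb]
      apply Multiplicative.toAdd.injective
      apply Prod.ext
      · show n • (0 : ZMod m) = 0
        simp
      · show n • (1 : ZMod n) = 0
        simp
    have hcb : Commute c b := hcen c hcker b |>.symm
    have hab : a * b * a⁻¹ = c * b := by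
      show a * b * a⁻¹ = a * b * a⁻¹ * b⁻¹ * b
      group
    have hcn : c ^ n = 1 := by
      have h1 : a * b ^ n * a⁻¹ = (a * b * a⁻¹) ^ n := by
        rw [conj_pow]
      have h2 : a * b ^ n * a⁻¹ = b ^ n := by
        rw [hcen _ hbn a]
        group
      rw [h2, hab, hcb.mul_pow] at h1
      have h3 : (1 : Γ) * b ^ n = c ^ n * b ^ n := by rw [one_mul]; exact h1
      exact (mul_right_cancel h3).symm
    letI cg : CommGroup τ.ker := { (inferInstance : Group τ.ker) with
      mul_comm := fun u v => Subtype.ext (hcen u u.2 v).symm }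
    have hc'n : (⟨c, hcker⟩ : τ.ker) ^ n = 1 := by
      apply Subtype.ext
      exact hcn
    obtain ⟨π, hπ⟩ := Cfsg.Agent.Lib.Coprime.SchurBasic.exists_zmod_hom n (⟨c, hcker⟩ : τ.ker) hc'n
    refine ⟨π, ?_⟩
    rintro ⟨k, hk⟩
    have hk' : k ∈ Subgroup.zpowers c := hcomm (hτ.2.2 hk)
    obtain ⟨i, hi⟩ := Subgroup.mem_zpowers_iff.mp hk'
    refine ⟨Multiplicative.ofAdd (i : ZMod n), ?_⟩
    rw [hπ]
    apply Subtype.ext
    show c ^ i = k
    exact hi

end Cfsg.Agent.S3951
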