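import Cfsg.Statements.S3952
-- import your own Cfsg.Agent.* helpers here
import Mathlib
import Cfsg.Agent.Lib.Coprime.SchurExp
import Cfsg.Agent.Lib.KnownSimple.Schur

set_option autoImplicit false
open Cfsg

namespace Cfsg.Agent.S3952

/-- If `A` is the Schur multiplier of the finite group `Q`, then the square of the exponent of `A` divides the order of `Q`. -/
theorem result {Q : Type*} [Group Q] [Finite Q] {A : Type*} [CommGroup A] (hA : Cfsg.HasSchurMultiplier Q A) : Monoid.exponent A ^ 2 ∣ Nat.card Q := by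
  classical
  obtain ⟨⟨Γ, _, _, σ, hσ, ⟨e₀⟩⟩, _⟩ := hA
  haveI : Finite A := Finite.of_equiv _ e₀.toEquiv
  have hE0 : Monoid.exponent A ≠ 0 := Monoid.exponent_ne_zero_of_finite
  have hQ0 : Nat.card Q ≠ 0 := Nat.card_pos.ne'
  rw [← Nat.factorization_prime_le_iff_dvd (pow_ne_zero 2 hE0) hQ0]
  intro p hp
  haveI : Fact p.Prime := ⟨hp⟩
  rw [Nat.factorization_pow]
  obtain ⟨e, he⟩ : ∃ e, e = (Monoid.exponent A).factorization p := ⟨_, rfl⟩
  simp only [Finsupp.smul_apply, smul_eq_mul]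
  rw [← he, ← hp.pow_dvd_iff_le_factorization hQ0]
  -- an element of order `p ^ e`
  obtain ⟨g, hg⟩ := Monoid.exists_orderOf_eq_exponent (Monoid.exponent_ne_zero.mp hE0)
  have hpe : p ^ e ∣ orderOf g := by
    rw [hg, he]
    exact Nat.ordProj_dvd _ _
  have ha : orderOf (g ^ (orderOf g / p ^ e)) = p ^ e :=
    orderOf_pow_orderOf_div (by rw [hg]; exact hE0) hpe
  let k : σ.ker := e₀.symm (g ^ (orderOf g / p ^ e))
  have hko : orderOf (k : Γ) = p ^ e := by
    rw [Subgroup.orderOf_coe, MulEquiv.orderOf_eq, ha]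
  have hkc : ∀ y : Γ, y * (k : Γ) = (k : Γ) * y := fun y => Subgroup.mem_center_iff.mp (hσ.2.1 k.2) y
  obtain ⟨S⟩ : Nonempty (Sylow p Γ) := inferInstance
  have hkS : (k : Γ) ∈ (S : Subgroup Γ) := by
    have hzp : IsPGroup p (Subgroup.zpowers (k : Γ)) := by
      rw [IsPGroup.iff_card, Nat.card_zpowers, hko]
      exact ⟨e, rfl⟩
    haveI hn : (Subgroup.zpowers (k : Γ)).Normal := by
      constructor
      intro u hu y
      obtain ⟨j, rfl⟩ := Subgroup.mem_zpowers_iff.mp hu
      have h1 : Commute y ((k : Γ) ^ j) := Commute.zpow_right (hkc y) j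
      rw [h1.eq]
      simpa using hu
    exact hzp.le_sylow_of_normal S (Subgroup.mem_zpowers _)
  have hcop : Nat.Coprime (orderOf (k : Γ)) (S : Subgroup Γ).index := by
    rw [hko]
    exact Nat.Coprime.pow_left e ((Nat.Prime.coprime_iff_not_dvd hp).mpr S.not_dvd_index)
  have hkcomm := Cfsg.Agent.Lib.KnownSimple.mem_commutator_of_central (S : Subgroup Γ) hkc hkS (hσ.2.2 k.2) hcop
  rw [← Subgroup.map_subtype_commutator] at hkcomm
  obtain ⟨w, hw, hwk⟩ := hkcomm
  have hwk' : (w : Γ) = (k : Γ) := hwk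
  have hbound := Cfsg.Agent.Lib.Coprime.SchurExp.pow_le_index_center (p := p) _ (S : Subgroup Γ) rfl S.isPGroup' w hw
    (by
      intro y
      apply Subtype.ext
      show (y : Γ) * (w : Γ) = (w : Γ) * y
      rw [hwk']
      exact hkc y) e (by rw [← Subgroup.orderOf_coe, hwk', hko])
  -- the index divides the order of `Q`
  let f : (S : Subgroup Γ) →* Q := σ.comp (S : Subgroup Γ).subtype
  have hfk : f.ker ≤ Subgroup.center (S : Subgroup Γ) := by
    intro x hx
    rw [Subgroup.mem_center_iff]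
    intro y
    apply Subtype.ext
    have h1 : (x : Γ) ∈ σ.ker := hx
    exact Subgroup.mem_center_iff.mp (hσ.2.1 h1) y
  have hd1 : (Subgroup.center (S : Subgroup Γ)).index ∣ Nat.card Q := by
    have h1 := Subgroup.index_dvd_of_le hfk
    rw [Subgroup.index_ker] at h1
    exact h1.trans (Subgroup.card_subgroup_dvd_card _)
  have hd2 : (Subgroup.center (S : Subgroup Γ)).index ∣ Nat.card (S : Subgroup Γ) :=
    Subgroup.index_dvd_card _
  obtain ⟨n, hn⟩ := IsPGroup.iff_card.mp S.isPGroup'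
  rw [hn] at hd2
  obtain ⟨j, -, hj⟩ := (Nat.dvd_prime_pow hp).mp hd2
  rw [hj] at hd1 hbound
  have hle : 2 * e ≤ j := (Nat.pow_le_pow_iff_right hp.one_lt).mp hbound
  have h2e : e * 2 = 2 * e := mul_comm _ _
  exact (pow_dvd_pow p hle).trans hd1

end Cfsg.Agent.S3952
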