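import Cfsg.Statements.S3954
-- import your own Cfsg.Agent.* helpers here
import Mathlib
import Cfsg.Agent.Lib.Coprime.SchurPull

set_option autoImplicit false
open Cfsg

namespace Cfsg.Agent.S3954

/-- Let `U` be a subgroup of index `m` in the finite group `G`, let `A` be the Schur multiplier of `G` and `B` that of `U`. Then the subgroup of `m`-th powers of `A` is isomorphic to a subgroup of `B`. -/
theorem result {G : Type*} [Group G] [Finite G] (U : Subgroup G) {A B : Type*} [CommGroup A] [CommGroup B] (hA : Cfsg.HasSchurMultiplier G A) (hB : Cfsg.HasSchurMultiplier U B) : ∃ C : Subgroup B, Nonempty ((powMonoidHom U.index : A →* A).range ≃* C) := by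
  classical
  obtain ⟨⟨Γ, _, _, σ, hσ, ⟨e₀⟩⟩, _⟩ := hA
  obtain ⟨H, hH⟩ : ∃ H : Subgroup Γ, H = U.comap σ := ⟨_, rfl⟩
  have hHmem : ∀ h : H, σ h ∈ U := by
    intro h
    have h0 : (h : Γ) ∈ U.comap σ := hH ▸ h.2
    exact h0
  let ξ : H →* U := (σ.comp H.subtype).codRestrict U hHmem
  have hξv : ∀ h : H, ((ξ h : U) : G) = σ h := fun _ => rfl
  have hξs : Function.Surjective ξ := by
    rintro ⟨u, hu⟩
    obtain ⟨g, hg⟩ := hσ.1 u
    have hgH : g ∈ H := by
      rw [hH, Subgroup.mem_comap, hg]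
      exact hu
    exact ⟨⟨g, hgH⟩, Subtype.ext hg⟩
  have hξker : ∀ h : H, h ∈ ξ.ker → (h : Γ) ∈ σ.ker := by
    intro h hh
    have h1 : ξ h = 1 := hh
    have h2 := congrArg Subtype.val h1
    exact h2
  have hξc : ξ.ker ≤ Subgroup.center H := by
    intro h hh
    rw [Subgroup.mem_center_iff]
    intro g
    apply Subtype.ext
    exact Subgroup.mem_center_iff.mp (hσ.2.1 (hξker h hh)) g
  obtain ⟨π, hπ⟩ := Cfsg.Agent.Lib.Coprime.SchurPull.ker_image hB ξ hξs hξc
  let κ : ↥(ξ.ker ⊓ commutator H) →* A :=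
    { toFun := fun w => e₀ ⟨((w : H) : Γ), hξker _ (Subgroup.mem_inf.mp w.2).1⟩
      map_one' := by
        have : (⟨((1 : ↥(ξ.ker ⊓ commutator H)) : H).1, hξker _ (Subgroup.mem_inf.mp (1 : ↥(ξ.ker ⊓ commutator H)).2).1⟩ : σ.ker) = 1 := rfl
        rw [this, map_one]
      map_mul' := by
        intro a b
        rw [← map_mul]
        rfl }
  let g : B →* A := κ.comp π
  obtain ⟨R, hR⟩ : ∃ R : Subgroup A, R = (powMonoidHom U.index : A →* A).range := ⟨_, rfl⟩
  have hRle : ∀ r ∈ R, ∃ b, g b = r := by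
    intro r hr
    rw [hR] at hr
    obtain ⟨a, rfl⟩ := hr
    let k : σ.ker := e₀.symm a
    have hk1 : ((k : Γ) ^ U.index) ∈ H := by
      rw [hH, Subgroup.mem_comap, map_pow, MonoidHom.mem_ker.mp k.2, one_pow]
      exact Subgroup.one_mem _
    have hk2 : (k : Γ) ∈ H := by
      rw [hH, Subgroup.mem_comap, MonoidHom.mem_ker.mp k.2]
      exact Subgroup.one_mem _
    have hidx : H.index = U.index := by
      rw [hH]
      exact Subgroup.index_comap_of_surjective _ hσ.1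
    have h3 := Cfsg.Agent.Lib.Coprime.SchurPull.pow_index_mem_commutator H (z := (k : Γ))
      (fun y => Subgroup.mem_center_iff.mp (hσ.2.1 k.2) y) hk2 (hσ.2.2 k.2)
    rw [hidx, ← Subgroup.map_subtype_commutator] at h3
    obtain ⟨w, hw, hwz⟩ := h3
    have hwk : w ∈ ξ.ker := by
      apply Subtype.ext
      show σ (w : Γ) = 1
      have h4 : (w : Γ) = (k : Γ) ^ U.index := hwz
      rw [h4, map_pow, MonoidHom.mem_ker.mp k.2, one_pow]
    obtain ⟨b, hb⟩ := hπ ⟨w, Subgroup.mem_inf.mpr ⟨hwk, hw⟩⟩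
    refine ⟨b, ?_⟩
    show κ (π b) = _
    rw [hb]
    show e₀ ⟨(w : Γ), _⟩ = a ^ U.index
    have h5 : (⟨(w : Γ), hξker _ hwk⟩ : σ.ker) = k ^ U.index := Subtype.ext hwz
    rw [h5, map_pow]
    simp [k]
  haveI : Finite B := by
    obtain ⟨⟨Γ', _, _, σ', hσ', ⟨e'⟩⟩, _⟩ := hB
    exact Finite.of_equiv _ e'.toEquiv
  let B₁ : Subgroup B := R.comap g
  let g₁ : B₁ →* R := (g.comp B₁.subtype).codRestrict R (fun b => b.2)
  have hg₁ : Function.Surjective g₁ := by
    rintro ⟨r, hr⟩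
    obtain ⟨b, hb⟩ := hRle r hr
    have hbm : b ∈ B₁ := by
      show g b ∈ R
      rw [hb]
      exact hr
    exact ⟨⟨b, hbm⟩, Subtype.ext hb⟩
  obtain ⟨C, ⟨f⟩⟩ := Cfsg.Agent.Lib.Coprime.SchurPull.embed_of_surj g₁ hg₁
  refine ⟨C.map B₁.subtype, ?_⟩
  rw [← hR]
  exact ⟨f.trans (C.equivMapOfInjective _ B₁.subtype_injective)⟩

end Cfsg.Agent.S3954
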