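import Cfsg.Statements.S3955
-- import your own Cfsg.Agent.* helpers here
import Mathlib
import Cfsg.Agent.Lib.Coprime.SchurPull

set_option autoImplicit false
open Cfsg

namespace Cfsg.Agent.S3955

/-- Let `Q` be a finite group with Schur multiplier `A`, and let `σ : Γ →* Q` be a finite stem extension whose kernel is isomorphic to `A` (a Schur covering group of `Q`). Then every homomorphism `γ` from `Q` to the quotient of `GL n ℂ` by its centre lifts along `σ`: there is a homomorphism `ρ : Γ →* GL n ℂ` which, followed by the quotient map, equals `γ ∘ σ`. -/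
theorem result {Q : Type*} [Group Q] [Finite Q] {A : Type*} [CommGroup A] (hA : Cfsg.HasSchurMultiplier Q A) {Γ : Type*} [Group Γ] [Finite Γ] (σ : Γ →* Q) (hσ : Cfsg.IsStemExtension σ) (hk : Nonempty (σ.ker ≃* A)) (n : ℕ) (γ : Q →* (GL (Fin n) ℂ ⧸ Subgroup.center (GL (Fin n) ℂ))) : ∃ ρ : Γ →* GL (Fin n) ℂ, (QuotientGroup.mk' (Subgroup.center (GL (Fin n) ℂ))).comp ρ = γ.comp σ := by
  classical
  open Cfsg.Agent.Lib.Coprime.SchurPull in
  have hker : (QuotientGroup.mk' (Subgroup.center (GL (Fin n) ℂ))).ker ≤ Subgroup.center (GL (Fin n) ℂ) := by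
    rw [QuotientGroup.ker_mk']
  have hsmk := QuotientGroup.mk'_surjective (Subgroup.center (GL (Fin n) ℂ))
  have hdivv : ∀ (m : ℕ) (c : Cfsg.Agent.Lib.Coprime.SchurPull.pull γ (QuotientGroup.mk' (Subgroup.center (GL (Fin n) ℂ)))),
      c ∈ (Cfsg.Agent.Lib.Coprime.SchurPull.pr₁ γ (QuotientGroup.mk' (Subgroup.center (GL (Fin n) ℂ)))).ker → m ≠ 0 →
      ∃ d ∈ (Cfsg.Agent.Lib.Coprime.SchurPull.pr₁ γ (QuotientGroup.mk' (Subgroup.center (GL (Fin n) ℂ)))).ker, d ^ m = c := by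
    rintro m ⟨⟨q, g⟩, hp⟩ hc hm
    have hq : q = 1 := hc
    subst hq
    have hg : g ∈ Subgroup.center (GL (Fin n) ℂ) := by
      have h := Cfsg.Agent.Lib.Coprime.SchurPull.mem_pull.mp hp
      rw [map_one] at h
      exact (QuotientGroup.eq_one_iff _).mp h.symm
    rw [Matrix.GeneralLinearGroup.center_eq_range_scalar] at hg
    obtain ⟨u, rfl⟩ := hg
    obtain ⟨v, hv⟩ := IsAlgClosed.exists_pow_nat_eq (u : ℂ) (Nat.pos_of_ne_zero hm)
    have hv0 : v ≠ 0 := by
      rintro rfl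
      rw [zero_pow hm] at hv
      exact u.ne_zero hv.symm
    let w : ℂˣ := Units.mk0 v hv0
    have hw : w ^ m = u := by
      ext
      simpa [w] using hv
    have hmem : ((1 : Q), Matrix.GeneralLinearGroup.scalar (Fin n) w) ∈ Cfsg.Agent.Lib.Coprime.SchurPull.pull γ (QuotientGroup.mk' (Subgroup.center (GL (Fin n) ℂ))) := by
      rw [Cfsg.Agent.Lib.Coprime.SchurPull.mem_pull, map_one]
      symm
      refine (QuotientGroup.eq_one_iff _).mpr ?_
      rw [Matrix.GeneralLinearGroup.center_eq_range_scalar]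
      exact ⟨w, rfl⟩
    refine ⟨⟨_, hmem⟩, rfl, ?_⟩
    apply Subtype.ext
    apply Prod.ext
    · simp
    · show (Matrix.GeneralLinearGroup.scalar (Fin n) w) ^ m = Matrix.GeneralLinearGroup.scalar (Fin n) u
      rw [← map_pow, hw]
  obtain ⟨ρ₀, hρ₀⟩ := Cfsg.Agent.Lib.Coprime.SchurPull.lift_of_cover hA σ hσ hk
    (Cfsg.Agent.Lib.Coprime.SchurPull.pr₁ γ (QuotientGroup.mk' (Subgroup.center (GL (Fin n) ℂ))))
    (Cfsg.Agent.Lib.Coprime.SchurPull.pr₁_surjective γ hsmk)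
    (Cfsg.Agent.Lib.Coprime.SchurPull.ker_pr₁_le_center γ hker) hdivv
  refine ⟨(Cfsg.Agent.Lib.Coprime.SchurPull.pr₂ γ (QuotientGroup.mk' (Subgroup.center (GL (Fin n) ℂ)))).comp ρ₀, ?_⟩
  ext x
  have h1 := Cfsg.Agent.Lib.Coprime.SchurPull.mem_pull.mp (ρ₀ x).2
  have h2 : (ρ₀ x).1.1 = σ x := congrArg (fun f : Γ →* Q => f x) hρ₀
  rw [h2] at h1
  exact congrArg (fun z => z) h1.symm

end Cfsg.Agent.S3955
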