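import Cfsg.Statements.S3956
-- import your own Cfsg.Agent.* helpers here
import Mathlib
import Cfsg.Agent.Lib.Coprime.SchurPull

set_option autoImplicit false
universe u v
open Cfsg

namespace Cfsg.Agent.S3956

/-- Functions on `Δ` transforming by `ψ` under left multiplication by `N`. -/
def covSpace {Δ : Type*} [Group Δ] (N : Subgroup Δ) (ψ : N →* ℂˣ) : Submodule ℂ (Δ → ℂ) where
  carrier := {f | ∀ (k : N) (x : Δ), f ((k : Δ) * x) = (ψ k : ℂ) * f x}
  add_mem' := by
    intro a b ha hb k x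
    show a _ + b _ = _ * (a x + b x)
    rw [ha k x, hb k x, mul_add]
  zero_mem' := by
    intro k x
    simp
  smul_mem' := by
    intro c a ha k x
    show c * a _ = _ * (c * a x)
    rw [ha k x]
    ring

/-- Right translation. -/
def rtrans {Δ : Type*} [Group Δ] (N : Subgroup Δ) (ψ : N →* ℂˣ) : Δ →* Module.End ℂ (covSpace N ψ) where
  toFun d :=
    { toFun := fun f => ⟨fun x => f.1 (x * d), fun k x => by
        have := f.2 k (x * d)
        rwa [← mul_assoc] at this⟩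
      map_add' := fun _ _ => rfl
      map_smul' := fun _ _ => rfl }
  map_one' := by
    ext f x
    simp
  map_mul' := by
    intro a b
    ext f x
    show f.1 (x * (a * b)) = f.1 (x * a * b)
    rw [mul_assoc]

/-- Let `σ : Γ →* Q` be a finite stem extension of the finite group `Q` such that every homomorphism from `Q` to the quotient of `GL n ℂ` by its centre, for every `n`, lifts along `σ` to a homomorphism `Γ →* GL n ℂ`. Then `σ` is a Schur covering group of `Q`: for every finite stem extension `τ : Δ →* Q` with `Δ` in the same universe as `Q`, the kernel of `τ` is a homomorphic image of the kernel of `σ`. -/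
theorem result {Q : Type u} [Group Q] [Finite Q] {Γ : Type v} [Group Γ] [Finite Γ] (σ : Γ →* Q) (hσ : Cfsg.IsStemExtension σ) (hlift : ∀ (n : ℕ) (γ : Q →* (GL (Fin n) ℂ ⧸ Subgroup.center (GL (Fin n) ℂ))), ∃ ρ : Γ →* GL (Fin n) ℂ, (QuotientGroup.mk' (Subgroup.center (GL (Fin n) ℂ))).comp ρ = γ.comp σ) (Δ : Type u) [Group Δ] [Finite Δ] (τ : Δ →* Q) (hτ : Cfsg.IsStemExtension τ) : ∃ π : σ.ker →* τ.ker, Function.Surjective π := by
  classical
  refine Cfsg.Agent.Lib.Coprime.SchurPull.exists_surj_of_pull hσ hτ ?_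
  rintro ⟨⟨g, n⟩, hp⟩ hpc hp1
  have hg : g = 1 := hp1
  subst hg
  have hnk : n ∈ τ.ker := by
    have h := Cfsg.Agent.Lib.Coprime.SchurPull.mem_pull.mp hp
    rw [map_one] at h
    exact h.symm
  by_contra hne
  have hn1 : n ≠ 1 := by
    rintro rfl
    exact hne rfl
  have hcen : ∀ k ∈ τ.ker, ∀ x : Δ, k * x = x * k := fun k hk x =>
    (Subgroup.mem_center_iff.mp (hτ.2.1 hk) x).symm
  letI cg : CommGroup τ.ker := { (inferInstance : Group τ.ker) with
    mul_comm := fun a b => Subtype.ext (hcen a a.2 b) }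
  haveI : Finite τ.ker := inferInstance
  haveI : NeZero ((Monoid.exponent τ.ker : ℕ) : ℂ) := by
    constructor
    have : Monoid.exponent τ.ker ≠ 0 := Monoid.exponent_ne_zero_of_finite
    exact_mod_cast this
  obtain ⟨ψ, hψ⟩ := CommGroup.exists_apply_ne_one_of_hasEnoughRootsOfUnity τ.ker ℂ
    (a := ⟨n, hnk⟩) (by
      intro h
      exact hn1 (congrArg Subtype.val h))
  -- the representation
  let b := Module.finBasis ℂ (covSpace τ.ker ψ)
  let T := LinearMap.toMatrixAlgEquiv (R := ℂ) b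
  let M₀ : Δ →* Matrix (Fin (Module.finrank ℂ (covSpace τ.ker ψ))) (Fin (Module.finrank ℂ (covSpace τ.ker ψ))) ℂ :=
    (T.toRingEquiv.toMonoidHom).comp (rtrans τ.ker ψ)
  let M : Δ →* GL (Fin (Module.finrank ℂ (covSpace τ.ker ψ))) ℂ := M₀.toHomUnits
  have hMval : ∀ d, (M d).val = T (rtrans τ.ker ψ d) := fun d => rfl
  have hRk : ∀ k : τ.ker, rtrans τ.ker ψ (k : Δ) = (ψ k : ℂ) • 1 := by
    intro k
    ext f x
    show f.1 (x * k) = (ψ k : ℂ) * f.1 x
    rw [← hcen k k.2 x]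
    exact f.2 k x
  have hMcen : ∀ k : τ.ker, M k ∈ Subgroup.center (GL (Fin (Module.finrank ℂ (covSpace τ.ker ψ))) ℂ) := by
    intro k
    rw [Matrix.GeneralLinearGroup.mem_center_iff_val_mem_range_scalar, hMval, hRk, map_smul, map_one]
    refine ⟨(ψ k : ℂ), ?_⟩
    rw [Matrix.scalar_apply, Matrix.smul_one_eq_diagonal]
  let mk := QuotientGroup.mk' (Subgroup.center (GL (Fin (Module.finrank ℂ (covSpace τ.ker ψ))) ℂ))
  have hk : τ.ker ≤ (mk.comp M).ker := by
    intro k hk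
    exact (QuotientGroup.eq_one_iff _).mpr (hMcen ⟨k, hk⟩)
  let γ : Q →* GL (Fin (Module.finrank ℂ (covSpace τ.ker ψ))) ℂ ⧸ Subgroup.center (GL (Fin (Module.finrank ℂ (covSpace τ.ker ψ))) ℂ) :=
    τ.liftOfRightInverse (Function.surjInv hτ.1) (Function.rightInverse_surjInv hτ.1) ⟨mk.comp M, hk⟩
  have hγ : ∀ d, γ (τ d) = mk (M d) := fun d =>
    τ.liftOfRightInverse_comp_apply (Function.surjInv hτ.1) (Function.rightInverse_surjInv hτ.1) ⟨mk.comp M, hk⟩ d
  obtain ⟨ρ, hρ⟩ := hlift _ γ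
  have hρ' : ∀ g, mk (ρ g) = γ (σ g) := fun g => congrArg (fun f : Γ →* _ => f g) hρ
  -- compare on the fibre product
  have hdiff : ∀ a : Cfsg.Agent.Lib.Coprime.SchurPull.pull σ τ,
      (M.comp (Cfsg.Agent.Lib.Coprime.SchurPull.pr₂ σ τ)) a * ((ρ.comp (Cfsg.Agent.Lib.Coprime.SchurPull.pr₁ σ τ)) a)⁻¹ ∈
        Subgroup.center (GL (Fin (Module.finrank ℂ (covSpace τ.ker ψ))) ℂ) := by
    intro a
    refine (QuotientGroup.eq_one_iff _).mp ?_
    show mk (M a.1.2 * (ρ a.1.1)⁻¹) = 1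
    rw [map_mul, map_inv, ← hγ, hρ', Cfsg.Agent.Lib.Coprime.SchurPull.mem_pull.mp a.2]
    simp
  have h1 := Cfsg.Agent.Lib.Coprime.SchurPull.eq_on_commutator _ _ hdiff hpc
  have h2 : M n = 1 := by
    have h3 : ρ 1 = 1 := map_one ρ
    rw [← h3]
    exact h1
  have h4 : T (rtrans τ.ker ψ n) = 1 := by
    rw [← hMval, h2]
    rfl
  have h5 : rtrans τ.ker ψ n = 1 := by
    apply T.injective
    rw [h4, map_one]
  -- the test function
  let f₀ : Δ → ℂ := fun x => if h : x ∈ τ.ker then (ψ ⟨x, h⟩ : ℂ) else 0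
  have hf₀ : f₀ ∈ covSpace τ.ker ψ := by
    intro k x
    by_cases hx : x ∈ τ.ker
    · have hkx : (k : Δ) * x ∈ τ.ker := τ.ker.mul_mem k.2 hx
      simp only [f₀, dif_pos hx, dif_pos hkx]
      have h6 : (⟨(k : Δ) * x, hkx⟩ : τ.ker) = k * ⟨x, hx⟩ := rfl
      rw [h6, map_mul]
      simp
    · have hkx : (k : Δ) * x ∉ τ.ker := by
        intro h
        apply hx
        have := τ.ker.mul_mem (τ.ker.inv_mem k.2) h
        simpa using this
      simp only [f₀, dif_neg hx, dif_neg hkx]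
      simp
  have h6 : (rtrans τ.ker ψ n) ⟨f₀, hf₀⟩ = ⟨f₀, hf₀⟩ := by
    rw [h5]
    rfl
  have h7 : f₀ (1 * n) = f₀ 1 := congrFun (congrArg Subtype.val h6) 1
  rw [one_mul] at h7
  have h8 : f₀ n = (ψ ⟨n, hnk⟩ : ℂ) := dif_pos hnk
  have h9 : f₀ 1 = 1 := by
    have h10 : (1 : Δ) ∈ τ.ker := τ.ker.one_mem
    show (if h : (1 : Δ) ∈ τ.ker then (ψ ⟨1, h⟩ : ℂ) else 0) = 1
    rw [dif_pos h10]
    have h11 : (⟨1, h10⟩ : τ.ker) = 1 := rfl
    rw [h11, map_one]
    rfl
  apply hψ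
  apply Units.ext
  rw [← h8, h7, h9]
  rfl

end Cfsg.Agent.S3956
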