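import Cfsg.Statements.S3957
-- import your own Cfsg.Agent.* helpers here
import Mathlib
import Cfsg.Agent.Lib.Coprime.SchurFree

set_option autoImplicit false
universe u v
open Cfsg

namespace Cfsg.Agent.S3957

/-- Let `Q` be a finite group with Schur multiplier `A` and let `τ : Δ →* Q` be a finite stem extension, `Δ` in the universe of `Q`. Then there is a finite stem extension `σ : Γ →* Q` with kernel isomorphic to `A` (a Schur covering group) and a surjective homomorphism `β : Γ →* Δ` with `τ ∘ β = σ`. -/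
theorem result {Q : Type u} [Group Q] [Finite Q] {A : Type v} [CommGroup A] (hA : Cfsg.HasSchurMultiplier Q A) {Δ : Type u} [Group Δ] [Finite Δ] (τ : Δ →* Q) (hτ : Cfsg.IsStemExtension τ) : ∃ (Γ : Type u) (_ : Group Γ) (_ : Finite Γ) (σ : Γ →* Q), Cfsg.IsStemExtension σ ∧ Nonempty (σ.ker ≃* A) ∧ ∃ β : Γ →* Δ, Function.Surjective β ∧ τ.comp β = σ := by
  classical
  open Cfsg.Agent.Lib.Coprime.SchurFree Cfsg.Agent.Lib.Coprime.SchurBasic Cfsg.Agent.Lib.Coprime.SchurExt Cfsg.Agent.Lib.Coprime.SchurPull in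
  haveI hQf := finite_of_hasSchur hA
  have hφ := canon_surjective Q
  have hfree := free_ab_freeGroup Q
  have hfg := fg_ab_freeGroup Q
  obtain ⟨e₁⟩ := hopf_equiv hφ hfree hfg (fun X _ _ ξ hξ => exists_lift_canon ξ hξ) hA
  obtain ⟨f, hf⟩ := exists_lift_canon τ hτ.1
  have hc := ker_piQ_le_center (φ := canon Q)
  have hπ := piQ_surjective hφ
  let fb := lift' τ hτ.2.1 f hf
  have hfb : ∀ u, τ (fb u) = piQ (canon Q) u := fun u =>
    congrArg (fun k => k u) (comp_lift' τ hτ.2.1 f hf)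
  have htop : fb.range = ⊤ := by
    apply eq_top_of_stem τ hτ
    intro q
    obtain ⟨u, rfl⟩ := hπ q
    exact ⟨fb u, ⟨u, rfl⟩, hfb u⟩
  have hfbs : Function.Surjective fb := MonoidHom.range_eq_top.mp htop
  have hS : fb.ker ≤ (piQ (canon Q)).ker := by
    intro x hx
    rw [MonoidHom.mem_ker, ← hfb, MonoidHom.mem_ker.mp hx, map_one]
  obtain ⟨K, hKS, hK1, hK2⟩ := exists_complement hfree hfg (φ := canon Q) fb.ker hS (by
    intro x hx
    have h1 : fb x ∈ commutator Δ := by
      apply hτ.2.2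
      rw [MonoidHom.mem_ker, hfb]
      exact hx
    rw [← map_commutator_of_surjective fb hfbs] at h1
    obtain ⟨u, hu, huv⟩ := h1
    refine ⟨x * u⁻¹, ?_, ?_⟩
    · rw [MonoidHom.mem_ker, map_mul, map_inv, huv]
      simp
    · have h2 : x * (x * u⁻¹)⁻¹ = x * u * x⁻¹ := by group
      rw [h2, ← Subgroup.mem_center_iff.mp (hc hx) u]
      simpa using hu)
  haveI hKn : K.Normal := normal_of_le_ker (hKS.trans hS)
  obtain ⟨hfin, hstem, ⟨e⟩⟩ := stem_of_complement hφ (hKS.trans hS) hK1 hK2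
  refine ⟨UCE (canon Q) ⧸ K, inferInstance, hfin, QuotientGroup.lift K (piQ (canon Q)) (hKS.trans hS), hstem,
    ⟨e.trans e₁⟩, QuotientGroup.lift K fb hKS, ?_, ?_⟩
  · intro d
    obtain ⟨u, rfl⟩ := hfbs d
    exact ⟨(u : UCE (canon Q) ⧸ K), rfl⟩
  · apply MonoidHom.ext
    intro x
    induction x using QuotientGroup.induction_on with
    | H u => exact hfb u

end Cfsg.Agent.S3957
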