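import Cfsg.Statements.S3959
-- import your own Cfsg.Agent.* helpers here
import Mathlib
import Cfsg.Agent.Lib.Coprime.SchurFree

set_option autoImplicit false
universe u v w
open Cfsg

namespace Cfsg.Agent.S3959

open scoped TensorProduct commutatorElement
open Subgroup
open Cfsg.Agent.Lib.Coprime.SchurBasic Cfsg.Agent.Lib.Coprime.SchurExt Cfsg.Agent.Lib.Coprime.SchurPull Cfsg.Agent.Lib.Coprime.SchurFree

/-- The tensor product of the abelianizations. -/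
abbrev TT (Q₁ : Type*) (Q₂ : Type*) [Group Q₁] [Group Q₂] :=
  TensorProduct ℤ (Additive (Abelianization Q₁)) (Additive (Abelianization Q₂))

theorem finite_TT (Q₁ : Type*) (Q₂ : Type*) [Group Q₁] [Group Q₂] [Finite Q₁] [Finite Q₂] :
    Finite (TT Q₁ Q₂) := by
  classical
  haveI : Finite (Abelianization Q₁) := Finite.of_surjective Abelianization.of (QuotientGroup.mk_surjective)
  haveI : Finite (Abelianization Q₂) := Finite.of_surjective Abelianization.of (QuotientGroup.mk_surjective)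
  haveI : Finite (Additive (Abelianization Q₁)) := inferInstanceAs (Finite (Abelianization Q₁))
  haveI : Finite (Additive (Abelianization Q₂)) := inferInstanceAs (Finite (Abelianization Q₂))
  haveI : Module.Finite ℤ (Additive (Abelianization Q₁)) := Module.Finite.of_finite
  haveI : Module.Finite ℤ (Additive (Abelianization Q₂)) := Module.Finite.of_finite
  have h1 : Module.IsTorsion ℤ (TT Q₁ Q₂) := by
    intro x
    refine ⟨⟨(Nat.card (Additive (Abelianization Q₁)) : ℤ), ?_⟩, ?_⟩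
    · rw [mem_nonZeroDivisors_iff_ne_zero]
      exact_mod_cast (Nat.card_pos.ne')
    · induction x using TensorProduct.induction_on with
      | zero => simp
      | tmul a b =>
        show ((Nat.card (Additive (Abelianization Q₁)) : ℤ)) • (a ⊗ₜ[ℤ] b) = 0
        rw [TensorProduct.smul_tmul', natCast_zsmul, card_nsmul_eq_zero', TensorProduct.zero_tmul]
      | add a b ha hb =>
        show ((Nat.card (Additive (Abelianization Q₁)) : ℤ)) • (a + b) = 0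
        rw [smul_add]
        have ha' : ((Nat.card (Additive (Abelianization Q₁)) : ℤ)) • a = 0 := ha
        have hb' : ((Nat.card (Additive (Abelianization Q₁)) : ℤ)) • b = 0 := hb
        rw [ha', hb', add_zero]
  haveI : Module.Finite ℤ (TT Q₁ Q₂) := Module.Finite.tensorProduct ℤ _ _
  exact Module.finite_of_fg_torsion _ h1

theorem tensor_hom {P₁ P₂ N : Type*} [Group P₁] [Group P₂] [CommGroup N] (C : P₁ → P₂ → N)
    (h1 : ∀ a a' b, C (a*a') b = C a b * C a' b) (h2 : ∀ a b b', C a (b*b') = C a b * C a b') :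
    ∃ c : Multiplicative (TT P₁ P₂) →* N, ∀ a b,
      c (Multiplicative.ofAdd (Additive.ofMul (Abelianization.of a) ⊗ₜ[ℤ] Additive.ofMul (Abelianization.of b))) = C a b := by
  let fb : P₂ → (P₁ →* N) := fun b => MonoidHom.mk' (fun a => C a b) (fun a a' => h1 a a' b)
  let F : P₂ →* (P₁ →* N) := MonoidHom.mk' fb (fun b b' => MonoidHom.ext fun a => h2 a b b')
  let F' : Abelianization P₂ →* (P₁ →* N) := Abelianization.lift F
  let G : Abelianization P₂ → Abelianization P₁ →* N := fun y => Abelianization.lift (F' y)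
  have hG : ∀ y y' x, G (y*y') x = G y x * G y' x := by
    intro y y' x
    induction x using QuotientGroup.induction_on with
    | H a =>
      show Abelianization.lift (F' (y * y')) (Abelianization.of a) = Abelianization.lift (F' y) (Abelianization.of a) * Abelianization.lift (F' y') (Abelianization.of a)
      simp only [Abelianization.lift_apply_of, map_mul, MonoidHom.mul_apply]
  let f : Additive (Abelianization P₁) →+ Additive (Abelianization P₂) →+ Additive N :=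
    AddMonoidHom.mk' (fun m => AddMonoidHom.mk' (fun n => Additive.ofMul (G n.toMul m.toMul))
      (fun n n' => by
        show Additive.ofMul (G (n.toMul * n'.toMul) m.toMul) = _
        rw [hG]; rfl))
      (fun m m' => by
        apply AddMonoidHom.ext
        intro n
        show Additive.ofMul (G n.toMul (m.toMul * m'.toMul)) = _
        rw [map_mul]; rfl)
  have hf : ∀ (r : ℤ) m n, f (r • m) n = f m (r • n) := by
    intro r m n
    rw [map_zsmul, AddMonoidHom.zsmul_apply, map_zsmul]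
  let c := TensorProduct.liftAddHom f hf
  refine ⟨AddMonoidHom.toMultiplicativeLeft c, ?_⟩
  intro a b
  show Additive.toMul (c _) = C a b
  show Additive.toMul (TensorProduct.liftAddHom f hf (Additive.ofMul (Abelianization.of a) ⊗ₜ[ℤ] Additive.ofMul (Abelianization.of b))) = C a b
  rw [TensorProduct.liftAddHom_tmul]
  show G (Abelianization.of b) (Abelianization.of a) = C a b
  show Abelianization.lift (F' (Abelianization.of b)) (Abelianization.of a) = C a b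
  simp only [Abelianization.lift_apply_of, F', F]
  rfl

/-- The cocycle. -/
def tensorCocycle {Γ₁ Γ₂ Q₁ Q₂ : Type*} [Group Γ₁] [Group Γ₂] [Group Q₁] [Group Q₂]
    (σ₁ : Γ₁ →* Q₁) (σ₂ : Γ₂ →* Q₂) : BiAdd (Γ₁ × Γ₂) (TT Q₁ Q₂) where
  toFun x y := Additive.ofMul (Abelianization.of (σ₁ x.1)) ⊗ₜ[ℤ] Additive.ofMul (Abelianization.of (σ₂ y.2))
  map_mul_left x x' y := by
    rw [Prod.fst_mul, map_mul, map_mul, ofMul_mul, TensorProduct.add_tmul]
  map_mul_right x y y' := by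
    rw [Prod.snd_mul, map_mul, map_mul, ofMul_mul, TensorProduct.tmul_add]

universe u₁ u₂ w₁

theorem ofMul_of_one_tmul {Q₁ : Type*} {Q₂ : Type*} [Group Q₁] [Group Q₂] (b : Additive (Abelianization Q₂)) :
    Additive.ofMul (Abelianization.of (1 : Q₁)) ⊗ₜ[ℤ] b = 0 := by
  rw [map_one]
  exact TensorProduct.zero_tmul _ _

theorem tmul_ofMul_of_one {Q₁ : Type*} {Q₂ : Type*} [Group Q₁] [Group Q₂] (a : Additive (Abelianization Q₁)) :
    a ⊗ₜ[ℤ] Additive.ofMul (Abelianization.of (1 : Q₂)) = 0 := by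
  rw [map_one]
  exact TensorProduct.tmul_zero _ _

theorem existence {Q₁ : Type u₁} {Q₂ : Type u₂} [Group Q₁] [Group Q₂] [Finite Q₁] [Finite Q₂]
    {A B : Type w₁} [CommGroup A] [CommGroup B] {Γ₁ : Type u₁} {Γ₂ : Type u₂} [Group Γ₁] [Group Γ₂]
    [Finite Γ₁] [Finite Γ₂] (σ₁ : Γ₁ →* Q₁) (σ₂ : Γ₂ →* Q₂) (h₁ : Cfsg.IsStemExtension σ₁)
    (h₂ : Cfsg.IsStemExtension σ₂) (e₁ : σ₁.ker ≃* A) (e₂ : σ₂.ker ≃* B) :
    ∃ (Γ : Type (max u₁ u₂)) (_ : Group Γ) (_ : Finite Γ) (σ : Γ →* Q₁ × Q₂),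
      Cfsg.IsStemExtension σ ∧ Nonempty (σ.ker ≃* A × B × Multiplicative (TT Q₁ Q₂)) := by
  classical
  haveI := finite_TT Q₁ Q₂
  let β := tensorCocycle σ₁ σ₂
  let S : Twist β →* Q₁ × Q₂ := (MonoidHom.prodMap σ₁ σ₂).comp Twist.proj
  have hker : ∀ a : Twist β, a ∈ S.ker ↔ σ₁ a.fst.1 = 1 ∧ σ₂ a.fst.2 = 1 := by
    intro a
    rw [MonoidHom.mem_ker]
    show (σ₁ a.fst.1, σ₂ a.fst.2) = (1, 1) ↔ _
    rw [Prod.mk.injEq]
  have hβl : ∀ x y, σ₁ x.1 = 1 → β.toFun x y = 0 := by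
    intro x y hx
    show Additive.ofMul (Abelianization.of (σ₁ x.1)) ⊗ₜ[ℤ] _ = 0
    rw [hx]
    exact ofMul_of_one_tmul _
  have hβr : ∀ x y, σ₂ y.2 = 1 → β.toFun x y = 0 := by
    intro x y hy
    show _ ⊗ₜ[ℤ] Additive.ofMul (Abelianization.of (σ₂ y.2)) = 0
    rw [hy]
    exact tmul_ofMul_of_one _
  have hcent : ∀ a ∈ S.ker, ∀ b : Twist β, a * b = b * a := by
    intro a ha b
    obtain ⟨h1, h2⟩ := (hker a).mp ha
    apply Twist.ext
    · apply Prod.ext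
      · exact (Subgroup.mem_center_iff.mp (h₁.2.1 (MonoidHom.mem_ker.mpr h1)) b.fst.1).symm
      · exact (Subgroup.mem_center_iff.mp (h₂.2.1 (MonoidHom.mem_ker.mpr h2)) b.fst.2).symm
    · simp only [Twist.mul_snd]
      rw [hβl _ _ h1, hβr _ _ h2, add_zero, add_zero, add_comm]
  let ι₁ : Γ₁ →* Twist β :=
    { toFun := fun x => ⟨(x, 1), 0⟩
      map_one' := rfl
      map_mul' := fun x y => by
        apply Twist.ext
        · simp
        · simp only [Twist.mul_snd]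
          rw [hβr _ _ (map_one σ₂)]
          simp }
  let ι₂ : Γ₂ →* Twist β :=
    { toFun := fun x => ⟨(1, x), 0⟩
      map_one' := rfl
      map_mul' := fun x y => by
        apply Twist.ext
        · simp
        · simp only [Twist.mul_snd]
          rw [hβl _ _ (map_one σ₁)]
          simp }
  have hinc : ∀ t : TT Q₁ Q₂, (Twist.inc t : Twist β) ∈ commutator (Twist β) := by
    intro t
    induction t using TensorProduct.induction_on with
    | zero => exact one_mem _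
    | tmul x y =>
      obtain ⟨q₁, hq₁⟩ : ∃ q₁ : Q₁, Abelianization.of q₁ = x.toMul := QuotientGroup.mk_surjective _
      obtain ⟨q₂, hq₂⟩ : ∃ q₂ : Q₂, Abelianization.of q₂ = y.toMul := QuotientGroup.mk_surjective _
      obtain ⟨x₁, rfl⟩ := h₁.1 q₁
      obtain ⟨y₂, rfl⟩ := h₂.1 q₂
      have hc : ((x₁, 1) : Γ₁ × Γ₂) * (1, y₂) = (1, y₂) * (x₁, 1) := by simp
      have := Twist.inc_mem_commutator (β := β) hc
      have h0 : β.toFun (1, y₂) (x₁, 1) = 0 := hβl _ _ (map_one σ₁)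
      rw [h0, sub_zero] at this
      have h3 : β.toFun (x₁, 1) (1, y₂) = x ⊗ₜ[ℤ] y := by
        show Additive.ofMul (Abelianization.of (σ₁ x₁)) ⊗ₜ[ℤ] Additive.ofMul (Abelianization.of (σ₂ y₂)) = _
        rw [hq₁, hq₂]
        rfl
      rwa [h3] at this
    | add x y hx hy =>
      rw [Twist.inc_add]
      exact mul_mem hx hy
  refine ⟨Twist β, inferInstance, inferInstance, S, ⟨?_, fun a ha => Subgroup.mem_center_iff.mpr fun b => (hcent a ha b).symm, ?_⟩, ?_⟩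
  · intro q
    obtain ⟨x, hx⟩ := h₁.1 q.1
    obtain ⟨y, hy⟩ := h₂.1 q.2
    exact ⟨⟨(x, y), 0⟩, Prod.ext hx hy⟩
  · intro a ha
    obtain ⟨h1, h2⟩ := (hker a).mp ha
    have hdec : a = ι₁ a.fst.1 * ι₂ a.fst.2 * Twist.inc a.snd := by
      apply Twist.ext
      · apply Prod.ext
        · show a.fst.1 = a.fst.1 * 1 * 1
          simp
        · show a.fst.2 = 1 * a.fst.2 * 1
          simp
      · show a.snd = (0 + 0 + β.toFun (a.fst.1, 1) (1, a.fst.2)) + a.snd + β.toFun (a.fst.1 * 1, 1 * a.fst.2) 1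
        rw [hβl (a.fst.1, 1) _ h1, β.one_right]
        simp
    rw [hdec]
    refine mul_mem (mul_mem ?_ ?_) (hinc _)
    · exact mem_commutator_map ι₁ (h₁.2.2 (MonoidHom.mem_ker.mpr h1))
    · exact mem_commutator_map ι₂ (h₂.2.2 (MonoidHom.mem_ker.mpr h2))
  · let F : S.ker →* A × B × Multiplicative (TT Q₁ Q₂) :=
      { toFun := fun a => (e₁ ⟨a.1.fst.1, MonoidHom.mem_ker.mpr ((hker _).mp a.2).1⟩,
          e₂ ⟨a.1.fst.2, MonoidHom.mem_ker.mpr ((hker _).mp a.2).2⟩, Multiplicative.ofAdd a.1.snd)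
        map_one' := by
          apply Prod.ext
          · show e₁ 1 = 1
            exact map_one _
          · apply Prod.ext
            · show e₂ 1 = 1
              exact map_one _
            · rfl
        map_mul' := fun a b => by
          apply Prod.ext
          · exact (map_mul e₁ ⟨a.1.fst.1, MonoidHom.mem_ker.mpr ((hker _).mp a.2).1⟩ ⟨b.1.fst.1, MonoidHom.mem_ker.mpr ((hker _).mp b.2).1⟩)
          · apply Prod.ext
            · exact (map_mul e₂ ⟨a.1.fst.2, MonoidHom.mem_ker.mpr ((hker _).mp a.2).2⟩ ⟨b.1.fst.2, MonoidHom.mem_ker.mpr ((hker _).mp b.2).2⟩)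
            · show Multiplicative.ofAdd (a.1.snd + b.1.snd + β.toFun a.1.fst b.1.fst) = _
              rw [hβl _ _ ((hker _).mp a.2).1, add_zero]
              rfl }
    refine ⟨MulEquiv.ofBijective F ⟨?_, ?_⟩⟩
    · intro a b hab
      have h1 := congrArg Prod.fst hab
      have h2 := congrArg (fun z => z.2.1) hab
      have h3 := congrArg (fun z => z.2.2) hab
      have h1' := congrArg (fun z : σ₁.ker => (z : Γ₁)) (e₁.injective h1)
      have h2' := congrArg (fun z : σ₂.ker => (z : Γ₂)) (e₂.injective h2)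
      apply Subtype.ext
      apply Twist.ext
      · exact Prod.ext h1' h2'
      · exact Multiplicative.ofAdd.injective h3
    · rintro ⟨x, y, t⟩
      refine ⟨⟨⟨((e₁.symm x : Γ₁), (e₂.symm y : Γ₂)), t.toAdd⟩, ?_⟩, ?_⟩
      · exact (hker _).mpr ⟨(e₁.symm x).2, (e₂.symm y).2⟩
      · apply Prod.ext
        · show e₁ ⟨(e₁.symm x : Γ₁), _⟩ = x
          exact e₁.apply_symm_apply x
        · apply Prod.ext
          · show e₂ ⟨(e₂.symm y : Γ₂), _⟩ = y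
            exact e₂.apply_symm_apply y
          · rfl


theorem tensor_hom_sub {P₁ P₂ Δ : Type*} [Group P₁] [Group P₂] [Group Δ] (N : Subgroup Δ)
    (hN : N ≤ center Δ) (C : P₁ → P₂ → N)
    (h1 : ∀ a a' b, C (a*a') b = C a b * C a' b) (h2 : ∀ a b b', C a (b*b') = C a b * C a b') :
    ∃ c : Multiplicative (TT P₁ P₂) →* N, ∀ a b,
      c (Multiplicative.ofAdd (Additive.ofMul (Abelianization.of a) ⊗ₜ[ℤ] Additive.ofMul (Abelianization.of b))) = C a b := by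
  letI cg : CommGroup N := { (inferInstance : Group N) with
    mul_comm := fun a b => Subtype.ext (Subgroup.mem_center_iff.mp (hN a.2) b).symm }
  exact tensor_hom C h1 h2

theorem exists_prod_map {Δ A' B' T' : Type*} [Group Δ] [CommGroup A'] [CommGroup B'] [CommGroup T']
    {N : Subgroup Δ} (hN : N ≤ center Δ) (p₁ : A' →* N) (p₂ : B' →* N) (p₃ : T' →* N) :
    ∃ π : A' × B' × T' →* N, ∀ a b t, π (a, b, t) = p₁ a * p₂ b * p₃ t := by
  have hc : ∀ a b : N, a * b = b * a := fun a b =>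
    Subtype.ext (Subgroup.mem_center_iff.mp (hN a.2) b).symm
  refine ⟨{ toFun := fun x => p₁ x.1 * p₂ x.2.1 * p₃ x.2.2, map_one' := by simp, map_mul' := ?_ }, fun _ _ _ => rfl⟩
  rintro ⟨a, b, t⟩ ⟨a', b', t'⟩
  show p₁ (a * a') * p₂ (b * b') * p₃ (t * t') = _
  simp only [map_mul]
  have h1 := hc (p₁ a') (p₂ b)
  have h2 := hc (p₁ a') (p₃ t)
  have h3 := hc (p₂ b') (p₃ t)
  calc p₁ a * p₁ a' * (p₂ b * p₂ b') * (p₃ t * p₃ t')
      = p₁ a * (p₁ a' * p₂ b) * p₂ b' * p₃ t * p₃ t' := by group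
    _ = p₁ a * p₂ b * (p₁ a' * p₂ b' * p₃ t) * p₃ t' := by rw [h1]; group
    _ = p₁ a * p₂ b * (p₁ a' * (p₂ b' * p₃ t)) * p₃ t' := by group
    _ = p₁ a * p₂ b * (p₁ a' * (p₃ t * p₂ b')) * p₃ t' := by rw [h3]
    _ = p₁ a * p₂ b * ((p₁ a' * p₃ t) * p₂ b') * p₃ t' := by group
    _ = p₁ a * p₂ b * ((p₃ t * p₁ a') * p₂ b') * p₃ t' := by rw [h2]
    _ = _ := by group

theorem comm_mul_left {G : Type*} [Group G] (u u' v : G) (h : ⁅u', v⁆ ∈ center G) :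
    ⁅u * u', v⁆ = ⁅u, v⁆ * ⁅u', v⁆ := by
  have hc := Subgroup.mem_center_iff.mp h u
  calc ⁅u * u', v⁆ = u * ⁅u', v⁆ * (v * u⁻¹ * v⁻¹) := by
        simp only [commutatorElement_def]; group
    _ = ⁅u', v⁆ * u * (v * u⁻¹ * v⁻¹) := by rw [← hc]
    _ = ⁅u', v⁆ * ⁅u, v⁆ := by simp only [commutatorElement_def]; group
    _ = ⁅u, v⁆ * ⁅u', v⁆ := by
      exact (Subgroup.mem_center_iff.mp h _).symm

theorem comm_mul_right {G : Type*} [Group G] (u v v' : G) (h : ⁅u, v'⁆ ∈ center G) :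
    ⁅u, v * v'⁆ = ⁅u, v⁆ * ⁅u, v'⁆ := by
  have hc := Subgroup.mem_center_iff.mp h v
  calc ⁅u, v * v'⁆ = ⁅u, v⁆ * (v * ⁅u, v'⁆) * v⁻¹ := by
        simp only [commutatorElement_def]; group
    _ = ⁅u, v⁆ * (⁅u, v'⁆ * v) * v⁻¹ := by rw [← hc]
    _ = ⁅u, v⁆ * ⁅u, v'⁆ := by group

theorem comm_central_left {G : Type*} [Group G] (u n v : G) (h : n ∈ center G) :
    ⁅u * n, v⁆ = ⁅u, v⁆ := by
  have hc := Subgroup.mem_center_iff.mp h
  simp only [commutatorElement_def]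
  calc u * n * v * (u * n)⁻¹ * v⁻¹ = u * (n * v) * n⁻¹ * u⁻¹ * v⁻¹ := by group
    _ = u * (v * n) * n⁻¹ * u⁻¹ * v⁻¹ := by rw [hc v]
    _ = _ := by group

theorem comm_central_right {G : Type*} [Group G] (u v n : G) (h : n ∈ center G) :
    ⁅u, v * n⁆ = ⁅u, v⁆ := by
  have hc := Subgroup.mem_center_iff.mp h
  simp only [commutatorElement_def]
  calc u * (v * n) * u⁻¹ * (v * n)⁻¹ = u * v * (n * u⁻¹) * n⁻¹ * v⁻¹ := by group
    _ = u * v * (u⁻¹ * n) * n⁻¹ * v⁻¹ := by rw [hc u⁻¹]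
    _ = _ := by group

theorem cover_surj {Q₁ : Type u₁} {Q₂ : Type u₂} [Group Q₁] [Group Q₂] [Finite Q₁] [Finite Q₂]
    {A B : Type w₁} [CommGroup A] [CommGroup B] (hA : Cfsg.HasSchurMultiplier Q₁ A)
    (hB : Cfsg.HasSchurMultiplier Q₂ B) (Δ : Type (max u₁ u₂)) [Group Δ] [Finite Δ]
    (τ : Δ →* Q₁ × Q₂) (hτ : Cfsg.IsStemExtension τ) :
    ∃ π : A × B × Multiplicative (TT Q₁ Q₂) →* τ.ker, Function.Surjective π := by
  classical
  let τ₁ : Δ →* Q₁ := (MonoidHom.fst _ _).comp τ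
  let τ₂ : Δ →* Q₂ := (MonoidHom.snd _ _).comp τ
  have hτker : ∀ x : Δ, x ∈ τ.ker ↔ τ₁ x = 1 ∧ τ₂ x = 1 := by
    intro x
    rw [MonoidHom.mem_ker]
    constructor
    · intro h
      exact ⟨congrArg Prod.fst h, congrArg Prod.snd h⟩
    · rintro ⟨h1, h2⟩
      exact Prod.ext h1 h2
  have hcen : ∀ x ∈ τ.ker, ∀ y : Δ, y * x = x * y := fun x hx y =>
    Subgroup.mem_center_iff.mp (hτ.2.1 hx) y
  let Δ₁ : Subgroup Δ := τ₂.ker
  let Δ₂ : Subgroup Δ := τ₁.ker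
  let ξ₁ : Δ₁ →* Q₁ := τ₁.comp Δ₁.subtype
  let ξ₂ : Δ₂ →* Q₂ := τ₂.comp Δ₂.subtype
  have hl₁ : ∀ q : Q₁, ∃ d : Δ, τ₁ d = q ∧ τ₂ d = 1 := by
    intro q
    obtain ⟨d, hd⟩ := hτ.1 (q, 1)
    exact ⟨d, congrArg Prod.fst hd, congrArg Prod.snd hd⟩
  have hl₂ : ∀ q : Q₂, ∃ d : Δ, τ₁ d = 1 ∧ τ₂ d = q := by
    intro q
    obtain ⟨d, hd⟩ := hτ.1 (1, q)
    exact ⟨d, congrArg Prod.fst hd, congrArg Prod.snd hd⟩
  choose l₁ hl₁₁ hl₁₂ using hl₁
  choose l₂ hl₂₁ hl₂₂ using hl₂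
  have hξ₁s : Function.Surjective ξ₁ := fun q => ⟨⟨l₁ q, hl₁₂ q⟩, hl₁₁ q⟩
  have hξ₂s : Function.Surjective ξ₂ := fun q => ⟨⟨l₂ q, hl₂₁ q⟩, hl₂₂ q⟩
  have hξ₁c : ξ₁.ker ≤ center Δ₁ := by
    intro x hx
    rw [Subgroup.mem_center_iff]
    intro y
    apply Subtype.ext
    exact hcen x.1 ((hτker _).mpr ⟨hx, x.2⟩) y.1
  have hξ₂c : ξ₂.ker ≤ center Δ₂ := by
    intro x hx
    rw [Subgroup.mem_center_iff]
    intro y
    apply Subtype.ext
    exact hcen x.1 ((hτker _).mpr ⟨x.2, hx⟩) y.1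
  obtain ⟨π₁, hπ₁⟩ := ker_image hA ξ₁ hξ₁s hξ₁c
  obtain ⟨π₂, hπ₂⟩ := ker_image hB ξ₂ hξ₂s hξ₂c
  -- the maps to the kernel
  let j₁ : ↥(ξ₁.ker ⊓ commutator Δ₁) →* τ.ker :=
    { toFun := fun x => ⟨(x.1 : Δ), (hτker _).mpr ⟨(Subgroup.mem_inf.mp x.2).1, x.1.2⟩⟩
      map_one' := rfl
      map_mul' := fun _ _ => rfl }
  let j₂ : ↥(ξ₂.ker ⊓ commutator Δ₂) →* τ.ker :=
    { toFun := fun x => ⟨(x.1 : Δ), (hτker _).mpr ⟨x.1.2, (Subgroup.mem_inf.mp x.2).1⟩⟩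
      map_one' := rfl
      map_mul' := fun _ _ => rfl }
  have hcomm : ∀ u v : Δ, τ₂ u = 1 → τ₁ v = 1 → ⁅u, v⁆ ∈ τ.ker := by
    intro u v hu hv
    rw [hτker]
    constructor
    · simp [commutatorElement_def, hv]
    · simp [commutatorElement_def, hu]
  let C : Q₁ → Q₂ → τ.ker := fun q r => ⟨⁅l₁ q, l₂ r⁆, hcomm _ _ (hl₁₂ q) (hl₂₁ r)⟩
  have hCval : ∀ u v : Δ, τ₂ u = 1 → τ₁ v = 1 → ⁅u, v⁆ = (C (τ₁ u) (τ₂ v) : Δ) := by
    intro u v hu hv
    have hn₁ : (l₁ (τ₁ u))⁻¹ * u ∈ τ.ker := by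
      rw [hτker]
      constructor
      · simp [hl₁₁]
      · simp [hl₁₂, hu]
    have hn₂ : (l₂ (τ₂ v))⁻¹ * v ∈ τ.ker := by
      rw [hτker]
      constructor
      · simp [hl₂₁, hv]
      · simp [hl₂₂]
    have e₁ : u = l₁ (τ₁ u) * ((l₁ (τ₁ u))⁻¹ * u) := by group
    have e₂ : v = l₂ (τ₂ v) * ((l₂ (τ₂ v))⁻¹ * v) := by group
    show ⁅u, v⁆ = ⁅l₁ (τ₁ u), l₂ (τ₂ v)⁆
    conv_lhs => rw [e₁, e₂]
    rw [comm_central_left _ _ _ (hτ.2.1 hn₁), comm_central_right _ _ _ (hτ.2.1 hn₂)]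
  have hC1 : ∀ a a' b, C (a*a') b = C a b * C a' b := by
    intro a a' b
    apply Subtype.ext
    show (C (a * a') b : Δ) = ⁅l₁ a, l₂ b⁆ * ⁅l₁ a', l₂ b⁆
    have h1 : τ₁ (l₁ a * l₁ a') = a * a' := by simp [hl₁₁]
    have h2 : τ₂ (l₁ a * l₁ a') = 1 := by simp [hl₁₂]
    have h3 := hCval (l₁ a * l₁ a') (l₂ b) h2 (hl₂₁ b)
    rw [h1, hl₂₂] at h3
    rw [← h3]
    exact comm_mul_left _ _ _ (hτ.2.1 (hcomm _ _ (hl₁₂ a') (hl₂₁ b)))
  have hC2 : ∀ a b b', C a (b*b') = C a b * C a b' := by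
    intro a b b'
    apply Subtype.ext
    show (C a (b * b') : Δ) = ⁅l₁ a, l₂ b⁆ * ⁅l₁ a, l₂ b'⁆
    have h1 : τ₂ (l₂ b * l₂ b') = b * b' := by simp [hl₂₂]
    have h2 : τ₁ (l₂ b * l₂ b') = 1 := by simp [hl₂₁]
    have h3 := hCval (l₁ a) (l₂ b * l₂ b') (hl₁₂ a) h2
    rw [h1, hl₁₁] at h3
    rw [← h3]
    exact comm_mul_right _ _ _ (hτ.2.1 (hcomm _ _ (hl₁₂ a) (hl₂₁ b')))
  obtain ⟨c, hc⟩ := tensor_hom_sub τ.ker hτ.2.1 C hC1 hC2
  obtain ⟨π, hπ⟩ := exists_prod_map hτ.2.1 (j₁.comp π₁) (j₂.comp π₂) c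
  refine ⟨π, ?_⟩
  -- the main decomposition
  let R : Subgroup Δ := (τ.ker.subtype.comp c).range
  have hRker : R ≤ τ.ker := by
    rintro _ ⟨t, rfl⟩
    exact (c t).2
  haveI hRn : R.Normal := by
    constructor
    intro n hn g
    have := hcen n (hRker hn) g
    rw [this]
    simpa using hn
  haveI hΔ₁n : Δ₁.Normal := MonoidHom.normal_ker _
  haveI hΔ₂n : Δ₂.Normal := MonoidHom.normal_ker _
  let D₁ : Subgroup Δ := ⁅Δ₁, Δ₁⁆
  let D₂ : Subgroup Δ := ⁅Δ₂, Δ₂⁆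
  haveI hD₁n : D₁.Normal := Subgroup.commutator_normal _ _
  haveI hD₂n : D₂.Normal := Subgroup.commutator_normal _ _
  let D : Subgroup Δ := D₁ ⊔ D₂ ⊔ R
  haveI hDn : D.Normal := inferInstance
  have htop : closure ((Δ₁ : Set Δ) ∪ (Δ₂ : Set Δ)) = ⊤ := by
    rw [eq_top_iff]
    intro d _
    have hn : (l₁ (τ₁ d) * l₂ (τ₂ d))⁻¹ * d ∈ Δ₁ := by
      have : (l₁ (τ₁ d) * l₂ (τ₂ d))⁻¹ * d ∈ τ.ker := by
        rw [hτker]
        constructor
        · simp [hl₁₁, hl₂₁]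
        · simp [hl₁₂, hl₂₂]
      exact ((hτker _).mp this).2
    have e : d = l₁ (τ₁ d) * l₂ (τ₂ d) * ((l₁ (τ₁ d) * l₂ (τ₂ d))⁻¹ * d) := by group
    rw [e]
    refine mul_mem (mul_mem ?_ ?_) ?_
    · exact Subgroup.subset_closure (Or.inl (hl₁₂ _))
    · exact Subgroup.subset_closure (Or.inr (hl₂₁ _))
    · exact Subgroup.subset_closure (Or.inl hn)
  have hcR : ∀ u v : Δ, τ₂ u = 1 → τ₁ v = 1 → ⁅u, v⁆ ∈ R := by
    intro u v hu hv
    rw [hCval u v hu hv]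
    rw [← hc]
    exact ⟨_, rfl⟩
  have hle : commutator Δ ≤ D := by
    apply commutator_le_of_closure D _ htop
    rintro u (hu | hu) v (hv | hv)
    · exact (le_sup_left : D₁ ⊔ D₂ ≤ D) ((le_sup_left : D₁ ≤ D₁ ⊔ D₂)
        (Subgroup.commutator_mem_commutator hu hv))
    · exact (le_sup_right : R ≤ D) (hcR u v hu hv)
    · have := (le_sup_right : R ≤ D) (hcR v u hv hu)
      have h2 : u * v * u⁻¹ * v⁻¹ = ⁅v, u⁆⁻¹ := by
        simp only [commutatorElement_def]; group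
      rw [h2]
      exact inv_mem this
    · exact (le_sup_left : D₁ ⊔ D₂ ≤ D) ((le_sup_right : D₂ ≤ D₁ ⊔ D₂)
        (Subgroup.commutator_mem_commutator hu hv))
  rintro ⟨n, hn⟩
  have hnD : n ∈ D := hle (hτ.2.2 hn)
  obtain ⟨x, hx, z, hz, rfl⟩ := Subgroup.mem_sup_of_normal_right.mp hnD
  obtain ⟨x₁, hx₁, x₂, hx₂, rfl⟩ := Subgroup.mem_sup_of_normal_right.mp hx
  have hx₁Δ : x₁ ∈ Δ₁ := (Subgroup.commutator_le_self Δ₁) hx₁
  have hx₂Δ : x₂ ∈ Δ₂ := (Subgroup.commutator_le_self Δ₂) hx₂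
  have hz1 := (hτker z).mp (hRker hz)
  have hnn := (hτker _).mp hn
  have hx₁1 : τ₁ x₁ = 1 := by
    have := hnn.1
    rw [map_mul, map_mul, hz1.1, mul_one, (show τ₁ x₂ = 1 from hx₂Δ), mul_one] at this
    exact this
  have hx₂1 : τ₂ x₂ = 1 := by
    have := hnn.2
    rw [map_mul, map_mul, hz1.2, mul_one, (show τ₂ x₁ = 1 from hx₁Δ), one_mul] at this
    exact this
  have hm₁ : (⟨x₁, hx₁Δ⟩ : Δ₁) ∈ ξ₁.ker ⊓ commutator Δ₁ := by
    refine Subgroup.mem_inf.mpr ⟨hx₁1, ?_⟩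
    have : x₁ ∈ (commutator Δ₁).map Δ₁.subtype := by
      rw [Subgroup.map_subtype_commutator]
      exact hx₁
    obtain ⟨y, hy, hyx⟩ := this
    have : y = ⟨x₁, hx₁Δ⟩ := Subtype.ext hyx
    rwa [← this]
  have hm₂ : (⟨x₂, hx₂Δ⟩ : Δ₂) ∈ ξ₂.ker ⊓ commutator Δ₂ := by
    refine Subgroup.mem_inf.mpr ⟨hx₂1, ?_⟩
    have : x₂ ∈ (commutator Δ₂).map Δ₂.subtype := by
      rw [Subgroup.map_subtype_commutator]
      exact hx₂
    obtain ⟨y, hy, hyx⟩ := this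
    have : y = ⟨x₂, hx₂Δ⟩ := Subtype.ext hyx
    rwa [← this]
  obtain ⟨a, ha⟩ := hπ₁ ⟨⟨x₁, hx₁Δ⟩, hm₁⟩
  obtain ⟨b, hb⟩ := hπ₂ ⟨⟨x₂, hx₂Δ⟩, hm₂⟩
  obtain ⟨t, ht⟩ := hz
  refine ⟨(a, b, t), ?_⟩
  rw [hπ]
  apply Subtype.ext
  show ((π₁ a).1 : Δ) * ((π₂ b).1 : Δ) * (c t : Δ) = _
  rw [ha, hb]
  show x₁ * x₂ * (c t : Δ) = x₁ * x₂ * z
  rw [← ht]
  rfl

/-- Let `Q₁` and `Q₂` be finite groups with Schur multipliers `A` and `B`. Then the Schur multiplier of `Q₁ × Q₂` is isomorphic to `A × B × (Q₁ᵃᵇ ⊗ Q₂ᵃᵇ)`, the last factor being the tensor product over the integers of the commutator quotients, written multiplicatively. -/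
theorem result {Q₁ : Type u} {Q₂ : Type v} [Group Q₁] [Group Q₂] [Finite Q₁] [Finite Q₂] {A B : Type w} [CommGroup A] [CommGroup B] (hA : Cfsg.HasSchurMultiplier Q₁ A) (hB : Cfsg.HasSchurMultiplier Q₂ B) : Cfsg.HasSchurMultiplier (Q₁ × Q₂) (A × B × Multiplicative (TensorProduct ℤ (Additive (Abelianization Q₁)) (Additive (Abelianization Q₂)))) := by
  classical
  haveI := finite_of_hasSchur hA
  obtain ⟨⟨Γ₁, _, _, σ₁, hσ₁, ⟨e₁⟩⟩, _⟩ := id hA
  obtain ⟨⟨Γ₂, _, _, σ₂, hσ₂, ⟨e₂⟩⟩, _⟩ := id hB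
  refine ⟨existence σ₁ σ₂ hσ₁ hσ₂ e₁ e₂, ?_⟩
  intro Δ _ _ τ hτ
  exact cover_surj hA hB Δ τ hτ

end Cfsg.Agent.S3959
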