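import Cfsg.Statements.S3960
-- import your own Cfsg.Agent.* helpers here
import Mathlib
import Cfsg.Agent.Lib.Coprime.SchurFree

set_option autoImplicit false
universe u
open Cfsg

namespace Cfsg.Agent.S3960

open scoped commutatorElement

theorem sub_comm_mem {V : Type*} [Group V] (T : Subgroup V) (a b : T) :
    ⁅(a : V), (b : V)⁆ ∈ (commutator T).map T.subtype :=
  ⟨⁅a, b⁆, Subgroup.commutator_mem_commutator (Subgroup.mem_top _) (Subgroup.mem_top _), rfl⟩

/-- A finite perfect group `Q` has a universal central extension: a finite perfect group `G` in the universe of `Q` and a surjective homomorphism `π : G →* Q` with central kernel such that for every group `X` in that universe and every surjective homomorphism `ξ : X →* Q` with central kernel there is exactly one homomorphism `η : G →* X` with `ξ ∘ η = π`. -/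
theorem result {Q : Type u} [Group Q] [Finite Q] (hQ : Group.IsPerfect Q) : ∃ (G : Type u) (_ : Group G) (_ : Finite G) (π : G →* Q), Group.IsPerfect G ∧ Function.Surjective π ∧ π.ker ≤ Subgroup.center G ∧ ∀ (X : Type u) [Group X] (ξ : X →* Q), Function.Surjective ξ → ξ.ker ≤ Subgroup.center X → ∃! η : G →* X, ξ.comp η = π := by
  classical
  open Cfsg.Agent.Lib.Coprime.SchurFree Cfsg.Agent.Lib.Coprime.SchurBasic Cfsg.Agent.Lib.Coprime.SchurExt Cfsg.Agent.Lib.Coprime.SchurPull in
  have hφ := canon_surjective Q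
  have hπ := piQ_surjective hφ
  have hc := ker_piQ_le_center (φ := canon Q)
  haveI hfin : Finite (commutator (UCE (canon Q))) := finite_commutator_of_central (piQ (canon Q)) hc hπ
  have hQt : commutator Q = ⊤ := hQ.commutator_eq_top
  -- every element is a commutator element times a central one
  have hdec : ∀ u : UCE (canon Q), ∃ u' ∈ commutator (UCE (canon Q)), ∃ z ∈ (piQ (canon Q)).ker, u = u' * z := by
    intro u
    have h1 : piQ (canon Q) u ∈ commutator Q := by rw [hQt]; trivial
    rw [← map_commutator_of_surjective _ hπ] at h1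
    obtain ⟨u', hu', huu⟩ := h1
    refine ⟨u', hu', u'⁻¹ * u, ?_, by group⟩
    rw [MonoidHom.mem_ker, map_mul, map_inv, huu]
    simp
  -- perfect
  have hperf : commutator (commutator (UCE (canon Q))) = ⊤ := by
    rw [eq_top_iff]
    rintro ⟨x, hx⟩ -
    have hle : commutator (UCE (canon Q)) ≤ (commutator (commutator (UCE (canon Q)))).map (commutator (UCE (canon Q))).subtype := by
      rw [_root_.commutator_def, Subgroup.commutator_le]
      intro a _ b _
      obtain ⟨a', ha', z, hz, rfl⟩ := hdec a
      obtain ⟨b', hb', w, hw, rfl⟩ := hdec b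
      have hz' := Subgroup.mem_center_iff.mp (hc hz)
      have hw' := Subgroup.mem_center_iff.mp (hc hw)
      have h0 : ⁅a' * z, b' * w⁆ = ⁅a', b'⁆ := by
        rw [commutatorElement_def, commutatorElement_def]
        have h1 : a' * z * (b' * w) * (a' * z)⁻¹ = a' * (b' * w) * a'⁻¹ := by
          have h0 : z * (b' * w) = (b' * w) * z := (hz' _).symm
          calc a' * z * (b' * w) * (a' * z)⁻¹ = a' * (z * (b' * w)) * z⁻¹ * a'⁻¹ := by group
            _ = a' * ((b' * w) * z) * z⁻¹ * a'⁻¹ := by rw [h0]
            _ = a' * (b' * w) * a'⁻¹ := by group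
        rw [h1]
        have h0 : w * a'⁻¹ = a'⁻¹ * w := (hw' _).symm
        calc a' * (b' * w) * a'⁻¹ * (b' * w)⁻¹ = a' * b' * (w * a'⁻¹) * w⁻¹ * b'⁻¹ := by group
          _ = a' * b' * (a'⁻¹ * w) * w⁻¹ * b'⁻¹ := by rw [h0]
          _ = a' * b' * a'⁻¹ * b'⁻¹ := by group
      rw [h0]
      exact sub_comm_mem _ ⟨a', ha'⟩ ⟨b', hb'⟩
    obtain ⟨y, hy, hyx⟩ := hle hx
    have : y = ⟨x, hx⟩ := Subtype.ext hyx
    rwa [← this]
  refine ⟨commutator (UCE (canon Q)), inferInstance, hfin, (piQ (canon Q)).comp (commutator (UCE (canon Q))).subtype,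
    ⟨hperf⟩, ?_, ?_, ?_⟩
  · intro q
    have h1 : q ∈ commutator Q := by rw [hQt]; trivial
    rw [← map_commutator_of_surjective _ hπ] at h1
    obtain ⟨u', hu', huu⟩ := h1
    exact ⟨⟨u', hu'⟩, huu⟩
  · intro x hx
    rw [Subgroup.mem_center_iff]
    intro y
    apply Subtype.ext
    exact Subgroup.mem_center_iff.mp (hc hx) y
  · intro X _ ξ hξ hξk
    obtain ⟨f, hf⟩ := exists_lift_canon ξ hξ
    refine ⟨(lift' ξ hξk f hf).comp (commutator (UCE (canon Q))).subtype, ?_, ?_⟩
    · show ξ.comp ((lift' ξ hξk f hf).comp _) = _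
      rw [← MonoidHom.comp_assoc, comp_lift']
    · intro η hη
      apply MonoidHom.ext
      intro g
      refine eq_on_commutator η _ ?_ (by rw [hperf]; trivial)
      intro a
      apply hξk
      rw [MonoidHom.mem_ker, map_mul, map_inv]
      have h1 := congrArg (fun k => k a) hη
      have h2 := congrArg (fun k => k a) (comp_lift' ξ hξk f hf)
      show ξ (η a) * (ξ (lift' ξ hξk f hf (a : UCE (canon Q))))⁻¹ = 1
      have h3 : ξ (η a) = piQ (canon Q) a := h1
      have h4 : ξ (lift' ξ hξk f hf (a : UCE (canon Q))) = piQ (canon Q) a := h2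
      rw [h3, h4]
      simp

end Cfsg.Agent.S3960
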