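import Cfsg.Statements.S3961
-- import your own Cfsg.Agent.* helpers here
import Mathlib
import Cfsg.Agent.Lib.Coprime.SchurPull
import Cfsg.Agent.Lib.KnownSimple.Schur
import Cfsg.Agent.Lib.Struct.Basic

set_option autoImplicit false
universe u v
open Cfsg

namespace Cfsg.Agent.S3961

open scoped commutatorElement

/-- Let `π : G →* Q` be a surjective homomorphism with central kernel from a finite perfect group `G` (a perfect cover of `Q`). Then `π` is universal, in the sense that every surjective homomorphism `ξ : X →* Q` with central kernel from a group `X` in the universe of `G` admits a homomorphism `η : G →* X` with `ξ ∘ η = π`, if and only if `G` has trivial Schur multiplier. -/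
theorem result {G : Type u} {Q : Type v} [Group G] [Group Q] [Finite G] (hG : Group.IsPerfect G) (π : G →* Q) (hπ : Function.Surjective π) (hker : π.ker ≤ Subgroup.center G) : (∀ (X : Type u) [Group X] (ξ : X →* Q), Function.Surjective ξ → ξ.ker ≤ Subgroup.center X → ∃ η : G →* X, ξ.comp η = π) ↔ Cfsg.HasCyclicSchurMultiplier G 1 := by
  classical
  open Cfsg.Agent.Lib.Coprime.SchurPull Cfsg.Agent.Lib.Coprime.SchurBasic in
  have hGtop : commutator G = ⊤ := hG.commutator_eq_top
  constructor
  · -- universal ⇒ trivial multiplier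
    intro hU
    refine Cfsg.Agent.Lib.KnownSimple.hasCyclicSchurMultiplier_one_of ?_
    intro Γ _ _ ρ hρ
    -- `Γ` is perfect
    have hΓtop : commutator Γ = ⊤ := by
      rw [eq_top_iff]
      intro g _
      have h1 : ρ g ∈ commutator G := by rw [hGtop]; trivial
      rw [← Cfsg.Agent.Lib.Coprime.SchurBasic.map_commutator_of_surjective ρ hρ.1] at h1
      obtain ⟨u, hu, huv⟩ := h1
      have h2 : u⁻¹ * g ∈ ρ.ker := by
        rw [MonoidHom.mem_ker, map_mul, map_inv, huv]
        simp
      have h3 := Subgroup.mul_mem _ hu (hρ.2.2 h2)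
      simpa using h3
    -- the composite is central
    have hcent : (π.comp ρ).ker ≤ Subgroup.center Γ := by
      have hK1 : ⁅(π.comp ρ).ker, (⊤ : Subgroup Γ)⁆ ≤ ρ.ker := by
        rw [Subgroup.commutator_le]
        intro k hk g _
        rw [MonoidHom.mem_ker, map_commutatorElement]
        have h1 : ρ k ∈ π.ker := hk
        have h2 := Subgroup.mem_center_iff.mp (hker h1) (ρ g)
        rw [commutatorElement_eq_one_iff_mul_comm]
        exact h2.symm
      have hK2 : ⁅⁅(π.comp ρ).ker, (⊤ : Subgroup Γ)⁆, (⊤ : Subgroup Γ)⁆ = ⊥ := by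
        rw [eq_bot_iff, Subgroup.commutator_le]
        intro a ha g _
        rw [Subgroup.mem_bot, commutatorElement_eq_one_iff_mul_comm]
        have h3 := Subgroup.mem_center_iff.mp (hρ.2.1 (hK1 ha)) g
        exact h3.symm
      have hK3 : ⁅⁅(⊤ : Subgroup Γ), (⊤ : Subgroup Γ)⁆, (π.comp ρ).ker⁆ ≤ (⊥ : Subgroup Γ) := by
        refine Cfsg.Agent.Lib.Struct.three_subgroups ?_ ?_
        · rw [Subgroup.commutator_comm (⊤ : Subgroup Γ) (π.comp ρ).ker, hK2]
        · rw [hK2]
      have hK4 : ⁅(⊤ : Subgroup Γ), (π.comp ρ).ker⁆ = ⊥ := by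
        have h5 : ⁅(⊤ : Subgroup Γ), (⊤ : Subgroup Γ)⁆ = ⊤ := by
          rw [← _root_.commutator_def]; exact hΓtop
        rw [h5] at hK3
        exact le_bot_iff.mp hK3
      intro k hk
      rw [Subgroup.mem_center_iff]
      intro g
      have h6 : ⁅g, k⁆ ∈ ⁅(⊤ : Subgroup Γ), (π.comp ρ).ker⁆ :=
        Subgroup.commutator_mem_commutator (Subgroup.mem_top _) hk
      rw [hK4, Subgroup.mem_bot, commutatorElement_eq_one_iff_mul_comm] at h6
      exact h6
    obtain ⟨η, hη⟩ := hU Γ (π.comp ρ) (hπ.comp hρ.1) hcent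
    -- `ρ ∘ η = id`
    have hs : ∀ g, ρ (η g) = g := by
      intro g
      have h1 : ∀ a, (ρ.comp η) a * ((MonoidHom.id G) a)⁻¹ ∈ Subgroup.center G := by
        intro a
        apply hker
        rw [MonoidHom.mem_ker]
        have h2 := congrArg (fun f : G →* Q => f a) hη
        show π (ρ (η a) * a⁻¹) = 1
        rw [map_mul, map_inv]
        have h3 : π (ρ (η a)) = π a := h2
        rw [h3]
        simp
      exact eq_on_commutator (ρ.comp η) (MonoidHom.id G) h1 (by rw [hGtop]; trivial)
    rw [eq_bot_iff]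
    intro k hk
    have hk1 : k ∈ commutator Γ := by rw [hΓtop]; trivial
    -- `Γ' ≤ range η`
    have hle : commutator Γ ≤ η.range := by
      rw [_root_.commutator_def, Subgroup.commutator_le]
      intro a _ b _
      -- replace `a`, `b` by elements of the range
      have ha : a * (η (ρ a))⁻¹ ∈ ρ.ker := by
        rw [MonoidHom.mem_ker, map_mul, map_inv, hs]
        simp
      have hb : b * (η (ρ b))⁻¹ ∈ ρ.ker := by
        rw [MonoidHom.mem_ker, map_mul, map_inv, hs]
        simp
      have h1 : ∀ x : Γ, x ∈ (ρ.ker ⊔ η.range) := by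
        intro x
        have h2 : x * (η (ρ x))⁻¹ ∈ ρ.ker := by
          rw [MonoidHom.mem_ker, map_mul, map_inv, hs]
          simp
        have h3 := Subgroup.mul_mem _ (Subgroup.mem_sup_left h2 : _ ∈ ρ.ker ⊔ η.range)
          (Subgroup.mem_sup_right (⟨ρ x, rfl⟩ : η (ρ x) ∈ η.range))
        simpa using h3
      have h4 := eq_on_commutator (MonoidHom.id Γ) (η.comp ρ) (by
        intro x
        exact hρ.2.1 (by
          rw [MonoidHom.mem_ker, map_mul, map_inv]
          show ρ x * (ρ (η (ρ x)))⁻¹ = 1
          rw [hs]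
          simp)) (Subgroup.commutator_mem_commutator (Subgroup.mem_top a) (Subgroup.mem_top b))
      rw [MonoidHom.id_apply] at h4
      rw [h4]
      exact ⟨_, rfl⟩
    obtain ⟨g, hg⟩ := hle hk1
    have h5 : g = 1 := by
      have h6 := hs g
      rw [hg] at h6
      rw [← h6]
      exact hk
    rw [← hg, h5, map_one]
    exact Subgroup.one_mem _
  · -- trivial multiplier ⇒ universal
    intro hT X _ ξ hξ hξk
    have h₁ := pr₁_surjective π hξ
    have hinj : ∀ p ∈ commutator (pull π ξ), pr₁ π ξ p = 1 → p = 1 := fun p hp hp1 =>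
      ker_trivial hT (pr₁ π ξ) h₁ (ker_pr₁_le_center π hξk) hp1 hp
    let f : commutator (pull π ξ) →* G := (pr₁ π ξ).comp (commutator (pull π ξ)).subtype
    have hfinj : Function.Injective f := by
      rw [injective_iff_map_eq_one]
      intro a ha
      exact Subtype.ext (hinj a a.2 ha)
    have hfsurj : Function.Surjective f := by
      intro g
      have h1 : g ∈ commutator G := by rw [hGtop]; trivial
      rw [← Cfsg.Agent.Lib.Coprime.SchurBasic.map_commutator_of_surjective (pr₁ π ξ) h₁] at h1
      obtain ⟨p, hp, hpg⟩ := h1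
      exact ⟨⟨p, hp⟩, hpg⟩
    let e : commutator (pull π ξ) ≃* G := MulEquiv.ofBijective f ⟨hfinj, hfsurj⟩
    refine ⟨((pr₂ π ξ).comp (commutator (pull π ξ)).subtype).comp e.symm.toMonoidHom, ?_⟩
    ext g
    have h2 : f (e.symm g) = g := e.apply_symm_apply g
    have h3 := mem_pull.mp ((e.symm g : commutator (pull π ξ)) : pull π ξ).2
    show ξ (((e.symm g : commutator (pull π ξ)) : pull π ξ).1.2) = π g
    rw [← h3]
    exact congrArg π h2

end Cfsg.Agent.S3961
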