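import Cfsg.Statements.S3962
-- import your own Cfsg.Agent.* helpers here

set_option autoImplicit false
open Cfsg

namespace Cfsg.Agent.S3962

/-- Let `G` be a perfect group and `π : G →* Q` a surjective homomorphism whose kernel is central. Then `π` maps the centre of `G` onto the centre of `Q`. Taking `π` to be the map to `G ⧸ Z(G)` shows that the central quotient of a perfect group has trivial centre. -/
theorem result {G Q : Type*} [Group G] [Group Q] (hG : Group.IsPerfect G) (π : G →* Q) (hπ : Function.Surjective π) (hker : π.ker ≤ Subgroup.center G) : (Subgroup.center G).map π = Subgroup.center Q := by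
  classical
  apply le_antisymm
  · rintro _ ⟨g, hg, rfl⟩
    rw [Subgroup.mem_center_iff]
    intro q
    obtain ⟨x, rfl⟩ := hπ q
    rw [← map_mul, ← map_mul, (Subgroup.mem_center_iff.mp hg) x]
  · intro q hq
    obtain ⟨g, rfl⟩ := hπ q
    refine ⟨g, ?_, rfl⟩
    have hc : ∀ x : G, g * x * g⁻¹ * x⁻¹ ∈ Subgroup.center G := by
      intro x
      apply hker
      rw [MonoidHom.mem_ker]
      have := (Subgroup.mem_center_iff.mp hq) (π x)
      simp only [map_mul, map_inv]
      rw [← this]
      group
    let f : G →* Subgroup.center G :=
      { toFun := fun x => ⟨g * x * g⁻¹ * x⁻¹, hc x⟩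
        map_one' := by ext; simp
        map_mul' := by
          intro x y
          ext
          simp only [Subgroup.coe_mul]
          have h1 : x * (g * y * g⁻¹ * y⁻¹) = (g * y * g⁻¹ * y⁻¹) * x :=
            (Subgroup.mem_center_iff.mp (hc y)) x
          have h2 : g * (x * y) * g⁻¹ * (x * y)⁻¹
              = (g * x * g⁻¹ * x⁻¹) * (x * (g * y * g⁻¹ * y⁻¹) * x⁻¹) := by group
          rw [h2, h1]
          group }
    have hcomm : ∀ u v : Subgroup.center G, u * v = v * u := by
      intro u v
      ext
      exact (Subgroup.mem_center_iff.mp u.2 (v : G)).symm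
    have hker1 : commutator G ≤ f.ker := by
      rw [commutator_def, Subgroup.commutator_le]
      intro a _ b _
      rw [MonoidHom.mem_ker, commutatorElement_def, map_mul, map_mul, map_mul, map_inv, map_inv,
        hcomm (f a) (f b)]
      group
    show g ∈ Subgroup.center G
    rw [Subgroup.mem_center_iff]
    intro x
    have hx : x ∈ f.ker := hker1 (by
      rw [hG.commutator_eq_top]; trivial)
    rw [MonoidHom.mem_ker] at hx
    have hx' : g * x * g⁻¹ * x⁻¹ = 1 := congrArg Subtype.val hx
    have : g * x = x * g := by
      have h3 : g * x = (g * x * g⁻¹ * x⁻¹) * (x * g) := by group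
      rw [h3, hx', one_mul]
    exact this.symm

end Cfsg.Agent.S3962
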