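import Cfsg.Statements.S3963
-- import your own Cfsg.Agent.* helpers here
import Mathlib
import Cfsg.Agent.Lib.KnownSimple.Schur

set_option autoImplicit false
open Cfsg

namespace Cfsg.Agent.S3963

/-- For every `n ≥ 1` the dicyclic (generalized quaternion) group of order `4 n` has trivial Schur multiplier. -/
theorem result (n : ℕ) [NeZero n] : Cfsg.HasCyclicSchurMultiplier (QuaternionGroup n) 1 := by
  classical
  refine Cfsg.Agent.Lib.KnownSimple.hasCyclicSchurMultiplier_one_of ?_
  intro Γ _ _ σ hσ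
  rw [eq_bot_iff]
  intro z hz
  rw [Subgroup.mem_bot]
  have hgen : Subgroup.closure ({QuaternionGroup.a (1 : ZMod (2 * n)), QuaternionGroup.xa (0 : ZMod (2 * n))} : Set (QuaternionGroup n)) = ⊤ := by
    rw [eq_top_iff]
    have hg1 : (QuaternionGroup.a (1 : ZMod (2 * n)) : QuaternionGroup n) ∈ Subgroup.closure ({QuaternionGroup.a (1 : ZMod (2 * n)), QuaternionGroup.xa (0 : ZMod (2 * n))} : Set (QuaternionGroup n)) :=
      Subgroup.subset_closure (by simp)
    have hg2 : (QuaternionGroup.xa (0 : ZMod (2 * n)) : QuaternionGroup n) ∈ Subgroup.closure ({QuaternionGroup.a (1 : ZMod (2 * n)), QuaternionGroup.xa (0 : ZMod (2 * n))} : Set (QuaternionGroup n)) :=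
      Subgroup.subset_closure (by simp)
    have hapow : ∀ k : ℕ, (QuaternionGroup.a ((k : ZMod (2 * n))) : QuaternionGroup n) ∈ Subgroup.closure ({QuaternionGroup.a (1 : ZMod (2 * n)), QuaternionGroup.xa (0 : ZMod (2 * n))} : Set (QuaternionGroup n)) := by
      intro k
      have h1 : (QuaternionGroup.a (1 : ZMod (2 * n)) : QuaternionGroup n) ^ k = QuaternionGroup.a (k : ZMod (2 * n)) := by
        rw [QuaternionGroup.a_one_pow]
      rw [← h1]
      exact Subgroup.pow_mem _ hg1 k
    rintro g -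
    haveI : NeZero (2 * n) := ⟨by have := NeZero.ne n; omega⟩
    cases g with
    | a i =>
      have h2 := hapow i.val
      rwa [ZMod.natCast_zmod_val] at h2
    | xa i =>
      have h2 := hapow i.val
      rw [ZMod.natCast_zmod_val] at h2
      have h3 : (QuaternionGroup.xa (0 : ZMod (2 * n)) : QuaternionGroup n) * QuaternionGroup.a i = QuaternionGroup.xa i := by
        simp
      rw [← h3]
      exact Subgroup.mul_mem _ hg2 h2
  refine Cfsg.Agent.Lib.KnownSimple.eq_one_of_dicyclic σ hσ.1 hσ.2.1 (QuaternionGroup.a 1) (QuaternionGroup.xa 0) n ?_ ?_ ?_ hz ?_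
  · exact QuaternionGroup.orderOf_a_one
  · rw [mul_inv_eq_iff_eq_mul, QuaternionGroup.xa_mul_a, show (QuaternionGroup.a (1 : ZMod (2 * n)))⁻¹ = QuaternionGroup.a (-1) from rfl, QuaternionGroup.a_mul_xa]
    simp
  · simp [QuaternionGroup.xa_sq, QuaternionGroup.a_one_pow]
  · rw [hgen, Subgroup.comap_top]
    exact hσ.2.2 hz

end Cfsg.Agent.S3963
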