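import Cfsg.Statements.S3964
import Cfsg.Agent.Lib.PGroups.DihedralSchur

set_option autoImplicit false
open Cfsg

namespace Cfsg.Agent.S3964

open Subgroup DihedralGroup Cfsg.Agent.Lib.PGroups


/-- For odd `n` the dihedral group of order `2 n` has trivial Schur multiplier. -/
theorem result (n : ℕ) (hn : Odd n) : Cfsg.HasCyclicSchurMultiplier (DihedralGroup n) 1 := by
  classical
  have hn0 : n ≠ 0 := by
    rintro rfl
    simp at hn
  haveI : NeZero n := ⟨hn0⟩
  haveI hs1 : Subsingleton (Multiplicative (ZMod 1)) := inferInstanceAs (Subsingleton (ZMod 1))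
  refine ⟨⟨DihedralGroup n, inferInstance, inferInstance, MonoidHom.id _, ?_, ?_⟩, ?_⟩
  · refine ⟨Function.surjective_id, ?_, ?_⟩
    · intro x hx
      have : x = 1 := hx
      rw [this]; exact one_mem _
    · intro x hx
      have : x = 1 := hx
      rw [this]; exact one_mem _
  · refine ⟨⟨⟨fun _ => 1, fun _ => 1, ?_, ?_⟩, ?_⟩⟩
    · rintro ⟨x, hx⟩
      apply Subtype.ext
      exact (show x = 1 from hx).symm
    · intro x
      exact Subsingleton.elim _ _
    · intro x y
      exact Subsingleton.elim _ _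
  · intro Γ _ _ σ hσ
    obtain ⟨c, hc1, hc2, hc3⟩ := dihedral_stem_core σ hσ
    refine ⟨1, ?_⟩
    rintro ⟨k, hk⟩
    refine ⟨1, ?_⟩
    apply Subtype.ext
    obtain ⟨i, rfl⟩ := hc3 k hk
    have h1 : σ (c ^ i) = 1 := hk
    rw [map_zpow, hc1] at h1
    have h2 := r_two_zpow n i
    rw [h2] at h1
    have h3 : (i : ZMod n) * 2 = 0 := r.inj h1
    have h4 : (n : ℤ) ∣ i * 2 := by
      rw [← ZMod.intCast_zmod_eq_zero_iff_dvd]
      push_cast
      exact h3
    have h5 : IsCoprime (n : ℤ) 2 := by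
      rw [Int.isCoprime_iff_gcd_eq_one]
      have : Nat.Coprime n 2 := by
        exact Nat.Coprime.symm (Nat.coprime_two_left.mpr hn)
      simpa [Int.gcd] using this
    have h6 : (n : ℤ) ∣ i := h5.dvd_of_dvd_mul_right h4
    obtain ⟨j, rfl⟩ := h6
    have : c ^ ((n : ℤ) * j) = 1 := by
      rw [zpow_mul, zpow_natCast, hc2, one_zpow]
    exact this.symm

end Cfsg.Agent.S3964
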