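import Cfsg.Statements.S3966
import Mathlib

set_option autoImplicit false
open Cfsg

namespace Cfsg.Agent.S3966

open QuaternionGroup DihedralGroup
open scoped commutatorElement

/-- For even `n ≥ 2` the dicyclic group of order `4 n` is a stem extension of the dihedral group of order `2 n` with kernel of order `2`: there is a surjective homomorphism `QuaternionGroup n →* DihedralGroup n` whose kernel is central, lies in the commutator subgroup and has two elements. Together with the order of the multiplier this exhibits the dicyclic group as a Schur covering group of the dihedral group. -/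
theorem result (n : ℕ) [NeZero n] (hn : Even n) : ∃ σ : QuaternionGroup n →* DihedralGroup n, Cfsg.IsStemExtension σ ∧ Nat.card σ.ker = 2 := by
  classical
  obtain ⟨m, hm⟩ := hn
  have hdvd : n ∣ 2 * n := Dvd.intro_left 2 rfl
  have : NeZero (2 * n) := ⟨by have := NeZero.ne n; omega⟩
  let c : ZMod (2 * n) →+* ZMod n := ZMod.castHom hdvd (ZMod n)
  have hcn : c (n : ZMod (2 * n)) = 0 := by simp [c]
  let σ : QuaternionGroup n →* DihedralGroup n :=
    { toFun := fun g => match g with
        | a i => r (c i)
        | xa i => sr (c i)
      map_one' := by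
        change r (c 0) = 1
        rw [map_zero]; rfl
      map_mul' := by
        rintro (i | i) (j | j)
        · simp only [a_mul_a, r_mul_r, map_add]
        · simp only [a_mul_xa, r_mul_sr, map_sub]
        · simp only [xa_mul_a, sr_mul_r, map_add]
        · simp only [xa_mul_xa, sr_mul_sr, map_sub, map_add, hcn, zero_add] }
  have hσsurj : Function.Surjective σ := by
    have hc : Function.Surjective c := ZMod.castHom_surjective hdvd
    rintro (i | i)
    · obtain ⟨j, rfl⟩ := hc i
      exact ⟨a j, rfl⟩
    · obtain ⟨j, rfl⟩ := hc i
      exact ⟨xa j, rfl⟩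
  have hnn : (n : ZMod (2 * n)) + n = 0 := by
    have := ZMod.natCast_self (2 * n)
    push_cast at this
    rw [← two_mul]; exact this
  have hker : ∀ g, g ∈ σ.ker ↔ g = a 0 ∨ g = a (n : ZMod (2 * n)) := by
    intro g
    rw [MonoidHom.mem_ker]
    constructor
    · intro hg
      cases g with
      | a i =>
        have h1 : r (c i) = (1 : DihedralGroup n) := hg
        have h2 : c i = 0 := r.inj h1
        have h3 : ((i.val : ℕ) : ZMod n) = 0 := by
          have h4 : c ((i.val : ℕ) : ZMod (2 * n)) = 0 := by rw [ZMod.natCast_zmod_val]; exact h2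
          rwa [map_natCast] at h4
        rw [ZMod.natCast_eq_zero_iff] at h3
        obtain ⟨k, hk⟩ := h3
        have hlt : i.val < 2 * n := ZMod.val_lt i
        have hnpos : 0 < n := Nat.pos_of_ne_zero (NeZero.ne n)
        have hk2 : k < 2 := by
          rw [hk, mul_comm] at hlt
          exact Nat.lt_of_mul_lt_mul_right hlt
        have hi : i = ((i.val : ℕ) : ZMod (2 * n)) := (ZMod.natCast_zmod_val i).symm
        interval_cases k
        · left
          rw [hi, hk]; simp
        · right
          rw [hi, hk]; simp
      | xa i =>
        exact absurd hg (by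
          change sr (c i) ≠ 1
          exact fun h => by cases h)
    · rintro (rfl | rfl)
      · change r (c 0) = 1
        rw [map_zero]; rfl
      · change r (c n) = 1
        rw [hcn]; rfl
  have hcentral : a (n : ZMod (2 * n)) ∈ Subgroup.center (QuaternionGroup n) := by
    rw [Subgroup.mem_center_iff]
    rintro (j | j)
    · simp only [a_mul_a, add_comm]
    · simp only [a_mul_xa, xa_mul_a]
      congr 1
      linear_combination hnn
  have hcomm : a (n : ZMod (2 * n)) ∈ commutator (QuaternionGroup n) := by
    have h1 : a (n : ZMod (2 * n)) = ⁅a (m : ZMod (2 * n)), xa (0 : ZMod (2 * n))⁆ := by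
      rw [commutatorElement_def]
      have hi1 : (a (m : ZMod (2 * n)) : QuaternionGroup n)⁻¹ = a (-(m : ZMod (2 * n))) := rfl
      have hi2 : (xa (0 : ZMod (2 * n)) : QuaternionGroup n)⁻¹ = xa ((n : ZMod (2 * n)) + 0) := rfl
      rw [hi1, hi2]
      simp only [a_mul_xa, xa_mul_a, xa_mul_xa]
      congr 1
      have h2 : (n : ZMod (2 * n)) = (m : ZMod (2 * n)) + m := by
        rw [hm]; push_cast; ring
      linear_combination -(hnn) + h2 
    rw [h1]
    exact Subgroup.commutator_mem_commutator (Subgroup.mem_top _) (Subgroup.mem_top _)
  refine ⟨σ, ⟨hσsurj, ?_, ?_⟩, ?_⟩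
  · intro g hg
    rcases (hker g).mp hg with rfl | rfl
    · rw [← QuaternionGroup.one_def]; exact Subgroup.one_mem _
    · exact hcentral
  · intro g hg
    rcases (hker g).mp hg with rfl | rfl
    · rw [← QuaternionGroup.one_def]; exact Subgroup.one_mem _
    · exact hcomm
  · have hset : (σ.ker : Set (QuaternionGroup n)) = {a 0, a (n : ZMod (2 * n))} := by
      ext g
      simp only [SetLike.mem_coe, hker, Set.mem_insert_iff, Set.mem_singleton_iff]
    have hne : (a 0 : QuaternionGroup n) ≠ a (n : ZMod (2 * n)) := by
      intro h
      have h1 : (0 : ZMod (2 * n)) = n := a.inj h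
      have h2 := (ZMod.natCast_eq_zero_iff n (2 * n)).mp h1.symm
      have hnpos : 0 < n := Nat.pos_of_ne_zero (NeZero.ne n)
      have := Nat.le_of_dvd hnpos h2
      omega
    have h1 : Nat.card σ.ker = Set.ncard (σ.ker : Set (QuaternionGroup n)) := (Nat.card_coe_set_eq _).symm
    rw [h1, hset, Set.ncard_pair hne]

end Cfsg.Agent.S3966
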