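import Cfsg.Statements.S3965
import Cfsg.Agent.Lib.PGroups.DihedralSchur
import Cfsg.Agent.S3966

set_option autoImplicit false
open Cfsg

namespace Cfsg.Agent.S3965

open Subgroup DihedralGroup Cfsg.Agent.Lib.PGroups


/-- For even `n ≥ 2` the dihedral group of order `2 n` has Schur multiplier cyclic of order `2`. -/
theorem result (n : ℕ) [NeZero n] (hn : Even n) : Cfsg.HasCyclicSchurMultiplier (DihedralGroup n) 2 := by
  classical
  have hn' := hn
  obtain ⟨m, hm⟩ := hn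
  have hm2 : n = 2 * m := by omega
  haveI : Fact (Nat.Prime 2) := ⟨Nat.prime_two⟩
  refine ⟨?_, ?_⟩
  · obtain ⟨σ, hσ, hcard⟩ := Cfsg.Agent.S3966.result n hn'
    refine ⟨QuaternionGroup n, inferInstance, inferInstance, σ, hσ, ?_⟩
    refine ⟨mulEquivOfPrimeCardEq hcard ?_⟩
    rw [Nat.card_eq_fintype_card]
    show Fintype.card (ZMod 2) = 2
    rfl
  · intro Γ _ _ σ hσ
    obtain ⟨c, hc1, hc2, hc3⟩ := dihedral_stem_core σ hσ
    have hpow := r_two_zpow n
    have hwk : c ^ m ∈ σ.ker := by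
      rw [MonoidHom.mem_ker, map_pow, hc1, ← zpow_natCast, hpow]
      have : ((m : ℤ) : ZMod n) * 2 = 0 := by
        have h1 : (n : ZMod n) = 0 := ZMod.natCast_self n
        rw [hm2] at h1
        rw [hm2]
        push_cast at h1 ⊢
        exact (mul_comm _ _).trans h1
      rw [this]
      rfl
    have hw2 : (c ^ m) ^ 2 = 1 := by
      rw [← pow_mul, mul_comm, ← hm2, hc2]
    have hw3 : (⟨c ^ m, hwk⟩ : σ.ker) ^ 2 = 1 := Subtype.ext hw2
    letI instC : CommGroup σ.ker :=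
      { (inferInstance : Group σ.ker) with
        mul_comm := fun a b => Subtype.ext (mem_center_iff.mp (hσ.2.1 b.2) (a : Γ)) }
    obtain ⟨π, hπ⟩ := Cfsg.Agent.Lib.Coprime.SchurBasic.exists_zmod_hom (C := σ.ker) 2 ⟨c ^ m, hwk⟩ hw3
    refine ⟨π, ?_⟩
    rintro ⟨k, hk⟩
    obtain ⟨i, rfl⟩ := hc3 k hk
    -- `m ∣ i`
    have h1 : σ (c ^ i) = 1 := hk
    rw [map_zpow, hc1, hpow] at h1
    have h3 : (i : ZMod n) * 2 = 0 := r.inj h1
    have h4 : (n : ℤ) ∣ i * 2 := by
      rw [← ZMod.intCast_zmod_eq_zero_iff_dvd]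
      push_cast
      exact h3
    have h5 : (m : ℤ) ∣ i := by
      rw [hm2] at h4
      push_cast at h4
      have h6 : ((m : ℤ) * 2) ∣ i * 2 := by rwa [mul_comm (2 : ℤ)] at h4
      exact Int.dvd_of_mul_dvd_mul_right (by norm_num) h6
    obtain ⟨j, rfl⟩ := h5
    refine ⟨Multiplicative.ofAdd (j : ZMod 2), ?_⟩
    rw [hπ j]
    apply Subtype.ext
    simp only [SubgroupClass.coe_zpow]
    rw [← zpow_natCast, ← zpow_mul]

end Cfsg.Agent.S3965
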