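import Cfsg.Statements.S3967
import Cfsg.Agent.Lib.PGroups.MetSchur1
import Cfsg.Agent.Lib.PGroups.Parts
import Cfsg.Agent.Lib.Coprime.SchurBasic

set_option autoImplicit false
open Cfsg

namespace Cfsg.Agent.S3967

section aux

open Subgroup Cfsg.Agent.Lib.PGroups Cfsg.Agent.Lib.PGroups.MetS
open scoped commutatorElement

private theorem sigma_mul (s n : ℕ) : s * ∑ i ∈ Finset.range n, (s + 1) ^ i + 1 = (s + 1) ^ n := by
  induction n with
  | zero => simp
  | succ n ih =>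
    rw [Finset.sum_range_succ, mul_add, pow_succ]
    nlinarith [ih]

private theorem sum_modEq {R r k : ℕ} (h : R ≡ r [MOD k]) (n : ℕ) :
    ∑ i ∈ Finset.range n, R ^ i ≡ ∑ i ∈ Finset.range n, r ^ i [MOD k] := by
  induction n with
  | zero => rfl
  | succ n ih =>
    rw [Finset.sum_range_succ, Finset.sum_range_succ]
    exact ih.add (h.pow n)

/-- The universal property of the extension. -/
private theorem upper {m n r t d e f σ' l : ℕ} (hm : 0 < m) (hn : 0 < n) (hr : 0 < r)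
    (hR : r ^ n ≡ 1 [MOD m]) (hT : t * r ≡ t [MOD m])
    (hde : m = d * e) (hdf : r - 1 = d * f) (hcop : e.Coprime f)
    (hσ : ∑ i ∈ Finset.range n, r ^ i = e * σ') (ht : t = e * l)
    {Γ : Type} [Group Γ] [Finite Γ] (σ : Γ →* Pres m n r t) (hσs : IsStemExtension σ) :
    ∃ π : Multiplicative (ZMod (Nat.gcd l (Nat.gcd d σ'))) →* σ.ker, Function.Surjective π := by
  classical
  obtain ⟨α, hα⟩ := hσs.1 (aP m n r t)
  obtain ⟨β, hβ⟩ := hσs.1 (bP m n r t)
  have hcent : ∀ k ∈ σ.ker, ∀ g : Γ, g * k = k * g := fun k hk g =>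
    Subgroup.mem_center_iff.mp (hσs.2.1 hk) g
  set c : Γ := β * α * β⁻¹ * α⁻¹ with hc
  have hr1 : r = (r - 1) + 1 := by omega
  have hσc : σ c = aP m n r t ^ (r - 1) := by
    rw [hc, map_mul, map_mul, map_mul, map_inv, map_inv, hα, hβ, bP_conj]
    have h0 : aP m n r t ^ r = aP m n r t ^ (r - 1) * aP m n r t := by
      rw [← pow_succ, show r - 1 + 1 = r by omega]
    rw [h0]
    group
  -- the central element
  set w : Γ := c * (α ^ (r - 1))⁻¹ with hw
  have hwk : w ∈ σ.ker := by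
    rw [MonoidHom.mem_ker, hw, map_mul, map_inv, map_pow, hα, hσc, mul_inv_cancel]
  have hcw : c = w * α ^ (r - 1) := by rw [hw]; group
  have hcα : Commute c α := by
    rw [hcw]
    show w * α ^ (r - 1) * α = α * (w * α ^ (r - 1))
    rw [← mul_assoc α, hcent w hwk α, mul_assoc w, mul_assoc w, ← pow_succ, ← pow_succ']
  have hconj : β * α * β⁻¹ = c * α := by rw [hc]; group
  have hA : ∀ k : ℕ, Commute β (α ^ k) → c ^ k = 1 := by
    intro k hk
    have h1 : β * α ^ k * β⁻¹ = (c * α) ^ k := by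
      rw [← hconj, conj_pow]
    rw [hk.eq, mul_assoc, mul_inv_cancel, mul_one, hcα.mul_pow] at h1
    exact (mul_eq_right.mp h1.symm)
  have hcm : c ^ m = 1 := by
    apply hA
    have h1 : α ^ m ∈ σ.ker := by
      rw [MonoidHom.mem_ker, map_pow, hα, aP_pow]
    exact hcent _ h1 β
  -- the central element `β ^ n * (α ^ t)⁻¹`
  obtain ⟨v, hv⟩ : ∃ v : Γ, v = β ^ n * (α ^ t)⁻¹ := ⟨_, rfl⟩
  have hvk : v ∈ σ.ker := by
    rw [MonoidHom.mem_ker, hv, map_mul, map_inv, map_pow, map_pow, hα, hβ, bP_pow, mul_inv_cancel]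
  have hβn : β ^ n = v * α ^ t := by rw [hv]; group
  have hct : c ^ t = 1 := by
    apply hA
    have h1 : α ^ t = v⁻¹ * β ^ n := by rw [hβn]; group
    show β * α ^ t = α ^ t * β
    rw [h1, ← mul_assoc, hcent _ (σ.ker.inv_mem hvk) β, mul_assoc, mul_assoc, ← pow_succ', pow_succ]
  have hβc : β * c * β⁻¹ = c ^ r := by
    have h1 : β * w * β⁻¹ = w := by
      rw [hcent w hwk β, mul_assoc, mul_inv_cancel, mul_one]
    calc β * c * β⁻¹ = β * w * β⁻¹ * (β * α ^ (r - 1) * β⁻¹) := by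
          rw [hcw]; group
      _ = w * (c * α) ^ (r - 1) := by rw [h1, ← conj_pow, hconj]
      _ = w * (c ^ (r - 1) * α ^ (r - 1)) := by rw [hcα.mul_pow]
      _ = c ^ (r - 1) * (w * α ^ (r - 1)) := by
          rw [← mul_assoc, ← hcent w hwk, mul_assoc]
      _ = c ^ r := by
          rw [← hcw]
          conv_rhs => rw [hr1, pow_succ]
  have hB : ∀ k : ℕ, β ^ k * α * (β ^ k)⁻¹ = c ^ (∑ i ∈ Finset.range k, r ^ i) * α := by
    intro k
    induction k with
    | zero => simp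
    | succ k ih =>
      have h1 : β ^ (k + 1) * α * (β ^ (k + 1))⁻¹ = β * (β ^ k * α * (β ^ k)⁻¹) * β⁻¹ := by
        rw [pow_succ']; group
      rw [h1, ih]
      have h2 : β * (c ^ (∑ i ∈ Finset.range k, r ^ i) * α) * β⁻¹ =
          (β * c * β⁻¹) ^ (∑ i ∈ Finset.range k, r ^ i) * (β * α * β⁻¹) := by
        rw [conj_pow]; group
      rw [h2, hβc, hconj, ← pow_mul, ← mul_assoc, ← pow_succ]
      congr 2
      rw [Finset.sum_range_succ', Finset.mul_sum]
      simp [pow_succ']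
  have hcσ : c ^ (∑ i ∈ Finset.range n, r ^ i) = 1 := by
    have h1 := hB n
    have h2 : β ^ n * α = α * β ^ n := by
      rw [hβn, mul_assoc, ← pow_succ, ← mul_assoc α v, hcent v hvk α, mul_assoc, ← pow_succ']
    rw [h2, mul_assoc, mul_inv_cancel, mul_one] at h1
    exact (mul_eq_right.mp h1.symm)
  -- every element
  have hform : ∀ g : Γ, ∃ (i j : ℕ) (κ : Γ), κ ∈ σ.ker ∧ g = α ^ i * β ^ j * κ := by
    intro g
    obtain ⟨i, j, -, -, h⟩ := pres_form hm hn (σ g)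
    refine ⟨i, j, (α ^ i * β ^ j)⁻¹ * g, ?_, by group⟩
    rw [MonoidHom.mem_ker, map_mul, map_inv, map_mul, map_pow, map_pow, hα, hβ, h]
    group
  -- `zpowers c` is normal
  set C : Subgroup Γ := zpowers c with hC
  have hαN : α ∈ normalizer (C : Set Γ) := by
    refine Cfsg.Agent.Lib.PGroups.mem_normalizer_of_forall_commute fun z hz => ?_
    obtain ⟨i, rfl⟩ := Subgroup.mem_zpowers_iff.mp hz
    exact ((hcα.zpow_left i).symm).eq
  have hβN : β ∈ normalizer (C : Set Γ) := by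
    refine Cfsg.Agent.Lib.PGroups.mem_normalizer_of_conj_le' C β fun z hz => ?_
    obtain ⟨i, rfl⟩ := Subgroup.mem_zpowers_iff.mp hz
    rw [← conj_zpow, hβc]
    exact zpow_mem (pow_mem (mem_zpowers c) _) _
  have hkN : ∀ κ ∈ σ.ker, κ ∈ normalizer (C : Set Γ) := by
    intro κ hκ
    exact Cfsg.Agent.Lib.PGroups.mem_normalizer_of_forall_commute fun z _ => (hcent κ hκ z).symm
  haveI hCn : C.Normal := by
    rw [← Subgroup.normalizer_eq_top_iff, eq_top_iff]
    intro g _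
    obtain ⟨i, j, κ, hκ, rfl⟩ := hform g
    exact mul_mem (mul_mem (pow_mem hαN _) (pow_mem hβN _)) (hkN κ hκ)
  -- commutativity modulo `C`
  have hAB : Commute ((α : Γ) : Γ ⧸ C) ((β : Γ) : Γ ⧸ C) := by
    have h1 : ((c : Γ) : Γ ⧸ C) = 1 := (QuotientGroup.eq_one_iff c).mpr (mem_zpowers c)
    rw [hc] at h1
    simp only [QuotientGroup.mk_mul, QuotientGroup.mk_inv] at h1
    have h2 : ((β : Γ) : Γ ⧸ C) * ((α : Γ) : Γ ⧸ C) = ((α : Γ) : Γ ⧸ C) * ((β : Γ) : Γ ⧸ C) := by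
      have := mul_inv_eq_one.mp h1
      exact mul_inv_eq_iff_eq_mul.mp this
    exact h2.symm
  have hK : ∀ κ ∈ σ.ker, ∀ g : Γ, Commute ((g : Γ) : Γ ⧸ C) ((κ : Γ) : Γ ⧸ C) := by
    intro κ hκ g
    show ((g : Γ) : Γ ⧸ C) * ((κ : Γ) : Γ ⧸ C) = ((κ : Γ) : Γ ⧸ C) * ((g : Γ) : Γ ⧸ C)
    rw [← QuotientGroup.mk_mul, hcent κ hκ g, QuotientGroup.mk_mul]
  have hstep1 : ∀ g : Γ, Commute ((g : Γ) : Γ ⧸ C) ((α : Γ) : Γ ⧸ C) ∧
      Commute ((g : Γ) : Γ ⧸ C) ((β : Γ) : Γ ⧸ C) := by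
    intro g
    obtain ⟨i, j, κ, hκ, rfl⟩ := hform g
    rw [QuotientGroup.mk_mul, QuotientGroup.mk_mul, QuotientGroup.mk_pow, QuotientGroup.mk_pow]
    constructor
    · refine Commute.mul_left (Commute.mul_left ((Commute.refl _).pow_left i) (hAB.symm.pow_left j)) ?_
      exact (hK κ hκ α).symm
    · refine Commute.mul_left (Commute.mul_left (hAB.pow_left i) ((Commute.refl _).pow_left j)) ?_
      exact (hK κ hκ β).symm
  have hstep2 : ∀ g h : Γ, Commute ((g : Γ) : Γ ⧸ C) ((h : Γ) : Γ ⧸ C) := by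
    intro g h
    obtain ⟨i, j, κ, hκ, rfl⟩ := hform h
    rw [QuotientGroup.mk_mul, QuotientGroup.mk_mul, QuotientGroup.mk_pow, QuotientGroup.mk_pow]
    exact Commute.mul_right (Commute.mul_right ((hstep1 g).1.pow_right i) ((hstep1 g).2.pow_right j))
      (hK κ hκ g)
  have hcomm : commutator Γ ≤ C := by
    rw [_root_.commutator_def, Subgroup.commutator_le]
    intro g _ h _
    rw [← QuotientGroup.eq_one_iff, commutatorElement_def]
    simp only [QuotientGroup.mk_mul, QuotientGroup.mk_inv]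
    rw [(hstep2 g h).eq]
    group
  -- `ζ`
  have hd0 : 0 < d := Nat.pos_of_ne_zero (by rintro rfl; simp at hde; omega)
  have hordA : orderOf (aP m n r t) = m := orderOf_aP hm hn hR hT
  have hζk : c ^ e ∈ σ.ker := by
    rw [MonoidHom.mem_ker, map_pow, hσc, ← pow_mul, hdf]
    rw [show d * f * e = m * f by rw [hde]; ring, pow_mul, aP_pow, one_pow]
  set N := Nat.gcd l (Nat.gcd d σ') with hN
  have hζN : (⟨c ^ e, hζk⟩ : σ.ker) ^ N = 1 := by
    apply Subtype.ext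
    show (c ^ e) ^ N = 1
    rw [← orderOf_dvd_iff_pow_eq_one]
    apply Nat.dvd_gcd
    · rw [orderOf_dvd_iff_pow_eq_one, ← pow_mul, ← ht, hct]
    · apply Nat.dvd_gcd
      · rw [orderOf_dvd_iff_pow_eq_one, ← pow_mul, mul_comm, ← hde, hcm]
      · rw [orderOf_dvd_iff_pow_eq_one, ← pow_mul, ← hσ, hcσ]
  letI instC : CommGroup σ.ker :=
    { (inferInstance : Group σ.ker) with
      mul_comm := fun a b => Subtype.ext (hcent b b.2 (a : Γ)) }
  obtain ⟨π, hπ⟩ := Cfsg.Agent.Lib.Coprime.SchurBasic.exists_zmod_hom (C := σ.ker) N ⟨c ^ e, hζk⟩ hζN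
  refine ⟨π, ?_⟩
  rintro ⟨k, hk⟩
  obtain ⟨i, rfl⟩ := Subgroup.mem_zpowers_iff.mp (hcomm (hσs.2.2 hk))
  have h1 : σ (c ^ i) = 1 := hk
  rw [map_zpow, hσc] at h1
  have h2 : (orderOf (aP m n r t) : ℤ) ∣ ((r - 1 : ℕ) : ℤ) * i := by
    rw [orderOf_dvd_iff_zpow_eq_one, zpow_mul, zpow_natCast]
    exact h1
  rw [hordA, hde, hdf] at h2
  push_cast at h2
  have hd0' : (d : ℤ) ≠ 0 := by exact_mod_cast hd0.ne'
  rw [mul_assoc] at h2
  have h3 : (e : ℤ) ∣ (f : ℤ) * i := (mul_dvd_mul_iff_left hd0').mp h2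
  have h4 : IsCoprime (e : ℤ) (f : ℤ) := Nat.isCoprime_iff_coprime.mpr hcop
  obtain ⟨q, rfl⟩ := h4.dvd_of_dvd_mul_left h3
  refine ⟨Multiplicative.ofAdd (q : ZMod N), ?_⟩
  rw [hπ q]
  apply Subtype.ext
  simp only [SubgroupClass.coe_zpow]
  rw [← zpow_natCast, ← zpow_mul]

/-- The cover. -/
private theorem exists_cover {m n r t d e f σ' l N : ℕ} (hm : 0 < m) (hn : 0 < n) (hr : 0 < r)
    (hR : r ^ n ≡ 1 [MOD m]) (hT : t * r ≡ t [MOD m])
    (hde : m = d * e) (hdf : r - 1 = d * f) (hcop : e.Coprime f)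
    (hσ : ∑ i ∈ Finset.range n, r ^ i = e * σ') (ht : t = e * l)
    (hN0 : 0 < N) (hNl : N ∣ l) (hNd : N ∣ d) (hNσ : N ∣ σ') :
    ∃ (Γ : Type) (_ : Group Γ) (_ : Finite Γ) (s : Γ →* Pres m n r t), IsStemExtension s ∧
      Nonempty (s.ker ≃* Multiplicative (ZMod N)) := by
  classical
  have hd0 : 0 < d := Nat.pos_of_ne_zero (by rintro rfl; simp at hde; omega)
  have he0 : 0 < e := Nat.pos_of_ne_zero (by rintro rfl; simp at hde; omega)
  have heN : 0 < e * N := Nat.mul_pos he0 hN0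
  haveI : NeZero (e * N) := ⟨heN.ne'⟩
  -- the number `y`
  obtain ⟨u, hu⟩ := ZMod.unitsMap_surjective (n := e) (m := e * N) (dvd_mul_right e N)
    (ZMod.unitOfCoprime f (Nat.Coprime.symm hcop))
  set y : ℕ := (u : ZMod (e * N)).val with hy
  have hy1 : y.Coprime (e * N) := ZMod.val_coe_unit_coprime u
  have hy2 : y ≡ f [MOD e] := by
    rw [← ZMod.natCast_eq_natCast_iff]
    have h1 := congrArg (Units.val) hu
    rw [ZMod.unitsMap_def, Units.coe_map] at h1
    simp only [MonoidHom.coe_coe, ZMod.castHom_apply, ZMod.coe_unitOfCoprime] at h1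
    rw [hy, ZMod.natCast_val]
    exact h1
  set R : ℕ := 1 + d * y with hRdef
  have hrdef : r = 1 + d * f := by omega
  have hRr : R ≡ r [MOD m] := by
    rw [hRdef, hrdef, hde]
    exact Nat.ModEq.add_left 1 (hy2.mul_left' d)
  set M : ℕ := m * N with hM
  have hM0 : 0 < M := Nat.mul_pos hm hN0
  have hMde : M = d * (e * N) := by rw [hM, hde]; ring
  -- the congruences
  obtain ⟨d', hd'⟩ := hNd
  obtain ⟨l', hl'⟩ := hNl
  obtain ⟨σ'', hσ''⟩ := hNσ
  have hRn : R ^ n ≡ 1 [MOD M] := by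
    have h1 := sigma_mul (d * y) n
    have h2 : R = d * y + 1 := by rw [hRdef]; ring
    rw [← h2] at h1
    have h3 : e * N ∣ m := by
      rw [hde, hd']
      exact ⟨d', by ring⟩
    have h4 := sum_modEq (hRr.of_dvd h3) n
    have h5 : e * N ∣ ∑ i ∈ Finset.range n, r ^ i := by
      rw [hσ, hσ'']
      exact ⟨σ'', by ring⟩
    have h6 : e * N ∣ ∑ i ∈ Finset.range n, R ^ i := (h4.dvd_iff dvd_rfl).mpr h5
    obtain ⟨q, hq⟩ := h6
    rw [← h1, hq]
    have h7 : d * y * (e * N * q) + 1 = M * (y * q) + 1 := by rw [hMde]; ring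
    rw [h7]
    simp [Nat.ModEq]
  have hTR : t * R ≡ t [MOD M] := by
    have h1 : t * R = t + M * (l' * y) := by
      rw [hRdef, hM, hde, ht, hl']
      ring
    rw [h1]
    simp [Nat.ModEq]
  -- the group
  haveI hfin : Finite (Pres M n R t) := pres_finite hM0 hn
  have ha1 : aP m n r t ^ M = 1 := by
    rw [hM, pow_mul, aP_pow, one_pow]
  have ha3 : bP m n r t * aP m n r t * (bP m n r t)⁻¹ = aP m n r t ^ R := by
    rw [bP_conj, pow_eq_pow_iff_modEq, orderOf_aP hm hn hR hT]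
    exact hRr.symm
  let s : Pres M n R t →* Pres m n r t := lift (aP m n r t) (bP m n r t) ha1 bP_pow ha3
  have hsa : s (aP M n R t) = aP m n r t := lift_a _ _ _ _ _
  have hsb : s (bP M n R t) = bP m n r t := lift_b _ _ _ _ _
  set a₀ := aP M n R t with ha₀
  set b₀ := bP M n R t with hb₀
  set ζ₀ := a₀ ^ m with hζ₀
  have hker : s.ker = zpowers ζ₀ := by
    apply le_antisymm
    · intro g hg
      obtain ⟨i, j, -, hj, rfl⟩ := pres_form hM0 hn g
      rw [MonoidHom.mem_ker, map_mul, map_pow, map_pow, hsa, hsb] at hg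
      obtain ⟨⟨q, rfl⟩, rfl⟩ := pres_sep hm hn hR hT i j hj hg
      rw [pow_zero, mul_one, pow_mul]
      exact pow_mem (mem_zpowers _) _
    · rw [Subgroup.zpowers_le, MonoidHom.mem_ker, hζ₀, map_pow, hsa, aP_pow]
  have hζb : b₀ * ζ₀ = ζ₀ * b₀ := by
    have h1 : b₀ * ζ₀ * b₀⁻¹ = ζ₀ := by
      rw [hζ₀, ← conj_pow, bP_conj, ← pow_mul]
      rw [pow_eq_pow_iff_modEq, orderOf_aP hM0 hn hRn hTR]
      have h2 : R * m = m + M * (d' * y) := by
        rw [hRdef, hM, hd']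
        ring
      rw [h2]
      simp [Nat.ModEq]
    exact mul_inv_eq_iff_eq_mul.mp h1
  have hζa : a₀ * ζ₀ = ζ₀ * a₀ := by
    rw [hζ₀, ← pow_succ, ← pow_succ']
  have hcenter : ζ₀ ∈ center (Pres M n R t) := by
    rw [Subgroup.mem_center_iff]
    intro g
    obtain ⟨i, j, -, -, rfl⟩ := pres_form hM0 hn g
    have h1 : Commute a₀ ζ₀ := hζa
    have h2 : Commute b₀ ζ₀ := hζb
    exact ((h1.pow_left i).mul_left (h2.pow_left j)).eq
  have hordM : orderOf a₀ = M := orderOf_aP hM0 hn hRn hTR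
  refine ⟨Pres M n R t, inferInstance, hfin, s, ⟨?_, ?_, ?_⟩, ?_⟩
  · intro g
    obtain ⟨i, j, -, -, rfl⟩ := pres_form hm hn g
    exact ⟨a₀ ^ i * b₀ ^ j, by rw [map_mul, map_pow, map_pow, hsa, hsb]⟩
  · rw [hker, Subgroup.zpowers_le]
    exact hcenter
  · rw [hker, Subgroup.zpowers_le]
    -- the commutator is a power of `a₀`
    have h1 : ⁅b₀, a₀⁆ ∈ commutator (Pres M n R t) := by
      rw [_root_.commutator_def]
      exact Subgroup.commutator_mem_commutator (mem_top _) (mem_top _)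
    have h2 : ⁅b₀, a₀⁆ = a₀ ^ (d * y) := by
      have hRe : R = d * y + 1 := by rw [hRdef]; ring
      have hR' : a₀ ^ R = a₀ ^ (d * y) * a₀ := by
        have h0 : a₀ ^ R = a₀ ^ (d * y + 1) := congrArg (fun k : ℕ => a₀ ^ k) hRe
        rw [h0, pow_succ]
      rw [commutatorElement_def, bP_conj, hR']
      group
    rw [h2] at h1
    have hcp : IsCoprime (y : ℤ) ((e * N : ℕ) : ℤ) := Nat.isCoprime_iff_coprime.mpr hy1
    obtain ⟨A, B, hAB⟩ := hcp
    have h3 : a₀ ^ d = (a₀ ^ (d * y)) ^ A := by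
      rw [← zpow_natCast a₀ (d * y), ← zpow_mul]
      have h4 : ((d * y : ℕ) : ℤ) * A = (d : ℤ) - (M : ℤ) * B := by
        rw [hMde]
        push_cast at hAB ⊢
        linear_combination (d : ℤ) * hAB
      have ha₀M : a₀ ^ M = 1 := aP_pow
      rw [h4, zpow_sub, zpow_mul, zpow_natCast a₀ M, zpow_natCast, ha₀M]
      simp
    have h5 : a₀ ^ d ∈ commutator (Pres M n R t) := by
      rw [h3]
      exact zpow_mem h1 _
    rw [hζ₀, hde, pow_mul]
    exact pow_mem h5 _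
  · have hcard : Nat.card s.ker = N := by
      rw [hker, Nat.card_zpowers, hζ₀, orderOf_pow' _ hm.ne', hordM, hM]
      rw [Nat.gcd_mul_right_left]
      exact Nat.mul_div_cancel_left _ hm
    have hcyc : IsCyclic s.ker := by
      rw [hker]
      infer_instance
    have e₁ := zmodCyclicMulEquiv hcyc
    rw [hcard] at e₁
    exact ⟨e₁.symm⟩

end aux


/-- Let `m, n ≥ 1`, `r ≥ 1` with `r ^ n ≡ 1 (mod m)`, and `l` a natural number; put `d = gcd(m, r - 1)`, `t = m l / d` and `h = d · gcd(m, 1 + r + ⋯ + r^(n-1)) / m`. The group presented by generators `a, b` and relations `a ^ m = 1`, `b ^ n = a ^ t`, `b a b⁻¹ = a ^ r` (a metacyclic group of order `m n`) has Schur multiplier cyclic of order `gcd(l, h)`. -/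
theorem result (m n r l : ℕ) (hm : 0 < m) (hn : 0 < n) (hr : 0 < r) (hrn : r ^ n ≡ 1 [MOD m]) : Cfsg.HasCyclicSchurMultiplier (PresentedGroup ({FreeGroup.of true ^ m, (FreeGroup.of false) ^ n * (FreeGroup.of true ^ (m * l / Nat.gcd m (r - 1)))⁻¹, FreeGroup.of false * FreeGroup.of true * (FreeGroup.of false)⁻¹ * (FreeGroup.of true ^ r)⁻¹} : Set (FreeGroup Bool))) (Nat.gcd l (Nat.gcd m (r - 1) * Nat.gcd m (∑ i ∈ Finset.range n, r ^ i) / m)) := by
  classical
  set d := Nat.gcd m (r - 1) with hd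
  have hdm : d ∣ m := Nat.gcd_dvd_left _ _
  have hdr : d ∣ r - 1 := Nat.gcd_dvd_right _ _
  obtain ⟨e, hde⟩ := hdm
  obtain ⟨f, hdf⟩ := hdr
  have hd0 : 0 < d := Nat.gcd_pos_of_pos_left _ hm
  have he0 : 0 < e := Nat.pos_of_ne_zero (by rintro rfl; simp at hde; omega)
  have hcop : e.Coprime f := by
    have h1 := Nat.coprime_div_gcd_div_gcd (m := m) (n := r - 1) hd0
    rw [← hd] at h1
    rwa [show m / d = e by rw [hde]; exact Nat.mul_div_cancel_left _ hd0,
      show (r - 1) / d = f by rw [hdf]; exact Nat.mul_div_cancel_left _ hd0] at h1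
  set t := m * l / d with htdef
  have ht : t = e * l := by
    rw [htdef, hde, mul_assoc]
    exact Nat.mul_div_cancel_left _ hd0
  obtain ⟨s, rfl⟩ : ∃ s, r = s + 1 := ⟨r - 1, by omega⟩
  have hs : s + 1 - 1 = s := by omega
  rw [hs] at hdf
  have hsum := sigma_mul s n
  have hdvd : m ∣ s * ∑ i ∈ Finset.range n, (s + 1) ^ i := by
    rw [← hsum] at hrn
    have h1 : s * ∑ i ∈ Finset.range n, (s + 1) ^ i + 1 ≡ 0 + 1 [MOD m] := by simpa using hrn
    have h2 := Nat.ModEq.add_right_cancel' 1 h1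
    exact (Nat.modEq_zero_iff_dvd).mp h2
  have heσ : e ∣ ∑ i ∈ Finset.range n, (s + 1) ^ i := by
    obtain ⟨S, hS⟩ : ∃ S, S = ∑ i ∈ Finset.range n, (s + 1) ^ i := ⟨_, rfl⟩
    rw [← hS] at hdvd ⊢
    rw [hde, hdf, mul_assoc] at hdvd
    have h3 : e ∣ f * S := (Nat.mul_dvd_mul_iff_left hd0).mp hdvd
    exact hcop.dvd_of_dvd_mul_left h3
  obtain ⟨σ', hσ⟩ := heσ
  have hT : t * (s + 1) ≡ t [MOD m] := by
    have h1 : t * (s + 1) = t + m * (l * f) := by
      rw [ht, hde, hdf]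
      ring
    rw [h1]
    simp [Nat.ModEq]
  have hNeq : Nat.gcd m (s + 1 - 1) * Nat.gcd m (∑ i ∈ Finset.range n, (s + 1) ^ i) / m =
      Nat.gcd d σ' := by
    have h1 : Nat.gcd m (s + 1 - 1) = d := by rw [hd]
    rw [h1, hσ, hde, mul_comm d e, Nat.gcd_mul_left]
    have h2 : d * (e * Nat.gcd d σ') = (e * d) * Nat.gcd d σ' := by ring
    rw [h2]
    exact Nat.mul_div_cancel_left _ (Nat.mul_pos he0 hd0)
  rw [hNeq]
  have hN0 : 0 < Nat.gcd l (Nat.gcd d σ') :=
    Nat.gcd_pos_of_pos_right _ (Nat.gcd_pos_of_pos_left _ hd0)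
  have hdfs : s + 1 - 1 = d * f := by omega
  show Cfsg.HasCyclicSchurMultiplier (Cfsg.Agent.Lib.PGroups.MetS.Pres m n (s + 1) t) _
  refine ⟨?_, ?_⟩
  · exact exists_cover hm hn hr hrn hT hde hdfs hcop hσ ht hN0 (Nat.gcd_dvd_left _ _)
      ((Nat.gcd_dvd_right _ _).trans (Nat.gcd_dvd_left _ _))
      ((Nat.gcd_dvd_right _ _).trans (Nat.gcd_dvd_right _ _))
  · intro Γ _ _ σ hσs
    exact upper hm hn hr hrn hT hde hdfs hcop hσ ht σ hσs

end Cfsg.Agent.S3967
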