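import Cfsg.Statements.S3968
import Cfsg.Agent.Lib.Lead.Kazarin
import Cfsg.Agent.Lib.Char.Burnside
import Cfsg.Agent.Lib.Char.FTBound
import Cfsg.Agent.Lib.Char.Constituent
import Cfsg.Agent.Lib.Char.Degree
import Cfsg.Agent.Lib.Char.Linear

set_option autoImplicit false
open Cfsg

namespace Cfsg.Agent.S3968

open Subgroup Cfsg Cfsg.Agent.Lib.Char
open scoped ComplexConjugate

universe u

private theorem aux {G : Type u} [Group G] [Fintype G] (p : ℕ) (hp : p.Prime) (χ : G → ℂ) (hχc : IsCharacter G χ)
    (hdeg : χ 1 = p) (hfaith : ∀ g : G, χ g = χ 1 → g = 1) (Q : Subgroup G) [Fintype Q] (hQ : IsPGroup p Q)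
    (hPcard : p ^ 2 ∣ Nat.card Q)
    (hvan : ∀ y ∈ Q, (∀ x ∈ Q, x * y = y * x) → y ≠ 1 → χ y = 0) : False := by
  classical
  haveI hfp : Fact p.Prime := ⟨hp⟩
  -- the restriction
  let ψ : ↥Q → ℂ := fun x => χ x
  have hψ : IsCharacter Q ψ := IsCharacter.comp hχc Q.subtype
  have hψ1 : ψ 1 = p := hdeg
  have hp0 : (p : ℂ) ≠ 0 := by exact_mod_cast hp.ne_zero
  by_cases hab : ∀ x y : Q, x * y = y * x
  · -- abelian: the inner product with the trivial character
    obtain ⟨n, hn⟩ := IsCharacter.classInner_irr_eq_nat hψ (isIrrCharacter_one (G := Q))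
    have hsum : ∑ x : Q, ψ x * conj (1 : ℂ) = p := by
      rw [Finset.sum_eq_single (1 : Q)]
      · simp [hψ1]
      · intro x _ hx
        have h0 : ψ x = 0 := hvan x x.2 (fun w hw => congrArg Subtype.val (hab ⟨w, hw⟩ x))
          (fun h => hx (Subtype.ext h))
        rw [h0, zero_mul]
      · simp
    have hc0 : (Nat.card Q : ℂ) ≠ 0 := by
      exact_mod_cast (Nat.card_pos (α := Q)).ne'
    rw [classInner, hsum] at hn
    have h2 : (p : ℂ) = n * Nat.card Q := by
      field_simp at hn
      linear_combination hn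
    have h3 : p = n * Nat.card Q := by exact_mod_cast h2
    have h4 : p ^ 2 ∣ p := (hPcard.trans (dvd_mul_left _ n)).trans (dvd_of_eq h3.symm)
    have h5 := Nat.le_of_dvd hp.pos h4
    nlinarith [hp.two_le]
  · -- non-abelian
    apply hab
    have hnt : Nontrivial Q := by
      rw [← Finite.one_lt_card_iff_nontrivial]
      have h1 := Nat.le_of_dvd Nat.card_pos hPcard
      nlinarith [hp.two_le]
    have hcnt : Nontrivial (center Q) := hQ.center_nontrivial
    obtain ⟨z, hz1⟩ := exists_ne (1 : center Q)
    have hz0 : ψ (z : Q) = 0 := by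
      refine hvan _ (z : Q).2 (fun x hx => ?_) ?_
      · have := (Subgroup.mem_center_iff.mp z.2) ⟨x, hx⟩
        exact congrArg Subtype.val this
      · intro h
        exact hz1 (Subtype.ext (Subtype.ext h))
    -- all constituents are linear
    have hlin : ∀ θ : IrrCharacter Q, classInner ψ (θ : Q → ℂ) ≠ 0 → (θ : Q → ℂ) 1 = 1 := by
      intro θ hθ
      obtain ⟨d, hdpos, hd⟩ := IsIrrCharacter.apply_one θ.2
      have hdd : d ∣ Nat.card Q := degree_dvd_card θ.2 hd
      obtain ⟨k, hk⟩ := IsPGroup.iff_card.mp hQ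
      rw [hk] at hdd
      obtain ⟨j, -, hj⟩ := (Nat.dvd_prime_pow hp).mp hdd
      rcases j.eq_zero_or_pos with rfl | hjpos
      · rw [hd, hj]; simp
      exfalso
      have hle := IsCharacter.degree_ge_of_classInner_ne_zero hψ θ.2 hθ
      rw [hd, hψ1] at hle
      simp only [Complex.natCast_re, Nat.cast_le] at hle
      have hple : p ≤ d := by
        rw [hj]
        exact Nat.le_self_pow hjpos.ne' p
      have hdp : d = p := le_antisymm hle hple
      have heq := IsCharacter.eq_of_constituent_of_degree_le hψ θ.2 hθ (by rw [hd, hψ1, hdp])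
      have hn := Cfsg.Agent.Lib.Char.FT.norm_of_mem_center θ.2 z.2
      rw [← heq, hz0, hψ1] at hn
      simp only [norm_zero, Complex.norm_natCast] at hn
      have : (p : ℝ) = 0 := hn.symm
      exact hp.ne_zero (by exact_mod_cast this)
    intro x y
    set c : Q := x * y * x⁻¹ * y⁻¹ with hc
    have hcval : ψ c = ψ 1 := by
      obtain ⟨m, hm, hsum⟩ := IsCharacter.exists_eq_sum hψ
      rw [hsum]
      simp only [Finset.sum_apply, Pi.smul_apply]
      refine Finset.sum_congr rfl fun θ _ => ?_
      by_cases hθ : m θ = 0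
      · simp [hθ]
      · have h1 : classInner ψ (θ : Q → ℂ) ≠ 0 := by
          rw [hm θ]
          exact_mod_cast hθ
        have h2 := hlin θ h1
        obtain ⟨lam, hlam⟩ := IsCharacter.exists_monoidHom (IsIrrCharacter.isCharacter θ.2) h2
        have h3 : (θ : Q → ℂ) c = (θ : Q → ℂ) 1 := by
          rw [hlam]
          simp only
          congr 1
          rw [hc]
          simp only [map_mul, map_inv, map_one]
          rw [mul_comm (lam x) (lam y)]
          group
        rw [h3]
    have hc1 : (c : G) = 1 := hfaith c hcval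
    have hc2 : c = 1 := Subtype.ext hc1
    rw [hc, mul_inv_eq_one, mul_inv_eq_iff_eq_mul] at hc2
    exact hc2


/-- Let `p` be a prime and `G` a finite group with a faithful irreducible complex character of degree `p` (so `G` is an irreducible linear group in `p` variables). If `p ^ 2` divides the order of `G`, then the centre of `G` is nontrivial. -/
theorem result {G : Type*} [Group G] [Finite G] (p : ℕ) (hp : p.Prime) (χ : Cfsg.IrrCharacter G) (hdeg : χ.1 1 = p) (hfaith : ∀ g : G, χ.1 g = χ.1 1 → g = 1) (hdiv : p ^ 2 ∣ Nat.card G) : Subgroup.center G ≠ ⊥ := by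
  classical
  letI : Fintype G := Fintype.ofFinite G
  intro hcen
  haveI hfp : Fact p.Prime := ⟨hp⟩
  let P : Sylow p G := default
  have hχc := IsIrrCharacter.isCharacter χ.2
  have hkerc : ∀ g, g ∈ charKer χ.1 → g = 1 := fun g hg => hfaith g ((mem_charKer hχc).mp hg)
  letI : Fintype (P : Subgroup G) := Fintype.ofFinite _
  refine aux p hp χ.1 hχc hdeg hfaith (P : Subgroup G) P.isPGroup' (Sylow.pow_dvd_card_of_pow_dvd_card P hdiv) ?_
  intro y hy hcomm hy1
  have hle : (P : Subgroup G) ≤ centralizer {y} := by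
    intro x hx
    rw [Subgroup.mem_centralizer_singleton_iff]
    exact hcomm x hx
  have hcop : Nat.Coprime p (centralizer {y}).index := by
    rw [Nat.Prime.coprime_iff_not_dvd hp]
    intro hd
    exact P.not_dvd_index (hd.trans (Subgroup.index_dvd_of_le hle))
  rcases apply_eq_zero_or_norm_eq_of_coprime χ.2 hdeg y hcop with h | h
  · exact h
  · exfalso
    apply hy1
    have hc : y ∈ center G := by
      rw [Subgroup.mem_center_iff]
      intro x
      have h1 := Cfsg.Agent.Lib.Lead.Kazarin.comm_mem_charKer_of_norm_eq χ.2 hdeg h x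
      have h2 := hkerc _ h1
      rw [mul_inv_eq_one] at h2
      exact h2
    rw [hcen, Subgroup.mem_bot] at hc
    exact hc

end Cfsg.Agent.S3968
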