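import Cfsg.Statements.S3969
import Cfsg.Agent.Lib.Struct.AutFrattini
import Cfsg.Agent.Lib.Basic.Solv2

set_option autoImplicit false
open Cfsg

namespace Cfsg.Agent.S3969

open Subgroup


/-- Let `P` be an abelian Sylow `p`-subgroup of the finite group `G`, generated by `d` elements (`d` its minimal number of generators). If the order of `G` is coprime to `(p - 1)(p ^ 2 - 1) ⋯ (p ^ d - 1)`, then `G` has a normal `p`-complement. (The classical statement needs only the largest number of cyclic factors of `P` of equal order in place of `d`; the form here follows from it.) -/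
theorem result {G : Type*} [Group G] [Finite G] (p : ℕ) [Fact p.Prime] (P : Sylow p G) (hab : IsMulCommutative (P : Subgroup G)) (hcop : Nat.Coprime (Nat.card G) (∏ i ∈ Finset.Icc 1 (Group.rank (P : Subgroup G)), (p ^ i - 1))) : Cfsg.HasNormalPComplement p G := by
  classical
  let Pt : Subgroup G := (P : Subgroup G)
  have hPp : IsPGroup p Pt := P.isPGroup'
  obtain ⟨n, hn⟩ := IsPGroup.iff_card.mp hPp
  have hQp : IsPGroup p (Pt ⧸ frattini Pt) := by
    rw [IsPGroup.iff_card, ← Subgroup.index_eq_card]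
    have h1 : (frattini Pt).index ∣ p ^ n := by
      rw [← hn]; exact Subgroup.index_dvd_card _
    obtain ⟨r, -, hr⟩ := (Nat.dvd_prime_pow (Fact.out : p.Prime)).mp h1
    exact ⟨r, hr⟩
  obtain ⟨r, hr⟩ : ∃ r, (frattini Pt).index = p ^ r := by
    have h1 : (frattini Pt).index ∣ p ^ n := by
      rw [← hn]; exact Subgroup.index_dvd_card _
    obtain ⟨r, -, hr⟩ := (Nat.dvd_prime_pow (Fact.out : p.Prime)).mp h1
    exact ⟨r, hr⟩
  have hrd : r ≤ Group.rank Pt := by
    obtain ⟨S, hS1, hS2⟩ := Group.rank_spec Pt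
    obtain ⟨T, hTS, hTc, hTg⟩ := (Cfsg.Agent.Lib.Basic.burnside_basis r hPp hr).1 S hS2
    rw [← hS1, ← hTc]
    exact Finset.card_le_card hTS
  have hdvd := Cfsg.Agent.Lib.Struct.card_mulAut_dvd hn hr
  have hN : normalizer (Pt : Set G) ≤ centralizer (Pt : Set G) := by
    intro g hg
    by_contra hgC
    let N : Subgroup G := normalizer (Pt : Set G)
    let φ := Pt.normalizerMonoidHom
    let ĝ : N := ⟨g, hg⟩
    have hne : φ ĝ ≠ 1 := by
      intro h0
      have h1 : ĝ ∈ φ.ker := h0
      rw [Subgroup.normalizerMonoidHom_ker] at h1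
      exact hgC h1
    have hm1 : orderOf (φ ĝ) ≠ 1 := fun h0 => hne (orderOf_eq_one_iff.mp h0)
    obtain ⟨q, hqp, hqm⟩ := Nat.exists_prime_and_dvd hm1
    -- `q` divides the order of `G`
    have hqG : q ∣ Nat.card G := by
      have h1 : orderOf (φ ĝ) ∣ orderOf ĝ := orderOf_map_dvd φ ĝ
      have h2 : orderOf ĝ ∣ Nat.card N := orderOf_dvd_natCard ĝ
      exact (hqm.trans h1).trans (h2.trans (Subgroup.card_subgroup_dvd_card N))
    -- `q ≠ p`
    have hqne : q ≠ p := by
      rintro rfl
      have hker : Pt.subgroupOf N ≤ φ.ker := by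
        rw [Subgroup.normalizerMonoidHom_ker]
        intro x hx
        rw [Subgroup.mem_subgroupOf] at hx ⊢
        rw [mem_centralizer_iff]
        intro y hy
        exact congrArg Subtype.val (hab.is_comm.comm ⟨y, hy⟩ ⟨x, hx⟩)
      have h1 : φ.ker.index ∣ (Pt.subgroupOf N).index := Subgroup.index_dvd_of_le hker
      have h2 : (Pt.subgroupOf N).index ∣ Pt.index := by
        have := Subgroup.relIndex_mul_index (le_normalizer : Pt ≤ N)
        exact Dvd.intro _ this
      have h3 : orderOf (φ ĝ) ∣ φ.ker.index := by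
        rw [Subgroup.index_ker]
        have e : orderOf (φ ĝ) = orderOf (⟨φ ĝ, ĝ, rfl⟩ : φ.range) := (Subgroup.orderOf_mk _ _).symm
        rw [e]
        exact orderOf_dvd_natCard _
      exact P.not_dvd_index (hqm.trans (h3.trans (h1.trans h2)))
    have h4 : q ∣ Nat.card (MulAut Pt) := hqm.trans (orderOf_dvd_natCard _)
    have h5 := h4.trans hdvd
    rcases (Nat.Prime.dvd_mul hqp).mp h5 with h6 | h6
    · exact hqne ((Nat.prime_dvd_prime_iff_eq hqp Fact.out).mp (Nat.Prime.dvd_of_dvd_pow hqp h6))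
    · obtain ⟨i, hi, hqi⟩ := (Prime.exists_mem_finset_dvd hqp.prime h6)
      have hir : i < r := Finset.mem_range.mp hi
      have e : p ^ r - p ^ i = p ^ i * (p ^ (r - i) - 1) := by
        rw [Nat.mul_sub, mul_one, ← pow_add]
        congr 2
        omega
      rw [e] at hqi
      rcases (Nat.Prime.dvd_mul hqp).mp hqi with h7 | h7
      · exact hqne ((Nat.prime_dvd_prime_iff_eq hqp Fact.out).mp (Nat.Prime.dvd_of_dvd_pow hqp h7))
      · have h8 : (p ^ (r - i) - 1) ∣ ∏ i ∈ Finset.Icc 1 (Group.rank (P : Subgroup G)), (p ^ i - 1) :=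
          Finset.dvd_prod_of_mem (fun i => p ^ i - 1) (Finset.mem_Icc.mpr ⟨by omega, by
            have : r ≤ Group.rank (P : Subgroup G) := hrd
            omega⟩)
        have h9 := Nat.dvd_gcd hqG (h7.trans h8)
        rw [hcop] at h9
        exact hqp.one_lt.ne' (Nat.dvd_one.mp h9)
  exact ⟨P, _, inferInstance, MonoidHom.ker_transferSylow_isComplement' P hN⟩

end Cfsg.Agent.S3969
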