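import Cfsg.Statements.S3970
import Cfsg.Agent.S3969

set_option autoImplicit false
open Cfsg

namespace Cfsg.Agent.S3970

open Subgroup

universe u

private theorem aux : ∀ (n : ℕ) (G : Type u) [Group G] [Finite G], Nat.card G = n →
    (∀ p : ℕ, p.Prime → p ∣ Nat.card G → (∃ q : ℕ, q.Prime ∧ q ∣ Nat.card G ∧ p < q) →
      ∀ P : Sylow p G, IsMulCommutative (P : Subgroup G) ∧ Group.rank (P : Subgroup G) ≤ 2) →
    ¬ 12 ∣ Nat.card G → Group.IsSolvable G := by
  intro n
  induction n using Nat.strong_induction_on with
  | _ n ih =>
  intro G _ _ hn h h12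
  classical
  by_cases h1 : Nat.card G = 1
  · haveI : Subsingleton G := (Nat.card_eq_one_iff_unique.mp h1).1
    exact inferInstance
  set p := (Nat.card G).minFac with hp
  have hpp : p.Prime := Nat.minFac_prime h1
  haveI hpf : Fact p.Prime := ⟨hpp⟩
  have hpd : p ∣ Nat.card G := Nat.minFac_dvd _
  have hmin : ∀ s : ℕ, s.Prime → s ∣ Nat.card G → p ≤ s := fun s hs hd => Nat.minFac_le_of_dvd hs.two_le hd
  by_cases hq : ∃ q : ℕ, q.Prime ∧ q ∣ Nat.card G ∧ p < q
  · let P : Sylow p G := default
    obtain ⟨hab, hrk⟩ := h p hpp hpd hq P
    have hcop : Nat.Coprime (Nat.card G) (∏ i ∈ Finset.Icc 1 (Group.rank (P : Subgroup G)), (p ^ i - 1)) := by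
      refine Nat.Coprime.prod_right fun i hi => ?_
      obtain ⟨hi1, hi2⟩ := Finset.mem_Icc.mp hi
      refine Nat.coprime_of_dvd fun s hs hsG hsd => ?_
      have hsp := hmin s hs hsG
      have hp2 := hpp.two_le
      have hi' : i = 1 ∨ i = 2 := by omega
      have hbad : ∀ k : ℕ, s ∣ p - 1 → False := by
        intro _ h0
        have := Nat.le_of_dvd (by omega) h0
        omega
      rcases hi' with rfl | rfl
      · rw [pow_one] at hsd
        exact hbad 0 hsd
      · have e : p ^ 2 - 1 = (p - 1) * (p + 1) := by
          obtain ⟨m, hm⟩ : ∃ m, p = m + 1 := ⟨p - 1, by omega⟩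
          rw [hm]
          simp only [Nat.add_sub_cancel]
          have : (m + 1) ^ 2 - 1 = m * (m + 1 + 1) := by
            have : (m + 1) ^ 2 = m * (m + 1 + 1) + 1 := by ring
            omega
          exact this
        rw [e] at hsd
        rcases (Nat.Prime.dvd_mul hs).mp hsd with h0 | h0
        · exact hbad 0 h0
        · have hle := Nat.le_of_dvd (by omega) h0
          have hs' : s = p ∨ s = p + 1 := by omega
          rcases hs' with hs'' | hs'
          · rw [hs''] at h0
            have : p ∣ 1 := (Nat.dvd_add_right (dvd_refl p)).mp h0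
            exact hpp.one_lt.ne' (Nat.dvd_one.mp this)
          · -- `p = 2`, `s = 3`
            have hp2' : p = 2 := by
              by_contra hne
              have hodd : Odd p := hpp.odd_of_ne_two hne
              have heven : 2 ∣ s := by
                rw [hs']
                exact (Nat.even_add_one.mpr (Nat.not_even_iff_odd.mpr hodd)).two_dvd
              have := (Nat.prime_dvd_prime_iff_eq Nat.prime_two hs).mp heven
              omega
            have hs3 : s = 3 := by omega
            have h4 : ¬ 4 ∣ Nat.card G := by
              intro h4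
              apply h12
              have hc : Nat.Coprime 4 3 := by norm_num
              have : 4 * 3 ∣ Nat.card G := hc.mul_dvd_of_dvd_of_dvd h4 (hs3 ▸ hsG)
              simpa using this
            obtain ⟨a, ha⟩ := IsPGroup.iff_card.mp P.isPGroup'
            have ha1 : a ≤ 1 := by
              by_contra hlt
              apply h4
              have h5 : p ^ 2 ∣ p ^ a := pow_dvd_pow p (by omega)
              rw [← ha] at h5
              have h6 : (4 : ℕ) = p ^ 2 := by rw [hp2']; norm_num
              rw [h6]
              exact h5.trans (Subgroup.card_subgroup_dvd_card _)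
            have hcyc : IsCyclic (P : Subgroup G) := by
              have hc : a = 0 ∨ a = 1 := by omega
              rcases hc with rfl | rfl
              · rw [pow_zero] at ha
                haveI : Subsingleton (P : Subgroup G) := (Nat.card_eq_one_iff_unique.mp ha).1
                infer_instance
              · rw [pow_one] at ha
                haveI : Fact (Nat.card (P : Subgroup G)).Prime := ⟨by rw [ha]; exact hpp⟩
                exact isCyclic_of_prime_card rfl
            obtain ⟨g, hg⟩ := hcyc.exists_generator
            have hrk1 : Group.rank (P : Subgroup G) ≤ 1 := by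
              have hcl : Subgroup.closure (({g} : Finset (P : Subgroup G)) : Set (P : Subgroup G)) = ⊤ := by
                rw [Finset.coe_singleton, ← Subgroup.zpowers_eq_closure, eq_top_iff]
                intro x _
                exact hg x
              have := Group.rank_le (G := (P : Subgroup G)) hcl
              simpa using this
            omega
    obtain ⟨P', K, hKn, hKc⟩ := Cfsg.Agent.S3969.result p P hab hcop
    haveI := hKn
    have hKi : (P' : Subgroup G).index = Nat.card K := hKc.index_eq_card
    have hKnd : ¬ p ∣ Nat.card K := by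
      rw [← hKi]; exact P'.not_dvd_index
    have hmul := Subgroup.card_mul_index (P' : Subgroup G)
    rw [hKi] at hmul
    obtain ⟨a, ha⟩ := IsPGroup.iff_card.mp P'.isPGroup'
    have hP'd : p ^ 1 ∣ Nat.card (P' : Subgroup G) := P'.pow_dvd_card_of_pow_dvd_card (by simpa using hpd)
    have hP'2 : 2 ≤ Nat.card (P' : Subgroup G) := by
      have := Nat.le_of_dvd Nat.card_pos hP'd
      have h2 := hpp.two_le
      rw [pow_one] at this
      omega
    have hKdvd : Nat.card K ∣ Nat.card G := Subgroup.card_subgroup_dvd_card K
    have hlt : Nat.card K < n := by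
      rw [← hn, ← hmul]
      have : 0 < Nat.card K := Nat.card_pos
      nlinarith
    have hKs : Group.IsSolvable K := by
      refine ih _ hlt K rfl ?_ (fun h0 => h12 (h0.trans hKdvd))
      intro r hr hrK ⟨q', hq', hq'K, hrq'⟩ R
      haveI hrf : Fact r.Prime := ⟨hr⟩
      have hrG := hrK.trans hKdvd
      have hne : r ≠ p := by
        rintro rfl
        exact hKnd hrK
      have hfac : (Nat.card G).factorization r = (Nat.card K).factorization r := by
        rw [← hmul, ha, Nat.factorization_mul (pow_ne_zero _ hpp.ne_zero) Nat.card_pos.ne',
          Nat.factorization_pow, hpp.factorization]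
        simp [hne.symm]
      have hcardR : Nat.card (R.1.map K.subtype) = r ^ (Nat.card G).factorization r := by
        rw [Subgroup.card_map_of_injective K.subtype_injective, hfac]
        exact Sylow.card_eq_multiplicity R
      let S : Sylow r G := Sylow.ofCard (R.1.map K.subtype) hcardR
      have hSe : (S : Subgroup G) = R.1.map K.subtype := Sylow.coe_ofCard _ _
      obtain ⟨h3, h4⟩ := h r hr hrG ⟨q', hq', hq'K.trans hKdvd, hrq'⟩ S
      constructor
      · refine ⟨⟨fun a b => Subtype.ext (Subtype.ext ?_)⟩⟩
        have ha' : (a : K).1 ∈ (S : Subgroup G) := by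
          rw [hSe]; exact ⟨_, a.2, rfl⟩
        have hb' : (b : K).1 ∈ (S : Subgroup G) := by
          rw [hSe]; exact ⟨_, b.2, rfl⟩
        have h5 := congrArg Subtype.val (h3.is_comm.comm ⟨_, ha'⟩ ⟨_, hb'⟩)
        exact h5
      · have e1 : Group.rank (S : Subgroup G) = Group.rank (R.1.map K.subtype) := Subgroup.rank_congr hSe
        have e2 : Group.rank (R : Subgroup K) = Group.rank (R.1.map K.subtype) :=
          Group.rank_congr (R.1.equivMapOfInjective K.subtype K.subtype_injective)
        rw [e2, ← e1]
        exact h4
    have hQ : IsPGroup p (G ⧸ K) := by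
      refine IsPGroup.of_card (n := a) ?_
      rw [← Subgroup.index_eq_card, hKc.symm.index_eq_card]
      exact ha
    haveI := hQ.isNilpotent
    refine Group.isSolvable_of_ker_le_range K.subtype (QuotientGroup.mk' K) ?_
    rw [QuotientGroup.ker_mk', Subgroup.range_subtype]
  · -- a `p`-group
    push Not at hq
    have hall : ∀ s : ℕ, s.Prime → s ∣ Nat.card G → s = p := fun s hs hd =>
      le_antisymm (hq s hs hd) (hmin s hs hd)
    have hc := Nat.eq_prime_pow_of_unique_prime_dvd (p := p) Nat.card_pos.ne' (fun {d} hd hdv => hall d hd hdv)
    have hG : IsPGroup p G := IsPGroup.of_card hc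
    haveI := hG.isNilpotent
    exact inferInstance


/-- Let `G` be a finite group such that for every prime `p` dividing its order, other than the largest such prime, the Sylow `p`-subgroups are abelian and generated by at most two elements, and suppose `12` does not divide the order of `G`. Then `G` is solvable. In particular a group of cube-free order not divisible by `12` is solvable. -/
theorem result {G : Type*} [Group G] [Finite G] (h : ∀ p : ℕ, p.Prime → p ∣ Nat.card G → (∃ q : ℕ, q.Prime ∧ q ∣ Nat.card G ∧ p < q) → ∀ P : Sylow p G, IsMulCommutative (P : Subgroup G) ∧ Group.rank (P : Subgroup G) ≤ 2) (h12 : ¬ 12 ∣ Nat.card G) : Group.IsSolvable G := by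
  exact aux _ G rfl h h12

end Cfsg.Agent.S3970
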