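import Cfsg.Statements.S3971
import Cfsg.Agent.Lib.Fusion2.Theta
import Cfsg.Agent.Lib.Basic.CoprimeAction2
import Cfsg.Agent.Lib.Transfer.Frobenius
import Cfsg.Agent.Lib.Coprime.Sylow

set_option autoImplicit false
open Cfsg

namespace Cfsg.Agent.S3971

open Subgroup Cfsg.Agent.Lib.Fusion2 Cfsg.Agent.Lib.Transfer

private theorem perm_trivial {α : Type*} [Finite α] (hc : Nat.card α ≤ 4) (σ : Equiv.Perm α) (w₀ : α)
    (h0 : σ w₀ = w₀) (m : ℕ) (hm : σ ^ m = 1) (hm2 : ¬ 2 ∣ m) (hm3 : ¬ 3 ∣ m) (w : α) : σ w = w := by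
  have hm0 : m ≠ 0 := by
    rintro rfl
    exact hm2 (dvd_zero 2)
  by_cases hw : w = w₀
  · rw [hw, h0]
  have hper : Function.IsPeriodicPt σ m w := by
    show σ^[m] w = w
    rw [Equiv.Perm.iterate_eq_pow, hm]
    rfl
  have hk := hper.minimalPeriod_dvd
  set k := Function.minimalPeriod σ w with hkdef
  by_contra hcon
  have hk1 : k ≠ 1 := by
    intro h
    exact hcon (Function.minimalPeriod_eq_one_iff_isFixedPt.mp h)
  have hk0 : k ≠ 0 := by
    rintro h
    rw [h] at hk
    exact hm0 (zero_dvd_iff.mp hk)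
  have hk2 : k ≠ 2 := by
    intro h
    rw [h] at hk
    exact hm2 hk
  have hk3 : k ≠ 3 := by
    intro h
    rw [h] at hk
    exact hm3 hk
  have hk4 : 4 ≤ k := by omega
  have hinj := Function.iterate_injOn_Iio_minimalPeriod (f := σ) (x := w)
  have hne : ∀ i : ℕ, σ^[i] w ≠ w₀ := by
    intro i hi
    apply hw
    have h1 : σ^[i] w₀ = w₀ := Function.iterate_fixed h0 i
    exact (σ.injective.iterate i) (hi.trans h1.symm)
  have h5 : Nat.card (Option (Fin 4)) ≤ Nat.card α := by
    refine Nat.card_le_card_of_injective (fun o => match o with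
      | none => w₀
      | some i => σ^[(i : ℕ)] w) ?_
    rintro (_ | i) (_ | j) h
    · rfl
    · exact absurd h.symm (hne _)
    · exact absurd h (hne _)
    · have := hinj (x₁ := (i : ℕ)) (x₂ := (j : ℕ)) (Set.mem_Iio.mpr (by omega)) (Set.mem_Iio.mpr (by omega)) h
      exact congrArg some (Fin.ext this)
  rw [Finite.card_option] at h5
  simp at h5
  omega

private theorem card_frattini_quot_le_four {Q : Type*} [Group Q] [Finite Q] (hQ : IsPGroup 2 Q) (C : Subgroup Q)
    (hC : IsCyclic C) (hi : C.index ≤ 2) : Nat.card (Q ⧸ frattini Q) ≤ 4 := by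
  have : Fact (Nat.Prime 2) := ⟨Nat.prime_two⟩
  let π := QuotientGroup.mk' (frattini Q)
  have hsurj : Function.Surjective π := QuotientGroup.mk'_surjective _
  obtain ⟨c, hc⟩ := hC.exists_generator
  have h1 : C.map π ≤ Subgroup.zpowers (π c) := by
    rintro _ ⟨z, hz, rfl⟩
    obtain ⟨n, hn⟩ := Subgroup.mem_zpowers_iff.mp (hc ⟨z, hz⟩)
    have : z = (c : Q) ^ n := by
      have := congrArg Subtype.val hn
      simpa using this.symm
    rw [this, map_zpow]
    exact Subgroup.zpow_mem_zpowers _ _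
  have h2 : (π c) ^ 2 = 1 := by
    rw [← map_pow]
    show (((c : Q) ^ 2 : Q) : Q ⧸ frattini Q) = 1
    rw [QuotientGroup.eq_one_iff]
    exact pow_mem_frattini hQ _
  have h3 : Nat.card (C.map π) ≤ 2 := by
    have h4 : Nat.card (C.map π) ≤ Nat.card (Subgroup.zpowers (π c)) := Subgroup.card_le_of_le h1
    rw [Nat.card_zpowers] at h4
    have h5 : orderOf (π c) ∣ 2 := orderOf_dvd_of_pow_eq_one h2
    exact h4.trans (Nat.le_of_dvd (by norm_num) h5)
  have h4 : (C.map π).index ≤ 2 := by
    have : C.index ≠ 0 := Subgroup.index_ne_zero_of_finite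
    exact (Nat.le_of_dvd (Nat.pos_of_ne_zero this) (C.index_map_dvd hsurj)).trans hi
  rw [← Subgroup.card_mul_index (C.map π)]
  nlinarith

private theorem commutator_mem_frattini_of_normalizer {G : Type*} [Group G] [Finite G] (Q : Subgroup G)
    (hQ : IsPGroup 2 Q) (hcard : Nat.card (Q ⧸ frattini Q) ≤ 4) (a : G) (ha : a ∈ normalizer (Q : Set G))
    (h2 : ¬ 2 ∣ orderOf a) (h3 : ¬ 3 ∣ orderOf a) (k : G) (hk : k ∈ Q) :
    a * k * a⁻¹ * k⁻¹ ∈ (frattini Q).map Q.subtype := by
  let a' : normalizer (Q : Set G) := ⟨a, ha⟩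
  let α : MulAut Q := Subgroup.normalizerMonoidHom Q a'
  have hαq : ∀ q : Q, ((α q : Q) : G) = a * q * a⁻¹ := fun q => rfl
  have hpow : a' ^ orderOf a = 1 := by
    apply Subtype.ext
    simp [a', pow_orderOf_eq_one]
  have hσ : (barAut α) ^ orderOf a = 1 := by
    rw [← map_pow, ← map_pow, hpow, map_one, map_one]
  let σ : Equiv.Perm (Q ⧸ frattini Q) := MulAut.toPerm _ (barAut α)
  have hσ2 : σ ^ orderOf a = 1 := by
    show (MulAut.toPerm _ (barAut α)) ^ orderOf a = 1
    rw [← map_pow, hσ, map_one]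
  have hfix := perm_trivial hcard σ 1 (map_one (barAut α)) (orderOf a) hσ2 h2 h3
    ((⟨k, hk⟩ : Q) : Q ⧸ frattini Q)
  have h4 : ((α ⟨k, hk⟩ : Q) : Q ⧸ frattini Q) = ((⟨k, hk⟩ : Q) : Q ⧸ frattini Q) := hfix
  have h5 := QuotientGroup.eq.mp h4.symm
  have h6 := (inferInstance : (frattini Q).Normal).conj_mem _ h5 (⟨k, hk⟩ : Q)
  refine ⟨_, h6, ?_⟩
  simp only [Subgroup.subtype_apply, Subgroup.coe_mul, InvMemClass.coe_inv, hαq]
  group

private theorem sylow_card {G : Type*} [Group G] [Finite G] (a n : ℕ) (hG : Nat.card G = 2 ^ a * n) (hn : Odd n)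
    [Fact (Nat.Prime 2)] (S : Sylow 2 G) : Nat.card S = 2 ^ a := by
  rw [Sylow.card_eq_multiplicity, hG, Nat.factorization_mul (by positivity) hn.pos.ne']
  have h2 : n.factorization 2 = 0 := Nat.factorization_eq_zero_of_not_dvd hn.not_two_dvd_nat
  simp [h2, Nat.Prime.factorization_self Nat.prime_two]


/-- Let `G` be a finite group of order `2 ^ a * n` with `n` odd and not divisible by `3`, and suppose `G` has an element of order `2 ^ (a - 1)` (so a Sylow `2`-subgroup has a cyclic subgroup of index at most `2`). Then `G` has a normal subgroup of order `n`. -/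
theorem result {G : Type*} [Group G] [Finite G] (a n : ℕ) (hG : Nat.card G = 2 ^ a * n) (hn : Odd n) (h3 : ¬ 3 ∣ n) (hx : ∃ x : G, orderOf x = 2 ^ (a - 1)) : ∃ N : Subgroup G, N.Normal ∧ Nat.card N = n := by
  classical
  have : Fact (Nat.Prime 2) := ⟨Nat.prime_two⟩
  obtain ⟨x, hx⟩ := hx
  have hxp : IsPGroup 2 (Subgroup.zpowers x) := IsPGroup.of_card (n := a - 1) (by rw [Nat.card_zpowers, hx])
  obtain ⟨P, hP⟩ := hxp.exists_le_sylow
  have hPcard := sylow_card a n hG hn P
  have hrel : (Subgroup.zpowers x).relIndex P ≤ 2 := by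
    have h1 := Cfsg.Agent.Lib.Coprime.card_mul_relIndex hP
    rw [hPcard, Nat.card_zpowers, hx] at h1
    rcases a with _ | a
    · have h2 : (Subgroup.zpowers x).relIndex P = 1 := by simpa using h1
      omega
    · have h2 : 2 ^ a * (Subgroup.zpowers x).relIndex P = 2 ^ a * 2 := by
        rw [← pow_succ]
        simpa using h1
      have h3 := Nat.eq_of_mul_eq_mul_left (by positivity) h2
      omega
  have hst : FrobeniusStable 2 G := by
    refine frobeniusStable_of_sylow P ?_
    intro Q hQP g hg hgc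
    have hQ2 : IsPGroup 2 Q := P.isPGroup'.to_le hQP
    let D := Subgroup.zpowers x
    have hCc : IsCyclic (D.subgroupOf Q) := by
      let f : D.subgroupOf Q →* D :=
        { toFun := fun z => ⟨z.1.1, Subgroup.mem_subgroupOf.mp z.2⟩
          map_one' := rfl
          map_mul' := fun _ _ => rfl }
      refine isCyclic_of_injective f ?_
      intro u v huv
      apply Subtype.ext
      apply Subtype.ext
      exact congrArg (fun z : D => z.1) huv
    have hCi : (D.subgroupOf Q).index ≤ 2 := by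
      have h1 : D.relIndex (P : Subgroup G) ≠ 0 := by
        intro h
        have h2 := Cfsg.Agent.Lib.Coprime.card_mul_relIndex hP
        rw [h, mul_zero] at h2
        exact Nat.card_pos.ne h2
      exact (Subgroup.relIndex_le_of_le_right hQP h1).trans hrel
    have hcard := card_frattini_quot_le_four hQ2 (D.subgroupOf Q) hCc hCi
    have hg2 : ¬ 2 ∣ orderOf g := by
      intro h
      have := Nat.eq_one_of_dvd_coprimes hgc h (dvd_refl 2)
      omega
    have hg3 : ¬ 3 ∣ orderOf g := by
      intro h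
      have h1 : 3 ∣ 2 ^ a * n := by
        rw [← hG]
        exact h.trans (orderOf_dvd_natCard g)
      rcases (Nat.Prime.dvd_mul Nat.prime_three).mp h1 with h2 | h2
      · have h3 := Nat.Prime.dvd_of_dvd_pow Nat.prime_three h2
        omega
      · exact h3 h2
    have hA : Subgroup.zpowers g ≤ Subgroup.centralizer (Q : Set G) := by
      refine Cfsg.Agent.Lib.Basic.le_centralizer_of_trivial_on_frattini (A := Subgroup.zpowers g) (K := Q)
        (Subgroup.zpowers_le.mpr hg) ?_ ?_
      · rw [Nat.card_zpowers]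
        have hQF : IsPGroup 2 (frattini Q) := hQ2.to_subgroup _
        obtain ⟨m, hm⟩ := IsPGroup.iff_card.mp hQF
        rw [hm]
        exact Nat.Coprime.pow_right _ hgc
      · intro b hb k hk
        have hbd : orderOf b ∣ orderOf g := orderOf_dvd_of_mem_zpowers hb
        exact commutator_mem_frattini_of_normalizer Q hQ2 hcard b (Subgroup.zpowers_le.mpr hg hb)
          (fun h => hg2 (h.trans hbd)) (fun h => hg3 (h.trans hbd)) k hk
    exact hA (Subgroup.mem_zpowers g)
  obtain ⟨P', N, hN, hc⟩ := hasNormalPComplement_of_stable hst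
  refine ⟨N, hN, ?_⟩
  have h1 := hc.card_mul
  rw [sylow_card a n hG hn P', hG] at h1
  have h2 : Nat.card N * 2 ^ a = n * 2 ^ a := by
    rw [h1]; ring
  exact Nat.eq_of_mul_eq_mul_right (by positivity) h2

end Cfsg.Agent.S3971
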