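import Cfsg.Statements.S3973
import Cfsg.Agent.Lib.Coprime.SchurFree

set_option autoImplicit false
open Cfsg

namespace Cfsg.Agent.S3973

open Subgroup Cfsg.Agent.Lib.Coprime.SchurBasic Cfsg.Agent.Lib.Coprime.SchurExt
  Cfsg.Agent.Lib.Coprime.SchurPull Cfsg.Agent.Lib.Coprime.SchurFree
open scoped commutatorElement


/-- If a finite group is presented by `n` generators and a finite set of `r` relators, then its Schur multiplier can be generated by `r - n` elements. In particular a finite group with a presentation having as many relators as generators has trivial Schur multiplier. -/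
theorem result (n : ℕ) (rels : Finset (FreeGroup (Fin n))) [Finite (PresentedGroup (rels : Set (FreeGroup (Fin n))))] {A : Type*} [CommGroup A] [Finite A] (hA : Cfsg.HasSchurMultiplier (PresentedGroup (rels : Set (FreeGroup (Fin n)))) A) : Group.rank A ≤ rels.card - n := by
  classical
  let φ : FreeGroup (Fin n) →* PresentedGroup (rels : Set (FreeGroup (Fin n))) :=
    PresentedGroup.mk _
  have hφ : Function.Surjective φ := QuotientGroup.mk'_surjective _
  have hkerφ : φ.ker = normalClosure (rels : Set (FreeGroup (Fin n))) := QuotientGroup.ker_mk' _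
  have hL : ∀ (X : Type) [Group X] [Finite X]
      (ξ : X →* PresentedGroup (rels : Set (FreeGroup (Fin n)))), Function.Surjective ξ →
      ∃ f : FreeGroup (Fin n) →* X, ξ.comp f = φ := by
    intro X _ _ ξ hξ
    refine ⟨FreeGroup.lift (fun i => Function.surjInv hξ (φ (FreeGroup.of i))), ?_⟩
    ext i
    simp [Function.surjInv_eq hξ]
  obtain ⟨e₀⟩ := hopf_equiv hφ (free_ab_freeGroup (Fin n)) (fg_ab_freeGroup (Fin n)) hL hA
  haveI hQf : Finite (PresentedGroup (rels : Set (FreeGroup (Fin n)))) := inferInstance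
  set T : Subgroup (UCE φ) := (piQ φ).ker with hT
  have hTc : T ≤ center (UCE φ) := ker_piQ_le_center
  letI cT : CommGroup T :=
    { (inferInstance : Group T) with
      mul_comm := fun a b => Subtype.ext (mem_center_iff.mp (hTc b.2) (a : UCE φ)) }
  have hρ : ∀ ρ : (rels : Finset (FreeGroup (Fin n))), (((ρ : FreeGroup (Fin n)) : UCE φ)) ∈ T := by
    intro ρ
    rw [hT, MonoidHom.mem_ker, piQ_mk, ← MonoidHom.mem_ker, hkerφ]
    exact subset_normalClosure ρ.2
  let Ψ : ((rels : Finset (FreeGroup (Fin n))) →₀ ℤ) →ₗ[ℤ] Additive T :=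
    Finsupp.linearCombination ℤ (fun ρ => Additive.ofMul (⟨_, hρ ρ⟩ : T))
  let val : ((rels : Finset (FreeGroup (Fin n))) →₀ ℤ) → UCE φ :=
    fun b => ((Additive.toMul (Ψ b) : T) : UCE φ)
  have hvaladd : ∀ b b', val (b + b') = val b * val b' := by
    intro b b'
    simp only [val, map_add, toMul_add, Subgroup.coe_mul]
  have hval0 : val 0 = 1 := by
    simp only [val, map_zero, toMul_zero]
    rfl
  have hvalneg : ∀ b, val (-b) = (val b)⁻¹ := by
    intro b
    simp only [val, map_neg, toMul_neg]
    rfl
  have hvals : ∀ ρ, val (Finsupp.single ρ 1) = (((ρ : FreeGroup (Fin n)) : UCE φ)) := by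
    intro ρ
    simp only [val, Ψ, Finsupp.linearCombination_single, one_smul, toMul_ofMul]
  -- `T` is generated by the relators
  have hcl' : ∀ y ∈ normalClosure (rels : Set (FreeGroup (Fin n))),
      (y : UCE φ) ∈ closure ((fun r : FreeGroup (Fin n) => (r : UCE φ)) '' (rels : Set (FreeGroup (Fin n)))) := by
    intro y hy
    rw [normalClosure] at hy
    induction hy using closure_induction with
    | mem z hz =>
      obtain ⟨ρ, hρm, hρz⟩ := Group.mem_conjugatesOfSet_iff.mp hz
      obtain ⟨c, rfl⟩ := isConj_iff.mp hρz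
      have h2 : ((c * ρ * c⁻¹ : FreeGroup (Fin n)) : UCE φ) = (ρ : UCE φ) := by
        rw [QuotientGroup.eq]
        have h3 : ρ ∈ φ.ker := by
          rw [hkerφ]; exact subset_normalClosure hρm
        have h5 : (c * ρ * c⁻¹)⁻¹ * ρ = ⁅c, ρ⁻¹⁆ := by
          simp only [commutatorElement_def]; group
        rw [h5]
        exact Subgroup.commutator_mem_commutator (mem_top _) (inv_mem h3)
      rw [h2]
      exact subset_closure ⟨ρ, hρm, rfl⟩
    | one => exact one_mem _
    | mul a b _ _ ha hb =>
      rw [QuotientGroup.mk_mul]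
      exact mul_mem ha hb
    | inv a _ ha =>
      rw [QuotientGroup.mk_inv]
      exact inv_mem ha
  have hrange : ∀ x ∈ closure ((fun r : FreeGroup (Fin n) => (r : UCE φ)) '' (rels : Set (FreeGroup (Fin n)))),
      ∃ b, val b = x := by
    intro x hx
    induction hx using closure_induction with
    | mem z hz =>
      obtain ⟨ρ, hρm, rfl⟩ := hz
      exact ⟨Finsupp.single ⟨ρ, hρm⟩ 1, hvals _⟩
    | one => exact ⟨0, hval0⟩
    | mul a b _ _ ha hb =>
      obtain ⟨b₁, rfl⟩ := ha
      obtain ⟨b₂, rfl⟩ := hb
      exact ⟨b₁ + b₂, hvaladd _ _⟩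
    | inv a _ ha =>
      obtain ⟨b₁, rfl⟩ := ha
      exact ⟨-b₁, hvalneg _⟩
  have hTcl : ∀ x ∈ T, ∃ b, val b = x := by
    intro x hx
    induction x using QuotientGroup.induction_on with
    | H y =>
      have hy : y ∈ φ.ker := by
        have h1 : piQ φ (y : UCE φ) = 1 := hx
        rw [piQ_mk] at h1
        exact h1
      rw [hkerφ] at hy
      exact hrange _ (hcl' y hy)
  -- the map to the abelianization
  let abTm : T →* Abelianization (FreeGroup (Fin n)) := (abMap φ).comp T.subtype
  let abT : Additive T →ₗ[ℤ] Additive (Abelianization (FreeGroup (Fin n))) :=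
    (MonoidHom.toAdditive abTm).toIntLinearMap
  let f := abT ∘ₗ Ψ
  have hfval : ∀ b, f b = Additive.ofMul (abMap φ (val b)) := fun _ => rfl
  -- the rank of the image
  have hV : Module.finrank ℤ (Additive (Abelianization (FreeGroup (Fin n)))) = n := by
    have h1 : Module.finrank ℤ (FreeAbelianGroup (Fin n)) = n := by
      have := Module.finrank_eq_card_basis (FreeAbelianGroup.basis (Fin n))
      simpa using this
    exact h1
  haveI hfree := free_ab_freeGroup (Fin n)
  haveI hfg := fg_ab_freeGroup (Fin n)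
  have hrankge : n ≤ Module.finrank ℤ (LinearMap.range f) := by
    set N := Nat.card (PresentedGroup (rels : Set (FreeGroup (Fin n)))) with hN
    have hNpos : N ≠ 0 := Nat.card_pos.ne'
    have hmem : ∀ v : Additive (Abelianization (FreeGroup (Fin n))), (N : ℤ) • v ∈ LinearMap.range f := by
      intro v
      obtain ⟨y, hy⟩ := QuotientGroup.mk_surjective (Additive.toMul v)
      have hyN : ((y ^ N : FreeGroup (Fin n)) : UCE φ) ∈ T := by
        have h1 : piQ φ ((y ^ N : FreeGroup (Fin n)) : UCE φ) = 1 := by
          rw [piQ_mk, map_pow, hN, pow_card_eq_one']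
        exact h1
      obtain ⟨b, hb⟩ := hTcl _ hyN
      refine ⟨b, ?_⟩
      rw [hfval, hb]
      have h2 : v = Additive.ofMul (Abelianization.of y) := by
        exact (congrArg Additive.ofMul hy).symm
      have h3 : abMap φ ((y ^ N : FreeGroup (Fin n)) : UCE φ) = Abelianization.of (y ^ N) := rfl
      rw [h3, h2, map_pow, ofMul_pow, natCast_zsmul]
    let μ : Additive (Abelianization (FreeGroup (Fin n))) →ₗ[ℤ] LinearMap.range f :=
      LinearMap.codRestrict (LinearMap.range f) ((N : ℤ) • LinearMap.id) (fun v => hmem v)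
    have hμ : Function.Injective μ := by
      intro v v' hvv
      have h1 : (N : ℤ) • v = (N : ℤ) • v' := congrArg Subtype.val hvv
      have hNz : (N : ℤ) ≠ 0 := by exact_mod_cast hNpos
      exact smul_right_injective _ hNz h1
    have := LinearMap.finrank_le_finrank_of_injective hμ
    rwa [hV] at this
  have hranknull : Module.finrank ℤ (LinearMap.range f) + Module.finrank ℤ (LinearMap.ker f) = rels.card := by
    have h1 := (LinearMap.ker f).finrank_quotient_add_finrank
    rw [(LinearMap.quotKerEquivRange f).finrank_eq, Module.finrank_finsupp_self] at h1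
    simpa using h1
  -- the surjection from the kernel onto `A`
  have hW : ∀ w : LinearMap.ker f, val w ∈ T ⊓ commutator (UCE φ) := by
    intro w
    refine Subgroup.mem_inf.mpr ⟨(Additive.toMul (Ψ w)).2, ?_⟩
    apply abMap_eq_one_iff.mp
    have h1 : f w = 0 := w.2
    rw [hfval] at h1
    exact h1
  let θ₀ : LinearMap.ker f → A := fun w => e₀ ⟨val w, hW w⟩
  have hθadd : ∀ w w' : LinearMap.ker f, θ₀ (w + w') = θ₀ w * θ₀ w' := by
    intro w w'
    simp only [θ₀]
    rw [← map_mul]
    congr 1
    apply Subtype.ext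
    exact hvaladd _ _
  let θ : LinearMap.ker f →+ Additive A :=
    AddMonoidHom.mk' (fun w => Additive.ofMul (θ₀ w)) (fun w w' => by
      rw [hθadd]; rfl)
  have hθsurj : ∀ a : A, ∃ w, θ₀ w = a := by
    intro a
    have h1 := (e₀.symm a).2
    obtain ⟨b, hb⟩ := hTcl _ (Subgroup.mem_inf.mp h1).1
    have hbW : b ∈ LinearMap.ker f := by
      rw [LinearMap.mem_ker, hfval, hb, abMap_eq_one_iff.mpr (Subgroup.mem_inf.mp h1).2]
      rfl
    refine ⟨⟨b, hbW⟩, ?_⟩
    have h2 : (⟨val b, hW ⟨b, hbW⟩⟩ : ↥(T ⊓ commutator (UCE φ))) = e₀.symm a := Subtype.ext hb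
    show e₀ _ = a
    rw [h2]
    exact e₀.apply_symm_apply a
  let B := Module.finBasis ℤ (LinearMap.ker f)
  let S : Finset A := Finset.univ.image (fun j => θ₀ (B j))
  have hcl : closure (S : Set A) = ⊤ := by
    rw [eq_top_iff]
    intro a _
    obtain ⟨w, rfl⟩ := hθsurj a
    have h1 : θ w ∈ (closure (S : Set A)).toAddSubgroup := by
      rw [← B.sum_repr w, map_sum]
      apply sum_mem
      intro j _
      rw [map_zsmul]
      apply zsmul_mem
      show θ₀ (B j) ∈ closure (S : Set A)
      exact Subgroup.subset_closure (Finset.mem_coe.mpr (Finset.mem_image.mpr ⟨j, Finset.mem_univ _, rfl⟩))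
    exact h1
  have hrk := Group.rank_le hcl
  have hcard : S.card ≤ Module.finrank ℤ (LinearMap.ker f) := by
    calc S.card ≤ (Finset.univ : Finset (Fin (Module.finrank ℤ (LinearMap.ker f)))).card :=
          Finset.card_image_le
      _ = _ := by simp
  omega

end Cfsg.Agent.S3973
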