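import Cfsg.Statements.S3974
import Cfsg.Agent.Lib.Coprime.SchurFree

set_option autoImplicit false
universe u v
open Cfsg

namespace Cfsg.Agent.S3974

section aux

open Subgroup Cfsg.Agent.Lib.Coprime.SchurBasic Cfsg.Agent.Lib.Coprime.SchurFree
  Cfsg.Agent.Lib.Coprime.SchurPull
open scoped commutatorElement

universe a b

private def T0 (P : Type a) [Group P] (m : ℕ) : Subgroup P :=
  ((powMonoidHom m : Abelianization P →* Abelianization P).ker).comap Abelianization.of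

private theorem mem_T0 {P : Type a} [Group P] {m : ℕ} {t : P} :
    t ∈ T0 P m ↔ t ^ m ∈ commutator P := by
  rw [T0, Subgroup.mem_comap, MonoidHom.mem_ker, powMonoidHom_apply, ← map_pow,
    ← MonoidHom.mem_ker, Abelianization.ker_of]

private theorem exists_bezout {m k : ℕ} (h : Nat.Coprime m k) :
    ∃ u v : ℤ, (m : ℤ) * u + (k : ℤ) * v = 1 := by
  refine ⟨Nat.gcdA m k, Nat.gcdB m k, ?_⟩
  have := Nat.gcd_eq_gcd_ab m k
  rw [h] at this
  simpa using this.symm

private theorem pow_split {P : Type a} [Group P] {m k : ℕ} {u v : ℤ}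
    (huv : (m : ℤ) * u + (k : ℤ) * v = 1) (x : P) : x = (x ^ m) ^ u * (x ^ k) ^ v := by
  calc x = x ^ ((m : ℤ) * u + (k : ℤ) * v) := by rw [huv, zpow_one]
    _ = (x ^ m) ^ u * (x ^ k) ^ v := by
      rw [zpow_add, zpow_mul, zpow_mul, zpow_natCast, zpow_natCast]

section stem

variable {P : Type a} {Q : Type b} [Group P] [Group Q] (π : P →* Q) (hπ : Function.Surjective π)
  (hc : π.ker ≤ center P) {k m : ℕ} (hk : ∀ n ∈ π.ker, n ^ k = 1)
  (hm : ∀ q : Q, q ^ m ∈ commutator Q) (hcop : Nat.Coprime m k)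

include hπ hc hk hm hcop in
private theorem decomp_T0 (t : P) : ∃ n ∈ π.ker, ∃ s ∈ T0 P m, t = n * s := by
  obtain ⟨u, v, huv⟩ := exists_bezout hcop
  have h1 : π (t ^ m) ∈ commutator Q := by rw [map_pow]; exact hm _
  rw [← map_commutator_of_surjective π hπ] at h1
  obtain ⟨c, hcc, hcm⟩ := h1
  have hn0 : t ^ m * c⁻¹ ∈ π.ker := by
    rw [MonoidHom.mem_ker, map_mul, map_inv, hcm]; simp
  have htm : t ^ m = (t ^ m * c⁻¹) * c := by group
  have hcomm : Commute (t ^ m * c⁻¹) c := by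
    exact (mem_center_iff.mp (hc hn0) c).symm
  have htk : t ^ k ∈ T0 P m := by
    rw [mem_T0, ← pow_mul, mul_comm, pow_mul, htm, hcomm.mul_pow, hk _ hn0, one_mul]
    exact Subgroup.pow_mem _ hcc _
  have hcT : c ∈ T0 P m := by
    rw [mem_T0]; exact Subgroup.pow_mem _ hcc _
  refine ⟨(t ^ m * c⁻¹) ^ u, Subgroup.zpow_mem _ hn0 _, c ^ u * (t ^ k) ^ v,
    mul_mem (Subgroup.zpow_mem _ hcT _) (Subgroup.zpow_mem _ htk _), ?_⟩
  conv_lhs => rw [pow_split huv t, htm, hcomm.mul_zpow]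
  rw [mul_assoc]

include hk hcop in
private theorem mem_comm_of_T0 {x : P} (hx : x ∈ T0 P m) (hx1 : π x = 1) : x ∈ commutator P := by
  obtain ⟨u, v, huv⟩ := exists_bezout hcop
  rw [pow_split huv x, hk x hx1, one_zpow, mul_one]
  exact Subgroup.zpow_mem _ (mem_T0.mp hx) _

include hπ hc hk hm hcop in
private theorem comm_le_T0 : commutator P ≤ (commutator ↥(T0 P m)).map (T0 P m).subtype := by
  rw [_root_.commutator_def, Subgroup.commutator_le]
  intro x _ y _
  obtain ⟨n₁, hn₁, s₁, hs₁, rfl⟩ := decomp_T0 π hπ hc hk hm hcop x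
  obtain ⟨n₂, hn₂, s₂, hs₂, rfl⟩ := decomp_T0 π hπ hc hk hm hcop y
  have e1 : n₁ * s₁ = s₁ * n₁ := (mem_center_iff.mp (hc hn₁) s₁).symm
  have e2 : n₂ * s₂ = s₂ * n₂ := (mem_center_iff.mp (hc hn₂) s₂).symm
  rw [e1, e2, commutator_mul_central s₁ s₂ n₁ n₂ (hc hn₁) (hc hn₂)]
  refine ⟨⁅(⟨s₁, hs₁⟩ : T0 P m), (⟨s₂, hs₂⟩ : T0 P m)⁆,
    Subgroup.commutator_mem_commutator (mem_top _) (mem_top _), rfl⟩

include hπ hc hk hm hcop in
private theorem stem_T0 : Cfsg.IsStemExtension (π.comp (T0 P m).subtype) := by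
  refine ⟨?_, ?_, ?_⟩
  · intro q
    obtain ⟨t, rfl⟩ := hπ q
    obtain ⟨n, hn, s, hs, rfl⟩ := decomp_T0 π hπ hc hk hm hcop t
    refine ⟨⟨s, hs⟩, ?_⟩
    show π s = π (n * s)
    rw [map_mul, MonoidHom.mem_ker.mp hn, one_mul]
  · intro x hx
    rw [mem_center_iff]
    intro y
    exact Subtype.ext (mem_center_iff.mp (hc hx) y)
  · intro x hx
    have h1 := comm_le_T0 π hπ hc hk hm hcop (mem_comm_of_T0 π hk hcop x.2 hx)
    obtain ⟨y, hy, hyx⟩ := h1
    have : y = x := Subtype.ext hyx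
    rwa [← this]

end stem

private theorem card_eq_ker_mul {G : Type*} {H : Type*} [Group G] [Group H] (f : G →* H)
    (hf : Function.Surjective f) : Nat.card G = Nat.card f.ker * Nat.card H := by
  have h1 := Subgroup.card_mul_index f.ker
  rw [Subgroup.index_ker, MonoidHom.range_eq_top.mpr hf, Subgroup.card_top] at h1
  exact h1.symm

private theorem iso_of_coprime {Q : Type a} [Group Q] [Finite Q] {A : Type b} [CommGroup A]
    (hA : Cfsg.HasSchurMultiplier Q A) (hcop : Nat.Coprime (Nat.card (Abelianization Q)) (Nat.card A))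
    (Γ₁ Γ₂ : Type a) [Group Γ₁] [Finite Γ₁] [Group Γ₂] [Finite Γ₂] (σ₁ : Γ₁ →* Q) (σ₂ : Γ₂ →* Q)
    (h₁ : Cfsg.IsStemExtension σ₁) (h₂ : Cfsg.IsStemExtension σ₂)
    (e₁ : Nonempty (σ₁.ker ≃* A)) (e₂ : Nonempty (σ₂.ker ≃* A)) :
    ∃ e : Γ₁ ≃* Γ₂, σ₂.comp e.toMonoidHom = σ₁ := by
  classical
  obtain ⟨e₁⟩ := e₁
  obtain ⟨e₂⟩ := e₂
  haveI : Finite A := Finite.of_equiv _ e₁.toEquiv
  have hkpow : ∀ {G : Type a} [Group G] (τ : G →* Q), (τ.ker ≃* A) → ∀ y ∈ τ.ker, y ^ Nat.card A = 1 := by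
    intro G _ τ ε y hy
    have h := congrArg Subtype.val (ε.injective (show ε ((⟨y, hy⟩ : τ.ker) ^ Nat.card A) = ε 1 by
      rw [map_pow, map_one, pow_card_eq_one']))
    exact h
  have hm : ∀ q : Q, q ^ Nat.card (Abelianization Q) ∈ commutator Q := by
    intro q
    rw [← Abelianization.ker_of, MonoidHom.mem_ker, map_pow, pow_card_eq_one']
  let π : pull σ₁ σ₂ →* Q := σ₁.comp (pr₁ σ₁ σ₂)
  have hπ : Function.Surjective π := h₁.1.comp (pr₁_surjective σ₁ h₂.1)
  have hkerπ : ∀ p ∈ π.ker, p.1.1 ∈ σ₁.ker ∧ p.1.2 ∈ σ₂.ker := by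
    intro p hp
    have h1 : σ₁ p.1.1 = 1 := hp
    have h2 : σ₁ p.1.1 = σ₂ p.1.2 := p.2
    exact ⟨h1, by rw [MonoidHom.mem_ker, ← h2, h1]⟩
  have hc : π.ker ≤ center (pull σ₁ σ₂) := by
    intro p hp
    rw [mem_center_iff]
    intro y
    obtain ⟨h1, h2⟩ := hkerπ p hp
    exact Subtype.ext (Prod.ext (mem_center_iff.mp (h₁.2.1 h1) y.1.1)
      (mem_center_iff.mp (h₂.2.1 h2) y.1.2))
  have hk : ∀ n ∈ π.ker, n ^ Nat.card A = 1 := by
    intro p hp
    obtain ⟨h1, h2⟩ := hkerπ p hp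
    exact Subtype.ext (Prod.ext (hkpow σ₁ e₁ _ h1) (hkpow σ₂ e₂ _ h2))
  have hstem := stem_T0 π hπ hc hk hm hcop
  set T := T0 (pull σ₁ σ₂) (Nat.card (Abelianization Q)) with hT
  haveI : Finite T := inferInstance
  obtain ⟨π', hπ'⟩ := hA.2 (↥T) (π.comp T.subtype) hstem
  have hcardker : Nat.card (π.comp T.subtype).ker ≤ Nat.card A :=
    Nat.card_le_card_of_surjective π' hπ'
  have hT1 : Nat.card T = Nat.card (π.comp T.subtype).ker * Nat.card Q :=
    card_eq_ker_mul _ hstem.1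
  have hΓ1 : Nat.card Γ₁ = Nat.card A * Nat.card Q := by
    rw [card_eq_ker_mul σ₁ h₁.1, Nat.card_congr e₁.toEquiv]
  have hΓ2 : Nat.card Γ₂ = Nat.card A * Nat.card Q := by
    rw [card_eq_ker_mul σ₂ h₂.1, Nat.card_congr e₂.toEquiv]
  have hle : Nat.card T ≤ Nat.card A * Nat.card Q := by
    rw [hT1]; exact Nat.mul_le_mul_right _ hcardker
  let p₁ : T →* Γ₁ := (pr₁ σ₁ σ₂).comp T.subtype
  let p₂ : T →* Γ₂ := (pr₂ σ₁ σ₂).comp T.subtype
  have hp12 : ∀ t : T, σ₁ (p₁ t) = σ₂ (p₂ t) := fun t => t.1.2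
  have hs₁ : Function.Surjective p₁ := by
    apply MonoidHom.range_eq_top.mp
    apply eq_top_of_stem σ₁ h₁
    intro q
    obtain ⟨t, ht⟩ := hstem.1 q
    exact ⟨p₁ t, ⟨t, rfl⟩, ht⟩
  have hs₂ : Function.Surjective p₂ := by
    apply MonoidHom.range_eq_top.mp
    apply eq_top_of_stem σ₂ h₂
    intro q
    obtain ⟨t, ht⟩ := hstem.1 q
    exact ⟨p₂ t, ⟨t, rfl⟩, (hp12 t).symm.trans ht⟩
  have hb₁ : Function.Bijective p₁ := hs₁.bijective_of_nat_card_le (by rw [hΓ1]; exact hle)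
  have hb₂ : Function.Bijective p₂ := hs₂.bijective_of_nat_card_le (by rw [hΓ2]; exact hle)
  refine ⟨(MulEquiv.ofBijective p₁ hb₁).symm.trans (MulEquiv.ofBijective p₂ hb₂), ?_⟩
  ext x
  obtain ⟨t, rfl⟩ := hs₁ x
  have h3 : (MulEquiv.ofBijective p₁ hb₁).symm (p₁ t) = t :=
    (MulEquiv.ofBijective p₁ hb₁).symm_apply_apply t
  show σ₂ (p₂ ((MulEquiv.ofBijective p₁ hb₁).symm (p₁ t))) = σ₁ (p₁ t)
  rw [h3, hp12]

/-! ### The twisted cover -/

section twist

variable {Γ : Type a} {Q : Type b} [Group Γ] [Group Q]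
variable (σ : Γ →* Q) (n : ℕ) (lam : Q →* Multiplicative (ZMod n))

private abbrev cst (n : ℕ) : Multiplicative ℤ →* Multiplicative (ZMod n) :=
  AddMonoidHom.toMultiplicative (Int.castAddHom (ZMod n))

private abbrev SS : Subgroup (Γ × Multiplicative ℤ) := pull (lam.comp σ) (cst n)

private abbrev fstS : SS σ n lam →* Γ := pr₁ (lam.comp σ) (cst n)
private abbrev sndS : SS σ n lam →* Multiplicative ℤ := pr₂ (lam.comp σ) (cst n)

private theorem cst_surj : Function.Surjective (cst n) := by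
  intro z
  obtain ⟨i, hi⟩ := ZMod.intCast_surjective (Multiplicative.toAdd z)
  exact ⟨Multiplicative.ofAdd i, congrArg Multiplicative.ofAdd hi⟩

private theorem fstS_surj : Function.Surjective (fstS σ n lam) :=
  pr₁_surjective _ (cst_surj n)

private theorem SS_ext {s t : SS σ n lam} (h1 : fstS σ n lam s = fstS σ n lam t)
    (h2 : sndS σ n lam s = sndS σ n lam t) : s = t :=
  Subtype.ext (Prod.ext h1 h2)

private theorem snd_comm {d : SS σ n lam} (hd : d ∈ commutator (SS σ n lam)) :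
    sndS σ n lam d = 1 := by
  have h : commutator (SS σ n lam) ≤ (sndS σ n lam).ker := by
    rw [_root_.commutator_def, Subgroup.commutator_le]
    intro x _ y _
    rw [MonoidHom.mem_ker, map_commutatorElement, commutatorElement_eq_one_iff_mul_comm, mul_comm]
  exact h hd

private theorem comm_lift {c : Γ} (hc : c ∈ commutator Γ) :
    ∃ d : SS σ n lam, d ∈ commutator (SS σ n lam) ∧ fstS σ n lam d = c ∧ sndS σ n lam d = 1 := by
  rw [← map_commutator_of_surjective _ (fstS_surj σ n lam)] at hc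
  obtain ⟨d, hd, rfl⟩ := hc
  exact ⟨d, hd, rfl, snd_comm σ n lam hd⟩

variable {σ} {a : Γ} (ha : a ∈ σ.ker) (hac : a ∈ center Γ)

private def w0 : SS σ n lam := ⟨(a, Multiplicative.ofAdd (n : ℤ)), by
  rw [mem_pull]
  show lam (σ a) = Multiplicative.ofAdd (((n : ℤ)) : ZMod n)
  rw [MonoidHom.mem_ker.mp ha, map_one]
  simp⟩

private theorem fst_w0_zpow (j : ℤ) : fstS σ n lam (w0 n lam ha ^ j) = a ^ j := by
  rw [map_zpow]; rfl

private theorem snd_w0_zpow (j : ℤ) :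
    sndS σ n lam (w0 n lam ha ^ j) = Multiplicative.ofAdd ((n : ℤ) * j) := by
  rw [map_zpow]
  show (Multiplicative.ofAdd (n : ℤ)) ^ j = _
  rw [← ofAdd_zsmul, smul_eq_mul, mul_comm]

include hac in
private theorem w0_central : w0 n lam ha ∈ center (SS σ n lam) := by
  rw [mem_center_iff]
  intro y
  exact Subtype.ext (Prod.ext (mem_center_iff.mp hac y.1.1) (mul_comm _ _))

private def WW (_ : a ∈ center Γ) : Subgroup (SS σ n lam) := zpowers (w0 n lam ha)

private instance WW_normal : (WW n lam ha hac).Normal := by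
  have h : WW n lam ha hac ≤ center (SS σ n lam) := by
    rw [WW, Subgroup.zpowers_le]
    exact w0_central n lam ha hac
  constructor
  intro x hx g
  have := mem_center_iff.mp (h hx) g
  rw [this]; simpa using hx

private abbrev GG : Type _ := ↥(SS σ n lam) ⧸ WW n lam ha hac

private def sg : GG n lam ha hac →* Q :=
  QuotientGroup.lift (WW n lam ha hac) (σ.comp (fstS σ n lam)) (by
    intro x hx
    obtain ⟨j, rfl⟩ := mem_zpowers_iff.mp hx
    show σ (fstS σ n lam (w0 n lam ha ^ j)) = 1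
    rw [fst_w0_zpow, map_zpow, MonoidHom.mem_ker.mp ha, one_zpow])

private theorem sg_mk (s : SS σ n lam) :
    sg n lam ha hac (s : GG n lam ha hac) = σ (fstS σ n lam s) := rfl

private def lb (b : σ.ker) : SS σ n lam := ⟨((b : Γ), 1), by
  rw [mem_pull]
  show lam (σ b) = cst n 1
  rw [MonoidHom.mem_ker.mp b.2, map_one, map_one]⟩

private theorem fst_lb (b : σ.ker) : fstS σ n lam (lb n lam b) = b := rfl
private theorem snd_lb (b : σ.ker) : sndS σ n lam (lb n lam b) = 1 := rfl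

private theorem lb_mul (b c : σ.ker) : lb n lam (b * c) = lb n lam b * lb n lam c :=
  SS_ext σ n lam rfl (by rw [map_mul, snd_lb, snd_lb, snd_lb, one_mul])

private theorem lb_one : lb n lam (1 : σ.ker) = 1 :=
  SS_ext σ n lam rfl (by rw [map_one, snd_lb])

private theorem lb_central (hc : σ.ker ≤ center Γ) (b : σ.ker) :
    lb n lam b ∈ center (SS σ n lam) := by
  rw [mem_center_iff]
  intro y
  exact Subtype.ext (Prod.ext (mem_center_iff.mp (hc b.2) y.1.1) (mul_comm _ _))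

private theorem lb_comm (hc : σ.ker ≤ commutator Γ) (b : σ.ker) :
    lb n lam b ∈ commutator (SS σ n lam) := by
  obtain ⟨d, hd, h1, h2⟩ := comm_lift σ n lam (hc b.2)
  have : lb n lam b = d := SS_ext σ n lam h1.symm h2.symm
  rwa [this]

private theorem ker_form {y : GG n lam ha hac} (hy : y ∈ (sg n lam ha hac).ker) :
    ∃ b : σ.ker, (lb n lam b : GG n lam ha hac) = y := by
  obtain ⟨s, rfl⟩ := QuotientGroup.mk_surjective y
  have h1 : σ (fstS σ n lam s) = 1 := hy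
  have h2 : lam (σ (fstS σ n lam s)) = cst n (sndS σ n lam s) := s.2
  rw [h1, map_one] at h2
  have h3 : (((Multiplicative.toAdd (sndS σ n lam s) : ℤ)) : ZMod n) = 0 :=
    (congrArg Multiplicative.toAdd h2).symm
  rw [ZMod.intCast_zmod_eq_zero_iff_dvd] at h3
  obtain ⟨j, hj⟩ := h3
  have hb : (fstS σ n lam s) * a ^ (-j) ∈ σ.ker := by
    rw [MonoidHom.mem_ker, map_mul, h1, map_zpow, MonoidHom.mem_ker.mp ha, one_zpow, one_mul]
  refine ⟨⟨_, hb⟩, ?_⟩
  rw [QuotientGroup.eq]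
  have hrel : (lb n lam ⟨_, hb⟩)⁻¹ * s = w0 n lam ha ^ j := by
    apply SS_ext σ n lam
    · rw [map_mul, map_inv, fst_lb, fst_w0_zpow]
      show ((fstS σ n lam s) * a ^ (-j))⁻¹ * fstS σ n lam s = a ^ j
      rw [zpow_neg]
      group
    · rw [map_mul, map_inv, snd_lb, snd_w0_zpow, inv_one, one_mul, ← hj]
      rfl
  rw [hrel]
  exact Subgroup.zpow_mem _ (mem_zpowers _) _

private theorem lb_mem_ker (b : σ.ker) :
    ((lb n lam b : SS σ n lam) : GG n lam ha hac) ∈ (sg n lam ha hac).ker := by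
  rw [MonoidHom.mem_ker, sg_mk, fst_lb]
  exact b.2

private def iotaHom : σ.ker →* (sg n lam ha hac).ker where
  toFun b := ⟨(lb n lam b : GG n lam ha hac), lb_mem_ker n lam ha hac b⟩
  map_one' := Subtype.ext (by
    show ((lb n lam (1 : σ.ker) : SS σ n lam) : GG n lam ha hac) = 1
    rw [lb_one]; rfl)
  map_mul' x y := Subtype.ext (by
    show ((lb n lam (x * y) : SS σ n lam) : GG n lam ha hac) = _
    rw [lb_mul]; rfl)

private theorem iota_bij (hn : 0 < n) : Function.Bijective (iotaHom n lam ha hac) := by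
  constructor
  · rw [injective_iff_map_eq_one]
    intro b hb
    have h1 : ((lb n lam b : SS σ n lam) : GG n lam ha hac) = 1 := congrArg Subtype.val hb
    rw [QuotientGroup.eq_one_iff] at h1
    obtain ⟨j, hj⟩ := mem_zpowers_iff.mp h1
    have h2 := snd_w0_zpow n lam ha j
    rw [hj, snd_lb] at h2
    have h3 : (0 : ℤ) = (n : ℤ) * j := congrArg Multiplicative.toAdd h2
    have h4 : j = 0 := by
      rcases mul_eq_zero.mp h3.symm with h | h
      · exfalso; omega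
      · exact h
    have h5 := fst_w0_zpow n lam ha j
    rw [hj, fst_lb, h4, zpow_zero] at h5
    exact Subtype.ext h5
  · rintro ⟨y, hy⟩
    obtain ⟨b, hb⟩ := ker_form n lam ha hac hy
    exact ⟨b, Subtype.ext hb⟩

private theorem sg_stem (hσ : Cfsg.IsStemExtension σ) :
    Cfsg.IsStemExtension (sg n lam ha hac) := by
  refine ⟨?_, ?_, ?_⟩
  · intro q
    obtain ⟨g, rfl⟩ := hσ.1 q
    obtain ⟨s, rfl⟩ := fstS_surj σ n lam g
    exact ⟨(s : GG n lam ha hac), rfl⟩
  · intro y hy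
    obtain ⟨b, rfl⟩ := ker_form n lam ha hac hy
    rw [mem_center_iff]
    intro g
    obtain ⟨s, rfl⟩ := QuotientGroup.mk_surjective g
    rw [← QuotientGroup.mk_mul, ← QuotientGroup.mk_mul,
      mem_center_iff.mp (lb_central n lam hσ.2.1 b) s]
  · intro y hy
    obtain ⟨b, rfl⟩ := ker_form n lam ha hac hy
    exact mem_commutator_map (QuotientGroup.mk' (WW n lam ha hac)) (lb_comm n lam hσ.2.2 b)

private theorem no_iso (hσ : Cfsg.IsStemExtension σ) (hn : 0 < n) {x : Γ}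
    (hx : lam (σ x) = Multiplicative.ofAdd 1) (hxn : x ^ n ∈ commutator Γ)
    (hnot : ∀ f ∈ σ.ker, f ^ n ≠ a) :
    ¬ ∃ e : Γ ≃* GG n lam ha hac, (sg n lam ha hac).comp e.toMonoidHom = σ := by
  rintro ⟨e, he⟩
  have he' : ∀ g, sg n lam ha hac (e g) = σ g := fun g => DFunLike.congr_fun he g
  have hcen := (sg_stem n lam ha hac hσ).2.1
  have hagree : ∀ d ∈ commutator (SS σ n lam),
      e (fstS σ n lam d) = (d : GG n lam ha hac) := by
    intro d hd
    refine eq_on_commutator ((e.toMonoidHom).comp (fstS σ n lam))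
      (QuotientGroup.mk' (WW n lam ha hac)) (fun s => hcen ?_) hd
    rw [MonoidHom.mem_ker, map_mul, map_inv]
    show sg n lam ha hac (e (fstS σ n lam s)) * (sg n lam ha hac (s : GG n lam ha hac))⁻¹ = 1
    rw [he', sg_mk, mul_inv_cancel]
  obtain ⟨d, hd, hd1, hd2⟩ := comm_lift σ n lam hxn
  have h1 : e (x ^ n) = (d : GG n lam ha hac) := by
    rw [← hd1]; exact hagree d hd
  obtain ⟨s, hs⟩ := QuotientGroup.mk_surjective (e x)
  have hσs : σ (fstS σ n lam s) = σ x := by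
    rw [← he' x, ← hs]; rfl
  have h2 : (((s ^ n : SS σ n lam)) : GG n lam ha hac) = (d : GG n lam ha hac) := by
    rw [QuotientGroup.mk_pow, hs, ← map_pow, h1]
  rw [QuotientGroup.eq] at h2
  obtain ⟨t, ht⟩ := mem_zpowers_iff.mp h2
  -- coordinates of `t`
  have h3 := fst_w0_zpow n lam ha t
  have h4 := snd_w0_zpow n lam ha t
  rw [ht, map_mul, map_inv, map_pow, hd1] at h3
  rw [ht, map_mul, map_inv, map_pow, hd2, mul_one] at h4
  -- `m`
  set u := fstS σ n lam s with hu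
  set m := sndS σ n lam s with hm
  have h5 : (n : ℤ) * t = - ((n : ℤ) * Multiplicative.toAdd m) := by
    have := congrArg Multiplicative.toAdd h4
    simp only [toAdd_inv, toAdd_pow, toAdd_ofAdd, smul_eq_mul, nsmul_eq_mul] at this
    rw [← this]
  have ht' : t = - Multiplicative.toAdd m := by
    have hn' : (n : ℤ) ≠ 0 := by exact_mod_cast hn.ne'
    apply mul_left_cancel₀ hn'
    rw [h5]; ring
  -- relation mod n
  have h6 : lam (σ u) = cst n m := s.2
  rw [hσs, hx] at h6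
  have h7 : (1 : ZMod n) = ((Multiplicative.toAdd m : ℤ) : ZMod n) := congrArg Multiplicative.toAdd h6
  have h8 : ((Multiplicative.toAdd m - 1 : ℤ) : ZMod n) = 0 := by
    push_cast; rw [← h7]; simp
  rw [ZMod.intCast_zmod_eq_zero_iff_dvd] at h8
  obtain ⟨j, hj⟩ := h8
  -- `f`
  have hf : x⁻¹ * u ∈ σ.ker := by
    rw [MonoidHom.mem_ker, map_mul, map_inv, hσs]; simp
  set f := x⁻¹ * u with hfdef
  have hcf : Commute x f := (mem_center_iff.mp (hσ.2.1 hf) x)
  have hu' : u = x * f := by rw [hfdef]; group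
  have h9 : (u ^ n)⁻¹ * x ^ n = (f ^ n)⁻¹ := by
    rw [hu', hcf.mul_pow, mul_inv_rev]; group
  rw [h9, ht'] at h3
  have h10 : f ^ n = a ^ (Multiplicative.toAdd m) := by
    have := congrArg (·⁻¹) h3
    simpa using this
  have hfa : f * a ^ (-j) ∈ σ.ker :=
    mul_mem hf (Subgroup.zpow_mem _ ha _)
  apply hnot _ hfa
  have hcfa : Commute f (a ^ (-j)) :=
    (mem_center_iff.mp (hσ.2.1 hf) (a ^ (-j))).symm
  rw [hcfa.mul_pow, h10, ← zpow_natCast (a ^ (-j)), ← zpow_mul, ← zpow_add]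
  have hexp : Multiplicative.toAdd m + -j * (n : ℤ) = 1 := by
    linarith [hj, mul_comm j (n : ℤ)]
  rw [hexp, zpow_one]

end twist

private theorem exists_lambda {B : Type a} [CommGroup B] [Finite B] {s : ℕ} (hs : s.Prime)
    (hsB : s ∣ Nat.card B) :
    ∃ n : ℕ, 0 < n ∧ s ∣ n ∧ ∃ (lam₀ : B →* Multiplicative (ZMod n)) (g : B),
      lam₀ g = Multiplicative.ofAdd 1 ∧ g ^ n = 1 := by
  classical
  obtain ⟨ι, _, n, hn, ⟨e⟩⟩ := CommGroup.equiv_prod_multiplicative_zmod_of_finite B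
  have hcard : Nat.card B = ∏ i, n i := by
    rw [Nat.card_congr e.toEquiv, Nat.card_pi]
    refine Finset.prod_congr rfl fun i _ => ?_
    rw [show Nat.card (Multiplicative (ZMod (n i))) = Nat.card (ZMod (n i)) from
      Nat.card_congr Multiplicative.toAdd, Nat.card_zmod]
  rw [hcard, Prime.dvd_finsetProd_iff hs.prime] at hsB
  obtain ⟨i, _, hi⟩ := hsB
  refine ⟨n i, by have := hn i; omega, hi, (Pi.evalMonoidHom _ i).comp e.toMonoidHom,
    e.symm (Pi.mulSingle i (Multiplicative.ofAdd 1)), ?_, ?_⟩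
  · show e (e.symm (Pi.mulSingle i (Multiplicative.ofAdd 1))) i = _
    rw [MulEquiv.apply_symm_apply, Pi.mulSingle_eq_same]
  · rw [← map_pow, ← Pi.mulSingle_pow, ← ofAdd_nsmul]
    simp

private theorem not_unique {Q : Type a} [Group Q] [Finite Q] {A : Type b} [CommGroup A]
    (hA : Cfsg.HasSchurMultiplier Q A)
    (h : ¬ Nat.Coprime (Nat.card (Abelianization Q)) (Nat.card A))
    (H : ∀ (Γ₁ Γ₂ : Type a) [Group Γ₁] [Finite Γ₁] [Group Γ₂] [Finite Γ₂] (σ₁ : Γ₁ →* Q)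
      (σ₂ : Γ₂ →* Q), Cfsg.IsStemExtension σ₁ → Cfsg.IsStemExtension σ₂ →
      Nonempty (σ₁.ker ≃* A) → Nonempty (σ₂.ker ≃* A) → ∃ e : Γ₁ ≃* Γ₂, σ₂.comp e.toMonoidHom = σ₁) :
    False := by
  classical
  obtain ⟨Γ, _, _, σ, hσ, ⟨eA⟩⟩ := hA.1
  haveI : Finite A := Finite.of_equiv _ eA.toEquiv
  obtain ⟨s, hs, hs1, hs2⟩ := Nat.Prime.not_coprime_iff_dvd.mp h
  obtain ⟨n, hn, hsn, lam₀, g, hg1, hg2⟩ := exists_lambda hs hs1
  let lam : Q →* Multiplicative (ZMod n) := lam₀.comp Abelianization.of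
  obtain ⟨q, hq⟩ := QuotientGroup.mk_surjective g
  obtain ⟨x, hx⟩ := hσ.1 q
  have hqg : Abelianization.of q = g := hq
  have hlam : lam (σ x) = Multiplicative.ofAdd 1 := by
    show lam₀ (Abelianization.of (σ x)) = _
    rw [hx, hqg, hg1]
  have hxn : x ^ n ∈ commutator Γ := by
    have h1 : σ (x ^ n) ∈ commutator Q := by
      rw [← Abelianization.ker_of, MonoidHom.mem_ker, map_pow, map_pow, hx, hqg, hg2]
    rw [← map_commutator_of_surjective σ hσ.1] at h1
    obtain ⟨c, hc, hcx⟩ := h1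
    have hz : x ^ n * c⁻¹ ∈ σ.ker := by
      rw [MonoidHom.mem_ker, map_mul, map_inv, hcx]; simp
    have : x ^ n = (x ^ n * c⁻¹) * c := by group
    rw [this]
    exact mul_mem (hσ.2.2 hz) hc
  -- a non-`n`-th power
  have hsK : s ∣ Nat.card σ.ker := by rwa [Nat.card_congr eA.toEquiv]
  haveI : Fact s.Prime := ⟨hs⟩
  obtain ⟨y, hy⟩ := exists_prime_orderOf_dvd_card' (G := σ.ker) s hsK
  have hy1 : y ^ n = 1 := orderOf_dvd_iff_pow_eq_one.mp (hy ▸ hsn)
  have hyne : y ≠ 1 := by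
    rintro rfl
    rw [orderOf_one] at hy
    exact hs.one_lt.ne hy
  have hnotinj : ¬ Function.Injective (fun f : σ.ker => f ^ n) := by
    intro hinj
    exact hyne (hinj (by simp [hy1]))
  rw [Finite.injective_iff_surjective] at hnotinj
  simp only [Function.Surjective, not_forall, not_exists] at hnotinj
  obtain ⟨a, ha⟩ := hnotinj
  have hnot : ∀ f ∈ σ.ker, f ^ n ≠ (a : Γ) := by
    intro f hf hfa
    exact ha ⟨f, hf⟩ (Subtype.ext hfa)
  have hac : (a : Γ) ∈ center Γ := hσ.2.1 a.2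
  have hst := sg_stem n lam a.2 hac hσ
  have hbij := iota_bij n lam a.2 hac hn
  haveI : Finite (sg n lam a.2 hac).ker :=
    Finite.of_surjective _ hbij.2
  haveI : Finite (GG n lam a.2 hac) := Cfsg.Agent.Lib.Coprime.SchurExt.finite_of_ker (sg n lam a.2 hac) hst.1
  obtain ⟨e, he⟩ := H Γ (GG n lam a.2 hac) σ (sg n lam a.2 hac) hσ hst ⟨eA⟩
    ⟨(MulEquiv.ofBijective _ hbij).symm.trans eA⟩
  exact no_iso n lam a.2 hac hσ hn hlam hxn hnot ⟨e, he⟩

end aux


/-- Let `Q` be a finite group with Schur multiplier `A`. Any two Schur covering groups of `Q` (finite stem extensions `σ₁ : Γ₁ →* Q`, `σ₂ : Γ₂ →* Q` with kernels isomorphic to `A`, `Γ₁, Γ₂` in the universe of `Q`) are isomorphic over `Q` — there is a group isomorphism `e : Γ₁ ≃* Γ₂` with `σ₂ ∘ e = σ₁` — if and only if the order of the commutator quotient of `Q` is coprime to the order of `A`. In particular a finite perfect group has a unique Schur covering group up to isomorphism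 over it. -/
theorem result {Q : Type u} [Group Q] [Finite Q] {A : Type v} [CommGroup A] (hA : Cfsg.HasSchurMultiplier Q A) : (∀ (Γ₁ Γ₂ : Type u) [Group Γ₁] [Finite Γ₁] [Group Γ₂] [Finite Γ₂] (σ₁ : Γ₁ →* Q) (σ₂ : Γ₂ →* Q), Cfsg.IsStemExtension σ₁ → Cfsg.IsStemExtension σ₂ → Nonempty (σ₁.ker ≃* A) → Nonempty (σ₂.ker ≃* A) → ∃ e : Γ₁ ≃* Γ₂, σ₂.comp e.toMonoidHom = σ₁) ↔ Nat.Coprime (Nat.card (Abelianization Q)) (Nat.card A) := by
  exact ⟨fun H => by
    by_contra h
    exact not_unique hA h H, fun h Γ₁ Γ₂ _ _ _ _ σ₁ σ₂ h₁ h₂ e₁ e₂ =>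
      iso_of_coprime hA h Γ₁ Γ₂ σ₁ σ₂ h₁ h₂ e₁ e₂⟩

end Cfsg.Agent.S3974
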