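import Cfsg.Statements.S3976
import Cfsg.Agent.Lib.PGroups.Wielandt
import Cfsg.Agent.Lib.Coprime.Conj

set_option autoImplicit false
open Cfsg

namespace Cfsg.Agent.S3976

open Subgroup


/-- Let `p` be a prime and `G` a group of order `p ^ m`. For every `s ≤ m` the number of normal subgroups of `G` of order `p ^ s` is congruent to `1` modulo `p`. -/
theorem result {G : Type*} [Group G] [Finite G] (p m s : ℕ) (hp : p.Prime) (hG : Nat.card G = p ^ m) (hs : s ≤ m) : Nat.card {H : Subgroup G // H.Normal ∧ Nat.card H = p ^ s} ≡ 1 [MOD p] := by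
  classical
  haveI : Fact p.Prime := ⟨hp⟩
  have hGp : IsPGroup p G := IsPGroup.of_card hG
  have hdiv : p ^ s ∣ Nat.card G := by
    rw [hG]
    exact pow_dvd_pow p hs
  have h1 := Cfsg.Agent.Lib.PGroups.card_subgroups_modEq (G := G) hp hdiv
  -- conjugation action
  letI act : MulAction G {H : Subgroup G // Nat.card H = p ^ s} :=
    { smul := fun g H => ⟨H.1.map (MulAut.conj g).toMonoidHom, by
        rw [Subgroup.card_map_of_injective (MulAut.conj g).injective]; exact H.2⟩
      one_smul := fun H => Subtype.ext (Cfsg.Agent.Lib.Coprime.conj_map_one H.1)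
      mul_smul := fun g k H => Subtype.ext (by
        show H.1.map (MulAut.conj (g * k)).toMonoidHom =
          (H.1.map (MulAut.conj k).toMonoidHom).map (MulAut.conj g).toMonoidHom
        rw [Cfsg.Agent.Lib.Coprime.conj_map_conj_map]) }
  have h2 := hGp.card_modEq_card_fixedPoints {H : Subgroup G // Nat.card H = p ^ s}
  have h3 : Nat.card (MulAction.fixedPoints G {H : Subgroup G // Nat.card H = p ^ s}) =
      Nat.card {H : Subgroup G // H.Normal ∧ Nat.card H = p ^ s} := by
    apply Nat.card_congr
    refine
      { toFun := fun H => ⟨H.1.1, ?_, H.1.2⟩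
        invFun := fun H => ⟨⟨H.1, H.2.2⟩, ?_⟩
        left_inv := fun H => rfl
        right_inv := fun H => rfl }
    · rw [← Subgroup.normalizer_eq_top_iff, eq_top_iff]
      intro g _
      rw [Subgroup.mem_normalizer_iff_map_conj_eq]
      have := H.2 g
      exact congrArg Subtype.val this
    · intro g
      apply Subtype.ext
      show H.1.map (MulAut.conj g).toMonoidHom = H.1
      haveI := H.2.1
      exact Subgroup.Normal.map_conj_eq (H := H.1) g
  rw [← h3]
  exact h2.symm.trans h1

end Cfsg.Agent.S3976
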