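import Cfsg.Statements.S3977
import Cfsg.Agent.Lib.PGroups.Wielandt
import Cfsg.Agent.Lib.OddLocal.UniqueP2

set_option autoImplicit false
open Cfsg

namespace Cfsg.Agent.S3977

open Subgroup Cfsg.Agent.Lib.PGroups Cfsg.Agent.Lib.OddLocal


/-- Let `p` be a prime and `G` a group of order `p ^ m` which has exactly one subgroup of order `p ^ s`, where `1 ≤ s < m`, and where `s ≥ 2` if `p = 2`. Then `G` is cyclic. (For `p = 2` and `s = 1` the generalized quaternion groups also occur; that case is the classical criterion for a unique involution.) -/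
theorem result {G : Type*} [Group G] [Finite G] (p m s : ℕ) (hp : p.Prime) (hG : Nat.card G = p ^ m) (hs : 1 ≤ s) (hsm : s < m) (h2 : p ≠ 2 ∨ 2 ≤ s) (huniq : ∀ H K : Subgroup G, Nat.card H = p ^ s → Nat.card K = p ^ s → H = K) : IsCyclic G := by
  classical
  haveI : Fact p.Prime := ⟨hp⟩
  have hGp : IsPGroup p G := IsPGroup.of_card hG
  have hs' : s ≤ m := hsm.le
  have hdiv : p ^ s ∣ Nat.card G := by rw [hG]; exact pow_dvd_pow p hs'
  obtain ⟨H, hH⟩ := Sylow.exists_subgroup_card_pow_prime (G := G) p hdiv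
  -- every subgroup of order at most `p ^ s` lies in `H`
  have hle : ∀ (K : Subgroup G) (j : ℕ), Nat.card K = p ^ j → j ≤ s → K ≤ H := by
    intro K j hK hj
    obtain ⟨L, hL, hKL⟩ := Sylow.exists_subgroup_card_pow_prime_le p hdiv K hK hj
    rwa [huniq L H hL hH] at hKL
  have hHne : H ≠ ⊤ := by
    intro h
    rw [h, Subgroup.card_top, hG] at hH
    have := Nat.pow_right_injective hp.two_le hH
    omega
  obtain ⟨x, hx⟩ : ∃ x, x ∉ H := by
    by_contra hno
    push Not at hno
    exact hHne (eq_top_iff.mpr (fun x _ => hno x))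
  have hzx : IsPGroup p (zpowers x) := hGp.to_subgroup _
  obtain ⟨t, ht⟩ := IsPGroup.iff_card.mp hzx
  have hst : s ≤ t := by
    by_contra hlt
    exact hx (hle _ t ht (by omega) (mem_zpowers x))
  -- `H` is contained in the cyclic group `⟨x⟩`
  have hHz : H ≤ zpowers x := by
    obtain ⟨K, hK⟩ := Sylow.exists_subgroup_card_pow_prime (G := zpowers x) p (n := s) (by
      rw [ht]; exact pow_dvd_pow p hst)
    have h1 : K.map (zpowers x).subtype = H := by
      apply huniq _ _ _ hH
      rw [Subgroup.card_map_of_injective (zpowers x).subtype_injective]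
      exact hK
    rw [← h1]
    exact Subgroup.map_subtype_le K
  haveI hHc : IsCyclic H := by
    have h1 : IsCyclic (H.subgroupOf (zpowers x)) := inferInstance
    exact isCyclic_of_surjective (Subgroup.subgroupOfEquivOfLe hHz).toMonoidHom
      (Subgroup.subgroupOfEquivOfLe hHz).surjective
  -- unique subgroup of order `p`
  have hU : UniqueP p G := by
    intro A B hA hB
    have hA1 : Nat.card A = p ^ 1 := by rw [pow_one]; exact hA
    have hB1 : Nat.card B = p ^ 1 := by rw [pow_one]; exact hB
    have hAH := hle A 1 hA1 hs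
    have hBH := hle B 1 hB1 hs
    have h2 : A.subgroupOf H = B.subgroupOf H := by
      apply Cfsg.Agent.Lib.PGroups.subgroup_eq_of_card_eq_of_isCyclic
      rw [Nat.card_congr (Subgroup.subgroupOfEquivOfLe hAH).toEquiv,
        Nat.card_congr (Subgroup.subgroupOfEquivOfLe hBH).toEquiv, hA, hB]
    rwa [Subgroup.subgroupOf_inj, inf_eq_left.mpr hAH, inf_eq_left.mpr hBH] at h2
  by_cases hp2 : p = 2
  · subst hp2
    have hs2 : 2 ≤ s := by
      rcases h2 with h | h
      · exact absurd rfl h
      · exact h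
    rcases cyclic_or_quaternion hGp hU with hc | ⟨n, ⟨e⟩⟩
    · exact hc
    · exfalso
      -- the quaternion case
      by_cases hn : n = 0
      · subst hn
        haveI := QuaternionGroup.quaternionGroup_one_isCyclic
        have hc' : IsCyclic G := isCyclic_of_surjective e.symm.toMonoidHom e.symm.surjective
        -- then `G` is cyclic of order `4`, and so `m ≤ 2 ≤ s`
        have hcard : Nat.card G = 4 := by
          rw [Nat.card_congr e.toEquiv, Nat.card_eq_fintype_card, QuaternionGroup.card]
          norm_num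
        rw [hG] at hcard
        have hm : m = 2 := by
          have : (2 : ℕ) ^ m = 2 ^ 2 := by rw [hcard]; norm_num
          exact Nat.pow_right_injective (le_refl 2) this
        omega
      have hkpos : NeZero (2 ^ n) := ⟨by positivity⟩
      let y₁ := e.symm (QuaternionGroup.xa 0)
      let y₂ := e.symm (QuaternionGroup.xa 1)
      have hord : ∀ i : ZMod (2 * 2 ^ n), orderOf (e.symm (QuaternionGroup.xa i)) = 4 := by
        intro i
        rw [MulEquiv.orderOf_eq, QuaternionGroup.orderOf_xa]
      have hmem : ∀ i : ZMod (2 * 2 ^ n), e.symm (QuaternionGroup.xa i) ∈ H := by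
        intro i
        have h1 : Nat.card (zpowers (e.symm (QuaternionGroup.xa i))) = 2 ^ 2 := by
          rw [Nat.card_zpowers, hord]; norm_num
        exact hle _ 2 h1 hs2 (mem_zpowers _)
      have hcomm : ∀ a b : H, a * b = b * a := by
        obtain ⟨g, hg⟩ := hHc
        intro a b
        obtain ⟨i, hi⟩ := hg a
        obtain ⟨j, hj⟩ := hg b
        rw [← hi, ← hj, ← zpow_add, ← zpow_add, add_comm]
      have h3 := congrArg Subtype.val (hcomm ⟨_, hmem 0⟩ ⟨_, hmem 1⟩)
      have h4 : e.symm (QuaternionGroup.xa 0) * e.symm (QuaternionGroup.xa 1) =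
          e.symm (QuaternionGroup.xa 1) * e.symm (QuaternionGroup.xa 0) := h3
      rw [← map_mul, ← map_mul] at h4
      have h5 := e.symm.injective h4
      rw [QuaternionGroup.xa_mul_xa, QuaternionGroup.xa_mul_xa] at h5
      have h6 := QuaternionGroup.a.inj h5
      have h7 : (2 : ZMod (2 * 2 ^ n)) = 0 := by
        have : ((2 ^ n : ℕ) : ZMod (2 * 2 ^ n)) + 1 - 0 = ((2 ^ n : ℕ) : ZMod (2 * 2 ^ n)) + 0 - 1 := h6
        have h8 : (2 : ZMod (2 * 2 ^ n)) = (((2 ^ n : ℕ) : ZMod (2 * 2 ^ n)) + 1 - 0) - (((2 ^ n : ℕ) : ZMod (2 * 2 ^ n)) + 0 - 1) := by ring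
        rw [h8, this, sub_self]
      have h8 : ((2 : ℕ) : ZMod (2 * 2 ^ n)) = 0 := by exact_mod_cast h7
      rw [ZMod.natCast_eq_zero_iff] at h8
      have h9 := Nat.le_of_dvd (by norm_num) h8
      have h10 : 2 ≤ 2 ^ n := by
        calc 2 = 2 ^ 1 := by norm_num
          _ ≤ 2 ^ n := Nat.pow_le_pow_right (by norm_num) (by omega)
      omega
  · exact isCyclic_of_uniqueP_odd hp2 _ G rfl hGp hU

end Cfsg.Agent.S3977
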