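import Cfsg.Statements.S3978
import Cfsg.Agent.Lib.Coprime.SchurPull

set_option autoImplicit false
open Cfsg

namespace Cfsg.Agent.S3978

open Subgroup Cfsg.Agent.Lib.Coprime.SchurBasic Cfsg.Agent.Lib.Coprime.SchurExt
  Cfsg.Agent.Lib.Coprime.SchurPull
open scoped commutatorElement MatrixGroups


/-- A finite group `Q` has trivial Schur multiplier if and only if, for every `n`, every homomorphism from `Q` to the projective general linear group (the quotient of `GL n ℂ` by its centre) lifts to a homomorphism into `GL n ℂ`. -/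
theorem result {Q : Type*} [Group Q] [Finite Q] : Cfsg.HasCyclicSchurMultiplier Q 1 ↔ ∀ (n : ℕ) (γ : Q →* (GL (Fin n) ℂ ⧸ Subgroup.center (GL (Fin n) ℂ))), ∃ ρ : Q →* GL (Fin n) ℂ, (QuotientGroup.mk' (Subgroup.center (GL (Fin n) ℂ))).comp ρ = γ := by
  classical
  constructor
  · intro hA n γ
    have hcs : ∀ g : GL (Fin n) ℂ, g ∈ center (GL (Fin n) ℂ) →
        ∃ u : ℂˣ, Matrix.GeneralLinearGroup.scalar (Fin n) u = g := by
      intro g hg
      rw [Matrix.GeneralLinearGroup.center_eq_range_scalar] at hg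
      exact hg
    have hcs' : ∀ u : ℂˣ, Matrix.GeneralLinearGroup.scalar (Fin n) u ∈ center (GL (Fin n) ℂ) := by
      intro u
      rw [Matrix.GeneralLinearGroup.center_eq_range_scalar]
      exact ⟨u, rfl⟩
    let mkg := QuotientGroup.mk' (Subgroup.center (GL (Fin n) ℂ))
    have hmks : Function.Surjective mkg := QuotientGroup.mk'_surjective _
    have hmkk : mkg.ker ≤ center (GL (Fin n) ℂ) := by
      rw [QuotientGroup.ker_mk']
    have hs : Function.Surjective (pr₁ γ mkg) := pr₁_surjective γ hmks
    have hc := ker_pr₁_le_center γ hmkk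
    have hid : Cfsg.IsStemExtension (MonoidHom.id Q) := by
      refine ⟨Function.surjective_id, ?_, ?_⟩
      · intro x hx
        have : x = 1 := hx
        rw [this]; exact one_mem _
      · intro x hx
        have : x = 1 := hx
        rw [this]; exact one_mem _
    haveI hs1 : Subsingleton (Multiplicative (ZMod 1)) := inferInstanceAs (Subsingleton (ZMod 1))
    have hk : Nonempty ((MonoidHom.id Q).ker ≃* Multiplicative (ZMod 1)) := by
      refine ⟨⟨⟨fun _ => 1, fun _ => 1, ?_, ?_⟩, ?_⟩⟩
      · rintro ⟨x, hx⟩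
        apply Subtype.ext
        exact (show x = 1 from hx).symm
      · intro x
        exact Subsingleton.elim _ _
      · intro x y
        exact Subsingleton.elim _ _
    have hdiv : ∀ (k : ℕ) (c : pull γ mkg), c ∈ (pr₁ γ mkg).ker → k ≠ 0 →
        ∃ d ∈ (pr₁ γ mkg).ker, d ^ k = c := by
      intro k c hc' hk0
      have hc1 : (c : Q × GL (Fin n) ℂ).1 = 1 := hc'
      have hc2 : γ (c : Q × GL (Fin n) ℂ).1 = mkg (c : Q × GL (Fin n) ℂ).2 := c.2
      rw [hc1, map_one] at hc2
      have hc3 : (c : Q × GL (Fin n) ℂ).2 ∈ center (GL (Fin n) ℂ) :=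
        (QuotientGroup.eq_one_iff _).mp hc2.symm
      obtain ⟨u, hu⟩ := hcs _ hc3
      obtain ⟨v, hv⟩ := IsAlgClosed.exists_pow_nat_eq (u : ℂ) (Nat.pos_of_ne_zero hk0)
      have hv0 : v ≠ 0 := by
        intro h0
        rw [h0, zero_pow hk0] at hv
        exact u.ne_zero hv.symm
      let w : ℂˣ := Units.mk0 v hv0
      have hw : w ^ k = u := by
        apply Units.ext
        simpa [w] using hv
      have hd1 : Matrix.GeneralLinearGroup.scalar (Fin n) w ∈ center (GL (Fin n) ℂ) := by
        exact hcs' w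
      have hd2 : mkg (Matrix.GeneralLinearGroup.scalar (Fin n) w) = 1 := by
        exact (QuotientGroup.eq_one_iff _).mpr hd1
      let d : pull γ mkg := ⟨(1, Matrix.GeneralLinearGroup.scalar (Fin n) w),
        (map_one γ).trans hd2.symm⟩
      refine ⟨d, rfl, ?_⟩
      apply Subtype.ext
      apply Prod.ext
      · show ((1 : Q) ^ k) = _
        rw [one_pow, hc1]
      · show (Matrix.GeneralLinearGroup.scalar (Fin n) w) ^ k = _
        rw [← map_pow, hw, hu]
    obtain ⟨ρ, hρ⟩ := lift_of_cover hA (MonoidHom.id Q) hid hk (pr₁ γ mkg) hs hc hdiv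
    refine ⟨(pr₂ γ mkg).comp ρ, ?_⟩
    ext1 q
    have h1 : ((ρ q : pull γ mkg) : Q × GL (Fin n) ℂ).1 = q :=
      congrArg (fun k : Q →* Q => k q) hρ
    have h2 : γ ((ρ q : pull γ mkg) : Q × GL (Fin n) ℂ).1 = mkg ((ρ q : pull γ mkg) : Q × GL (Fin n) ℂ).2 :=
      (ρ q).2
    rw [h1] at h2
    exact h2.symm
  · intro hlift
    haveI hs1 : Subsingleton (Multiplicative (ZMod 1)) := inferInstanceAs (Subsingleton (ZMod 1))
    refine ⟨⟨Q, inferInstance, inferInstance, MonoidHom.id Q, ?_, ?_⟩, ?_⟩
    · refine ⟨Function.surjective_id, ?_, ?_⟩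
      · intro x hx
        have : x = 1 := hx
        rw [this]; exact one_mem _
      · intro x hx
        have : x = 1 := hx
        rw [this]; exact one_mem _
    · refine ⟨⟨⟨fun _ => 1, fun _ => 1, ?_, ?_⟩, ?_⟩⟩
      · rintro ⟨x, hx⟩
        apply Subtype.ext
        exact (show x = 1 from hx).symm
      · intro x
        exact Subsingleton.elim _ _
      · intro x y
        exact Subsingleton.elim _ _
    · intro Γ _ _ σ hσ
      refine ⟨1, ?_⟩
      rintro ⟨k, hk⟩
      refine ⟨1, ?_⟩
      apply Subtype.ext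
      show (1 : Γ) = k
      by_contra hne
      have hcen : ∀ a ∈ σ.ker, ∀ g : Γ, g * a = a * g := fun a ha g => mem_center_iff.mp (hσ.2.1 ha) g
      letI instK : CommGroup σ.ker :=
        { (inferInstance : Group σ.ker) with
          mul_comm := fun a b => Subtype.ext (hcen _ b.2 (a : Γ)) }
      have hk1 : (⟨k, hk⟩ : σ.ker) ≠ 1 := fun h => hne (congrArg Subtype.val h).symm
      haveI hnz : NeZero (Monoid.exponent σ.ker) := ⟨Monoid.exponent_ne_zero_of_finite⟩
      obtain ⟨lam, hlam⟩ := CommGroup.exists_apply_ne_one_of_hasEnoughRootsOfUnity σ.ker ℂ hk1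
      -- the induced module
      let V : Submodule ℂ (Γ → ℂ) :=
        { carrier := {f | ∀ (a : σ.ker) (x : Γ), f ((a : Γ) * x) = (lam a : ℂ) * f x}
          add_mem' := by
            intro f g hf hg a x
            simp only [Pi.add_apply]
            rw [hf a x, hg a x]; ring
          zero_mem' := by
            intro a x
            simp
          smul_mem' := by
            intro c f hf a x
            simp only [Pi.smul_apply, smul_eq_mul]
            rw [hf a x]; ring }
      have hVmem : ∀ f : Γ → ℂ, f ∈ V ↔ ∀ (a : σ.ker) (x : Γ), f ((a : Γ) * x) = (lam a : ℂ) * f x :=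
        fun _ => Iff.rfl
      let R : Γ →* Module.End ℂ V :=
        { toFun := fun g =>
            { toFun := fun f => ⟨fun x => (f : Γ → ℂ) (x * g), by
                rw [hVmem]
                intro a x
                rw [mul_assoc]
                exact f.2 a (x * g)⟩
              map_add' := fun _ _ => rfl
              map_smul' := fun _ _ => rfl }
          map_one' := by
            ext f x
            simp
          map_mul' := by
            intro g h
            ext f x
            simp [mul_assoc] }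
      have hRapply : ∀ (g : Γ) (f : V) (x : Γ), ((R g f : V) : Γ → ℂ) x = (f : Γ → ℂ) (x * g) :=
        fun _ _ _ => rfl
      have hRk : ∀ a : σ.ker, R (a : Γ) = (lam a : ℂ) • (1 : Module.End ℂ V) := by
        intro a
        ext f x
        rw [hRapply, hcen _ a.2 x]
        exact f.2 a x
      let n := Module.finrank ℂ V
      let b := Module.finBasis ℂ V
      let toM := LinearMap.toMatrixAlgEquiv b
      let R' : Γ →* GL (Fin n) ℂ :=
        (Units.map (toM : Module.End ℂ V →* Matrix (Fin n) (Fin n) ℂ)).comp (MonoidHom.toHomUnits R)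
      have hR'val : ∀ g, (R' g).val = toM (R g) := fun _ => rfl
      have hR'c : ∀ a : σ.ker, R' (a : Γ) ∈ center (GL (Fin n) ℂ) := by
        intro a
        rw [Matrix.GeneralLinearGroup.mem_center_iff_val_mem_range_scalar, hR'val, hRk, map_smul, map_one]
        exact ⟨(lam a : ℂ), by simp [Matrix.scalar_apply, Matrix.smul_one_eq_diagonal]⟩
      let mkg := QuotientGroup.mk' (Subgroup.center (GL (Fin n) ℂ))
      let g₀ : Γ →* GL (Fin n) ℂ ⧸ Subgroup.center (GL (Fin n) ℂ) := mkg.comp R'
      have hker : σ.ker ≤ g₀.ker := by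
        intro a ha
        rw [MonoidHom.mem_ker]
        exact (QuotientGroup.eq_one_iff _).mpr (hR'c ⟨a, ha⟩)
      let γ : Q →* GL (Fin n) ℂ ⧸ Subgroup.center (GL (Fin n) ℂ) :=
        (QuotientGroup.lift σ.ker g₀ hker).comp
          (QuotientGroup.quotientKerEquivOfSurjective σ hσ.1).symm.toMonoidHom
      have hγ : ∀ g, γ (σ g) = g₀ g := by
        intro g
        have h1 : (QuotientGroup.quotientKerEquivOfSurjective σ hσ.1).symm (σ g) = (g : Γ ⧸ σ.ker) := by
          rw [MulEquiv.symm_apply_eq]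
          rfl
        show QuotientGroup.lift σ.ker g₀ hker ((QuotientGroup.quotientKerEquivOfSurjective σ hσ.1).symm (σ g)) = _
        rw [h1]
        rfl
      obtain ⟨ρ, hρ⟩ := hlift n γ
      have hρ' : ∀ g, mkg (ρ (σ g)) = mkg (R' g) := by
        intro g
        have h1 : (mkg.comp ρ) (σ g) = γ (σ g) := congrArg (fun t : Q →* _ => t (σ g)) hρ
        exact h1.trans (hγ g)
      have hμc : ∀ g, (ρ (σ g))⁻¹ * R' g ∈ center (GL (Fin n) ℂ) := by
        intro g
        exact QuotientGroup.eq.mp (hρ' g)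
      let μ : Γ →* center (GL (Fin n) ℂ) :=
        MonoidHom.mk' (fun g => ⟨(ρ (σ g))⁻¹ * R' g, hμc g⟩) (by
          intro g h
          apply Subtype.ext
          show (ρ (σ (g * h)))⁻¹ * R' (g * h) = ((ρ (σ g))⁻¹ * R' g) * ((ρ (σ h))⁻¹ * R' h)
          have hcc := mem_center_iff.mp (hμc g) ((ρ (σ h))⁻¹)
          rw [map_mul, map_mul, map_mul]
          calc (ρ (σ g) * ρ (σ h))⁻¹ * (R' g * R' h)
              = (ρ (σ h))⁻¹ * ((ρ (σ g))⁻¹ * R' g) * R' h := by group
            _ = ((ρ (σ g))⁻¹ * R' g) * (ρ (σ h))⁻¹ * R' h := by rw [hcc]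
            _ = _ := by group)
      have hμcomm : commutator Γ ≤ μ.ker := by
        rw [_root_.commutator_def, Subgroup.commutator_le]
        intro a _ c _
        rw [MonoidHom.mem_ker, map_commutatorElement, commutatorElement_eq_one_iff_commute]
        exact Subtype.ext (mem_center_iff.mp (μ c).2 (μ a : GL (Fin n) ℂ))
      have hμk : (ρ (σ k))⁻¹ * R' k = 1 := congrArg Subtype.val (hμcomm (hσ.2.2 hk))
      have hσk : σ k = 1 := hk
      rw [hσk, map_one, inv_one, one_mul] at hμk
      have hRk1 : R k = 1 := by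
        have h1 : toM (R k) = 1 := by
          rw [← hR'val, hμk]; rfl
        have h2 : toM (R k) = toM 1 := by rw [h1, map_one]
        exact toM.injective h2
      -- a nonzero vector
      let f₀ : V := ⟨fun x => if h : x ∈ σ.ker then (lam ⟨x, h⟩ : ℂ) else 0, by
        rw [hVmem]
        intro a x
        by_cases hx : x ∈ σ.ker
        · have h1 : (a : Γ) * x ∈ σ.ker := mul_mem a.2 hx
          rw [dif_pos h1, dif_pos hx]
          have h2 : (⟨(a : Γ) * x, h1⟩ : σ.ker) = a * ⟨x, hx⟩ := rfl
          rw [h2, map_mul]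
          rfl
        · have h1 : (a : Γ) * x ∉ σ.ker := fun h => hx (by
            have := mul_mem (inv_mem a.2) h
            simpa using this)
          rw [dif_neg h1, dif_neg hx, mul_zero]⟩
      have h3 := congrArg (fun E : Module.End ℂ V => ((E f₀ : V) : Γ → ℂ) 1) (hRk ⟨k, hk⟩)
      simp only [] at h3
      rw [hRk1] at h3
      have h4 : ((1 : Module.End ℂ V) f₀ : V) = f₀ := rfl
      have h5 : (f₀ : Γ → ℂ) 1 = 1 := by
        have h6 : (1 : Γ) ∈ σ.ker := one_mem _
        show (if h : (1 : Γ) ∈ σ.ker then (lam ⟨1, h⟩ : ℂ) else 0) = 1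
        rw [dif_pos h6]
        have h7 : (⟨1, h6⟩ : σ.ker) = 1 := rfl
        rw [h7, map_one]
        rfl
      have h8 : (1 : ℂ) = (lam ⟨k, hk⟩ : ℂ) := by
        have h9 : (((lam ⟨k, hk⟩ : ℂ) • (1 : Module.End ℂ V)) f₀ : V) = (lam ⟨k, hk⟩ : ℂ) • f₀ := rfl
        rw [h9, h4] at h3
        have h10 : ((lam ⟨k, hk⟩ : ℂ) • f₀ : V).1 1 = (lam ⟨k, hk⟩ : ℂ) * (f₀ : Γ → ℂ) 1 := rfl
        rw [h10, h5, mul_one] at h3
        exact h3
      apply hlam
      apply Units.ext
      exact h8.symm

end Cfsg.Agent.S3978
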