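import Cfsg.Statements.S3980
import Cfsg.Agent.S3959

set_option autoImplicit false
universe u v w
open Cfsg

namespace Cfsg.Agent.S3980

open scoped TensorProduct


/-- Let `Q₁` and `Q₂` be finite groups whose commutator quotients have coprime orders, with Schur multipliers `A` and `B`. Then the Schur multiplier of `Q₁ × Q₂` is isomorphic to `A × B`. -/
theorem result {Q₁ : Type u} {Q₂ : Type v} [Group Q₁] [Group Q₂] [Finite Q₁] [Finite Q₂] {A B : Type w} [CommGroup A] [CommGroup B] (hA : Cfsg.HasSchurMultiplier Q₁ A) (hB : Cfsg.HasSchurMultiplier Q₂ B) (hcop : Nat.Coprime (Nat.card (Abelianization Q₁)) (Nat.card (Abelianization Q₂))) : Cfsg.HasSchurMultiplier (Q₁ × Q₂) (A × B) := by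
  classical
  have h := Cfsg.Agent.S3959.result hA hB
  haveI hf1 : Finite (Abelianization Q₁) := Finite.of_surjective Abelianization.of QuotientGroup.mk_surjective
  haveI hf2 : Finite (Abelianization Q₂) := Finite.of_surjective Abelianization.of QuotientGroup.mk_surjective
  have hT : Subsingleton (TensorProduct ℤ (Additive (Abelianization Q₁)) (Additive (Abelianization Q₂))) := by
    refine ⟨fun a b => ?_⟩
    have key : ∀ z : TensorProduct ℤ (Additive (Abelianization Q₁)) (Additive (Abelianization Q₂)), z = 0 := by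
      intro z
      induction z using TensorProduct.induction_on with
      | zero => rfl
      | tmul x y =>
        have hc : IsCoprime (Nat.card (Abelianization Q₁) : ℤ) (Nat.card (Abelianization Q₂) : ℤ) :=
          Nat.isCoprime_iff_coprime.mpr hcop
        obtain ⟨u, v, huv⟩ := hc
        have hx : (Nat.card (Abelianization Q₁) : ℤ) • x = 0 := by
          have : Nat.card (Abelianization Q₁) • x = 0 :=
            (card_nsmul_eq_zero' : Nat.card (Additive (Abelianization Q₁)) • x = 0)
          rw [natCast_zsmul]; exact this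
        have hy : (Nat.card (Abelianization Q₂) : ℤ) • y = 0 := by
          have : Nat.card (Abelianization Q₂) • y = 0 :=
            (card_nsmul_eq_zero' : Nat.card (Additive (Abelianization Q₂)) • y = 0)
          rw [natCast_zsmul]; exact this
        have h1 : (1 : ℤ) • (x ⊗ₜ[ℤ] y) = 0 := by
          have e1 : (Nat.card (Abelianization Q₁) : ℤ) • (x ⊗ₜ[ℤ] y) = 0 := by
            rw [TensorProduct.smul_tmul', hx, TensorProduct.zero_tmul]
          have e2 : (Nat.card (Abelianization Q₂) : ℤ) • (x ⊗ₜ[ℤ] y) = 0 := by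
            rw [← TensorProduct.tmul_smul, hy, TensorProduct.tmul_zero]
          rw [← huv, add_smul, mul_smul, mul_smul, e1, e2, smul_zero, smul_zero, add_zero]
        simpa using h1
      | add x y hx hy => rw [hx, hy, add_zero]
    rw [key a, key b]
  let e : A × B × Multiplicative (TensorProduct ℤ (Additive (Abelianization Q₁)) (Additive (Abelianization Q₂))) ≃* A × B :=
    { toFun := fun t => (t.1, t.2.1)
      invFun := fun t => (t.1, t.2, 1)
      left_inv := by
        rintro ⟨a, b, c⟩
        have : c = 1 := by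
          have : Subsingleton (Multiplicative (TensorProduct ℤ (Additive (Abelianization Q₁)) (Additive (Abelianization Q₂)))) := hT
          exact Subsingleton.elim _ _
        simp [this]
      right_inv := by rintro ⟨a, b⟩; rfl
      map_mul' := by rintro ⟨a, b, c⟩ ⟨a', b', c'⟩; rfl }
  obtain ⟨⟨Γ, i1, i2, σ, hσ, ⟨k⟩⟩, h2⟩ := h
  refine ⟨⟨Γ, i1, i2, σ, hσ, ⟨k.trans e⟩⟩, ?_⟩
  intro Γ' _ _ σ' hσ'
  obtain ⟨π, hπ⟩ := h2 Γ' σ' hσ'
  exact ⟨π.comp e.symm.toMonoidHom, hπ.comp e.symm.surjective⟩

end Cfsg.Agent.S3980
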