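import Cfsg.Statements.S3992
import Cfsg.Agent.Lib.PGroups.ThreePrimes
import Cfsg.Agent.Lib.PGroups.Parts
import Cfsg.Agent.Lib.Basic.MinNormal
import Cfsg.Agent.Lib.Basic.FrobNorm
import Cfsg.Agent.Lib.Components.Signal

set_option autoImplicit false
open Cfsg

namespace Cfsg.Agent.S3992

open Subgroup
open scoped commutatorElement
open Cfsg.Agent.Lib.Basic

private theorem not_isPrimePow_mul {r s : ℕ} (hr : r.Prime) (hs : s.Prime) (hrs : r ≠ s) :
    ¬ IsPrimePow (r * s) := by
  rintro ⟨t, k, ht, hk, h⟩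
  have ht' := ht.nat_prime
  have h1 : r ∣ t ^ k := h ▸ dvd_mul_right _ _
  have h2 : s ∣ t ^ k := h ▸ dvd_mul_left _ _
  have h3 := (Nat.prime_dvd_prime_iff_eq hr ht').mp (hr.dvd_of_dvd_pow h1)
  have h4 := (Nat.prime_dvd_prime_iff_eq hs ht').mp (hs.dvd_of_dvd_pow h2)
  exact hrs (h3.trans h4.symm)

private theorem no_commute_prime {Y : Type*} [Group Y]
    (hpp : ∀ g : Y, g ≠ 1 → IsPrimePow (orderOf g)) {x y : Y} (hc : Commute x y) {r s : ℕ}
    (hr : r.Prime) (hs : s.Prime) (hrs : r ≠ s) (hx : orderOf x = r) (hy : orderOf y = s) : False := by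
  have hcop : (orderOf x).Coprime (orderOf y) := by
    rw [hx, hy]; exact (Nat.coprime_primes hr hs).mpr hrs
  have h := hc.orderOf_mul_eq_mul_orderOf_of_coprime hcop
  rw [hx, hy] at h
  have hne : x * y ≠ 1 := by
    intro h1
    rw [h1, orderOf_one] at h
    have := Nat.eq_one_of_mul_eq_one_right h.symm
    exact hr.one_lt.ne' this
  have := hpp _ hne
  rw [h] at this
  exact not_isPrimePow_mul hr hs hrs this

private theorem commute_orders {Y : Type*} [Group Y] [Finite Y]
    (hpp : ∀ g : Y, g ≠ 1 → IsPrimePow (orderOf g)) {x y : Y} (hc : Commute x y) {r s : ℕ}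
    (hr : r.Prime) (hs : s.Prime) (hrs : r ≠ s) (hx : r ∣ orderOf x) (hy : s ∣ orderOf y) : False := by
  refine no_commute_prime hpp (x := x ^ (orderOf x / r)) (y := y ^ (orderOf y / s)) ?_ hr hs hrs
    (orderOf_pow_orderOf_div (orderOf_pos x).ne' hx) (orderOf_pow_orderOf_div (orderOf_pos y).ne' hy)
  exact hc.pow_pow _ _

private theorem prime_dvd_orderOf_of_isPGroup {Y : Type*} [Group Y] {H : Subgroup Y} {q : ℕ}
    (hq : q.Prime) (hH : IsPGroup q H) {a : Y} (ha : a ∈ H) (ha1 : a ≠ 1) : q ∣ orderOf a := by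
  obtain ⟨k, hk⟩ := hH ⟨a, ha⟩
  have h1 : a ^ q ^ k = 1 := congrArg Subtype.val hk
  have h2 := orderOf_dvd_of_pow_eq_one h1
  obtain ⟨j, -, hj⟩ := (Nat.dvd_prime_pow hq).mp h2
  rcases j.eq_zero_or_pos with rfl | hjpos
  · rw [pow_zero, orderOf_eq_one_iff] at hj
    exact absurd hj ha1
  · rw [hj]
    exact dvd_pow_self q hjpos.ne'

private theorem no_commuting {Y : Type*} [Group Y] [Finite Y]
    (hpp : ∀ g : Y, g ≠ 1 → IsPrimePow (orderOf g)) (A B : Subgroup Y) (hA : A ≠ ⊥)
    (hB : ¬ Group.IsSolvable B) (hc : ∀ a ∈ A, ∀ b ∈ B, a * b = b * a) : False := by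
  have hnt : Nontrivial A := (Subgroup.nontrivial_iff_ne_bot _).mpr hA
  obtain ⟨r, hr, hrd⟩ := Nat.exists_prime_and_dvd (Finite.one_lt_card_iff_nontrivial.mpr hnt).ne'
  haveI := Fact.mk hr
  obtain ⟨x, hx⟩ := exists_prime_orderOf_dvd_card' (G := A) r hrd
  by_cases hall : ∀ s : ℕ, s.Prime → s ∣ Nat.card B → s = r
  · apply hB
    have hne : Nat.card B ≠ 0 := Nat.card_pos.ne'
    have hk := Nat.eq_prime_pow_of_unique_prime_dvd hne (fun {d} hd hdv => hall d hd hdv)
    have hP : IsPGroup r B := IsPGroup.of_card hk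
    haveI := hP.isNilpotent
    infer_instance
  · push Not at hall
    obtain ⟨s, hs, hsd, hne⟩ := hall
    haveI := Fact.mk hs
    obtain ⟨y, hy⟩ := exists_prime_orderOf_dvd_card' (G := B) s hsd
    refine no_commute_prime hpp (x := (x : Y)) (y := (y : Y)) (hc _ x.2 _ y.2) hr hs hne.symm ?_ ?_
    · rw [Subgroup.orderOf_coe]; exact hx
    · rw [Subgroup.orderOf_coe]; exact hy

private theorem commutator_ne_self {Y : Type*} [Group Y] [Finite Y] {T : Subgroup Y}
    (hs : Group.IsSolvable T) (hT : T ≠ ⊥) : ⁅T, T⁆ ≠ T := by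
  intro h
  have hnt : Nontrivial T := (Subgroup.nontrivial_iff_ne_bot _).mpr hT
  have hlt := Group.IsSolvable.commutator_lt_top_of_nontrivial T
  have h3 : (commutator T).map T.subtype = (⊤ : Subgroup T).map T.subtype := by
    rw [Subgroup.map_subtype_commutator, h]
    ext x
    simp
  exact hlt.ne (Subgroup.map_injective Subtype.coe_injective h3)

private theorem minNormal_solvable {G : Type*} [Group G] [Finite G] {V : Subgroup G}
    (hmin : IsMinNormal V) (hs : Group.IsSolvable V) :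
    IsMulCommutative V ∧ ∃ r : ℕ, r.Prime ∧ ∀ x ∈ V, x ^ r = 1 := by
  obtain ⟨hN, hne, hM⟩ := hmin
  have hnt : Nontrivial V := (Subgroup.nontrivial_iff_ne_bot V).mpr hne
  have hcomm : IsMulCommutative V := by
    have hDn : (⁅V, V⁆).Normal := inferInstance
    have hDle : ⁅V, V⁆ ≤ V := Subgroup.commutator_le_self V
    rcases hM _ hDn hDle with h | h
    · refine ⟨⟨fun x y => Subtype.ext ?_⟩⟩
      have h3 : ⁅(x : G), (y : G)⁆ = 1 := by
        have : ⁅(x : G), (y : G)⁆ ∈ ⁅V, V⁆ := Subgroup.commutator_mem_commutator x.2 y.2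
        rw [h] at this
        exact this
      exact commutatorElement_eq_one_iff_commute.mp h3
    · exact absurd h (commutator_ne_self hs hne)
  refine ⟨hcomm, ?_⟩
  have hcard : Nat.card V ≠ 1 := Finite.one_lt_card_iff_nontrivial.mpr hnt |>.ne'
  obtain ⟨p, hp, hdvd⟩ := Nat.exists_prime_and_dvd hcard
  refine ⟨p, hp, ?_⟩
  have : Fact p.Prime := ⟨hp⟩
  obtain ⟨x, hx⟩ := exists_prime_orderOf_dvd_card' (G := V) p hdvd
  have hE : torsionSubgroupOf V p ≠ ⊥ := by
    intro hbot
    have hxmem : (x : G) ∈ torsionSubgroupOf V p := by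
      refine ⟨x.2, ?_⟩
      have := pow_orderOf_eq_one x
      rw [hx] at this
      exact congrArg Subtype.val this
    rw [hbot, Subgroup.mem_bot] at hxmem
    have h1 : x = 1 := Subtype.ext hxmem
    rw [h1, orderOf_one] at hx
    exact hp.one_lt.ne hx
  haveI := hN
  have hEn : (torsionSubgroupOf V p).Normal := torsionSubgroupOf_normal p
  rcases hM _ hEn (fun y hy => hy.1) with h | h
  · exact absurd h hE
  · intro y hy
    rw [← h] at hy
    exact hy.2

private theorem part1 {G : Type*} [Group G] [Finite G] (hns : ¬ Group.IsSolvable G)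
    (hpp : ∀ g : G, g ≠ 1 → IsPrimePow (orderOf g)) (R : Subgroup G) [hRn : R.Normal]
    (hRs : Group.IsSolvable R) : ∃ p : ℕ, p.Prime ∧ IsPGroup p R := by
  classical
  by_cases hR : R = ⊥
  · refine ⟨2, Nat.prime_two, ?_⟩
    subst hR
    exact IsPGroup.of_bot
  obtain ⟨V, hV, hVR⟩ := exists_isMinNormal_le hRn hR
  have hVs : Group.IsSolvable V :=
    Group.isSolvable_of_isSolvable_injective (f := Subgroup.inclusion hVR) (Subgroup.inclusion_injective hVR)
  obtain ⟨hVc, r, hr, hVr⟩ := minNormal_solvable hV hVs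
  refine ⟨r, hr, ?_⟩
  have hne : Nat.card R ≠ 0 := Nat.card_pos.ne'
  suffices h : ∀ q : ℕ, q.Prime → q ∣ Nat.card R → q = r by
    have hk := Nat.eq_prime_pow_of_unique_prime_dvd hne (fun {d} hd hdv => h d hd hdv)
    exact IsPGroup.of_card hk
  intro q hq hqd
  by_contra hqr
  haveI hfq : Fact q.Prime := ⟨hq⟩
  haveI hfr : Fact r.Prime := ⟨hr⟩
  apply hns
  let Q : Sylow q R := default
  set Qg : Subgroup G := (Q : Subgroup R).map R.subtype with hQg
  have hQgq : IsPGroup q Qg := Q.isPGroup'.map _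
  have hQgne : Qg ≠ ⊥ := by
    intro hbot
    have hQ1 : (Q : Subgroup R) = ⊥ := by
      rw [hQg, Subgroup.map_eq_bot_iff_of_injective _ Subtype.coe_injective] at hbot
      exact hbot
    have hcard := Sylow.pow_dvd_card_of_pow_dvd_card (p := q) (n := 1) Q (by simpa using hqd)
    have hc1 : Nat.card (Q : Subgroup R) = 1 := by rw [hQ1]; simp
    rw [hc1, pow_one] at hcard
    exact hq.one_lt.ne' (Nat.dvd_one.mp hcard)
  -- fixed-point-freeness
  have hVne : V ≠ ⊥ := hV.2.1
  haveI hVn : V.Normal := hV.1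
  have hfpf : ∀ a ∈ Qg, a ≠ 1 → V ⊓ centralizer {a} = ⊥ := by
    intro a ha ha1
    rw [eq_bot_iff]
    intro v hv
    rw [Subgroup.mem_bot]
    by_contra hv1
    have hv2 : v ∈ V := (Subgroup.mem_inf.mp hv).1
    have hv3 : v ∈ centralizer {a} := (Subgroup.mem_inf.mp hv).2
    rw [Subgroup.mem_centralizer_singleton_iff] at hv3
    have hov : orderOf v = r := orderOf_eq_prime (hVr v hv2) hv1
    have hc : Commute a v := hv3.symm
    refine commute_orders hpp hc hq hr hqr (prime_dvd_orderOf_of_isPGroup hq hQgq ha ha1) (by rw [hov])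
  -- `Z₀`
  let Z₀ : Subgroup G :=
    { carrier := {x | x ∈ Qg ∧ (∀ y ∈ Qg, x * y = y * x) ∧ x ^ q = 1}
      one_mem' := ⟨Qg.one_mem, by simp, one_pow q⟩
      mul_mem' := by
        rintro a b ⟨ha, ha', ha''⟩ ⟨hb, hb', hb''⟩
        refine ⟨Qg.mul_mem ha hb, fun y hy => ?_, ?_⟩
        · rw [mul_assoc, hb' y hy, ← mul_assoc, ha' y hy, mul_assoc]
        · have hc : Commute a b := ha' b hb
          rw [hc.mul_pow, ha'', hb'', one_mul]
      inv_mem' := by
        rintro a ⟨ha, ha', ha''⟩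
        refine ⟨Qg.inv_mem ha, fun y hy => ?_, by rw [inv_pow, ha'', inv_one]⟩
        have := ha' y hy
        rw [eq_inv_mul_iff_mul_eq.mpr (by rw [← mul_assoc, mul_inv_cancel, one_mul] : a * (a⁻¹ * y) = y)]
        have h2 : Commute a y := this
        exact h2.inv_left }
  have hZmem : ∀ x, x ∈ Z₀ ↔ x ∈ Qg ∧ (∀ y ∈ Qg, x * y = y * x) ∧ x ^ q = 1 := fun x => Iff.rfl
  have hZc : IsMulCommutative Z₀ := by
    refine ⟨⟨fun a b => Subtype.ext ?_⟩⟩
    exact ((hZmem _).mp a.2).2.1 _ ((hZmem _).mp b.2).1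
  -- a nontrivial element of `Z₀`
  obtain ⟨z, hzZ, hz1⟩ : ∃ z, z ∈ Z₀ ∧ z ≠ 1 := by
    have hnt : Nontrivial Qg := (Subgroup.nontrivial_iff_ne_bot _).mpr hQgne
    have hcnt : Nontrivial (center Qg) := hQgq.center_nontrivial
    have hcp : IsPGroup q (center Qg) := hQgq.to_subgroup _
    obtain ⟨k, hk⟩ := IsPGroup.iff_card.mp hcp
    have hk0 : k ≠ 0 := by
      rintro rfl
      rw [pow_zero] at hk
      exact (Finite.one_lt_card_iff_nontrivial.mpr hcnt).ne' hk
    obtain ⟨x, hx⟩ := exists_prime_orderOf_dvd_card' (G := center Qg) q (by rw [hk]; exact dvd_pow_self q hk0)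
    have hxo : orderOf (((x : Qg)) : G) = q := by
      rw [Subgroup.orderOf_coe, Subgroup.orderOf_coe]; exact hx
    refine ⟨((x : Qg) : G), ⟨(x : Qg).2, fun y hy => ?_, by rw [← hxo]; exact pow_orderOf_eq_one _⟩, ?_⟩
    · have := (Subgroup.mem_center_iff.mp x.2) ⟨y, hy⟩
      exact (congrArg Subtype.val this).symm
    · intro h1
      rw [h1, orderOf_one] at hxo
      exact hq.one_lt.ne hxo
  have hZne : Z₀ ≠ ⊥ := by
    intro hbot
    rw [hbot, Subgroup.mem_bot] at hzZ
    exact hz1 hzZ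
  -- `Z₀` is cyclic
  have hZcyc : IsCyclic Z₀ := by
    have hZle : Z₀ ≤ normalizer (V : Set G) := by
      rw [normalizer_eq_top_iff.mpr hVn]; exact le_top
    exact Cfsg.Agent.Lib.Basic.isCyclic_of_fpf Z₀ V hVne hZle (fun a ha ha1 => hfpf a ((hZmem a).mp ha).1 ha1)
      (Or.inl hZc)
  -- its automorphism group is abelian
  have hAutS : Group.IsSolvable (MulAut Z₀) := by
    haveI := hZcyc
    exact Group.isSolvable_of_isSolvable_injective (f := (IsCyclic.mulAutMulEquiv Z₀).toMonoidHom)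
      (IsCyclic.mulAutMulEquiv Z₀).injective
  -- the normalizer
  set N : Subgroup G := normalizer (Qg : Set G) with hN
  have hNZ : N ≤ normalizer (Z₀ : Set G) := by
    intro g hg
    have hg' : g ∈ normalizer (Qg : Set G) := hg
    rw [Subgroup.mem_normalizer_iff] at hg'
    apply Cfsg.Agent.Lib.PGroups.mem_normalizer_of_conj_le'
    intro w hw
    obtain ⟨hw1, hw2, hw3⟩ := (hZmem w).mp hw
    refine (hZmem _).mpr ⟨(hg' w).mp hw1, fun y hy => ?_, ?_⟩
    · have hy' : g⁻¹ * y * g ∈ Qg := by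
        have := (hg' (g⁻¹ * y * g)).mpr (by
          have h : g * (g⁻¹ * y * g) * g⁻¹ = y := by group
          rw [h]; exact hy)
        exact this
      have h2 := hw2 _ hy'
      calc g * w * g⁻¹ * y = g * (w * (g⁻¹ * y * g)) * g⁻¹ := by group
        _ = g * ((g⁻¹ * y * g) * w) * g⁻¹ := by rw [h2]
        _ = y * (g * w * g⁻¹) := by group
    · rw [conj_pow, hw3]; simp
  let φ := conjActHom hNZ
  -- the kernel is a `q`-group
  have hker : IsPGroup q φ.ker := by
    intro g
    have hg1 : φ (g : N) = 1 := g.2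
    by_cases hg : (g : N) = 1
    · refine ⟨0, ?_⟩
      simp only [pow_zero, pow_one]
      exact Subtype.ext hg
    have hgne : ((g : N) : G) ≠ 1 := fun h => hg (Subtype.ext h)
    obtain ⟨t, k, ht, hk, hord⟩ := hpp _ hgne
    have ht' := ht.nat_prime
    have hcomm : Commute ((g : N) : G) z := by
      have h2 : ((φ (g : N) ⟨z, hzZ⟩ : Z₀) : G) = ((g : N) : G) * z * ((g : N) : G)⁻¹ := conjActHom_apply hNZ _ _
      rw [hg1] at h2
      have h3 : z = ((g : N) : G) * z * ((g : N) : G)⁻¹ := h2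
      rw [eq_mul_inv_iff_mul_eq] at h3
      exact h3.symm
    have htq : t = q := by
      by_contra htq
      have hzo : orderOf z = q := orderOf_eq_prime ((hZmem z).mp hzZ).2.2 hz1
      exact commute_orders hpp hcomm ht' hq htq (by rw [← hord]; exact dvd_pow_self t hk.ne') (by rw [hzo])
    subst htq
    refine ⟨k, ?_⟩
    apply Subtype.ext
    apply Subtype.ext
    show ((g : N) : G) ^ t ^ k = 1
    rw [hord]
    exact pow_orderOf_eq_one _
  have hkerS : Group.IsSolvable φ.ker := by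
    haveI := hker.isNilpotent
    infer_instance
  have hNS : Group.IsSolvable N :=
    Group.isSolvable_of_ker_le_range φ.ker.subtype φ (by rw [Subgroup.range_subtype])
  have htop : N ⊔ R = ⊤ := Sylow.normalizer_sup_eq_top Q
  have hNR : N ≤ normalizer (R : Set G) := by
    rw [normalizer_eq_top_iff.mpr hRn]; exact le_top
  have hS := Cfsg.Agent.Lib.Components.isSolvable_sup_of_le_normalizer hNR hRs hNS
  rw [sup_comm, htop] at hS
  exact Group.isSolvable_of_isSolvable_injective (f := (Subgroup.topEquiv (G := G)).symm.toMonoidHom)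
    (Subgroup.topEquiv (G := G)).symm.injective


private def MinS {Y : Type*} [Group Y] (M T : Subgroup Y) : Prop :=
  T ≤ M ∧ (∀ m ∈ M, ∀ t ∈ T, m * t * m⁻¹ ∈ T) ∧ T ≠ ⊥ ∧
    ∀ K : Subgroup Y, K ≤ T → (∀ m ∈ M, ∀ t ∈ K, m * t * m⁻¹ ∈ K) → K ≠ ⊥ → K = T

private theorem MinS.dichotomy {Y : Type*} [Group Y] {M T₁ T₂ : Subgroup Y} (h₁ : MinS M T₁)
    (h₂ : MinS M T₂) : T₁ = T₂ ∨ ∀ a ∈ T₁, ∀ b ∈ T₂, a * b = b * a := by
  by_cases hinf : T₁ ⊓ T₂ = ⊥
  · right
    intro a ha b hb
    have h1 : a * b * a⁻¹ * b⁻¹ ∈ T₁ := by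
      have h0 := h₁.2.1 b (h₂.1 hb) a⁻¹ (T₁.inv_mem ha)
      have h2 := T₁.mul_mem ha h0
      simpa [mul_assoc] using h2
    have h2 : a * b * a⁻¹ * b⁻¹ ∈ T₂ := by
      have h0 := h₂.2.1 a (h₁.1 ha) b hb
      exact T₂.mul_mem h0 (T₂.inv_mem hb)
    have h3 : a * b * a⁻¹ * b⁻¹ ∈ T₁ ⊓ T₂ := Subgroup.mem_inf.mpr ⟨h1, h2⟩
    rw [hinf, Subgroup.mem_bot, mul_inv_eq_one, mul_inv_eq_iff_eq_mul] at h3
    exact h3
  · left
    have hinv : ∀ m ∈ M, ∀ t ∈ T₁ ⊓ T₂, m * t * m⁻¹ ∈ T₁ ⊓ T₂ := fun m hm t ht =>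
      Subgroup.mem_inf.mpr ⟨h₁.2.1 m hm t (Subgroup.mem_inf.mp ht).1, h₂.2.1 m hm t (Subgroup.mem_inf.mp ht).2⟩
    have e1 := h₁.2.2.2 _ inf_le_left hinv hinf
    have e2 := h₂.2.2.2 _ inf_le_right hinv hinf
    exact e1.symm.trans e2

private theorem mem_conj_iff {Y : Type*} [Group Y] {T : Subgroup Y} {y x : Y} :
    x ∈ T.map (MulAut.conj y).toMonoidHom ↔ y⁻¹ * x * y ∈ T := by
  constructor
  · rintro ⟨t, ht, rfl⟩
    have : y⁻¹ * ((MulAut.conj y).toMonoidHom t) * y = t := by
      show y⁻¹ * (y * t * y⁻¹) * y = t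
      group
    rw [this]; exact ht
  · intro h
    refine ⟨_, h, ?_⟩
    show y * (y⁻¹ * x * y) * y⁻¹ = x
    group

private theorem MinS.conj {Y : Type*} [Group Y] {M T : Subgroup Y} (hM : M.Normal) (h : MinS M T) (y : Y) :
    MinS M (T.map (MulAut.conj y).toMonoidHom) := by
  have hinv : ∀ z : Y, ∀ m ∈ M, z * m * z⁻¹ ∈ M := fun z m hm => hM.conj_mem m hm z
  refine ⟨?_, ?_, ?_, ?_⟩
  · intro x hx
    have h1 := mem_conj_iff.mp hx
    have h2 := hinv y _ (h.1 h1)
    have h3 : y * (y⁻¹ * x * y) * y⁻¹ = x := by group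
    rwa [h3] at h2
  · intro m hm t ht
    rw [mem_conj_iff] at ht ⊢
    have h1 := h.2.1 (y⁻¹ * m * y⁻¹⁻¹) (hinv y⁻¹ m hm) _ ht
    have h2 : y⁻¹ * m * y⁻¹⁻¹ * (y⁻¹ * t * y) * (y⁻¹ * m * y⁻¹⁻¹)⁻¹ = y⁻¹ * (m * t * m⁻¹) * y := by group
    rwa [h2] at h1
  · intro hbot
    rw [Subgroup.map_eq_bot_iff_of_injective _ (MulAut.conj y).injective] at hbot
    exact h.2.2.1 hbot
  · intro K hK hKinv hKne
    have hK' : K.map (MulAut.conj y⁻¹).toMonoidHom ≤ T := by
      intro x hx
      rw [mem_conj_iff] at hx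
      have h1 := mem_conj_iff.mp (hK hx)
      have h2 : y⁻¹ * (y⁻¹⁻¹ * x * y⁻¹) * y = x := by group
      rwa [h2] at h1
    have hinv' : ∀ m ∈ M, ∀ t ∈ K.map (MulAut.conj y⁻¹).toMonoidHom,
        m * t * m⁻¹ ∈ K.map (MulAut.conj y⁻¹).toMonoidHom := by
      intro m hm t ht
      rw [mem_conj_iff] at ht ⊢
      have h1 := hKinv (y * m * y⁻¹) (hinv y m hm) _ ht
      have h2 : y * m * y⁻¹ * (y⁻¹⁻¹ * t * y⁻¹) * (y * m * y⁻¹)⁻¹ = y⁻¹⁻¹ * (m * t * m⁻¹) * y⁻¹ := by group
      rwa [h2] at h1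
    have hne' : K.map (MulAut.conj y⁻¹).toMonoidHom ≠ ⊥ := by
      intro hbot
      rw [Subgroup.map_eq_bot_iff_of_injective _ (MulAut.conj y⁻¹).injective] at hbot
      exact hKne hbot
    have heq := h.2.2.2 _ hK' hinv' hne'
    apply le_antisymm hK
    intro x hx
    have h1 := mem_conj_iff.mp hx
    rw [← heq, mem_conj_iff] at h1
    have h2 : y⁻¹⁻¹ * (y⁻¹ * x * y) * y⁻¹ = x := by group
    rwa [h2] at h1

private theorem part2 {Y : Type*} [Group Y] [Finite Y] [hnt : Nontrivial Y]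
    (hpp : ∀ g : Y, g ≠ 1 → IsPrimePow (orderOf g))
    (hrad : ∀ N : Subgroup Y, N.Normal → Group.IsSolvable N → N = ⊥) :
    ∃ M : Subgroup Y, M.Normal ∧ IsSimpleGroup M ∧ ¬ IsMulCommutative M ∧
      ∀ N : Subgroup Y, N.Normal → N ≠ ⊥ → M ≤ N := by
  classical
  obtain ⟨M, hMmin⟩ := exists_isMinNormal (G := Y)
  obtain ⟨hMn, hMne, hM⟩ := id hMmin
  haveI := hMn
  have hMns : ¬ Group.IsSolvable M := fun h => hMne (hrad M hMn h)
  refine ⟨M, hMn, ?_, ?_, ?_⟩
  · haveI hMnt : Nontrivial M := (Subgroup.nontrivial_iff_ne_bot _).mpr hMne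
    refine ⟨fun N hN => ?_⟩
    by_cases hN1 : N = ⊥
    · exact Or.inl hN1
    right
    set Nn : Subgroup Y := N.map M.subtype with hNn
    have hNnM : Nn ≤ M := Subgroup.map_subtype_le _
    have hNninv : ∀ m ∈ M, ∀ t ∈ Nn, m * t * m⁻¹ ∈ Nn := by
      rintro m hm t ⟨n, hn, rfl⟩
      exact ⟨_, hN.conj_mem n hn ⟨m, hm⟩, rfl⟩
    have hNnne : Nn ≠ ⊥ := by
      intro hbot
      rw [hNn, Subgroup.map_eq_bot_iff_of_injective _ Subtype.coe_injective] at hbot
      exact hN1 hbot
    have hS : ({K : Subgroup Y | K ≤ Nn ∧ (∀ m ∈ M, ∀ t ∈ K, m * t * m⁻¹ ∈ K) ∧ K ≠ ⊥}).Nonempty :=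
      ⟨Nn, le_rfl, hNninv, hNnne⟩
    obtain ⟨T, ⟨hT1, hT2, hT3⟩, hTmin⟩ := (Set.toFinite _).exists_minimal hS
    have hTS : MinS M T := by
      refine ⟨hT1.trans hNnM, hT2, hT3, fun K hK hKinv hKne => ?_⟩
      exact le_antisymm hK (hTmin ⟨hK.trans hT1, hKinv, hKne⟩ hK)
    have hTns : ¬ Group.IsSolvable T := by
      intro hTs
      -- `T` is abelian
      have hD : ⁅T, T⁆ = ⊥ := by
        by_contra hDne
        have hDinv : ∀ m ∈ M, ∀ t ∈ ⁅T, T⁆, m * t * m⁻¹ ∈ ⁅T, T⁆ := by
          intro m hm t ht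
          have hle : ⁅T, T⁆ ≤ (⁅T, T⁆).comap (MulAut.conj m).toMonoidHom := by
            rw [Subgroup.commutator_le]
            intro a ha b hb
            rw [Subgroup.mem_comap]
            have h1 : (MulAut.conj m).toMonoidHom ⁅a, b⁆ = ⁅m * a * m⁻¹, m * b * m⁻¹⁆ := by
              show m * ⁅a, b⁆ * m⁻¹ = _
              simp only [commutatorElement_def]
              group
            rw [h1]
            exact Subgroup.commutator_mem_commutator (hT2 m hm a ha) (hT2 m hm b hb)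
          exact hle ht
        have := hTS.2.2.2 _ (Subgroup.commutator_le_self T) hDinv hDne
        exact commutator_ne_self hTs hT3 this
      have hTc : ∀ a ∈ T, ∀ b ∈ T, a * b = b * a := by
        intro a ha b hb
        have h1 : ⁅a, b⁆ ∈ ⁅T, T⁆ := Subgroup.commutator_mem_commutator ha hb
        rw [hD, Subgroup.mem_bot] at h1
        exact commutatorElement_eq_one_iff_commute.mp h1
      have hTc' : ∀ y : Y, ∀ a ∈ T.map (MulAut.conj y).toMonoidHom, ∀ b ∈ T.map (MulAut.conj y).toMonoidHom,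
          a * b = b * a := by
        intro y a ha b hb
        have h1 := hTc _ (mem_conj_iff.mp ha) _ (mem_conj_iff.mp hb)
        have h2 : y⁻¹ * (a * b) * y = y⁻¹ * (b * a) * y := by
          calc y⁻¹ * (a * b) * y = (y⁻¹ * a * y) * (y⁻¹ * b * y) := by group
            _ = (y⁻¹ * b * y) * (y⁻¹ * a * y) := h1
            _ = y⁻¹ * (b * a) * y := by group
        exact mul_left_cancel (mul_right_cancel h2)
      have hcomm : ∀ x ∈ Group.conjugatesOfSet (T : Set Y), ∀ z ∈ Group.conjugatesOfSet (T : Set Y),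
          x * z = z * x := by
        intro x hx z hz
        rw [Group.mem_conjugatesOfSet_iff] at hx hz
        obtain ⟨t₁, ht₁, h₁⟩ := hx
        obtain ⟨t₂, ht₂, h₂⟩ := hz
        obtain ⟨y₁, rfl⟩ := isConj_iff.mp h₁
        obtain ⟨y₂, rfl⟩ := isConj_iff.mp h₂
        have hx' : y₁ * t₁ * y₁⁻¹ ∈ T.map (MulAut.conj y₁).toMonoidHom := ⟨t₁, ht₁, rfl⟩
        have hz' : y₂ * t₂ * y₂⁻¹ ∈ T.map (MulAut.conj y₂).toMonoidHom := ⟨t₂, ht₂, rfl⟩
        rcases (hTS.conj hMn y₁).dichotomy (hTS.conj hMn y₂) with h | h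
        · rw [← h] at hz'
          exact hTc' y₁ _ hx' _ hz'
        · exact h _ hx' _ hz'
      haveI hWc : IsMulCommutative (closure (Group.conjugatesOfSet (T : Set Y))) :=
        Subgroup.isMulCommutative_closure hcomm
      have hWs : Group.IsSolvable (closure (Group.conjugatesOfSet (T : Set Y))) :=
        Group.isSolvable_of_comm (fun a b => hWc.is_comm.comm a b)
      have hWn : (normalClosure (T : Set Y)).Normal := Subgroup.normalClosure_normal
      have hW := hrad (normalClosure (T : Set Y)) hWn hWs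
      apply hT3
      rw [eq_bot_iff, ← hW]
      exact Subgroup.le_normalClosure
    have hconj : ∀ y : Y, T.map (MulAut.conj y).toMonoidHom = T := by
      intro y
      rcases (hTS.conj hMn y).dichotomy hTS with h | h
      · exact h
      · exact absurd h (fun h => no_commuting hpp _ T (hTS.conj hMn y).2.2.1 hTns h |>.elim)
    have hTn : T.Normal := ⟨fun t ht y => by
      rw [← hconj y]
      exact ⟨t, ht, rfl⟩⟩
    rcases hM T hTn hTS.1 with h | h
    · exact absurd h hT3
    · rw [eq_top_iff]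
      intro x _
      have hx : (x : Y) ∈ Nn := hT1 (h ▸ x.2)
      obtain ⟨n, hn, hxn⟩ := hx
      have : n = x := Subtype.ext hxn
      rwa [this] at hn
  · intro hc
    apply hMns
    exact Group.isSolvable_of_comm (fun a b => hc.is_comm.comm a b)
  · intro N hN hNne
    rcases hM (M ⊓ N) (Subgroup.normal_inf_normal M N) inf_le_left with h | h
    · exfalso
      refine no_commuting hpp N M hNne hMns (fun a ha b hb => ?_)
      exact (Subgroup.commute_of_normal_of_disjoint M N hMn hN (by rw [disjoint_iff]; exact h) b a hb ha).symm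
    · exact inf_eq_left.mp h


/-- Let G be a finite non-solvable group in which every element has prime-power order, and let R be its largest solvable normal subgroup. Then R is a p-group for some prime p; G/R has a non-abelian simple normal subgroup contained in every nontrivial normal subgroup of G/R (its unique minimal normal subgroup); and the order of every solvable subgroup of G has at most two prime divisors. -/
theorem result {G : Type*} [Group G] [Finite G] (hns : ¬ Group.IsSolvable G) (hpp : ∀ g : G, g ≠ 1 → IsPrimePow (orderOf g))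
    (R : Subgroup G) [R.Normal] (hRs : Group.IsSolvable ↥R) (hRmax : ∀ N : Subgroup G, N.Normal → Group.IsSolvable ↥N → N ≤ R) :
    (∃ p : ℕ, p.Prime ∧ IsPGroup p ↥R) ∧
      (∃ M : Subgroup (G ⧸ R), M.Normal ∧ IsSimpleGroup ↥M ∧ ¬ IsMulCommutative ↥M ∧
        ∀ N : Subgroup (G ⧸ R), N.Normal → N ≠ ⊥ → M ≤ N) ∧
      ∀ H : Subgroup G, Group.IsSolvable ↥H → (Nat.card ↥H).primeFactors.card ≤ 2 := by
  classical
  refine ⟨part1 hns hpp R hRs, ?_, ?_⟩
  · have hnt : Nontrivial (G ⧸ R) := by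
      by_contra h
      rw [not_nontrivial_iff_subsingleton] at h
      have hRtop : R = ⊤ := by
        rw [eq_top_iff]
        intro g _
        rw [← QuotientGroup.eq_one_iff]
        exact Subsingleton.elim _ _
      subst hRtop
      exact hns (Group.isSolvable_of_isSolvable_injective (f := (Subgroup.topEquiv (G := G)).symm.toMonoidHom)
        (Subgroup.topEquiv (G := G)).symm.injective)
    refine part2 ?_ ?_
    · intro x hx
      obtain ⟨g, rfl⟩ := QuotientGroup.mk_surjective x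
      have hg : g ≠ 1 := by
        rintro rfl
        exact hx rfl
      obtain ⟨t, k, ht, hk, hord⟩ := hpp g hg
      have ht' := ht.nat_prime
      have hd : orderOf (g : G ⧸ R) ∣ t ^ k := by
        rw [hord]
        exact orderOf_map_dvd (QuotientGroup.mk' R) g
      obtain ⟨j, -, hj⟩ := (Nat.dvd_prime_pow ht').mp hd
      rcases j.eq_zero_or_pos with rfl | hjpos
      · rw [pow_zero, orderOf_eq_one_iff] at hj
        exact absurd hj hx
      · exact ⟨t, j, ht, hjpos, hj.symm⟩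
    · intro N hN hNs
      set K : Subgroup G := N.comap (QuotientGroup.mk' R) with hK
      have hKn : K.Normal := hN.comap _
      have hRK : R ≤ K := by
        intro x hx
        show (QuotientGroup.mk' R) x ∈ N
        have : (QuotientGroup.mk' R) x = 1 := (QuotientGroup.eq_one_iff x).mpr hx
        rw [this]
        exact N.one_mem
      let f : R →* K := Subgroup.inclusion hRK
      let g : K →* N := (QuotientGroup.mk' R).subgroupComap N
      have hfg : g.ker ≤ f.range := by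
        intro x hx
        have h1 : (QuotientGroup.mk' R) (x : G) = 1 := congrArg Subtype.val hx
        have h2 : (x : G) ∈ R := (QuotientGroup.eq_one_iff _).mp h1
        exact ⟨⟨x, h2⟩, rfl⟩
      have hKs : Group.IsSolvable K := Group.isSolvable_of_ker_le_range f g hfg
      have hKR := hRmax K hKn hKs
      rw [eq_bot_iff]
      intro x hx
      obtain ⟨y, rfl⟩ := QuotientGroup.mk_surjective x
      rw [Subgroup.mem_bot]
      have hy : y ∈ K := hx
      exact (QuotientGroup.eq_one_iff y).mpr (hKR hy)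
  · intro H hHs
    by_contra hcard
    push Not at hcard
    obtain ⟨p, hp, q, hq, r, hr, hpq, hpr, hqr⟩ := Finset.two_lt_card.mp hcard
    have hp' := Nat.prime_of_mem_primeFactors hp
    have hq' := Nat.prime_of_mem_primeFactors hq
    have hr' := Nat.prime_of_mem_primeFactors hr
    have hpd := Nat.dvd_of_mem_primeFactors hp
    have hqd := Nat.dvd_of_mem_primeFactors hq
    have hrd := Nat.dvd_of_mem_primeFactors hr
    obtain ⟨g, hg⟩ := Cfsg.Agent.Lib.PGroups.three_primes (X := H) hp' hq' hr' hpq hpr hqr hpd hqd hrd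
    have hord : ∃ a b : ℕ, a.Prime ∧ b.Prime ∧ a ≠ b ∧ orderOf (g : G) = a * b := by
      rw [Subgroup.orderOf_coe]
      rcases hg with h | h | h
      · exact ⟨p, q, hp', hq', hpq, h⟩
      · exact ⟨p, r, hp', hr', hpr, h⟩
      · exact ⟨q, r, hq', hr', hqr, h⟩
    obtain ⟨a, b, ha, hb, hab, h⟩ := hord
    have hg1 : (g : G) ≠ 1 := by
      intro h1
      rw [h1, orderOf_one] at h
      exact ha.one_lt.ne' (Nat.eq_one_of_mul_eq_one_right h.symm)
    have h2 := hpp _ hg1
    rw [h] at h2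
    exact not_isPrimePow_mul ha hb hab h2

end Cfsg.Agent.S3992
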