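import Cfsg.Statements.S3994
import Cfsg.Agent.Lib.PGroups.Frobenius2

set_option autoImplicit false
open Cfsg

namespace Cfsg.Agent.S3994

open Finset Cfsg.Agent.Lib.PGroups

private theorem not_dvd_t {n N q : ℕ} (hn : 0 < n) (hN : 0 < N) (hq : q.Prime) (hqn : q ∣ n) :
    ¬ q ∣ N / Nat.gcd N (n ^ N) := by
  have hg : Nat.gcd N (n ^ N) ∣ N := Nat.gcd_dvd_left _ _
  have hgne : Nat.gcd N (n ^ N) ≠ 0 := (Nat.gcd_pos_of_pos_left _ hN).ne'
  have hf : (N / Nat.gcd N (n ^ N)).factorization q = 0 := by
    rw [Nat.factorization_div hg]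
    have h1 : (Nat.gcd N (n ^ N)).factorization q = N.factorization q := by
      rw [Nat.factorization_gcd hN.ne' (pow_ne_zero _ hn.ne')]
      simp only [Finsupp.inf_apply, Nat.factorization_pow, Finsupp.smul_apply, smul_eq_mul]
      apply min_eq_left
      have h2 : N.factorization q < N := Nat.factorization_lt q hN.ne'
      have h3 : 1 ≤ n.factorization q := (hq.dvd_iff_one_le_factorization hn.ne').mp hqn
      nlinarith
    simp [h1]
  intro hd
  have hne : N / Nat.gcd N (n ^ N) ≠ 0 := by
    have := Nat.div_pos (Nat.le_of_dvd hN hg) (Nat.pos_of_ne_zero hgne)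
    omega
  have := (hq.dvd_iff_one_le_factorization hne).mp hd
  omega


/-- Let G be a finite group and n a positive integer. The number of elements of G whose order is divisible by n is either 0 or divisible by the largest divisor of the order of G that is coprime to n. -/
theorem result {G : Type*} [Group G] [Finite G] (n : ℕ) (hn : 0 < n) :
    Nat.card {g : G // n ∣ orderOf g} = 0 ∨
      (Nat.card G / Nat.gcd (Nat.card G) (n ^ Nat.card G)) ∣ Nat.card {g : G // n ∣ orderOf g} := by
  right
  classical
  haveI := Fintype.ofFinite G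
  set N := Nat.card G with hNdef
  have hN : 0 < N := Nat.card_pos
  set s := Nat.gcd N (n ^ N) with hs
  set t := N / s with ht
  have hst : s * t = N := Nat.mul_div_cancel' (Nat.gcd_dvd_left _ _)
  have hqt : ∀ q : ℕ, q.Prime → q ∣ n → ¬ q ∣ t := fun q hq hqn => not_dvd_t hn hN hq hqn
  have hnt : n.Coprime t := Nat.coprime_of_dvd (fun q hq h1 h2 => hqt q hq h1 h2)
  have hc : s.Coprime t := by
    apply Nat.coprime_of_dvd
    intro q hq h1 h2
    have : q ∣ n ^ N := h1.trans (Nat.gcd_dvd_right _ _)
    exact hqt q hq (hq.dvd_of_dvd_pow this) h2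
  have key := card_filter_pow_eq_sum hc (fun x : G => n ∣ orderOf x)
  have hcard : Nat.card {g : G // n ∣ orderOf g} = _ := (Nat.subtype_card _ ?_).trans key
  swap
  · intro x
    simp only [Finset.mem_filter, Finset.mem_univ, true_and]
    rw [hst]
    constructor
    · intro h; exact h.2
    · intro h; exact ⟨pow_card_eq_one', h⟩
  rw [hcard]
  have hin : ∀ u ∈ univ.filter (fun u : G => u ^ s = 1),
      (univ.filter fun v : G => v ^ t = 1 ∧ Commute u v ∧ n ∣ orderOf (u * v)).card =
        if n ∣ orderOf u then cnt t u else 0 := by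
    intro u hu
    have hus : u ^ s = 1 := (Finset.mem_filter.mp hu).2
    have hiff : ∀ v : G, v ^ t = 1 → Commute u v → (n ∣ orderOf (u * v) ↔ n ∣ orderOf u) := by
      intro v hv hcm
      have hco : (orderOf u).Coprime (orderOf v) :=
        Nat.Coprime.coprime_dvd_left (orderOf_dvd_of_pow_eq_one hus)
          (Nat.Coprime.coprime_dvd_right (orderOf_dvd_of_pow_eq_one hv) hc)
      rw [hcm.orderOf_mul_eq_mul_orderOf_of_coprime hco]
      constructor
      · intro h
        exact (Nat.Coprime.coprime_dvd_right (orderOf_dvd_of_pow_eq_one hv) hnt).dvd_of_dvd_mul_right h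
      · intro h
        exact h.trans (Nat.dvd_mul_right _ _)
    split_ifs with hnu
    · symm
      apply Nat.subtype_card
      intro v
      simp only [Finset.mem_filter, Finset.mem_univ, true_and]
      constructor
      · rintro ⟨h1, h2, -⟩
        exact ⟨h1, h2⟩
      · rintro ⟨h1, h2⟩
        exact ⟨h1, h2, (hiff v h1 h2).mpr hnu⟩
    · rw [Finset.card_eq_zero, Finset.filter_eq_empty_iff]
      rintro v - ⟨h1, h2, h3⟩
      exact hnu ((hiff v h1 h2).mp h3)
  have hfinal : t ∣ ∑ u ∈ univ.filter (fun u : G => u ^ s = 1), (if n ∣ orderOf u then cnt t u else 0) := by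
    apply dvd_sum_of_conj_invariant
    · intro g u hu
      simp only [Finset.mem_filter, Finset.mem_univ, true_and] at hu ⊢
      rw [conj_pow, hu]; simp
    · intro g u
      simp only [orderOf_conj_eq, cnt_conj]
    · intro u _
      split_ifs with hnu
      · exact dvd_index_mul_cnt (Dvd.intro_left _ hst) u
      · simp
  rw [← Finset.sum_congr rfl hin] at hfinal
  convert hfinal using 4

end Cfsg.Agent.S3994
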