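import Cfsg.Statements.S3995
import Cfsg.Agent.Lib.PGroups.Frobenius
import Cfsg.Agent.Lib.PGroups.Fixed
import Cfsg.Agent.Lib.OddLocal.UniqueP2

set_option autoImplicit false
open Cfsg

namespace Cfsg.Agent.S3995

open Subgroup Cfsg.Agent.Lib.PGroups Cfsg.Agent.Lib.OddLocal

universe u

/-- The number of elements of order `d`. -/
private noncomputable def C (G : Type u) [Group G] (d : ℕ) : ℕ := Nat.card {g : G // orderOf g = d}

private theorem C_even {G : Type u} [Group G] [Finite G] {d : ℕ} (hd : 3 ≤ d) : Even (C G d) := by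
  by_contra h
  rw [Nat.not_even_iff_odd] at h
  obtain ⟨⟨x, hx⟩, hfix⟩ := exists_fixed_of_involutive (α := {g : G // orderOf g = d})
    (fun g => ⟨g.1⁻¹, by rw [orderOf_inv]; exact g.2⟩) (fun g => Subtype.ext (inv_inv _)) h
  have h1 : x⁻¹ = x := congrArg Subtype.val hfix
  have h2 : x ^ 2 = 1 := by
    rw [pow_two]
    nth_rewrite 1 [← h1]
    exact inv_mul_cancel x
  have := Nat.le_of_dvd two_pos (orderOf_dvd_of_pow_eq_one h2)
  omega

private theorem C_pos {G : Type u} [Group G] [Finite G] (g : G) : 0 < C G (orderOf g) := by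
  haveI : Nonempty {h : G // orderOf h = orderOf g} := ⟨⟨g, rfl⟩⟩
  exact Nat.card_pos

private theorem C_one {G : Type u} [Group G] : C G 1 = 1 := by
  have : {g : G // orderOf g = 1} ≃ Unit :=
    { toFun := fun _ => ()
      invFun := fun _ => ⟨1, orderOf_one⟩
      left_inv := fun g => Subtype.ext (orderOf_eq_one_iff.mp g.2).symm
      right_inv := fun _ => rfl }
  rw [C, Nat.card_congr this]
  simp

private theorem C_eq_filter {G : Type u} [Group G] [Fintype G] [DecidableEq G] (d : ℕ) :
    C G d = (Finset.univ.filter (fun g : G => orderOf g = d)).card := by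
  classical
  rw [C, Nat.card_eq_fintype_card, Fintype.card_subtype]

/-- Counting the solutions of `x ^ t = 1` by orders. -/
private theorem card_pow_eq_sum {G : Type u} [Group G] [Finite G] {t : ℕ} (ht : t ≠ 0) :
    Nat.card {g : G // g ^ t = 1} = ∑ d ∈ t.divisors, C G d := by
  classical
  letI := Fintype.ofFinite G
  rw [Nat.card_eq_fintype_card, Fintype.card_subtype]
  rw [Finset.card_eq_sum_card_fiberwise (f := orderOf) (t := t.divisors)]
  · refine Finset.sum_congr rfl fun d hd => ?_
    rw [C_eq_filter]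
    congr 1
    ext g
    simp only [Finset.mem_filter, Finset.mem_univ, true_and]
    constructor
    · rintro ⟨-, h⟩
      exact h
    · intro h
      refine ⟨?_, h⟩
      rw [← orderOf_dvd_iff_pow_eq_one, h]
      exact Nat.dvd_of_mem_divisors hd
  · intro g hg
    have hg' : g ^ t = 1 := by simpa using hg
    simp only [Finset.coe_sort_coe, Nat.mem_divisors, Finset.mem_coe]
    exact ⟨orderOf_dvd_of_pow_eq_one hg', ht⟩

private theorem frob_sum {G : Type u} [Group G] [Finite G] {t : ℕ} (ht : t ≠ 0) (hd : t ∣ Nat.card G) :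
    t ∣ ∑ d ∈ t.divisors, C G d := by
  rw [← card_pow_eq_sum ht]
  exact frobenius hd

/-- The total count. -/
private theorem card_eq_sum_orders {G : Type u} [Group G] [Fintype G] [DecidableEq G] :
    Nat.card G = ∑ d ∈ Finset.univ.image (orderOf : G → ℕ), C G d := by
  rw [Nat.card_eq_fintype_card, ← Finset.card_univ, Finset.card_eq_sum_card_image orderOf Finset.univ]
  refine Finset.sum_congr rfl fun d _ => ?_
  rw [C_eq_filter]

/-- The count with the set of orders at least three. -/
private theorem card_eq_J {G : Type u} [Group G] [Fintype G] [DecidableEq G] {n : ℕ}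
    (h3 : ∀ g : G, 3 ≤ orderOf g → C G (orderOf g) = n) :
    Nat.card G = 1 + C G 2 + ((Finset.univ.image (orderOf : G → ℕ)).filter (3 ≤ ·)).card * n := by
  rw [card_eq_sum_orders, ← Finset.sum_filter_add_sum_filter_not _ (fun d => 3 ≤ d), add_comm]
  congr 1
  · -- small orders
    have hsub : (Finset.univ.image (orderOf : G → ℕ)).filter (fun d => ¬ 3 ≤ d) ⊆ {1, 2} := by
      intro d hd
      simp only [Finset.mem_filter, Finset.mem_image, Finset.mem_univ, true_and, not_le] at hd
      obtain ⟨⟨g, rfl⟩, hlt⟩ := hd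
      have hpos := orderOf_pos g
      simp only [Finset.mem_insert, Finset.mem_singleton]
      omega
    rw [Finset.sum_subset hsub]
    · rw [Finset.sum_pair (by norm_num), C_one]
    · intro d hd hnot
      simp only [Finset.mem_insert, Finset.mem_singleton] at hd
      -- `d` is not an order
      have hno : ∀ g : G, orderOf g ≠ d := by
        intro g hg
        apply hnot
        simp only [Finset.mem_filter, Finset.mem_image, Finset.mem_univ, true_and, not_le]
        exact ⟨⟨g, hg⟩, by omega⟩
      rw [C_eq_filter, Finset.card_eq_zero, Finset.filter_eq_empty_iff]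
      intro g _
      exact hno g
  · rw [Finset.sum_congr rfl (g := fun _ => n), Finset.sum_const, smul_eq_mul]
    intro d hd
    simp only [Finset.mem_filter, Finset.mem_image, Finset.mem_univ, true_and] at hd
    obtain ⟨⟨g, rfl⟩, hle⟩ := hd
    exact h3 g hle

/-- The odd-prime analysis: no elements of order `p²`, and `p^k ∣ 1 + n`. -/
private theorem no_order_sq {G : Type u} [Group G] [Finite G] {n : ℕ}
    (h3 : ∀ g : G, 3 ≤ orderOf g → C G (orderOf g) = n) {p : ℕ} (hp : p.Prime) (hp2 : p ≠ 2)
    (hd : p ∣ Nat.card G) : p ∣ 1 + n ∧ ∀ g : G, orderOf g ≠ p ^ 2 := by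
  classical
  haveI := Fact.mk hp
  have hp3 : 3 ≤ p := by
    have := hp.two_le
    omega
  obtain ⟨x, hx⟩ := exists_prime_orderOf_dvd_card' (G := G) p hd
  have hCp : C G p = n := hx ▸ h3 x (by rw [hx]; exact hp3)
  have h1 : p ∣ 1 + n := by
    have := frob_sum (G := G) hp.ne_zero hd
    rw [hp.divisors, Finset.sum_pair hp.one_lt.ne, C_one, hCp] at this
    exact this
  refine ⟨h1, fun y hy => ?_⟩
  have hy3 : 3 ≤ orderOf y := by
    rw [hy]
    nlinarith
  have hCp2 : C G (p ^ 2) = n := hy ▸ h3 y hy3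
  have hdvd : p ^ 2 ∣ Nat.card G := hy ▸ orderOf_dvd_natCard y
  have h2 := frob_sum (G := G) (pow_ne_zero 2 hp.ne_zero) hdvd
  rw [Nat.sum_divisors_prime_pow hp] at h2
  simp only [Finset.sum_range_succ, Finset.sum_range_zero, zero_add, pow_zero, pow_one] at h2
  rw [C_one, hCp, hCp2] at h2
  have h3' : p ∣ 1 + n + n := (dvd_pow_self p two_ne_zero).trans h2
  have h4 : p ∣ n := (Nat.dvd_add_right h1).mp h3'
  have h5 : p ∣ 1 := (Nat.dvd_add_left h4).mp h1
  exact hp.one_lt.ne' (Nat.dvd_one.mp h5)

private theorem prime_pow_dvd {G : Type u} [Group G] [Finite G] {n : ℕ}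
    (h3 : ∀ g : G, 3 ≤ orderOf g → C G (orderOf g) = n) {p k : ℕ} (hp : p.Prime) (hp2 : p ≠ 2) (hk : k ≠ 0)
    (hd : p ^ k ∣ Nat.card G) : p ^ k ∣ 1 + n := by
  classical
  haveI := Fact.mk hp
  have hpd : p ∣ Nat.card G := (dvd_pow_self p hk).trans hd
  obtain ⟨h1, hno⟩ := no_order_sq h3 hp hp2 hpd
  have hp3 : 3 ≤ p := by
    have := hp.two_le
    omega
  obtain ⟨x, hx⟩ := exists_prime_orderOf_dvd_card' (G := G) p hpd
  have hCp : C G p = n := hx ▸ h3 x (by rw [hx]; exact hp3)
  have hzero : ∀ i : ℕ, 2 ≤ i → C G (p ^ i) = 0 := by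
    intro i hi
    rw [C]
    rw [Nat.card_eq_zero]
    left
    refine ⟨fun ⟨g, hg⟩ => ?_⟩
    apply hno (g ^ (p ^ (i - 2)))
    have h2 : p ^ (i - 2) ∣ orderOf g := by
      rw [hg]
      exact pow_dvd_pow p (by omega)
    rw [orderOf_pow_of_dvd (pow_ne_zero _ hp.ne_zero) h2, hg]
    rw [Nat.pow_div (by omega) hp.pos]
    congr 1
    omega
  have h2 := frob_sum (G := G) (pow_ne_zero k hp.ne_zero) hd
  rw [Nat.sum_divisors_prime_pow hp] at h2
  have h4 : ∑ i ∈ Finset.range (k + 1), C G (p ^ i) = 1 + n := by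
    have hk1 : 2 ≤ k + 1 := by omega
    rw [← Finset.sum_range_add_sum_Ico _ hk1]
    rw [Finset.sum_eq_zero (s := Finset.Ico 2 (k + 1))]
    · simp only [Finset.sum_range_succ, Finset.sum_range_zero, zero_add, pow_zero, pow_one, C_one, hCp, add_zero]
    · intro i hi
      exact hzero i (Finset.mem_Ico.mp hi).1
  rwa [h4] at h2

private theorem odd_dvd {G : Type u} [Group G] [Finite G] {n m : ℕ}
    (h3 : ∀ g : G, 3 ≤ orderOf g → C G (orderOf g) = n) (hm : ¬ 2 ∣ m) (hmd : m ∣ Nat.card G) : m ∣ 1 + n := by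
  rw [Nat.dvd_iff_prime_pow_dvd_dvd]
  intro p k hp hpk
  rcases k.eq_zero_or_pos with rfl | hk
  · simp
  have hpm : p ∣ m := (dvd_pow_self p hk.ne').trans hpk
  have hp2 : p ≠ 2 := by
    rintro rfl
    exact hm hpm
  exact prime_pow_dvd h3 hp hp2 hk.ne' (hpk.trans hmd)


private theorem uniqueP_of_unique {X : Type*} [Group X] [Finite X]
    (h : ∀ s t : X, orderOf s = 2 → orderOf t = 2 → s = t) : UniqueP 2 X := by
  haveI hf2 : Fact (Nat.Prime 2) := ⟨Nat.prime_two⟩
  intro A B hA hB
  have hgen : ∀ L : Subgroup X, Nat.card L = 2 → ∃ a : X, orderOf a = 2 ∧ L = zpowers a := by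
    intro L hL
    obtain ⟨x, hx⟩ := exists_prime_orderOf_dvd_card' (G := L) 2 (by rw [hL])
    refine ⟨x, by rw [Subgroup.orderOf_coe]; exact hx, ?_⟩
    refine (Subgroup.eq_of_le_of_card_ge ((Subgroup.zpowers_le).mpr x.2) ?_).symm
    rw [hL, Nat.card_zpowers, Subgroup.orderOf_coe, hx]
  obtain ⟨a, ha, rfl⟩ := hgen A hA
  obtain ⟨b, hb, rfl⟩ := hgen B hB
  rw [h a b ha hb]

private theorem case_two {G : Type u} [Group G] [Finite G] {n m p : ℕ} (hn : 0 < n)
    (h3 : ∀ g : G, 3 ≤ orderOf g → C G (orderOf g) = n) (hC2 : C G 2 = 1) {z : G} (hzo : orderOf z = 2)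
    (hzc : ∀ g : G, g * z = z * g) (hN : Nat.card G = 2 * m) (hm2 : ¬ 2 ∣ m) (hmd : m ∣ 1 + n) (hp : p.Prime)
    (hpm : p ∣ m) :
    ∃ (p : ℕ) (P : Type) (_ : Group P) (_ : Finite P), p.Prime ∧ p ≠ 2 ∧ IsPGroup p P ∧ Monoid.exponent P = p ∧
        Nonempty (G ≃* Multiplicative (ZMod 2) × P) := by
  classical
  letI : Fintype G := Fintype.ofFinite G
  haveI hf2 : Fact (Nat.Prime 2) := ⟨Nat.prime_two⟩
  haveI hfp : Fact p.Prime := ⟨hp⟩
  have hp2 : p ≠ 2 := by
    rintro rfl
    exact hm2 hpm
  have hp3 : 3 ≤ p := by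
    have := hp.two_le
    omega
  have hcount := card_eq_J h3
  rw [hC2, hN] at hcount
  set J := (Finset.univ.image (orderOf : G → ℕ)).filter (3 ≤ ·) with hJ
  have hmemJ : ∀ g : G, 3 ≤ orderOf g → orderOf g ∈ J := by
    intro g hg
    simp only [hJ, Finset.mem_filter, Finset.mem_image, Finset.mem_univ, true_and]
    exact ⟨⟨g, rfl⟩, hg⟩
  have hpN : p ∣ Nat.card G := by
    rw [hN]
    exact hpm.trans (dvd_mul_left _ _)
  obtain ⟨x, hx⟩ := exists_prime_orderOf_dvd_card' (G := G) p hpN
  have hpJ : p ∈ J := hx ▸ hmemJ x (by rw [hx]; exact hp3)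
  have hzx : orderOf (z * x) = 2 * p := by
    have hc : Commute z x := (hzc x).symm
    rw [hc.orderOf_mul_eq_mul_orderOf_of_coprime (by
      rw [hzo, hx]
      exact (Nat.coprime_primes Nat.prime_two hp).mpr hp2.symm), hzo, hx]
  have h2pJ : 2 * p ∈ J := hzx ▸ hmemJ (z * x) (by rw [hzx]; omega)
  have hsubJ : ({p, 2 * p} : Finset ℕ) ⊆ J := by
    intro d hd
    simp only [Finset.mem_insert, Finset.mem_singleton] at hd
    rcases hd with rfl | rfl
    · exact hpJ
    · exact h2pJ
  have hcard2 : ({p, 2 * p} : Finset ℕ).card = 2 := Finset.card_pair (by omega)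
  have hJ2 : 2 ≤ J.card := hcard2 ▸ Finset.card_le_card hsubJ
  have hle1 : 2 * n ≤ J.card * n := Nat.mul_le_mul_right n hJ2
  have hmle : m ≤ 1 + n := Nat.le_of_dvd (by omega) hmd
  have hmeq : m = 1 + n := by omega
  have hJn : J.card * n = 2 * n := by omega
  have hJc : J.card = 2 := Nat.eq_of_mul_eq_mul_right hn hJn
  have hJeq : ({p, 2 * p} : Finset ℕ) = J := Finset.eq_of_subset_of_card_le hsubJ (by rw [hJc, hcard2])
  have hord : ∀ g : G, orderOf g = 1 ∨ orderOf g = 2 ∨ orderOf g = p ∨ orderOf g = 2 * p := by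
    intro g
    by_cases hg : 3 ≤ orderOf g
    · have := hmemJ g hg
      rw [← hJeq] at this
      simp only [Finset.mem_insert, Finset.mem_singleton] at this
      tauto
    · have := orderOf_pos g
      omega
  have hm0 : m ≠ 0 := by omega
  have hq : ∀ q : ℕ, q.Prime → q ∣ m → q = p := by
    intro q hq hqm
    haveI := Fact.mk hq
    have hq2 : q ≠ 2 := by
      rintro rfl
      exact hm2 hqm
    have hq3 : 3 ≤ q := by
      have := hq.two_le
      omega
    obtain ⟨y, hy⟩ := exists_prime_orderOf_dvd_card' (G := G) q (by rw [hN]; exact hqm.trans (dvd_mul_left _ _))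
    have hqJ : q ∈ J := hy ▸ hmemJ y (by rw [hy]; exact hq3)
    rw [← hJeq] at hqJ
    simp only [Finset.mem_insert, Finset.mem_singleton] at hqJ
    rcases hqJ with h | h
    · exact h
    · exfalso
      have : 2 ∣ q := by rw [h]; exact dvd_mul_right _ _
      exact hq2 ((Nat.prime_dvd_prime_iff_eq Nat.prime_two hq).mp this).symm
  have hmv := Nat.eq_prime_pow_of_unique_prime_dvd hm0 (fun {d} hd hdv => hq d hd hdv)
  set v := m.primeFactorsList.length with hv
  let P : Sylow p G := default
  obtain ⟨w, hw⟩ := IsPGroup.iff_card.mp P.isPGroup'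
  have hPm : Nat.card P = m := by
    have h1 : p ^ v ∣ Nat.card P := by
      apply Sylow.pow_dvd_card_of_pow_dvd_card P
      rw [hN, ← hmv]
      exact dvd_mul_left _ _
    have h2 : Nat.card P ∣ 2 * p ^ v := by
      rw [← hmv, ← hN]
      exact Subgroup.card_subgroup_dvd_card (P : Subgroup G)
    have h3' : (Nat.card P).Coprime 2 := by
      rw [hw]
      exact ((Nat.coprime_primes hp Nat.prime_two).mpr hp2).pow_left w
    have h4 := h3'.dvd_of_dvd_mul_left h2
    rw [hmv]
    exact Nat.dvd_antisymm h4 h1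
  have hidx : (P : Subgroup G).index = 2 := by
    have h1 := (P : Subgroup G).index_mul_card
    have h2 : Nat.card (P : Subgroup G) = m := hPm
    rw [h2, hN] at h1
    have hmpos : 0 < m := Nat.pos_of_ne_zero hm0
    exact Nat.eq_of_mul_eq_mul_right hmpos h1
  have hznot : z ∉ (P : Subgroup G) := by
    intro h
    have h1 : orderOf z ∣ Nat.card (P : Subgroup G) := Subgroup.orderOf_dvd_natCard _ h
    rw [hzo, hw] at h1
    have h2 := Nat.prime_two.dvd_of_dvd_pow h1
    exact hp2 ((Nat.prime_dvd_prime_iff_eq Nat.prime_two hp).mp h2).symm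
  have hexpP : ∀ y ∈ (P : Subgroup G), y ^ p = 1 := by
    intro y hy
    obtain ⟨i, hi⟩ := exists_orderOf_of_mem_isPGroup P.isPGroup' hy
    have hodd : ¬ 2 ∣ orderOf y := by
      intro h
      rw [hi] at h
      have h2 := Nat.prime_two.dvd_of_dvd_pow h
      exact hp2 ((Nat.prime_dvd_prime_iff_eq Nat.prime_two hp).mp h2).symm
    rw [← orderOf_dvd_iff_pow_eq_one]
    rcases hord y with h | h | h | h
    · rw [h]; exact one_dvd _
    · exact absurd (by rw [h]) hodd
    · rw [h]
    · exact absurd (by rw [h]; exact dvd_mul_right _ _) hodd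
  -- the exponent
  have hpgt : ∃ y ∈ (P : Subgroup G), y ≠ 1 := by
    refine ⟨x, ?_, ?_⟩
    · have hnorm : (P : Subgroup G).Normal := Subgroup.normal_of_index_eq_two hidx
      obtain ⟨Q, hQ⟩ := (isPGroup_zpowers_iff (p := p) (x := x)).mpr ⟨1, by rw [hx, pow_one]⟩ |>.exists_le_sylow
      have hQP : Q = P := by
        haveI := Sylow.unique_of_normal P hnorm
        exact Subsingleton.elim _ _
      rw [hQP] at hQ
      exact hQ (mem_zpowers x)
    · rintro rfl
      rw [orderOf_one] at hx
      exact hp.one_lt.ne hx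
  have hexp : Monoid.exponent (P : Subgroup G) = p := by
    have h1 : Monoid.exponent (P : Subgroup G) ∣ p :=
      Monoid.exponent_dvd_of_forall_pow_eq_one (fun y => Subtype.ext (hexpP y y.2))
    rcases (Nat.dvd_prime hp).mp h1 with h | h
    · exfalso
      obtain ⟨y, hy, hy1⟩ := hpgt
      have := Monoid.exp_eq_one_iff.mp h
      have h2 : (⟨y, hy⟩ : (P : Subgroup G)) = 1 := Subsingleton.elim _ _
      exact hy1 (congrArg Subtype.val h2)
    · exact h
  -- the direct product
  have hz2 : z ^ 2 = 1 := orderOf_dvd_iff_pow_eq_one.mp (dvd_of_eq hzo)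
  have hzpow : ∀ a b : ZMod 2, z ^ (a + b).val = z ^ a.val * z ^ b.val := by
    intro a b
    rw [ZMod.val_add, ← pow_add]
    rw [← pow_mod_orderOf z (a.val + b.val), hzo]
  let φ : Multiplicative (ZMod 2) × (P : Subgroup G) →* G :=
    { toFun := fun u => z ^ (Multiplicative.toAdd u.1).val * (u.2 : G)
      map_one' := by
        have : (Multiplicative.toAdd (1 : Multiplicative (ZMod 2))).val = 0 := rfl
        simp [this]
      map_mul' := by
        intro u v
        have h1 : Multiplicative.toAdd (u * v).1 = Multiplicative.toAdd u.1 + Multiplicative.toAdd v.1 := rfl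
        rw [h1, hzpow]
        have hc : Commute (z ^ (Multiplicative.toAdd v.1).val) ((u.2 : G)) :=
          (Commute.pow_left ((hzc (u.2 : G)).symm) _)
        simp only [Prod.snd_mul, Subgroup.coe_mul]
        calc _ = z ^ (Multiplicative.toAdd u.1).val * (z ^ (Multiplicative.toAdd v.1).val * (u.2 : G)) * (v.2 : G) := by
              group
          _ = z ^ (Multiplicative.toAdd u.1).val * ((u.2 : G) * z ^ (Multiplicative.toAdd v.1).val) * (v.2 : G) := by
              rw [hc.eq]
          _ = _ := by group }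
  have hφ : Function.Injective φ := by
    rw [injective_iff_map_eq_one]
    rintro ⟨ε, y⟩ h
    have h1 : z ^ (Multiplicative.toAdd ε).val * (y : G) = 1 := h
    have hv2 : (Multiplicative.toAdd ε).val < 2 := ZMod.val_lt _
    by_cases hv0 : (Multiplicative.toAdd ε).val = 0
    · rw [hv0, pow_zero, one_mul] at h1
      have h2 : y = 1 := Subtype.ext h1
      have h3 : Multiplicative.toAdd ε = 0 := (ZMod.val_eq_zero _).mp hv0
      have h4 : ε = 1 := h3
      rw [h2, h4]
      rfl
    · exfalso
      have hv1 : (Multiplicative.toAdd ε).val = 1 := by omega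
      rw [hv1, pow_one] at h1
      have h2 : z = (y : G)⁻¹ := eq_inv_of_mul_eq_one_left h1
      exact hznot (h2 ▸ (P : Subgroup G).inv_mem y.2)
  have hcardprod : Nat.card (Multiplicative (ZMod 2) × (P : Subgroup G)) = Nat.card G := by
    rw [Nat.card_prod, hN]
    have h1 : Nat.card (Multiplicative (ZMod 2)) = 2 := by
      rw [Nat.card_congr Multiplicative.toAdd, Nat.card_zmod]
    rw [h1]
    congr 1
  have hbij : Function.Bijective φ := (Nat.bijective_iff_injective_and_card φ).mpr ⟨hφ, hcardprod⟩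
  let e₁ : Multiplicative (ZMod 2) × (P : Subgroup G) ≃* G := MulEquiv.ofBijective φ hbij
  -- transport to `Type`
  let e₀ : (P : Subgroup G) ≃ {i : Fin (Nat.card (P : Subgroup G)) // True} :=
    (Finite.equivFin _).trans (Equiv.subtypeUnivEquiv (fun _ => trivial)).symm
  letI grp : Group {i : Fin (Nat.card (P : Subgroup G)) // True} := e₀.symm.group
  let e₂ : (P : Subgroup G) ≃* {i : Fin (Nat.card (P : Subgroup G)) // True} :=
    { toEquiv := e₀
      map_mul' := fun a b => by
        apply e₀.symm.injective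
        show e₀.symm (e₀ (a * b)) = e₀.symm (e₀ (e₀.symm (e₀ a) * e₀.symm (e₀ b)))
        simp }
  refine ⟨p, {i : Fin (Nat.card (P : Subgroup G)) // True}, grp, inferInstance, hp, hp2, IsPGroup.of_equiv P.isPGroup' e₂, ?_, ?_⟩
  · exact (Monoid.exponent_eq_of_mulEquiv e₂).symm.trans hexp
  · exact ⟨e₁.symm.trans (MulEquiv.prodCongr (MulEquiv.refl _) e₂)⟩


private theorem case_B {G : Type u} [Group G] [Finite G] {n : ℕ}
    (h3 : ∀ g : G, 3 ≤ orderOf g → C G (orderOf g) = n) (hC2 : C G 2 = 1) (heven : Even n) (hn : n ≠ 1)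
    (hnpos : 0 < n) {g₀ : G} (hg₀ : C G (orderOf g₀) = n) {z : G} (hzo : orderOf z = 2) :
    Nonempty (G ≃* QuaternionGroup 2) ∨ (IsCyclic G ∧ Nat.card G = 4) ∨
      (∃ (p : ℕ) (P : Type) (_ : Group P) (_ : Finite P), p.Prime ∧ p ≠ 2 ∧ IsPGroup p P ∧ Monoid.exponent P = p ∧
        Nonempty (G ≃* Multiplicative (ZMod 2) × P)) := by
  classical
  letI : Fintype G := Fintype.ofFinite G
  haveI hf2 : Fact (Nat.Prime 2) := ⟨Nat.prime_two⟩
  obtain ⟨r, hr⟩ := heven
  have hz1 : z ≠ 1 := by
    rintro rfl
    rw [orderOf_one] at hzo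
    omega
  -- uniqueness of the involution
  have huniq : ∀ s t : G, orderOf s = 2 → orderOf t = 2 → s = t := by
    intro s t hs ht
    obtain ⟨h1, -⟩ := Nat.card_eq_one_iff_unique.mp hC2
    exact congrArg Subtype.val (h1.elim (⟨s, hs⟩ : {g : G // orderOf g = 2}) ⟨t, ht⟩)
  have hzc : ∀ g : G, g * z = z * g := by
    intro g
    have h1 : g * z * g⁻¹ = z := huniq _ _ (by rw [orderOf_conj_eq]; exact hzo) hzo
    rw [mul_inv_eq_iff_eq_mul] at h1
    exact h1
  -- no elements of order eight
  have hno8 : ∀ y : G, ¬ 8 ∣ orderOf y := by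
    intro x hx8
    set y := x ^ (orderOf x / 8) with hy
    have hy8 : orderOf y = 8 := orderOf_pow_orderOf_div (orderOf_pos x).ne' hx8
    have hy4 : orderOf (y ^ 2) = 4 := by
      rw [orderOf_pow_of_dvd two_ne_zero (by rw [hy8]; norm_num), hy8]
    have hC8 : C G 8 = n := hy8 ▸ h3 y (by rw [hy8]; norm_num)
    have hC4 : C G 4 = n := hy4 ▸ h3 (y ^ 2) (by rw [hy4]; norm_num)
    have hd : 2 ^ 3 ∣ Nat.card G := by
      have : (2 : ℕ) ^ 3 = orderOf y := by rw [hy8]; norm_num
      rw [this]
      exact orderOf_dvd_natCard y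
    have h1 := frob_sum (G := G) (t := 2 ^ 3) (by norm_num) hd
    rw [Nat.sum_divisors_prime_pow Nat.prime_two] at h1
    simp only [Finset.sum_range_succ, Finset.sum_range_zero, zero_add, pow_zero, pow_one] at h1
    norm_num at h1
    rw [C_one, hC2, hC4, hC8] at h1
    omega
  let T : Sylow 2 G := default
  obtain ⟨a, ha⟩ := IsPGroup.iff_card.mp T.isPGroup'
  have hUPT : UniqueP 2 (T : Subgroup G) := uniqueP_of_unique (fun s t hs ht => by
    apply Subtype.ext
    exact huniq _ _ (by rw [Subgroup.orderOf_coe]; exact hs) (by rw [Subgroup.orderOf_coe]; exact ht))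
  -- `a ≤ 3`
  have ha3 : a ≤ 3 := by
    rcases cyclic_or_quaternion T.isPGroup' hUPT with hc | ⟨k, ⟨e⟩⟩
    · obtain ⟨w, hw⟩ := IsCyclic.exists_generator (α := (T : Subgroup G))
      have h1 : orderOf (w : G) = 2 ^ a := by
        rw [Subgroup.orderOf_coe, orderOf_eq_card_of_forall_mem_zpowers hw, ha]
      by_contra hcon
      push Not at hcon
      apply hno8 (w : G)
      rw [h1]
      exact pow_dvd_pow 2 (by omega : 3 ≤ a)
    · haveI hne : NeZero (2 ^ k) := ⟨by positivity⟩
      have h1 : Nat.card (T : Subgroup G) = 4 * 2 ^ k := by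
        rw [Nat.card_congr e.toEquiv, Nat.card_eq_fintype_card, QuaternionGroup.card]
      have h2 : orderOf ((e.symm (QuaternionGroup.a 1) : (T : Subgroup G)) : G) = 2 * 2 ^ k := by
        rw [Subgroup.orderOf_coe, MulEquiv.orderOf_eq, QuaternionGroup.orderOf_a_one]
      have hk : k ≤ 1 := by
        by_contra hcon
        push Not at hcon
        apply hno8 ((e.symm (QuaternionGroup.a 1) : (T : Subgroup G)) : G)
        rw [h2]
        obtain ⟨j, rfl⟩ : ∃ j, k = j + 2 := ⟨k - 2, by omega⟩
        exact ⟨2 ^ j, by rw [pow_add]; ring⟩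
      have h3' : 2 ^ a ≤ 2 ^ 3 := by
        rw [← ha, h1]
        interval_cases k <;> norm_num
      exact (Nat.pow_le_pow_iff_right (by norm_num)).mp h3'
  set m := (T : Subgroup G).index with hm
  have hNm : Nat.card G = m * 2 ^ a := by
    rw [← ha, hm]
    exact (T : Subgroup G).index_mul_card.symm
  have hm2 : ¬ 2 ∣ m := T.not_dvd_index
  have hm0 : m ≠ 0 := by
    rintro hm0
    rw [hm0] at hm2
    exact hm2 (dvd_zero 2)
  have ha0 : a ≠ 0 := by
    rintro rfl
    rw [pow_zero, mul_one] at hNm
    apply hm2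
    rw [← hNm]
    exact hzo ▸ orderOf_dvd_natCard z
  have hmN : m ∣ Nat.card G := by
    rw [hNm]
    exact dvd_mul_right _ _
  have hmd : m ∣ 1 + n := odd_dvd h3 hm2 hmN
  have hcount := card_eq_J h3
  rw [hC2] at hcount
  set J := (Finset.univ.image (orderOf : G → ℕ)).filter (3 ≤ ·) with hJ
  have hmemJ : ∀ g : G, 3 ≤ orderOf g → orderOf g ∈ J := by
    intro g hg
    simp only [hJ, Finset.mem_filter, Finset.mem_image, Finset.mem_univ, true_and]
    exact ⟨⟨g, rfl⟩, hg⟩
  have hJdvd : J ⊆ (Nat.card G).divisors.filter (3 ≤ ·) := by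
    intro d hd
    simp only [hJ, Finset.mem_filter, Finset.mem_image, Finset.mem_univ, true_and] at hd
    obtain ⟨⟨g, rfl⟩, hle⟩ := hd
    simp only [Finset.mem_filter, Nat.mem_divisors]
    exact ⟨⟨orderOf_dvd_natCard g, Nat.card_pos.ne'⟩, hle⟩
  have hg₀3 : 3 ≤ orderOf g₀ := by
    have h1 := orderOf_pos g₀
    have h2 : orderOf g₀ ≠ 1 := by
      intro h'
      rw [h', C_one] at hg₀
      exact hn hg₀.symm
    have h3' : orderOf g₀ ≠ 2 := by
      intro h'
      rw [h', hC2] at hg₀
      exact hn hg₀.symm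
    omega
  have hUPG : UniqueP 2 G := uniqueP_of_unique huniq
  by_cases hm1 : m = 1
  · -- `G` is a `2`-group
    have hG2 : Nat.card G = 2 ^ a := by rw [hNm, hm1, one_mul]
    have hGp : IsPGroup 2 G := IsPGroup.of_card hG2
    have hcases : a = 1 ∨ a = 2 ∨ a = 3 := by omega
    rcases hcases with rfl | rfl | rfl
    · exfalso
      have h1 := Nat.le_of_dvd (by rw [hG2]; norm_num) (orderOf_dvd_natCard g₀)
      rw [hG2] at h1
      omega
    · right
      left
      refine ⟨?_, by rw [hG2]; norm_num⟩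
      rcases cyclic_or_quaternion hGp hUPG with hc | ⟨k, ⟨e⟩⟩
      · exact hc
      · haveI hne : NeZero (2 ^ k) := ⟨by positivity⟩
        have h1 : Nat.card G = 4 * 2 ^ k := by
          rw [Nat.card_congr e.toEquiv, Nat.card_eq_fintype_card, QuaternionGroup.card]
        have hk : k = 0 := by
          by_contra hne0
          have : 2 ≤ 2 ^ k := by
            calc 2 = 2 ^ 1 := by norm_num
              _ ≤ 2 ^ k := Nat.pow_le_pow_right (by norm_num) (by omega)
          rw [hG2] at h1
          omega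
        subst hk
        apply isCyclic_of_orderOf_eq_card (e.symm (QuaternionGroup.xa 0))
        rw [MulEquiv.orderOf_eq, QuaternionGroup.orderOf_xa, hG2]
        norm_num
    · left
      rcases cyclic_or_quaternion hGp hUPG with hc | ⟨k, ⟨e⟩⟩
      · exfalso
        obtain ⟨w, hw⟩ := IsCyclic.exists_generator (α := G)
        apply hno8 w
        rw [orderOf_eq_card_of_forall_mem_zpowers hw, hG2]
        norm_num
      · haveI hne : NeZero (2 ^ k) := ⟨by positivity⟩
        have h1 : Nat.card G = 4 * 2 ^ k := by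
          rw [Nat.card_congr e.toEquiv, Nat.card_eq_fintype_card, QuaternionGroup.card]
        rw [hG2] at h1
        have hk : 2 ^ k = 2 ^ 1 := by omega
        have hk' : k = 1 := Nat.pow_right_injective (le_refl 2) hk
        subst hk'
        exact ⟨e⟩
  -- a proper odd part
  right
  right
  have hm3 : 3 ≤ m := by
    have h1 : m ≠ 2 := by
      rintro h'
      rw [h'] at hm2
      exact hm2 (dvd_refl 2)
    omega
  set p := m.minFac with hp
  have hpp : p.Prime := Nat.minFac_prime hm1
  have hpm : p ∣ m := Nat.minFac_dvd m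
  haveI hfp : Fact p.Prime := ⟨hpp⟩
  have hp2 : p ≠ 2 := by
    intro h'
    rw [h'] at hpm
    exact hm2 hpm
  have hcases : a = 1 ∨ a = 2 ∨ a = 3 := by omega
  rcases hcases with rfl | rfl | rfl
  · exact case_two hnpos h3 hC2 hzo hzc (by rw [hNm]; ring) hm2 hmd hpp hpm
  all_goals exfalso
  all_goals
    have hp3 : 3 ≤ p := by
      have := hpp.two_le
      omega
    obtain ⟨x, hx⟩ := exists_prime_orderOf_dvd_card' (G := G) p (hpm.trans hmN)
    have hpJ : p ∈ J := hx ▸ hmemJ x (by rw [hx]; exact hp3)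
    have hzx : orderOf (z * x) = 2 * p := by
      have hc : Commute z x := (hzc x).symm
      rw [hc.orderOf_mul_eq_mul_orderOf_of_coprime (by
        rw [hzo, hx]
        exact (Nat.coprime_primes Nat.prime_two hpp).mpr hp2.symm), hzo, hx]
    have h2pJ : 2 * p ∈ J := hzx ▸ hmemJ (z * x) (by rw [hzx]; omega)
    -- elements of order four
    have h4N : 2 ^ 2 ∣ Nat.card G := by
      rw [hNm]
      first
        | exact Dvd.intro_left _ rfl
        | exact ⟨m * 2, by ring⟩
    have hC4 : C G 4 ≠ 0 := by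
      intro h0
      have h1 := frob_sum (G := G) (t := 2 ^ 2) (by norm_num) h4N
      rw [Nat.sum_divisors_prime_pow Nat.prime_two] at h1
      simp only [Finset.sum_range_succ, Finset.sum_range_zero, zero_add, pow_zero, pow_one] at h1
      norm_num at h1
      rw [C_one, hC2, h0] at h1
      omega
    obtain ⟨y, hy⟩ : ∃ y : G, orderOf y = 4 := by
      by_contra hcon
      push Not at hcon
      apply hC4
      rw [C, Nat.card_eq_zero]
      left
      exact ⟨fun u => hcon u.1 u.2⟩
    have h4J : 4 ∈ J := hy ▸ hmemJ y (by rw [hy]; norm_num)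
    have hsubJ : ({p, 2 * p, 4} : Finset ℕ) ⊆ J := by
      intro d hd
      simp only [Finset.mem_insert, Finset.mem_singleton] at hd
      rcases hd with rfl | rfl | rfl
      · exact hpJ
      · exact h2pJ
      · exact h4J
    have hp4 : p ≠ 4 := by
      intro h'
      rw [h'] at hpp
      exact absurd hpp (by norm_num)
    have hcard3 : ({p, 2 * p, 4} : Finset ℕ).card = 3 := by
      rw [Finset.card_insert_of_notMem, Finset.card_pair (by omega)]
      simp only [Finset.mem_insert, Finset.mem_singleton, not_or]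
      omega
    have hJ3 : 3 ≤ J.card := hcard3 ▸ Finset.card_le_card hsubJ
    have hle3 : 3 * n ≤ J.card * n := Nat.mul_le_mul_right n hJ3
    obtain ⟨k, hk⟩ := hmd
    rw [hNm] at hcount
  · -- `a = 2`
    have hk1 : k = 1 := by
      by_contra hne
      have hk0 : k ≠ 0 := by
        rintro rfl
        omega
      have : m * 2 ≤ m * k := Nat.mul_le_mul_left m (by omega)
      omega
    subst hk1
    rw [mul_one] at hk
    have hjn : J.card * n = 4 * n + 2 := by omega
    have hn2 : n ∣ 2 := by
      have h1 : n ∣ 4 * n + 2 := ⟨J.card, by rw [← hjn]; ring⟩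
      exact (Nat.dvd_add_right (dvd_mul_left n 4)).mp h1
    have hn2' : n = 2 := by
      rcases (Nat.dvd_prime Nat.prime_two).mp hn2 with h | h
      · exact absurd h hn
      · exact h
    subst hn2'
    have hN12 : Nat.card G = 12 := by rw [hNm]; omega
    have hJc : J.card = 5 := by omega
    rw [hN12] at hJdvd
    have := Finset.card_le_card hJdvd
    rw [hJc] at this
    exact absurd this (by decide)
  · -- `a = 3`
    have hk1 : k = 1 := by
      by_contra hne
      have hk0 : k ≠ 0 := by
        rintro rfl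
        omega
      by_cases hk2 : k = 2
      · subst hk2
        omega
      · have : m * 3 ≤ m * k := Nat.mul_le_mul_left m (by omega)
        omega
    subst hk1
    rw [mul_one] at hk
    have hjn : J.card * n = 8 * n + 6 := by omega
    have hn6 : n ∣ 6 := by
      have h1 : n ∣ 8 * n + 6 := ⟨J.card, by rw [← hjn]; ring⟩
      exact (Nat.dvd_add_right (dvd_mul_left n 8)).mp h1
    have hcases : n = 2 ∨ n = 6 := by
      have h6 : n ≤ 6 := Nat.le_of_dvd (by norm_num) hn6
      interval_cases n <;> omega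
    rcases hcases with rfl | rfl
    · have hN24 : Nat.card G = 24 := by rw [hNm]; omega
      have hJc : J.card = 11 := by omega
      rw [hN24] at hJdvd
      have := Finset.card_le_card hJdvd
      rw [hJc] at this
      exact absurd this (by decide)
    · have hN56 : Nat.card G = 56 := by rw [hNm]; omega
      have hJc : J.card = 9 := by omega
      rw [hN56] at hJdvd
      have := Finset.card_le_card hJdvd
      rw [hJc] at this
      exact absurd this (by decide)


/-- Let G be a finite group such that the numbers of elements of each order that occurs in G (the numbers #{g : o(g) = m}, m ranging over the element orders of G) take exactly two values, 1 and some n ≠ 1. Then either G is a p-group of exponent p and order at least 3 for some prime p, or G is the quaternion group of order 8, or G is cyclic of order 4, or G ≅ Z₂ × P for a p-group P of exponent p with p an odd prime. -/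
theorem result {G : Type*} [Group G] [Finite G] (n : ℕ) (hn : n ≠ 1) (h : ((fun m : ℕ => Nat.card {g : G // orderOf g = m}) '' Set.range (orderOf : G → ℕ)) = {1, n}) :
    (∃ p : ℕ, p.Prime ∧ IsPGroup p G ∧ 3 ≤ Nat.card G ∧ Monoid.exponent G = p) ∨
      Nonempty (G ≃* QuaternionGroup 2) ∨ (IsCyclic G ∧ Nat.card G = 4) ∨
      (∃ (p : ℕ) (P : Type) (_ : Group P) (_ : Finite P), p.Prime ∧ p ≠ 2 ∧ IsPGroup p P ∧ Monoid.exponent P = p ∧
        Nonempty (G ≃* Multiplicative (ZMod 2) × P)) := by
  classical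
  letI : Fintype G := Fintype.ofFinite G
  haveI hf2 : Fact (Nat.Prime 2) := ⟨Nat.prime_two⟩
  have hmem : ∀ g : G, C G (orderOf g) = 1 ∨ C G (orderOf g) = n := fun g => by
    have h1 : C G (orderOf g) ∈ ({1, n} : Set ℕ) := h ▸ ⟨orderOf g, ⟨g, rfl⟩, rfl⟩
    simpa using h1
  obtain ⟨g₀, hg₀⟩ : ∃ g : G, C G (orderOf g) = n := by
    have h1 : n ∈ ((fun m : ℕ => Nat.card {g : G // orderOf g = m}) '' Set.range (orderOf : G → ℕ)) := by
      rw [h]
      simp
    obtain ⟨_, ⟨g, rfl⟩, hg⟩ := h1
    exact ⟨g, hg⟩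
  have hnpos : 0 < n := hg₀ ▸ C_pos g₀
  have h3 : ∀ g : G, 3 ≤ orderOf g → C G (orderOf g) = n := by
    intro g hg
    rcases hmem g with h1 | h1
    · exfalso
      have := C_even (G := G) hg
      rw [h1] at this
      exact absurd this (by decide)
    · exact h1
  have hcount := card_eq_J h3
  set J := (Finset.univ.image (orderOf : G → ℕ)).filter (3 ≤ ·) with hJ
  have hg₀1 : orderOf g₀ ≠ 1 := by
    intro h1
    rw [h1, C_one] at hg₀
    exact hn hg₀.symm
  by_cases hnodd : Odd n
  · -- all elements have order at most two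
    left
    have hle : ∀ g : G, orderOf g < 3 := by
      intro g
      by_contra hcon
      push Not at hcon
      have h1 := h3 g hcon
      have h2 := C_even (G := G) hcon
      rw [h1] at h2
      exact (Nat.not_even_iff_odd.mpr hnodd) h2
    have hsq : ∀ g : G, g ^ 2 = 1 := by
      intro g
      have h1 := hle g
      have h2 := orderOf_pos g
      have h3' : orderOf g ∣ 2 := by
        have : orderOf g = 1 ∨ orderOf g = 2 := by omega
        rcases this with h | h <;> rw [h]
        exact one_dvd _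
      exact orderOf_dvd_iff_pow_eq_one.mp h3'
    have hJempty : J = ∅ := by
      rw [Finset.eq_empty_iff_forall_notMem]
      intro d hd
      simp only [hJ, Finset.mem_filter, Finset.mem_image, Finset.mem_univ, true_and] at hd
      obtain ⟨⟨g, rfl⟩, hge⟩ := hd
      have := hle g
      omega
    have hg₀2 : orderOf g₀ = 2 := by
      have h1 := hle g₀
      have h2 := orderOf_pos g₀
      omega
    have hC2 : C G 2 = n := hg₀2 ▸ hg₀
    rw [hJempty, Finset.card_empty, zero_mul, add_zero, hC2] at hcount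
    obtain ⟨r, hr⟩ := hnodd
    refine ⟨2, Nat.prime_two, fun g => ⟨1, by rw [pow_one]; exact hsq g⟩, by omega, ?_⟩
    have h1 : Monoid.exponent G ∣ 2 := Monoid.exponent_dvd_of_forall_pow_eq_one hsq
    rcases (Nat.dvd_prime Nat.prime_two).mp h1 with h' | h'
    · exfalso
      have := Monoid.exp_eq_one_iff.mp h'
      rw [Subsingleton.elim g₀ 1, orderOf_one] at hg₀2
      omega
    · exact h'
  have heven : Even n := Nat.not_odd_iff_even.mp hnodd
  by_cases hz : C G 2 = 0
  · -- no involutions
    left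
    have hno2 : ¬ 2 ∣ Nat.card G := by
      intro hd
      obtain ⟨x, hx⟩ := exists_prime_orderOf_dvd_card' (G := G) 2 hd
      have := C_pos x
      rw [hx, hz] at this
      exact lt_irrefl _ this
    have hdvd := odd_dvd h3 hno2 (dvd_refl _)
    have hle := Nat.le_of_dvd (by omega) hdvd
    have hnot2 : ∀ g : G, orderOf g ≠ 2 := by
      intro g hg
      have := C_pos g
      rw [hg, hz] at this
      exact lt_irrefl _ this
    have hmemJ : ∀ g : G, g ≠ 1 → orderOf g ∈ J := by
      intro g hg
      simp only [hJ, Finset.mem_filter, Finset.mem_image, Finset.mem_univ, true_and]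
      refine ⟨⟨g, rfl⟩, ?_⟩
      have h1 := orderOf_pos g
      have h2 := hnot2 g
      have h3' : orderOf g ≠ 1 := fun h => hg (orderOf_eq_one_iff.mp h)
      omega
    have hg₀ne : g₀ ≠ 1 := by
      rintro rfl
      exact hg₀1 orderOf_one
    have hJ1 : 1 ≤ J.card := Finset.card_pos.mpr ⟨_, hmemJ g₀ hg₀ne⟩
    rw [hz, add_zero] at hcount
    have hJle : J.card * n ≤ 1 * n := by
      rw [one_mul]
      omega
    have hJc : J.card = 1 := le_antisymm (Nat.le_of_mul_le_mul_right hJle hnpos) hJ1
    obtain ⟨d₀, hd₀⟩ := Finset.card_eq_one.mp hJc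
    have hall : ∀ g : G, g ≠ 1 → orderOf g = d₀ := by
      intro g hg
      have := hmemJ g hg
      rw [hd₀] at this
      simpa using this
    have hg₀d : orderOf g₀ = d₀ := hall g₀ hg₀ne
    have hd₀1 : d₀ ≠ 1 := hg₀d ▸ hg₀1
    have hprime : d₀.Prime := by
      have hq := Nat.minFac_prime hd₀1
      have hqd := Nat.minFac_dvd d₀
      have h1 : orderOf (g₀ ^ (orderOf g₀ / d₀.minFac)) = d₀.minFac :=
        orderOf_pow_orderOf_div (orderOf_pos g₀).ne' (hg₀d ▸ hqd)
      have h2 : g₀ ^ (orderOf g₀ / d₀.minFac) ≠ 1 := by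
        intro h'
        rw [h', orderOf_one] at h1
        exact hq.one_lt.ne h1
      have h3' := hall _ h2
      rw [h1] at h3'
      rw [← h3']
      exact hq
    have hpow : ∀ g : G, g ^ d₀ = 1 := by
      intro g
      by_cases hg : g = 1
      · rw [hg, one_pow]
      · rw [← hall g hg]
        exact pow_orderOf_eq_one g
    refine ⟨d₀, hprime, fun g => ⟨1, by rw [pow_one]; exact hpow g⟩, ?_, ?_⟩
    · have : 2 ≤ n := by omega
      rw [hJc, one_mul] at hcount
      omega
    · have h1 : Monoid.exponent G ∣ d₀ := Monoid.exponent_dvd_of_forall_pow_eq_one hpow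
      rcases (Nat.dvd_prime hprime).mp h1 with h' | h'
      · exfalso
        have := Monoid.exp_eq_one_iff.mp h'
        exact hg₀ne (Subsingleton.elim _ _)
      · exact h'
  -- the unique involution
  right
  obtain ⟨z, hzo⟩ : ∃ z : G, orderOf z = 2 := by
    by_contra hcon
    push Not at hcon
    apply hz
    rw [C, Nat.card_eq_zero]
    left
    exact ⟨fun x => hcon x.1 x.2⟩
  have h2N : 2 ∣ Nat.card G := hzo ▸ orderOf_dvd_natCard z
  have hC2 : C G 2 = 1 := by
    rcases hmem z with h1 | h1
    · rwa [hzo] at h1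
    · exfalso
      rw [hzo] at h1
      have h2 := frob_sum (G := G) (t := 2) two_ne_zero h2N
      rw [Nat.prime_two.divisors, Finset.sum_pair (by norm_num), C_one, h1] at h2
      obtain ⟨r, hr⟩ := heven
      omega
  exact case_B h3 hC2 heven hn hnpos hg₀ hzo

end Cfsg.Agent.S3995
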