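import Cfsg.Statements.S3996
import Cfsg.Agent.Lib.PGroups.OrderCount2

set_option autoImplicit false
open Cfsg

namespace Cfsg.Agent.S3996

section aux
open Cfsg.Agent.Lib.PGroups Cfsg.Agent.Lib.PGroups.OrderCount

private theorem solv_of_central_two {G : Type*} [Group G] [Finite G] (hc2 : oc G 2 = 1) {p q : ℕ}
    (hp : p.Prime) (hq : q.Prime) (h4 : ¬ 4 ∣ Nat.card G)
    (hprime : ∀ r : ℕ, r.Prime → r ∣ Nat.card G → r = 2 ∨ r = p ∨ r = q) : Group.IsSolvable G := by
  obtain ⟨z, hz⟩ := oc_ne_zero_iff.mp (by rw [hc2]; norm_num : oc G 2 ≠ 0)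
  have hu : ∀ w : G, orderOf w = 2 → w = z := by
    intro w hw
    have h3 : Nat.card {g : G // orderOf g = 2} = 1 := hc2
    rw [Nat.card_eq_one_iff_unique] at h3
    have := h3.1.elim ⟨w, hw⟩ ⟨z, hz⟩
    exact congrArg Subtype.val this
  have hzc : ∀ g : G, g * z * g⁻¹ = z := fun g => hu _ (by rw [orderOf_conj_eq]; exact hz)
  let N : Subgroup G := Subgroup.zpowers z
  haveI hN : N.Normal := by
    refine ⟨fun n hn g => ?_⟩
    obtain ⟨i, rfl⟩ := Subgroup.mem_zpowers_iff.mp hn
    rw [← conj_zpow, hzc]
    exact Subgroup.zpow_mem_zpowers z i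
  have hcN : Nat.card N = 2 := by
    show Nat.card (Subgroup.zpowers z) = 2
    rw [Nat.card_zpowers, hz]
  have hcard : Nat.card G = Nat.card (G ⧸ N) * 2 := by
    have := Subgroup.card_eq_card_quotient_mul_card_subgroup N
    rwa [hcN] at this
  have hsub : (Nat.card (G ⧸ N)).primeFactors ⊆ {p, q} := by
    intro d hd
    have hdp := Nat.prime_of_mem_primeFactors hd
    have hdd := Nat.dvd_of_mem_primeFactors hd
    simp only [Finset.mem_insert, Finset.mem_singleton]
    rcases hprime d hdp (by rw [hcard]; exact hdd.mul_right 2) with h | h | h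
    · exfalso
      apply h4
      rw [hcard]
      rw [h] at hdd
      obtain ⟨k, hk⟩ := hdd
      exact ⟨k, by rw [hk]; ring⟩
    · exact Or.inl h
    · exact Or.inr h
  haveI := isSolvable_of_primeFactors_subset hp hq hsub
  haveI : Group.IsSolvable N := by
    apply Group.isSolvable_of_comm
    rintro ⟨_, hx⟩ ⟨_, hy⟩
    obtain ⟨i, rfl⟩ := Subgroup.mem_zpowers_iff.mp hx
    obtain ⟨j, rfl⟩ := Subgroup.mem_zpowers_iff.mp hy
    apply Subtype.ext
    exact zpow_mul_comm z i j
  exact Group.isSolvable_of_ker_le_range N.subtype (QuotientGroup.mk' N)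
    (by rw [QuotientGroup.ker_mk', Subgroup.range_subtype])

private theorem main_three {G : Type*} [Group G] [Finite G]
    (h : (((fun m : ℕ => Nat.card {g : G // orderOf g = m}) '' Set.range (orderOf : G → ℕ))).ncard = 3) :
    Group.IsSolvable G := by
  classical
  set V := ((fun m : ℕ => Nat.card {g : G // orderOf g = m}) '' Set.range (orderOf : G → ℕ)) with hV
  have hmem : ∀ m, oc G m ≠ 0 → oc G m ∈ V := by
    intro m hm
    obtain ⟨g, hg⟩ := oc_ne_zero_iff.mp hm
    exact ⟨m, ⟨g, hg⟩, rfl⟩
  have h1V : (1 : ℕ) ∈ V := by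
    have := hmem 1 (by rw [oc_one]; norm_num)
    rwa [oc_one] at this
  have hev : ∀ m, 3 ≤ m → Even (oc G m) := by
    intro m hm
    have h1 := totient_dvd_oc (G := G) m
    have h2 := Nat.totient_even (by omega : 2 < m)
    exact (even_iff_two_dvd.mpr (h2.two_dvd.trans h1))
  obtain ⟨a, b, hab, ha1, hb1, hVeq⟩ : ∃ a b : ℕ, a ≠ b ∧ a ≠ 1 ∧ b ≠ 1 ∧ V = {1, a, b} := by
    obtain ⟨x, y, z, hxy, hxz, hyz, hVe⟩ := Set.ncard_eq_three.mp h
    rw [hVe] at h1V
    simp only [Set.mem_insert_iff, Set.mem_singleton_iff] at h1V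
    rcases h1V with rfl | rfl | rfl
    · exact ⟨y, z, hyz, hxy.symm, hxz.symm, hVe⟩
    · refine ⟨x, z, hxz, hxy, hyz.symm, ?_⟩
      rw [hVe]
      ext t
      simp only [Set.mem_insert_iff, Set.mem_singleton_iff]
      tauto
    · refine ⟨x, y, hxy, hxz, hyz, ?_⟩
      rw [hVe]
      ext t
      simp only [Set.mem_insert_iff, Set.mem_singleton_iff]
      tauto
  have hval : ∀ m, 3 ≤ m → oc G m = 0 ∨ oc G m = a ∨ oc G m = b := by
    intro m hm
    by_cases h0 : oc G m = 0
    · exact Or.inl h0
    right
    have h1 := hmem m h0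
    rw [hVeq] at h1
    simp only [Set.mem_insert_iff, Set.mem_singleton_iff] at h1
    rcases h1 with h1 | h1 | h1
    · exfalso
      have := hev m hm
      rw [h1] at this
      exact absurd this (by decide)
    · exact Or.inl h1
    · exact Or.inr h1
  by_cases hc2 : oc G 2 ≤ 1
  · -- at most one involution
    have hval' : ∀ m, 3 ≤ m → oc G m = 0 ∨ oc G m = b ∨ oc G m = a := by
      intro m hm
      rcases hval m hm with h | h | h
      · exact Or.inl h
      · exact Or.inr (Or.inr h)
      · exact Or.inr (Or.inl h)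
    have h3 : ∀ {r : ℕ}, r.Prime → r ≠ 2 → 3 ≤ r := fun hr hr2 => by
      have := hr.two_le
      omega
    have hvalr : ∀ r : ℕ, r.Prime → r ≠ 2 → r ∣ Nat.card G → oc G r = a ∨ oc G r = b := by
      intro r hr hr2 hrG
      rcases hval r (h3 hr hr2) with h | h | h
      · exact absurd h (oc_prime_ne_zero hr hrG)
      · exact Or.inl h
      · exact Or.inr h
    have hdist : ∀ r s : ℕ, r.Prime → s.Prime → r ≠ 2 → s ≠ 2 → r ≠ s → r ∣ Nat.card G →
        s ∣ Nat.card G → oc G r ≠ oc G s := by
      intro r s hr hs hr2 hs2 hrs hrG hsG he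
      rcases hvalr r hr hr2 hrG with h | h
      · exact no_same_value hval hc2 hr hs hr2 hs2 hrs hrG hsG h (he ▸ h)
      · exact no_same_value hval' hc2 hr hs hr2 hs2 hrs hrG hsG h (he ▸ h)
    by_cases htwo : ∃ p q : ℕ, p.Prime ∧ q.Prime ∧ p ≠ 2 ∧ q ≠ 2 ∧ p ≠ q ∧ p ∣ Nat.card G ∧ q ∣ Nat.card G
    · obtain ⟨p, q, hp, hq, hp2, hq2, hpq, hpG, hqG⟩ := htwo
      have hthird : ∀ r : ℕ, r.Prime → r ∣ Nat.card G → r = 2 ∨ r = p ∨ r = q := by
        intro r hr hrG
        by_contra hne
        push Not at hne
        obtain ⟨hr2, hrp, hrq⟩ := hne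
        have h1 := hdist r p hr hp hr2 hp2 hrp hrG hpG
        have h2 := hdist r q hr hq hr2 hq2 hrq hrG hqG
        have h4 := hdist p q hp hq hp2 hq2 hpq hpG hqG
        rcases hvalr r hr hr2 hrG with h5 | h5 <;> rcases hvalr p hp hp2 hpG with h6 | h6 <;>
          rcases hvalr q hq hq2 hqG with h7 | h7 <;> simp_all
      by_cases hc0 : oc G 2 = 0
      · have h2nd : ¬ 2 ∣ Nat.card G := fun hd => oc_prime_ne_zero Nat.prime_two hd hc0
        apply isSolvable_of_primeFactors_subset hp hq
        intro d hd
        have hdp := Nat.prime_of_mem_primeFactors hd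
        have hdd := Nat.dvd_of_mem_primeFactors hd
        simp only [Finset.mem_insert, Finset.mem_singleton]
        rcases hthird d hdp hdd with h | h | h
        · exact absurd (h ▸ hdd) h2nd
        · exact Or.inl h
        · exact Or.inr h
      · have hc21 : oc G 2 = 1 := by omega
        have hval2 : ∀ m, 3 ≤ m → oc G m = 0 ∨ oc G m = oc G p ∨ oc G m = oc G q := by
          intro m hm
          have hpq' := hdist p q hp hq hp2 hq2 hpq hpG hqG
          rcases hval m hm with h | h | h
          · exact Or.inl h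
          · rcases hvalr p hp hp2 hpG with h6 | h6 <;> rcases hvalr q hq hq2 hqG with h7 | h7
            · exact absurd (h6.trans h7.symm) hpq'
            · exact Or.inr (Or.inl (h.trans h6.symm))
            · exact Or.inr (Or.inr (h.trans h7.symm))
            · exact absurd (h6.trans h7.symm) hpq'
          · rcases hvalr p hp hp2 hpG with h6 | h6 <;> rcases hvalr q hq hq2 hqG with h7 | h7
            · exact absurd (h6.trans h7.symm) hpq'
            · exact Or.inr (Or.inr (h.trans h7.symm))
            · exact Or.inr (Or.inl (h.trans h6.symm))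
            · exact absurd (h6.trans h7.symm) hpq'
        exact solv_of_central_two hc21 hp hq
          (no_four hval2 hc21 hp hq hp2 hq2 hpq hpG hqG rfl rfl) hthird
    · push Not at htwo
      by_cases hex : ∃ r : ℕ, r.Prime ∧ r ≠ 2 ∧ r ∣ Nat.card G
      · obtain ⟨r, hr, hr2, hrG⟩ := hex
        apply isSolvable_of_primeFactors_subset Nat.prime_two hr
        intro d hd
        have hdp := Nat.prime_of_mem_primeFactors hd
        have hdd := Nat.dvd_of_mem_primeFactors hd
        simp only [Finset.mem_insert, Finset.mem_singleton]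
        by_cases hd2 : d = 2
        · exact Or.inl hd2
        · right
          by_contra hne
          exact htwo d r hdp hr hd2 hr2 hne hdd hrG
      · push Not at hex
        apply isSolvable_of_primeFactors_subset Nat.prime_two Nat.prime_two
        intro d hd
        have hdp := Nat.prime_of_mem_primeFactors hd
        have hdd := Nat.dvd_of_mem_primeFactors hd
        simp only [Finset.mem_insert, Finset.mem_singleton, or_self]
        by_contra hne
        exact hex d hdp hne hdd
  · -- several involutions
    have h2ne : oc G 2 ≠ 0 := by omega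
    obtain ⟨t, ht⟩ := oc_ne_zero_iff.mp h2ne
    have h2G : 2 ∣ Nat.card G := by
      rw [← ht]
      exact orderOf_dvd_natCard t
    have hc2odd : ((oc G 2 : ℕ) : ZMod 2) = -1 := one_add_oc_prime Nat.prime_two h2G
    have hc2mem := hmem 2 h2ne
    rw [hVeq] at hc2mem
    simp only [Set.mem_insert_iff, Set.mem_singleton_iff] at hc2mem
    have hodd : ¬ Even (oc G 2) := by
      intro he
      have h1 : ((oc G 2 : ℕ) : ZMod 2) = 0 :=
        (ZMod.natCast_eq_zero_iff _ _).mpr he.two_dvd
      rw [h1] at hc2odd
      revert hc2odd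
      decide
    -- a single remaining value
    obtain ⟨c, hc⟩ : ∃ c : ℕ, ∀ m, 3 ≤ m → oc G m = 0 ∨ oc G m = c := by
      rcases hc2mem with h1 | h1 | h1
      · omega
      · refine ⟨b, fun m hm => ?_⟩
        rcases hval m hm with h | h | h
        · exact Or.inl h
        · exfalso
          have := hev m hm
          rw [h, ← h1] at this
          exact hodd this
        · exact Or.inr h
      · refine ⟨a, fun m hm => ?_⟩
        rcases hval m hm with h | h | h
        · exact Or.inl h
        · exact Or.inr h
        · exfalso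
          have := hev m hm
          rw [h, ← h1] at this
          exact hodd this
    have huniq : ∀ p q : ℕ, p.Prime → q.Prime → p ≠ 2 → q ≠ 2 → p ∣ Nat.card G → q ∣ Nat.card G →
        p = q := by
      intro p q hp hq hp2 hq2 hpG hqG
      by_contra hpq
      haveI : Fact p.Prime := ⟨hp⟩
      have h3p : 3 ≤ p := by have := hp.two_le; omega
      have h3q : 3 ≤ q := by have := hq.two_le; omega
      have hcp : oc G p = c := (hc p h3p).resolve_left (oc_prime_ne_zero hp hpG)
      have hcq : oc G q = c := (hc q h3q).resolve_left (oc_prime_ne_zero hq hqG)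
      have hcm := one_add_oc_prime (G := G) hp hpG
      have h1 := sum_pair (G := G) hp hq hpq hpG
      rw [hcq, ← hcp, hcm] at h1
      have h5 : ((oc G (p * q) : ℕ) : ZMod p) = 1 := by linear_combination h1
      have hone0 : (1 : ZMod p) ≠ 0 := one_ne_zero
      haveI : Fact (2 < p) := ⟨by omega⟩
      rcases hc (p * q) (le_trans h3p (Nat.le_mul_of_pos_right _ hq.pos)) with h6 | h6
      · rw [h6] at h5
        exact hone0 (by simpa using h5.symm)
      · rw [h6, ← hcp, hcm] at h5
        exact ZMod.neg_one_ne_one h5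
    by_cases hex : ∃ r : ℕ, r.Prime ∧ r ≠ 2 ∧ r ∣ Nat.card G
    · obtain ⟨r, hr, hr2, hrG⟩ := hex
      apply isSolvable_of_primeFactors_subset Nat.prime_two hr
      intro d hd
      have hdp := Nat.prime_of_mem_primeFactors hd
      have hdd := Nat.dvd_of_mem_primeFactors hd
      simp only [Finset.mem_insert, Finset.mem_singleton]
      by_cases hd2 : d = 2
      · exact Or.inl hd2
      · exact Or.inr (huniq d r hdp hr hd2 hr2 hdd hrG)
    · push Not at hex
      apply isSolvable_of_primeFactors_subset Nat.prime_two Nat.prime_two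
      intro d hd
      have hdp := Nat.prime_of_mem_primeFactors hd
      have hdd := Nat.dvd_of_mem_primeFactors hd
      simp only [Finset.mem_insert, Finset.mem_singleton, or_self]
      by_contra hne
      exact hex d hdp hne hdd

end aux


/-- A finite group in which the numbers of elements of each order that occurs (the numbers #{g : o(g) = m}, m ranging over the element orders) take exactly three different values is solvable. -/
theorem result {G : Type*} [Group G] [Finite G] (h : (((fun m : ℕ => Nat.card {g : G // orderOf g = m}) '' Set.range (orderOf : G → ℕ))).ncard = 3) : Group.IsSolvable G := by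
  exact main_three h

end Cfsg.Agent.S3996
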