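import Cfsg.Statements.S3997
import Cfsg.Agent.Lib.PGroups.Cyclic

set_option autoImplicit false
open Cfsg

namespace Cfsg.Agent.S3997

open Cfsg.Agent.Lib.PGroups

theorem exists_equiv {G H : Type*} [Group G] [Finite G] [Group H] [Finite H]
    (hT : ∀ m : ℕ, Nat.card {g : G // orderOf g = m} = Nat.card {h : H // orderOf h = m}) :
    ∃ φ : G ≃ H, ∀ g, orderOf (φ g) = orderOf g := by
  classical
  have e : ∀ m : ℕ, {g : G // orderOf g = m} ≃ {h : H // orderOf h = m} := fun m =>
    (Finite.card_eq.mp (hT m)).some
  let φ : G ≃ H := (Equiv.sigmaFiberEquiv (orderOf (G := G))).symm.trans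
    ((Equiv.sigmaCongrRight e).trans (Equiv.sigmaFiberEquiv (orderOf (G := H))))
  refine ⟨φ, fun g => ?_⟩
  have : φ g = ((e (orderOf g)) ⟨g, rfl⟩ : H) := rfl
  rw [this]
  exact ((e (orderOf g)) ⟨g, rfl⟩).2

/-- Let G and H be finite groups with the same order type: for every m they have the same number of elements of order m. If G is nilpotent then so is H. -/
theorem result {G H : Type*} [Group G] [Finite G] [Group H] [Finite H] (hT : (∀ m : ℕ, Nat.card {g : G // orderOf g = m} = Nat.card {h : H // orderOf h = m})) (hG : Group.IsNilpotent G) :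
    Group.IsNilpotent H := by
  classical
  obtain ⟨φ, hφ⟩ := exists_equiv hT
  have hH3 := (Group.isNilpotent_of_finite_tfae (G := H)).out 0 3
  have hG3 := (Group.isNilpotent_of_finite_tfae (G := G)).out 0 3
  rw [hH3]
  intro p _ P
  have hcard : Nat.card G = Nat.card H := Nat.card_congr φ
  rw [hG3] at hG
  obtain ⟨Q⟩ : Nonempty (Sylow p G) := inferInstance
  have hQ := hG p inferInstance Q
  -- every p-element of G lies in Q
  have hQ2 : ∀ g : G, (∃ k, orderOf g = p ^ k) → g ∈ (Q : Subgroup G) := fun g hg =>
    mem_sylow_of_mem_normalizer Q hg (by rw [Subgroup.normalizer_eq_top_iff.mpr hQ]; trivial)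
  have hPQ : Nat.card (P : Subgroup H) = Nat.card (Q : Subgroup G) := by
    rw [Sylow.card_eq_multiplicity, Sylow.card_eq_multiplicity, hcard]
  -- the map from p-elements of H to Q
  have hP2 : ∀ h : H, (∃ k, orderOf h = p ^ k) → h ∈ (P : Subgroup H) := by
    let f : ↥(P : Subgroup H) → ↥(Q : Subgroup G) := fun h =>
      ⟨φ.symm h, hQ2 _ (by
        have := hφ (φ.symm h)
        rw [φ.apply_symm_apply] at this
        rw [← this]
        exact exists_orderOf_of_mem_isPGroup P.isPGroup' h.2)⟩
    have hf : Function.Injective f := by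
      intro a b hab
      have := congrArg Subtype.val hab
      exact Subtype.ext (φ.symm.injective this)
    have hsurj : Function.Surjective f :=
      (Function.Injective.bijective_of_nat_card_le hf (le_of_eq hPQ.symm)).2
    intro h hh
    have h1 : φ.symm h ∈ (Q : Subgroup G) := hQ2 _ (by
      have := hφ (φ.symm h)
      rw [φ.apply_symm_apply] at this
      rwa [← this])
    obtain ⟨a, ha⟩ := hsurj ⟨_, h1⟩
    have h2 := congrArg Subtype.val ha
    have h3 : (a : H) = h := φ.symm.injective h2
    rw [← h3]; exact a.2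
  constructor
  intro n hn g
  apply hP2
  rw [orderOf_conj_eq]
  exact exists_orderOf_of_mem_isPGroup P.isPGroup' hn

end Cfsg.Agent.S3997
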