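import Cfsg.Statements.S3998
import Cfsg.Agent.Lib.PGroups.OrderType

set_option autoImplicit false
open Cfsg

namespace Cfsg.Agent.S3998

theorem exists_equiv {G H : Type*} [Group G] [Finite G] [Group H] [Finite H]
    (hT : ∀ m : ℕ, Nat.card {g : G // orderOf g = m} = Nat.card {h : H // orderOf h = m}) :
    ∃ φ : G ≃ H, ∀ g, orderOf (φ g) = orderOf g := by
  classical
  have e : ∀ m : ℕ, {g : G // orderOf g = m} ≃ {h : H // orderOf h = m} := fun m =>
    (Finite.card_eq.mp (hT m)).some
  let φ : G ≃ H := (Equiv.sigmaFiberEquiv (orderOf (G := G))).symm.trans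
    ((Equiv.sigmaCongrRight e).trans (Equiv.sigmaFiberEquiv (orderOf (G := H))))
  refine ⟨φ, fun g => ?_⟩
  have : φ g = ((e (orderOf g)) ⟨g, rfl⟩ : H) := rfl
  rw [this]
  exact ((e (orderOf g)) ⟨g, rfl⟩).2


/-- Let G and H be finite groups with the same order type (for every m the same number of elements of order m). If G is supersolvable then H is solvable. -/
theorem result {G H : Type*} [Group G] [Finite G] [Group H] [Finite H] (hT : (∀ m : ℕ, Nat.card {g : G // orderOf g = m} = Nat.card {h : H // orderOf h = m})) (hG : Cfsg.IsSupersolvable G) :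
    Group.IsSolvable H := by
  obtain ⟨φ, hφ⟩ := exists_equiv hT
  exact Cfsg.Agent.Lib.PGroups.solvable_of_tower _ H rfl
    ((Cfsg.Agent.Lib.PGroups.tower_of_isSupersolvable _ G rfl hG).of_equiv φ hφ)

end Cfsg.Agent.S3998
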