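import Cfsg.Statements.S4002
import Cfsg.Agent.Lib.PGroups.ThreePrimes

set_option autoImplicit false
open Cfsg

namespace Cfsg.Agent.S4002

open Subgroup

private theorem exists_three_primes (n : ℕ) (hn : 7 ≤ n) :
    ∃ p q r : ℕ, p.Prime ∧ q.Prime ∧ r.Prime ∧ p < q ∧ q < r ∧ r ≤ n ∧ n < p * q := by
  by_cases h15 : n < 15
  · exact ⟨3, 5, 7, by norm_num, by norm_num, by norm_num, by norm_num, by norm_num, hn, by omega⟩
  by_cases h35 : n < 35
  · exact ⟨5, 7, 11, by norm_num, by norm_num, by norm_num, by norm_num, by norm_num, by omega, by omega⟩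
  by_cases h77 : n < 77
  · exact ⟨7, 11, 13, by norm_num, by norm_num, by norm_num, by norm_num, by norm_num, by omega, by omega⟩
  -- Bertrand
  set m := Nat.sqrt n with hm
  have hm0 : m ≠ 0 := by
    intro h0
    have := Nat.sqrt_eq_zero.mp h0
    omega
  have hm8 : 8 ≤ m := by
    rw [hm]
    exact Nat.le_sqrt.mpr (by omega)
  have hlt : n < (m + 1) * (m + 1) := Nat.lt_succ_sqrt n
  have hle : m * m ≤ n := Nat.sqrt_le n
  obtain ⟨p, hp, hp1, hp2⟩ := Nat.exists_prime_lt_and_le_two_mul m hm0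
  obtain ⟨q, hq, hq1, hq2⟩ := Nat.exists_prime_lt_and_le_two_mul (2 * m) (by omega)
  obtain ⟨r, hr, hr1, hr2⟩ := Nat.exists_prime_lt_and_le_two_mul (2 * (2 * m)) (by omega)
  refine ⟨p, q, r, hp, hq, hr, by omega, by omega, ?_, ?_⟩
  · have : 8 * m ≤ m * m := Nat.mul_le_mul_right m hm8
    omega
  · have : (m + 1) * (m + 1) ≤ p * q := Nat.mul_le_mul (by omega) (by omega)
    omega


/-- If the set of element orders of a finite group G is {1, 2, …, n} with n ≥ 7, then G is not solvable. -/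
theorem result {G : Type*} [Group G] [Finite G] (n : ℕ) (hn : 7 ≤ n) (h : Set.range (orderOf : G → ℕ) = {k : ℕ | 1 ≤ k ∧ k ≤ n}) : ¬ Group.IsSolvable G := by
  intro hsolv
  obtain ⟨p, q, r, hp, hq, hr, hpq, hqr, hrn, hnpq⟩ := exists_three_primes n hn
  have hmem : ∀ k : ℕ, 1 ≤ k → k ≤ n → ∃ g : G, orderOf g = k := by
    intro k h1 h2
    have : k ∈ {k : ℕ | 1 ≤ k ∧ k ≤ n} := ⟨h1, h2⟩
    rw [← h] at this
    exact this
  have hdvd : ∀ k : ℕ, 1 ≤ k → k ≤ n → k ∣ Nat.card G := by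
    intro k h1 h2
    obtain ⟨g, hg⟩ := hmem k h1 h2
    rw [← hg]
    exact orderOf_dvd_natCard g
  have hbound : ∀ g : G, orderOf g ≤ n := by
    intro g
    have : orderOf g ∈ {k : ℕ | 1 ≤ k ∧ k ≤ n} := by rw [← h]; exact ⟨g, rfl⟩
    exact this.2
  obtain ⟨g, hg⟩ := Cfsg.Agent.Lib.PGroups.three_primes hp hq hr hpq.ne (hpq.trans hqr).ne hqr.ne
    (hdvd p hp.one_lt.le (by omega)) (hdvd q hq.one_lt.le (by omega)) (hdvd r hr.one_lt.le hrn)
  have hb := hbound g
  have h1 : p * q ≤ p * r := Nat.mul_le_mul_left p hqr.le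
  have h2 : p * q ≤ q * r := by
    rw [mul_comm p q]
    exact Nat.mul_le_mul_left q (hpq.trans hqr).le
  rcases hg with hg | hg | hg <;> omega

end Cfsg.Agent.S4002
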