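import Cfsg.Statements.S4003
import Cfsg.Agent.Lib.PGroups.Miller

set_option autoImplicit false
open Cfsg

namespace Cfsg.Agent.S4003

open Finset Cfsg.Agent.Lib.PGroups Subgroup

private noncomputable def E {G : Type*} [Group G] (q : ℕ) (u : G) : ℕ :=
  Nat.card {v : G // orderOf v = q ∧ Commute u v}

private theorem E_conj {G : Type*} [Group G] (q : ℕ) (g u : G) : E q (g * u * g⁻¹) = E q u := by
  unfold E
  apply Nat.card_congr
  refine Equiv.subtypeEquiv (MulAut.conj g⁻¹).toEquiv ?_
  intro v
  have h1 : orderOf ((MulAut.conj g⁻¹).toEquiv v) = orderOf v := by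
    simp only [MulEquiv.toEquiv_eq_coe, EquivLike.coe_coe, MulAut.conj_apply, inv_inv]
    exact orderOf_conj_inv_eq g v
  rw [h1]
  apply and_congr_right
  intro _
  simp only [Commute, SemiconjBy, MulEquiv.toEquiv_eq_coe, EquivLike.coe_coe, MulAut.conj_apply, inv_inv]
  constructor
  · intro h
    have := congrArg (fun x => g⁻¹ * x * g) h
    simp only [mul_assoc, inv_mul_cancel_left, mul_inv_cancel_left, inv_mul_cancel, mul_inv_cancel, mul_one] at this ⊢
    exact this
  · intro h
    have := congrArg (fun x => g * x * g⁻¹) h
    simp only [mul_assoc, inv_mul_cancel_left, mul_inv_cancel_left, inv_mul_cancel, mul_inv_cancel, mul_one] at this ⊢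
    exact this

private theorem E_eq {G : Type*} [Group G] (q : ℕ) (u : G) :
    E q u = Nat.card {v : centralizer ({u} : Set G) // orderOf v = q} := by
  unfold E
  apply Nat.card_congr
  refine ⟨fun v => ⟨⟨v.1, ?_⟩, ?_⟩, fun w => ⟨w.1.1, ?_, ?_⟩, ?_, ?_⟩
  · exact mem_centralizer_singleton_iff.mpr v.2.2.symm.eq
  · exact (Subgroup.orderOf_mk _ _).trans v.2.1
  · exact (Subgroup.orderOf_coe w.1).trans w.2
  · exact (mem_centralizer_singleton_iff.mp w.1.2).symm
  · intro v; rfl
  · intro w; rfl


/-- Let G be a finite group, p an odd prime dividing the order of G whose Sylow p-subgroups are not cyclic, and n = p^s·m with s > 1 and m coprime to p. Then the number of elements of G of order n is a multiple of p^s. -/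
theorem result {G : Type*} [Group G] [Finite G] (p : ℕ) [Fact p.Prime] (hodd : p ≠ 2) (hpG : p ∣ Nat.card G)
    (P : Sylow p G) (hP : ¬ IsCyclic ↥(P : Subgroup G)) (s m : ℕ) (hs : 1 < s) (hm : Nat.Coprime p m) :
    p ^ s ∣ Nat.card {g : G // orderOf g = p ^ s * m} := by
  classical
  haveI := Fintype.ofFinite G
  have hp : p.Prime := Fact.out
  have hmpos : 0 < m := by
    rcases Nat.eq_zero_or_pos m with h | h
    · subst h
      simp at hm
      exact absurd hm hp.ne_one
    · exact h
  have hc : m.Coprime (p ^ s) := (Nat.Coprime.pow_left s hm).symm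
  have key := card_filter_pow_eq_sum hc (fun x : G => orderOf x = p ^ s * m)
  have hcard : Nat.card {g : G // orderOf g = p ^ s * m} = _ := (Nat.subtype_card _ ?_).trans key
  swap
  · intro x
    simp only [Finset.mem_filter, Finset.mem_univ, true_and]
    constructor
    · intro h; exact h.2
    · intro h
      refine ⟨?_, h⟩
      rw [mul_comm, ← h]
      exact pow_orderOf_eq_one x
  rw [hcard]
  have hin : ∀ u ∈ univ.filter (fun u : G => u ^ m = 1),
      (univ.filter fun v : G => v ^ p ^ s = 1 ∧ Commute u v ∧ orderOf (u * v) = p ^ s * m).card =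
        if orderOf u = m then E (p ^ s) u else 0 := by
    intro u hu
    have hus : u ^ m = 1 := (Finset.mem_filter.mp hu).2
    have hiff : ∀ v : G, v ^ p ^ s = 1 → Commute u v →
        (orderOf (u * v) = p ^ s * m ↔ orderOf u = m ∧ orderOf v = p ^ s) := by
      intro v hv hcm
      have hua := orderOf_dvd_of_pow_eq_one hus
      have hvb := orderOf_dvd_of_pow_eq_one hv
      have hco : (orderOf u).Coprime (orderOf v) :=
        Nat.Coprime.coprime_dvd_left hua (Nat.Coprime.coprime_dvd_right hvb hc)
      rw [hcm.orderOf_mul_eq_mul_orderOf_of_coprime hco]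
      constructor
      · intro h
        have h1 : m ∣ orderOf u * orderOf v := by rw [h]; exact Dvd.intro_left _ rfl
        have h2 : m ∣ orderOf u :=
          (Nat.Coprime.coprime_dvd_right hvb hc).dvd_of_dvd_mul_right h1
        have h3 : orderOf u = m := Nat.dvd_antisymm hua h2
        refine ⟨h3, ?_⟩
        rw [h3, mul_comm] at h
        exact Nat.eq_of_mul_eq_mul_right hmpos h
      · rintro ⟨h1, h2⟩
        rw [h1, h2, mul_comm]
    split_ifs with hnu
    · symm
      apply Nat.subtype_card
      intro v
      simp only [Finset.mem_filter, Finset.mem_univ, true_and]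
      constructor
      · rintro ⟨h1, h2, h3⟩
        exact ⟨((hiff v h1 h2).mp h3).2, h2⟩
      · rintro ⟨h1, h2⟩
        have hv : v ^ p ^ s = 1 := by rw [← h1]; exact pow_orderOf_eq_one v
        exact ⟨hv, h2, (hiff v hv h2).mpr ⟨hnu, h1⟩⟩
    · rw [Finset.card_eq_zero, Finset.filter_eq_empty_iff]
      rintro v - ⟨h1, h2, h3⟩
      exact hnu ((hiff v h1 h2).mp h3).1
  have hfinal : p ^ s ∣ ∑ u ∈ univ.filter (fun u : G => u ^ m = 1),
      (if orderOf u = m then E (p ^ s) u else 0) := by
    apply dvd_sum_of_conj_invariant
    · intro g u hu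
      simp only [Finset.mem_filter, Finset.mem_univ, true_and] at hu ⊢
      rw [conj_pow, hu]; simp
    · intro g u
      simp only [orderOf_conj_eq, E_conj]
    · intro u _
      split_ifs with hnu
      · by_cases hpi : p ∣ (centralizer ({u} : Set G)).index
        · rw [E_eq]
          have h1 := dvd_card_orderOf_eq (p := p) (R := centralizer ({u} : Set G)) (s := s) (by omega)
          have h4 : p ^ s = p * p ^ (s - 1) := by
            rw [← pow_succ']; congr 1; omega
          have h5 := Nat.mul_dvd_mul hpi h1
          rwa [← h4] at h5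
        · apply Dvd.dvd.mul_left
          rw [E_eq]
          -- Sylow of the centralizer
          obtain ⟨Q₀⟩ : Nonempty (Sylow p (centralizer ({u} : Set G))) := inferInstance
          apply dvd_card_orderOf_of_sylow hodd Q₀ _ (by omega)
          intro hcyc
          apply hP
          have hcardH := Subgroup.index_mul_card (centralizer ({u} : Set G))
          have hfact : (Nat.card (centralizer ({u} : Set G))).factorization p = (Nat.card G).factorization p := by
            rw [← hcardH, Nat.factorization_mul Subgroup.index_ne_zero_of_finite Nat.card_pos.ne']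
            simp only [Finsupp.add_apply]
            rw [Nat.factorization_eq_zero_of_not_dvd hpi, zero_add]
          let S₀ : Sylow p G := Sylow.ofCard ((Q₀ : Subgroup (centralizer ({u} : Set G))).map (centralizer ({u} : Set G)).subtype) (by
            rw [Subgroup.card_map_of_injective Subtype.val_injective, Q₀.card_eq_multiplicity, hfact])
          have e1 : (Q₀ : Subgroup (centralizer ({u} : Set G))) ≃* (S₀ : Subgroup G) :=
            Subgroup.equivMapOfInjective _ _ Subtype.val_injective
          have e2 : (S₀ : Subgroup G) ≃* (P : Subgroup G) := S₀.equiv P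
          exact isCyclic_of_surjective (e1.trans e2).toMonoidHom (e1.trans e2).surjective
      · simp
  rw [← Finset.sum_congr rfl hin] at hfinal
  convert hfinal using 4

end Cfsg.Agent.S4003
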