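import Cfsg.Statements.S4004
import Cfsg.Agent.Lib.PGroups.OrderCount2
import Cfsg.Agent.Lib.PGroups.NormId
import Cfsg.Agent.Lib.Basic.GenCent
import Cfsg.Agent.Lib.Basic.MinNormal

set_option autoImplicit false
open Cfsg

namespace Cfsg.Agent.S4004

section aux
open Subgroup Cfsg.Agent.Lib.PGroups Cfsg.Agent.Lib.PGroups.OrderCount
  Cfsg.Agent.Lib.PGroups.NormId Cfsg.Agent.Lib.Basic
open scoped Pointwise

private theorem frob_of_normal {G : Type*} [Group G] [Finite G] {p q : ℕ} (hp : p.Prime)
    (hq : q.Prime) (hpq : p ≠ q) (hpG : p ∣ Nat.card G) (hqG : q ∣ Nat.card G)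
    (horder : ∀ g : G, g = 1 ∨ orderOf g = p ∨ orderOf g = q)
    (N : Subgroup G) (hNn : N.Normal) (hNne : N ≠ ⊥) (hNc : IsMulCommutative N)
    (hNp : IsPGroup p N) :
    ∃ C : Subgroup G, Cfsg.IsFrobeniusComplement C ∧ (Nat.card C).Prime := by
  classical
  haveI hfp : Fact p.Prime := ⟨hp⟩
  haveI hfq : Fact q.Prime := ⟨hq⟩
  have hcop : p.Coprime q := (Nat.coprime_primes hp hq).mpr hpq
  have hnocomm : ∀ x y : G, orderOf x = p → orderOf y = q → ¬ Commute x y := by
    intro x y hx hy hxy
    have h1 : orderOf (x * y) = p * q := by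
      rw [hxy.orderOf_mul_eq_mul_orderOf_of_coprime (by rw [hx, hy]; exact hcop), hx, hy]
    rcases horder (x * y) with h | h | h
    · rw [h, orderOf_one] at h1
      have := hp.one_lt
      have := hq.one_lt
      nlinarith
    · rw [h] at h1
      have : p * 1 = p * q := by rw [mul_one]; exact h1
      exact hq.one_lt.ne (Nat.eq_of_mul_eq_mul_left hp.pos this)
    · rw [h] at h1
      have : 1 * q = p * q := by rw [one_mul]; exact h1
      exact hp.one_lt.ne (Nat.eq_of_mul_eq_mul_right hq.pos this)
  have hNord : ∀ v ∈ N, v ≠ 1 → orderOf v = p := by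
    intro v hv hv1
    obtain ⟨k, hk⟩ := hNp ⟨v, hv⟩
    have hk' : v ^ p ^ k = 1 := congrArg Subtype.val hk
    rcases horder v with h | h | h
    · exact absurd h hv1
    · exact h
    · exfalso
      have h2 := orderOf_dvd_of_pow_eq_one hk'
      rw [h] at h2
      exact hpq ((Nat.prime_dvd_prime_iff_eq hq hp).mp (hq.dvd_of_dvd_pow h2)).symm
  have hfix : ∀ y : G, orderOf y = q → ∀ v ∈ N, y * v * y⁻¹ = v → v = 1 := by
    intro y hy v hv h
    by_contra hv1
    apply hnocomm v y (hNord v hv hv1) hy
    have h2 : y * v = v * y := mul_inv_eq_iff_eq_mul.mp h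
    exact h2.symm
  have hNne' : ∃ v ∈ N, v ≠ 1 := by
    by_contra hno
    push Not at hno
    apply hNne
    rw [eq_bot_iff]
    intro v hv
    exact hno v hv
  let Q : Sylow q G := default
  have hQp : IsPGroup q (Q : Subgroup G) := Q.isPGroup'
  have hQord : ∀ x ∈ (Q : Subgroup G), x ≠ 1 → orderOf x = q := by
    intro x hx hx1
    obtain ⟨k, hk⟩ := hQp ⟨x, hx⟩
    have hk' : x ^ q ^ k = 1 := congrArg Subtype.val hk
    rcases horder x with h | h | h
    · exact absurd h hx1
    · exfalso
      have h2 := orderOf_dvd_of_pow_eq_one hk'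
      rw [h] at h2
      exact hpq ((Nat.prime_dvd_prime_iff_eq hp hq).mp (hp.dvd_of_dvd_pow h2))
    · exact h
  have hn0 : Nat.card G ≠ 0 := Nat.card_pos.ne'
  have hfpos : (Nat.card G).factorization q ≠ 0 :=
    (Nat.Prime.factorization_pos_of_dvd hq hn0 hqG).ne'
  have hQcard : Nat.card (Q : Subgroup G) = q ^ (Nat.card G).factorization q :=
    Q.card_eq_multiplicity
  -- the Sylow subgroup `Q` has prime order
  have hQq : Nat.card (Q : Subgroup G) = q := by
    by_contra hne
    have hnt : Nontrivial (Q : Subgroup G) := by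
      rw [← Finite.one_lt_card_iff_nontrivial, hQcard]
      exact Nat.one_lt_pow hfpos hq.one_lt
    haveI hcn := hQp.center_nontrivial
    obtain ⟨⟨z, hzc⟩, hz1⟩ := exists_ne (1 : center ↥(Q : Subgroup G))
    have hz1' : (z : G) ≠ 1 := fun h => hz1 (Subtype.ext (Subtype.ext h))
    have hzQ : (z : G) ∈ (Q : Subgroup G) := z.2
    have hzo := hQord _ hzQ hz1'
    have hlt : zpowers (z : G) < (Q : Subgroup G) := by
      refine lt_of_le_of_ne (zpowers_le.mpr hzQ) ?_
      intro he
      apply hne
      rw [← he, Nat.card_zpowers, hzo]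
    obtain ⟨y, hyQ, hyz⟩ := SetLike.exists_of_lt hlt
    have hyz' : Commute (z : G) y := by
      have h1 := mem_center_iff.mp hzc ⟨y, hyQ⟩
      exact (congrArg Subtype.val h1).symm
    let k : Set G := {(z : G), y}
    have hk : ∀ a ∈ k, ∀ b ∈ k, a * b = b * a := by
      rintro a (rfl | rfl) b (rfl | rfl)
      · rfl
      · exact hyz'
      · exact hyz'.symm
      · rfl
    let A : Subgroup G := closure k
    have hAc : IsMulCommutative A := Subgroup.isMulCommutative_closure hk
    have hAQ : A ≤ (Q : Subgroup G) := by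
      rw [closure_le]
      rintro a (rfl | rfl)
      · exact hzQ
      · exact hyQ
    have hzA : (z : G) ∈ A := subset_closure (Or.inl rfl)
    have hyA : y ∈ A := subset_closure (Or.inr rfl)
    have hAcyc : ¬ IsCyclic A := by
      intro hcyc
      obtain ⟨g, hg⟩ := IsCyclic.exists_generator (α := A)
      have hg1 : (g : G) ≠ 1 := by
        intro h
        have h1 : g = 1 := Subtype.ext h
        have h2 := hg ⟨_, hzA⟩
        rw [h1] at h2
        have h3 : (⟨_, hzA⟩ : A) = 1 := by simpa using h2
        exact hz1' (congrArg Subtype.val h3)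
      have hgo := hQord _ (hAQ g.2) hg1
      have hcA : Nat.card A = q := by
        rw [← orderOf_eq_card_of_forall_mem_zpowers hg, Subgroup.orderOf_coe g |>.symm, hgo]
      have hzle : zpowers (z : G) ≤ A := zpowers_le.mpr hzA
      have heq : zpowers (z : G) = A :=
        Subgroup.eq_of_le_of_card_ge hzle (by rw [hcA, Nat.card_zpowers, hzo])
      rw [← heq] at hyA
      exact hyz hyA
    have hnormA : A ≤ normalizer (N : Set G) := by
      rw [Subgroup.normalizer_eq_top]
      exact le_top
    have hcopA : (Nat.card A).Coprime (Nat.card N) :=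
      IsPGroup.coprime_card_of_ne q p hpq.symm A N (hQp.to_le hAQ) hNp
    have hgen := generation_by_centralizers A N hAcyc hnormA hcopA
    have hbot : (⨆ a ∈ {a : G | a ∈ A ∧ a ≠ 1}, N ⊓ centralizer {a}) = ⊥ := by
      apply iSup₂_eq_bot.mpr
      rintro a ⟨haA, ha1⟩
      rw [eq_bot_iff]
      intro v hv
      have hv1 := (mem_inf.mp hv).1
      have hv2 := mem_centralizer_singleton_iff.mp (mem_inf.mp hv).2
      have h3 := hfix a (hQord a (hAQ haA) ha1) v hv1 (by
        rw [← hv2]
        group)
      exact h3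
    rw [hbot] at hgen
    exact hNne hgen.symm
  -- a generator
  have hQne : (Q : Subgroup G) ≠ ⊥ := by
    intro h
    rw [h, Subgroup.card_bot] at hQq
    exact hq.one_lt.ne hQq
  obtain ⟨y, hyQ, hy1⟩ := (Subgroup.ne_bot_iff_exists_ne_one.mp hQne) |> fun ⟨w, hw⟩ =>
    (⟨(w : G), w.2, fun h => hw (Subtype.ext h)⟩ : ∃ y ∈ (Q : Subgroup G), y ≠ 1)
  have hyo := hQord y hyQ hy1
  have hgenQ : ∀ t ∈ (Q : Subgroup G), t ≠ 1 → zpowers t = (Q : Subgroup G) := by
    intro t ht ht1
    apply Subgroup.eq_of_le_of_card_ge (zpowers_le.mpr ht)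
    rw [Nat.card_zpowers, hQq, hQord t ht ht1]
  have hQy : (Q : Subgroup G) = zpowers y := (hgenQ y hyQ hy1).symm
  -- self-normalizing
  have hself : ∀ g ∈ normalizer ((Q : Subgroup G) : Set G), g ∈ (Q : Subgroup G) := by
    intro g hg
    by_contra hgQ
    rcases horder g with h | h | h
    · exact hgQ (h ▸ one_mem _)
    · -- a `p`-element normalizing `Q`
      have hu : g ^ p = 1 := by rw [← h]; exact pow_orderOf_eq_one g
      have hn : g * y * g⁻¹ ∈ zpowers y := by
        rw [← hQy]
        exact (mem_normalizer_iff.mp hg y).mp hyQ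
      have hH2 : ∀ v ∈ N, (v * g) ^ p = 1 := by
        intro v hv
        set t := v * g with ht
        have htN : t ^ p ∈ N := by
          have h1 : (QuotientGroup.mk' N) (t ^ p) = 1 := by
            rw [map_pow, ht, map_mul]
            have h2 : (QuotientGroup.mk' N) v = 1 := (QuotientGroup.eq_one_iff v).mpr hv
            rw [h2, one_mul, ← map_pow, hu, map_one]
          exact (QuotientGroup.eq_one_iff _).mp h1
        rcases horder t with h2 | h2 | h2
        · rw [h2, one_pow]
        · rw [← h2]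
          exact pow_orderOf_eq_one t
        · exfalso
          have h3 : orderOf (t ^ p) = q := by
            rw [Nat.Coprime.orderOf_pow (by rw [h2]; exact hcop.symm), h2]
          by_cases h4 : t ^ p = 1
          · rw [h4, orderOf_one] at h3
            exact hq.one_lt.ne h3
          · rw [hNord _ htN h4] at h3
            exact hpq h3
      have hid := norm_identity N (fun a ha b hb => by
        have := hNc.is_comm.comm ⟨a, ha⟩ ⟨b, hb⟩
        exact congrArg Subtype.val this) hp hq hyo hu hn (hnocomm g y h hyo) (hfix y hyo) hH2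
      obtain ⟨v, hv, hv1⟩ := hNne'
      have h3 := orderOf_dvd_of_pow_eq_one (hid v hv)
      rw [hNord v hv hv1] at h3
      exact hpq ((Nat.prime_dvd_prime_iff_eq hp hq).mp h3)
    · -- a `q`-element normalizing `Q`
      have hzp : IsPGroup q (zpowers g) := IsPGroup.of_card (n := 1) (by
        rw [Nat.card_zpowers, h, pow_one])
      have hle : zpowers g ≤ normalizer ((Q : Subgroup G) : Set G) := zpowers_le.mpr hg
      have hsup := hzp.to_sup_of_normal_right' hQp hle
      have heq := Q.is_maximal' hsup le_sup_right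
      apply hgQ
      rw [← heq]
      exact (le_sup_left : zpowers g ≤ _) (mem_zpowers g)
  refine ⟨Q, ⟨hQne, ?_, ?_⟩, by rw [hQq]; exact hq⟩
  · intro h
    rw [h, Subgroup.card_top] at hQq
    rw [hQq] at hpG
    exact hpq ((Nat.prime_dvd_prime_iff_eq hp hq).mp hpG)
  · intro g hg
    rw [eq_bot_iff]
    intro t ht
    by_contra ht1
    have ht1' : t ≠ 1 := ht1
    have ht2 := (mem_inf.mp ht).2
    have ht3 := (mem_inf.mp ht).1
    have hle : (Q : Subgroup G) ≤ MulAut.conj g • (Q : Subgroup G) := by
      calc (Q : Subgroup G) = zpowers t := (hgenQ t ht3 ht1').symm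
        _ ≤ _ := zpowers_le.mpr ht2
    have heq : (Q : Subgroup G) = MulAut.conj g • (Q : Subgroup G) := by
      apply Subgroup.eq_of_le_of_card_ge hle
      have : Nat.card ↥(MulAut.conj g • (Q : Subgroup G)) = Nat.card (Q : Subgroup G) :=
        Nat.card_congr (Subgroup.equivSMul (MulAut.conj g) (Q : Subgroup G)).symm.toEquiv
      omega
    apply hg
    apply hself
    rw [mem_normalizer_iff]
    intro h
    constructor
    · intro hh
      rw [heq]
      exact ⟨h, hh, rfl⟩
    · intro hh
      rw [heq] at hh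
      obtain ⟨h', hh', he⟩ := hh
      have he' : g * h' * g⁻¹ = g * h * g⁻¹ := he
      have : h' = h := by
        have := mul_right_cancel he'
        exact mul_left_cancel this
      rwa [← this]

private theorem dvd_oc_pow {G : Type*} [Group G] [Finite G] {r s : ℕ} (hr : r.Prime) (hs : s.Prime)
    (hrs : r ≠ s) (hrG : r ∣ Nat.card G) (h0 : oc G (r * s) = 0) {i : ℕ} (hi : 1 ≤ i) :
    r ∣ oc G (s ^ i) := by
  by_contra hnd
  haveI : Fact r.Prime := ⟨hr⟩
  obtain ⟨x, hx⟩ := exists_prime_orderOf_dvd_card' (G := G) r hrG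
  obtain ⟨y, hy, hxy⟩ := exists_commuting hr hx hnd
  apply (oc_ne_zero_iff (G := G)).mpr _ h0
  refine ⟨x * y ^ s ^ (i - 1), ?_⟩
  have hd : s ^ (i - 1) ∣ orderOf y := by
    rw [hy]
    exact pow_dvd_pow _ (by omega)
  have hy2 : orderOf (y ^ s ^ (i - 1)) = s := by
    rw [orderOf_pow_of_dvd (pow_ne_zero _ hs.ne_zero) hd, hy]
    have e : s ^ i = s * s ^ (i - 1) := by
      rw [← pow_succ']
      congr 1
      omega
    rw [e, Nat.mul_div_cancel _ (pow_pos hs.pos _)]
  rw [(hxy.pow_right _).orderOf_mul_eq_mul_orderOf_of_coprime (by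
    rw [hx, hy2]
    exact (Nat.coprime_primes hr hs).mpr hrs), hx, hy2]

private theorem sq_zero {G : Type*} [Group G] [Finite G] {p q : ℕ} (hp : p.Prime) (hq : q.Prime)
    (hp2 : p ≠ 2) (hpq : p ≠ q) (hpG : p ∣ Nat.card G) (hqG : q ∣ Nat.card G)
    (hval : ∀ m, 3 ≤ m → oc G m = 0 ∨ oc G m = oc G p ∨ oc G m = oc G q)
    (h0 : oc G (q * p) = 0) : oc G (p ^ 2) = 0 := by
  haveI : Fact p.Prime := ⟨hp⟩
  haveI : Fact q.Prime := ⟨hq⟩
  have hcp := one_add_oc_prime (G := G) hp hpG
  have hcq := one_add_oc_prime (G := G) hq hqG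
  have h1 := sum_sq (G := G) hp hpG
  rw [hcp] at h1
  have h4 : ((oc G (p ^ 2) : ℕ) : ZMod p) = 0 := by linear_combination h1
  have hneg0 : (-1 : ZMod p) ≠ 0 := neg_ne_zero.mpr one_ne_zero
  have hneg0q : (-1 : ZMod q) ≠ 0 := neg_ne_zero.mpr one_ne_zero
  have h3 : 3 ≤ p := by have := hp.two_le; omega
  rcases hval (p ^ 2) (by nlinarith) with h | h | h
  · exact h
  · rw [h, hcp] at h4
    exact absurd h4 hneg0
  · exfalso
    have h5 := dvd_oc_pow (G := G) hq hp hpq.symm hqG h0 (by norm_num : 1 ≤ 2)
    rw [h] at h5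
    have h6 := (ZMod.natCast_eq_zero_iff _ _).mpr h5
    rw [hcq] at h6
    exact hneg0q h6

private theorem oc_ne_zero_of_dvd {G : Type*} [Group G] [Finite G] {g : G} {d : ℕ}
    (hd : d ∣ orderOf g) (hd0 : d ≠ 0) : oc G d ≠ 0 := by
  have hpos : 0 < orderOf g := orderOf_pos g
  obtain ⟨k, hk⟩ := hd
  have hk0 : k ≠ 0 := by
    rintro rfl
    rw [mul_zero] at hk
    omega
  apply oc_ne_zero_iff.mpr
  refine ⟨g ^ k, ?_⟩
  rw [orderOf_pow_of_dvd hk0 (Dvd.intro_left d hk.symm), hk]
  exact Nat.mul_div_cancel _ (Nat.pos_of_ne_zero hk0)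

private theorem main_odd {G : Type*} [Group G] [Finite G] (hodd : Odd (Nat.card G))
    (h : (((fun m : ℕ => Nat.card {g : G // orderOf g = m}) '' Set.range (orderOf : G → ℕ))).ncard = 3) :
    (Nat.card G).primeFactors.card ≤ 2 ∧
      ((Nat.card G).primeFactors.card = 2 →
        (∀ (p : ℕ) [Fact p.Prime] (P : Sylow p G), p ∣ Nat.card G →
          Monoid.exponent ↥(P : Subgroup G) = p) ∧
        ∃ C : Subgroup G, Cfsg.IsFrobeniusComplement C ∧ (Nat.card ↥C).Prime) := by
  classical
  set V := ((fun m : ℕ => Nat.card {g : G // orderOf g = m}) '' Set.range (orderOf : G → ℕ)) with hV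
  have hmem : ∀ m, oc G m ≠ 0 → oc G m ∈ V := by
    intro m hm
    obtain ⟨g, hg⟩ := oc_ne_zero_iff.mp hm
    exact ⟨m, ⟨g, hg⟩, rfl⟩
  have h1V : (1 : ℕ) ∈ V := by
    have := hmem 1 (by rw [oc_one]; norm_num)
    rwa [oc_one] at this
  have hev : ∀ m, 3 ≤ m → Even (oc G m) := by
    intro m hm
    have h1 := totient_dvd_oc (G := G) m
    have h2 := Nat.totient_even (by omega : 2 < m)
    exact (even_iff_two_dvd.mpr (h2.two_dvd.trans h1))
  obtain ⟨a, b, hab, ha1, hb1, hVeq⟩ : ∃ a b : ℕ, a ≠ b ∧ a ≠ 1 ∧ b ≠ 1 ∧ V = {1, a, b} := by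
    obtain ⟨x, y, z, hxy, hxz, hyz, hVe⟩ := Set.ncard_eq_three.mp h
    rw [hVe] at h1V
    simp only [Set.mem_insert_iff, Set.mem_singleton_iff] at h1V
    rcases h1V with rfl | rfl | rfl
    · exact ⟨y, z, hyz, hxy.symm, hxz.symm, hVe⟩
    · refine ⟨x, z, hxz, hxy, hyz.symm, ?_⟩
      rw [hVe]
      ext t
      simp only [Set.mem_insert_iff, Set.mem_singleton_iff]
      tauto
    · refine ⟨x, y, hxy, hxz, hyz, ?_⟩
      rw [hVe]
      ext t
      simp only [Set.mem_insert_iff, Set.mem_singleton_iff]
      tauto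
  have hval : ∀ m, 3 ≤ m → oc G m = 0 ∨ oc G m = a ∨ oc G m = b := by
    intro m hm
    by_cases h0 : oc G m = 0
    · exact Or.inl h0
    right
    have h1 := hmem m h0
    rw [hVeq] at h1
    simp only [Set.mem_insert_iff, Set.mem_singleton_iff] at h1
    rcases h1 with h1 | h1 | h1
    · exfalso
      have := hev m hm
      rw [h1] at this
      exact absurd this (by decide)
    · exact Or.inl h1
    · exact Or.inr h1
  have hval' : ∀ m, 3 ≤ m → oc G m = 0 ∨ oc G m = b ∨ oc G m = a := by
    intro m hm
    rcases hval m hm with h | h | h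
    · exact Or.inl h
    · exact Or.inr (Or.inr h)
    · exact Or.inr (Or.inl h)
  have h2nd : ¬ 2 ∣ Nat.card G := fun hd => (Nat.not_even_iff_odd.mpr hodd) (even_iff_two_dvd.mpr hd)
  have hc2 : oc G 2 = 0 := by
    by_contra hne
    obtain ⟨t, ht⟩ := oc_ne_zero_iff.mp hne
    exact h2nd (ht ▸ orderOf_dvd_natCard t)
  have hc2' : oc G 2 ≤ 1 := by omega
  have hoddp : ∀ {r : ℕ}, r.Prime → r ∣ Nat.card G → r ≠ 2 := by
    rintro r hr hrG rfl
    exact h2nd hrG
  have h3 : ∀ {r : ℕ}, r.Prime → r ≠ 2 → 3 ≤ r := fun hr hr2 => by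
    have := hr.two_le
    omega
  have hvalr : ∀ r : ℕ, r.Prime → r ∣ Nat.card G → oc G r = a ∨ oc G r = b := by
    intro r hr hrG
    rcases hval r (h3 hr (hoddp hr hrG)) with h | h | h
    · exact absurd h (oc_prime_ne_zero hr hrG)
    · exact Or.inl h
    · exact Or.inr h
  have hdist : ∀ r s : ℕ, r.Prime → s.Prime → r ≠ s → r ∣ Nat.card G →
      s ∣ Nat.card G → oc G r ≠ oc G s := by
    intro r s hr hs hrs hrG hsG he
    rcases hvalr r hr hrG with h | h
    · exact no_same_value hval hc2' hr hs (hoddp hr hrG) (hoddp hs hsG) hrs hrG hsG h (he ▸ h)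
    · exact no_same_value hval' hc2' hr hs (hoddp hr hrG) (hoddp hs hsG) hrs hrG hsG h (he ▸ h)
  have hn0 : Nat.card G ≠ 0 := Nat.card_pos.ne'
  refine ⟨?_, ?_⟩
  · have h1 : (Nat.card G).primeFactors.card ≤ ({a, b} : Finset ℕ).card := by
      apply Finset.card_le_card_of_injOn (oc G)
      · intro r hr
        have hr' := Finset.mem_coe.mp hr
        have hrp := Nat.prime_of_mem_primeFactors hr'
        have hrd := Nat.dvd_of_mem_primeFactors hr'
        simp only [Finset.coe_insert, Finset.coe_singleton, Set.mem_insert_iff, Set.mem_singleton_iff]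
        exact hvalr r hrp hrd
      · intro r hr s hs he
        have hr' := Finset.mem_coe.mp hr
        have hs' := Finset.mem_coe.mp hs
        by_contra hrs
        exact hdist r s (Nat.prime_of_mem_primeFactors hr') (Nat.prime_of_mem_primeFactors hs') hrs
          (Nat.dvd_of_mem_primeFactors hr') (Nat.dvd_of_mem_primeFactors hs') he
    exact h1.trans Finset.card_le_two
  · intro hcard2
    obtain ⟨p, q, hpq, hpf⟩ := Finset.card_eq_two.mp hcard2
    have hpm : p ∈ (Nat.card G).primeFactors := by rw [hpf]; simp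
    have hqm : q ∈ (Nat.card G).primeFactors := by rw [hpf]; simp
    have hp := Nat.prime_of_mem_primeFactors hpm
    have hq := Nat.prime_of_mem_primeFactors hqm
    have hpG := Nat.dvd_of_mem_primeFactors hpm
    have hqG := Nat.dvd_of_mem_primeFactors hqm
    have hp2 := hoddp hp hpG
    have hq2 := hoddp hq hqG
    have hprimes : ∀ r : ℕ, r.Prime → r ∣ Nat.card G → r = p ∨ r = q := by
      intro r hr hrG
      have : r ∈ (Nat.card G).primeFactors := Nat.mem_primeFactors.mpr ⟨hr, hrG, hn0⟩
      rw [hpf] at this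
      simpa using this
    have hcne := hdist p q hp hq hpq hpG hqG
    have hval2 : ∀ m, 3 ≤ m → oc G m = 0 ∨ oc G m = oc G p ∨ oc G m = oc G q := by
      intro m hm
      rcases hval m hm with h | h | h
      · exact Or.inl h
      · rcases hvalr p hp hpG with h6 | h6 <;> rcases hvalr q hq hqG with h7 | h7
        · exact absurd (h6.trans h7.symm) hcne
        · exact Or.inr (Or.inl (h.trans h6.symm))
        · exact Or.inr (Or.inr (h.trans h7.symm))
        · exact absurd (h6.trans h7.symm) hcne
      · rcases hvalr p hp hpG with h6 | h6 <;> rcases hvalr q hq hqG with h7 | h7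
        · exact absurd (h6.trans h7.symm) hcne
        · exact Or.inr (Or.inr (h.trans h7.symm))
        · exact Or.inr (Or.inl (h.trans h6.symm))
        · exact absurd (h6.trans h7.symm) hcne
    have hval3 : ∀ m, 3 ≤ m → oc G m = 0 ∨ oc G m = oc G q ∨ oc G m = oc G p := by
      intro m hm
      rcases hval2 m hm with h | h | h
      · exact Or.inl h
      · exact Or.inr (Or.inr h)
      · exact Or.inr (Or.inl h)
    obtain ⟨hpq0, -, -⟩ := pair_diff hval2 hp hq hp2 hq2 hpq hpG hqG rfl rfl
    have hqp0 : oc G (q * p) = 0 := by rw [mul_comm]; exact hpq0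
    have hp20 := sq_zero hp hq hp2 hpq hpG hqG hval2 hqp0
    have hq20 := sq_zero hq hp hq2 hpq.symm hqG hpG hval3 hpq0
    -- the orders of the elements
    have horder : ∀ g : G, g = 1 ∨ orderOf g = p ∨ orderOf g = q := by
      intro g
      by_cases hg1 : g = 1
      · exact Or.inl hg1
      right
      set m := orderOf g with hm
      have hm0 : m ≠ 0 := (orderOf_pos g).ne'
      have hm1 : m ≠ 1 := fun h => hg1 (orderOf_eq_one_iff.mp h)
      have hmG : m ∣ Nat.card G := orderOf_dvd_natCard g
      have hnpq : ¬ (p ∣ m ∧ q ∣ m) := by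
        rintro ⟨h1, h2⟩
        have h4 : p * q ∣ m := Nat.Coprime.mul_dvd_of_dvd_of_dvd
          ((Nat.coprime_primes hp hq).mpr hpq) h1 h2
        exact oc_ne_zero_of_dvd h4 (mul_ne_zero hp.ne_zero hq.ne_zero) hpq0
      have hnp2 : ¬ p ^ 2 ∣ m := fun h1 => oc_ne_zero_of_dvd h1 (pow_ne_zero 2 hp.ne_zero) hp20
      have hnq2 : ¬ q ^ 2 ∣ m := fun h1 => oc_ne_zero_of_dvd h1 (pow_ne_zero 2 hq.ne_zero) hq20
      have hfin : ∀ {r s : ℕ}, r.Prime → (∀ t : ℕ, t.Prime → t ∣ Nat.card G → t = r ∨ t = s) →
          r ∣ m → ¬ s ∣ m → ¬ r ^ 2 ∣ m → m = r := by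
        intro r s hr hall hrm hsm hr2
        obtain ⟨m', hm'⟩ := hrm
        by_cases hm'1 : m' = 1
        · rw [hm', hm'1, mul_one]
        · exfalso
          obtain ⟨t, ht, htm⟩ := Nat.exists_prime_and_dvd hm'1
          have htmm : t ∣ m := by rw [hm']; exact htm.mul_left r
          rcases hall t ht (htmm.trans hmG) with rfl | rfl
          · apply hr2
            rw [hm', pow_two]
            exact Nat.mul_dvd_mul_left _ htm
          · exact hsm htmm
      obtain ⟨t, ht, htm⟩ := Nat.exists_prime_and_dvd hm1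
      rcases hprimes t ht (htm.trans hmG) with rfl | rfl
      · left
        exact hfin ht hprimes htm (fun h => hnpq ⟨htm, h⟩) hnp2
      · right
        exact hfin ht (fun s hs hsG => (hprimes s hs hsG).symm) htm (fun h => hnpq ⟨h, htm⟩) hnq2
    refine ⟨?_, ?_⟩
    · intro r _ P hrG
      have hr : r.Prime := Fact.out
      have hex : ∀ x : ↥(P : Subgroup G), x ^ r = 1 := by
        intro x
        obtain ⟨k, hk⟩ := P.isPGroup' x
        have hk' : (x : G) ^ r ^ k = 1 := congrArg Subtype.val hk
        have hord : (x : G) = 1 ∨ orderOf (x : G) = r := by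
          rcases horder (x : G) with h | h | h
          · exact Or.inl h
          · right
            have h2 := orderOf_dvd_of_pow_eq_one hk'
            rw [h] at h2
            rw [h]
            exact (Nat.prime_dvd_prime_iff_eq hp hr).mp (hp.dvd_of_dvd_pow h2)
          · right
            have h2 := orderOf_dvd_of_pow_eq_one hk'
            rw [h] at h2
            rw [h]
            exact (Nat.prime_dvd_prime_iff_eq hq hr).mp (hq.dvd_of_dvd_pow h2)
        apply Subtype.ext
        rcases hord with h | h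
        · show (x : G) ^ r = 1
          rw [h, one_pow]
        · show (x : G) ^ r = 1
          have h9 := pow_orderOf_eq_one (x : G)
          rwa [h] at h9
      have h1 : Monoid.exponent ↥(P : Subgroup G) ∣ r := Monoid.exponent_dvd_of_forall_pow_eq_one hex
      rcases (Nat.dvd_prime hr).mp h1 with h2 | h2
      · exfalso
        have h3 : Subsingleton ↥(P : Subgroup G) := Monoid.exp_eq_one_iff.mp h2
        have h4 : Nat.card ↥(P : Subgroup G) = 1 := Nat.card_of_subsingleton (1 : ↥(P : Subgroup G))
        rw [P.card_eq_multiplicity] at h4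
        have h5 := (Nat.Prime.factorization_pos_of_dvd hr hn0 hrG).ne'
        exact (Nat.one_lt_pow h5 hr.one_lt).ne' h4
      · exact h2
    · -- the Frobenius complement
      haveI hsolv : Group.IsSolvable G := isSolvable_of_primeFactors_subset hp hq (by rw [hpf])
      haveI hnt : Nontrivial G := by
        rw [← Finite.one_lt_card_iff_nontrivial]
        exact lt_of_lt_of_le hp.one_lt (Nat.le_of_dvd Nat.card_pos hpG)
      obtain ⟨r, N, hr, hNn, hNne, hNc, hNp⟩ := exists_normal_abelian_pSubgroup (G := G)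
      haveI hfr : Fact r.Prime := ⟨hr⟩
      have hrG : r ∣ Nat.card G := by
        obtain ⟨k, hk⟩ := IsPGroup.iff_card.mp hNp
        have hk0 : k ≠ 0 := by
          rintro rfl
          apply hNne
          apply Subgroup.eq_bot_of_card_eq
          simpa using hk
        have h1 : r ∣ Nat.card N := by
          rw [hk]
          exact dvd_pow_self r hk0
        exact h1.trans (Subgroup.card_subgroup_dvd_card N)
      rcases hprimes r hr hrG with rfl | rfl
      · exact frob_of_normal hp hq hpq hpG hqG horder N hNn hNne hNc hNp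
      · exact frob_of_normal hq hp hpq.symm hqG hpG
          (fun g => by
            rcases horder g with h | h | h
            · exact Or.inl h
            · exact Or.inr (Or.inr h)
            · exact Or.inr (Or.inl h)) N hNn hNne hNc hNp

end aux


/-- Let G be a finite group of odd order in which the numbers of elements of each order that occurs (the numbers #{g : o(g) = m}, m ranging over the element orders of G) take exactly three different values. Then the order of G has at most two prime divisors; and if it has exactly two, then every Sylow subgroup of G for a prime dividing its order has prime exponent, G is a Frobenius group, and some Frobenius complement of G has prime order. -/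
theorem result {G : Type*} [Group G] [Finite G] (hodd : Odd (Nat.card G)) (h : (((fun m : ℕ => Nat.card {g : G // orderOf g = m}) '' Set.range (orderOf : G → ℕ))).ncard = 3) :
    (Nat.card G).primeFactors.card ≤ 2 ∧
      ((Nat.card G).primeFactors.card = 2 →
        (∀ (p : ℕ) [Fact p.Prime] (P : Sylow p G), p ∣ Nat.card G → Monoid.exponent ↥(P : Subgroup G) = p) ∧
        ∃ C : Subgroup G, Cfsg.IsFrobeniusComplement C ∧ (Nat.card ↥C).Prime) := by
  exact main_odd hodd h

end Cfsg.Agent.S4004
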