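import Cfsg.Statements.S4005
import Cfsg.Agent.Lib.Char.Burnside
import Cfsg.Agent.Lib.Struct.PLen
import Cfsg.Agent.Lib.Coprime.PSolvable
import Cfsg.Agent.Lib.Basic.Frobenius2
import Cfsg.Agent.Lib.Basic.GenCent

set_option autoImplicit false
open Cfsg

namespace Cfsg.Agent.S4005

open Subgroup

private theorem comm_of_sq {G : Type*} [Group G] {K : Subgroup G} (hK : ∀ k ∈ K, k ^ 2 = 1) :
    IsMulCommutative K := by
  refine ⟨⟨fun a b => Subtype.ext ?_⟩⟩
  have h1 := hK _ (K.mul_mem a.2 b.2)
  have h2 := hK _ a.2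
  have h3 := hK _ b.2
  have e : (a : G) * b = ((a : G) * b) * ((b : G) * a) * ((b : G) * a)⁻¹ := by group
  show (a : G) * b = b * a
  have ha : (a : G)⁻¹ = a := by
    rw [inv_eq_iff_mul_eq_one, ← pow_two]; exact h2
  have hb : (b : G)⁻¹ = b := by
    rw [inv_eq_iff_mul_eq_one, ← pow_two]; exact h3
  have hab : ((a : G) * b)⁻¹ = a * b := by
    rw [inv_eq_iff_mul_eq_one, ← pow_two]; exact h1
  rw [mul_inv_rev, ha, hb] at hab
  exact hab.symm


/-- A finite group whose set of element orders is exactly {1, 2, 3} has either a normal elementary abelian 3-subgroup of index 2 or a normal elementary abelian 2-subgroup of index 3. -/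
theorem result {G : Type*} [Group G] [Finite G] (h : Set.range (orderOf : G → ℕ) = {k : ℕ | 1 ≤ k ∧ k ≤ 3}) :
    (∃ N : Subgroup G, N.Normal ∧ Cfsg.IsElementaryAbelian 3 N ∧ N.index = 2) ∨
      (∃ N : Subgroup G, N.Normal ∧ Cfsg.IsElementaryAbelian 2 N ∧ N.index = 3) := by
  classical
  have hord : ∀ g : G, orderOf g = 1 ∨ orderOf g = 2 ∨ orderOf g = 3 := by
    intro g
    have hm : orderOf g ∈ {k : ℕ | 1 ≤ k ∧ k ≤ 3} := by rw [← h]; exact ⟨g, rfl⟩
    obtain ⟨h1, h2⟩ := hm
    omega
  obtain ⟨t0, ht0⟩ : ∃ t : G, orderOf t = 2 := by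
    have hm : (2 : ℕ) ∈ {k : ℕ | 1 ≤ k ∧ k ≤ 3} := ⟨by norm_num, by norm_num⟩
    rw [← h] at hm
    exact hm
  obtain ⟨x0, hx0⟩ : ∃ t : G, orderOf t = 3 := by
    have hm : (3 : ℕ) ∈ {k : ℕ | 1 ≤ k ∧ k ≤ 3} := ⟨by norm_num, by norm_num⟩
    rw [← h] at hm
    exact hm
  haveI h2p : Fact (Nat.Prime 2) := ⟨Nat.prime_two⟩
  haveI h3p : Fact (Nat.Prime 3) := ⟨Nat.prime_three⟩
  have hno6 : ∀ s x : G, orderOf s = 2 → orderOf x = 3 → s * x ≠ x * s := by
    intro s x hs hx hc
    have h6 := Commute.orderOf_mul_eq_mul_orderOf_of_coprime (show Commute s x from hc)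
      (by rw [hs, hx]; norm_num)
    rw [hs, hx] at h6
    rcases hord (s * x) with h' | h' | h' <;> omega
  have hprime : ∀ p : ℕ, p.Prime → p ∣ Nat.card G → p = 2 ∨ p = 3 := by
    intro p hp hd
    haveI := Fact.mk hp
    obtain ⟨g, hg⟩ := exists_prime_orderOf_dvd_card' p hd
    rcases hord g with h' | h' | h'
    · rw [hg] at h'; exact absurd h' hp.one_lt.ne'
    · left; omega
    · right; omega
  have hcard : ∃ a b, Nat.card G = 2 ^ a * 3 ^ b := by
    have hne : Nat.card G ≠ 0 := Nat.card_pos.ne'
    have e1 := Nat.ordProj_mul_ordCompl_eq_self (Nat.card G) 2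
    have hne' : ordCompl[2] (Nat.card G) ≠ 0 := (Nat.ordCompl_pos 2 hne).ne'
    have h3 := Nat.eq_prime_pow_of_unique_prime_dvd (p := 3) hne' (by
      intro d hd hdv
      rcases hprime d hd (hdv.trans (Nat.ordCompl_dvd _ _)) with rfl | h3
      · exact absurd hdv (Nat.not_dvd_ordCompl Nat.prime_two hne)
      · exact h3)
    exact ⟨_, _, by rw [← h3]; exact e1.symm⟩
  haveI hsolv : Group.IsSolvable G :=
    Cfsg.Agent.Lib.Char.isSolvable_of_card_eq_aux Nat.prime_two Nat.prime_three _ G rfl hcard
  haveI : Nontrivial G := by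
    refine ⟨⟨t0, 1, ?_⟩⟩
    rintro rfl
    simp at ht0
  have hps : Cfsg.IsPSolvable 2 G := Cfsg.Agent.Lib.Struct.isPSolvable_of_isSolvable 2 _ G rfl hsolv
  obtain ⟨N, hNn, hN1, hcase⟩ := Cfsg.Agent.Lib.Coprime.IsPSolvable_exists_normal hps
  haveI := hNn
  obtain ⟨k0, hk0, hk01⟩ : ∃ k ∈ N, k ≠ 1 := by
    obtain ⟨k, hk⟩ := (Subgroup.ne_bot_iff_exists_ne_one).mp hN1
    exact ⟨k, k.2, fun h => hk (Subtype.ext h)⟩
  rcases hcase with hN2 | hNodd
  · -- a normal 2-group
    right
    have hNsq : ∀ v ∈ N, orderOf v = 1 ∨ orderOf v = 2 := by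
      intro v hv
      obtain ⟨m, hm⟩ := hN2 ⟨v, hv⟩
      have hm' : v ^ 2 ^ m = 1 := congrArg Subtype.val hm
      have hd : orderOf v ∣ 2 ^ m := orderOf_dvd_of_pow_eq_one hm'
      rcases hord v with h' | h' | h'
      · exact Or.inl h'
      · exact Or.inr h'
      · rw [h'] at hd
        exact absurd (Nat.Prime.dvd_of_dvd_pow Nat.prime_three hd) (by norm_num)
    have hNsq' : ∀ v ∈ N, v ^ 2 = 1 := by
      intro v hv
      rcases hNsq v hv with h' | h'
      · rw [orderOf_eq_one_iff] at h'; simp [h']
      · rw [← h']; exact pow_orderOf_eq_one v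
    -- every involution centralises `N`
    have hinvN : ∀ s : G, orderOf s = 2 → ∀ v ∈ N, s * v = v * s := by
      intro s hs v hv
      have hs2 : s ^ 2 = 1 := by rw [← hs]; exact pow_orderOf_eq_one s
      have hsi : s⁻¹ = s := by rw [inv_eq_iff_mul_eq_one, ← pow_two]; exact hs2
      have hvi : v⁻¹ = v := by rw [inv_eq_iff_mul_eq_one, ← pow_two]; exact hNsq' v hv
      have hm : (s * v) ^ 2 ∈ N := by
        have e : (s * v) ^ 2 = (s * v * s⁻¹) * v := by
          rw [hsi, pow_two]; group
        rw [e]
        exact N.mul_mem (hNn.conj_mem v hv s) hv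
      have h4 : (s * v) ^ 4 = 1 := by
        have := hNsq' _ hm
        rw [← pow_mul] at this
        exact this
      have hd : orderOf (s * v) ∣ 4 := orderOf_dvd_of_pow_eq_one h4
      have hsq : (s * v) ^ 2 = 1 := by
        rcases hord (s * v) with h' | h' | h'
        · rw [orderOf_eq_one_iff] at h'; simp [h']
        · rw [← h']; exact pow_orderOf_eq_one _
        · rw [h'] at hd; norm_num at hd
      have e := inv_eq_of_mul_eq_one_right (by rw [← pow_two]; exact hsq : (s * v) * (s * v) = 1)
      rw [mul_inv_rev, hsi, hvi] at e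
      exact e.symm
    have hk0o : orderOf k0 = 2 := by
      rcases hNsq k0 hk0 with h' | h'
      · rw [orderOf_eq_one_iff] at h'; exact absurd h' hk01
      · exact h'
    -- `9` does not divide the order
    have h9 : ¬ 3 ^ 2 ∣ Nat.card G := by
      intro hd
      obtain ⟨A, hA⟩ := Sylow.exists_subgroup_card_pow_prime 3 hd
      have hAc : IsMulCommutative A := IsPGroup.isMulCommutative_of_card_eq_prime_sq hA
      have hAord : ∀ a ∈ A, a ≠ 1 → orderOf a = 3 := by
        intro a ha ha1
        have hd2 : orderOf a ∣ 3 ^ 2 := by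
          rw [← hA]
          have := Subgroup.orderOf_dvd_natCard A ha
          exact this
        rcases hord a with h' | h' | h'
        · rw [orderOf_eq_one_iff] at h'; exact absurd h' ha1
        · rw [h'] at hd2; norm_num at hd2
        · exact h'
      have hAnc : ¬ IsCyclic A := by
        intro hc
        obtain ⟨g, hg⟩ := hc.exists_generator
        have hcardg : orderOf g = 9 := by
          have := orderOf_eq_card_of_forall_mem_zpowers hg
          rw [this, hA]; norm_num
        have hg' : orderOf (g : G) = 9 := by rw [Subgroup.orderOf_coe]; exact hcardg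
        rcases hord (g : G) with h' | h' | h' <;> omega
      have hgen := Cfsg.Agent.Lib.Basic.generation_by_centralizers A N hAnc (by
        rw [Subgroup.normalizer_eq_top_iff.mpr hNn]; exact le_top) (by
        rw [hA]
        obtain ⟨m, hm⟩ := (IsPGroup.iff_card.mp hN2)
        rw [hm]
        exact Nat.Coprime.pow _ _ (by norm_num))
      apply hN1
      rw [← hgen]
      refine le_bot_iff.mp (iSup₂_le ?_)
      rintro a ⟨haA, ha1⟩ v ⟨hvN, hvC⟩
      rw [Subgroup.mem_bot]
      by_contra hv1
      have hvo : orderOf v = 2 := by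
        rcases hNsq v hvN with h' | h'
        · rw [orderOf_eq_one_iff] at h'; exact absurd h' hv1
        · exact h'
      exact hno6 v a hvo (hAord a haA ha1) (Subgroup.mem_centralizer_singleton_iff.mp hvC)
    -- Sylow 3-subgroup of order 3
    let Q : Sylow 3 G := default
    have h3d : 3 ∣ Nat.card G := by
      rw [← hx0]; exact orderOf_dvd_natCard x0
    have hQcard : Nat.card (Q : Subgroup G) = 3 := by
      obtain ⟨m, hm⟩ := IsPGroup.iff_card.mp Q.isPGroup'
      have h1 : 3 ^ 1 ∣ Nat.card (Q : Subgroup G) :=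
        Q.pow_dvd_card_of_pow_dvd_card (by simpa using h3d)
      have hm2 : m < 2 := by
        by_contra hge
        apply h9
        have h5 : 3 ^ 2 ∣ 3 ^ m := pow_dvd_pow 3 (by omega)
        rw [← hm] at h5
        exact h5.trans (Subgroup.card_subgroup_dvd_card _)
      have hm1 : m ≠ 0 := by
        rintro rfl
        rw [hm] at h1
        norm_num at h1
      have : m = 1 := by omega
      rw [hm, this]; norm_num
    haveI : Fact (Nat.card (Q : Subgroup G)).Prime := ⟨by rw [hQcard]; exact Nat.prime_three⟩
    obtain ⟨x, hxQ, hx1⟩ : ∃ x ∈ (Q : Subgroup G), x ≠ 1 := by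
      have hne : (Q : Subgroup G) ≠ ⊥ := by
        intro h0
        rw [h0] at hQcard
        simp at hQcard
      obtain ⟨k, hk⟩ := (Subgroup.ne_bot_iff_exists_ne_one).mp hne
      exact ⟨k, k.2, fun h => hk (Subtype.ext h)⟩
    have hxo : orderOf x = 3 := by
      have hd := Subgroup.orderOf_dvd_natCard (Q : Subgroup G) hxQ
      rw [hQcard] at hd
      rcases (Nat.dvd_prime Nat.prime_three).mp hd with h' | h'
      · rw [orderOf_eq_one_iff] at h'; exact absurd h' hx1
      · exact h'
    have hQz : (Q : Subgroup G) = Subgroup.zpowers x := by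
      symm
      apply Subgroup.eq_of_le_of_card_ge
      · rw [Subgroup.zpowers_le]; exact hxQ
      · rw [Nat.card_zpowers, hxo, hQcard]
    have hkey : ∀ g : G, g * x * g⁻¹ ∈ (Q : Subgroup G) → g * x * g⁻¹ = x := by
      intro g hg
      rw [hQz, Subgroup.mem_zpowers_iff] at hg
      obtain ⟨k, hk⟩ := hg
      have hk' : g * x * g⁻¹ = x ^ (k % 3) := by
        have e := zpow_mod_orderOf x k
        rw [hxo] at e
        rw [← hk, ← e]
        norm_num
      have hk3 : k % 3 = 0 ∨ k % 3 = 1 ∨ k % 3 = 2 := by omega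
      have hx3 : x ^ 3 = 1 := by rw [← hxo]; exact pow_orderOf_eq_one x
      rcases hk3 with h0 | h0 | h0
      · rw [h0, zpow_zero] at hk'
        exfalso
        apply hx1
        have : x = g⁻¹ * (g * x * g⁻¹) * g := by group
        rw [this, hk']; group
      · rw [h0, zpow_one] at hk'; exact hk'
      · exfalso
        have hk2 : g * x * g⁻¹ = x ^ 2 := by rw [hk', h0]; norm_cast
        have hpow : ∀ n : ℕ, g ^ n * x * (g ^ n)⁻¹ = x ^ (2 ^ n) := by
          intro n
          induction n with
          | zero => simp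
          | succ n ih =>
            have : g ^ (n + 1) * x * (g ^ (n + 1))⁻¹ = g ^ n * (g * x * g⁻¹) * (g ^ n)⁻¹ := by
              rw [pow_succ]; group
            rw [this, hk2, pow_succ 2 n, pow_mul]
            rw [← ih]
            have e : (g ^ n * x * (g ^ n)⁻¹) ^ 2 = g ^ n * x ^ 2 * (g ^ n)⁻¹ := by
              rw [pow_two, pow_two]; group
            rw [e]
        have hx2 : x ^ 2 ≠ x := by
          intro h2
          apply hx1
          have : x ^ 2 = x * x := pow_two x
          rw [this] at h2
          exact mul_left_cancel (a := x) (by rw [h2, mul_one])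
        rcases hord g with h' | h' | h'
        · rw [orderOf_eq_one_iff] at h'
          rw [h'] at hk2
          simp at hk2
          exact hx2 hk2.symm
        · -- dihedral
          have hg2 : g ^ 2 = 1 := by rw [← h']; exact pow_orderOf_eq_one g
          have hgi : g⁻¹ = g := by rw [inv_eq_iff_mul_eq_one, ← pow_two]; exact hg2
          have hgx : (g * x) ^ 2 = 1 := by
            have e : (g * x) ^ 2 = (g * x * g⁻¹) * (g ^ 2) * x := by
              rw [pow_two, pow_two]; group
            rw [e, hg2, hk2, mul_one, ← pow_succ]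
            exact hx3
          have hgxo : orderOf (g * x) = 2 := by
            have hne : g * x ≠ 1 := by
              intro h1
              have : g = x⁻¹ := eq_inv_of_mul_eq_one_left h1
              have hoi : orderOf g = 3 := by rw [this, orderOf_inv]; exact hxo
              omega
            exact orderOf_eq_prime hgx hne
          have c1 := hinvN g h' k0 hk0
          have c2 := hinvN _ hgxo k0 hk0
          apply hno6 k0 x hk0o hxo
          have c3 : g * (x * k0) = g * (k0 * x) := by
            calc g * (x * k0) = (g * x) * k0 := by group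
              _ = k0 * (g * x) := c2
              _ = (k0 * g) * x := by group
              _ = (g * k0) * x := by rw [c1]
              _ = g * (k0 * x) := by group
          exact (mul_left_cancel c3).symm
        · -- order three
          have hg3 : g ^ 3 = 1 := by rw [← h']; exact pow_orderOf_eq_one g
          have := hpow 3
          rw [hg3] at this
          simp only [one_mul, inv_one, mul_one] at this
          have e8 : x ^ (2 ^ 3) = x ^ 2 := by
            have : (2 : ℕ) ^ 3 = 3 * 2 + 2 := by norm_num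
            rw [this, pow_add, pow_mul, hx3]; simp
          rw [e8] at this
          exact hx2 this.symm
    have hQN : Subgroup.normalizer ((Q : Subgroup G) : Set G) ≤ Subgroup.centralizer ((Q : Subgroup G) : Set G) := by
      intro g hg
      rw [Subgroup.mem_centralizer_iff]
      intro q hq
      have hq' : q ∈ Subgroup.zpowers x := by rw [← hQz]; exact hq
      obtain ⟨k, rfl⟩ := Subgroup.mem_zpowers_iff.mp hq'
      have hc : g * x * g⁻¹ = x := hkey g ((Subgroup.mem_normalizer_iff.mp hg x).mp hxQ)
      have hc' : Commute g x := by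
        show g * x = x * g
        rw [← mul_inv_eq_iff_eq_mul]
        exact hc
      exact (hc'.zpow_right k).eq.symm
    haveI : (Q : Subgroup G).FiniteIndex := inferInstance
    refine ⟨(MonoidHom.transferSylow Q hQN).ker, inferInstance, ?_, ?_⟩
    · have hsq : ∀ k ∈ (MonoidHom.transferSylow Q hQN).ker, k ^ 2 = 1 := by
        intro k hk
        have hnd := MonoidHom.not_dvd_card_ker_transferSylow Q hQN
        have hdk := Subgroup.orderOf_dvd_natCard _ hk
        rcases hord k with h' | h' | h'
        · rw [orderOf_eq_one_iff] at h'; simp [h']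
        · rw [← h']; exact pow_orderOf_eq_one k
        · rw [h'] at hdk; exact absurd hdk hnd
      exact ⟨comm_of_sq hsq, hsq⟩
    · have := (MonoidHom.ker_transferSylow_isComplement' Q hQN).symm.index_eq_card
      rw [this, hQcard]
  · -- a normal subgroup of odd order
    left
    have hNord : ∀ v ∈ N, v ≠ 1 → orderOf v = 3 := by
      intro v hv hv1
      have hd : orderOf v ∣ Nat.card N := Subgroup.orderOf_dvd_natCard N hv
      rcases hord v with h' | h' | h'
      · rw [orderOf_eq_one_iff] at h'; exact absurd h' hv1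
      · rw [h'] at hd
        have := Nat.eq_one_of_dvd_coprimes hNodd hd (dvd_refl 2)
        omega
      · exact h'
    have hk0o := hNord k0 hk0 hk01
    have hinvert : ∀ s : G, orderOf s = 2 → ∀ v ∈ N, s * v * s⁻¹ = v⁻¹ := by
      intro s hs v hv
      have hs2 : s * s = 1 := by
        rw [← pow_two, ← hs]; exact pow_orderOf_eq_one s
      refine Cfsg.Agent.Lib.Basic.inverts_of_fpf_involution hs2 ?_ hv
      rw [eq_bot_iff]
      rintro w ⟨hwN, hwC⟩
      rw [Subgroup.mem_bot]
      by_contra hw1
      exact hno6 s w hs (hNord w hwN hw1) (Subgroup.mem_centralizer_singleton_iff.mp hwC).symm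
    -- a Sylow 2-subgroup through `t0`
    have ht0p : IsPGroup 2 (Subgroup.zpowers t0) := by
      rw [IsPGroup.iff_card, Nat.card_zpowers, ht0]
      exact ⟨1, by norm_num⟩
    obtain ⟨P, hP⟩ := ht0p.exists_le_sylow
    have ht0P : t0 ∈ (P : Subgroup G) := hP (Subgroup.mem_zpowers t0)
    have hPord : ∀ s ∈ (P : Subgroup G), s ≠ 1 → orderOf s = 2 := by
      intro s hs hs1
      obtain ⟨m, hm⟩ := P.isPGroup' ⟨s, hs⟩
      have hm' : s ^ 2 ^ m = 1 := congrArg Subtype.val hm
      have hd : orderOf s ∣ 2 ^ m := orderOf_dvd_of_pow_eq_one hm'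
      rcases hord s with h' | h' | h'
      · rw [orderOf_eq_one_iff] at h'; exact absurd h' hs1
      · exact h'
      · rw [h'] at hd
        exact absurd (Nat.Prime.dvd_of_dvd_pow Nat.prime_three hd) (by norm_num)
    have huniq : ∀ s ∈ (P : Subgroup G), s ≠ 1 → s = t0 := by
      intro s hs hs1
      have hso := hPord s hs hs1
      by_contra hne
      have hst : s * t0 ≠ 1 := by
        intro h1
        apply hne
        have : s = t0⁻¹ := eq_inv_of_mul_eq_one_left h1
        rw [this, inv_eq_iff_mul_eq_one, ← pow_two, ← ht0]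
        exact pow_orderOf_eq_one t0
      have hsto := hPord _ ((P : Subgroup G).mul_mem hs ht0P) hst
      have e1 := hinvert _ hsto k0 hk0
      have e2 := hinvert t0 ht0 k0 hk0
      have e3 := hinvert s hso k0⁻¹ (N.inv_mem hk0)
      have e4 : s * t0 * k0 * (s * t0)⁻¹ = s * (t0 * k0 * t0⁻¹) * s⁻¹ := by group
      rw [e4, e2, e3, inv_inv] at e1
      -- `k0 = k0⁻¹` contradicts order three
      have h2 : k0 ^ 2 = 1 := by
        rw [pow_two]
        nth_rewrite 1 [e1]
        exact inv_mul_cancel k0
      have : orderOf k0 ∣ 2 := orderOf_dvd_of_pow_eq_one h2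
      rw [hk0o] at this
      norm_num at this
    have hPz : (P : Subgroup G) = Subgroup.zpowers t0 := by
      apply le_antisymm
      · intro s hs
        by_cases hs1 : s = 1
        · rw [hs1]; exact one_mem _
        · rw [huniq s hs hs1]; exact Subgroup.mem_zpowers t0
      · rw [Subgroup.zpowers_le]; exact ht0P
    have hPcard : Nat.card (P : Subgroup G) = 2 := by
      rw [hPz, Nat.card_zpowers, ht0]
    let Q : Sylow 3 G := default
    have hQord : ∀ q ∈ (Q : Subgroup G), q ≠ 1 → orderOf q = 3 := by
      intro s hs hs1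
      obtain ⟨m, hm⟩ := Q.isPGroup' ⟨s, hs⟩
      have hm' : s ^ 3 ^ m = 1 := congrArg Subtype.val hm
      have hd : orderOf s ∣ 3 ^ m := orderOf_dvd_of_pow_eq_one hm'
      rcases hord s with h' | h' | h'
      · rw [orderOf_eq_one_iff] at h'; exact absurd h' hs1
      · rw [h'] at hd
        exact absurd (Nat.Prime.dvd_of_dvd_pow Nat.prime_two hd) (by norm_num)
      · exact h'
    have hQcube : ∀ q ∈ (Q : Subgroup G), q ^ 3 = 1 := by
      intro q hq
      by_cases hq1 : q = 1
      · simp [hq1]
      · rw [← hQord q hq hq1]; exact pow_orderOf_eq_one q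
    have hQidx : (Q : Subgroup G).index = 2 := by
      have hnd : ¬ 3 ∣ (Q : Subgroup G).index := Q.not_dvd_index
      have hdvd : (Q : Subgroup G).index ∣ Nat.card G := Subgroup.index_dvd_card _
      have hne0 : (Q : Subgroup G).index ≠ 0 := Subgroup.index_ne_zero_of_finite
      have hi := Nat.eq_prime_pow_of_unique_prime_dvd (p := 2) hne0 (by
        intro d hd hdv
        rcases hprime d hd (hdv.trans hdvd) with h2 | h3
        · exact h2
        · rw [h3] at hdv; exact absurd hdv hnd)
      generalize (Q : Subgroup G).index.primeFactorsList.length = c at hi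
      have hpd : 2 ^ c ∣ Nat.card (P : Subgroup G) :=
        P.pow_dvd_card_of_pow_dvd_card (by rw [← hi]; exact hdvd)
      rw [hPcard] at hpd
      have hc1 : c ≤ 1 := by
        exact (Nat.pow_dvd_pow_iff_le_right (x := 2) (k := c) (l := 1) (by norm_num)).mp (by simpa using hpd)
      have hc0 : c ≠ 0 := by
        rintro rfl
        rw [pow_zero, Subgroup.index_eq_one] at hi
        have ht0Q : t0 ∈ (Q : Subgroup G) := by rw [hi]; exact Subgroup.mem_top _
        have := hQord t0 ht0Q (by rintro rfl; simp at ht0)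
        omega
      have : c = 1 := by omega
      rw [hi, this]; norm_num
    have hQn : (Q : Subgroup G).Normal := Subgroup.normal_of_index_eq_two hQidx
    refine ⟨Q, hQn, ?_, hQidx⟩
    have hinv : ∀ q ∈ (Q : Subgroup G), t0 * q * t0⁻¹ = q⁻¹ := by
      intro q hq
      have hs2 : t0 * t0 = 1 := by
        rw [← pow_two, ← ht0]; exact pow_orderOf_eq_one t0
      refine Cfsg.Agent.Lib.Basic.inverts_of_fpf_involution hs2 ?_ hq
      rw [eq_bot_iff]
      rintro w ⟨hwN, hwC⟩
      rw [Subgroup.mem_bot]
      by_contra hw1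
      exact hno6 t0 w ht0 (hQord w hwN hw1) (Subgroup.mem_centralizer_singleton_iff.mp hwC).symm
    refine ⟨⟨⟨fun a b => Subtype.ext ?_⟩⟩, hQcube⟩
    have e1 := hinv _ ((Q : Subgroup G).mul_mem a.2 b.2)
    have e2 := hinv _ a.2
    have e3 := hinv _ b.2
    have e4 : t0 * ((a : G) * b) * t0⁻¹ = (t0 * a * t0⁻¹) * (t0 * b * t0⁻¹) := by group
    rw [e4, e2, e3, mul_inv_rev] at e1
    show (a : G) * b = b * a
    have e5 := congrArg (fun z => z⁻¹) e1
    simp only [mul_inv_rev, inv_inv] at e5
    exact e5.symm

end Cfsg.Agent.S4005
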