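import Cfsg.Statements.S4006
import Cfsg.Agent.Lib.PGroups.Fpf3
import Cfsg.Agent.Lib.Components.Basic
import Cfsg.Agent.Lib.OddLocal.FrobComp
import Cfsg.Agent.Lib.Basic.MinNormal
import Cfsg.Agent.Lib.Char.Burnside

set_option autoImplicit false
open Cfsg

namespace Cfsg.Agent.S4006

section aux

open Subgroup Cfsg Cfsg.Agent.Lib.Components Cfsg.Agent.Lib.PGroups.Fpf3

/-- A non-abelian group of order six is `S₃`. -/
private theorem perm3_of_card6 {H : Type*} [Group H] [Finite H] (hc : Nat.card H = 6)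
    (hna : ∃ a b : H, a * b ≠ b * a) : Nonempty (H ≃* Equiv.Perm (Fin 3)) := by
  classical
  haveI : Fact (Nat.Prime 2) := ⟨Nat.prime_two⟩
  obtain ⟨t, ht⟩ := exists_prime_orderOf_dvd_card' (G := H) 2 (by rw [hc]; norm_num)
  let T : Subgroup H := zpowers t
  have hTc : Nat.card T = 2 := by rw [Nat.card_zpowers, ht]
  have hTi : T.index = 3 := by
    have := T.card_mul_index
    rw [hTc, hc] at this
    omega
  let φ : H →* Equiv.Perm (H ⧸ T) := MulAction.toPermHom H (H ⧸ T)
  have hker : φ.ker ≤ T := by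
    intro g hg
    have h1 : φ g ((1 : H) : H ⧸ T) = ((1 : H) : H ⧸ T) := by
      rw [MonoidHom.mem_ker.mp hg]; rfl
    have h2 : ((g * 1 : H) : H ⧸ T) = ((1 : H) : H ⧸ T) := h1
    have h3 := QuotientGroup.eq.mp h2
    simpa using h3
  have hinj : Function.Injective φ := by
    rw [← MonoidHom.ker_eq_bot_iff]
    by_contra hne
    have hcard : Nat.card φ.ker = 2 := by
      have h1 : Nat.card φ.ker ∣ 2 := hTc ▸ Subgroup.card_dvd_of_le hker
      have h2 : Nat.card φ.ker ≠ 1 := by
        intro h3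
        exact hne ((Subgroup.card_eq_one).mp h3)
      have := (Nat.dvd_prime Nat.prime_two).mp h1
      omega
    have hkT : φ.ker = T := Subgroup.eq_of_le_of_card_ge hker (by rw [hcard, hTc])
    haveI hTn : T.Normal := hkT ▸ (inferInstance : φ.ker.Normal)
    have hTcen : T ≤ center H := by
      intro y hy
      rw [Subgroup.mem_center_iff]
      intro g
      have h1 : g * y * g⁻¹ ∈ T := hTn.conj_mem y hy g
      by_cases hy1 : y = 1
      · rw [hy1]; simp
      have hmem : ∀ z ∈ T, z = 1 ∨ z = t := by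
        intro z hz
        obtain ⟨k, rfl⟩ := mem_zpowers_iff.mp hz
        have h2 : (t : H) ^ (k % 2) = t ^ k := by
          have := zpow_mod_orderOf t k
          rw [ht] at this
          exact_mod_cast this
        rcases Int.emod_two_eq_zero_or_one k with h3 | h3
        · left; rw [← h2, h3]; simp
        · right; rw [← h2, h3]; simp
      have hy2 : y = t := (hmem y hy).resolve_left hy1
      have hz1 : g * y * g⁻¹ ≠ 1 := by
        intro h
        apply hy1
        have := (mul_inv_eq_one.mp h)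
        exact mul_left_cancel (a := g) (by rw [this, mul_one])
      have h3 : g * y * g⁻¹ = y := by
        rw [(hmem _ h1).resolve_left hz1, hy2]
      exact (mul_inv_eq_iff_eq_mul.mp h3)
    haveI : Fact (Nat.Prime 3) := ⟨Nat.prime_three⟩
    haveI : IsCyclic (H ⧸ T) := by
      apply isCyclic_of_prime_card (p := 3)
      rw [← Subgroup.index_eq_card, hTi]
    obtain ⟨a, b, hab⟩ := hna
    apply hab
    apply commutative_of_cyclic_center_quotient (QuotientGroup.mk' T)
    rw [QuotientGroup.ker_mk']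
    exact hTcen
  let e : (H ⧸ T) ≃ Fin 3 := Finite.equivFinOfCardEq (by rw [← Subgroup.index_eq_card, hTi])
  let ψ : Equiv.Perm (H ⧸ T) ≃* Equiv.Perm (Fin 3) := Equiv.permCongrHom e
  let f : H →* Equiv.Perm (Fin 3) := ψ.toMonoidHom.comp φ
  have hf : Function.Injective f := ψ.injective.comp hinj
  have hbij : Function.Bijective f := by
    apply hf.bijective_of_nat_card_le
    rw [hc]
    simp [Nat.card_eq_fintype_card, Fintype.card_perm, Nat.factorial]
  exact ⟨MulEquiv.ofBijective f hbij⟩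

section orders

variable {G : Type*} [Group G]

private theorem no6 (hle : ∀ g : G, orderOf g ≤ 4) {a b : G} (ha : orderOf a = 2) (hb : orderOf b = 3)
    (hc : Commute a b) : False := by
  have h1 := hc.orderOf_mul_eq_mul_orderOf_of_coprime (by rw [ha, hb]; norm_num)
  have := hle (a * b)
  rw [h1, ha, hb] at this
  omega

private theorem ord_cases [Finite G] (hle : ∀ g : G, orderOf g ≤ 4) (x : G) :
    orderOf x = 1 ∨ orderOf x = 2 ∨ orderOf x = 3 ∨ orderOf x = 4 := by
  have h1 := hle x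
  have h2 := orderOf_pos x
  omega

private theorem no6' [Finite G] (hle : ∀ g : G, orderOf g ≤ 4) {x y : G} (hx : x ≠ 1)
    (hx3 : orderOf x ≠ 3) (hy : orderOf y = 3) (hc : Commute x y) : False := by
  rcases ord_cases hle x with h | h | h | h
  · exact hx (orderOf_eq_one_iff.mp h)
  · exact no6 hle h hy hc
  · exact hx3 h
  · have h2 : orderOf (x ^ 2) = 2 := by
      rw [orderOf_pow' _ (by norm_num), h]; norm_num
    exact no6 hle h2 hy (hc.pow_left 2)

private theorem le4_quot [Finite G] (hle : ∀ g : G, orderOf g ≤ 4) (N : Subgroup G) [N.Normal]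
    (q : G ⧸ N) : orderOf q ≤ 4 := by
  obtain ⟨g, rfl⟩ := QuotientGroup.mk_surjective q
  have h1 : orderOf ((g : G ⧸ N)) ∣ orderOf g := orderOf_map_dvd (QuotientGroup.mk' N) g
  exact (Nat.le_of_dvd (orderOf_pos g) h1).trans (hle g)

/-- orders of elements of 3-subgroups -/
private theorem ord_of_three [Finite G] (hle : ∀ g : G, orderOf g ≤ 4) {x : G} {k : ℕ}
    (hx : x ^ (3 ^ k) = 1) : orderOf x = 1 ∨ orderOf x = 3 := by
  have h1 : orderOf x ∣ 3 ^ k := orderOf_dvd_of_pow_eq_one hx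
  obtain ⟨j, -, hj⟩ := (Nat.dvd_prime_pow Nat.prime_three).mp h1
  rcases ord_cases hle x with h | h | h | h
  · exact Or.inl h
  · rw [h] at hj
    have : 2 ∣ 3 ^ j := hj ▸ dvd_rfl
    have := Nat.Prime.dvd_of_dvd_pow Nat.prime_two this
    omega
  · exact Or.inr h
  · rw [h] at hj
    have : 2 ∣ 3 ^ j := by rw [← hj]; norm_num
    have := Nat.Prime.dvd_of_dvd_pow Nat.prime_two this
    omega

private theorem ord_of_two [Finite G] (hle : ∀ g : G, orderOf g ≤ 4) {x : G} {k : ℕ}
    (hx : x ^ (2 ^ k) = 1) : orderOf x ≠ 3 := by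
  intro h3
  have h1 : orderOf x ∣ 2 ^ k := orderOf_dvd_of_pow_eq_one hx
  rw [h3] at h1
  have := Nat.Prime.dvd_of_dvd_pow Nat.prime_three h1
  omega

private theorem mem_order3 {y x : G} (hy : orderOf y = 3) (hx : x ∈ zpowers y) (hx1 : x ≠ 1) :
    x = y ∨ x = y⁻¹ := by
  obtain ⟨k, rfl⟩ := mem_zpowers_iff.mp hx
  have h2 : y ^ (k % 3) = y ^ k := by
    have := zpow_mod_orderOf y k
    rw [hy] at this
    exact_mod_cast this
  have h3 : k % 3 = 0 ∨ k % 3 = 1 ∨ k % 3 = 2 := by omega
  rw [← h2] at hx1 ⊢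
  rcases h3 with h3 | h3 | h3
  · rw [h3] at hx1; simp at hx1
  · left; rw [h3]; simp
  · right; rw [h3]
    have h4 : y ^ 3 = 1 := by rw [← hy]; exact pow_orderOf_eq_one y
    rw [eq_inv_iff_mul_eq_one]
    have : y ^ (2 : ℤ) * y = y ^ 3 := by
      rw [← zpow_natCast y 3, ← zpow_add_one]; rfl
    rw [this, h4]

end orders

variable {G : Type*} [Group G] [Finite G]

private theorem inv_of_invol {N : Subgroup G} [hN : N.Normal] {y : G} (hy : y ^ 2 = 1)
    (hfix : ∀ n ∈ N, y * n * y⁻¹ = n → n = 1) (n : G) (hn : n ∈ N) : y * n * y⁻¹ = n⁻¹ := by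
  let σ : N →* N := (MulAut.conjNormal y).toMonoidHom
  have hσ' : ∀ x : N, ((σ x : N) : G) = y * x * y⁻¹ := fun x => MulAut.conjNormal_apply y x
  have hfixσ : ∀ x : N, σ x = x → x = 1 := by
    intro x hx
    have h1 : y * (x : G) * y⁻¹ = x := by rw [← hσ', hx]
    exact Subtype.ext (hfix x x.2 h1)
  obtain ⟨a, ha⟩ := norm_surj σ hfixσ ⟨n, hn⟩
  have hyi : y⁻¹ = y := by
    rw [pow_two] at hy
    exact (eq_inv_of_mul_eq_one_left hy).symm
  have h2 : (n : G) = (a : G)⁻¹ * (y * a * y⁻¹) := by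
    have := congrArg Subtype.val ha
    simp only [Subgroup.coe_mul, Subgroup.coe_inv, hσ'] at this
    exact this.symm
  rw [h2, hyi]
  have hyy : y * y = 1 := by rw [pow_two] at hy; exact hy
  have h5 : y * ((a : G)⁻¹ * (y * a * y)) * y = y * (a : G)⁻¹ * y * a * (y * y) := by group
  rw [h5, hyy, mul_one]
  rw [mul_inv_rev, mul_inv_rev, mul_inv_rev, inv_inv, hyi]
  group

private theorem case3 (hle : ∀ g : G, orderOf g ≤ 4) {g₄ : G} (hg₄ : orderOf g₄ = 4)
    (hprimes : ∀ p : ℕ, p.Prime → p ∣ Nat.card G → p = 2 ∨ p = 3)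
    (N : Subgroup G) [hN : N.Normal] (hN3 : IsPGroup 3 N) (hN1 : N ≠ ⊥)
    (hmax : ∀ K : Subgroup G, K.Normal → IsPGroup 3 K → K ≤ N) :
    IsElementaryAbelian 3 N ∧
      ((IsCyclic (G ⧸ N) ∧ N.index = 4) ∨ Nonempty (G ⧸ N ≃* QuaternionGroup 2)) := by
  classical
  haveI f2 : Fact (Nat.Prime 2) := ⟨Nat.prime_two⟩
  haveI f3 : Fact (Nat.Prime 3) := ⟨Nat.prime_three⟩
  have hNo : ∀ n ∈ N, orderOf n = 1 ∨ orderOf n = 3 := by
    intro n hn
    obtain ⟨k, hk⟩ := hN3 ⟨n, hn⟩
    exact ord_of_three hle (k := k) (by simpa using congrArg Subtype.val hk)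
  have hN3pow : ∀ n ∈ N, n ^ 3 = 1 := by
    intro n hn
    rcases hNo n hn with h | h
    · rw [orderOf_eq_one_iff.mp h, one_pow]
    · rw [← h]; exact pow_orderOf_eq_one n
  have hfpf : ∀ h : G, h ≠ 1 → orderOf h ≠ 3 → ∀ n ∈ N, Commute n h → n = 1 := by
    intro h hh1 hh3 n hn hc
    by_contra hn1
    have h3 : orderOf n = 3 := (hNo n hn).resolve_left (fun h1 => hn1 (orderOf_eq_one_iff.mp h1))
    exact no6' hle hh1 hh3 h3 hc.symm
  -- every involution inverts `N`
  have hinvo : ∀ y : G, orderOf y = 2 → ∀ n ∈ N, y * n * y⁻¹ = n⁻¹ := by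
    intro y hy n hn
    have hy1 : y ≠ 1 := by
      rintro rfl
      simp at hy
    apply inv_of_invol (by rw [← hy]; exact pow_orderOf_eq_one y) _ n hn
    intro m hm hmy
    have h1 : Commute m y := by
      have h2 : y * m = m * y := mul_inv_eq_iff_eq_mul.mp hmy
      exact h2.symm
    exact hfpf y hy1 (by rw [hy]; norm_num) m hm h1
  let z : G := g₄ ^ 2
  have hz : orderOf z = 2 := by
    change orderOf (g₄ ^ 2) = 2
    rw [orderOf_pow' _ (by norm_num), hg₄]; norm_num
  have hNcomm : ∀ a ∈ N, ∀ b ∈ N, a * b = b * a := by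
    intro a ha b hb
    have h1 := hinvo z hz (a * b) (N.mul_mem ha hb)
    have h2 := hinvo z hz a ha
    have h3 := hinvo z hz b hb
    have h4 : z * (a * b) * z⁻¹ = (z * a * z⁻¹) * (z * b * z⁻¹) := by group
    rw [h4, h2, h3, mul_inv_rev] at h1
    have h5 := congrArg (fun x => x⁻¹) h1
    simpa using h5.symm
  have hel : IsElementaryAbelian 3 N := by
    refine ⟨⟨⟨fun a b => Subtype.ext (hNcomm a a.2 b b.2)⟩⟩, hN3pow⟩
  -- the centraliser of `N` lies in `N`
  obtain ⟨n₀, hn₀, hn₀1⟩ : ∃ n₀ ∈ N, n₀ ≠ 1 := by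
    by_contra hh
    push Not at hh
    exact hN1 ((Subgroup.eq_bot_iff_forall N).mpr hh)
  have hC : centralizer (N : Set G) ≤ N := by
    apply hmax
    · infer_instance
    · intro c
      have hc3 : orderOf (c : G) = 1 ∨ orderOf (c : G) = 3 := by
        by_contra hh
        push Not at hh
        have hc1 : (c : G) ≠ 1 := fun h => hh.1 (orderOf_eq_one_iff.mpr h)
        have hcc : Commute n₀ (c : G) := Subgroup.mem_centralizer_iff.mp c.2 n₀ hn₀
        exact hn₀1 (hfpf c hc1 hh.2 n₀ hn₀ hcc)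
      refine ⟨1, Subtype.ext ?_⟩
      rw [pow_one]
      rcases hc3 with h | h
      · simp [orderOf_eq_one_iff.mp h]
      · have := pow_orderOf_eq_one (c : G)
        rw [h] at this
        simpa using this
  -- `z` is central modulo `N`
  have hzc : ∀ g : G, z * (g * z * g⁻¹) ∈ N := by
    intro g
    apply hC
    rw [Subgroup.mem_centralizer_iff]
    intro n hn
    have hz' : orderOf (g * z * g⁻¹) = 2 := by
      have := MulAut.conj g |>.orderOf_eq z
      simpa [MulAut.conj_apply, hz] using this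
    have h1 := hinvo _ hz' n hn
    have h2 := hinvo z hz n⁻¹ (N.inv_mem hn)
    have h3 : (z * (g * z * g⁻¹)) * n * (z * (g * z * g⁻¹))⁻¹
        = z * ((g * z * g⁻¹) * n * (g * z * g⁻¹)⁻¹) * z⁻¹ := by group
    have h4 : (z * (g * z * g⁻¹)) * n * (z * (g * z * g⁻¹))⁻¹ = n := by
      rw [h3, h1, h2, inv_inv]
    exact (mul_inv_eq_iff_eq_mul.mp h4).symm
  -- `3` does not divide the index
  have hzbar : ∀ q : G ⧸ N, Commute (z : G ⧸ N) q := by
    intro q
    obtain ⟨g, rfl⟩ := QuotientGroup.mk_surjective q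
    have h1 := hzc g
    have h2 : ((z * (g * z * g⁻¹) : G) : G ⧸ N) = 1 := (QuotientGroup.eq_one_iff _).mpr h1
    have hzz : z * z = 1 := by
      have := pow_orderOf_eq_one z
      rw [hz, pow_two] at this
      exact this
    have hzi : (z : G ⧸ N) * z = 1 := by rw [← QuotientGroup.mk_mul, hzz]; rfl
    simp only [QuotientGroup.mk_mul, QuotientGroup.mk_inv] at h2
    have h3 : (g : G ⧸ N) * z * (g : G ⧸ N)⁻¹ = (z : G ⧸ N)⁻¹ := eq_inv_of_mul_eq_one_right (by
      rw [← mul_assoc] at h2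
      simpa [mul_assoc] using h2)
    have h4 : (z : G ⧸ N)⁻¹ = z := (eq_inv_of_mul_eq_one_left hzi).symm
    rw [h4] at h3
    exact (mul_inv_eq_iff_eq_mul.mp h3).symm
  have hzord : orderOf (z : G ⧸ N) = 2 := by
    have h1 : (z : G ⧸ N) ≠ 1 := by
      intro h
      have h2 : z ∈ N := (QuotientGroup.eq_one_iff _).mp h
      rcases hNo z h2 with h3 | h3 <;> rw [hz] at h3 <;> omega
    have h2 : (z : G ⧸ N) ^ 2 = 1 := by
      rw [← QuotientGroup.mk_pow, ← hz, pow_orderOf_eq_one]; rfl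
    exact orderOf_eq_prime h2 h1
  have h3ndvd : ¬ 3 ∣ N.index := by
    intro h3
    rw [Subgroup.index_eq_card] at h3
    obtain ⟨w, hw⟩ := exists_prime_orderOf_dvd_card' (G := G ⧸ N) 3 h3
    exact no6 (le4_quot hle N) hzord hw (hzbar w)
  have hindex : ∃ k, N.index = 2 ^ k := by
    refine ⟨_, Nat.eq_prime_pow_of_unique_prime_dvd (Subgroup.index_ne_zero_of_finite) ?_⟩
    intro d hd hdd
    rcases hprimes d hd (hdd.trans (Subgroup.index_dvd_card N)) with h | h
    · exact h
    · exact absurd (h ▸ hdd) h3ndvd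
  obtain ⟨k, hk⟩ := hindex
  have hQ2 : IsPGroup 2 (G ⧸ N) := IsPGroup.of_card (n := k) (by rw [← Subgroup.index_eq_card, hk])
  -- a Sylow `2`-subgroup containing `g₄`
  have hg₄2 : IsPGroup 2 (zpowers g₄) := IsPGroup.of_card (n := 2) (by rw [Nat.card_zpowers, hg₄]; norm_num)
  obtain ⟨S, hS⟩ := hg₄2.exists_le_sylow
  have hg₄S : g₄ ∈ (S : Subgroup G) := hS (mem_zpowers g₄)
  have hSo : ∀ s ∈ (S : Subgroup G), orderOf s ≠ 3 := by
    intro s hs
    obtain ⟨j, hj⟩ := S.2 ⟨s, hs⟩
    exact ord_of_two hle (k := j) (by simpa using congrArg Subtype.val hj)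
  let φ : (S : Subgroup G) →* G ⧸ N := (QuotientGroup.mk' N).comp (S : Subgroup G).subtype
  have hφinj : Function.Injective φ := by
    rw [← MonoidHom.ker_eq_bot_iff, eq_bot_iff]
    intro s hs
    have h1 : (s : G) ∈ N := by
      have h2 : ((s : G) : G ⧸ N) = 1 := hs
      exact (QuotientGroup.eq_one_iff _).mp h2
    have h3 := (hNo s h1).resolve_right (hSo s s.2)
    rw [Subgroup.mem_bot]
    exact Subtype.ext (orderOf_eq_one_iff.mp h3)
  have hφsurj : Function.Surjective φ := by
    have hsur : Function.Surjective (QuotientGroup.mk' N) := QuotientGroup.mk'_surjective N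
    let S' : Sylow 2 (G ⧸ N) := S.mapSurjective hsur
    have h1 : (⊤ : Subgroup (G ⧸ N)) = S' := S'.is_maximal' (hQ2.to_subgroup ⊤) le_top
    intro q
    have h2 : q ∈ (S' : Subgroup (G ⧸ N)) := h1 ▸ mem_top q
    obtain ⟨s, hs, hq⟩ := (Subgroup.mem_map).mp h2
    exact ⟨⟨s, hs⟩, hq⟩
  let eS : (S : Subgroup G) ≃* G ⧸ N := MulEquiv.ofBijective φ ⟨hφinj, hφsurj⟩
  have hScard : Nat.card (S : Subgroup G) = N.index := by
    rw [Subgroup.index_eq_card]; exact Nat.card_congr eS.toEquiv
  -- structure of `S`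
  have hfpfS : ∀ h ∈ (S : Subgroup G), h ≠ 1 → N ⊓ centralizer {h} = ⊥ := by
    intro h hh hh1
    rw [eq_bot_iff]
    intro n hn
    rw [Subgroup.mem_bot]
    apply hfpf h hh1 (hSo h hh) n hn.1
    have := Subgroup.mem_centralizer_iff.mp hn.2 h (Set.mem_singleton h)
    exact this.symm
  have hcq := Cfsg.Agent.Lib.OddLocal.cyclic_or_quaternion_of_fpf hN1 S.2 hfpfS
  have hg4ord : (4 : ℕ) ∣ Nat.card (S : Subgroup G) := by
    have := orderOf_dvd_natCard (⟨g₄, hg₄S⟩ : (S : Subgroup G))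
    rwa [Subgroup.orderOf_mk, hg₄] at this
  have hScase : IsCyclic (S : Subgroup G) ∨ Nonempty ((S : Subgroup G) ≃* QuaternionGroup 2) := by
    rcases hcq with h | ⟨n, ⟨e⟩⟩
    · exact Or.inl h
    · have h1 : orderOf (e.symm (QuaternionGroup.a 1)) = 2 * 2 ^ n := by
        rw [MulEquiv.orderOf_eq, QuaternionGroup.orderOf_a_one]
      have h2 : orderOf ((e.symm (QuaternionGroup.a 1) : (S : Subgroup G)) : G) = 2 * 2 ^ n := by
        rw [Subgroup.orderOf_coe, h1]
      have h3 := hle ((e.symm (QuaternionGroup.a 1) : (S : Subgroup G)) : G)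
      rw [h2] at h3
      have h4 : n ≤ 1 := by
        by_contra hn
        have : 2 ^ 2 ≤ 2 ^ n := Nat.pow_le_pow_right (by norm_num) (by omega)
        omega
      interval_cases n
      · left
        haveI : IsCyclic (QuaternionGroup (2 ^ 0)) := QuaternionGroup.quaternionGroup_one_isCyclic
        exact isCyclic_of_surjective e.symm e.symm.surjective
      · right
        exact ⟨e⟩
  refine ⟨hel, ?_⟩
  rcases hScase with hcyc | ⟨⟨e⟩⟩
  · left
    refine ⟨isCyclic_of_surjective eS eS.surjective, ?_⟩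
    obtain ⟨y, hy⟩ := hcyc.exists_generator
    have h1 := orderOf_eq_card_of_forall_mem_zpowers hy
    have h2 := hle ((y : (S : Subgroup G)) : G)
    rw [Subgroup.orderOf_coe, h1] at h2
    have h3 := Nat.le_of_dvd Nat.card_pos hg4ord
    omega
  · right
    exact ⟨eS.symm.trans e⟩

private theorem case2 (hle : ∀ g : G, orderOf g ≤ 4) {g₃ g₄ : G} (hg₃ : orderOf g₃ = 3)
    (hg₄ : orderOf g₄ = 4) (hsolv : Group.IsSolvable G)
    (hprimes : ∀ p : ℕ, p.Prime → p ∣ Nat.card G → p = 2 ∨ p = 3)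
    (N : Subgroup G) [hN : N.Normal] (hN2 : IsPGroup 2 N) (hN1 : N ≠ ⊥)
    (hmax : ∀ K : Subgroup G, K.Normal → IsPGroup 2 K → K ≤ N) :
    (IsPGroup 2 N ∧ Monoid.exponent N = 4 ∧ Group.nilpotencyClass N ≤ 2 ∧ N.index = 3) ∨
      (IsElementaryAbelian 2 N ∧ Nonempty (G ⧸ N ≃* Equiv.Perm (Fin 3))) := by
  classical
  haveI f2 : Fact (Nat.Prime 2) := ⟨Nat.prime_two⟩
  haveI f3 : Fact (Nat.Prime 3) := ⟨Nat.prime_three⟩
  have hNo : ∀ n ∈ N, orderOf n ≠ 3 := by
    intro n hn
    obtain ⟨k, hk⟩ := hN2 ⟨n, hn⟩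
    exact ord_of_two hle (k := k) (by simpa using congrArg Subtype.val hk)
  have hfpf : ∀ r : G, orderOf r = 3 → ∀ n ∈ N, Commute n r → n = 1 := by
    intro r hr n hn hc
    by_contra hn1
    exact no6' hle hn1 (hNo n hn) hr hc
  -- the Sylow `3`-subgroups have order three
  have hg₃3 : IsPGroup 3 (zpowers g₃) :=
    IsPGroup.of_card (n := 1) (by rw [Nat.card_zpowers, hg₃]; norm_num)
  obtain ⟨R, hR⟩ := hg₃3.exists_le_sylow
  have hRo : ∀ r ∈ (R : Subgroup G), orderOf r = 1 ∨ orderOf r = 3 := by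
    intro r hr
    obtain ⟨j, hj⟩ := R.2 ⟨r, hr⟩
    exact ord_of_three hle (k := j) (by simpa using congrArg Subtype.val hj)
  have hfpfR : ∀ h ∈ (R : Subgroup G), h ≠ 1 → N ⊓ centralizer {h} = ⊥ := by
    intro h hh hh1
    rw [eq_bot_iff]
    intro n hn
    rw [Subgroup.mem_bot]
    have h3 := (hRo h hh).resolve_left (fun h1 => hh1 (orderOf_eq_one_iff.mp h1))
    apply hfpf h h3 n hn.1
    have := Subgroup.mem_centralizer_iff.mp hn.2 h (Set.mem_singleton h)
    exact this.symm
  have h3dvdR : 3 ∣ Nat.card (R : Subgroup G) := by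
    have := orderOf_dvd_natCard (⟨g₃, hR (mem_zpowers g₃)⟩ : (R : Subgroup G))
    rwa [Subgroup.orderOf_mk, hg₃] at this
  have hRcard : Nat.card (R : Subgroup G) = 3 := by
    rcases Cfsg.Agent.Lib.OddLocal.cyclic_or_quaternion_of_fpf hN1 R.2 hfpfR with h | ⟨n, ⟨e⟩⟩
    · obtain ⟨y, hy⟩ := h.exists_generator
      have h1 := orderOf_eq_card_of_forall_mem_zpowers hy
      have h2 := hRo (y : G) y.2
      rw [Subgroup.orderOf_coe, h1] at h2
      rcases h2 with h2 | h2
      · rw [h2] at h3dvdR; omega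
      · exact h2
    · exfalso
      have h1 : orderOf (e.symm (QuaternionGroup.a 1)) = 2 * 2 ^ n := by
        rw [MulEquiv.orderOf_eq, QuaternionGroup.orderOf_a_one]
      have h2 := hRo ((e.symm (QuaternionGroup.a 1) : (R : Subgroup G)) : G) (SetLike.coe_mem _)
      rw [Subgroup.orderOf_coe, h1] at h2
      omega
  -- the quotient
  have hleQ : ∀ q : G ⧸ N, orderOf q ≤ 4 := le4_quot hle N
  have hsurj : Function.Surjective (QuotientGroup.mk' N) := QuotientGroup.mk'_surjective N
  have hg₃N : g₃ ∉ N := fun h => hNo g₃ h hg₃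
  haveI : Nontrivial (G ⧸ N) :=
    ⟨⟨(g₃ : G ⧸ N), 1, fun h => hg₃N ((QuotientGroup.eq_one_iff _).mp h)⟩⟩
  obtain ⟨r, M, hr, hMn, hM1, -, hMp⟩ :=
    Cfsg.Agent.Lib.Basic.exists_normal_abelian_pSubgroup (G := G ⧸ N)
  haveI := hMn
  haveI : Fact r.Prime := ⟨hr⟩
  obtain ⟨a, ha⟩ := IsPGroup.iff_card.mp hMp
  have ha0 : a ≠ 0 := by
    rintro rfl
    exact hM1 (Subgroup.card_eq_one.mp (by simpa using ha))
  have hrdvd : r ∣ Nat.card G := by
    have h1 : r ∣ Nat.card M := by rw [ha]; exact dvd_pow_self r ha0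
    exact h1.trans ((Subgroup.card_subgroup_dvd_card M).trans (Subgroup.card_quotient_dvd_card N))
  have hr3 : r = 3 := by
    rcases hprimes r hr hrdvd with h | h
    · exfalso
      subst h
      apply hM1
      have h1 : IsPGroup 2 (M.comap (QuotientGroup.mk' N)) := by
        intro u
        obtain ⟨k, hk⟩ := hMp ⟨(u : G), u.2⟩
        have h2 : (u : G) ^ 2 ^ k ∈ N := by
          have h3 : (((u : G) ^ 2 ^ k : G) : G ⧸ N) = 1 := by
            have := congrArg Subtype.val hk
            simpa using this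
          exact (QuotientGroup.eq_one_iff _).mp h3
        obtain ⟨j, hj⟩ := hN2 ⟨_, h2⟩
        refine ⟨k + j, Subtype.ext ?_⟩
        have h4 := congrArg Subtype.val hj
        simp only [Subgroup.coe_pow, Subgroup.coe_one] at h4 ⊢
        rw [pow_add, pow_mul]
        exact h4
      have h2 := hmax _ (Subgroup.Normal.comap hMn _) h1
      rw [eq_bot_iff]
      intro q hq
      obtain ⟨g, rfl⟩ := hsurj q
      rw [Subgroup.mem_bot]
      exact (QuotientGroup.eq_one_iff _).mpr (h2 hq)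
    · exact h
  subst hr3
  let S₀ : Sylow 3 (G ⧸ N) := R.mapSurjective hsurj
  have hS₀ : Nat.card (S₀ : Subgroup (G ⧸ N)) ≤ 3 := by
    have h := Nat.card_le_card_of_surjective ((QuotientGroup.mk' N).subgroupMap (R : Subgroup G))
      (MonoidHom.subgroupMap_surjective _ _)
    rw [hRcard] at h
    exact h
  have hT : ∀ T : Sylow 3 (G ⧸ N), Nat.card (T : Subgroup (G ⧸ N)) ≤ 3 := fun T => by
    rw [Nat.card_congr (Sylow.equiv T S₀).toEquiv]; exact hS₀
  have hMT : ∀ T : Sylow 3 (G ⧸ N), M ≤ T := fun T => hMp.le_sylow_of_normal T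
  have hMc : Nat.card M = 3 := by
    have h1 : Nat.card M ≤ 3 := (Subgroup.card_le_of_le (hMT S₀)).trans hS₀
    rw [ha] at h1 ⊢
    have h2 : a = 1 := by
      by_contra h3
      have h4 : 3 ^ 2 ≤ 3 ^ a := Nat.pow_le_pow_right (by norm_num) (by omega)
      omega
    rw [h2, pow_one]
  have hMall : ∀ q : G ⧸ N, orderOf q = 3 → q ∈ M := by
    intro q hq
    have hq3 : IsPGroup 3 (zpowers q) :=
      IsPGroup.of_card (n := 1) (by rw [Nat.card_zpowers, hq]; norm_num)
    obtain ⟨T, hqT⟩ := hq3.exists_le_sylow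
    have h1 : M = T := Subgroup.eq_of_le_of_card_ge (hMT T) (by rw [hMc]; exact hT T)
    rw [h1]
    exact hqT (mem_zpowers q)
  obtain ⟨wm, hwm⟩ := exists_prime_orderOf_dvd_card' (G := M) 3 (by rw [hMc])
  set wb : G ⧸ N := (wm : G ⧸ N) with hwb
  have hwbo : orderOf wb = 3 := by rw [hwb, Subgroup.orderOf_coe, hwm]
  have hMz : M = zpowers wb := by
    symm
    apply Subgroup.eq_of_le_of_card_ge
    · rw [Subgroup.zpowers_le]; exact wm.2
    · rw [hMc, Nat.card_zpowers, hwbo]
  obtain ⟨w, hw⟩ := QuotientGroup.mk_surjective wb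
  have hwo : orderOf w = 3 := by
    have h1 : orderOf wb ∣ orderOf w := by
      rw [← hw]
      exact orderOf_map_dvd (QuotientGroup.mk' N) w
    rw [hwbo] at h1
    have h2 := hle w
    have h3 := orderOf_pos w
    obtain ⟨c, hc⟩ := h1
    have : c = 1 := by omega
    omega
  have hwbne : wb ≠ wb⁻¹ := by
    intro h
    have h1 : wb ^ 2 = 1 := by
      rw [pow_two]
      nth_rewrite 2 [h]
      simp
    have h2 := orderOf_dvd_of_pow_eq_one h1
    rw [hwbo] at h2
    omega
  have hout : ∀ q : G ⧸ N, q ∉ M → q * wb * q⁻¹ = wb⁻¹ ∧ q ^ 2 = 1 := by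
    intro q hq
    have hq1 : q ≠ 1 := by
      rintro rfl
      exact hq M.one_mem
    have hq3 : orderOf q ≠ 3 := fun h => hq (hMall q h)
    have h1 : q * wb * q⁻¹ ∈ zpowers wb := by
      rw [← hMz]
      exact hMn.conj_mem _ (by rw [hMz]; exact mem_zpowers wb) q
    have h2 : q * wb * q⁻¹ ≠ 1 := by
      intro h
      have h3 : wb = 1 := by
        have h4 := mul_inv_eq_one.mp h
        exact mul_left_cancel (a := q) (by rw [h4, mul_one])
      rw [h3] at hwbo
      simp at hwbo
    have h3 : q * wb * q⁻¹ = wb⁻¹ := by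
      rcases mem_order3 hwbo h1 h2 with h | h
      · exfalso
        have hc : Commute q wb := mul_inv_eq_iff_eq_mul.mp h
        exact no6' hleQ hq1 hq3 hwbo hc
      · exact h
    refine ⟨h3, ?_⟩
    rcases ord_cases hleQ q with h | h | h | h
    · exact absurd (orderOf_eq_one_iff.mp h) hq1
    · rw [← h]; exact pow_orderOf_eq_one q
    · exact absurd h hq3
    · exfalso
      have h4 : orderOf (q ^ 2) = 2 := by
        rw [orderOf_pow' _ (by norm_num), h]; norm_num
      have hc : Commute (q ^ 2) wb := by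
        have h5 : q ^ 2 * wb * (q ^ 2)⁻¹ = wb := by
          have h6 : q ^ 2 * wb * (q ^ 2)⁻¹ = q * (q * wb * q⁻¹) * q⁻¹ := by
            rw [pow_two, mul_inv_rev]; simp only [mul_assoc]
          rw [h6, h3]
          have h7 : q * wb⁻¹ * q⁻¹ = (q * wb * q⁻¹)⁻¹ := by group
          rw [h7, h3, inv_inv]
        exact mul_inv_eq_iff_eq_mul.mp h5
      exact no6 hleQ h4 hwbo hc
  haveI hNnil : Group.IsNilpotent N := hN2.isNilpotent
  have hconj : ∀ (g : G) (x : N), (((MulAut.conjNormal g).toMonoidHom x : N) : G) = g * x * g⁻¹ :=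
    fun g x => MulAut.conjNormal_apply g x
  let σ : N →* N := (MulAut.conjNormal w).toMonoidHom
  have hw3 : w ^ 3 = 1 := by rw [← hwo]; exact pow_orderOf_eq_one w
  have hσ : ∀ x, σ (σ (σ x)) = x := by
    intro x
    apply Subtype.ext
    simp only [σ, hconj]
    have h1 : w * (w * (w * (x : G) * w⁻¹) * w⁻¹) * w⁻¹ = w ^ 3 * (x : G) * (w ^ 3)⁻¹ := by
      rw [pow_three, mul_inv_rev, mul_inv_rev]; simp only [mul_assoc]
    rw [h1, hw3]
    simp
  have hσfix : ∀ x, σ x = x → x = 1 := by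
    intro x hx
    have h1 : w * (x : G) * w⁻¹ = x := by
      have := congrArg Subtype.val hx
      simpa only [σ, hconj] using this
    have h2 : Commute (x : G) w := (mul_inv_eq_iff_eq_mul.mp h1).symm
    exact Subtype.ext (hfpf w hwo x x.2 h2)
  by_cases hall : ∀ q : G ⧸ N, q ∈ M
  · left
    have hMtop : M = ⊤ := (Subgroup.eq_top_iff' M).mpr hall
    have hidx : N.index = 3 := by
      rw [Subgroup.index_eq_card, ← Subgroup.card_top (G := G ⧸ N), ← hMtop, hMc]
    have hg₄N : g₄ ∈ N := by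
      have h1 : orderOf (g₄ : G ⧸ N) ∣ orderOf g₄ := orderOf_map_dvd (QuotientGroup.mk' N) g₄
      have h2 : orderOf (g₄ : G ⧸ N) ∣ 3 := by
        have := orderOf_dvd_natCard (g₄ : G ⧸ N)
        rwa [← Subgroup.index_eq_card, hidx] at this
      rw [hg₄] at h1
      have h3 : orderOf (g₄ : G ⧸ N) ∣ Nat.gcd 4 3 := Nat.dvd_gcd h1 h2
      rw [show Nat.gcd 4 3 = 1 from rfl] at h3
      have h4 : (g₄ : G ⧸ N) = 1 := orderOf_eq_one_iff.mp (Nat.dvd_one.mp h3)
      exact (QuotientGroup.eq_one_iff _).mp h4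
    refine ⟨hN2, ?_, ?_, hidx⟩
    · apply Nat.dvd_antisymm
      · apply Monoid.exponent_dvd_of_forall_pow_eq_one
        intro n
        apply Subtype.ext
        have h1 : orderOf (n : G) ∣ 4 := by
          rcases ord_cases hle (n : G) with h | h | h | h
          · rw [h]; norm_num
          · rw [h]; norm_num
          · exact absurd h (hNo n n.2)
          · rw [h]
        simpa using orderOf_dvd_iff_pow_eq_one.mp h1
      · have := Monoid.order_dvd_exponent (⟨g₄, hg₄N⟩ : N)
        rwa [Subgroup.orderOf_mk, hg₄] at this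
    · rw [← Subgroup.lowerCentralSeries_eq_bot_iff_nilpotencyClass_le]
      exact lcs_two_eq_bot σ hσ hσfix
  · right
    push Not at hall
    obtain ⟨x, hx⟩ := hall
    have hind : M.index = 2 := by
      rw [Subgroup.index_eq_two_iff]
      refine ⟨x, fun b => ?_⟩
      by_cases hb : b ∈ M
      · right
        refine ⟨hb, fun h => hx ?_⟩
        have h1 : b⁻¹ * (b * x) ∈ M := M.mul_mem (M.inv_mem hb) h
        simpa using h1
      · left
        refine ⟨?_, hb⟩
        by_contra h
        apply hwbne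
        have h1 := (hout _ h).1
        have h2 : (b * x) * wb * (b * x)⁻¹ = b * (x * wb * x⁻¹) * b⁻¹ := by group
        rw [h2, (hout x hx).1] at h1
        have h3 : b * wb⁻¹ * b⁻¹ = (b * wb * b⁻¹)⁻¹ := by group
        rw [h3, (hout b hb).1, inv_inv] at h1
        exact h1
    have hcard : Nat.card (G ⧸ N) = 6 := by
      have := M.card_mul_index
      rw [hMc, hind] at this
      omega
    have hna : ∃ a b : G ⧸ N, a * b ≠ b * a := by
      refine ⟨x, wb, fun h => hwbne ?_⟩
      have h1 := (hout x hx).1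
      rw [h, mul_inv_cancel_right] at h1
      exact h1
    refine ⟨?_, perm3_of_card6 hcard hna⟩
    -- Frattini
    let U : Subgroup G := M.comap (QuotientGroup.mk' N)
    haveI hUn : U.Normal := Subgroup.Normal.comap hMn _
    have hwU : w ∈ U := by
      change ((w : G) : G ⧸ N) ∈ M
      rw [hw]
      exact wm.2
    have hw3p : IsPGroup 3 (zpowers w) :=
      IsPGroup.of_card (n := 1) (by rw [Nat.card_zpowers, hwo]; norm_num)
    obtain ⟨P, hP⟩ := hw3p.exists_le_sylow
    have hPeq : zpowers w = (P : Subgroup G) := by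
      apply Subgroup.eq_of_le_of_card_ge hP
      rw [Nat.card_congr (Sylow.equiv P R).toEquiv, hRcard, Nat.card_zpowers, hwo]
    have hPU : (P : Subgroup G) ≤ U := by
      rw [← hPeq, Subgroup.zpowers_le]
      exact hwU
    have hsup := Sylow.normalizer_sup_eq_top' P hPU
    obtain ⟨t, htn, htU⟩ : ∃ t ∈ normalizer (P : Set G), t ∉ U := by
      by_contra hcon
      push Not at hcon
      have h1 : normalizer (P : Set G) ≤ U := hcon
      rw [sup_eq_right.mpr h1] at hsup
      obtain ⟨g, rfl⟩ := QuotientGroup.mk_surjective x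
      apply hx
      have h2 : g ∈ U := hsup ▸ mem_top g
      exact h2
    have htM : (t : G ⧸ N) ∉ M := htU
    obtain ⟨ht1, ht2⟩ := hout _ htM
    rw [← hw] at ht1
    have ht1' : ((t * w * t⁻¹ : G) : G ⧸ N) = ((w⁻¹ : G) : G ⧸ N) := by
      simpa using ht1
    have htw : t * w * t⁻¹ = w⁻¹ := by
      have h1 : t * w * t⁻¹ ∈ zpowers w := by
        rw [hPeq]
        exact (Subgroup.mem_normalizer_iff.mp htn w).mp (by rw [← hPeq]; exact mem_zpowers w)
      have h2 : t * w * t⁻¹ ≠ 1 := by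
        intro h
        have h3 : w = 1 := by
          have h4 := mul_inv_eq_one.mp h
          exact mul_left_cancel (a := t) (by rw [h4, mul_one])
        rw [h3] at hwo
        simp at hwo
      rcases mem_order3 hwo h1 h2 with h | h
      · exfalso
        apply hwbne
        rw [h] at ht1'
        rw [← hw]
        simpa using ht1'
      · exact h
    have ht2' : t ^ 2 ∈ N := by
      apply (QuotientGroup.eq_one_iff _).mp
      simpa using ht2
    have ht21 : t ^ 2 = 1 := by
      apply hfpf w hwo _ ht2'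
      have h5 : t ^ 2 * w * (t ^ 2)⁻¹ = w := by
        have h6 : t ^ 2 * w * (t ^ 2)⁻¹ = t * (t * w * t⁻¹) * t⁻¹ := by
          rw [pow_two, mul_inv_rev]; simp only [mul_assoc]
        rw [h6, htw]
        have h7 : t * w⁻¹ * t⁻¹ = (t * w * t⁻¹)⁻¹ := by group
        rw [h7, htw, inv_inv]
      exact mul_inv_eq_iff_eq_mul.mp h5
    let τ : N →* N := (MulAut.conjNormal t).toMonoidHom
    have hτ : ∀ x, τ (τ x) = x := by
      intro x
      apply Subtype.ext
      simp only [τ, hconj]
      have h1 : t * (t * (x : G) * t⁻¹) * t⁻¹ = t ^ 2 * (x : G) * (t ^ 2)⁻¹ := by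
        rw [pow_two, mul_inv_rev]; simp only [mul_assoc]
      rw [h1, ht21]
      simp
    have hrel : ∀ x, τ (σ x) = σ (σ (τ x)) := by
      intro x
      apply Subtype.ext
      simp only [σ, τ, hconj]
      have hwi : w⁻¹ = w * w := by
        rw [inv_eq_iff_mul_eq_one, ← pow_three]
        exact hw3
      have h1 : t * (w * (x : G) * w⁻¹) * t⁻¹ = (t * w * t⁻¹) * (t * x * t⁻¹) * (t * w * t⁻¹)⁻¹ := by
        group
      rw [h1, htw, inv_inv]
      have h2 : w * (w * (t * (x : G) * t⁻¹) * w⁻¹) * w⁻¹ = (w * w) * (t * x * t⁻¹) * (w * w)⁻¹ := by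
        rw [mul_inv_rev]; simp only [mul_assoc]
      rw [h2, ← hwi, inv_inv]
    have hPow : ∀ x, (x * τ x) ^ 2 = 1 := by
      intro x
      apply Subtype.ext
      simp only [τ, Subgroup.coe_pow, Subgroup.coe_mul, hconj, Subgroup.coe_one]
      set y : G := x * t with hy
      have hyM : (y : G ⧸ N) = (t : G ⧸ N) := by
        rw [hy, QuotientGroup.mk_mul]
        have : ((x : G) : G ⧸ N) = 1 := (QuotientGroup.eq_one_iff _).mpr x.2
        rw [this, one_mul]
      have hy4 : y ^ 4 = 1 := by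
        have h1 : y ≠ 1 := by
          intro h
          rw [h] at hyM
          apply htM
          rw [← hyM]
          exact M.one_mem
        have h2 : orderOf y ≠ 3 := by
          intro h3
          apply htM
          rw [← hyM]
          have h4 : (y : G ⧸ N) ≠ 1 := by
            rw [hyM]
            intro h5
            apply htM
            rw [h5]
            exact M.one_mem
          apply hMall
          have h5 : y ^ 3 = 1 := by rw [← h3]; exact pow_orderOf_eq_one y
          have h6 : (y : G ⧸ N) ^ 3 = 1 := by rw [← QuotientGroup.mk_pow, h5]; rfl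
          exact orderOf_eq_prime h6 h4
        have h3 : orderOf y ∣ 4 := by
          rcases ord_cases hle y with h | h | h | h
          · exact absurd (orderOf_eq_one_iff.mp h) h1
          · rw [h]; norm_num
          · exact absurd h h2
          · rw [h]
        exact orderOf_dvd_iff_pow_eq_one.mp h3
      have hti : t⁻¹ = t := by
        rw [pow_two] at ht21
        exact (eq_inv_of_mul_eq_one_left ht21).symm
      have h5 : ((x : G) * (t * x * t⁻¹)) ^ 2 = y ^ 4 := by
        have htt : t * t = 1 := by rw [← pow_two]; exact ht21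
        have h6 : y ^ 2 = (x : G) * (t * x * t⁻¹) := by
          rw [hy, pow_two, hti]
          simp only [mul_assoc]
        rw [← h6, ← pow_mul]
      rw [h5, hy4]
    obtain ⟨h1, h2⟩ := elem_of_s3 σ τ hσ hσfix hτ hrel hPow
    refine ⟨⟨⟨fun a b => h1 a b⟩⟩, fun a ha => ?_⟩
    have := congrArg Subtype.val (h2 ⟨a, ha⟩)
    simpa using this

/-- The main assembly. -/
private theorem main (h : Set.range (orderOf : G → ℕ) = {k : ℕ | 1 ≤ k ∧ k ≤ 4}) :
    ∃ (N : Subgroup G) (_ : N.Normal),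
      (IsPGroup 2 ↥N ∧ Monoid.exponent ↥N = 4 ∧ Group.nilpotencyClass ↥N ≤ 2 ∧ N.index = 3) ∨
      (IsElementaryAbelian 2 N ∧ Nonempty (G ⧸ N ≃* Equiv.Perm (Fin 3))) ∨
      (IsElementaryAbelian 3 N ∧ ((IsCyclic (G ⧸ N) ∧ N.index = 4) ∨
        Nonempty (G ⧸ N ≃* QuaternionGroup 2))) := by
  classical
  haveI f2 : Fact (Nat.Prime 2) := ⟨Nat.prime_two⟩
  haveI f3 : Fact (Nat.Prime 3) := ⟨Nat.prime_three⟩
  have hle : ∀ g : G, orderOf g ≤ 4 := fun g => by
    have h1 : orderOf g ∈ {k : ℕ | 1 ≤ k ∧ k ≤ 4} := h ▸ Set.mem_range_self g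
    exact h1.2
  obtain ⟨g₃, hg₃⟩ : ∃ g : G, orderOf g = 3 := by
    have h1 : (3 : ℕ) ∈ Set.range (orderOf : G → ℕ) := by rw [h]; constructor <;> norm_num
    exact h1
  obtain ⟨g₄, hg₄⟩ : ∃ g : G, orderOf g = 4 := by
    have h1 : (4 : ℕ) ∈ Set.range (orderOf : G → ℕ) := by rw [h]; constructor <;> norm_num
    exact h1
  have hprimes : ∀ p : ℕ, p.Prime → p ∣ Nat.card G → p = 2 ∨ p = 3 := by
    intro p hp hd
    haveI : Fact p.Prime := ⟨hp⟩
    obtain ⟨x, hx⟩ := exists_prime_orderOf_dvd_card' (G := G) p hd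
    have h1 := hle x
    rw [hx] at h1
    have h2 := hp.two_le
    interval_cases p
    · left; rfl
    · right; rfl
    · exact absurd hp (by norm_num)
  have hcard : ∃ a b, Nat.card G = 2 ^ a * 3 ^ b := by
    have hn0 : Nat.card G ≠ 0 := Nat.card_pos.ne'
    obtain ⟨a, m, hm2, hm⟩ := Nat.exists_eq_pow_mul_and_not_dvd hn0 2 (by norm_num)
    have hm0 : m ≠ 0 := by
      rintro rfl
      simp at hm2
    obtain ⟨b, m', hm3, hm'⟩ := Nat.exists_eq_pow_mul_and_not_dvd hm0 3 (by norm_num)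
    have hm'1 : m' = 1 := by
      by_contra hne
      obtain ⟨p, hp, hpd⟩ := Nat.exists_prime_and_dvd hne
      have h1 : p ∣ Nat.card G := by
        rw [hm, hm']
        exact Dvd.dvd.mul_left (Dvd.dvd.mul_left hpd _) _
      rcases hprimes p hp h1 with h2 | h2
      · subst h2
        apply hm2
        rw [hm']
        exact Dvd.dvd.mul_left hpd _
      · subst h2
        exact hm3 hpd
    refine ⟨a, b, ?_⟩
    rw [hm, hm', hm'1, mul_one]
  have hsolv : Group.IsSolvable G :=
    Cfsg.Agent.Lib.Char.isSolvable_of_card_eq_aux Nat.prime_two Nat.prime_three _ G rfl hcard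
  haveI : Nontrivial G := ⟨⟨g₃, 1, fun h1 => by rw [h1] at hg₃; simp at hg₃⟩⟩
  obtain ⟨p, K, hp, hKn, hK1, -, hKp⟩ := Cfsg.Agent.Lib.Basic.exists_normal_abelian_pSubgroup (G := G)
  by_cases h3 : pCore 3 G = ⊥
  · have h2 : pCore 2 G ≠ ⊥ := by
      intro h2
      haveI : Fact p.Prime := ⟨hp⟩
      obtain ⟨a, ha⟩ := IsPGroup.iff_card.mp hKp
      have ha0 : a ≠ 0 := by
        rintro rfl
        exact hK1 (Subgroup.card_eq_one.mp (by simpa using ha))
      have hrdvd : p ∣ Nat.card G := by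
        have h1 : p ∣ Nat.card K := by rw [ha]; exact dvd_pow_self p ha0
        exact h1.trans (Subgroup.card_subgroup_dvd_card K)
      rcases hprimes p hp hrdvd with h | h
      · subst h
        exact hK1 (le_bot_iff.mp (h2 ▸ le_pCore hKn hKp))
      · subst h
        exact hK1 (le_bot_iff.mp (h3 ▸ le_pCore hKn hKp))
    haveI hn := pCore_normal 2 G
    rcases case2 hle hg₃ hg₄ hsolv hprimes (pCore 2 G) pCore_isPGroup h2
        (fun L hL hL2 => le_pCore hL hL2) with h4 | h4
    · exact ⟨pCore 2 G, hn, Or.inl h4⟩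
    · exact ⟨pCore 2 G, hn, Or.inr (Or.inl h4)⟩
  · haveI hn := pCore_normal 3 G
    exact ⟨pCore 3 G, hn, Or.inr (Or.inr (case3 hle hg₄ hprimes (pCore 3 G) pCore_isPGroup h3
      (fun L hL hL2 => le_pCore hL hL2)))⟩

end aux

/-- A finite group whose set of element orders is exactly {1, 2, 3, 4} has a normal subgroup N such that either N is a 2-group of exponent 4 and nilpotency class at most 2 with G/N of order 3, or N is an elementary abelian 2-group with G/N isomorphic to the symmetric group of degree 3, or N is an elementary abelian 3-group with G/N cyclic of order 4 or quaternion of order 8. -/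
theorem result {G : Type*} [Group G] [Finite G] (h : Set.range (orderOf : G → ℕ) = {k : ℕ | 1 ≤ k ∧ k ≤ 4}) :
    ∃ (N : Subgroup G) (_ : N.Normal),
      (IsPGroup 2 ↥N ∧ Monoid.exponent ↥N = 4 ∧ Group.nilpotencyClass ↥N ≤ 2 ∧ N.index = 3) ∨
      (Cfsg.IsElementaryAbelian 2 N ∧ Nonempty (G ⧸ N ≃* Equiv.Perm (Fin 3))) ∨
      (Cfsg.IsElementaryAbelian 3 N ∧ ((IsCyclic (G ⧸ N) ∧ N.index = 4) ∨ Nonempty (G ⧸ N ≃* QuaternionGroup 2))) := by
  exact main h

end Cfsg.Agent.S4006
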