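import Cfsg.Statements.S4200
import Cfsg.Agent.Lib.Struct.ClassNumber

set_option autoImplicit false
open Cfsg

namespace Cfsg.Agent.S4200

/-- Let Y be a subgroup of the finite group X, of index m. Then the numbers of conjugacy classes satisfy k(Y) ≤ m·k(X) and k(X) ≤ m·k(Y), and the second inequality is strict unless Y is normal in X. -/
theorem result {X : Type*} [Group X] [Finite X] (Y : Subgroup X) : Nat.card (ConjClasses Y) ≤ Y.index * Nat.card (ConjClasses X) ∧ Nat.card (ConjClasses X) ≤ Y.index * Nat.card (ConjClasses Y) ∧ (¬ Y.Normal → Nat.card (ConjClasses X) < Y.index * Nat.card (ConjClasses Y)) := by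
  classical
  -- first inequality
  refine ⟨?_, ?_⟩
  · have h := Lib.Struct.card_comm_subgroup_le Y
    rw [card_comm_eq_card_conjClasses_mul_card, card_comm_eq_card_conjClasses_mul_card] at h
    have hX : Nat.card X = Y.index * Nat.card Y := by
      rw [mul_comm, Subgroup.card_mul_index]
    have h2 : Nat.card (ConjClasses Y) * Nat.card Y ≤
        (Y.index * Nat.card (ConjClasses X)) * Nat.card Y := by
      calc _ ≤ _ := h
        _ = _ := by rw [hX]; ring
    exact Nat.le_of_mul_le_mul_right h2 Nat.card_pos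
  letI : MulAction Y X := MulAction.compHom X ((MulAut.conj : X →* MulAut X).comp Y.subtype)
  have hbd := Lib.Struct.card_orbits_conj_le Y
  -- map from orbits to classes
  let f : MulAction.orbitRel.Quotient Y X → ConjClasses X :=
    Quotient.lift (fun x : X => ConjClasses.mk x) (by
      rintro a b ⟨y, rfl⟩
      rw [ConjClasses.mk_eq_mk_iff_isConj]
      exact (isConj_iff.mpr ⟨(y : X), rfl⟩).symm)
  have hfs : Function.Surjective f := by
    intro c
    obtain ⟨x, rfl⟩ := ConjClasses.mk_surjective c
    exact ⟨Quotient.mk _ x, rfl⟩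
  have hle : Nat.card (ConjClasses X) ≤ Nat.card (MulAction.orbitRel.Quotient Y X) :=
    Nat.card_le_card_of_surjective f hfs
  refine ⟨hle.trans hbd, fun hY => ?_⟩
  -- a class meeting `Y` and its complement
  have hex : ∃ y ∈ Y, ∃ g : X, g * y * g⁻¹ ∉ Y := by
    by_contra hcon
    push_neg at hcon
    exact hY ⟨fun y hy g => hcon y hy g⟩
  obtain ⟨y, hy, g, hg⟩ := hex
  have hninj : ¬ Function.Injective f := by
    intro hinj
    have h1 : f (Quotient.mk _ y) = f (Quotient.mk _ (g * y * g⁻¹)) := by
      change ConjClasses.mk y = ConjClasses.mk (g * y * g⁻¹)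
      rw [ConjClasses.mk_eq_mk_iff_isConj]
      exact isConj_iff.mpr ⟨g, rfl⟩
    have h2 := hinj h1
    obtain ⟨u, hu⟩ := Quotient.exact h2
    apply hg
    have h3 : (u : X) * (g * y * g⁻¹) * (u : X)⁻¹ = y := hu
    have h4 : g * y * g⁻¹ = (u : X)⁻¹ * y * (u : X) := by
      calc g * y * g⁻¹ = (u : X)⁻¹ * ((u : X) * (g * y * g⁻¹) * (u : X)⁻¹) * (u : X) := by group
        _ = (u : X)⁻¹ * y * (u : X) := by rw [h3]
    rw [h4]
    exact Y.mul_mem (Y.mul_mem (Y.inv_mem u.2) hy) u.2
  haveI : Fintype (MulAction.orbitRel.Quotient Y X) := Fintype.ofFinite _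
  haveI : Fintype (ConjClasses X) := Fintype.ofFinite _
  have hlt : Nat.card (ConjClasses X) < Nat.card (MulAction.orbitRel.Quotient Y X) := by
    rw [Nat.card_eq_fintype_card, Nat.card_eq_fintype_card]
    exact Fintype.card_lt_of_surjective_not_injective f hfs hninj
  exact lt_of_lt_of_le hlt hbd

end Cfsg.Agent.S4200
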