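import Cfsg.Statements.S4203
import Cfsg.Agent.Lib.Struct.Sylow
import Cfsg.Agent.Lib.Struct.Basic

set_option autoImplicit false
open Cfsg

namespace Cfsg.Agent.S4203


universe u

open Cfsg.Agent.Lib.Struct in
theorem aux : ∀ (n : ℕ) (G : Type u) [Group G] [Finite G], Nat.card G = n →
    (∀ M : Subgroup G, IsCoatom M → ∃ p : ℕ, p.Prime ∧ (M.index = p ∨ M.index = p ^ 2)) →
    Group.IsSolvable G := by
  intro n
  induction n using Nat.strong_induction_on with
  | _ n ih =>
  intro G _ _ hn h
  classical
  by_cases hnt : Subsingleton G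
  · infer_instance
  rw [not_subsingleton_iff_nontrivial] at hnt
  obtain ⟨N, hNn, hN1, hNmin⟩ := Cfsg.Agent.Lib.Basic.exists_isMinNormal (G := G)
  have hN1card : 1 < Nat.card N := by
    have : Nontrivial N := (Subgroup.nontrivial_iff_ne_bot N).mpr hN1
    exact Finite.one_lt_card
  have hcard : Nat.card (G ⧸ N) < n := by
    have h1 := Subgroup.card_mul_index N
    have h2 : Nat.card (G ⧸ N) = N.index := rfl
    rw [h2, ← hn, ← h1]
    have h3 : 0 < N.index := Nat.pos_of_ne_zero Subgroup.FiniteIndex.index_ne_zero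
    nlinarith
  have hQ : Group.IsSolvable (G ⧸ N) := ih _ hcard (G ⧸ N) rfl (fun M hM => by
    obtain ⟨p, hp, hidx⟩ := h _ (isCoatom_comap_mk hM)
    rw [Subgroup.index_comap_of_surjective _ (QuotientGroup.mk'_surjective N)] at hidx
    exact ⟨p, hp, hidx⟩)
  by_cases hNs : Group.IsSolvable N
  · exact Group.isSolvable_of_ker_le_range N.subtype (QuotientGroup.mk' N) (by simp)
  exfalso
  -- the largest prime
  have hne : (Nat.card N).primeFactors.Nonempty := by
    rw [Nat.nonempty_primeFactors]
    exact hN1card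
  obtain ⟨r, hr, hrmax⟩ : ∃ r ∈ (Nat.card N).primeFactors, ∀ q ∈ (Nat.card N).primeFactors, q ≤ r :=
    ⟨_, Finset.max'_mem _ hne, fun q hq => Finset.le_max' _ _ hq⟩
  have hrp := Nat.prime_of_mem_primeFactors hr
  have hrd := Nat.dvd_of_mem_primeFactors hr
  haveI : Fact r.Prime := ⟨hrp⟩
  obtain ⟨R⟩ : Nonempty (Sylow r N) := inferInstance
  set R₀ : Subgroup G := (R : Subgroup N).map N.subtype with hR₀
  have hR₀ne : R₀ ≠ ⊥ := by
    intro hbot
    apply R.ne_bot_of_dvd_card hrd
    exact (Subgroup.map_eq_bot_iff_of_injective _ N.subtype_injective).mp hbot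
  have hR₀p : IsPGroup r R₀ := R.isPGroup'.map N.subtype
  have hR₀N : R₀ ≤ N := by
    rintro _ ⟨x, -, rfl⟩
    exact x.2
  have hnorm : Subgroup.normalizer (R₀ : Set G) ≠ ⊤ := by
    intro htop
    have hR₀n : R₀.Normal := Subgroup.normalizer_eq_top_iff.mp htop
    rcases hNmin R₀ hR₀n hR₀N with h0 | h0
    · exact hR₀ne h0
    · apply hNs
      rw [h0] at hR₀p
      have := hR₀p.isNilpotent
      infer_instance
  obtain ⟨M, hM, hMge⟩ := Cfsg.Agent.Lib.Coprime.exists_coatom_ge hnorm
  have hmod : M.index ≡ 1 [MOD r] := index_modEq_one_of_normalizer_sylow_le R hMge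
  have htop : M ⊔ N = ⊤ := by
    have h1 := Sylow.normalizer_sup_eq_top R
    rw [eq_top_iff, ← h1]
    exact sup_le_sup_right hMge N
  have hdvd : M.index ∣ Nat.card N := by
    have h1 := Cfsg.Agent.Lib.Struct.relIndex_eq_relIndex_sup N M
    rw [sup_comm, htop, Subgroup.relIndex_top_right] at h1
    rw [← h1]
    exact Subgroup.index_dvd_card _
  obtain ⟨q, hq, hidx⟩ := h M hM
  have hr2 : 2 ≤ r := hrp.two_le
  have hqdvd : q ∣ M.index := by
    rcases hidx with h1 | h1
    · rw [h1]
    · rw [h1]; exact dvd_pow_self q (by norm_num)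
  have hqr : q ≤ r := hrmax q (Nat.mem_primeFactors.mpr ⟨hq, hqdvd.trans hdvd, by omega⟩)
  have hqne : q ≠ r := by
    rintro rfl
    have h1 : M.index % q = 0 := Nat.mod_eq_zero_of_dvd hqdvd
    have h2 : M.index % q = 1 % q := hmod
    rw [h1, Nat.mod_eq_of_lt (by omega)] at h2
    omega
  have hqlt : q < r := lt_of_le_of_ne hqr hqne
  have hq2 := hq.two_le
  have hidx4 : M.index = 4 := by
    rcases hidx with h1 | h1
    · exfalso
      have h2 : M.index % r = 1 % r := hmod
      rw [h1, Nat.mod_eq_of_lt hqlt, Nat.mod_eq_of_lt (by omega)] at h2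
      omega
    · have h2 : q ^ 2 ≡ 1 [MOD r] := h1 ▸ hmod
      have h3 : r ∣ q ^ 2 - 1 := (Nat.modEq_iff_dvd' (Nat.one_le_pow _ _ (by omega))).mp h2.symm
      have h4 : q ^ 2 - 1 = (q - 1) * (q + 1) := by
        obtain ⟨t, rfl⟩ : ∃ t, q = t + 1 := ⟨q - 1, by omega⟩
        simp only [Nat.add_sub_cancel]
        have : (t + 1) ^ 2 = t * (t + 1 + 1) + 1 := by ring
        omega
      rw [h4] at h3
      rcases (Nat.Prime.dvd_mul hrp).mp h3 with h5 | h5
      · have := Nat.le_of_dvd (by omega) h5
        omega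
      · have h6 := Nat.le_of_dvd (by omega) h5
        have h7 : r = q + 1 := by omega
        have h8 : q = 2 := by
          rcases hq.eq_two_or_odd with h9 | h9
          · exact h9
          · exfalso
            have h10 : Even r := by
              rw [h7]
              exact Nat.even_add_one.mpr (by rw [Nat.not_even_iff]; exact h9)
            have h11 := hrp.even_iff.mp h10
            omega
        rw [h1, h8]
        norm_num
  -- embedding in the symmetric group of degree four
  have hcore : N ⊓ M.normalCore = ⊥ := by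
    have hn1 : (N ⊓ M.normalCore).Normal := Subgroup.normal_inf_normal _ _
    rcases hNmin _ hn1 inf_le_left with h0 | h0
    · exact h0
    · exfalso
      have h1 : N ≤ M := by
        have h2 : N ≤ N ⊓ M.normalCore := h0.ge
        exact le_trans (le_trans h2 inf_le_right) (Subgroup.normalCore_le M)
      apply hM.1
      rw [← htop, sup_eq_left.mpr h1]
  have hinj : Function.Injective ((MulAction.toPermHom G (G ⧸ M)).comp N.subtype) := by
    rw [injective_iff_map_eq_one]
    intro x hx
    have h1 : (x : G) ∈ (MulAction.toPermHom G (G ⧸ M)).ker := hx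
    rw [← Subgroup.normalCore_eq_ker] at h1
    have h2 : (x : G) ∈ N ⊓ M.normalCore := Subgroup.mem_inf.mpr ⟨x.2, h1⟩
    rw [hcore, Subgroup.mem_bot] at h2
    exact Subtype.ext h2
  have hperm : Group.IsSolvable (Equiv.Perm (G ⧸ M)) :=
    isSolvable_perm_of_card_le_four (by
      have : Nat.card (G ⧸ M) = M.index := rfl
      omega)
  exact hNs (Group.isSolvable_of_isSolvable_injective hinj)

/-- A finite group in which every maximal subgroup has index a prime or the square of a prime is solvable. -/
theorem result {G : Type*} [Group G] [Finite G] (h : ∀ M : Subgroup G, IsCoatom M → ∃ p : ℕ, p.Prime ∧ (M.index = p ∨ M.index = p ^ 2)) : Group.IsSolvable G := by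
  exact aux _ G rfl h

end Cfsg.Agent.S4203
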