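import Cfsg.Statements.S4204
-- import your own Cfsg.Agent.* helpers here

set_option autoImplicit false
open Cfsg

namespace Cfsg.Agent.S4204


open scoped commutatorElement

theorem comm_sup_right {G : Type*} [Group G] (N X Y Z : Subgroup G) [N.Normal]
    (h1 : ⁅X, Y⁆ ≤ N) (h2 : ⁅X, Z⁆ ≤ N) : ⁅X, Y ⊔ Z⁆ ≤ N := by
  rw [Subgroup.commutator_le]
  intro x hx w hw
  let π := QuotientGroup.mk' N
  let C : Subgroup G := (Subgroup.centralizer ({π x} : Set (G ⧸ N))).comap π
  have hC : ∀ y, ⁅x, y⁆ ∈ N → y ∈ C := by
    intro y hy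
    rw [Subgroup.mem_comap, Subgroup.mem_centralizer_iff]
    intro t ht
    rw [Set.mem_singleton_iff] at ht
    subst ht
    have h3 : π ⁅x, y⁆ = 1 := (QuotientGroup.eq_one_iff _).mpr hy
    rw [commutatorElement_def, map_mul, map_mul, map_mul, map_inv, map_inv] at h3
    have h4 : π x * π y = π y * π x := by
      have := mul_inv_eq_one.mp h3
      rw [mul_inv_eq_iff_eq_mul] at this
      exact this
    exact h4
  have hle : Y ⊔ Z ≤ C := sup_le
    (fun y hy => hC y (h1 (Subgroup.commutator_mem_commutator hx hy)))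
    (fun y hy => hC y (h2 (Subgroup.commutator_mem_commutator hx hy)))
  have h5 := hle hw
  rw [Subgroup.mem_comap, Subgroup.mem_centralizer_iff] at h5
  have h6 := h5 (π x) (Set.mem_singleton _)
  have h7 : π ⁅x, w⁆ = 1 := by
    rw [commutatorElement_def, map_mul, map_mul, map_mul, map_inv, map_inv, h6]
    group
  exact (QuotientGroup.eq_one_iff _).mp h7

theorem comm_iSup_left {G : Type*} [Group G] {ι : Sort*} (N Y : Subgroup G) [N.Normal]
    (X : ι → Subgroup G) (h : ∀ i, ⁅X i, Y⁆ ≤ N) : ⁅⨆ i, X i, Y⁆ ≤ N := by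
  rw [Subgroup.commutator_le]
  intro x hx w hw
  let π := QuotientGroup.mk' N
  let C : Subgroup G := (Subgroup.centralizer ({π w} : Set (G ⧸ N))).comap π
  have hC : ∀ y, ⁅y, w⁆ ∈ N → y ∈ C := by
    intro y hy
    rw [Subgroup.mem_comap, Subgroup.mem_centralizer_iff]
    intro t ht
    rw [Set.mem_singleton_iff] at ht
    subst ht
    have h3 : π ⁅y, w⁆ = 1 := (QuotientGroup.eq_one_iff _).mpr hy
    rw [commutatorElement_def, map_mul, map_mul, map_mul, map_inv, map_inv] at h3
    have h4 : π y * π w = π w * π y := by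
      have := mul_inv_eq_one.mp h3
      rw [mul_inv_eq_iff_eq_mul] at this
      exact this
    exact h4.symm
  have hle : (⨆ i, X i) ≤ C := iSup_le fun i y hy =>
    hC y (h i (Subgroup.commutator_mem_commutator hy hw))
  have h5 := hle hx
  rw [Subgroup.mem_comap, Subgroup.mem_centralizer_iff] at h5
  have h6 := h5 (π w) (Set.mem_singleton _)
  have h7 : π ⁅x, w⁆ = 1 := by
    rw [commutatorElement_def, map_mul, map_mul, map_mul, map_inv, map_inv, ← h6]
    group
  exact (QuotientGroup.eq_one_iff _).mp h7

/-- shifted lower central series -/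
def A' {G : Type*} [Group G] (H : Subgroup G) : ℕ → Subgroup G
  | 0 => ⊤
  | i + 1 => H.lowerCentralSeries i

theorem lcs_normal {G : Type*} [Group G] (H : Subgroup G) [H.Normal] (i : ℕ) :
    (H.lowerCentralSeries i).Normal := by
  induction i with
  | zero => exact ‹H.Normal›
  | succ n ih => exact Subgroup.commutator_normal _ _

theorem A'_normal {G : Type*} [Group G] (H : Subgroup G) [H.Normal] (i : ℕ) : (A' H i).Normal := by
  cases i with
  | zero => exact Subgroup.normal_top
  | succ n => exact lcs_normal H n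

theorem A'_comm {G : Type*} [Group G] (H : Subgroup G) [H.Normal] (X : Subgroup G) (i : ℕ)
    (hX : X ≤ A' H i) : ⁅X, H⁆ ≤ A' H (i + 1) := by
  cases i with
  | zero => exact Subgroup.commutator_le_right _ _
  | succ n => exact Subgroup.commutator_mono hX le_rfl

theorem lcs_bot {G : Type*} [Group G] (H : Subgroup G) (c m : ℕ) (hH : H.lowerCentralSeries c = ⊥)
    (hm : c ≤ m) : H.lowerCentralSeries m = ⊥ := by
  induction m, hm using Nat.le_induction with
  | base => exact hH
  | succ n _ ih =>
    rw [Subgroup.lowerCentralSeries_succ, ih, Subgroup.commutator_bot_left]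

/-- If `H` and `K` are normal subgroups of a finite group with `H` nilpotent of class at most `c` and `K` nilpotent of class at most `d` (the terms with index `c`, respectively `d`, of their lower central series are trivial, indices starting at `0`), then `HK` is nilpotent of class at most `c + d`. -/
theorem result {G : Type*} [Group G] [Finite G] (H K : Subgroup G) [H.Normal] [K.Normal] (c d : ℕ) (hH : H.lowerCentralSeries c = ⊥) (hK : K.lowerCentralSeries d = ⊥) : (H ⊔ K).lowerCentralSeries (c + d) = ⊥ := by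
  haveI hAn : ∀ i, (A' H i).Normal := A'_normal H
  haveI hBn : ∀ i, (A' K i).Normal := A'_normal K
  let L : ℕ → Subgroup G := fun n => ⨆ i : Fin (n + 1), A' H i ⊓ A' K (n - i)
  haveI hLn : ∀ n, (L n).Normal := fun n => by
    have : ∀ i : Fin (n + 1), (A' H i ⊓ A' K (n - i)).Normal := fun i => Subgroup.normal_inf_normal _ _
    exact Subgroup.iSup_normal _
  have hmem : ∀ (n i j : ℕ), i + j = n → A' H i ⊓ A' K j ≤ L n := by
    intro n i j hij
    have hi : i < n + 1 := by omega
    have hj : n - i = j := by omega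
    have := le_iSup (fun i : Fin (n + 1) => A' H i ⊓ A' K (n - i)) ⟨i, hi⟩
    simpa [hj] using this
  have key : ∀ n, (H ⊔ K).lowerCentralSeries n ≤ L (n + 1) := by
    intro n
    induction n with
    | zero =>
      refine sup_le ?_ ?_
      · refine le_trans (le_inf le_rfl le_top) (hmem 1 1 0 rfl)
      · refine le_trans (le_inf le_top le_rfl) (hmem 1 0 1 rfl)
    | succ n ih =>
      rw [Subgroup.lowerCentralSeries_succ]
      refine le_trans (Subgroup.commutator_mono ih le_rfl) ?_
      refine comm_iSup_left _ _ _ ?_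
      rintro ⟨i, hi⟩
      refine comm_sup_right _ _ _ _ ?_ ?_
      · refine le_trans (le_inf (A'_comm H _ i inf_le_left) ?_) (hmem (n + 1 + 1) (i + 1) (n + 1 - i) (by omega))
        haveI := hBn (n + 1 - i)
        exact le_trans (Subgroup.commutator_mono inf_le_right le_rfl) (Subgroup.commutator_le_left _ _)
      · refine le_trans (le_inf ?_ (A'_comm K _ (n + 1 - i) inf_le_right)) (hmem (n + 1 + 1) i (n + 1 - i + 1) (by omega))
        haveI := hAn i
        exact le_trans (Subgroup.commutator_mono inf_le_left le_rfl) (Subgroup.commutator_le_left _ _)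
  rw [eq_bot_iff]
  refine le_trans (key (c + d)) ?_
  refine iSup_le ?_
  rintro ⟨i, hi⟩
  by_cases hic : c + 1 ≤ i
  · obtain ⟨k, rfl⟩ : ∃ k, i = k + 1 := ⟨i - 1, by omega⟩
    refine le_trans inf_le_left ?_
    show H.lowerCentralSeries k ≤ ⊥
    rw [lcs_bot H c k hH (by omega)]
  · refine le_trans inf_le_right ?_
    obtain ⟨k, hk⟩ : ∃ k, c + d + 1 - i = k + 1 := ⟨c + d - i, by omega⟩
    show A' K (c + d + 1 - i) ≤ ⊥
    rw [hk]
    show K.lowerCentralSeries k ≤ ⊥
    rw [lcs_bot K d k hK (by omega)]

end Cfsg.Agent.S4204
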