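import Cfsg.Statements.S4205
-- import your own Cfsg.Agent.* helpers here

set_option autoImplicit false
open Cfsg

namespace Cfsg.Agent.S4205

open scoped commutatorElement

/-- In a finite group whose upper central series reaches the whole group at step `c` (nilpotent of class at most `c`), starting from any subgroup and taking normalizers `c` times reaches the whole group. -/
theorem result {G : Type*} [Group G] [Finite G] (c : ℕ) (hG : Subgroup.upperCentralSeries G c = ⊤) (H : Subgroup G) : (fun K : Subgroup G => Subgroup.normalizer (K : Set G))^[c] H = ⊤ := by
  have key : ∀ i : ℕ, Subgroup.upperCentralSeries G i ≤ (fun K : Subgroup G => Subgroup.normalizer (K : Set G))^[i] H := by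
    intro i
    induction i with
    | zero => simp
    | succ n ih =>
      rw [Function.iterate_succ_apply']
      intro z hz
      rw [Subgroup.mem_normalizer_iff]
      intro k
      constructor
      · intro hk
        have h1 := (Subgroup.mem_upperCentralSeries_succ_iff (n := n) (x := z)).mp hz k
        have h2 := ih h1
        have e : z * k * z⁻¹ = ⁅z, k⁆ * k := by simp [commutatorElement_def]
        rw [e]
        exact Subgroup.mul_mem _ h2 hk
      · intro hk
        have h1 := (Subgroup.mem_upperCentralSeries_succ_iff (n := n) (x := z⁻¹)).mp
          (Subgroup.inv_mem _ hz) (z * k * z⁻¹)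
        have h2 := ih h1
        have e : k = ⁅z⁻¹, z * k * z⁻¹⁆ * (z * k * z⁻¹) := by simp [commutatorElement_def]; group
        rw [e]
        exact Subgroup.mul_mem _ h2 hk
  have := key c
  rw [hG] at this
  exact top_le_iff.mp this

end Cfsg.Agent.S4205
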