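import Cfsg.Statements.S4212
import Mathlib
import Cfsg.Agent.Lib.Struct.FrobCount
import Cfsg.Agent.Lib.Struct.Basic

set_option autoImplicit false
open Cfsg

namespace Cfsg.Agent.S4212

/-- Let `G` be a finite group of order `g`, `c` an element whose conjugacy class has `h` elements, and `n` a natural number. Then the number of elements `x` of `G` with `x^n` conjugate to `c` is a multiple of `gcd(hn, g)`. -/
theorem result {G : Type*} [Group G] [Finite G] (c : G) (n : ℕ) : Nat.gcd (Nat.card {y : G // IsConj c y} * n) (Nat.card G) ∣ Nat.card {x : G // IsConj c (x ^ n)} := by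
  classical
  haveI : Fintype G := Fintype.ofFinite G
  set K : Subgroup G := Subgroup.centralizer ({c} : Set G) with hK
  have hh : Nat.card {y : G // IsConj c y} = K.index := Cfsg.Agent.Lib.Struct.card_isConj_eq_index c
  have hcen : (⟨c, by
      rw [hK, Subgroup.mem_centralizer_iff]
      intro h hh
      rw [Set.mem_singleton_iff] at hh
      rw [hh]⟩ : K) ∈ Subgroup.center K := by
    rw [Subgroup.mem_center_iff]
    intro g
    apply Subtype.ext
    have := Subgroup.mem_centralizer_iff.mp g.2 c (Set.mem_singleton c)
    exact this.symm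
  have h1 := Cfsg.Agent.Lib.Struct.FrobCount.gcd_dvd_card_pow_eq _ hcen n
  -- transfer to `G`
  have hN2 : Nat.card {x : K // x ^ n = ⟨c, by
      rw [hK, Subgroup.mem_centralizer_iff]
      intro h hh
      rw [Set.mem_singleton_iff] at hh
      rw [hh]⟩} = Nat.card {x : G // x ^ n = c} := by
    apply Nat.card_congr
    refine ⟨fun x => ⟨(x.1 : G), ?_⟩, fun x => ⟨⟨x.1, ?_⟩, ?_⟩, ?_, ?_⟩
    · have := congrArg Subtype.val x.2
      simpa using this
    · rw [hK, Subgroup.mem_centralizer_iff]
      intro h hh
      rw [Set.mem_singleton_iff] at hh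
      rw [hh]
      have h2 : Commute x.1 (x.1 ^ n) := (Commute.refl _).pow_right n
      rw [x.2] at h2
      exact h2.symm
    · apply Subtype.ext
      simpa using x.2
    · intro x
      rfl
    · intro x
      rfl
  rw [hN2] at h1
  -- the fibres
  have hfib : ∀ y : G, IsConj c y → Nat.card {x : G // x ^ n = y} = Nat.card {x : G // x ^ n = c} := by
    intro y hy
    obtain ⟨g, rfl⟩ := isConj_iff.mp hy
    apply Nat.card_congr
    refine Equiv.subtypeEquiv (MulAut.conj g⁻¹).toEquiv ?_
    intro x
    simp only [MulEquiv.toEquiv_eq_coe, EquivLike.coe_coe, MulAut.conj_apply, inv_inv]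
    have e : (g⁻¹ * x * g) ^ n = g⁻¹ * x ^ n * g := by
      simpa using conj_pow (a := g⁻¹) (b := x) (i := n)
    rw [e]
    constructor
    · intro h
      rw [h]
      group
    · intro h
      rw [← h]
      group
  have hcount : Nat.card {x : G // IsConj c (x ^ n)} =
      Nat.card {y : G // IsConj c y} * Nat.card {x : G // x ^ n = c} := by
    rw [Nat.card_eq_fintype_card, Fintype.card_subtype, Nat.card_eq_fintype_card (α := {y : G // IsConj c y}),
      Fintype.card_subtype]
    rw [Finset.card_eq_sum_card_fiberwise (f := fun x : G => x ^ n)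
      (t := Finset.univ.filter fun y : G => IsConj c y)]
    · rw [Finset.sum_congr rfl (g := fun _ => Nat.card {x : G // x ^ n = c})]
      · simp
      · intro y hy
        have hy' : IsConj c y := (Finset.mem_filter.mp hy).2
        rw [← hfib y hy', Nat.card_eq_fintype_card, Fintype.card_subtype]
        congr 1
        ext x
        simp only [Finset.mem_filter, Finset.mem_univ, true_and]
        constructor
        · rintro ⟨_, h⟩
          exact h
        · intro h
          exact ⟨by rw [h]; exact hy', h⟩
    · intro x hx
      have hx' := (Finset.mem_filter.mp (Finset.mem_coe.mp hx)).2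
      exact Finset.mem_coe.mpr (Finset.mem_filter.mpr ⟨Finset.mem_univ _, hx'⟩)
  rw [hcount, hh]
  have hcardG : Nat.card G = K.index * Nat.card K := (Subgroup.index_mul_card K).symm
  rw [hcardG, Nat.gcd_mul_left]
  exact Nat.mul_dvd_mul_left _ h1

end Cfsg.Agent.S4212
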