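import Cfsg.Statements.S4213
import Cfsg.Agent.Lib.Struct.FrobCoset
import Cfsg.Agent.Lib.Struct.Basic
import Cfsg.Agent.Lib.Basic.Index2
import Cfsg.Agent.Lib.H8Group.Extension

set_option autoImplicit false
open Cfsg

namespace Cfsg.Agent.S4213


open Subgroup Cfsg.Agent.Lib.PGroups Cfsg.Agent.Lib.Struct

universe u

theorem normal_of_forall_pow {G : Type*} [Group G] (H M : Subgroup G) (k : ℕ) [hM : M.Normal]
    (h : ∀ x, x ∈ H ↔ x ∈ M ∧ x ^ k = 1) : H.Normal := by
  refine ⟨fun x hx g => ?_⟩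
  rw [h] at hx ⊢
  refine ⟨hM.conj_mem x hx.1 g, ?_⟩
  rw [conj_pow, hx.2, mul_one, mul_inv_cancel]

theorem mem_map_iff {G : Type*} [Group G] (M : Subgroup G) (L₀ : Subgroup M) (k : ℕ)
    (h : (L₀ : Set M) = {x : M | x ^ k = 1}) (x : G) :
    x ∈ L₀.map M.subtype ↔ x ∈ M ∧ x ^ k = 1 := by
  have hL : ∀ y : M, y ∈ L₀ ↔ y ^ k = 1 := fun y => by
    have := Set.ext_iff.mp h y
    simpa using this
  constructor
  · rintro ⟨y, hy, rfl⟩
    refine ⟨y.2, ?_⟩
    have h2 := (hL y).mp hy
    have h3 : ((y ^ k : M) : G) = ((1 : M) : G) := congrArg _ h2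
    simpa using h3
  · rintro ⟨hx, hk⟩
    refine ⟨⟨x, hx⟩, (hL _).mpr ?_, rfl⟩
    apply Subtype.ext
    simpa using hk

theorem subgroup_eq_of_card {G : Type*} [Group G] [Finite G] (N : Subgroup G) (k : ℕ)
    (h1 : Nat.card N = k) (h2 : Nat.card {x : G // x ^ k = 1} = k) :
    (N : Set G) = {x : G | x ^ k = 1} := by
  let φ : N → {x : G // x ^ k = 1} := fun x => ⟨(x : G), by
    have h3 : x ^ Nat.card N = 1 := pow_card_eq_one'
    rw [h1] at h3
    have h4 : ((x ^ k : N) : G) = ((1 : N) : G) := congrArg _ h3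
    simpa using h4⟩
  have hφinj : Function.Injective φ := by
    intro a b hab
    apply Subtype.ext
    exact congrArg (fun y : {x : G // x ^ k = 1} => y.1) hab
  have hbij : Function.Bijective φ :=
    (Nat.bijective_iff_injective_and_card φ).mpr ⟨hφinj, by rw [h1, h2]⟩
  ext x
  constructor
  · intro hx
    exact (φ ⟨x, hx⟩).2
  · intro hx
    obtain ⟨y, hy⟩ := hbij.2 ⟨x, hx⟩
    have h5 : (y : G) = x := congrArg (fun y : {x : G // x ^ k = 1} => y.1) hy
    rw [← h5]
    exact y.2

theorem aux : ∀ (N : ℕ) (G : Type u) [Group G] [Finite G] [Group.IsSolvable G] (n : ℕ),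
    Nat.card G = N → n ∣ Nat.card G → Nat.card {x : G // x ^ n = 1} = n →
    ∃ H : Subgroup G, H.Normal ∧ (H : Set G) = {x : G | x ^ n = 1} := by
  intro N
  induction N using Nat.strong_induction_on with
  | _ N IH =>
  intro G _ _ _ n hN hn hcount
  classical
  haveI : Fintype G := Fintype.ofFinite G
  have hGpos : 0 < Nat.card G := Nat.card_pos
  have hnpos : 0 < n := Nat.pos_of_dvd_of_pos hn hGpos
  by_cases hnG : n = Nat.card G
  · refine ⟨⊤, inferInstance, ?_⟩
    ext x
    simp only [coe_top, Set.mem_univ, Set.mem_setOf_eq, true_iff]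
    rw [hnG]; exact pow_card_eq_one'
  haveI : Nontrivial G := by
    rw [← Finite.one_lt_card_iff_nontrivial]
    by_contra h
    have h1 : Nat.card G = 1 := by omega
    rw [h1] at hn hnG
    exact hnG (Nat.dvd_one.mp hn)
  obtain ⟨M, hMn, hMq'⟩ := Cfsg.Agent.Lib.H8Group.exists_normal_index_prime_of_solvable (Q := G)
  haveI := hMn
  obtain ⟨q, hM⟩ : ∃ q, M.index = q := ⟨_, rfl⟩
  have hMq : q.Prime := hM ▸ hMq'
  haveI : Fact q.Prime := ⟨hMq⟩
  have hGM : q * Nat.card M = Nat.card G := by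
    rw [← hM]; exact Subgroup.index_mul_card M
  have hMlt : Nat.card M < N := by
    rw [← hN, ← hGM]
    have := hMq.two_le
    have h2 : 0 < Nat.card M := Nat.card_pos
    nlinarith
  have hconjL : ∀ (g x : G), x ^ n = 1 → (g * x * g⁻¹) ^ n = 1 := by
    intro g x hx
    rw [conj_pow, hx, mul_one, mul_inv_cancel]
  by_cases hnM : n ∣ Nat.card M
  · -- all the solutions lie in `M`
    have hfr : n ∣ Nat.card {x : M // x ^ n = 1} := frobenius hnM
    have hTpos : 0 < Nat.card {x : M // x ^ n = 1} := by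
      haveI : Nonempty {x : M // x ^ n = 1} := ⟨⟨1, one_pow n⟩⟩
      exact Nat.card_pos
    have hge := Nat.le_of_dvd hTpos hfr
    let φ : {x : M // x ^ n = 1} → {x : G // x ^ n = 1} := fun x => ⟨(x.1 : G), by
      have h2 := x.2
      have h3 : ((x.1 ^ n : M) : G) = ((1 : M) : G) := congrArg _ h2
      simpa using h3⟩
    have hφinj : Function.Injective φ := by
      intro a b hab
      apply Subtype.ext
      apply Subtype.ext
      exact congrArg (fun y : {x : G // x ^ n = 1} => y.1) hab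
    have hle : Nat.card {x : M // x ^ n = 1} ≤ Nat.card {x : G // x ^ n = 1} :=
      Nat.card_le_card_of_injective φ hφinj
    have hbij : Function.Bijective φ :=
      (Nat.bijective_iff_injective_and_card φ).mpr ⟨hφinj, by omega⟩
    have hinM : ∀ x : G, x ^ n = 1 → x ∈ M := by
      intro x hx
      obtain ⟨y, hy⟩ := hbij.2 ⟨x, hx⟩
      have h5 : (y.1 : G) = x := congrArg (fun y : {x : G // x ^ n = 1} => y.1) hy
      rw [← h5]
      exact y.1.2
    obtain ⟨L₀, -, hL₀⟩ := IH _ hMlt M n rfl hnM (by omega)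
    have hmem := mem_map_iff M L₀ n hL₀
    refine ⟨L₀.map M.subtype, normal_of_forall_pow _ M n hmem, ?_⟩
    ext x
    change x ∈ L₀.map M.subtype ↔ x ^ n = 1
    rw [hmem]
    exact ⟨fun h => h.2, fun h => ⟨hinM x h, h⟩⟩
  · -- `q` divides `n`
    have hqn : q ∣ n := by
      by_contra hqn
      have hcop : n.Coprime q := ((Nat.Prime.coprime_iff_not_dvd hMq).mpr hqn).symm
      exact hnM (hcop.dvd_of_dvd_mul_left (hGM ▸ hn))
    obtain ⟨n', rfl⟩ := hqn
    have hn'M : n' ∣ Nat.card M := by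
      have h1 : q * n' ∣ q * Nat.card M := hGM ▸ hn
      exact Nat.dvd_of_mul_dvd_mul_left hMq.pos h1
    obtain ⟨s, hs⟩ := hn'M
    have hqs : ¬ q ∣ s := by
      rintro ⟨s', rfl⟩
      exact hnM ⟨s', by rw [hs]; ring⟩
    have hn'pos : 0 < n' := Nat.pos_of_mul_pos_left hnpos |> fun h => by
      rcases Nat.eq_zero_or_pos n' with h0 | h0
      · subst h0; simp at hnpos
      · exact h0
    have hcop : Nat.Coprime q s := (Nat.Prime.coprime_iff_not_dvd hMq).mpr hqs
    have hMsol : ∀ x : G, x ∈ M → (x ^ (q * n') = 1 ↔ x ^ n' = 1) := by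
      intro x hx
      constructor
      · intro h
        have h1 : x ^ (n' * s) = 1 := by
          have h2 : (⟨x, hx⟩ : M) ^ Nat.card M = 1 := pow_card_eq_one'
          rw [hs] at h2
          have h3 := congrArg (Subtype.val) h2
          simpa using h3
        have h2 : x ^ (n' * q) = 1 := by rwa [mul_comm]
        have h3 := pow_gcd_eq_one.mpr ⟨h1, h2⟩
        rwa [Nat.gcd_mul_left, Nat.Coprime.gcd_eq_one hcop.symm, mul_one] at h3
      · intro h
        rw [mul_comm, pow_mul, h, one_pow]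
    obtain ⟨Q⟩ : Nonempty (Sylow q G) := Sylow.nonempty
    have hQn : ∀ y ∈ (Q : Subgroup G), y ^ (q * n') = 1 := by
      intro y hy
      obtain ⟨a, ha⟩ := IsPGroup.iff_card.mp Q.2
      have hd : Nat.card (Q : Subgroup G) ∣ q * n' := by
        have h1 : Nat.card (Q : Subgroup G) ∣ Nat.card G := Subgroup.card_subgroup_dvd_card _
        rw [← hGM, hs, ← mul_assoc] at h1
        rw [ha] at h1 ⊢
        exact Nat.Coprime.dvd_of_dvd_mul_right (hcop.pow_left a) h1
      obtain ⟨c, hc⟩ := hd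
      have h3 : y ^ Nat.card (Q : Subgroup G) = 1 :=
        orderOf_dvd_iff_pow_eq_one.mp (Subgroup.orderOf_dvd_natCard _ hy)
      rw [hc, pow_mul, h3, one_pow]
    obtain ⟨z, hzQ, hzM⟩ : ∃ z ∈ (Q : Subgroup G), z ∉ M := by
      by_contra hcon
      push_neg at hcon
      have h1 : (Q : Subgroup G) ≤ M := hcon
      exact not_dvd_index_of_sylow_le Q h1 (hM ▸ dvd_refl _)
    let b : G ⧸ M → ℕ := fun c => Nat.card {x : G // x ^ (q * n') = 1 ∧ (x : G ⧸ M) = c}
    have hsum : ∑ c : G ⧸ M, b c = q * n' := by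
      have e1 : (Σ c : G ⧸ M, {x : {x : G // x ^ (q * n') = 1} // ((x.1 : G) : G ⧸ M) = c}) ≃
          {x : G // x ^ (q * n') = 1} :=
        Equiv.sigmaFiberEquiv (fun x : {x : G // x ^ (q * n') = 1} => ((x.1 : G) : G ⧸ M))
      have e2 := Nat.card_congr e1
      rw [Nat.card_sigma, hcount] at e2
      rw [← e2]
      refine Finset.sum_congr rfl fun c _ => ?_
      exact Nat.card_congr (Equiv.subtypeSubtypeEquivSubtypeInter _ _).symm
    have hcardY : Nat.card (G ⧸ M) = q := hM
    have hbpos : ∀ c, 0 < b c := by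
      intro c
      have hzbar : (z : G ⧸ M) ≠ 1 := by
        rwa [Ne, QuotientGroup.eq_one_iff]
      have hmemz : c ∈ zpowers (z : G ⧸ M) := mem_zpowers_of_prime_card hcardY hzbar
      obtain ⟨k, hk⟩ := Subgroup.mem_zpowers_iff.mp hmemz
      haveI : Nonempty {x : G // x ^ (q * n') = 1 ∧ (x : G ⧸ M) = c} :=
        ⟨⟨z ^ k, hQn _ (Subgroup.zpow_mem _ hzQ k), by rw [QuotientGroup.mk_zpow, hk]⟩⟩
      exact Nat.card_pos
    have hbdvd : ∀ c, c ≠ 1 → n' ∣ b c := by
      intro c hc
      obtain ⟨g, rfl⟩ := QuotientGroup.mk_surjective c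
      have hg : g ∉ M := by
        rwa [Ne, QuotientGroup.eq_one_iff] at hc
      rw [Nat.dvd_iff_prime_pow_dvd_dvd]
      intro p j hp hpj
      refine Cfsg.Agent.Lib.Struct.FrobCount.prime_pow_dvd_card_coset M hMq hM g hg (q * n') hp
        (hpj.trans (Dvd.intro_left _ rfl)) ?_ ?_
      · exact (hpj.trans (Dvd.intro_left _ rfl)).trans hn
      · rintro rfl
        have h5 : p ^ (j + 1) ∣ p * n' := by
          rw [pow_succ']; exact Nat.mul_dvd_mul_left _ hpj
        exact ⟨h5, h5.trans hn⟩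
    have hb1 : b 1 = Nat.card {x : M // x ^ n' = 1} := by
      refine Nat.card_congr
        { toFun := fun x => ⟨⟨x.1, (QuotientGroup.eq_one_iff _).mp x.2.2⟩,
            Subtype.ext (by simpa using (hMsol x.1 ((QuotientGroup.eq_one_iff _).mp x.2.2)).mp x.2.1)⟩
          invFun := fun y => ⟨(y.1 : G), (hMsol y.1 y.1.2).mpr (by
              have h2 := y.2
              have h3 : ((y.1 ^ n' : M) : G) = ((1 : M) : G) := congrArg _ h2
              simpa using h3), (QuotientGroup.eq_one_iff _).mpr y.1.2⟩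
          left_inv := fun _ => rfl
          right_inv := fun _ => rfl }
    have hfr : n' ∣ Nat.card {x : M // x ^ n' = 1} := frobenius ⟨s, hs⟩
    have hb1dvd : n' ∣ b 1 := hb1 ▸ hfr
    have hge : ∀ c, n' ≤ b c := by
      intro c
      by_cases hc : c = 1
      · subst hc; exact Nat.le_of_dvd (hbpos 1) hb1dvd
      · exact Nat.le_of_dvd (hbpos c) (hbdvd c hc)
    have heq : ∀ c, n' = b c := by
      have h := (Finset.sum_eq_sum_iff_of_le (s := Finset.univ) (f := fun _ : G ⧸ M => n') (g := b)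
        (fun c _ => hge c)).mp (by
          rw [hsum, Finset.sum_const, Finset.card_univ, smul_eq_mul, ← Nat.card_eq_fintype_card,
            hcardY])
      exact fun c => h c (Finset.mem_univ c)
    have hsolM : Nat.card {x : M // x ^ n' = 1} = n' := by
      rw [← hb1]; exact (heq 1).symm
    obtain ⟨L₀, -, hL₀⟩ := IH _ hMlt M n' rfl ⟨s, hs⟩ hsolM
    have hmem := mem_map_iff M L₀ n' hL₀
    haveI hL₁n : (L₀.map M.subtype).Normal := normal_of_forall_pow _ M n' hmem
    have hL₁M : L₀.map M.subtype ≤ M := Subgroup.map_subtype_le L₀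
    have hL₁card : Nat.card (L₀.map M.subtype) = n' := by
      rw [Subgroup.card_map_of_injective (Subtype.val_injective), ← hsolM]
      refine Nat.card_congr (Equiv.subtypeEquivRight (fun y => ?_))
      have := Set.ext_iff.mp hL₀ y
      simpa using this
    set L₁ := L₀.map M.subtype with hL₁
    have hNM : M ⊓ (L₁ ⊔ zpowers z) = L₁ := by
      apply le_antisymm
      · rintro x ⟨hxM, hxN⟩
        have h1 : x ∈ ((L₁ ⊔ zpowers z : Subgroup G) : Set G) := hxN
        rw [Subgroup.normal_mul] at h1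
        obtain ⟨l, hl, y, hy, rfl⟩ := Set.mem_mul.mp h1
        have hlM := hL₁M hl
        have hyM : y ∈ M := by
          have h2 := M.mul_mem (M.inv_mem hlM) hxM
          simpa using h2
        have hyQ : y ∈ (Q : Subgroup G) := (Subgroup.zpowers_le.mpr hzQ) hy
        have hyn := hQn y hyQ
        have hy' : y ∈ L₁ := (hmem y).mpr ⟨hyM, (hMsol y hyM).mp hyn⟩
        exact L₁.mul_mem hl hy'
      · exact le_inf hL₁M le_sup_left
    have hsup : M ⊔ (L₁ ⊔ zpowers z) = ⊤ := by
      have hco : IsCoatom M := Cfsg.Agent.Lib.Basic.isCoatom_of_index_prime (hM ▸ hMq)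
      refine hco.2 _ (lt_of_le_of_ne le_sup_left fun h => ?_)
      have h2 : z ∈ M ⊔ (L₁ ⊔ zpowers z) :=
        Subgroup.mem_sup_right (Subgroup.mem_sup_right (Subgroup.mem_zpowers z))
      rw [← h] at h2
      exact hzM h2
    have hcardN : Nat.card (L₁ ⊔ zpowers z : Subgroup G) = q * n' := by
      have h1 := card_inf_mul_relIndex M (L₁ ⊔ zpowers z)
      rw [hNM, hL₁card, ← Subgroup.relIndex_sup_left (L₁ ⊔ zpowers z) M, hsup,
        Subgroup.relIndex_top_right, hM] at h1
      rw [← h1, mul_comm]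
    have hset := subgroup_eq_of_card _ _ hcardN hcount
    refine ⟨L₁ ⊔ zpowers z, ⟨fun x hx g => ?_⟩, hset⟩
    have h1 : x ∈ ((L₁ ⊔ zpowers z : Subgroup G) : Set G) := hx
    rw [hset] at h1
    have h2 : g * x * g⁻¹ ∈ ((L₁ ⊔ zpowers z : Subgroup G) : Set G) := by
      rw [hset]
      exact hconjL g x h1
    exact h2

/-- If `G` is a finite solvable group and `n` divides the order of `G` and exactly `n` elements `x` of `G` satisfy `x^n = 1`, then these elements form a normal subgroup. -/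
theorem result {G : Type*} [Group G] [Finite G] [Group.IsSolvable G] (n : ℕ) (hn : n ∣ Nat.card G) (hcount : Nat.card {x : G // x ^ n = 1} = n) : ∃ H : Subgroup G, H.Normal ∧ (H : Set G) = {x : G | x ^ n = 1} := by
  exact aux _ G n rfl hn hcount

end Cfsg.Agent.S4213
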