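import Cfsg.Statements.S4214
import Cfsg.Agent.Lib.Basic.Hall
import Cfsg.Agent.Lib.Basic.MinNormal
import Cfsg.Agent.Lib.Basic.Conj
import Cfsg.Agent.Lib.Struct.Basic
import Cfsg.Agent.Lib.Struct.SylowCount
import Cfsg.Agent.Lib.H8Group.Extension
import Cfsg.Agent.Lib.H8Group.AbelianIndex

set_option autoImplicit false
open Cfsg

namespace Cfsg.Agent.S4214


open Subgroup Cfsg.Agent.Lib.Struct Cfsg.Agent.Lib.Basic
open scoped Pointwise

universe u

theorem card_mul_relIndex' {G : Type*} [Group G] {H K : Subgroup G} (h : H ≤ K) :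
    Nat.card H * H.relIndex K = Nat.card K := by
  have := card_inf_mul_relIndex H K
  rwa [inf_of_le_left h] at this

/-- The chain of quotients for `|N : C_N(H)|`. -/
theorem good_chain {G : Type u} [Group G] [Finite G] [Group.IsSolvable G] {r : ℕ} (hr : r.Prime)
    (N : Subgroup G) (hNp : IsPGroup r N) :
    ∀ (k : ℕ) (H : Subgroup G), Nat.card H = k → H ≤ normalizer (N : Set G) → (Nat.card H).Coprime r →
    ∃ l : List ℕ, l.prod = (N ⊓ centralizer (H : Set G)).relIndex N ∧
      ∀ f ∈ l, (∃ e, f = r ^ e) ∧ f ∣ Nat.card N ∧ ∃ q : ℕ, q.Prime ∧ q ∣ Nat.card H ∧ f ≡ 1 [MOD q] := by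
  intro k
  induction k using Nat.strong_induction_on with
  | _ k ih =>
  intro H hk hHN hco
  haveI : Fact r.Prime := ⟨hr⟩
  by_cases hbot : H = ⊥
  · refine ⟨[], ?_, by simp⟩
    subst hbot
    have h : N ≤ centralizer ((⊥ : Subgroup G) : Set G) := by
      rw [Subgroup.le_centralizer_iff]
      exact bot_le
    rw [inf_of_le_left h, Subgroup.relIndex_self]
    rfl
  haveI : Nontrivial H := (Subgroup.nontrivial_iff_ne_bot H).mpr hbot
  obtain ⟨M₀, hM₀n, hM₀p⟩ := Cfsg.Agent.Lib.H8Group.exists_normal_index_prime_of_solvable (Q := H)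
  set M : Subgroup G := M₀.map H.subtype with hM
  have hMH : M ≤ H := Subgroup.map_subtype_le _
  set q := M₀.index with hq
  haveI : Fact q.Prime := ⟨hM₀p⟩
  have hqH : q ∣ Nat.card H := Subgroup.index_dvd_card M₀
  have hcardM : Nat.card M = Nat.card M₀ := Nat.card_congr (Subgroup.equivMapOfInjective _ _ H.subtype_injective).symm.toEquiv
  have hMcard : Nat.card M₀ * q = Nat.card H := Subgroup.card_mul_index M₀
  have hMlt : Nat.card M < k := by
    rw [hcardM, ← hk, ← hMcard]
    have := hM₀p.one_lt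
    have hpos : 0 < Nat.card M₀ := Nat.card_pos
    nlinarith
  have hMdvd : Nat.card M ∣ Nat.card H := by
    rw [hcardM]; exact Subgroup.card_subgroup_dvd_card M₀
  obtain ⟨l, hl, hlg⟩ := ih _ hMlt M rfl (hMH.trans hHN) (Nat.Coprime.coprime_dvd_left hMdvd hco)
  -- a Sylow q subgroup
  obtain ⟨P₀⟩ : Nonempty (Sylow q H) := inferInstance
  set P : Subgroup G := (P₀ : Subgroup H).map H.subtype with hP
  have hPH : P ≤ H := Subgroup.map_subtype_le _
  have hPp : IsPGroup q P := (P₀.isPGroup').map _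
  have hnotle : ¬ (P₀ : Subgroup H) ≤ M₀ := fun hle =>
    not_dvd_index_of_sylow_le P₀ hle (dvd_refl q)
  obtain ⟨x, hxP, hxM⟩ := SetLike.not_le_iff_exists.mp hnotle
  have hsup : M₀ ⊔ (P₀ : Subgroup H) = ⊤ :=
    Cfsg.Agent.Lib.H8Group.eq_top_of_le_of_mem_of_prime_index hM₀p le_sup_left
      ((le_sup_right : (P₀ : Subgroup H) ≤ _) hxP) hxM
  have hsupG : M ⊔ P = H := by
    rw [hM, hP, ← Subgroup.map_sup, hsup, ← MonoidHom.range_eq_map, Subgroup.range_subtype]
  set W := N ⊓ centralizer (M : Set G) with hW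
  have hWN : W ≤ N := inf_le_left
  have hCH : N ⊓ centralizer (H : Set G) = W ⊓ centralizer (P : Set G) := by
    rw [hW, inf_assoc, ← hsupG]
    congr 1
    ext y
    simp only [Subgroup.mem_inf, Subgroup.mem_centralizer_iff, SetLike.mem_coe]
    constructor
    · intro h
      exact ⟨fun z hz => h z ((le_sup_left : M ≤ _) hz), fun z hz => h z ((le_sup_right : P ≤ _) hz)⟩
    · rintro ⟨h1, h2⟩
      have : M ⊔ P ≤ centralizer ({y} : Set G) := by
        refine sup_le ?_ ?_
        · intro z hz
          rw [Subgroup.mem_centralizer_iff]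
          intro t ht
          rw [Set.mem_singleton_iff.mp ht]
          exact (h1 z hz).symm
        · intro z hz
          rw [Subgroup.mem_centralizer_iff]
          intro t ht
          rw [Set.mem_singleton_iff.mp ht]
          exact (h2 z hz).symm
      intro z hz
      have h3 := Subgroup.mem_centralizer_iff.mp (this hz) y rfl
      exact h3.symm
  have hPW : P ≤ normalizer (W : Set G) := by
    intro z hz
    have hzH := hPH hz
    have hzN := hHN hzH
    rw [Subgroup.mem_normalizer_iff]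
    intro y
    have hM₀' : ∀ t ∈ M, z * t * z⁻¹ ∈ M := by
      intro t ht
      obtain ⟨t', ht', rfl⟩ := ht
      have := hM₀n.conj_mem t' ht' ⟨z, hzH⟩
      exact ⟨_, this, rfl⟩
    have hM₀'' : ∀ t ∈ M, z⁻¹ * t * z ∈ M := by
      intro t ht
      obtain ⟨t', ht', rfl⟩ := ht
      have := hM₀n.conj_mem t' ht' (⟨z, hzH⟩ : H)⁻¹
      refine ⟨_, this, ?_⟩
      simp
    simp only [hW, SetLike.mem_coe, Subgroup.mem_inf, Subgroup.mem_centralizer_iff]
    constructor
    · rintro ⟨h1, h2⟩
      refine ⟨(Subgroup.mem_normalizer_iff.mp hzN y).mp h1, fun t ht => ?_⟩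
      have h3 := h2 _ (hM₀'' t ht)
      calc t * (z * y * z⁻¹) = z * ((z⁻¹ * t * z) * y) * z⁻¹ := by group
        _ = z * (y * (z⁻¹ * t * z)) * z⁻¹ := by rw [h3]
        _ = _ := by group
    · rintro ⟨h1, h2⟩
      refine ⟨(Subgroup.mem_normalizer_iff.mp hzN y).mpr h1, fun t ht => ?_⟩
      have h3 := h2 _ (hM₀' t ht)
      have h4 : z * (t * y) * z⁻¹ = z * (y * t) * z⁻¹ := by
        calc z * (t * y) * z⁻¹ = (z * t * z⁻¹) * (z * y * z⁻¹) := by group
          _ = (z * y * z⁻¹) * (z * t * z⁻¹) := h3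
          _ = _ := by group
      exact mul_left_cancel (mul_right_cancel h4)
  have hmod := Cfsg.Agent.Lib.Struct.card_modEq_inf_centralizer hPp hPW
  rw [← hCH] at hmod
  set D := N ⊓ centralizer (H : Set G) with hD
  have hDW : D ≤ W := by
    rw [hCH]; exact inf_le_left
  set f := D.relIndex W with hf
  have hfc : Nat.card D * f = Nat.card W := card_mul_relIndex' hDW
  have hWcard : Nat.card W ∣ Nat.card N := Subgroup.card_dvd_of_le hWN
  have hDcard : Nat.card D ∣ Nat.card N := Subgroup.card_dvd_of_le (hDW.trans hWN)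
  obtain ⟨b, hb⟩ := IsPGroup.iff_card.mp hNp
  have hqr : q ≠ r := by
    rintro h
    have : r ∣ Nat.card H := h ▸ hqH
    have h2 := Nat.Coprime.eq_one_of_dvd hco.symm this
    exact hr.one_lt.ne' h2
  have hDco : (Nat.card D).Coprime q := by
    rw [hb] at hDcard
    obtain ⟨j, -, hj⟩ := (Nat.dvd_prime_pow hr).mp hDcard
    rw [hj]
    exact Nat.Coprime.pow_left _ ((Nat.coprime_primes hr hM₀p).mpr hqr.symm)
  have hf1 : f ≡ 1 [MOD q] := by
    have h1 : Nat.card D * f ≡ Nat.card D * 1 [MOD q] := by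
      rw [hfc, mul_one]; exact hmod
    exact Nat.ModEq.cancel_left_of_coprime (by rwa [Nat.coprime_comm, Nat.coprime_iff_gcd_eq_one] at hDco) h1
  have hfN : f ∣ Nat.card N := (Dvd.intro_left _ hfc).trans hWcard
  refine ⟨f :: l, ?_, ?_⟩
  · rw [List.prod_cons, hl]
    exact Subgroup.relIndex_mul_relIndex _ _ _ hDW hWN
  · intro g hg
    rcases List.mem_cons.mp hg with rfl | hg
    · refine ⟨?_, hfN, q, hM₀p, hqH, hf1⟩
      rw [hb] at hfN
      obtain ⟨j, -, hj⟩ := (Nat.dvd_prime_pow hr).mp hfN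
      exact ⟨j, hj⟩
    · obtain ⟨h1, h2, q', hq', h3, h4⟩ := hlg g hg
      exact ⟨h1, h2, q', hq', h3.trans hMdvd, h4⟩

/-- number of Hall subgroups as an index -/
theorem count_eq_index {X : Type*} [Group X] [Finite X] [Group.IsSolvable X] (H : Subgroup X)
    (hH : (Nat.card H).Coprime H.index) :
    Nat.card {K : Subgroup X // Nat.card K = Nat.card H} = (normalizer (H : Set X)).index := by
  letI : MulAction X (Subgroup X) := MulAction.compHom _ (MulAut.conj : X →* MulAut X)
  have hsm : ∀ (g : X) (K : Subgroup X), g • K = MulAut.conj g • K := fun _ _ => rfl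
  have hstab : MulAction.stabilizer X H = normalizer (H : Set X) := by
    ext g
    rw [MulAction.mem_stabilizer_iff, hsm]
    constructor
    · intro h
      rw [Subgroup.mem_normalizer_iff]
      intro y
      constructor
      · intro hy
        rw [← h]
        refine (mem_conj_smul g _ H).mpr ?_
        have e : g⁻¹ * (g * y * g⁻¹) * g = y := by group
        rwa [e]
      · intro hy
        have := hy
        rw [← h] at this
        have h5 := (mem_conj_smul g _ H).mp this
        have e : g⁻¹ * (g * y * g⁻¹) * g = y := by group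
        rwa [e] at h5
    · intro h
      refine Subgroup.eq_of_le_of_card_ge ?_ ?_
      · intro y hy
        have h1 := (mem_conj_smul g y H).mp hy
        have h2 := (Subgroup.mem_normalizer_iff.mp h (g⁻¹ * y * g)).mp h1
        have : g * (g⁻¹ * y * g) * g⁻¹ = y := by group
        rwa [this] at h2
      · rw [card_conj_smul]
  have horb : MulAction.orbit X H = {K : Subgroup X | Nat.card K = Nat.card H} := by
    ext K
    simp only [MulAction.mem_orbit_iff, Set.mem_setOf_eq, hsm]
    constructor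
    · rintro ⟨g, rfl⟩
      exact card_conj_smul g H
    · intro h
      exact hall_conj H K hH h
  rw [← hstab, MulAction.index_stabilizer, horb]
  rfl

def GoodF {G : Type u} [Group G] (m f : ℕ) : Prop :=
  (∃ q e : ℕ, q.Prime ∧ f = q ^ e) ∧
  (∃ K L : Subgroup G, K.Normal ∧ L.Normal ∧ K < L ∧
    (∀ M : Subgroup G, M.Normal → K ≤ M → M ≤ L → M = K ∨ M = L) ∧ f ∣ K.relIndex L) ∧
  (∃ q : ℕ, q.Prime ∧ q ∣ m ∧ f ≡ 1 [MOD q])

theorem GoodF.lift {G : Type u} [Group G] {N : Subgroup G} [N.Normal] {m m' f : ℕ} (hm : m' ∣ m)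
    (h : GoodF (G := G ⧸ N) m' f) : GoodF (G := G) m f := by
  obtain ⟨h1, ⟨K, L, hK, hL, hlt, hbet, hd⟩, q, hq, hqm, hmod⟩ := h
  refine ⟨h1, ?_, q, hq, hqm.trans hm, hmod⟩
  have hsurj : Function.Surjective (QuotientGroup.mk' N) := QuotientGroup.mk'_surjective N
  refine ⟨K.comap (QuotientGroup.mk' N), L.comap (QuotientGroup.mk' N), hK.comap _, hL.comap _, ?_, ?_, ?_⟩
  · exact Subgroup.comap_lt_comap_of_surjective hsurj |>.mpr hlt
  · intro M hM hKM hML
    have hkM : (QuotientGroup.mk' N).ker ≤ M := by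
      intro x hx
      apply hKM
      rw [Subgroup.mem_comap, MonoidHom.mem_ker.mp hx]
      exact K.one_mem
    have hcm : (M.map (QuotientGroup.mk' N)).comap (QuotientGroup.mk' N) = M :=
      Subgroup.comap_map_eq_self hkM
    have h2 : K ≤ M.map (QuotientGroup.mk' N) := by
      have := Subgroup.map_mono (f := QuotientGroup.mk' N) hKM
      rwa [Subgroup.map_comap_eq_self_of_surjective hsurj] at this
    have h3 : M.map (QuotientGroup.mk' N) ≤ L := by
      have := Subgroup.map_mono (f := QuotientGroup.mk' N) hML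
      rwa [Subgroup.map_comap_eq_self_of_surjective hsurj] at this
    rcases hbet _ (hM.map _ hsurj) h2 h3 with h4 | h4
    · left; rw [← h4, hcm]
    · right; rw [← h4, hcm]
  · rw [Subgroup.relIndex_comap, Subgroup.map_comap_eq_self_of_surjective hsurj]
    exact hd

/-- subgroups of order `m` contain a normal `r`-subgroup when `r ∣ m`, `r ∤ n`. -/
theorem normal_le_of_card {G : Type u} [Group G] [Finite G] {r m n : ℕ} (hr : r.Prime)
    (hG : Nat.card G = m * n) (hrn : ¬ r ∣ n) {N : Subgroup G} [N.Normal] (hNp : IsPGroup r N)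
    {H : Subgroup G} (hH : Nat.card H = m) : N ≤ H := by
  haveI : Fact r.Prime := ⟨hr⟩
  have hm0 : 0 < m := by
    rw [← hH]; exact Nat.card_pos
  have h1 : H.relIndex (N ⊔ H) = H.relIndex N := (relIndex_eq_relIndex_sup N H).symm
  have h2 := card_mul_relIndex' (le_sup_right : H ≤ N ⊔ H)
  have h3 : Nat.card (N ⊔ H : Subgroup G) ∣ m * n := by
    rw [← hG]; exact Subgroup.card_subgroup_dvd_card _
  rw [← h2, hH] at h3
  have h4 : H.relIndex (N ⊔ H) ∣ n := Nat.dvd_of_mul_dvd_mul_left hm0 h3
  have h5 : H.relIndex N ∣ Nat.card N := by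
    have := card_inf_mul_relIndex H N
    exact Dvd.intro_left _ this
  obtain ⟨b, hb⟩ := IsPGroup.iff_card.mp hNp
  rw [hb] at h5
  obtain ⟨j, -, hj⟩ := (Nat.dvd_prime_pow hr).mp h5
  rw [h1, hj] at h4
  have hj0 : j = 0 := by
    by_contra hne
    exact hrn ((dvd_pow_self r hne).trans h4)
  have h6 : H.relIndex N = 1 := by rw [hj, hj0, pow_zero]
  exact Subgroup.relIndex_eq_one.mp h6

/-- counting when `N` is contained in all the Hall subgroups. -/
theorem count_of_le {G : Type u} [Group G] [Finite G] {m m' : ℕ} {N : Subgroup G} [hN : N.Normal]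
    (hm : m = Nat.card N * m') (hle : ∀ H : Subgroup G, Nat.card H = m → N ≤ H) :
    Nat.card {H : Subgroup G // Nat.card H = m} = Nat.card {K : Subgroup (G ⧸ N) // Nat.card K = m'} := by
  have hpos : 0 < Nat.card N := Nat.card_pos
  have hsurj : Function.Surjective (QuotientGroup.mk' N) := QuotientGroup.mk'_surjective N
  refine Nat.card_congr ⟨fun H => ⟨H.1.map (QuotientGroup.mk' N), ?_⟩, fun K => ⟨K.1.comap (QuotientGroup.mk' N), ?_⟩, ?_, ?_⟩
  · have h1 := card_comap_mk (H.1.map (QuotientGroup.mk' N))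
    rw [Subgroup.comap_map_eq_self (by rw [QuotientGroup.ker_mk']; exact hle _ H.2), H.2] at h1
    exact Nat.eq_of_mul_eq_mul_left hpos (h1.symm.trans hm)
  · rw [card_comap_mk, K.2, hm]
  · intro H
    apply Subtype.ext
    exact Subgroup.comap_map_eq_self (by rw [QuotientGroup.ker_mk']; exact hle _ H.2)
  · intro K
    apply Subtype.ext
    exact Subgroup.map_comap_eq_self_of_surjective hsurj _

/-- The Frattini step. -/
theorem count_formula {G : Type u} [Group G] [Finite G] [Group.IsSolvable G] {m : ℕ} {N H : Subgroup G}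
    [hN : N.Normal] (hHc : Nat.card H = m) (hcoN : m.Coprime (Nat.card N))
    (hco : m.Coprime H.index) :
    Nat.card {K : Subgroup G // Nat.card K = m} =
      Nat.card {K : Subgroup (G ⧸ N) // Nat.card K = m} * (N ⊓ centralizer (H : Set G)).relIndex N := by
  subst hHc
  set π := QuotientGroup.mk' N with hπ
  have hsurj : Function.Surjective π := QuotientGroup.mk'_surjective N
  have hinf : H ⊓ N = ⊥ := Subgroup.inf_eq_bot_of_coprime hcoN
  have hrel : H.relIndex N = Nat.card N := by
    have := card_inf_mul_relIndex H N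
    rw [hinf] at this
    simpa using this
  have hrelT : H.relIndex (N ⊔ H) = Nat.card N := by
    rw [← relIndex_eq_relIndex_sup N H]; exact hrel
  have hTcard : Nat.card (N ⊔ H : Subgroup G) = Nat.card H * Nat.card N := by
    rw [← card_mul_relIndex' (le_sup_right : H ≤ N ⊔ H), hrelT]
  set Hb := H.map π with hHb
  have hcomap : Hb.comap π = N ⊔ H := by
    rw [hHb, Subgroup.comap_map_eq, hπ, QuotientGroup.ker_mk', sup_comm]
  have hHbcard : Nat.card Hb = Nat.card H := by
    have h1 := card_comap_mk (N := N) Hb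
    rw [show Hb.comap (QuotientGroup.mk' N) = N ⊔ H from hcomap, hTcard, mul_comm] at h1
    exact (Nat.eq_of_mul_eq_mul_left Nat.card_pos h1).symm
  have hHbidx : Hb.index ∣ H.index := by
    have h1 : Hb.index = (N ⊔ H).index := by
      rw [← hcomap]
      exact (Subgroup.index_comap_of_surjective Hb hsurj).symm
    rw [h1]
    exact Subgroup.index_dvd_of_le le_sup_right
  have hHbco : (Nat.card Hb).Coprime Hb.index := by
    rw [hHbcard]
    exact Nat.Coprime.coprime_dvd_right hHbidx hco
  have e1 := count_eq_index H hco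
  have e2 := count_eq_index Hb hHbco
  rw [hHbcard] at e2
  rw [e1, e2]
  -- the normalizer
  have hcn : (normalizer (Hb : Set (G ⧸ N))).comap π = N ⊔ normalizer (H : Set G) := by
    apply le_antisymm
    · intro g hg
      have hg' : π g ∈ normalizer (Hb : Set (G ⧸ N)) := hg
      have hAT : MulAut.conj g • H ≤ N ⊔ H := by
        intro a ha
        have h1 := (mem_conj_smul g a H).mp ha
        rw [← hcomap, Subgroup.mem_comap]
        have h2 : π (g⁻¹ * a * g) ∈ Hb := ⟨_, h1, rfl⟩
        have h3 := (Subgroup.mem_normalizer_iff.mp hg' _).mp h2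
        have e : π g * π (g⁻¹ * a * g) * (π g)⁻¹ = π a := by
          simp only [map_mul, map_inv]; group
        rwa [e] at h3
      set T := N ⊔ H with hT
      have hHT : H ≤ T := le_sup_right
      have hcardH' : Nat.card (H.subgroupOf T) = Nat.card H := card_subgroupOf_of_le hHT
      have hcardA' : Nat.card ((MulAut.conj g • H).subgroupOf T) = Nat.card H := by
        rw [card_subgroupOf_of_le hAT, card_conj_smul]
      have hco' : (Nat.card (H.subgroupOf T)).Coprime (H.subgroupOf T).index := by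
        rw [hcardH', ← Subgroup.relIndex, hrelT]
        exact hcoN
      obtain ⟨t, ht⟩ := hall_conj (H.subgroupOf T) ((MulAut.conj g • H).subgroupOf T) hco' (by rw [hcardA', hcardH'])
      have hkey : ∀ h ∈ H, (g⁻¹ * t) * h * (g⁻¹ * t)⁻¹ ∈ H := by
        intro h hh
        have h1 : t * (⟨h, hHT hh⟩ : T) * t⁻¹ ∈ MulAut.conj t • (H.subgroupOf T) := by
          refine (mem_conj_smul t _ _).mpr ?_
          have e : t⁻¹ * (t * (⟨h, hHT hh⟩ : T) * t⁻¹) * t = ⟨h, hHT hh⟩ := by group
          rw [e]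
          exact hh
        rw [ht, Subgroup.mem_subgroupOf] at h1
        have h2 := (mem_conj_smul g _ H).mp h1
        have e : (g⁻¹ * t) * h * (g⁻¹ * t)⁻¹ = g⁻¹ * ((t : G) * h * (t : G)⁻¹) * g := by group
        rw [e]
        simpa using h2
      have hk : g⁻¹ * t ∈ normalizer (H : Set G) := Cfsg.Agent.Lib.Coprime.mem_normalizer_of_conj_le H _ hkey
      have hk' : (g⁻¹ * (t : G))⁻¹ ∈ normalizer (H : Set G) := Subgroup.inv_mem _ hk
      obtain ⟨x, hx, h₀, hh₀, hxh⟩ := Subgroup.mem_sup_of_normal_left.mp t.2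
      have hg2 : g = x * (h₀ * (g⁻¹ * (t : G))⁻¹) := by
        have : (t : G) = x * h₀ := hxh.symm
        rw [mul_inv_rev, inv_inv, ← mul_assoc, ← mul_assoc, ← this]
        group
      rw [hg2]
      exact Subgroup.mul_mem_sup hx (Subgroup.mul_mem _ (Subgroup.le_normalizer hh₀) hk')
    · refine sup_le ?_ ?_
      · intro x hx
        rw [Subgroup.mem_comap]
        have : π x = 1 := (QuotientGroup.eq_one_iff x).mpr hx
        rw [this]
        exact Subgroup.one_mem _
      · intro g hg
        exact Subgroup.le_normalizer_map π ⟨g, hg, rfl⟩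
  have hidx : (normalizer (Hb : Set (G ⧸ N))).index = (N ⊔ normalizer (H : Set G)).index := by
    rw [← hcn]
    exact (Subgroup.index_comap_of_surjective _ hsurj).symm
  rw [hidx]
  have h3 := Subgroup.relIndex_mul_index (le_sup_right : normalizer (H : Set G) ≤ N ⊔ normalizer (H : Set G))
  rw [← relIndex_eq_relIndex_sup N (normalizer (H : Set G))] at h3
  rw [← h3, mul_comm]
  congr 1
  rw [← Subgroup.inf_relIndex_right (normalizer (H : Set G)) N]
  congr 1
  ext x
  simp only [Subgroup.mem_inf, Subgroup.mem_centralizer_iff, SetLike.mem_coe]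
  constructor
  · rintro ⟨hxn, hxN⟩
    refine ⟨hxN, fun h hh => ?_⟩
    have h1 : x * h * x⁻¹ ∈ H := (Subgroup.mem_normalizer_iff.mp hxn h).mp hh
    have h2 : x * h * x⁻¹ * h⁻¹ ∈ H := Subgroup.mul_mem _ h1 (Subgroup.inv_mem _ hh)
    have h3 : x * h * x⁻¹ * h⁻¹ ∈ N := by
      have : x * h * x⁻¹ * h⁻¹ = x * (h * x⁻¹ * h⁻¹) := by group
      rw [this]
      exact Subgroup.mul_mem _ hxN (hN.conj_mem _ (Subgroup.inv_mem _ hxN) h)
    have h4 : x * h * x⁻¹ * h⁻¹ ∈ H ⊓ N := ⟨h2, h3⟩
    rw [hinf, Subgroup.mem_bot] at h4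
    have h5 : x * h * x⁻¹ = h := by
      have := mul_inv_eq_one.mp h4
      exact this
    have h6 := mul_inv_eq_iff_eq_mul.mp h5
    exact h6.symm
  · rintro ⟨hxN, hx⟩
    refine ⟨?_, hxN⟩
    rw [Subgroup.mem_normalizer_iff]
    intro h
    have e : ∀ h ∈ H, x * h * x⁻¹ = h := by
      intro h hh
      rw [← hx h hh]; group
    constructor
    · intro hh
      rw [e h hh]; exact hh
    · intro hh
      have h1 : x⁻¹ * (x * h * x⁻¹) * x = h := by group
      have h2 := e _ hh
      have h3 : x * h * x⁻¹ = x * (x * h * x⁻¹) * x⁻¹ := h2.symm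
      have h4 : h = x * h * x⁻¹ := by
        have := mul_right_cancel (mul_left_cancel (by simpa [mul_assoc] using h3 : x * (h * x⁻¹) = x * (x * h * x⁻¹ * x⁻¹)))
        exact this
      rw [h4]; exact hh

theorem main_count : ∀ (k : ℕ) {G : Type u} [Group G] [Finite G] [Group.IsSolvable G] (m n : ℕ),
    Nat.card G = k → Nat.card G = m * n → m.Coprime n →
    ∃ l : List ℕ, l.prod = Nat.card {H : Subgroup G // Nat.card H = m} ∧ ∀ f ∈ l, GoodF (G := G) m f := by
  intro k
  induction k using Nat.strong_induction_on with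
  | _ k ih =>
  intro G _ _ _ m n hk hG hmn
  by_cases hnt : Nontrivial G
  · obtain ⟨N, hNmin⟩ := exists_isMinNormal (G := G)
    obtain ⟨hcomm, r, hr, hNp⟩ := hNmin.isPGroup
    haveI hNn : N.Normal := hNmin.1
    haveI : Fact r.Prime := ⟨hr⟩
    obtain ⟨b, hb⟩ := IsPGroup.iff_card.mp hNp
    have hN1 : 1 < Nat.card N := (Subgroup.one_lt_card_iff_ne_bot N).mpr hNmin.2.1
    have hcardq : Nat.card G = Nat.card (G ⧸ N) * Nat.card N :=
      Subgroup.card_eq_card_quotient_mul_card_subgroup N
    have hlt : Nat.card (G ⧸ N) < k := by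
      rw [← hk, hcardq]
      exact lt_mul_of_one_lt_right Nat.card_pos hN1
    have hNG : Nat.card N ∣ m * n := by
      rw [← hG]
      exact Subgroup.card_subgroup_dvd_card N
    have hNpos : 0 < Nat.card N := Nat.card_pos
    by_cases hrm : r ∣ m
    · have hrn : ¬ r ∣ n := by
        intro h
        have := Nat.dvd_gcd hrm h
        rw [hmn.gcd_eq_one] at this
        exact hr.one_lt.ne' (Nat.dvd_one.mp this)
      have hNco : (Nat.card N).Coprime n := by
        rw [hb]
        exact Nat.Coprime.pow_left _ ((Nat.Prime.coprime_iff_not_dvd hr).mpr hrn)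
      obtain ⟨m', hm'⟩ := hNco.dvd_of_dvd_mul_right hNG
      have hq : Nat.card (G ⧸ N) = m' * n := by
        refine Nat.eq_of_mul_eq_mul_left hNpos ?_
        rw [mul_comm (Nat.card N), ← hcardq, hG, hm', mul_assoc]
      have hm'm : m' ∣ m := ⟨Nat.card N, by rw [hm', mul_comm]⟩
      have hco : m'.Coprime n := Nat.Coprime.coprime_dvd_left hm'm hmn
      obtain ⟨l, hl, hgood⟩ := ih _ hlt (G := G ⧸ N) m' n rfl hq hco
      refine ⟨l, hl.trans (count_of_le hm' (fun H hH => normal_le_of_card hr hG hrn hNp hH)).symm,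
        fun f hf => (hgood f hf).lift hm'm⟩
    · have hmr : m.Coprime r := ((Nat.Prime.coprime_iff_not_dvd hr).mpr hrm).symm
      have hco : m.Coprime (Nat.card N) := by
        rw [hb]
        exact Nat.Coprime.pow_right _ hmr
      obtain ⟨n', hn'⟩ := hco.symm.dvd_of_dvd_mul_left hNG
      have hq : Nat.card (G ⧸ N) = m * n' := by
        refine Nat.eq_of_mul_eq_mul_left hNpos ?_
        rw [mul_comm (Nat.card N), ← hcardq, hG, hn']
        ring
      have hn'n : n' ∣ n := ⟨Nat.card N, by rw [hn', mul_comm]⟩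
      have hco' : m.Coprime n' := Nat.Coprime.coprime_dvd_right hn'n hmn
      obtain ⟨l₁, hl₁, hgood₁⟩ := ih _ hlt (G := G ⧸ N) m n' rfl hq hco'
      obtain ⟨H, hH⟩ := hall_exists _ m n rfl hG hmn
      have hm0 : 0 < m := by
        rw [← hH]; exact Nat.card_pos
      have hidx : H.index = n := by
        have h1 := Subgroup.card_mul_index H
        rw [hH, hG] at h1
        exact Nat.eq_of_mul_eq_mul_left hm0 h1
      have hform := count_formula hH hco (by rwa [hidx])
      have hHN : H ≤ normalizer (N : Set G) := by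
        rw [Subgroup.normalizer_eq_top_iff.mpr hNn]
        exact le_top
      obtain ⟨l₂, hl₂, hgood₂⟩ := good_chain hr N hNp _ H rfl hHN (by rw [hH]; exact hmr)
      refine ⟨l₁ ++ l₂, ?_, ?_⟩
      · rw [List.prod_append, hl₁, hl₂, hform]
      · intro f hf
        rcases List.mem_append.mp hf with hf | hf
        · exact (hgood₁ f hf).lift (dvd_refl m)
        · obtain ⟨⟨e, he⟩, h2, q, hq, h3, h4⟩ := hgood₂ f hf
          refine ⟨⟨r, e, hr, he⟩, ⟨⊥, N, Subgroup.normal_bot, hNn, bot_lt_iff_ne_bot.mpr hNmin.2.1, ?_, ?_⟩,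
            q, hq, hH ▸ h3, h4⟩
          · intro M hM _ hMN
            exact hNmin.2.2 M hM hMN
          · rw [Subgroup.relIndex_bot_left]
            exact h2
  · rw [not_nontrivial_iff_subsingleton] at hnt
    have h1 : Nat.card G = 1 := Nat.card_of_subsingleton (1 : G)
    rw [h1] at hG
    have hm1 : m = 1 := Nat.eq_one_of_mul_eq_one_right hG.symm
    subst hm1
    refine ⟨[], ?_, by simp⟩
    simp only [List.prod_nil]
    symm
    haveI : Subsingleton {H : Subgroup G // Nat.card H = 1} :=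
      ⟨fun a b => Subtype.ext (by
        rw [Subgroup.eq_bot_of_subsingleton a.1, Subgroup.eq_bot_of_subsingleton b.1])⟩
    haveI : Nonempty {H : Subgroup G // Nat.card H = 1} := ⟨⟨⊥, by simp⟩⟩
    exact Nat.card_of_subsingleton (Classical.arbitrary _)

/-- Let `G` be a finite solvable group of order `mn` with `gcd(m, n) = 1`. Then the number of subgroups of order `m` is a product of natural numbers each of which is a power of a prime, divides the order of some chief factor of `G` (a quotient `L/K` of normal subgroups `K < L` of `G` with no normal subgroup of `G` strictly between them), and is congruent to `1` modulo some prime divisor of `m`. -/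
theorem result {G : Type*} [Group G] [Finite G] [Group.IsSolvable G] (m n : ℕ) (hG : Nat.card G = m * n) (hmn : Nat.Coprime m n) : ∃ (k : ℕ) (f : Fin k → ℕ), Nat.card {H : Subgroup G // Nat.card H = m} = ∏ i, f i ∧ ∀ i, (∃ q e : ℕ, q.Prime ∧ f i = q ^ e) ∧ (∃ K L : Subgroup G, K.Normal ∧ L.Normal ∧ K < L ∧ (∀ M : Subgroup G, M.Normal → K ≤ M → M ≤ L → M = K ∨ M = L) ∧ f i ∣ K.relIndex L) ∧ (∃ q : ℕ, q.Prime ∧ q ∣ m ∧ f i ≡ 1 [MOD q]) := by
  obtain ⟨l, hl, hg⟩ := main_count _ m n rfl hG hmn
  refine ⟨l.length, l.get, ?_, fun i => ?_⟩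
  · rw [← hl, ← List.prod_ofFn, List.ofFn_get]
  · obtain ⟨h1, h2, h3⟩ := hg _ (List.get_mem l i)
    exact ⟨h1, h2, h3⟩

end Cfsg.Agent.S4214
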