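import Cfsg.Statements.S4217
import Cfsg.Agent.Lib.Struct.GaschutzLocal

set_option autoImplicit false
open Cfsg

namespace Cfsg.Agent.S4217

/-- Let `A` be an abelian normal subgroup of the finite group `G`. Then `A` has a complement in `G` if and only if, for every prime `p` dividing the index of `A`, there are a Sylow `p`-subgroup `S` of `G/A` and a subgroup `K` of `G` with `K ∩ A = 1` and `KA` equal to the preimage of `S` (that is, `A` has a complement in the preimage of a Sylow `p`-subgroup of `G/A`). -/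
theorem result {G : Type*} [Group G] [Finite G] (A : Subgroup G) [A.Normal] (hA : IsMulCommutative A) : (∃ K : Subgroup G, K.IsComplement' A) ↔ ∀ p : ℕ, p.Prime → p ∣ A.index → ∃ (S : Sylow p (G ⧸ A)) (K : Subgroup G), K ⊓ A = ⊥ ∧ K ⊔ A = (S : Subgroup (G ⧸ A)).comap (QuotientGroup.mk' A) := by
  haveI := hA
  constructor
  · rintro ⟨K, hK⟩ p hp -
    haveI : Fact p.Prime := ⟨hp⟩
    obtain ⟨S⟩ : Nonempty (Sylow p (G ⧸ A)) := inferInstance
    refine ⟨S, K ⊓ (S : Subgroup (G ⧸ A)).comap (QuotientGroup.mk' A), ?_, ?_⟩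
    · rw [eq_bot_iff]
      rintro x hx
      have h1 : x ∈ K ⊓ A := Subgroup.mem_inf.mpr ⟨(Subgroup.mem_inf.mp (Subgroup.mem_inf.mp hx).1).1,
        (Subgroup.mem_inf.mp hx).2⟩
      have h2 : Disjoint K A := hK.disjoint
      rw [h2.eq_bot] at h1
      exact h1
    · have hA' : A ≤ (S : Subgroup (G ⧸ A)).comap (QuotientGroup.mk' A) := by
        intro x hx
        have : (QuotientGroup.mk' A) x = 1 := (QuotientGroup.eq_one_iff x).mpr hx
        show (QuotientGroup.mk' A) x ∈ (S : Subgroup (G ⧸ A))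
        rw [this]; exact Subgroup.one_mem _
      have h1 := Cfsg.Agent.Lib.Basic.dedekind_normal_left (A := A)
        (C := (S : Subgroup (G ⧸ A)).comap (QuotientGroup.mk' A)) K hA'
      have h2 : A ⊔ K = ⊤ := by rw [sup_comm]; exact hK.sup_eq_top
      rw [h2, top_inf_eq] at h1
      rw [sup_comm]
      exact h1.symm
  · intro h
    obtain ⟨H, hH⟩ := Cfsg.Agent.Lib.Struct.exists_complement_of_local A (by
      intro p hp hd
      haveI : Fact p.Prime := ⟨hp⟩
      obtain ⟨S, K, h1, h2⟩ := h p hp hd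
      refine ⟨(S : Subgroup (G ⧸ A)).comap (QuotientGroup.mk' A), K, ?_, h1, ?_, ?_⟩
      · intro x hx
        have : (QuotientGroup.mk' A) x = 1 := (QuotientGroup.eq_one_iff x).mpr hx
        show (QuotientGroup.mk' A) x ∈ (S : Subgroup (G ⧸ A))
        rw [this]; exact Subgroup.one_mem _
      · rw [sup_comm]; exact h2
      · rw [Subgroup.index_comap_of_surjective _ (QuotientGroup.mk'_surjective A)]
        exact S.not_dvd_index)
    exact ⟨H, hH.symm⟩

end Cfsg.Agent.S4217
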