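import Cfsg.Statements.S4218
import Cfsg.Agent.Lib.Char.PBlock
import Cfsg.Agent.Lib.Fusion2.StrongRes
import Cfsg.Agent.Lib.Basic.Frattini
import Cfsg.Agent.Lib.Basic.Solv1
import Cfsg.Agent.Lib.Coprime.PSolvable

set_option autoImplicit false
open Cfsg

namespace Cfsg.Agent.S4218


open Cfsg
open scoped commutatorElement

variable {G : Type*} [Group G] [Finite G] {p : ℕ} [hp : Fact p.Prime]

instance pnormal (p : ℕ) (G : Type*) [Group G] : (pPrimePCore p G).Normal :=
  Subgroup.Normal.comap (Subgroup.sSup_normal _ (fun _ h => h.1)) _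

abbrev QQ (p : ℕ) (G : Type*) [Group G] := ↥(pPrimePCore p G) ⧸ (pPrimeCore p G).subgroupOf (pPrimePCore p G)

theorem conj_map (g : G) : ((pPrimeCore p G).subgroupOf (pPrimePCore p G)).map
    ((MulAut.conjNormal g : ↥(pPrimePCore p G) ≃* ↥(pPrimePCore p G)) : ↥(pPrimePCore p G) →* ↥(pPrimePCore p G)) =
    (pPrimeCore p G).subgroupOf (pPrimePCore p G) := by
  have hn : (pPrimeCore p G).Normal := Cfsg.pPrimeCore_normal p G
  ext x
  simp only [Subgroup.mem_map, Subgroup.mem_subgroupOf]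
  constructor
  · rintro ⟨y, hy, rfl⟩
    exact hn.conj_mem _ hy g
  · intro hx
    refine ⟨(MulAut.conjNormal g⁻¹ : MulAut ↥(pPrimePCore p G)) x, ?_, ?_⟩
    · have := hn.conj_mem _ hx g⁻¹
      simpa using this
    · apply Subtype.ext
      show ((MulAut.conjNormal g (MulAut.conjNormal g⁻¹ x) : ↥(pPrimePCore p G)) : G) = x
      rw [MulAut.conjNormal_apply, MulAut.conjNormal_apply]
      group

noncomputable def phi : G →* MulAut (QQ p G) where
  toFun g := QuotientGroup.congr _ _ (MulAut.conjNormal g) (conj_map g)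
  map_one' := by
    refine MulEquiv.ext fun y => ?_
    induction y using QuotientGroup.induction_on with
    | H x =>
      rw [QuotientGroup.congr_mk]
      simp
  map_mul' a b := by
    refine MulEquiv.ext fun y => ?_
    induction y using QuotientGroup.induction_on with
    | H x =>
      simp only [MulAut.mul_apply]
      rw [QuotientGroup.congr_mk, QuotientGroup.congr_mk, QuotientGroup.congr_mk]
      simp

theorem phi_mk (g : G) (x : ↥(pPrimePCore p G)) :
    phi g (x : QQ p G) = ((MulAut.conjNormal g x : ↥(pPrimePCore p G)) : QQ p G) :=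
  QuotientGroup.congr_mk _ _ _ (conj_map g) _

theorem isPGroup_QQ : IsPGroup p (QQ p G) := by
  intro y
  induction y using QuotientGroup.induction_on with
  | H x =>
    have hx : QuotientGroup.mk' (pPrimeCore p G) (x : G) ∈ pCore p (G ⧸ pPrimeCore p G) := x.2
    obtain ⟨k, hk⟩ := (Cfsg.Agent.Lib.Basic.pCore_isPGroup p (G := G ⧸ pPrimeCore p G)) ⟨_, hx⟩
    refine ⟨k, ?_⟩
    rw [← QuotientGroup.mk_pow, QuotientGroup.eq_one_iff, Subgroup.mem_subgroupOf]
    have h2 := congrArg Subtype.val hk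
    simp only [Subgroup.coe_pow, Subgroup.coe_one] at h2
    rw [← map_pow, QuotientGroup.mk'_apply, QuotientGroup.eq_one_iff] at h2
    simpa using h2

/-- The kernel of the action on the Frattini quotient. -/
def AA (p : ℕ) (G : Type*) [Group G] [Finite G] [Fact p.Prime] : Subgroup G where
  carrier := {g | ∀ y : QQ p G, phi g y * y⁻¹ ∈ frattini (QQ p G)}
  one_mem' := by
    intro y
    simp [Subgroup.one_mem]
  mul_mem' := by
    intro a b ha hb y
    have h1 := ha (phi b y)
    have h2 := hb y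
    have : phi (a * b) y * y⁻¹ = (phi a (phi b y) * (phi b y)⁻¹) * (phi b y * y⁻¹) := by
      simp only [map_mul, MulAut.mul_apply]; group
    rw [this]
    exact Subgroup.mul_mem _ h1 h2
  inv_mem' := by
    intro a ha y
    have h1 := ha (phi a⁻¹ y)
    have e : phi a (phi a⁻¹ y) = y := by
      rw [← MulAut.mul_apply, ← map_mul]; simp
    rw [e] at h1
    have := Subgroup.inv_mem _ h1
    simpa using this

theorem AA_normal : (AA p G).Normal := by
  constructor
  intro a ha k y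
  have h1 := ha (phi k⁻¹ y)
  have h2 : (phi k) (phi a (phi k⁻¹ y) * (phi k⁻¹ y)⁻¹) ∈ frattini (QQ p G) := by
    have hc : (frattini (QQ p G)).Characteristic := inferInstance
    have := (Subgroup.characteristic_iff_map_eq.mp hc) (phi k)
    rw [← this]
    exact ⟨_, h1, rfl⟩
  have e : phi (k * a * k⁻¹) y * y⁻¹ = (phi k) (phi a (phi k⁻¹ y) * (phi k⁻¹ y)⁻¹) := by
    have e2 : phi k ((phi k)⁻¹ y) = y := by
      simp
    simp only [map_mul, MulAut.mul_apply, map_inv, e2]
  show phi (k * a * k⁻¹) y * y⁻¹ ∈ _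
  rw [e]; exact h2

theorem AA_pow (hG : IsPSolvable p G) (a : G) (ha : a ∈ AA p G) :
    ∃ k : ℕ, (QuotientGroup.mk' (pPrimeCore p G) a) ^ p ^ k = 1 := by
  have hn0 : orderOf a ≠ 0 := (orderOf_pos a).ne'
  obtain ⟨e, n', hn', hn⟩ := Nat.exists_eq_pow_mul_and_not_dvd hn0 p hp.out.ne_one
  set h := a ^ p ^ e with hh
  have hhA : h ∈ AA p G := Subgroup.pow_mem _ ha _
  have hhn : h ^ n' = 1 := by
    rw [hh, ← pow_mul, ← hn, pow_orderOf_eq_one]
  have hco : (orderOf (phi h : MulAut (QQ p G))).Coprime p := by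
    have h1 : orderOf (phi h : MulAut (QQ p G)) ∣ n' :=
      orderOf_dvd_of_pow_eq_one (by rw [← map_pow, hhn, map_one])
    refine Nat.Coprime.coprime_dvd_left h1 ?_
    exact ((Nat.Prime.coprime_iff_not_dvd hp.out).mpr hn').symm
  have hone : (phi h : MulAut (QQ p G)) = 1 :=
    Cfsg.Agent.Lib.Fusion2.aut_eq_one_of_frattini isPGroup_QQ hco hhA
  set π := QuotientGroup.mk' (pPrimeCore p G) with hπ
  have hcent : π h ∈ Subgroup.centralizer (pCore p (G ⧸ pPrimeCore p G) : Set (G ⧸ pPrimeCore p G)) := by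
    refine Subgroup.mem_centralizer_iff.mpr ?_
    intro z hz
    obtain ⟨x, rfl⟩ := QuotientGroup.mk'_surjective (pPrimeCore p G) z
    have hx : x ∈ pPrimePCore p G := hz
    have h1 := congrArg (fun f : MulAut (QQ p G) => f ((⟨x, hx⟩ : ↥(pPrimePCore p G)) : QQ p G)) hone
    simp only [phi_mk, MulAut.one_apply] at h1
    rw [QuotientGroup.eq, Subgroup.mem_subgroupOf] at h1
    have h2 : (h * x * h⁻¹)⁻¹ * x ∈ pPrimeCore p G := by
      simpa [MulAut.conjNormal_apply] using h1
    have h3 : π ((h * x * h⁻¹)⁻¹ * x) = 1 := by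
      rw [hπ, QuotientGroup.mk'_apply, QuotientGroup.eq_one_iff]; exact h2
    simp only [map_mul, map_inv] at h3
    have h4 : π x = π h * π x * (π h)⁻¹ := by
      have := inv_mul_eq_one.mp h3
      exact this.symm
    rw [eq_mul_inv_iff_mul_eq] at h4
    exact h4
  have hGq : IsPSolvable p (G ⧸ pPrimeCore p G) :=
    Cfsg.Agent.Lib.Coprime.isPSolvable_map _ (QuotientGroup.mk'_surjective _) hG
  have hbot : pPrimeCore p (G ⧸ pPrimeCore p G) = ⊥ := Cfsg.Agent.Lib.Basic.pPrimeCore_quotient_eq_bot p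
  have hcore := Cfsg.Agent.Lib.Char.centralizer_pCore_le_of_isPSolvable hGq hbot hcent
  obtain ⟨j, hj⟩ := (Cfsg.Agent.Lib.Basic.pCore_isPGroup p (G := G ⧸ pPrimeCore p G)) ⟨_, hcore⟩
  have hj' : (π h) ^ p ^ j = 1 := by
    have := congrArg Subtype.val hj
    simpa using this
  have hn2 : (π h) ^ n' = 1 := by rw [← map_pow, hhn, map_one]
  have hd1 := orderOf_dvd_of_pow_eq_one hj'
  have hd2 := orderOf_dvd_of_pow_eq_one hn2
  have hcop : Nat.Coprime (p ^ j) n' :=
    Nat.Coprime.pow_left _ ((Nat.Prime.coprime_iff_not_dvd hp.out).mpr hn')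
  have hone2 : orderOf (π h) = 1 := Nat.eq_one_of_dvd_coprimes hcop hd1 hd2
  refine ⟨e, ?_⟩
  rw [← map_pow]
  exact orderOf_eq_one_iff.mp hone2

theorem AA_le (hG : IsPSolvable p G) : AA p G ≤ pPrimePCore p G := by
  have hnorm : ((AA p G).map (QuotientGroup.mk' (pPrimeCore p G))).Normal :=
    (AA_normal (p := p) (G := G)).map _ (QuotientGroup.mk'_surjective _)
  have hpg : IsPGroup p ((AA p G).map (QuotientGroup.mk' (pPrimeCore p G))) := by
    rintro ⟨_, a, ha, rfl⟩
    obtain ⟨k, hk⟩ := AA_pow hG a ha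
    refine ⟨k, Subtype.ext ?_⟩
    simpa using hk
  have := Cfsg.Agent.Lib.Basic.le_pCore hnorm hpg
  intro a ha
  exact this ⟨a, ha, rfl⟩

/-- Let `G` be a finite `p`-solvable group, `N₀ = O_{p'}(G)`, `P₁ = O_{p',p}(G)`, and let `F ≤ P₁` be the preimage of the Frattini subgroup of `P₁/N₀`. Then an element `g` of `G` induces the identity on `P₁/F` by conjugation (that is, `g x g⁻¹ x⁻¹ ∈ F` for all `x ∈ P₁`) if and only if `g ∈ P₁`: the group `G/P₁` acts faithfully on `P₁/F`. -/
theorem result {G : Type*} [Group G] [Finite G] {p : ℕ} [Fact p.Prime] (hG : Cfsg.IsPSolvable p G) (g : G) : (∀ x ∈ Cfsg.pPrimePCore p G, g * x * g⁻¹ * x⁻¹ ∈ ((frattini (↥(Cfsg.pPrimePCore p G) ⧸ (Cfsg.pPrimeCore p G).subgroupOf (Cfsg.pPrimePCore p G))).comap (QuotientGroup.mk' ((Cfsg.pPrimeCore p G).subgroupOf (Cfsg.pPrimePCore p G)))).map (Cfsg.pPrimePCore p G).subtype) ↔ g ∈ Cfsg.pPrimePCore p G := by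
  set F := ((frattini (↥(Cfsg.pPrimePCore p G) ⧸ (Cfsg.pPrimeCore p G).subgroupOf (Cfsg.pPrimePCore p G))).comap (QuotientGroup.mk' ((Cfsg.pPrimeCore p G).subgroupOf (Cfsg.pPrimePCore p G)))).map (Cfsg.pPrimePCore p G).subtype with hF
  constructor
  · intro h
    refine AA_le hG ?_
    intro y
    induction y using QuotientGroup.induction_on with
    | H x =>
      obtain ⟨y, hy, hyx⟩ := h x x.2
      rw [phi_mk, ← QuotientGroup.mk_inv, ← QuotientGroup.mk_mul]
      have : (MulAut.conjNormal g x : ↥(pPrimePCore p G)) * x⁻¹ = y := by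
        apply Subtype.ext
        simpa [MulAut.conjNormal_apply] using hyx.symm
      rw [this]
      exact hy
  · intro hg x hx
    have hnil : Group.IsNilpotent (QQ p G) := (isPGroup_QQ (p := p) (G := G)).isNilpotent
    have hcomm : commutator (QQ p G) ≤ frattini (QQ p G) :=
      Cfsg.Agent.Lib.Basic.commutator_le_frattini_of_isNilpotent
    set gg : ↥(pPrimePCore p G) := ⟨g, hg⟩
    set xx : ↥(pPrimePCore p G) := ⟨x, hx⟩
    refine ⟨gg * xx * gg⁻¹ * xx⁻¹, ?_, rfl⟩
    show ((gg * xx * gg⁻¹ * xx⁻¹ : ↥(pPrimePCore p G)) : QQ p G) ∈ frattini (QQ p G)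
    apply hcomm
    have : ((gg * xx * gg⁻¹ * xx⁻¹ : ↥(pPrimePCore p G)) : QQ p G) = ⁅(gg : QQ p G), (xx : QQ p G)⁆ := by
      simp [commutatorElement_def]
    rw [this, commutator_def]
    exact Subgroup.commutator_mem_commutator (Subgroup.mem_top _) (Subgroup.mem_top _)

end Cfsg.Agent.S4218
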