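import Cfsg.Statements.S4219
import Cfsg.Agent.Lib.Coprime.Conj

set_option autoImplicit false
open Cfsg

namespace Cfsg.Agent.S4219

open scoped Pointwise

/-- Let a finite group `G` act `t`-fold transitively on a finite set, let `H` be the stabilizer of `t` distinct points and `P` a Sylow `p`-subgroup of `H`. Then the normalizer of `P` in `G` is `t`-fold transitive on the fixed points of `P`: any `t` distinct fixed points of `P` can be carried to any other `t` distinct fixed points of `P` by an element normalizing `P`. -/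
theorem result {G : Type*} [Group G] [Finite G] {α : Type*} [Fintype α] [MulAction G α] {t : ℕ} (hG : MulAction.IsMultiplyPretransitive G α t) (x : Fin t ↪ α) {p : ℕ} [Fact p.Prime] (P : Sylow p (MulAction.stabilizer G x)) (a b : Fin t ↪ α) (ha : ∀ i, a i ∈ MulAction.fixedPoints ((P : Subgroup (MulAction.stabilizer G x)).map (MulAction.stabilizer G x).subtype) α) (hb : ∀ i, b i ∈ MulAction.fixedPoints ((P : Subgroup (MulAction.stabilizer G x)).map (MulAction.stabilizer G x).subtype) α) : ∃ g ∈ Subgroup.normalizer ((((P : Subgroup (MulAction.stabilizer G x)).map (MulAction.stabilizer G x).subtype) : Subgroup G) : Set G), g • a = b := by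
  classical
  set Q : Subgroup G := (P : Subgroup (MulAction.stabilizer G x)).map (MulAction.stabilizer G x).subtype with hQ
  -- transitivity
  obtain ⟨g₁, hg₁⟩ := hG.exists_smul_eq x a
  obtain ⟨g₂, hg₂⟩ := hG.exists_smul_eq x b
  -- elements of `Q` fix `a` and `b`
  have hfix : ∀ c : Fin t ↪ α, (∀ i, c i ∈ MulAction.fixedPoints Q α) → ∀ u ∈ Q, u • c = c := by
    intro c hc u hu
    ext i
    have := hc i ⟨u, hu⟩
    simpa using this
  -- the conjugates of `Q` into `H`
  have hconjH : ∀ (g : G) (c : Fin t ↪ α), g • x = c → (∀ i, c i ∈ MulAction.fixedPoints Q α) →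
      Q.map (MulAut.conj g⁻¹).toMonoidHom ≤ MulAction.stabilizer G x := by
    rintro g c hgc hc _ ⟨u, hu, rfl⟩
    rw [MulAction.mem_stabilizer_iff]
    have h1 := hfix c hc u hu
    change (g⁻¹ * u * g⁻¹⁻¹) • x = x
    rw [inv_inv, mul_smul, mul_smul, hgc, h1, ← hgc, inv_smul_smul]
  have hcardQ : Nat.card Q = Nat.card (P : Subgroup (MulAction.stabilizer G x)) :=
    Nat.card_congr (Subgroup.equivMapOfInjective _ _ (MulAction.stabilizer G x).subtype_injective).toEquiv.symm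
  -- Sylow subgroups of `H`
  let mk : ∀ (g : G) (c : Fin t ↪ α), g • x = c → (∀ i, c i ∈ MulAction.fixedPoints Q α) → Sylow p (MulAction.stabilizer G x) :=
    fun g c hgc hc => Sylow.ofCard ((Q.map (MulAut.conj g⁻¹).toMonoidHom).subgroupOf (MulAction.stabilizer G x)) (by
      have e1 : Nat.card ((Q.map (MulAut.conj g⁻¹).toMonoidHom).subgroupOf (MulAction.stabilizer G x))
          = Nat.card (Q.map (MulAut.conj g⁻¹).toMonoidHom) :=
        Nat.card_congr (Subgroup.subgroupOfEquivOfLe (hconjH g c hgc hc)).toEquiv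
      rw [e1, Lib.Coprime.card_conj_map, hcardQ, Sylow.card_eq_multiplicity])
  have hmk : ∀ (g : G) (c : Fin t ↪ α) (h1 : g • x = c) (h2 : ∀ i, c i ∈ MulAction.fixedPoints Q α),
      ((mk g c h1 h2 : Sylow p (MulAction.stabilizer G x)) : Subgroup (MulAction.stabilizer G x)) = (Q.map (MulAut.conj g⁻¹).toMonoidHom).subgroupOf (MulAction.stabilizer G x) :=
    fun g c h1 h2 => Sylow.coe_ofCard _ _
  obtain ⟨h, hh⟩ := MulAction.exists_smul_eq (MulAction.stabilizer G x) (mk g₁ a hg₁ ha) (mk g₂ b hg₂ hb)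
  refine ⟨g₂ * h * g₁⁻¹, ?_, ?_⟩
  · apply Lib.Coprime.mem_normalizer_of_conj_le
    intro v hv
    -- `g₁⁻¹ v g₁` lies in the first Sylow subgroup
    have h1 : (⟨g₁⁻¹ * v * g₁⁻¹⁻¹, hconjH g₁ a hg₁ ha ⟨v, hv, rfl⟩⟩ : MulAction.stabilizer G x) ∈ ((mk g₁ a hg₁ ha : Sylow p (MulAction.stabilizer G x)) : Subgroup (MulAction.stabilizer G x)) := by
      rw [hmk g₁ a hg₁ ha, Subgroup.mem_subgroupOf]
      exact ⟨v, hv, rfl⟩
    have h2 : MulAut.conj h • (⟨g₁⁻¹ * v * g₁⁻¹⁻¹, hconjH g₁ a hg₁ ha ⟨v, hv, rfl⟩⟩ : MulAction.stabilizer G x) ∈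
        ((h • mk g₁ a hg₁ ha : Sylow p (MulAction.stabilizer G x)) : Subgroup (MulAction.stabilizer G x)) := by
      rw [Sylow.coe_subgroup_smul]
      exact Subgroup.smul_mem_pointwise_smul _ _ _ h1
    rw [hh, hmk g₂ b hg₂ hb, Subgroup.mem_subgroupOf] at h2
    obtain ⟨w, hw, hwe⟩ := h2
    have h3 : g₂ * h * g₁⁻¹ * v * (g₂ * h * g₁⁻¹)⁻¹ = w := by
      have h4 : g₂⁻¹ * w * g₂⁻¹⁻¹ = (h : G) * (g₁⁻¹ * v * g₁⁻¹⁻¹) * (h : G)⁻¹ := hwe
      have h5 : w = g₂ * ((h : G) * (g₁⁻¹ * v * g₁⁻¹⁻¹) * (h : G)⁻¹) * g₂⁻¹ := by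
        rw [← h4]; group
      rw [h5]; group
    rw [h3]
    exact hw
  · have hhx : (h : G) • x = x := h.2
    rw [mul_smul, mul_smul, ← hg₁, inv_smul_smul, hhx, hg₂]

end Cfsg.Agent.S4219
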