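import Cfsg.Statements.S4220
import Cfsg.Agent.Lib.Struct.MultG
import Cfsg.Agent.Lib.Struct.Basic

set_option autoImplicit false
open Cfsg

namespace Cfsg.Agent.S4220

/-- Let `n = kp + r` with `p` prime, `1 ≤ k < p` and `r > k`, excluding the case `k = 1, r = 2`. Then a permutation group of degree `n` that is `(r + 1)`-fold transitive contains the alternating group. -/
theorem result {α : Type*} [Fintype α] [DecidableEq α] (G : Subgroup (Equiv.Perm α)) {k p r : ℕ} (hp : p.Prime) (hn : Fintype.card α = k * p + r) (hk : 1 ≤ k) (hpk : k < p) (hrk : k < r) (hex : ¬ (k = 1 ∧ r = 2)) (hG : MulAction.IsMultiplyPretransitive G α (r + 1)) : alternatingGroup α ≤ G := by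
  classical
  haveI : Fact p.Prime := ⟨hp⟩
  open Equiv Equiv.Perm MulAction Cfsg.Agent.Lib.Struct.Mult in
  have hr3 : 3 ≤ r := by
    by_contra h
    apply hex
    omega
  open Equiv Equiv.Perm MulAction Cfsg.Agent.Lib.Struct.Mult in
  have hp2 := hp.two_le
  have hkp : p ≤ k * p := Nat.le_mul_of_pos_left p hk
  have hcr : r + 1 ≤ Fintype.card α := by omega
  have hG4 : MulAction.IsMultiplyPretransitive G α 4 :=
    MulAction.isMultiplyPretransitive_of_le (n := r + 1) (by omega) (by simpa using hcr)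
  have hprim := Cfsg.Agent.Lib.Struct.Mult.preprim_of_four G hG4 (by omega)
  obtain ⟨Γ, -, hΓ⟩ := Finset.exists_subset_card_eq (s := (Finset.univ : Finset α)) (n := k * p)
    (by rw [Finset.card_univ]; omega)
  have hΔ : Γᶜ.card = r := by
    rw [Finset.card_compl, hΓ]
    omega
  set H : Subgroup (Equiv.Perm α) := G ⊓ Cfsg.Agent.Lib.Struct.Mult.fixG Γᶜ with hH
  obtain ⟨P₀⟩ : Nonempty (Sylow p H) := inferInstance
  set P : Subgroup (Equiv.Perm α) := (P₀ : Subgroup H).map H.subtype with hP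
  have hPH : P ≤ H := by
    rintro _ ⟨u, _, rfl⟩
    exact u.2
  have hPp : IsPGroup p P := P₀.isPGroup'.map _
  have hfix : ∀ u ∈ P, ∀ d, d ∉ Γ → u d = d := fun u hu d hd =>
    (hPH hu).2 d (Finset.mem_compl.2 hd)
  have hHstab : ∀ u ∈ H, ∀ γ ∈ Γ, u γ ∈ Γ := by
    intro u hu γ hγ
    by_contra h
    have h1 : u⁻¹ (u γ) = u γ := (H.inv_mem hu).2 _ (Finset.mem_compl.2 h)
    rw [Cfsg.Agent.Lib.Struct.Mult.iav] at h1
    rw [← h1] at h
    exact h hγ
  have htr : ∀ γ ∈ Γ, ∀ γ' ∈ Γ, ∃ g ∈ H, g γ = γ' := by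
    intro γ hγ γ' hγ'
    have hnot : γ ∉ Γᶜ := by simpa using hγ
    obtain ⟨g, hg, hgf⟩ := Cfsg.Agent.Lib.Struct.Mult.exists_extend G hG hcr (insert γ Γᶜ)
      (by rw [Finset.card_insert_of_notMem hnot, hΔ]) (Equiv.swap γ γ')
      (fun x _ y _ e => (Equiv.swap γ γ').injective e)
    refine ⟨g, ⟨hg, fun d hd => ?_⟩, ?_⟩
    · rw [hgf d (Finset.mem_insert_of_mem hd)]
      have hd' := Finset.mem_compl.1 hd
      apply Equiv.swap_apply_of_ne_of_ne
      · rintro rfl
        exact hd' hγ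
      · rintro rfl
        exact hd' hγ'
    · rw [hgf γ (Finset.mem_insert_self _ _), Equiv.swap_apply_left]
  have horb : ∀ γ ∈ Γ, Nat.card (MulAction.orbit P γ) = p := by
    intro γ hγ
    obtain ⟨j, hj⟩ := hPp.card_orbit γ
    rw [hj]
    have hsub : MulAction.orbit P γ ⊆ (Γ : Set α) := by
      rintro _ ⟨u, rfl⟩
      exact hHstab u.1 (hPH u.2) γ hγ
    have hle : Nat.card (MulAction.orbit P γ) ≤ k * p := by
      rw [Nat.card_coe_set_eq]
      have := Set.ncard_le_ncard hsub (Set.toFinite _)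
      rwa [Set.ncard_coe_finset, hΓ] at this
    have hj1 : j ≤ 1 := by
      by_contra h
      have h2 : p ^ 2 ≤ p ^ j := Nat.pow_le_pow_right hp.pos (by omega)
      have h3 : k * p < p * p := Nat.mul_lt_mul_of_pos_right hpk hp.pos
      rw [hj] at hle
      nlinarith
    have hj0 : j ≠ 0 := by
      rintro rfl
      have hsing : ∀ u ∈ P, u γ = γ := by
        intro u hu
        rw [pow_zero, Nat.card_eq_one_iff_unique] at hj
        have hs := hj.1
        have := Subsingleton.elim (⟨u γ, (Cfsg.Agent.Lib.Struct.Mult.mem_orb P).2 ⟨u, hu, rfl⟩⟩ :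
          MulAction.orbit P γ) ⟨γ, MulAction.mem_orbit_self γ⟩
        exact congrArg Subtype.val this
      have hle : (P₀ : Subgroup H) ≤ MulAction.stabilizer H γ := by
        intro x hx
        exact hsing x.1 ⟨x, hx, rfl⟩
      have hnd := Cfsg.Agent.Lib.Struct.not_dvd_index_of_sylow_le P₀ hle
      rw [MulAction.index_stabilizer] at hnd
      have he : MulAction.orbit H γ = (Γ : Set α) := by
        ext y
        constructor
        · rintro ⟨u, rfl⟩
          exact hHstab u.1 u.2 γ hγ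
        · intro hy
          obtain ⟨g, hg, hgy⟩ := htr γ hγ y hy
          exact ⟨⟨g, hg⟩, hgy⟩
      rw [he, Set.ncard_coe_finset, hΓ] at hnd
      exact hnd (Dvd.intro_left k rfl)
    have : j = 1 := by omega
    rw [this, pow_one]
  have S : Cfsg.Agent.Lib.Struct.Mult.Setup p P Γ := ⟨hPp, hfix, horb⟩
  have hPG : P ≤ G := fun u hu => (hPH hu).1
  have hcardO := Cfsg.Agent.Lib.Struct.Mult.card_orbs S
  have hk' : (Cfsg.Agent.Lib.Struct.Mult.orbs P Γ).card = k := by
    rw [hΓ] at hcardO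
    exact (Nat.eq_of_mul_eq_mul_right hp.pos hcardO).symm
  have hlift : ∀ π, Cfsg.Agent.Lib.Struct.Mult.Pres Γᶜ π → ∃ n ∈ G, Cfsg.Agent.Lib.Struct.Mult.Nz P n ∧ Cfsg.Agent.Lib.Struct.Mult.Res Γᶜ n π := by
    intro π hπ
    exact Cfsg.Agent.Lib.Struct.Mult.lift_witt G hG hcr Γᶜ (by omega) P₀ π hπ
  by_cases hpc : ∃ v ∈ G, v.IsCycle ∧ v.support.card = p
  · obtain ⟨v, hv, hc, hs⟩ := hpc
    exact Cfsg.Agent.Lib.Struct.Mult.alt_le_of_cycle G hprim hp (by omega) hc hs hv
  push Not at hpc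
  have hno : ∀ v ∈ P, v.IsCycle → v.support.card ≠ p := fun v hv => hpc v (hPG hv)
  obtain ⟨γ₁, hγ₁⟩ : Γ.Nonempty := by
    rw [← Finset.card_pos, hΓ]
    omega
  have hO₁ : MulAction.orbit P γ₁ ∈ Cfsg.Agent.Lib.Struct.Mult.orbs P Γ :=
    Cfsg.Agent.Lib.Struct.Mult.mem_orbs.2 ⟨γ₁, hγ₁, rfl⟩
  have hk2 : 2 ≤ k := by
    by_contra h
    have hk1 : k = 1 := by omega
    obtain ⟨u, hu, hmv⟩ := S.exists_moved hγ₁
    obtain ⟨hc, hcard⟩ := Cfsg.Agent.Lib.Struct.Mult.pcycle_of_single S hu hO₁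
      ⟨γ₁, MulAction.mem_orbit_self γ₁, hmv⟩ (by
        intro O hO hne
        exact absurd (Finset.card_le_one.mp (by omega) O hO _ hO₁) hne)
    exact hno u hu hc hcard
  have hp3 : 3 ≤ p := by omega
  have hodd : Odd p := hp.odd_of_ne_two (by omega)
  have hp2k : 2 * 3 ≤ k * p := Nat.mul_le_mul hk2 hp3
  by_cases hr3' : r = 3
  · have hk2' : k = 2 := by omega
    by_cases hp3' : p = 3
    · exact Cfsg.Agent.Lib.Struct.Mult.alt_le_nine G (by rw [hn, hk2', hp3', hr3']) hG4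
    · exact Cfsg.Agent.Lib.Struct.Mult.case_r3 S G hG4 (by omega) hlift hno (by omega) hγ₁
        (by omega) hp3'
  · exact Cfsg.Agent.Lib.Struct.Mult.case_r4 S G hG4 (by omega) hodd hlift hno (by omega)
      (by omega) (by omega) hγ₁

end Cfsg.Agent.S4220
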