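import Cfsg.Statements.S4222
-- import your own Cfsg.Agent.* helpers here

set_option autoImplicit false
open Cfsg

namespace Cfsg.Agent.S4222

open scoped Pointwise

/-- If a normal subgroup `N` of a finite group is complete (its centre is trivial and every automorphism of `N` is inner), then the group is the internal direct product of `N` and the centralizer of `N`: the centralizer is a complement to `N`. -/
theorem result {T : Type*} [Group T] [Finite T] (N : Subgroup T) [N.Normal] (hz : Subgroup.center ↥N = ⊥) (ha : Function.Surjective (MulAut.conj : ↥N →* MulAut ↥N)) : (Subgroup.centralizer (N : Set T)).IsComplement' N := by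
  have hdisj : Disjoint (Subgroup.centralizer (N : Set T)) N := by
    rw [Subgroup.disjoint_def]
    intro x hx hxN
    have : (⟨x, hxN⟩ : N) ∈ Subgroup.center N := by
      rw [Subgroup.mem_center_iff]
      intro y
      ext
      exact (Subgroup.mem_centralizer_iff.mp hx y y.2)
    rw [hz] at this
    simpa using this
  have hmul : ((Subgroup.centralizer (N : Set T) : Subgroup T) : Set T) * (N : Set T) = Set.univ := by
    ext t
    simp only [Set.mem_mul, Set.mem_univ, iff_true]
    -- conjugation by t restricted to N
    let φ : N ≃* N := MulAut.conjNormal t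
    obtain ⟨n, hn⟩ := ha φ
    refine ⟨t * (n : T)⁻¹, ?_, n, n.2, by group⟩
    rw [SetLike.mem_coe, Subgroup.mem_centralizer_iff]
    intro y hy
    have h1 : φ ⟨(n : T)⁻¹ * y * n, by
        have := (inferInstance : N.Normal).conj_mem y hy ((n : T)⁻¹)
        simpa using this⟩ = MulAut.conj n ⟨(n : T)⁻¹ * y * n, by
        have := (inferInstance : N.Normal).conj_mem y hy ((n : T)⁻¹)
        simpa using this⟩ := by rw [hn]
    have h2 := congrArg Subtype.val h1
    simp [φ, MulAut.conjNormal_apply] at h2
    have h3 : t * (n : T)⁻¹ * y * n * t⁻¹ = y := by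
      calc t * (n : T)⁻¹ * y * n * t⁻¹ = t * ((n : T)⁻¹ * y * n) * t⁻¹ := by group
        _ = n * ((n : T)⁻¹ * y * n) * (n : T)⁻¹ := h2
        _ = y := by group
    calc y * (t * (n : T)⁻¹) = (t * (n : T)⁻¹ * y * n * t⁻¹) * (t * (n : T)⁻¹) := by rw [h3]
      _ = (t * (n : T)⁻¹) * y := by group
  exact Subgroup.isComplement'_of_disjoint_and_mul_eq_univ hdisj hmul

end Cfsg.Agent.S4222
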