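import Cfsg.Statements.S4274
import Cfsg.Agent.Lib.Misc19.J1Order

set_option autoImplicit false
open Cfsg

namespace Cfsg.Agent.S4274



/-- A finite group of order 175560 = 2³·3·5·7·11·19 is either simple or has a normal Sylow 19-subgroup. -/
theorem result {G : Type*} [Group G] [Finite G] (hG : Nat.card G = 175560) : IsSimpleGroup G ∨ ∀ P : Sylow 19 G, (P : Subgroup G).Normal := by

  by_cases hs : IsSimpleGroup G
  · exact Or.inl hs
  · right
    haveI h19 : Fact (Nat.Prime 19) := ⟨by norm_num⟩
    obtain ⟨Q, hQ, hc⟩ := Cfsg.Agent.Lib.Misc19.J1.exists_normal 9240 dvd_rfl G (by rw [hG]) (Or.inr hs)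
    intro P
    have hcardP : Nat.card (P : Subgroup G) = 19 := by
      have h1 := Sylow.card_eq_multiplicity P
      rw [hG, show (175560 : ℕ) = 19 * 9240 by norm_num,
        Cfsg.Agent.Lib.Misc19.J1.factorization_aux (by norm_num) (by norm_num), pow_one] at h1
      exact h1
    have : (P : Subgroup G) = Q :=
      Cfsg.Agent.Lib.Misc19.J1.eq_of_normal_of_card (m := 9240) (by rw [hG]) (by norm_num) Q P hQ hc hcardP
    rw [this]
    exact hQ

end Cfsg.Agent.S4274
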