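import Cfsg.Statements.S4275
-- import your own Cfsg.Agent.* helpers here

set_option autoImplicit false
open Cfsg

namespace Cfsg.Agent.S4275

/-- Let G be a transitive group of permutations of a finite set Ω, let o ∈ Ω, and let α be an automorphism of G. Then α is induced by conjugation by a permutation of Ω normalizing G if and only if the image under α of the stabilizer of o fixes some point of Ω. -/
theorem result {Ω : Type*} [Fintype Ω] (G : Subgroup (Equiv.Perm Ω)) (htr : MulAction.IsPretransitive G Ω) (o : Ω) (α : G ≃* G) : (∃ σ : Equiv.Perm Ω, σ ∈ Subgroup.normalizer (G : Set (Equiv.Perm Ω)) ∧ ∀ g : G, ((α g : G) : Equiv.Perm Ω) = σ * (g : Equiv.Perm Ω) * σ⁻¹) ↔ ∃ ω : Ω, ∀ g ∈ (MulAction.stabilizer G o).map α.toMonoidHom, g • ω = ω := by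
  classical
  constructor
  · rintro ⟨σ, -, hσ⟩
    refine ⟨σ o, ?_⟩
    rintro _ ⟨g, hg, rfl⟩
    have hg' : (g : Equiv.Perm Ω) o = o := hg
    change ((α g : G) : Equiv.Perm Ω) (σ o) = σ o
    rw [hσ g]
    simp [hg']
  · rintro ⟨ω, hω⟩
    -- transitivity
    have htrans : ∀ a b : Ω, ∃ g : G, (g : Equiv.Perm Ω) a = b := fun a b => by
      obtain ⟨g, hg⟩ := htr.exists_smul_eq a b
      exact ⟨g, hg⟩
    have hfix : ∀ g : G, (g : Equiv.Perm Ω) o = o → ((α g : G) : Equiv.Perm Ω) ω = ω := by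
      intro g hg
      exact hω (α g) ⟨g, hg, rfl⟩
    choose rep hrep using (fun a : Ω => htrans o a)
    -- the map
    let s : Ω → Ω := fun a => ((α (rep a) : G) : Equiv.Perm Ω) ω
    have hs : ∀ (g : G) (a : Ω), s ((g : Equiv.Perm Ω) a) = ((α g : G) : Equiv.Perm Ω) (s a) := by
      intro g a
      have h1 : (((rep ((g : Equiv.Perm Ω) a))⁻¹ * (g * rep a) : G) : Equiv.Perm Ω) o = o := by
        have h2 : ((rep a : G) : Equiv.Perm Ω) o = a := hrep a
        have h3 : ((rep ((g : Equiv.Perm Ω) a) : G) : Equiv.Perm Ω) o = (g : Equiv.Perm Ω) a := hrep _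
        simp only [Subgroup.coe_mul, Subgroup.coe_inv, Equiv.Perm.mul_apply]
        rw [h2, Equiv.Perm.inv_eq_iff_eq]
        exact h3.symm
      have h4 := hfix _ h1
      rw [map_mul, map_mul, map_inv] at h4
      simp only [Subgroup.coe_mul, Subgroup.coe_inv, Equiv.Perm.mul_apply] at h4
      change ((α (rep ((g : Equiv.Perm Ω) a)) : G) : Equiv.Perm Ω) ω = ((α g : G) : Equiv.Perm Ω) (((α (rep a) : G) : Equiv.Perm Ω) ω)
      rw [Equiv.Perm.inv_eq_iff_eq] at h4
      exact h4.symm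
    have hsurj : Function.Surjective s := by
      intro b
      obtain ⟨g, hg⟩ := htrans ω b
      obtain ⟨g', hg'⟩ : ∃ g' : G, α g' = g := ⟨α.symm g, by simp⟩
      -- s (g' • o) = α g' (s o)
      obtain ⟨h, hh⟩ := htrans (s o) b
      obtain ⟨h', hh'⟩ : ∃ h' : G, α h' = h := ⟨α.symm h, by simp⟩
      refine ⟨(h' : Equiv.Perm Ω) o, ?_⟩
      rw [hs, hh', hh]
    have hbij : Function.Bijective s := ⟨Finite.injective_iff_surjective.mpr hsurj, hsurj⟩
    let σ : Equiv.Perm Ω := Equiv.ofBijective s hbij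
    have hconj : ∀ g : G, ((α g : G) : Equiv.Perm Ω) = σ * (g : Equiv.Perm Ω) * σ⁻¹ := by
      intro g
      ext b
      obtain ⟨a, rfl⟩ := hsurj b
      have h1 : σ⁻¹ (s a) = a := by
        rw [Equiv.Perm.inv_eq_iff_eq]
        rfl
      simp only [Equiv.Perm.mul_apply, h1]
      exact (hs g a).symm
    refine ⟨σ, ?_, hconj⟩
    rw [Subgroup.mem_normalizer_iff]
    intro u
    constructor
    · intro hu
      rw [show σ * u * σ⁻¹ = ((α ⟨u, hu⟩ : G) : Equiv.Perm Ω) from (hconj ⟨u, hu⟩).symm]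
      exact (α ⟨u, hu⟩).2
    · intro hu
      have h5 := hconj (α.symm ⟨σ * u * σ⁻¹, hu⟩)
      simp only [MulEquiv.apply_symm_apply] at h5
      have h6 : σ * u * σ⁻¹ = σ * ((α.symm ⟨σ * u * σ⁻¹, hu⟩ : G) : Equiv.Perm Ω) * σ⁻¹ := h5
      have h7 : u = ((α.symm ⟨σ * u * σ⁻¹, hu⟩ : G) : Equiv.Perm Ω) :=
        mul_left_cancel (mul_right_cancel h6)
      rw [h7]
      exact (α.symm ⟨σ * u * σ⁻¹, hu⟩).2

end Cfsg.Agent.S4275
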