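import Cfsg.Statements.S4276
import Mathlib
import Cfsg.Agent.Lib.Struct.SymDesign
import Cfsg.Agent.S4275

set_option autoImplicit false
open Cfsg

namespace Cfsg.Agent.S4276


open Cfsg.Agent.Lib.Struct.SymDesign in
/-- Orbit lengths of the image of a point stabilizer. -/
theorem orbit_card {G Ω : Type*} [Group G] [MulAction G Ω] [Fintype Ω] [DecidableEq Ω]
    (h2 : ∀ {a b c d : Ω}, a ≠ b → c ≠ d → ∃ g : G, g • a = c ∧ g • b = d)
    (htr : ∀ a b : Ω, ∃ g : G, g • a = b) (o : Ω) (α : MulAut G) (m : ℕ) (hm : Odd m)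
    (hαm : α ^ m = 1) (Δ : Finset Ω) (hΔ : ∀ h : G, h • o = o → ∀ x ∈ Δ, α h • x ∈ Δ)
    (hk1 : 1 ≤ Δ.card) (hcop : Nat.Coprime Δ.card (Fintype.card Ω)) :
    Δ.card = 1 ∨ Δ.card = Fintype.card Ω - 1 := by
  classical
  by_cases hn : Fintype.card Ω ≤ 1
  · left
    have : Δ.card ≤ Fintype.card Ω := Finset.card_le_univ Δ
    omega
  obtain ⟨x₀, y₀, hxy⟩ : ∃ x₀ y₀ : Ω, x₀ ≠ y₀ := by
    have : 1 < Fintype.card Ω := by omega
    exact Fintype.exists_pair_of_one_lt_card this
  have hkn : Δ.card < Fintype.card Ω := by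
    have h1 : Δ.card ≤ Fintype.card Ω := Finset.card_le_univ Δ
    rcases h1.lt_or_eq with h | h
    · exact h
    · rw [h, Nat.coprime_self] at hcop
      omega
  -- The incidence relation
  have hwd : ∀ (g g' : G) (x : Ω), g • o = g' • o → (α g)⁻¹ • x ∈ Δ → (α g')⁻¹ • x ∈ Δ := by
    intro g g' x hgg hx
    have h1 : (g⁻¹ * g') • o = o := by
      rw [mul_smul, ← hgg, inv_smul_smul]
    have h2' := hΔ (g'⁻¹ * g) (by
      rw [mul_smul, hgg, inv_smul_smul]) _ hx
    have h3 : α (g'⁻¹ * g) • (α g)⁻¹ • x = (α g')⁻¹ • x := by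
      rw [map_mul, map_inv, smul_smul, mul_assoc, mul_inv_cancel, mul_one]
    rwa [h3] at h2'
  let R : Ω → Ω → Prop := fun x y => ∃ g : G, g • o = y ∧ (α g)⁻¹ • x ∈ Δ
  have hR : ∀ (g : G) (x : Ω), R x (g • o) ↔ (α g)⁻¹ • x ∈ Δ := by
    intro g x
    constructor
    · rintro ⟨g', hg', hx⟩
      exact hwd g' g x hg' hx
    · intro hx
      exact ⟨g, rfl, hx⟩
  let A : Matrix Ω Ω ℤ := fun x y => if R x y then 1 else 0
  have hAR : ∀ x y, A x y = if R x y then 1 else 0 := fun _ _ => rfl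
  have h01 : ∀ x y, A x y = 0 ∨ A x y = 1 := by
    intro x y
    rw [hAR]
    split_ifs
    · right; rfl
    · left; rfl
  have hinv : Inv A α := by
    intro g x y
    obtain ⟨g₀, rfl⟩ := htr o y
    rw [hAR, hAR]
    have : R (α g • x) (g • g₀ • o) ↔ R x (g₀ • o) := by
      rw [← mul_smul, hR, hR, map_mul, mul_inv_rev, mul_smul, inv_smul_smul]
    simp only [this]
  have hcol : ∀ y, ∑ x, A x y = (Δ.card : ℤ) := by
    intro y
    obtain ⟨g, rfl⟩ := htr o y
    have h1 : ∀ x, A x (g • o) = if (α g)⁻¹ • x ∈ Δ then 1 else 0 := by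
      intro x
      rw [hAR]
      simp only [hR]
    simp only [h1]
    rw [Finset.sum_boole]
    congr 1
    apply Finset.card_bij (fun x _ => (α g)⁻¹ • x)
    · intro x hx
      simpa using hx
    · intro x _ y _ hxy
      exact smul_left_cancel _ hxy
    · intro y hy
      exact ⟨α g • y, by simpa using hy, by simp⟩
  exact main_matrix h2 hxy A α m hm hαm h01 hinv Δ.card hcol hk1 hkn hcop

/-- Let G be a doubly transitive group of permutations of a finite set Ω of size n, let o ∈ Ω, and let α be an automorphism of G of odd order. Suppose that the image under α of the stabilizer of o has an orbit on Ω whose length k is coprime to n. Then α is induced by conjugation by a permutation of Ω normalizing G, and k = 1 or k = n − 1. -/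
theorem result {Ω : Type*} [Fintype Ω] (G : Subgroup (Equiv.Perm Ω)) (h2 : MulAction.IsMultiplyPretransitive G Ω 2) (o : Ω) (α : MulAut G) (hα : Odd (orderOf α)) (ω : Ω) (hk : (Nat.card (MulAction.orbit ((MulAction.stabilizer G o).map α.toMonoidHom) ω)).Coprime (Fintype.card Ω)) : (∃ σ : Equiv.Perm Ω, σ ∈ Subgroup.normalizer (G : Set (Equiv.Perm Ω)) ∧ ∀ g : G, ((α g : G) : Equiv.Perm Ω) = σ * (g : Equiv.Perm Ω) * σ⁻¹) ∧ (Nat.card (MulAction.orbit ((MulAction.stabilizer G o).map α.toMonoidHom) ω) = 1 ∨ Nat.card (MulAction.orbit ((MulAction.stabilizer G o).map α.toMonoidHom) ω) = Fintype.card Ω - 1) := by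
  classical
  have h2' : ∀ {a b c d : Ω}, a ≠ b → c ≠ d → ∃ g : G, g • a = c ∧ g • b = d := by
    intro a b c d hab hcd
    exact MulAction.is_two_pretransitive_iff.mp h2 hab hcd
  have htr' : MulAction.IsPretransitive G Ω := MulAction.isPretransitive_of_is_two_pretransitive
  have htr : ∀ a b : Ω, ∃ g : G, g • a = b := fun a b => htr'.exists_smul_eq a b
  set K : Subgroup G := (MulAction.stabilizer G o).map α.toMonoidHom with hK
  have hfin : Finite G := inferInstance
  let Δ : Finset Ω := Finset.univ.filter (fun x => x ∈ MulAction.orbit K ω)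
  have hΔmem : ∀ x, x ∈ Δ ↔ x ∈ MulAction.orbit K ω := by
    intro x
    simp [Δ]
  have hcard : Nat.card (MulAction.orbit K ω) = Δ.card := by
    rw [Nat.card_eq_fintype_card]
    exact Fintype.card_of_subtype Δ hΔmem
  have hωmem : ω ∈ Δ := (hΔmem ω).mpr (MulAction.mem_orbit_self ω)
  have hinvK : ∀ g ∈ K, ∀ x ∈ Δ, g • x ∈ Δ := by
    intro g hg x hx
    rw [hΔmem] at hx ⊢
    obtain ⟨k, rfl⟩ := hx
    refine ⟨⟨g, hg⟩ * k, ?_⟩
    simp [mul_smul, Subgroup.smul_def]
  have hΔinv : ∀ h : G, h • o = o → ∀ x ∈ Δ, α h • x ∈ Δ := by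
    intro h hh x hx
    exact hinvK _ ⟨h, hh, rfl⟩ x hx
  have hodd : Odd (orderOf α) := hα
  have hpow : α ^ orderOf α = 1 := pow_orderOf_eq_one α
  have hk1 : 1 ≤ Δ.card := Finset.card_pos.mpr ⟨ω, hωmem⟩
  rw [hcard] at hk ⊢
  have hmain := orbit_card h2' htr o α (orderOf α) hodd hpow Δ hΔinv hk1 hk
  refine ⟨?_, hmain⟩
  -- K fixes a point
  apply (Cfsg.Agent.S4275.result G htr' o α).mpr
  rcases hmain with h1 | h1
  · refine ⟨ω, fun g hg => ?_⟩
    have h3 : g • ω ∈ Δ := hinvK g hg ω hωmem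
    obtain ⟨a, ha⟩ := Finset.card_eq_one.mp h1
    rw [ha, Finset.mem_singleton] at h3 hωmem
    rw [h3, hωmem]
  · have hlt : Δ.card < Fintype.card Ω ∨ Fintype.card Ω ≤ 1 := by omega
    rcases hlt with hlt | hle
    · have hc : (Finset.univ \ Δ).card = 1 := by
        rw [Finset.card_sdiff_of_subset (Finset.subset_univ _), Finset.card_univ]
        omega
      obtain ⟨z, hz⟩ := Finset.card_eq_one.mp hc
      have hzmem : z ∉ Δ := by
        have : z ∈ Finset.univ \ Δ := by rw [hz]; simp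
        exact (Finset.mem_sdiff.mp this).2
      refine ⟨z, fun g hg => ?_⟩
      have h3 : g • z ∉ Δ := by
        intro h4
        apply hzmem
        have := hinvK g⁻¹ (K.inv_mem hg) _ h4
        simpa using this
      have h4 : g • z ∈ Finset.univ \ Δ := Finset.mem_sdiff.mpr ⟨Finset.mem_univ _, h3⟩
      rw [hz, Finset.mem_singleton] at h4
      exact h4
    · refine ⟨ω, fun g _ => ?_⟩
      have hsub : Subsingleton Ω := Fintype.card_le_one_iff_subsingleton.mp hle
      exact Subsingleton.elim _ _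

end Cfsg.Agent.S4276
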