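import Cfsg.Statements.S4283
import Cfsg.Agent.Lib.Basic.Frobenius2
import Cfsg.Agent.Lib.Struct.Basic
import Cfsg.Agent.Lib.Basic.Index

set_option autoImplicit false
open Cfsg

namespace Cfsg.Agent.S4283


open scoped Pointwise

theorem IsConjDisjoint_ncard {Q : Type*} [Group Q] [Finite Q] {H : Subgroup Q}
    (hH : Cfsg.Agent.Lib.Basic.IsConjDisjoint H) :
    (Cfsg.frobeniusKernel H).ncard = H.index :=
  Cfsg.Agent.Lib.Basic.IsConjDisjoint.ncard_frobeniusKernel hH

/-- Let G be a finite group with centre Z and let K, H be abelian subgroups of G containing Z such that G/Z is a Frobenius group with complement H/Z and kernel K/Z. Then the conjugacy class sizes of G are exactly 1, [G : K] and [G : H], and these two indices are coprime. (This is the converse half of the characterization of finite groups whose conjugacy class sizes are exactly 1, m and n with m and n coprime.) -/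
theorem result {G : Type*} [Group G] [Finite G] (K H : Subgroup G) (hZK : Subgroup.center G ≤ K) (hZH : Subgroup.center G ≤ H) (hK : IsMulCommutative K) (hH : IsMulCommutative H) (hFrob : Cfsg.IsFrobeniusComplement (H.map (QuotientGroup.mk' (Subgroup.center G)))) (hker : Cfsg.frobeniusKernel (H.map (QuotientGroup.mk' (Subgroup.center G))) = (K.map (QuotientGroup.mk' (Subgroup.center G)) : Set (G ⧸ Subgroup.center G))) : Set.range (fun x : G => (Subgroup.centralizer ({x} : Set G)).index) = ({1, K.index, H.index} : Set ℕ) ∧ K.index.Coprime H.index := by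
  classical
  set Z := Subgroup.center G with hZ
  set π := QuotientGroup.mk' Z with hπ
  have hπsurj : Function.Surjective π := QuotientGroup.mk'_surjective Z
  have π1 : ∀ x, π x = 1 ↔ x ∈ Z := by
    intro x
    exact QuotientGroup.eq_one_iff x
  have hkerπ : π.ker = Z := by
    ext x
    rw [MonoidHom.mem_ker, π1]
  have memK : ∀ x, π x ∈ K.map π ↔ x ∈ K := by
    intro x
    have := Subgroup.comap_map_eq_self (f := π) (H := K) (by rw [hkerπ]; exact hZK)
    rw [← Subgroup.mem_comap, this]
  have memH : ∀ x, π x ∈ H.map π ↔ x ∈ H := by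
    intro x
    have := Subgroup.comap_map_eq_self (f := π) (H := H) (by rw [hkerπ]; exact hZH)
    rw [← Subgroup.mem_comap, this]
  obtain ⟨hH'bot, hH'top, hTI⟩ := hFrob
  have hTI' : ∀ y, y ∉ H → ∀ z ∈ H, y⁻¹ * z * y ∈ H → z ∈ Z := by
    intro y hy z hz hyz
    have h1 : π y ∉ H.map π := fun h => hy ((memH y).mp h)
    have h2 := hTI (π y) h1
    have h3 : π z ∈ H.map π ⊓ MulAut.conj (π y) • H.map π := by
      refine Subgroup.mem_inf.mpr ⟨(memH z).mpr hz, ?_⟩
      rw [Lib.Struct.mem_conj_smul, ← map_inv, ← map_mul, ← map_mul]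
      exact (memH _).mpr hyz
    rw [h2, Subgroup.mem_bot] at h3
    exact (π1 z).mp h3
  have hkerS : ∀ x, x ∈ K ↔ (x ∈ Z ∨ ∀ g : G, g⁻¹ * x * g ∉ H) := by
    intro x
    rw [← memK, ← SetLike.mem_coe, ← hker]
    show (π x = 1 ∨ ∀ g, π x ∉ MulAut.conj g • H.map π) ↔ _
    rw [π1]
    apply or_congr_right
    constructor
    · intro h g hg
      apply h (π g)
      rw [Lib.Struct.mem_conj_smul, ← map_inv, ← map_mul, ← map_mul]
      exact (memH _).mpr hg
    · intro h g hg
      obtain ⟨g', rfl⟩ := hπsurj g
      rw [Lib.Struct.mem_conj_smul, ← map_inv, ← map_mul, ← map_mul] at hg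
      exact h g' ((memH _).mp hg)
  have hZcentral : ∀ z ∈ Z, ∀ g : G, g⁻¹ * z * g = z := by
    intro z hz g
    rw [(Subgroup.mem_center_iff.mp hz g⁻¹), inv_mul_cancel_right]
  have hKconj : ∀ x ∈ K, ∀ g : G, g⁻¹ * x * g ∈ K := by
    intro x hx g
    rcases (hkerS x).mp hx with h | h
    · rw [hZcentral x h g]
      exact hx
    · rw [hkerS]
      right
      intro a ha
      apply h (g * a)
      convert ha using 1
      group
  have hcomm : ∀ {A : Subgroup G}, IsMulCommutative A → ∀ a ∈ A, ∀ b ∈ A, a * b = b * a := by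
    intro A hA a ha b hb
    have := hA.is_comm.comm ⟨a, ha⟩ ⟨b, hb⟩
    exact congrArg Subtype.val this
  -- centralizers of kernel elements
  have claimA : ∀ x ∈ K, x ∉ Z → Subgroup.centralizer ({x} : Set G) = K := by
    intro x hx hxZ
    apply le_antisymm
    · intro y hy
      by_contra hyK
      have hy' : ¬ (y ∈ Z ∨ ∀ g : G, g⁻¹ * y * g ∉ H) := fun h => hyK ((hkerS y).mpr h)
      push Not at hy'
      obtain ⟨hyZ, g, hg⟩ := hy'
      have hxy : y * x = x * y := by
        rw [Subgroup.mem_centralizer_iff] at hy
        exact (hy x (Set.mem_singleton x)).symm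
      have ha : g⁻¹ * x * g ∈ K := hKconj x hx g
      have haZ : g⁻¹ * x * g ∉ Z := by
        intro h
        apply hxZ
        have : x = g * (g⁻¹ * x * g) * g⁻¹ := by group
        rw [this]
        have h3 := hZcentral _ h g⁻¹
        rw [inv_inv] at h3
        rw [h3]
        exact h
      have haH : g⁻¹ * x * g ∉ H := by
        rcases (hkerS _).mp ha with h | h
        · exact absurd h haZ
        · have := h 1
          simpa using this
      have h5 : (g⁻¹ * x * g)⁻¹ * (g⁻¹ * y * g) * (g⁻¹ * x * g) = g⁻¹ * y * g := by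
        have : (g⁻¹ * x * g)⁻¹ * (g⁻¹ * y * g) * (g⁻¹ * x * g) = g⁻¹ * (x⁻¹ * (y * x)) * g := by group
        rw [this, hxy]
        group
      have h6 := hTI' _ haH _ hg (by rw [h5]; exact hg)
      apply hyZ
      have : y = g * (g⁻¹ * y * g) * g⁻¹ := by group
      rw [this]
      have h3 := hZcentral _ h6 g⁻¹
      rw [inv_inv] at h3
      rw [h3]
      exact h6
    · intro y hy
      rw [Subgroup.mem_centralizer_iff]
      intro w hw
      rw [Set.mem_singleton_iff] at hw
      subst hw
      exact hcomm hK _ hx _ hy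
  have claimB : ∀ b ∈ H, b ∉ Z → Subgroup.centralizer ({b} : Set G) = H := by
    intro b hb hbZ
    apply le_antisymm
    · intro y hy
      by_contra hyH
      have hby : y * b = b * y := by
        rw [Subgroup.mem_centralizer_iff] at hy
        exact (hy b (Set.mem_singleton b)).symm
      apply hbZ
      refine hTI' y hyH b hb ?_
      have : y⁻¹ * b * y = b := by
        rw [mul_assoc, ← hby]
        group
      rw [this]
      exact hb
    · intro y hy
      rw [Subgroup.mem_centralizer_iff]
      intro w hw
      rw [Set.mem_singleton_iff] at hw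
      subst hw
      exact hcomm hH _ hb _ hy
  -- indices
  have hindex_conj : ∀ x b : G, IsConj x b →
      (Subgroup.centralizer ({x} : Set G)).index = (Subgroup.centralizer ({b} : Set G)).index := by
    intro x b hxb
    rw [← Lib.Struct.card_isConj_eq_index, ← Lib.Struct.card_isConj_eq_index]
    exact Nat.card_congr (Equiv.subtypeEquivRight fun y => ⟨hxb.symm.trans, hxb.trans⟩)
  have hcard : Nat.card (K.map π) = (H.map π).index := by
    have h1 := IsConjDisjoint_ncard hTI
    rw [hker] at h1
    rw [← h1]
    rfl
  have hH'idx : 1 < (H.map π).index := by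
    have h0 : (H.map π).index ≠ 0 := Subgroup.FiniteIndex.index_ne_zero
    have h1 : (H.map π).index ≠ 1 := fun h => hH'top (Subgroup.index_eq_one.mp h)
    omega
  obtain ⟨x0, hx0K, hx0Z⟩ : ∃ x ∈ K, x ∉ Z := by
    have hne : K.map π ≠ ⊥ := by
      intro h
      rw [h, Subgroup.card_bot] at hcard
      omega
    obtain ⟨w, hw, hw1⟩ := (Subgroup.bot_or_exists_ne_one _).resolve_left hne
    obtain ⟨x, hx, rfl⟩ := hw
    exact ⟨x, hx, fun h => hw1 ((π1 x).mpr h)⟩
  obtain ⟨b0, hb0H, hb0Z⟩ : ∃ x ∈ H, x ∉ Z := by
    obtain ⟨w, hw, hw1⟩ := (Subgroup.bot_or_exists_ne_one _).resolve_left hH'bot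
    obtain ⟨x, hx, rfl⟩ := hw
    exact ⟨x, hx, fun h => hw1 ((π1 x).mpr h)⟩
  refine ⟨?_, ?_⟩
  · ext n
    simp only [Set.mem_range, Set.mem_insert_iff, Set.mem_singleton_iff]
    constructor
    · rintro ⟨x, rfl⟩
      by_cases hxK : x ∈ K
      · by_cases hxZ : x ∈ Z
        · left
          have : Subgroup.centralizer ({x} : Set G) = ⊤ := by
            rw [eq_top_iff]
            intro y _
            rw [Subgroup.mem_centralizer_iff]
            intro w hw
            rw [Set.mem_singleton_iff] at hw
            subst hw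
            exact (Subgroup.mem_center_iff.mp hxZ y).symm
          rw [this, Subgroup.index_top]
        · right; left
          rw [claimA x hxK hxZ]
      · right; right
        have hx' : ¬ (x ∈ Z ∨ ∀ g : G, g⁻¹ * x * g ∉ H) := fun h => hxK ((hkerS x).mpr h)
        push Not at hx'
        obtain ⟨hxZ, g, hg⟩ := hx'
        have hconj : IsConj x (g⁻¹ * x * g) := by
          rw [isConj_iff]
          exact ⟨g⁻¹, by group⟩
        rw [hindex_conj _ _ hconj, claimB _ hg]
        intro h
        apply hxZ
        have h3 := hZcentral _ h g⁻¹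
        have : x = g * (g⁻¹ * x * g) * g⁻¹ := by group
        rw [this]
        rw [inv_inv] at h3
        rw [h3]
        exact h
    · rintro (rfl | rfl | rfl)
      · refine ⟨1, ?_⟩
        have : Subgroup.centralizer ({1} : Set G) = ⊤ := by
          rw [eq_top_iff]
          intro y _
          rw [Subgroup.mem_centralizer_iff]
          intro w hw
          rw [Set.mem_singleton_iff] at hw
          subst hw
          simp
        simp only [this, Subgroup.index_top]
      · exact ⟨x0, by simp only [claimA x0 hx0K hx0Z]⟩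
      · exact ⟨b0, by simp only [claimB b0 hb0H hb0Z]⟩
  · have e1 : K.index = (K.map π).index := by
      exact (Cfsg.Agent.Lib.Basic.index_map_mk (N := Z) hZK).symm
    have e2 : H.index = (H.map π).index := by
      exact (Cfsg.Agent.Lib.Basic.index_map_mk (N := Z) hZH).symm
    rw [e1, e2]
    have c1 := Subgroup.card_mul_index (K.map π)
    have c2 := Subgroup.card_mul_index (H.map π)
    have e3 : (K.map π).index = Nat.card (H.map π) := by
      have h5 : (H.map π).index * (K.map π).index = (H.map π).index * Nat.card (H.map π) := by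
        rw [← hcard, c1, hcard, mul_comm, ← c2]
      exact Nat.eq_of_mul_eq_mul_left (by omega) h5
    rw [e3]
    obtain ⟨c, hc⟩ := Cfsg.Agent.Lib.Basic.IsConjDisjoint.card_dvd_index_sub_one hTI
    have : (H.map π).index = Nat.card (H.map π) * c + 1 := by
      rw [← hc]
      omega
    rw [this]
    simp

end Cfsg.Agent.S4283
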