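import Cfsg.Statements.S4284
import Cfsg.Agent.Lib.Struct.ClassI

set_option autoImplicit false
open Cfsg

namespace Cfsg.Agent.S4284

/-- Let G be a finite group with no nontrivial abelian direct factor whose conjugacy class sizes are exactly 1, m and m·n with m, n > 1 coprime. Then m is a prime p dividing n − 1; the elements whose class has size 1 or p form an abelian normal subgroup of index p; G has a normal p-complement; and the commutator subgroup of a Sylow p-subgroup of G has order p. -/
theorem result {G : Type*} [Group G] [Finite G] (hnodf : ∀ A B : Subgroup G, A.Normal → B.Normal → A ⊓ B = ⊥ → A ⊔ B = ⊤ → IsMulCommutative A → A = ⊥) (m n : ℕ) (hm : 1 < m) (hn : 1 < n) (hcop : m.Coprime n) (h : Set.range (fun x : G => (Subgroup.centralizer ({x} : Set G)).index) = ({1, m, m * n} : Set ℕ)) : m.Prime ∧ m ∣ n - 1 ∧ (∃ M : Subgroup G, M.Normal ∧ (M : Set G) = {x : G | (Subgroup.centralizer ({x} : Set G)).index = 1 ∨ (Subgroup.centralizer ({x} : Set G)).index = m} ∧ M.index = m ∧ IsMulCommutative M) ∧ (∃ N : Subgroup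 G, N.Normal ∧ (Nat.card N).Coprime m ∧ ∃ a : ℕ, N.index = m ^ a) ∧ ∀ P : Sylow m G, Nat.card (commutator (P : Subgroup G)) = m := by
  have hx : ∀ x : G, (Subgroup.centralizer ({x} : Set G)).index ∈ ({1, m, m * n} : Set ℕ) := by
    intro x
    rw [← h]
    exact ⟨x, rfl⟩
  have hm' : m ∈ Set.range (fun x : G => (Subgroup.centralizer ({x} : Set G)).index) := by
    rw [h]; simp
  have hmn' : m * n ∈ Set.range (fun x : G => (Subgroup.centralizer ({x} : Set G)).index) := by
    rw [h]; simp
  have hc : Cfsg.Agent.Lib.Struct.ClassSize.CS G m n := by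
    refine ⟨hm, hn, hcop, ?_, ?_, ?_⟩
    · intro x
      have := hx x
      simpa using this
    · obtain ⟨x, hx'⟩ := hm'
      exact ⟨x, hx'⟩
    · obtain ⟨x, hx'⟩ := hmn'
      exact ⟨x, hx'⟩
  exact Cfsg.Agent.Lib.Struct.ClassSize.main hc hnodf

end Cfsg.Agent.S4284
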