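import Cfsg.Statements.S4293
import Cfsg.Agent.Lib.Struct.FrobeniusConstruct

set_option autoImplicit false
open Cfsg

namespace Cfsg.Agent.S4293


open Cfsg.Agent.Lib.Struct

universe u v

theorem frob_univ {A : Type u} {Q : Type v} [AddCommGroup A] [Group Q] [Finite A] [Finite Q]
    [Nontrivial A] [Nontrivial Q] (F : Q → (A →+ A)) (h1 : ∀ v, F 1 v = v)
    (hm : ∀ a b v, F (a * b) v = F a (F b v))
    (hfix : ∀ q : Q, q ≠ 1 → ∀ v : A, F q v = v → v = 0) :
    ∃ (L : Type) (_ : Group L) (_ : Finite L) (H : Subgroup L), Cfsg.IsFrobeniusComplement H ∧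
      Nonempty (Q ≃* H) := by
  haveI : Small.{0} A := Countable.toSmall A
  haveI : Small.{0} Q := Countable.toSmall Q
  let eA : Shrink.{0} A ≃+ A := Shrink.addEquiv
  let eQ : Shrink.{0} Q ≃* Q := Shrink.mulEquiv
  haveI : Finite (Shrink.{0} A) := Finite.of_equiv _ eA.symm.toEquiv
  haveI : Finite (Shrink.{0} Q) := Finite.of_equiv _ eQ.symm.toEquiv
  haveI : Nontrivial (Shrink.{0} A) := eA.toEquiv.nontrivial
  haveI : Nontrivial (Shrink.{0} Q) := eQ.toEquiv.nontrivial
  let F' : Shrink.{0} Q → (Shrink.{0} A →+ Shrink.{0} A) := fun q =>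
    (eA.symm.toAddMonoidHom).comp ((F (eQ q)).comp eA.toAddMonoidHom)
  obtain ⟨L, i1, i2, H, hH, ⟨e⟩⟩ := exists_frobenius_of_add F'
    (by
      intro v
      simp [F', h1])
    (by
      intro a b v
      simp [F', hm])
    (by
      intro q hq v hv
      have hq' : eQ q ≠ 1 := by simpa using hq
      have : F (eQ q) (eA v) = eA v := by
        have := congrArg eA hv
        simpa [F'] using this
      have := hfix _ hq' _ this
      simpa using this)
  exact ⟨L, i1, i2, H, hH, ⟨eQ.symm.trans e⟩⟩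

variable {D : Type u} [DivisionRing D]

/-- the additive span of `H` -/
def spanH (H : Subgroup Dˣ) : Submodule ℤ D :=
  Submodule.span ℤ (Set.range fun h : H => ((h : Dˣ) : D))

theorem one_mem_spanH (H : Subgroup Dˣ) : (1 : D) ∈ spanH H :=
  Submodule.subset_span ⟨1, by simp⟩

theorem mul_mem_spanH (H : Subgroup Dˣ) (h : H) {x : D} (hx : x ∈ spanH H) :
    ((h : Dˣ) : D) * x ∈ spanH H := by
  unfold spanH at hx ⊢
  induction hx using Submodule.span_induction with
  | mem x hx =>
    obtain ⟨k, rfl⟩ := hx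
    refine Submodule.subset_span ⟨h * k, by simp⟩
  | zero => simp
  | add x y _ _ hx hy => rw [mul_add]; exact Submodule.add_mem _ hx hy
  | smul a x _ hx => rw [mul_smul_comm]; exact Submodule.smul_mem _ a hx

/-- `r` times the span, inside `D`. -/
def rSpan (H : Subgroup Dˣ) (r : ℤ) : Submodule ℤ D :=
  (spanH H).map (r • (LinearMap.id : D →ₗ[ℤ] D))

theorem mem_rSpan {H : Subgroup Dˣ} {r : ℤ} {x : D} : x ∈ rSpan H r ↔ ∃ y ∈ spanH H, r • y = x := by
  simp [rSpan, Submodule.mem_map]

theorem mul_mem_rSpan (H : Subgroup Dˣ) (r : ℤ) (h : H) {x : D} (hx : x ∈ rSpan H r) :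
    ((h : Dˣ) : D) * x ∈ rSpan H r := by
  obtain ⟨y, hy, rfl⟩ := mem_rSpan.mp hx
  exact mem_rSpan.mpr ⟨_, mul_mem_spanH H h hy, by rw [mul_smul_comm]⟩

theorem rSpan_le (H : Subgroup Dˣ) (r : ℤ) : rSpan H r ≤ spanH H := by
  intro x hx
  obtain ⟨y, hy, rfl⟩ := mem_rSpan.mp hx
  exact Submodule.smul_mem _ r hy

/-- main congruence. -/
theorem fpf_char_zero (H : Subgroup Dˣ) [Finite H] {r : ℕ} (hr : r.Coprime (Nat.card H))
    (g : H) (hg : g ≠ 1) {v : D} (hv : v ∈ spanH H)
    (hgv : ((g : Dˣ) : D) * v - v ∈ rSpan H r) : v ∈ rSpan H r := by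
  set ga : D := ((g : Dˣ) : D) with hga
  have hpow : ∀ i : ℕ, ga ^ i * v - v ∈ rSpan H r := by
    intro i
    induction i with
    | zero => simp
    | succ i ih =>
      have : ga ^ (i + 1) * v - v = ga * (ga ^ i * v - v) + (ga * v - v) := by
        rw [pow_succ']; noncomm_ring
      rw [this]
      exact Submodule.add_mem _ (mul_mem_rSpan H r g ih) hgv
  set n := orderOf g with hn
  have hgne : ga ≠ 1 := by
    intro h
    apply hg
    apply Subtype.ext
    apply Units.ext
    exact h
  have hgn : ga ^ n = 1 := by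
    have : g ^ n = 1 := pow_orderOf_eq_one g
    have h2 := congrArg (fun x : H => (((x : Dˣ)) : D)) this
    simpa using h2
  have hS : (∑ i ∈ Finset.range n, ga ^ i) = 0 := by
    have := geom_sum_mul ga n
    rw [hgn, sub_self] at this
    rcases mul_eq_zero.mp this with h | h
    · exact h
    · exact absurd (sub_eq_zero.mp h) hgne
  have hnv : (n : ℤ) • v ∈ rSpan H r := by
    have e : (n : ℤ) • v = - ∑ i ∈ Finset.range n, (ga ^ i * v - v) := by
      rw [Finset.sum_sub_distrib, ← Finset.sum_mul, hS]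
      simp
    rw [e]
    exact Submodule.neg_mem _ (Submodule.sum_mem _ fun i _ => hpow i)
  have hrv : (r : ℤ) • v ∈ rSpan H r := mem_rSpan.mpr ⟨v, hv, rfl⟩
  have hco : Nat.Coprime r n := Nat.Coprime.coprime_dvd_right (orderOf_dvd_natCard g) hr
  have hgcd := Int.isCoprime_iff_gcd_eq_one.mpr (by simpa [Int.gcd, Nat.coprime_iff_gcd_eq_one] using hco : Int.gcd (r : ℤ) (n : ℤ) = 1)
  obtain ⟨a, b, hab⟩ := hgcd
  have : v = a • ((r : ℤ) • v) + b • ((n : ℤ) • v) := by
    rw [smul_smul, smul_smul, ← add_smul, hab, one_smul]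
  rw [this]
  exact Submodule.add_mem _ (Submodule.smul_mem _ a hrv) (Submodule.smul_mem _ b hnv)

/-- Everything for the prime `r`, assuming the needed fixed point property. -/
theorem frob_of_prime (H : Subgroup Dˣ) [Finite H] (hH : H ≠ ⊥) (r : ℕ) (hr : r.Prime)
    (hchar : ∀ a : ℤ, (a : D) = 0 → (r : ℤ) ∣ a)
    (hfpf : ∀ g : H, g ≠ 1 → ∀ v ∈ spanH H, ((g : Dˣ) : D) * v - v ∈ rSpan H r → v ∈ rSpan H r) :
    ∃ (L : Type) (_ : Group L) (_ : Finite L) (C : Subgroup L), Cfsg.IsFrobeniusComplement C ∧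
      Nonempty (H ≃* C) := by
  set M := spanH H with hM
  set U := rSpan H r with hU
  have hfg : M.FG := Submodule.fg_span (Set.finite_range _)
  haveI : Module.Finite ℤ M := Module.Finite.iff_fg.mpr hfg
  let U' : Submodule ℤ M := U.comap M.subtype
  haveI : Finite (M ⧸ U') := by
    refine Module.finite_of_fg_torsion _ ?_
    intro x
    refine ⟨⟨(r : ℤ), mem_nonZeroDivisors_of_ne_zero (by exact_mod_cast hr.ne_zero)⟩, ?_⟩
    induction x using Submodule.Quotient.induction_on with
    | H x =>
      show (r : ℤ) • (Submodule.Quotient.mk x : M ⧸ U') = 0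
      rw [← Submodule.Quotient.mk_smul, Submodule.Quotient.mk_eq_zero]
      exact mem_rSpan.mpr ⟨x, x.2, rfl⟩
  haveI : Nontrivial (M ⧸ U') := by
    refine Submodule.Quotient.nontrivial_iff.mpr ?_
    intro htop
    have hle : M ≤ (Ideal.span {(r : ℤ)}) • M := by
      intro x hx
      have : (⟨x, hx⟩ : M) ∈ U' := by rw [htop]; trivial
      obtain ⟨y, hy, hyx⟩ := mem_rSpan.mp this
      have hyx' : (r : ℤ) • y = x := hyx
      rw [← hyx']
      exact Submodule.smul_mem_smul (Ideal.mem_span_singleton_self _) hy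
    obtain ⟨a, ha1, ha2⟩ := Submodule.exists_sub_one_mem_and_smul_eq_zero_of_fg_of_le_smul _ M hfg hle
    have h1 : a • (1 : D) = 0 := ha2 1 (one_mem_spanH H)
    have h2 : (a : D) = 0 := by simpa using h1
    have h3 := hchar a h2
    have h4 : (r : ℤ) ∣ a - 1 := Ideal.mem_span_singleton.mp ha1
    have h5 : (r : ℤ) ∣ 1 := by
      have := dvd_sub h3 h4
      simpa using this
    have h6 : r ∣ 1 := by exact_mod_cast h5
    exact hr.one_lt.ne' (Nat.dvd_one.mp h6)
  haveI : Nontrivial H := (Subgroup.nontrivial_iff_ne_bot H).mpr hH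
  let f : H → (M →ₗ[ℤ] M) := fun h =>
    LinearMap.restrict (LinearMap.mulLeft ℤ ((h : Dˣ) : D)) (fun x hx => mul_mem_spanH H h hx)
  have hf : ∀ h, U' ≤ U'.comap (f h) := by
    intro h x hx
    exact mul_mem_rSpan H r h hx
  let F : H → ((M ⧸ U') →+ (M ⧸ U')) := fun h => (Submodule.mapQ U' U' (f h) (hf h)).toAddMonoidHom
  refine frob_univ F ?_ ?_ ?_
  · intro v
    induction v using Submodule.Quotient.induction_on with
    | H x =>
      show (Submodule.Quotient.mk (f 1 x) : M ⧸ U') = _
      congr 1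
      apply Subtype.ext
      simp [f]
  · intro a b v
    induction v using Submodule.Quotient.induction_on with
    | H x =>
      show (Submodule.Quotient.mk (f (a * b) x) : M ⧸ U') = Submodule.Quotient.mk (f a (f b x))
      congr 1
      apply Subtype.ext
      simp [f, mul_assoc]
      rfl
  · intro q hq v
    induction v using Submodule.Quotient.induction_on with
    | H x =>
      intro hv
      have hv' : (Submodule.Quotient.mk (f q x) : M ⧸ U') = Submodule.Quotient.mk x := hv
      rw [Submodule.Quotient.eq] at hv'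
      rw [Submodule.Quotient.mk_eq_zero]
      exact hfpf q hq x x.2 hv'

/-- A nontrivial finite subgroup of the multiplicative group of a division ring occurs as a Frobenius complement of some finite Frobenius group. -/
theorem result {D : Type*} [DivisionRing D] (H : Subgroup Dˣ) [Finite H] (hH : H ≠ ⊥) :
    ∃ (L : Type) (_ : Group L) (_ : Finite L) (C : Subgroup L), Cfsg.IsFrobeniusComplement C ∧ Nonempty (H ≃* C) := by
  obtain ⟨c, hc⟩ := CharP.exists D
  rcases CharP.char_is_prime_or_zero D c with hp | h0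
  · -- positive characteristic
    refine frob_of_prime H hH c hp ?_ ?_
    · intro a ha
      exact (CharP.intCast_eq_zero_iff D c a).mp ha
    · intro g hg v hv hgv
      have hr0 : ((c : ℤ) : D) = 0 := by simpa using CharP.cast_eq_zero D c
      obtain ⟨y, hy, hyx⟩ := mem_rSpan.mp hgv
      have hyx0 : ((g : Dˣ) : D) * v - v = 0 := by
        rw [← hyx, zsmul_eq_mul, hr0, zero_mul]
      have hgne : ((g : Dˣ) : D) - 1 ≠ 0 := by
        intro h
        apply hg
        apply Subtype.ext
        apply Units.ext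
        simpa using sub_eq_zero.mp h
      have : (((g : Dˣ) : D) - 1) * v = 0 := by rw [sub_mul, one_mul]; exact hyx0
      have hv0 : v = 0 := (mul_eq_zero.mp this).resolve_left hgne
      rw [hv0]; exact Submodule.zero_mem _
  · -- characteristic zero
    subst h0
    obtain ⟨r, hr1, hr⟩ := Nat.exists_infinite_primes (Nat.card H + 1)
    refine frob_of_prime H hH r hr ?_ ?_
    · intro a ha
      have := (CharP.intCast_eq_zero_iff D 0 a).mp ha
      have h0 : a = 0 := by simpa using this
      rw [h0]; exact dvd_zero _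
    · intro g hg v hv hgv
      have hco : r.Coprime (Nat.card H) := by
        refine (Nat.Prime.coprime_iff_not_dvd hr).mpr fun h => ?_
        have := Nat.le_of_dvd Nat.card_pos h
        omega
      exact fpf_char_zero H hco g hg hv hgv

end Cfsg.Agent.S4293
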