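import Cfsg.Statements.S4295
import Cfsg.Agent.Lib.Struct.QuatKernel2

set_option autoImplicit false
open Cfsg

namespace Cfsg.Agent.S4295

/-- For a natural number m the following are equivalent: (a) some finite group has a Frobenius complement isomorphic to the quaternion group of order 8 whose Frobenius kernel (the identity together with the elements lying in no conjugate of the complement) has exactly m elements; (b) m is an odd perfect square greater than 1. -/
theorem result (m : ℕ) :
    (∃ (L : Type) (_ : Group L) (_ : Finite L) (H : Subgroup L), Cfsg.IsFrobeniusComplement H ∧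
        Nonempty (H ≃* QuaternionGroup 2) ∧ Nat.card (Cfsg.frobeniusKernel H) = m) ↔
    (Odd m ∧ IsSquare m ∧ 1 < m) := by
  constructor
  · rintro ⟨L, _, _, H, hF, ⟨e⟩, rfl⟩
    obtain ⟨i, j, z, h1, h2, h3, h4, h5⟩ := Cfsg.Agent.Lib.Struct.QuatKernel.quat_elements 2 1 rfl (by norm_num)
    have hz1 : ((e.symm z : H) : L) ≠ 1 := by
      intro h
      apply h4
      have : e.symm z = 1 := Subtype.ext h
      simpa using this
    exact Cfsg.Agent.Lib.Struct.QuatKernel.kernel_square H hF (e.symm i : H) (e.symm j : H) (e.symm z : H) (e.symm i).2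
      (by rw [← Subgroup.coe_mul, ← map_mul, h1]) (by rw [← Subgroup.coe_mul, ← map_mul, h2]) (e.symm j).2
      (by rw [← Subgroup.coe_mul, ← map_mul, h3, map_one]; rfl) hz1
      (by simp only [← Subgroup.coe_mul, ← map_mul, h5])
  · rintro ⟨h1, h2, h3⟩
    exact Cfsg.Agent.Lib.Struct.QuatKernel.exists_frobenius_square m h1 h2 h3

end Cfsg.Agent.S4295
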