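import Cfsg.Statements.S4297
import Cfsg.Agent.Lib.Struct.FrobeniusConstruct

set_option autoImplicit false
open Cfsg

namespace Cfsg.Agent.S4297

/-- For every n ≥ 2 the dicyclic group of order 4n (generated by an element a of order 2n and an element x with x² = aⁿ and x a x⁻¹ = a⁻¹) occurs as a Frobenius complement of some finite Frobenius group. -/
theorem result (n : ℕ) (hn : 2 ≤ n) :
    ∃ (L : Type) (_ : Group L) (_ : Finite L) (H : Subgroup L), Cfsg.IsFrobeniusComplement H ∧ Nonempty (H ≃* QuaternionGroup n) := by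
  classical
  have hn0 : 2 * n ≠ 0 := by omega
  haveI : NeZero n := ⟨by omega⟩
  haveI : NeZero (2 * n) := ⟨hn0⟩
  obtain ⟨q, hq, hq2, hfact, ζ, hζ⟩ := Cfsg.Agent.Lib.Struct.exists_prime_unit_orderOf (2 * n) 2 hn0
  -- the character `χ`
  let χ' : ZMod (2 * n) → (ZMod q)ˣ := fun i => ζ ^ i.val
  have hχadd' : ∀ i j, χ' (i + j) = χ' i * χ' j := by
    intro i j
    simp only [χ']
    rw [← pow_add, ZMod.val_add, ← pow_mod_orderOf ζ (i.val + j.val), hζ]
  have hχ0' : χ' 0 = 1 := by simp [χ', ZMod.val_zero]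
  have hχinj' : ∀ i, χ' i = 1 → i = 0 := by
    intro i hi
    have h1 : orderOf ζ ∣ i.val := orderOf_dvd_of_pow_eq_one hi
    rw [hζ] at h1
    have h2 := ZMod.val_lt i
    have h3 : i.val = 0 := Nat.eq_zero_of_dvd_of_lt h1 h2
    exact (ZMod.val_eq_zero i).mp h3
  obtain ⟨χ, hχdef⟩ : ∃ χ : ZMod (2 * n) → ZMod q, ∀ i, χ i = (χ' i : ZMod q) := ⟨_, fun _ => rfl⟩
  have hχadd : ∀ i j, χ (i + j) = χ i * χ j := by
    intro i j
    rw [hχdef, hχdef, hχdef, hχadd', Units.val_mul]
  have hχ0 : χ 0 = 1 := by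
    rw [hχdef, hχ0', Units.val_one]
  have hχne : ∀ i, i ≠ 0 → χ i ≠ 1 := by
    intro i hi h
    apply hi
    apply hχinj'
    apply Units.ext
    rw [← hχdef, h, Units.val_one]
  have hnn : ((n : ZMod (2 * n)) + (n : ZMod (2 * n))) = 0 := by
    rw [← Nat.cast_add, ← two_mul, ZMod.natCast_self]
  have hn_ne : (n : ZMod (2 * n)) ≠ 0 := by
    intro h4
    rw [ZMod.natCast_eq_zero_iff] at h4
    have := Nat.le_of_dvd (by omega) h4
    omega
  have hχn : χ (n : ZMod (2 * n)) = -1 := by
    have h1 : χ (n : ZMod (2 * n)) * χ (n : ZMod (2 * n)) = 1 := by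
      rw [← hχadd, hnn, hχ0]
    have h2 : (χ (n : ZMod (2 * n)) - 1) * (χ (n : ZMod (2 * n)) + 1) = 0 := by
      linear_combination h1
    rcases mul_eq_zero.mp h2 with h5 | h5
    · exact absurd (sub_eq_zero.mp h5) (hχne _ hn_ne)
    · exact eq_neg_of_add_eq_zero_left h5
  have hχnn : χ (-(n : ZMod (2 * n))) = -1 := by
    rw [neg_eq_of_add_eq_zero_left hnn, hχn]
  have hinv : ∀ i, χ i * χ (-i) = 1 := by
    intro i
    rw [← hχadd, add_neg_cancel, hχ0]
  -- the representation
  let F : QuaternionGroup n → ((ZMod q × ZMod q) →+ (ZMod q × ZMod q)) := fun g =>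
    match g with
    | QuaternionGroup.a i =>
        { toFun := fun v => (χ i * v.1, χ (-i) * v.2)
          map_zero' := Prod.ext (mul_zero _) (mul_zero _)
          map_add' := fun v w => Prod.ext (mul_add _ _ _) (mul_add _ _ _) }
    | QuaternionGroup.xa i =>
        { toFun := fun v => (-χ (-i) * v.2, χ i * v.1)
          map_zero' := Prod.ext (mul_zero _) (mul_zero _)
          map_add' := fun v w => Prod.ext (mul_add _ _ _) (mul_add _ _ _) }
  have Fa : ∀ i (v : ZMod q × ZMod q), F (QuaternionGroup.a i) v =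
      (χ i * v.1, χ (-i) * v.2) := fun i v => rfl
  have Fxa : ∀ i (v : ZMod q × ZMod q), F (QuaternionGroup.xa i) v =
      (-χ (-i) * v.2, χ i * v.1) := fun i v => rfl
  have hQ : Nontrivial (QuaternionGroup n) := by
    refine ⟨QuaternionGroup.a n, 1, ?_⟩
    rw [QuaternionGroup.one_def]
    intro h
    exact hn_ne (QuaternionGroup.a.inj h)
  have : Finite (ZMod q × ZMod q) := inferInstance
  obtain ⟨L, hL, hLf, H, hH, ⟨e⟩⟩ := Cfsg.Agent.Lib.Struct.exists_frobenius_of_add F
    (fun v => by
      rw [QuaternionGroup.one_def, Fa, neg_zero, hχ0, one_mul, one_mul])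
    (fun g g' v => by
      rcases g with i | i <;> rcases g' with j | j
      · rw [QuaternionGroup.a_mul_a, Fa, Fa, Fa]
        have e1 : χ (i + j) = χ i * χ j := hχadd i j
        have e2 : χ (-(i + j)) = χ (-i) * χ (-j) := by rw [neg_add, hχadd]
        refine Prod.ext ?_ ?_
        · show χ (i + j) * v.1 = χ i * (χ j * v.1)
          rw [e1]; ring
        · show χ (-(i + j)) * v.2 = χ (-i) * (χ (-j) * v.2)
          rw [e2]; ring
      · rw [QuaternionGroup.a_mul_xa, Fxa, Fa, Fxa]
        have e1 : χ (-(j - i)) = χ i * χ (-j) := by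
          rw [neg_sub, sub_eq_add_neg, hχadd]
        have e2 : χ (j - i) = χ (-i) * χ j := by
          rw [sub_eq_neg_add, hχadd]
        refine Prod.ext ?_ ?_
        · show -χ (-(j - i)) * v.2 = χ i * (-χ (-j) * v.2)
          rw [e1]; ring
        · show χ (j - i) * v.1 = χ (-i) * (χ j * v.1)
          rw [e2]; ring
      · rw [QuaternionGroup.xa_mul_a, Fxa, Fa, Fxa]
        have e1 : χ (i + j) = χ i * χ j := hχadd i j
        have e2 : χ (-(i + j)) = χ (-i) * χ (-j) := by rw [neg_add, hχadd]
        refine Prod.ext ?_ ?_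
        · show -χ (-(i + j)) * v.2 = -χ (-i) * (χ (-j) * v.2)
          rw [e2]; ring
        · show χ (i + j) * v.1 = χ i * (χ j * v.1)
          rw [e1]; ring
      · rw [QuaternionGroup.xa_mul_xa, Fa, Fxa, Fxa]
        have e1 : χ ((n : ZMod (2 * n)) + j - i) = -(χ j * χ (-i)) := by
          rw [sub_eq_add_neg, hχadd, hχadd, hχn]; ring
        have e2 : χ (-((n : ZMod (2 * n)) + j - i)) = -(χ (-j) * χ i) := by
          have : -((n : ZMod (2 * n)) + j - i) = -(n : ZMod (2 * n)) + -j + i := by ring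
          rw [this, hχadd, hχadd, hχnn]; ring
        refine Prod.ext ?_ ?_
        · show χ ((n : ZMod (2 * n)) + j - i) * v.1 = -χ (-i) * (χ j * v.1)
          rw [e1]; ring
        · show χ (-((n : ZMod (2 * n)) + j - i)) * v.2 = χ i * (-χ (-j) * v.2)
          rw [e2]; ring)
    (by
      intro g hg v hv
      have hq2' : (2 : ZMod q) ≠ 0 := by
        intro h
        have : ((2 : ℕ) : ZMod q) = 0 := by exact_mod_cast h
        rw [ZMod.natCast_eq_zero_iff] at this
        have := Nat.le_of_dvd (by norm_num) this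
        omega
      rcases g with i | i
      · rw [Fa] at hv
        have hv1 : χ i * v.1 = v.1 := congrArg Prod.fst hv
        have hv2 : χ (-i) * v.2 = v.2 := congrArg Prod.snd hv
        have hi : i ≠ 0 := by
          rintro rfl
          apply hg
          rw [QuaternionGroup.one_def]
        refine Prod.ext ?_ ?_
        · have : (χ i - 1) * v.1 = 0 := by linear_combination hv1
          rcases mul_eq_zero.mp this with h | h
          · exact absurd (sub_eq_zero.mp h) (hχne _ hi)
          · exact h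
        · have : (χ (-i) - 1) * v.2 = 0 := by linear_combination hv2
          rcases mul_eq_zero.mp this with h | h
          · exact absurd (sub_eq_zero.mp h) (hχne _ (neg_ne_zero.mpr hi))
          · exact h
      · rw [Fxa] at hv
        have hv1 : -χ (-i) * v.2 = v.1 := congrArg Prod.fst hv
        have hv2 : χ i * v.1 = v.2 := congrArg Prod.snd hv
        have h3 : v.2 = - v.2 := by
          calc v.2 = χ i * v.1 := hv2.symm
            _ = χ i * (-χ (-i) * v.2) := by rw [hv1]
            _ = -(χ i * χ (-i)) * v.2 := by ring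
            _ = - v.2 := by rw [hinv]; ring
        have h4 : (2 : ZMod q) * v.2 = 0 := by linear_combination h3
        have h5 : v.2 = 0 := (mul_eq_zero.mp h4).resolve_left hq2'
        have h6 : v.1 = 0 := by rw [← hv1, h5, mul_zero]
        exact Prod.ext h6 h5)
  exact ⟨L, hL, hLf, H, hH, ⟨e.symm⟩⟩

end Cfsg.Agent.S4297
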