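import Cfsg.Statements.S4299
import Cfsg.Agent.Lib.Struct.FrobeniusConstruct

set_option autoImplicit false
open Cfsg

namespace Cfsg.Agent.S4299

/-- Every nontrivial finite cyclic group occurs as a Frobenius complement of some finite Frobenius group. -/
theorem result {C : Type*} [Group C] [Finite C] [IsCyclic C] [Nontrivial C] :
    ∃ (L : Type) (_ : Group L) (_ : Finite L) (H : Subgroup L), Cfsg.IsFrobeniusComplement H ∧ Nonempty (C ≃* H) := by
  classical
  have hn : Nat.card C ≠ 0 := Nat.card_pos.ne'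
  obtain ⟨q, hq, -, hfact, ζ, hζ⟩ := Cfsg.Agent.Lib.Struct.exists_prime_unit_orderOf (Nat.card C) 0 hn
  have hcardU : Nat.card (Subgroup.zpowers ζ) = Nat.card C := by
    rw [Nat.card_zpowers, hζ]
  have hU : Nontrivial (Subgroup.zpowers ζ) := by
    rw [← Finite.one_lt_card_iff_nontrivial, hcardU]
    exact Finite.one_lt_card
  let F : Subgroup.zpowers ζ → (ZMod q →+ ZMod q) :=
    fun u => AddMonoidHom.mulLeft (((u : (ZMod q)ˣ)) : ZMod q)
  obtain ⟨L, hL, hLf, H, hH, ⟨e⟩⟩ := Cfsg.Agent.Lib.Struct.exists_frobenius_of_add F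
    (fun v => by simp [F]) (fun a b v => by simp [F, mul_assoc]) (by
      intro u hu v hv
      have h2 : (((u : (ZMod q)ˣ) : ZMod q) - 1) * v = 0 := by
        have : ((u : (ZMod q)ˣ) : ZMod q) * v = v := hv
        rw [sub_mul, this, one_mul, sub_self]
      rcases mul_eq_zero.mp h2 with h3 | h3
      · exfalso
        apply hu
        ext
        simpa [sub_eq_zero] using h3
      · exact h3)
  exact ⟨L, hL, hLf, H, hH, ⟨(mulEquivOfCyclicCardEq hcardU.symm).trans e⟩⟩

end Cfsg.Agent.S4299
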