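import Cfsg.Statements.S4300
-- import your own Cfsg.Agent.* helpers here

set_option autoImplicit false
open Cfsg

namespace Cfsg.Agent.S4300

/-- Let G act faithfully and primitively on a set X, and suppose the stabilizer of some point is a simple group. Then either G is simple, or G has a normal subgroup, neither trivial nor the whole group, that acts regularly on X (transitively with trivial point stabilizers). -/
theorem result {G : Type*} [Group G] {X : Type*} [MulAction G X] [FaithfulSMul G X]
    (hprim : MulAction.IsPreprimitive G X) (x : X) (hsimple : IsSimpleGroup (MulAction.stabilizer G x)) :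
    IsSimpleGroup G ∨ ∃ N : Subgroup G, N.Normal ∧ N ≠ ⊥ ∧ N ≠ ⊤ ∧
      MulAction.IsPretransitive N X ∧ ∀ y : X, MulAction.stabilizer N y = ⊥ := by
  classical
  by_cases hs : IsSimpleGroup G
  · exact Or.inl hs
  right
  have hnt : Nontrivial G := by
    haveI h1 : Nontrivial (MulAction.stabilizer G x) := hsimple.toNontrivial
    obtain ⟨a, ha⟩ := exists_ne (1 : MulAction.stabilizer G x)
    exact ⟨⟨a, 1, fun h => ha (Subtype.ext h)⟩⟩
  -- a proper nontrivial normal subgroup
  obtain ⟨N, hNn, h1, h2⟩ : ∃ N : Subgroup G, N.Normal ∧ N ≠ ⊥ ∧ N ≠ ⊤ := by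
    by_contra hcon
    push_neg at hcon
    apply hs
    exact ⟨fun N hN => by
      by_cases h : N = ⊥
      · exact Or.inl h
      · exact Or.inr (hcon N hN h)⟩
  refine ⟨N, hNn, h1, h2, ?_⟩
  -- `N` is not trivial on `X`
  have hNnt : MulAction.fixedPoints N X ≠ Set.univ := by
    intro hfix
    apply h1
    rw [eq_bot_iff]
    intro g hg
    have : g = 1 := by
      apply FaithfulSMul.eq_of_smul_eq_smul (α := X)
      intro y
      have h3 : y ∈ MulAction.fixedPoints N X := by rw [hfix]; trivial
      have h4 := h3 ⟨g, hg⟩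
      simpa using h4
    simpa using this
  have hNtr : MulAction.IsPretransitive N X :=
    MulAction.IsQuasiPreprimitive.isPretransitive_of_normal hNnt
  refine ⟨hNtr, ?_⟩
  have hinf : (N.subgroupOf (MulAction.stabilizer G x)).Normal := inferInstance
  rcases hsimple.eq_bot_or_eq_top_of_normal _ hinf with h | h
  · intro y
    obtain ⟨n, hn⟩ := hNtr.exists_smul_eq x y
    rw [eq_bot_iff]
    intro u hu
    have hu' : (u : G) • y = y := hu
    have hn' : (n : G) • x = y := hn
    have h3 : (n : G)⁻¹ * u * n ∈ MulAction.stabilizer G x := by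
      rw [MulAction.mem_stabilizer_iff, mul_smul, mul_smul, hn', hu', ← hn', inv_smul_smul]
    have h4 : (⟨(n : G)⁻¹ * u * n, h3⟩ : MulAction.stabilizer G x) ∈ N.subgroupOf (MulAction.stabilizer G x) := by
      rw [Subgroup.mem_subgroupOf]
      exact N.mul_mem (N.mul_mem (N.inv_mem n.2) u.2) n.2
    rw [h, Subgroup.mem_bot] at h4
    have h5 : (n : G)⁻¹ * u * n = 1 := congrArg Subtype.val h4
    have h6 : (u : G) = 1 := by
      have : (u : G) = n * ((n : G)⁻¹ * u * n) * (n : G)⁻¹ := by group
      rw [this, h5]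
      group
    rw [Subgroup.mem_bot]
    exact Subtype.ext h6
  · exfalso
    apply h2
    rw [eq_top_iff]
    intro g _
    obtain ⟨n, hn⟩ := hNtr.exists_smul_eq x (g • x)
    have hn' : (n : G) • x = g • x := hn
    have h3 : (n : G)⁻¹ * g ∈ MulAction.stabilizer G x := by
      rw [MulAction.mem_stabilizer_iff, mul_smul, ← hn', inv_smul_smul]
    have h4 : (⟨(n : G)⁻¹ * g, h3⟩ : MulAction.stabilizer G x) ∈ N.subgroupOf (MulAction.stabilizer G x) := by
      rw [h]; trivial
    rw [Subgroup.mem_subgroupOf] at h4
    have h5 : (n : G)⁻¹ * g ∈ N := h4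
    have h6 : g = n * ((n : G)⁻¹ * g) := by group
    rw [h6]
    exact N.mul_mem n.2 h5

end Cfsg.Agent.S4300
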