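import Cfsg.Statements.S4301
-- import your own Cfsg.Agent.* helpers here

set_option autoImplicit false
open Cfsg

namespace Cfsg.Agent.S4301

/-- One-point extension of a multiply transitive group. Let X be a set and G a group of permutations of Option X (the set X with one extra point ∗ = none) all of whose elements fix ∗, such that G is k-transitive on the points of X for some k ≥ 2, X having at least k points. Suppose a permutation h of Option X and an element g of G satisfy: h interchanges ∗ with a point x of X and fixes a point y of X; g interchanges x and y; (g h)³ and h² lie in G; and for every f in G fixing x, the product h f h lies in G and fixes x. Then an element of the group generated by G and h fixes ∗ exactly when it lies in G, and that group acts (k+1)-transitively on Option X. -/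
theorem result {X : Type*} (G : Subgroup (Equiv.Perm (Option X))) (hfix : ∀ f ∈ G, f none = none)
    (k : ℕ) (hk : 2 ≤ k) (hkX : Nonempty (Fin k ↪ X))
    (htrans : ∀ a b : Fin k ↪ X, ∃ f ∈ G, ∀ i, f (some (a i)) = some (b i))
    (h g : Equiv.Perm (Option X)) (hg : g ∈ G) (x y : X)
    (h1 : h none = some x) (h2 : h (some x) = none) (h3 : h (some y) = some y)
    (h4 : g (some x) = some y) (h5 : g (some y) = some x)
    (h6 : (g * h) ^ 3 ∈ G) (h7 : h ^ 2 ∈ G)
    (h8 : ∀ f ∈ G, f (some x) = some x → h * f * h ∈ G ∧ (h * f * h) (some x) = some x) :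
    (∀ f ∈ Subgroup.closure ((G : Set (Equiv.Perm (Option X))) ∪ {h}), f none = none ↔ f ∈ G) ∧
      MulAction.IsMultiplyPretransitive (Subgroup.closure ((G : Set (Equiv.Perm (Option X))) ∪ {h})) (Option X) (k + 1) := by
  classical
  set D := Subgroup.closure ((G : Set (Equiv.Perm (Option X))) ∪ {h}) with hD
  have hGD : G ≤ D := by
    intro f hf
    exact Subgroup.subset_closure (Or.inl hf)
  have hhD : h ∈ D := Subgroup.subset_closure (Or.inr rfl)
  obtain ⟨e⟩ := hkX
  let i0 : Fin k := ⟨0, by omega⟩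
  let i1 : Fin k := ⟨1, by omega⟩
  have hi : i0 ≠ i1 := by
    intro hh
    have := congrArg Fin.val hh
    simp [i0, i1] at this
  -- embedding with prescribed first two values
  have hext : ∀ p q : X, p ≠ q → ∃ a : Fin k ↪ X, a i0 = p ∧ a i1 = q := by
    intro p q hpq
    let σ1 := Equiv.swap (e i0) p
    have h1 : σ1 (e i1) ≠ p := by
      intro hh
      have h2 : σ1 (e i0) = p := Equiv.swap_apply_left _ _
      exact hi (e.injective (σ1.injective (h2.trans hh.symm)))
    let σ2 := Equiv.swap (σ1 (e i1)) q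
    refine ⟨e.trans (σ1.trans σ2).toEmbedding, ?_, ?_⟩
    · show σ2 (σ1 (e i0)) = p
      have h2 : σ1 (e i0) = p := Equiv.swap_apply_left _ _
      rw [h2]
      exact Equiv.swap_apply_of_ne_of_ne h1.symm hpq
    · show σ2 (σ1 (e i1)) = q
      exact Equiv.swap_apply_left _ _
  have T2 : ∀ p q p' q' : X, p ≠ q → p' ≠ q' →
      ∃ f ∈ G, f (some p) = some p' ∧ f (some q) = some q' := by
    intro p q p' q' h1 h2
    obtain ⟨a, ha0, ha1⟩ := hext p q h1
    obtain ⟨b, hb0, hb1⟩ := hext p' q' h2
    obtain ⟨f, hf, hfab⟩ := htrans a b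
    refine ⟨f, hf, ?_, ?_⟩
    · rw [← ha0, ← hb0]; exact hfab i0
    · rw [← ha1, ← hb1]; exact hfab i1
  have hother : ∀ z : X, ∃ z' : X, z' ≠ z := by
    intro z
    by_cases h0 : e i0 = z
    · exact ⟨e i1, fun h => hi (e.injective (h0.trans h.symm))⟩
    · exact ⟨e i0, h0⟩
  have T1 : ∀ p p' : X, ∃ f ∈ G, f (some p) = some p' := by
    intro p p'
    obtain ⟨q, hq⟩ := hother p
    obtain ⟨q', hq'⟩ := hother p'
    obtain ⟨f, hf, h1, -⟩ := T2 p q p' q' hq.symm hq'.symm
    exact ⟨f, hf, h1⟩
  have hxy : x ≠ y := by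
    rintro rfl
    rw [h2] at h3
    simp at h3
  -- `h²` and inverse of `h`
  have hw : h ^ 2 ∈ G := h7
  have hinv1 : h⁻¹ = (h ^ 2)⁻¹ * h := by
    rw [pow_two]; group
  have hinv2 : h⁻¹ = h * (h ^ 2)⁻¹ := by
    rw [pow_two]; group
  have hfixg : ∀ f ∈ G, ∀ z : X, ∃ z' : X, f (some z) = some z' := by
    intro f hf z
    cases hz : f (some z) with
    | none =>
      have h5 : f (some z) = f none := by rw [hz, hfix f hf]
      exact absurd (f.injective h5) (by simp)
    | some z' => exact ⟨z', rfl⟩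
  -- double coset decomposition
  have hdc : ∀ f ∈ G, f (some x) ≠ some x →
      ∃ u ∈ G, u (some x) = some x ∧ ∃ v ∈ G, v (some x) = some x ∧ f = u * g * v := by
    intro f hf hfx
    obtain ⟨z, hz⟩ := hfixg f hf x
    have hzx : x ≠ z := by
      rintro rfl
      exact hfx hz
    obtain ⟨u, hu, hu1, hu2⟩ := T2 x y x z hxy hzx
    refine ⟨u, hu, hu1, (u * g)⁻¹ * f, G.mul_mem (G.inv_mem (G.mul_mem hu hg)) hf, ?_, by group⟩
    rw [Equiv.Perm.mul_apply, hz, Equiv.Perm.inv_eq_iff_eq, Equiv.Perm.mul_apply, h4, hu2]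
  have hconjU1 : ∀ u ∈ G, u (some x) = some x → h * u * h⁻¹ ∈ G := by
    intro u hu hux
    have h5 := (h8 u hu hux).1
    have : h * u * h⁻¹ = (h * u * h) * (h ^ 2)⁻¹ := by rw [pow_two]; group
    rw [this]
    exact G.mul_mem h5 (G.inv_mem hw)
  have hconjU2 : ∀ u ∈ G, u (some x) = some x → h⁻¹ * u * h ∈ G := by
    intro u hu hux
    have h5 := (h8 u hu hux).1
    have : h⁻¹ * u * h = (h ^ 2)⁻¹ * (h * u * h) := by rw [pow_two]; group
    rw [this]
    exact G.mul_mem (G.inv_mem hw) h5
  -- the set `G ∪ G h G`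
  let S : Set (Equiv.Perm (Option X)) := {f | f ∈ G ∨ ∃ a ∈ G, ∃ b ∈ G, f = a * h * b}
  have hSh : ∀ f ∈ S, f * h ∈ S := by
    rintro f (hf | ⟨a, ha, b, hb, rfl⟩)
    · exact Or.inr ⟨f, hf, 1, G.one_mem, by simp⟩
    · by_cases hbx : b (some x) = some x
      · left
        have h5 := (h8 b hb hbx).1
        have : a * h * b * h = a * (h * b * h) := by group
        rw [this]
        exact G.mul_mem ha h5
      · right
        obtain ⟨u, hu, hux, v, hv, hvx, rfl⟩ := hdc b hb hbx
        obtain ⟨t, ht⟩ : ∃ t, t = (g * h) ^ 3 := ⟨_, rfl⟩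
        rw [← ht] at h6
        have hgh : h * g * h = g⁻¹ * t * (h ^ 2)⁻¹ * h * g⁻¹ := by
          rw [ht, pow_succ, pow_two, pow_two]
          group
        refine ⟨a * (h * u * h⁻¹) * (g⁻¹ * t * (h ^ 2)⁻¹),
          G.mul_mem (G.mul_mem ha (hconjU1 u hu hux))
            (G.mul_mem (G.mul_mem (G.inv_mem hg) h6) (G.inv_mem hw)),
          g⁻¹ * (h⁻¹ * v * h), G.mul_mem (G.inv_mem hg) (hconjU2 v hv hvx), ?_⟩
        have : a * h * (u * g * v) * h = a * (h * u * h⁻¹) * (h * g * h) * (h⁻¹ * v * h) := by group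
        rw [this, hgh]
        group
  have hSG : ∀ f ∈ S, ∀ c ∈ G, f * c ∈ S := by
    rintro f (hf | ⟨a, ha, b, hb, rfl⟩) c hc
    · exact Or.inl (G.mul_mem hf hc)
    · exact Or.inr ⟨a, ha, b * c, G.mul_mem hb hc, by group⟩
  have hDS : ∀ f ∈ D, f ∈ S := by
    intro f hf
    refine Subgroup.closure_induction_right (p := fun x _ => x ∈ S) (Or.inl G.one_mem) ?_ ?_ hf
    · rintro z - c (hc | hc) hz
      · exact hSG z hz c hc
      · rw [Set.mem_singleton_iff] at hc
        subst hc
        exact hSh z hz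
    · rintro z - c (hc | hc) hz
      · exact hSG z hz _ (G.inv_mem hc)
      · rw [Set.mem_singleton_iff] at hc
        subst hc
        rw [hinv1, ← mul_assoc]
        exact hSh _ (hSG z hz _ (G.inv_mem hw))
  refine ⟨?_, ?_⟩
  · intro f hf
    constructor
    · intro hfn
      rcases hDS f hf with hG | ⟨a, ha, b, hb, rfl⟩
      · exact hG
      · exfalso
        have h5 : (a * h * b) none = a (some x) := by
          simp only [Equiv.Perm.mul_apply]
          rw [hfix b hb, h1]
        rw [h5] at hfn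
        obtain ⟨z', hz'⟩ := hfixg a ha x
        rw [hz'] at hfn
        simp at hfn
    · exact hfix f
  · rw [MulAction.isMultiplyPretransitive_iff]
    -- moving the first point to `none`
    have hmove : ∀ z : Option X, ∃ d ∈ D, d z = none := by
      intro z
      cases z with
      | none => exact ⟨1, D.one_mem, rfl⟩
      | some z =>
        obtain ⟨f, hf, hfz⟩ := T1 z x
        refine ⟨h * f, D.mul_mem hhD (hGD hf), ?_⟩
        rw [Equiv.Perm.mul_apply, hfz, h2]
    have htail : ∀ a : Fin (k + 1) ↪ Option X, ∃ d ∈ D, d (a 0) = none ∧ ∃ a' : Fin k ↪ X,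
        ∀ i, d (a i.succ) = some (a' i) := by
      intro a
      obtain ⟨d, hd, hd0⟩ := hmove (a 0)
      refine ⟨d, hd, hd0, ?_⟩
      have hex : ∀ i : Fin k, ∃ z : X, d (a i.succ) = some z := by
        intro i
        cases hz : d (a i.succ) with
        | none =>
          have h5 : d (a i.succ) = d (a 0) := by rw [hz, hd0]
          have h6 := a.injective (d.injective h5)
          exact absurd h6 (Fin.succ_ne_zero i)
        | some z => exact ⟨z, rfl⟩
      choose a'f ha'f using hex
      refine ⟨⟨a'f, ?_⟩, ha'f⟩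
      intro i j hij
      have h5 : d (a i.succ) = d (a j.succ) := by rw [ha'f, ha'f, hij]
      exact Fin.succ_injective _ (a.injective (d.injective h5))
    intro a b
    obtain ⟨d, hd, hd0, a', ha'⟩ := htail a
    obtain ⟨d', hd', hd0', b', hb'⟩ := htail b
    obtain ⟨f, hf, hfab⟩ := htrans a' b'
    refine ⟨⟨d'⁻¹ * f * d, D.mul_mem (D.mul_mem (D.inv_mem hd') (hGD hf)) hd⟩, ?_⟩
    refine Function.Embedding.ext fun j => ?_
    rw [Function.Embedding.smul_apply, Subgroup.smul_def, Equiv.Perm.smul_def]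
    refine Fin.cases ?_ (fun i => ?_) j
    · simp only [Equiv.Perm.mul_apply]
      rw [hd0, hfix f hf, Equiv.Perm.inv_eq_iff_eq, hd0']
    · simp only [Equiv.Perm.mul_apply]
      rw [ha', hfab, Equiv.Perm.inv_eq_iff_eq, hb']

end Cfsg.Agent.S4301
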