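import Cfsg.Statements.S4309
import Cfsg.Agent.Lib.Struct.Basic

set_option autoImplicit false
open Cfsg

namespace Cfsg.Agent.S4309

/-- Let `π` be a set of primes, `G` a finite group with a Hall `π`-subgroup `H` (every prime divisor of the order of `H` lies in `π` and no prime of `π` divides its index), and `A` a normal subgroup of `G`. Then `H ∩ A` is a Hall `π`-subgroup of `A` and the image of `H` in `G/A` is a Hall `π`-subgroup of `G/A`. -/
theorem result {G : Type*} [Group G] [Finite G] (π : Set ℕ)
    (H A : Subgroup G) [A.Normal] (hH : Cfsg.IsPiHall π H) :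
    Cfsg.IsPiHall π ((H ⊓ A).subgroupOf A) ∧ Cfsg.IsPiHall π (H.map (QuotientGroup.mk' A)) := by
  classical
  obtain ⟨h1, h2⟩ := hH
  constructor
  · constructor
    · intro p hp hd
      apply h1 p hp
      have e : Nat.card ((H ⊓ A).subgroupOf A) = Nat.card (H ⊓ A : Subgroup G) :=
        Nat.card_congr (Subgroup.subgroupOfEquivOfLe inf_le_right).toEquiv
      rw [e] at hd
      exact hd.trans (Subgroup.card_dvd_of_le inf_le_left)
    · intro p hp hpi hd
      apply h2 p hp hpi
      have e : ((H ⊓ A).subgroupOf A).index = H.relIndex A := by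
        change (H ⊓ A).relIndex A = H.relIndex A
        exact Subgroup.inf_relIndex_right H A
      rw [e] at hd
      have h3 : H.relIndex A = H.relIndex (A ⊔ H) := Lib.Struct.relIndex_eq_relIndex_sup A H
      rw [h3] at hd
      have h4 := Subgroup.relIndex_mul_index (H := H) (K := A ⊔ H) le_sup_right
      rw [← h4]
      exact Dvd.dvd.mul_right hd _
  · constructor
    · intro p hp hd
      apply h1 p hp
      have : Nat.card (H.map (QuotientGroup.mk' A)) ∣ Nat.card H := Subgroup.card_map_dvd _ _
      exact hd.trans this
    · intro p hp hpi hd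
      apply h2 p hp hpi
      have h3 : (H.map (QuotientGroup.mk' A)).index = (H ⊔ A).index := by
        rw [← Subgroup.index_comap_of_surjective _ (QuotientGroup.mk'_surjective A),
          Subgroup.comap_map_eq, QuotientGroup.ker_mk']
      rw [h3] at hd
      exact hd.trans (Subgroup.index_dvd_of_le le_sup_left)

end Cfsg.Agent.S4309
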