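import Cfsg.Statements.S4314
import Cfsg.Agent.Lib.Struct.Basic
import Cfsg.Agent.Lib.PGroups.Parts
import Cfsg.Agent.Lib.Basic.Index2
import Cfsg.Agent.Lib.Basic.Frattini
import Mathlib

set_option autoImplicit false
open Cfsg

namespace Cfsg.Agent.S4314


open Subgroup Cfsg.Agent.Lib.Struct Cfsg.Agent.Lib.PGroups

section

variable {G : Type*} [Group G] [Finite G]

local notation "C(" x ")" => Subgroup.centralizer ({x} : Set G)

theorem mem_C_iff {x g : G} : g ∈ C(x) ↔ g * x = x * g := by
  rw [Subgroup.mem_centralizer_singleton_iff]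

theorem comm_mem {x g : G} (h : g ∈ C(x)) : x ∈ C(g) := by
  rw [mem_C_iff] at h ⊢
  exact h.symm

/-- Centralizer of a product of commuting elements of coprime orders. -/
theorem centralizer_mul {a b : G} (hab : a * b = b * a) (hc : (orderOf a).Coprime (orderOf b)) :
    C(a * b) = C(a) ⊓ C(b) := by
  have hcomm : Commute a b := hab
  apply le_antisymm
  · intro g hg
    have hab1 : a * b ∈ C(g) := comm_mem hg
    have h1 : (a * b) ^ orderOf b ∈ C(g) := pow_mem hab1 _
    rw [hcomm.mul_pow, pow_orderOf_eq_one, mul_one] at h1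
    have h2 : (a * b) ^ orderOf a ∈ C(g) := pow_mem hab1 _
    rw [hcomm.mul_pow, pow_orderOf_eq_one, one_mul] at h2
    have h3 : a ∈ C(g) := mem_of_pow_mem_of_coprime _ hc h1
    have h4 : b ∈ C(g) := mem_of_pow_mem_of_coprime _ hc.symm h2
    exact ⟨comm_mem h3, comm_mem h4⟩
  · intro g hg
    obtain ⟨h1, h2⟩ := Subgroup.mem_inf.mp hg
    rw [mem_C_iff] at h1 h2 ⊢
    rw [← mul_assoc, h1, mul_assoc, h2, mul_assoc]

/-- Lemma B. -/
theorem C_eq_of_commute (h : ∀ x : G, (C(x)).index = 1 ∨ ((C(x)).index).Prime) {d t : G}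
    (hdt : d * t = t * d) (hc : (orderOf d).Coprime (orderOf t)) (ht : ((C(t)).index).Prime)
    (hd : C(d) ≠ ⊤) : C(d) = C(t) := by
  have hcen := centralizer_mul hdt hc
  have hle : C(d * t) ≤ C(t) := by
    rw [hcen]
    exact inf_le_right
  have hdvd : (C(t)).index ∣ (C(d * t)).index := Subgroup.index_dvd_of_le hle
  have hne : (C(d * t)).index ≠ 1 := by
    intro h1
    have h2 := Subgroup.index_eq_one.mp h1
    rw [h2] at hle
    have h3 := Subgroup.index_eq_one.mpr (top_le_iff.mp hle)
    rw [h3] at ht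
    exact Nat.not_prime_one ht
  have hpr := (h (d * t)).resolve_left hne
  have heq : (C(t)).index = (C(d * t)).index :=
    (Nat.prime_dvd_prime_iff_eq ht hpr).mp hdvd
  have h4 : (C(d * t)).relIndex (C(t)) = 1 := by
    have h5 := Subgroup.relIndex_mul_index hle
    rw [← heq] at h5
    exact Nat.eq_of_mul_eq_mul_right ht.pos (by rw [h5, one_mul])
  have h6 : C(t) ≤ C(d * t) := Subgroup.relIndex_eq_one.mp h4
  have h7 : C(t) ≤ C(d) := by
    refine h6.trans ?_
    rw [hcen]
    exact inf_le_left
  have hco : IsCoatom (C(t)) := Cfsg.Agent.Lib.Basic.isCoatom_of_index_prime ht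
  rcases h7.lt_or_eq with h8 | h8
  · exact absurd (hco.2 _ h8) hd
  · exact h8.symm

/-- Lemma A: the structure when two elements of coprime orders with coprime class sizes do not
commute. -/
theorem center_quotient (h : ∀ x : G, (C(x)).index = 1 ∨ ((C(x)).index).Prime) {p q : ℕ}
    [Fact p.Prime] (hq : q.Prime) (hpq : p ≠ q) {y w : G}
    (hy : ¬ p ∣ orderOf y) (hw : ∃ k, orderOf w = p ^ k) (hyw : y * w ≠ w * y)
    (hCy : (C(y)).index = p) (hCw : (C(w)).index = q) :
    Nat.card (G ⧸ Subgroup.center G) = p * q ∧ ¬ IsMulCommutative (G ⧸ Subgroup.center G) := by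
  have hp : p.Prime := Fact.out
  have hCy' : ((C(y)).index).Prime := hCy ▸ hp
  have hCw' : ((C(w)).index).Prime := hCw ▸ hq
  obtain ⟨k, hk⟩ := hw
  have hcen : ∀ d : G, d ∈ C(y) → d ∈ C(w) → C(d) = ⊤ := by
    intro d hdy hdw
    obtain ⟨a, b, rfl, hab, ⟨i, hi⟩, hb, ha', hb'⟩ := exists_pPart p d
    have hD : ∀ {K : Subgroup G}, a * b ∈ K → a ∈ K ∧ b ∈ K := by
      intro K hK
      exact ⟨(Subgroup.zpowers_le.mpr hK) ha', (Subgroup.zpowers_le.mpr hK) hb'⟩
    obtain ⟨hay, hby⟩ := hD hdy
    obtain ⟨haw, hbw⟩ := hD hdw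
    -- the part prime to `p` commutes with `w`
    have h1 : C(b) = ⊤ := by
      by_contra hne
      have hcomm : b * w = w * b := mem_C_iff.mp hbw
      have hc : (orderOf b).Coprime (orderOf w) := by
        rw [hk]
        exact Nat.Coprime.pow_right _ ((Nat.Prime.coprime_iff_not_dvd hp).mpr hb).symm
      have h2 := C_eq_of_commute h hcomm hc hCw' hne
      have h3 : y ∈ C(b) := comm_mem hby
      rw [h2, mem_C_iff] at h3
      exact hyw h3
    -- the `p`-part commutes with `y`
    have h4 : C(a) = ⊤ := by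
      by_contra hne
      have hcomm : a * y = y * a := mem_C_iff.mp hay
      have hc : (orderOf a).Coprime (orderOf y) := by
        rw [hi]
        exact Nat.Coprime.pow_left _ ((Nat.Prime.coprime_iff_not_dvd hp).mpr hy)
      have h2 := C_eq_of_commute h hcomm hc hCy' hne
      have h3 : w ∈ C(a) := comm_mem haw
      rw [h2, mem_C_iff] at h3
      exact hyw h3.symm
    rw [eq_top_iff]
    intro g _
    have h5 : g ∈ C(a) := by rw [h4]; trivial
    have h6 : g ∈ C(b) := by rw [h1]; trivial
    rw [mem_C_iff] at h5 h6 ⊢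
    rw [← mul_assoc, h5, mul_assoc, h6, mul_assoc]
  have hZ : Subgroup.center G = C(y) ⊓ C(w) := by
    apply le_antisymm
    · intro z hz
      refine Subgroup.mem_inf.mpr ⟨?_, ?_⟩
      · rw [mem_C_iff]; exact (Subgroup.mem_center_iff.mp hz y).symm
      · rw [mem_C_iff]; exact (Subgroup.mem_center_iff.mp hz w).symm
    · intro d hd
      obtain ⟨h1, h2⟩ := Subgroup.mem_inf.mp hd
      rw [Subgroup.mem_center_iff]
      intro g
      have h3 : g ∈ C(d) := by rw [hcen d h1 h2]; trivial
      exact mem_C_iff.mp h3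
  have hcard : Nat.card (G ⧸ Subgroup.center G) = p * q := by
    rw [← Subgroup.index_eq_card, hZ]
    apply le_antisymm
    · rw [← hCy, ← hCw]
      exact Subgroup.index_inf_le
    · have h1 : p ∣ (C(y) ⊓ C(w)).index := hCy ▸ Subgroup.index_dvd_of_le inf_le_left
      have h2 : q ∣ (C(y) ⊓ C(w)).index := hCw ▸ Subgroup.index_dvd_of_le inf_le_right
      have h3 : Nat.Coprime p q := (Nat.coprime_primes hp hq).mpr hpq
      have h4 := h3.mul_dvd_of_dvd_of_dvd h1 h2
      exact Nat.le_of_dvd (Nat.pos_of_ne_zero (Subgroup.index_ne_zero_of_finite)) h4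
  refine ⟨hcard, fun hc => ?_⟩
  -- a commutative central quotient forces `[y, w]` central
  have h1 : (y : G ⧸ Subgroup.center G) * (w : G ⧸ Subgroup.center G) =
      (w : G ⧸ Subgroup.center G) * (y : G ⧸ Subgroup.center G) := hc.is_comm.comm _ _
  set c : G := y * w * y⁻¹ * w⁻¹ with hcdef
  have hcz : c ∈ Subgroup.center G := by
    rw [← QuotientGroup.eq_one_iff, hcdef]
    simp only [QuotientGroup.mk_mul, QuotientGroup.mk_inv]
    rw [h1]
    group
  have hcc : ∀ g : G, c * g = g * c := fun g => (Subgroup.mem_center_iff.mp hcz g).symm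
  have hconj : y * w * y⁻¹ = c * w := by
    rw [hcdef]; group
  have hypow : ∀ n : ℕ, y ^ n * w * (y ^ n)⁻¹ = c ^ n * w := by
    intro n
    induction n with
    | zero => simp
    | succ n ih =>
      have h2 : y ^ (n + 1) * w * (y ^ (n + 1))⁻¹ = y * (y ^ n * w * (y ^ n)⁻¹) * y⁻¹ := by
        rw [pow_succ']
        group
      rw [h2, ih]
      have h3 : y * (c ^ n * w) * y⁻¹ = c ^ n * (y * w * y⁻¹) := by
        have h4 : y * c ^ n = c ^ n * y := ((Commute.pow_left (hcc y) n)).symm.eq
        rw [← mul_assoc, h4]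
        group
      rw [h3, hconj, ← mul_assoc, pow_succ]
  have h2 : c ^ orderOf y = 1 := by
    have h3 := hypow (orderOf y)
    rw [pow_orderOf_eq_one] at h3
    simp only [one_mul, inv_one, mul_one] at h3
    exact (mul_eq_right.mp h3.symm)
  have h3 : c ^ orderOf w = 1 := by
    have h4 : (c * w) ^ orderOf w = 1 := by
      rw [← hconj, conj_pow, pow_orderOf_eq_one, mul_one, mul_inv_cancel]
    have hcw : Commute c w := hcc w
    rw [hcw.mul_pow, pow_orderOf_eq_one, mul_one] at h4
    exact h4
  have hcop : (orderOf y).Coprime (orderOf w) := by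
    rw [hk]
    exact Nat.Coprime.pow_right _ ((Nat.Prime.coprime_iff_not_dvd hp).mpr hy).symm
  have h4 := pow_gcd_eq_one.mpr ⟨h2, h3⟩
  rw [hcop.gcd_eq_one, pow_one] at h4
  apply hyw
  have h5 : y * w * y⁻¹ * w⁻¹ = 1 := h4
  have h6 : y * w * y⁻¹ = w := mul_inv_eq_one.mp h5
  exact mul_inv_eq_iff_eq_mul.mp h6

/-- Index of a subgroup relative to a supplement. -/
theorem relIndex_eq_index_of_factor {H L : Subgroup G} (hfact : ∀ g : G, ∃ u ∈ H, ∃ l ∈ L, g = u * l) :
    L.relIndex H = L.index := by
  classical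
  rw [Subgroup.relIndex, Subgroup.index_eq_card, Subgroup.index_eq_card]
  refine Nat.card_congr (Equiv.ofBijective
    (Quotient.lift (fun h : H => (((h : H) : G) : G ⧸ L)) ?_) ⟨?_, ?_⟩)
  · intro a b hab
    have h1 : (QuotientGroup.leftRel (L.subgroupOf H)) a b := hab
    rw [QuotientGroup.leftRel_apply, Subgroup.mem_subgroupOf] at h1
    apply QuotientGroup.eq.mpr
    simpa using h1
  · intro a b
    induction a using Quotient.inductionOn
    induction b using Quotient.inductionOn
    rename_i a b
    intro hab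
    have h1 : ((a : G) : G ⧸ L) = ((b : G) : G ⧸ L) := hab
    rw [QuotientGroup.eq] at h1
    apply Quotient.sound
    change (QuotientGroup.leftRel (L.subgroupOf H)) a b
    rw [QuotientGroup.leftRel_apply, Subgroup.mem_subgroupOf]
    simpa using h1
  · intro c
    obtain ⟨g, rfl⟩ := QuotientGroup.mk_surjective c
    obtain ⟨u, hu, l, hl, rfl⟩ := hfact g
    refine ⟨Quotient.mk'' (⟨u, hu⟩ : H), ?_⟩
    change ((u : G) : G ⧸ L) = ((u * l : G) : G ⧸ L)
    rw [QuotientGroup.eq]
    simpa using hl

/-- `(3')`: an element of a prime index subgroup commuting with a `p`-element outside lies in the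
core. -/
theorem exists_zpowers_mul {p : ℕ} [hp : Fact p.Prime] {H : Subgroup G} (hH : H.index = p) {w : G}
    (hw : ∃ k, orderOf w = p ^ k) (hwH : w ∉ H) (g : G) :
    ∃ z ∈ zpowers w, ∃ u ∈ H, g = z * u := by
  classical
  have hpZ : IsPGroup p (zpowers w) := by
    obtain ⟨k, hk⟩ := hw
    rw [IsPGroup.iff_card, Nat.card_zpowers, hk]
    exact ⟨k, rfl⟩
  have hcardα : Nat.card (G ⧸ H) = p := hH
  -- transitivity of `⟨w⟩`
  have htrans : ∀ x : G ⧸ H, x ∈ MulAction.orbit (zpowers w) ((1 : G) : G ⧸ H) := by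
    obtain ⟨n, hn⟩ := hpZ.card_orbit ((1 : G) : G ⧸ H)
    have hn0 : n ≠ 0 := by
      rintro rfl
      rw [pow_zero] at hn
      have hsub : ((⟨w, mem_zpowers w⟩ : zpowers w) • ((1 : G) : G ⧸ H)) = ((1 : G) : G ⧸ H) := by
        have h1 : (⟨w, mem_zpowers w⟩ : zpowers w) • ((1 : G) : G ⧸ H) ∈
            MulAction.orbit (zpowers w) ((1 : G) : G ⧸ H) := MulAction.mem_orbit _ _
        have h2 : ((1 : G) : G ⧸ H) ∈ MulAction.orbit (zpowers w) ((1 : G) : G ⧸ H) :=
          MulAction.mem_orbit_self _
        haveI : Subsingleton (MulAction.orbit (zpowers w) ((1 : G) : G ⧸ H)) :=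
          (Nat.card_eq_one_iff_unique.mp hn).1
        exact congrArg Subtype.val (Subsingleton.elim (⟨_, h1⟩ :
          MulAction.orbit (zpowers w) ((1 : G) : G ⧸ H)) ⟨_, h2⟩)
      have h3 : ((w : G) : G ⧸ H) = ((1 : G) : G ⧸ H) := by
        have h4 : ((⟨w, mem_zpowers w⟩ : zpowers w) • ((1 : G) : G ⧸ H)) = ((w * 1 : G) : G ⧸ H) :=
          rfl
        rw [h4, mul_one] at hsub
        exact hsub
      rw [QuotientGroup.eq] at h3
      apply hwH
      have h5 := H.inv_mem h3
      simpa using h5
    have hle : p ≤ Nat.card (MulAction.orbit (zpowers w) ((1 : G) : G ⧸ H)) := by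
      rw [hn]
      exact Nat.le_self_pow hn0 p
    have hcard2 : Nat.card (MulAction.orbit (zpowers w) ((1 : G) : G ⧸ H)) = Nat.card (G ⧸ H) := by
      apply le_antisymm
      · exact Nat.card_le_card_of_injective Subtype.val Subtype.val_injective
      · rwa [hcardα]
    have huniv : MulAction.orbit (zpowers w) ((1 : G) : G ⧸ H) = Set.univ := by
      have h6 := Nat.card_coe_set_eq (MulAction.orbit (zpowers w) ((1 : G) : G ⧸ H))
      apply Set.eq_of_subset_of_ncard_le (Set.subset_univ _)
      rw [Set.ncard_univ, ← hcard2, h6]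
    intro x
    rw [huniv]
    trivial
  obtain ⟨⟨z, hzm⟩, hzeq⟩ := htrans ((g : G) : G ⧸ H)
  have h1 : ((z * 1 : G) : G ⧸ H) = ((g : G) : G ⧸ H) := hzeq
  rw [mul_one, QuotientGroup.eq] at h1
  exact ⟨z, hzm, z⁻¹ * g, h1, by group⟩

theorem mem_core_of_commute {p : ℕ} [hp : Fact p.Prime] {H : Subgroup G} (hH : H.index = p) {w : G}
    (hw : ∃ k, orderOf w = p ^ k) (hwH : w ∉ H) {h : G} (hh : h ∈ H) (hc : h * w = w * h) :
    h ∈ H.normalCore := by
  have hz : ∀ z ∈ zpowers w, z⁻¹ * h * z = h := by
    intro z hz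
    have h1 : z ∈ Subgroup.centralizer ({h} : Set G) := by
      refine (Subgroup.zpowers_le.mpr ?_) hz
      rw [mem_C_iff]
      exact hc.symm
    rw [mem_C_iff] at h1
    rw [mul_assoc, ← h1]
    group
  intro g
  show g * h * g⁻¹ ∈ H
  obtain ⟨z, hzm, u, hu, he⟩ := exists_zpowers_mul hH hw hwH g⁻¹
  have hg : g = u⁻¹ * z⁻¹ := by
    rw [← mul_inv_rev, ← he, inv_inv]
  rw [hg]
  have h2 : u⁻¹ * z⁻¹ * h * (u⁻¹ * z⁻¹)⁻¹ = u⁻¹ * (z⁻¹ * h * z) * u := by group
  rw [h2, hz z hzm]
  exact H.mul_mem (H.mul_mem (H.inv_mem hu) hh) hu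

end

/-- Let `G` be a finite group every conjugacy class of which has size 1 or a prime. Then either `G` is nilpotent of class at most 2, or `G/Z(G)` is a non-abelian group of order `pq` for distinct primes `p, q` (a Frobenius group of order `pq`). -/
theorem result {G : Type*} [Group G] [Finite G]
    (h : ∀ x : G, (Subgroup.centralizer ({x} : Set G)).index = 1 ∨ ((Subgroup.centralizer ({x} : Set G)).index).Prime) :
    Subgroup.upperCentralSeries G 2 = ⊤ ∨
      ∃ p q : ℕ, p.Prime ∧ q.Prime ∧ p ≠ q ∧ Nat.card (G ⧸ Subgroup.center G) = p * q ∧ ¬ IsMulCommutative (G ⧸ Subgroup.center G) := by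
  classical
  by_cases hnorm : ∀ x : G, (Subgroup.centralizer ({x} : Set G)).Normal
  · left
    have hle : commutator G ≤ Subgroup.center G := by
      intro c hc
      rw [Subgroup.mem_center_iff]
      intro x
      haveI := hnorm x
      have h1 : commutator G ≤ Subgroup.centralizer ({x} : Set G) := by
        rcases h x with h1 | h1
        · rw [Subgroup.index_eq_one.mp h1]
          exact le_top
        · haveI : Fact ((Subgroup.centralizer ({x} : Set G)).index).Prime := ⟨h1⟩
          have h2 : Nat.card (G ⧸ Subgroup.centralizer ({x} : Set G)) =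
              (Subgroup.centralizer ({x} : Set G)).index := rfl
          haveI : IsCyclic (G ⧸ Subgroup.centralizer ({x} : Set G)) := isCyclic_of_prime_card h2
          have h3 : IsMulCommutative (G ⧸ Subgroup.centralizer ({x} : Set G)) := inferInstance
          exact Subgroup.Normal.quotient_commutative_iff_commutator_le.mp h3
      have h4 := h1 hc
      rw [Subgroup.mem_centralizer_singleton_iff] at h4
      exact h4.symm
    rw [eq_top_iff]
    intro x _
    rw [_root_.mem_upperCentralSeries_succ_iff]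
    intro y
    rw [Subgroup.upperCentralSeries_one]
    apply hle
    rw [_root_.commutator_def]
    exact Subgroup.commutator_mem_commutator (mem_top x) (mem_top y)
  · right
    push_neg at hnorm
    obtain ⟨x, hx⟩ := hnorm
    set H := Subgroup.centralizer ({x} : Set G) with hHdef
    have hHp : H.index.Prime := by
      rcases h x with h1 | h1
      · exfalso
        apply hx
        rw [hHdef, Subgroup.index_eq_one.mp h1]
        infer_instance
      · exact h1
    obtain ⟨p, hpdef⟩ : ∃ p, H.index = p := ⟨_, rfl⟩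
    have hp : p.Prime := hpdef ▸ hHp
    haveI : Fact p.Prime := ⟨hp⟩
    -- a `p`-element outside `H`
    obtain ⟨P⟩ : Nonempty (Sylow p G) := Sylow.nonempty
    obtain ⟨w, hwP, hwH⟩ : ∃ w ∈ (P : Subgroup G), w ∉ H := by
      by_contra hcon
      push_neg at hcon
      exact not_dvd_index_of_sylow_le P hcon (hpdef ▸ dvd_refl _)
    have hwo : ∃ k, orderOf w = p ^ k := by
      obtain ⟨a, ha⟩ := IsPGroup.iff_card.mp P.2
      have h1 : orderOf w ∣ p ^ a := by
        rw [← ha]
        exact Subgroup.orderOf_dvd_natCard _ hwP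
      obtain ⟨j, _, hj⟩ := (Nat.dvd_prime_pow hp).mp h1
      exact ⟨j, hj⟩
    -- an element of `H` outside the core of order prime to `p`
    obtain ⟨y, hyH, hyN, hyo⟩ : ∃ y ∈ H, y ∉ H.normalCore ∧ ¬ p ∣ orderOf y := by
      by_contra hcon
      push_neg at hcon
      apply hx
      set N := H.normalCore with hN
      let φ := QuotientGroup.mk' N
      have hpH : IsPGroup p (H.map φ) := by
        rintro ⟨z, hz⟩
        obtain ⟨h₀, h0, rfl⟩ := hz
        obtain ⟨a, b, rfl, hab, ⟨i, hi⟩, hb, ha', hb'⟩ := exists_pPart p h₀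
        have hbH : b ∈ H := (Subgroup.zpowers_le.mpr h0) hb'
        have hbN : b ∈ N := by
          by_contra hbN
          exact hb (hcon b hbH hbN)
        refine ⟨i, ?_⟩
        apply Subtype.ext
        change φ (a * b) ^ p ^ i = 1
        have h1 : φ b = 1 := (QuotientGroup.eq_one_iff _).mpr hbN
        rw [map_mul, h1, mul_one, ← map_pow, ← hi, pow_orderOf_eq_one, map_one]
      have hker : φ.ker ≤ H := by
        rw [QuotientGroup.ker_mk']
        exact Subgroup.normalCore_le H
      have hcomap : (H.map φ).comap φ = H := Subgroup.comap_map_eq_self hker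
      have hindex : (H.map φ).index = p := by
        rw [← hpdef, ← Subgroup.index_comap_of_surjective (H.map φ) (QuotientGroup.mk'_surjective N), hcomap]
      have hQ : IsPGroup p (G ⧸ N) := by
        obtain ⟨a, ha⟩ := IsPGroup.iff_card.mp hpH
        rw [IsPGroup.iff_card]
        refine ⟨a + 1, ?_⟩
        have h1 := Subgroup.card_mul_index (H.map φ)
        rw [ha, hindex] at h1
        rw [← h1, pow_succ]
      haveI hnil : Group.IsNilpotent (G ⧸ N) := hQ.isNilpotent
      have hco : IsCoatom (H.map φ) :=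
        Cfsg.Agent.Lib.Basic.isCoatom_of_index_prime (hindex ▸ hp)
      haveI hn := Cfsg.Agent.Lib.Basic.isCoatom_normal_of_isNilpotent hco
      have hn2 := Subgroup.Normal.comap hn φ
      rw [hcomap] at hn2
      exact hn2
    -- the two elements do not commute
    have hyw : y * w ≠ w * y := fun hc => hyN (mem_core_of_commute hpdef hwo hwH hyH hc)
    -- the class size of `y` is `p`
    have hCy : (Subgroup.centralizer ({y} : Set G)).index = p := by
      rcases h y with h1 | h1
      · exfalso
        have h2 := Subgroup.index_eq_one.mp h1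
        have h3 : w ∈ Subgroup.centralizer ({y} : Set G) := by rw [h2]; trivial
        rw [Subgroup.mem_centralizer_singleton_iff] at h3
        exact hyw h3.symm
      · by_contra hne
        have hnd : ¬ p ∣ (Subgroup.centralizer ({y} : Set G)).index := by
          intro hd
          exact hne ((Nat.prime_dvd_prime_iff_eq hp h1).mp hd).symm
        obtain ⟨S⟩ : Nonempty (Sylow p (Subgroup.centralizer ({y} : Set G))) := Sylow.nonempty
        set K := Subgroup.centralizer ({y} : Set G) with hK
        let T : Subgroup G := (S : Subgroup K).map K.subtype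
        have hTK : T ≤ K := Subgroup.map_subtype_le _
        have hTi : ¬ p ∣ T.index := by
          intro hd
          have h3 := Subgroup.relIndex_mul_index hTK
          have h4 : T.relIndex K = (S : Subgroup K).index := by
            have h5 : T.subgroupOf K = (S : Subgroup K) :=
              Subgroup.comap_map_eq_self_of_injective (Subtype.val_injective) _
            rw [Subgroup.relIndex, h5]
          rw [h4] at h3
          rw [← h3] at hd
          rcases (Nat.Prime.dvd_mul hp).mp hd with h5 | h5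
          · exact S.not_dvd_index h5
          · exact hnd h5
        have hTH : ¬ T ≤ H := fun hle => hTi (hpdef ▸ Subgroup.index_dvd_of_le hle)
        obtain ⟨w₁, hw₁T, hw₁H⟩ := SetLike.not_le_iff_exists.mp hTH
        obtain ⟨t, ht, rfl⟩ := hw₁T
        have hto : ∃ k, orderOf ((t : K) : G) = p ^ k := by
          obtain ⟨a, ha⟩ := IsPGroup.iff_card.mp S.2
          have h5 : orderOf t ∣ p ^ a := by
            rw [← ha]
            exact Subgroup.orderOf_dvd_natCard _ ht
          rw [← Subgroup.orderOf_coe] at h5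
          obtain ⟨j, _, hj⟩ := (Nat.dvd_prime_pow hp).mp h5
          exact ⟨j, hj⟩
        have h6 : ((t : K) : G) * y = y * ((t : K) : G) := by
          have h7 : ((t : K) : G) ∈ Subgroup.centralizer ({y} : Set G) := t.2
          rw [Subgroup.mem_centralizer_singleton_iff] at h7
          exact h7
        exact hyN (mem_core_of_commute hpdef hto hw₁H hyH h6.symm)
    -- the class size of `w`
    have hCwne : (Subgroup.centralizer ({w} : Set G)).index ≠ 1 := by
      intro h1
      have h2 := Subgroup.index_eq_one.mp h1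
      have h3 : y ∈ Subgroup.centralizer ({w} : Set G) := by rw [h2]; trivial
      rw [Subgroup.mem_centralizer_singleton_iff] at h3
      exact hyw h3
    have hCw := (h w).resolve_left hCwne
    have hne : p ≠ (Subgroup.centralizer ({w} : Set G)).index := by
      intro hpq
      set L := Subgroup.centralizer ({w} : Set G) with hL
      have hwL : w ∈ L := by
        rw [hL, Subgroup.mem_centralizer_singleton_iff]
      -- `H L = G`
      have hfact : ∀ g : G, ∃ u ∈ H, ∃ l ∈ L, g = u * l := by
        intro g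
        obtain ⟨z, hz, u, hu, he⟩ := exists_zpowers_mul hpdef hwo hwH g⁻¹
        refine ⟨u⁻¹, H.inv_mem hu, z⁻¹, L.inv_mem ((Subgroup.zpowers_le.mpr hwL) hz), ?_⟩
        rw [← mul_inv_rev, ← he, inv_inv]
      have hrel : L.relIndex H = L.index := relIndex_eq_index_of_factor hfact
      have hsub : L ⊓ H ≤ H.normalCore := by
        intro h₀ h₀m
        obtain ⟨h1, h2⟩ := Subgroup.mem_inf.mp h₀m
        refine mem_core_of_commute hpdef hwo hwH h2 ?_
        rw [hL, Subgroup.mem_centralizer_singleton_iff] at h1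
        exact h1
      have hdvd : (H.normalCore).relIndex H ∣ (L ⊓ H).relIndex H :=
        Subgroup.relIndex_dvd_of_le_left H hsub
      rw [Subgroup.inf_relIndex_right, hrel, ← hpq] at hdvd
      rcases (Nat.dvd_prime hp).mp hdvd with h1 | h1
      · have h2 : H ≤ H.normalCore := Subgroup.relIndex_eq_one.mp h1
        exact hyN (h2 hyH)
      · haveI : ((H.normalCore).subgroupOf H).Normal := inferInstance
        haveI : ((H.normalCore).subgroupOf H).FiniteIndex := inferInstance
        have h2 := Subgroup.pow_index_mem ((H.normalCore).subgroupOf H) (⟨y, hyH⟩ : H)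
        have h3 : ((H.normalCore).subgroupOf H).index = p := h1
        rw [h3, Subgroup.mem_subgroupOf] at h2
        have h4 : y ^ p ∈ H.normalCore := by simpa using h2
        exact hyN (mem_of_pow_mem_of_coprime _
          ((Nat.Prime.coprime_iff_not_dvd hp).mpr hyo).symm h4)
    obtain ⟨h5, h6⟩ := center_quotient h (p := p) hCw hne hyo hwo hyw hCy rfl
    exact ⟨p, _, hp, hCw, hne, h5, h6⟩

end Cfsg.Agent.S4314
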