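import Cfsg.Statements.S4321
import Cfsg.Agent.Lib.Char.SingGraph

set_option autoImplicit false
open Cfsg

namespace Cfsg.Agent.S4321

open Subgroup Cfsg.Agent.Lib.Char.TwoLargest Cfsg.Agent.Lib.Char.DiscGraph
  Cfsg.Agent.Lib.Char.ClassGraph Cfsg.Agent.Lib.Char.SingGraph

/-- The `π`-part of a `π`-singular element. -/
theorem exists_part {G : Type*} [Group G] [Finite G] (π : ℕ) [hπ : Fact π.Prime]
    (hZ : ¬ π ∣ Nat.card (center G)) (X : Set ℕ) (x : G) (hx : π ∣ orderOf x)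
    (hX : ∀ t : ℕ, t.Prime → t ∣ cc x → t ∈ X) : ∃ u : G, PE π u ∧ IsIn X u := by
  obtain ⟨u, v, huv, hu, -, hup, hvc, -⟩ :=
    Cfsg.Agent.Lib.LocalEven.exists_p_decomp (p := π) x (isOfFinOrder_of_finite x)
  refine ⟨u, hup, ?_, fun t ht hd => hX t ht (hd.trans (cc_dvd_of_le (cent_le_of_mem_zpowers hu)))⟩
  intro hc
  have hne : u ≠ 1 := by
    rintro rfl
    rw [one_mul] at huv
    rw [huv] at hx
    exact hπ.out.one_lt.ne' (Nat.eq_one_of_dvd_coprimes hvc hx (dvd_refl π))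
  have h1 := PE.dvd_order (π := π) hup hne
  have h2 : orderOf u ∣ Nat.card (center G) := Subgroup.orderOf_dvd_natCard _ hc
  exact hZ (h1.trans h2)

/-- Abstract form. -/
theorem abstract_false {G : Type*} [Group G] [Finite G] (π : ℕ) [hπ : Fact π.Prime]
    (hZ : ¬ π ∣ Nat.card (center G)) (X Y : Set ℕ)
    (hdisj : ∀ t : ℕ, t.Prime → t ∈ X → t ∈ Y → False)
    (hmix : ∀ (g : G) (u v : ℕ), π ∣ orderOf g → u.Prime → v.Prime → u ∈ X → v ∈ Y → u ∣ cc g → v ∣ cc g → False)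
    (a b : G) (ha : PE π a) (hb : PE π b) (haX : IsIn X a) (hbY : IsIn Y b) : False := by
  classical
  obtain ⟨y₀, hy₀, hmax⟩ := Set.exists_max_image {g : G | PE π g ∧ (IsIn X g ∨ IsIn Y g)} cc
    (Set.toFinite _) ⟨a, ha, Or.inl haX⟩
  obtain ⟨hyP, hyX | hyY⟩ := hy₀
  · have D : Sg G Y X π b y₀ :=
      { hπ := hπ.out
        hZ := hZ
        hdisj := fun t ht h1 h2 => hdisj t ht h2 h1
        hmix := fun g u v hg hu hv h1 h2 h3 h4 => hmix g v u hg hv hu h2 h1 h4 h3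
        ha := hb
        hy := hyP
        hax := hbY
        hyY := hyX
        hmax := fun g hg hg2 => hmax g ⟨hg, hg2.symm⟩ }
    exact D.false
  · have D : Sg G X Y π a y₀ :=
      { hπ := hπ.out
        hZ := hZ
        hdisj := hdisj
        hmix := hmix
        ha := ha
        hy := hyP
        hax := haX
        hyY := hyY
        hmax := fun g hg hg2 => hmax g ⟨hg, hg2⟩ }
    exact D.false

/-- Let `G` be a finite group and `p` a prime not dividing the order of the centre of `G`. Consider the primes dividing the size of some conjugacy class of a `p`-singular element (an element of order divisible by `p`), two of them adjacent when their product divides such a class size. Then any two distinct such primes are joined by a path with at most 3 edges (the graph is connected of diameter at most 3). -/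
theorem result {G : Type*} [Group G] [Finite G] (p : ℕ) [Fact p.Prime]
    (hZ : ¬ p ∣ Nat.card ↥(Subgroup.center G)) (r s : ℕ) (hr : (r.Prime ∧ ∃ x : G, p ∣ orderOf x ∧ r ∣ (Subgroup.centralizer ({x} : Set G)).index)) (hs : (s.Prime ∧ ∃ x : G, p ∣ orderOf x ∧ s ∣ (Subgroup.centralizer ({x} : Set G)).index)) (hrs : r ≠ s) :
    (∃ x : G, p ∣ orderOf x ∧ r * s ∣ (Subgroup.centralizer ({x} : Set G)).index) ∨ (∃ t : ℕ, (t.Prime ∧ ∃ x : G, p ∣ orderOf x ∧ t ∣ (Subgroup.centralizer ({x} : Set G)).index) ∧ t ≠ r ∧ t ≠ s ∧ (∃ x : G, p ∣ orderOf x ∧ r * t ∣ (Subgroup.centralizer ({x} : Set G)).index) ∧ (∃ x : G, p ∣ orderOf x ∧ t * s ∣ (Subgroup.centralizer ({x} : Set G)).index)) ∨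
      (∃ t u : ℕ, (t.Prime ∧ ∃ x : G, p ∣ orderOf x ∧ t ∣ (Subgroup.centralizer ({x} : Set G)).index) ∧ (u.Prime ∧ ∃ x : G, p ∣ orderOf x ∧ u ∣ (Subgroup.centralizer ({x} : Set G)).index) ∧ t ≠ r ∧ u ≠ s ∧ t ≠ u ∧ (∃ x : G, p ∣ orderOf x ∧ r * t ∣ (Subgroup.centralizer ({x} : Set G)).index) ∧ (∃ x : G, p ∣ orderOf x ∧ t * u ∣ (Subgroup.centralizer ({x} : Set G)).index) ∧ (∃ x : G, p ∣ orderOf x ∧ u * s ∣ (Subgroup.centralizer ({x} : Set G)).index)) := by
  classical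
  by_contra hcon
  have h1 : ∀ x : G, p ∣ orderOf x → ¬ r * s ∣ cc x := fun x hx hd => hcon (Or.inl ⟨x, hx, hd⟩)
  have h2 := fun t ht1 ht2 ht3 ht4 ht5 => hcon (Or.inr (Or.inl ⟨t, ht1, ht2, ht3, ht4, ht5⟩))
  have h3 := fun t u ht hu ht1 ht2 ht3 ht4 ht5 ht6 =>
    hcon (Or.inr (Or.inr ⟨t, u, ht, hu, ht1, ht2, ht3, ht4, ht5, ht6⟩))
  obtain ⟨hrp, a₀, ha₀, hra⟩ := hr
  obtain ⟨hsp, b₀, hb₀, hsb⟩ := hs
  let X : Set ℕ := {t | t = r ∨ (t.Prime ∧ ∃ x : G, p ∣ orderOf x ∧ r * t ∣ cc x)}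
  let Y : Set ℕ := {t | t = s ∨ (t.Prime ∧ ∃ x : G, p ∣ orderOf x ∧ t * s ∣ cc x)}
  have hdisj : ∀ t : ℕ, t.Prime → t ∈ X → t ∈ Y → False := by
    intro t ht hX hY
    rcases hX with rfl | ⟨-, hX⟩
    · rcases hY with h | ⟨-, g, hg, hd⟩
      · exact hrs h
      · exact h1 g hg hd
    · rcases hY with rfl | ⟨-, hY⟩
      · obtain ⟨g, hg, hd⟩ := hX
        exact h1 g hg hd
      · by_cases htp : t = r
        · subst htp
          obtain ⟨g, hg, hd⟩ := hY
          exact h1 g hg hd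
        by_cases htq : t = s
        · subst htq
          obtain ⟨g, hg, hd⟩ := hX
          exact h1 g hg hd
        obtain ⟨g, hg, hd⟩ := hX
        exact h2 t ⟨ht, g, hg, (Dvd.intro_left r rfl).trans hd⟩ htp htq ⟨g, hg, hd⟩ hY
  have hmix : ∀ (g : G) (u v : ℕ), p ∣ orderOf g → u.Prime → v.Prime → u ∈ X → v ∈ Y → u ∣ cc g →
      v ∣ cc g → False := by
    intro g u v hg hu hv huX hvY hug hvg
    have huv : u ≠ v := fun h => hdisj u hu huX (h ▸ hvY)
    have hd : u * v ∣ cc g := ((Nat.coprime_primes hu hv).mpr huv).mul_dvd_of_dvd_of_dvd hug hvg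
    by_cases hap : u = r
    · subst hap
      by_cases hbq : v = s
      · subst hbq
        exact h1 g hg hd
      · rcases hvY with h | ⟨-, hvY⟩
        · exact hbq h
        · exact h2 v ⟨hv, g, hg, hvg⟩ (Ne.symm huv) hbq ⟨g, hg, hd⟩ hvY
    · rcases huX with h | ⟨-, huX⟩
      · exact hap h
      · by_cases hbq : v = s
        · subst hbq
          exact h2 u ⟨hu, g, hg, hug⟩ hap huv huX ⟨g, hg, hd⟩
        · rcases hvY with h | ⟨-, hvY⟩
          · exact hbq h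
          · exact h3 u v ⟨hu, g, hg, hug⟩ ⟨hv, g, hg, hvg⟩ hap hbq huv huX ⟨g, hg, hd⟩ hvY
  have hXa : ∀ t : ℕ, t.Prime → t ∣ cc a₀ → t ∈ X := by
    intro t ht hd
    by_cases htr : t = r
    · exact Or.inl htr
    · exact Or.inr ⟨ht, a₀, ha₀, ((Nat.coprime_primes hrp ht).mpr (Ne.symm htr)).mul_dvd_of_dvd_of_dvd hra hd⟩
  have hYb : ∀ t : ℕ, t.Prime → t ∣ cc b₀ → t ∈ Y := by
    intro t ht hd
    by_cases hts : t = s
    · exact Or.inl hts
    · exact Or.inr ⟨ht, b₀, hb₀, ((Nat.coprime_primes ht hsp).mpr hts).mul_dvd_of_dvd_of_dvd hd hsb⟩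
  obtain ⟨a, haP, haX⟩ := exists_part p hZ X a₀ ha₀ hXa
  obtain ⟨b, hbP, hbY⟩ := exists_part p hZ Y b₀ hb₀ hYb
  exact abstract_false p hZ X Y hdisj hmix a b haP hbP haX hbY

end Cfsg.Agent.S4321
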