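import Cfsg.Statements.S4421
import Cfsg.Agent.Lib.Coprime.Conj

set_option autoImplicit false
open Cfsg

namespace Cfsg.Agent.S4421

/-- A factorization of a normalizer from two-step control of fusion. Let `G` be a finite group and `A ≤ S ≤ H` subgroups of `G` such that: (i) `S` controls the `G`-fusion of `A` in the sense that every `G`-conjugate of `A` lying in `S` is an `S`-conjugate of `A`; (ii) `H` controls the `G`-fusion of `S` in the same sense; (iii) every conjugate of `S` by an element of the normalizer of `A` lies in `H`. Then `N_G(A) = N_H(A) · (N_G(S) ∩ N_G(A))`: every element of the normalizer of `A` is a product of an element of `H` normalizing `A` and an element normalizing both `S` and `A`. -/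
theorem result {G : Type*} [Group G] [Finite G] (A S H : Subgroup G)
    (hAS : A ≤ S) (hSH : S ≤ H)
    (h1 : ∀ g : G, A.map (MulAut.conj g).toMonoidHom ≤ S → ∃ s ∈ S, A.map (MulAut.conj g).toMonoidHom = A.map (MulAut.conj s).toMonoidHom)
    (h2 : ∀ g : G, S.map (MulAut.conj g).toMonoidHom ≤ H → ∃ y ∈ H, S.map (MulAut.conj g).toMonoidHom = S.map (MulAut.conj y).toMonoidHom)
    (h3 : ∀ x ∈ Subgroup.normalizer (A : Set G), S.map (MulAut.conj x).toMonoidHom ≤ H) :
    ∀ x ∈ Subgroup.normalizer (A : Set G), ∃ y ∈ H ⊓ Subgroup.normalizer (A : Set G),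
      ∃ z ∈ Subgroup.normalizer (S : Set G) ⊓ Subgroup.normalizer (A : Set G), x = y * z := by
  intro x hx
  have hxA : A.map (MulAut.conj x).toMonoidHom = A := by
    rw [Lib.Coprime.conj_map_eq_iff_mem_normalizer]; exact hx
  obtain ⟨y₁, hy₁, hSy⟩ := h2 x (h3 x hx)
  -- A ≤ S^{y₁}
  have hAle : A ≤ S.map (MulAut.conj y₁).toMonoidHom := by
    rw [← hSy, ← hxA]
    exact Subgroup.map_mono hAS
  have hA2 : A.map (MulAut.conj y₁⁻¹).toMonoidHom ≤ S := by
    rintro _ ⟨a, ha, rfl⟩
    have := hAle ha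
    rw [Lib.Coprime.mem_conj_map] at this
    simpa [MulAut.conj_apply] using this
  obtain ⟨s, hs, hAs⟩ := h1 y₁⁻¹ hA2
  have hnorm : y₁ * s ∈ Subgroup.normalizer (A : Set G) := by
    rw [← Lib.Coprime.conj_map_eq_iff_mem_normalizer]
    rw [← Lib.Coprime.conj_map_conj_map, ← hAs, Lib.Coprime.conj_map_conj_map, mul_inv_cancel,
      Lib.Coprime.conj_map_one]
  have hy₁s : y₁ * s ∈ H := H.mul_mem hy₁ (hSH hs)
  refine ⟨y₁ * s, ⟨hy₁s, hnorm⟩, (y₁ * s)⁻¹ * x, ⟨?_, ?_⟩, by group⟩
  · -- normalizes S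
    have h4 : y₁⁻¹ * x ∈ Subgroup.normalizer (S : Set G) := by
      rw [← Lib.Coprime.conj_map_eq_iff_mem_normalizer]
      rw [← Lib.Coprime.conj_map_conj_map, hSy, Lib.Coprime.conj_map_conj_map, inv_mul_cancel,
        Lib.Coprime.conj_map_one]
    have h5 : s⁻¹ ∈ Subgroup.normalizer (S : Set G) :=
      Subgroup.le_normalizer (S.inv_mem hs)
    have h6 : (y₁ * s)⁻¹ * x = s⁻¹ * (y₁⁻¹ * x) := by group
    rw [h6]
    exact Subgroup.mul_mem _ h5 h4
  · exact Subgroup.mul_mem _ (Subgroup.inv_mem _ hnorm) hx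

end Cfsg.Agent.S4421
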