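import Cfsg.Statements.S4422
-- import your own Cfsg.Agent.* helpers here

set_option autoImplicit false
open Cfsg

namespace Cfsg.Agent.S4422

/-- Primitive divisors of `q^e - 1` are congruent to 1 modulo `e`. Let `q ≥ 2` and `e ≥ 1` be natural numbers and let `m` be a divisor of `q^e - 1` that is coprime to `q^i - 1` for every `1 ≤ i < e` (so `m` divides the primitive part of `q^e - 1`, the largest such divisor). Then `m ≡ 1 (mod e)`. -/
theorem result (q e m : ℕ) (hq : 2 ≤ q) (he : 1 ≤ e)
    (hm : m ∣ q ^ e - 1) (hcop : ∀ i : ℕ, 1 ≤ i → i < e → Nat.Coprime m (q ^ i - 1)) :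
    m % e = 1 % e := by
  classical
  have hqe : 0 < q ^ e - 1 := by
    have : 1 < q ^ e := Nat.one_lt_pow (by omega) (by omega)
    omega
  have hm0 : m ≠ 0 := by
    rintro rfl
    have := Nat.eq_zero_of_zero_dvd hm
    omega
  -- every prime divisor is 1 mod e
  have hprime : ∀ r : ℕ, r.Prime → r ∣ m → r ≡ 1 [MOD e] := by
    intro r hr hrm
    haveI : Fact r.Prime := ⟨hr⟩
    have hre : r ∣ q ^ e - 1 := hrm.trans hm
    -- q is a unit mod r
    have h1 : ((q : ZMod r)) ^ e = 1 := by
      have h2 : ((q ^ e - 1 : ℕ) : ZMod r) = 0 := (ZMod.natCast_eq_zero_iff _ _).mpr hre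
      rw [Nat.cast_sub (Nat.one_le_iff_ne_zero.mpr (by positivity))] at h2
      push_cast at h2
      exact sub_eq_zero.mp h2
    have h0 : (q : ZMod r) ≠ 0 := by
      intro h
      rw [h, zero_pow (by omega)] at h1
      exact zero_ne_one h1
    have hord : orderOf (q : ZMod r) = e := by
      have hd : orderOf (q : ZMod r) ∣ e := orderOf_dvd_of_pow_eq_one h1
      by_contra hne
      have hpos : 0 < orderOf (q : ZMod r) := Nat.pos_of_dvd_of_pos hd (by omega)
      have hlt : orderOf (q : ZMod r) < e := lt_of_le_of_ne (Nat.le_of_dvd (by omega) hd) hne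
      have hc := hcop _ hpos hlt
      have h3 : r ∣ q ^ orderOf (q : ZMod r) - 1 := by
        rw [← ZMod.natCast_eq_zero_iff, Nat.cast_sub (Nat.one_le_iff_ne_zero.mpr (by
          have hq0 : q ≠ 0 := by omega
          positivity))]
        push_cast
        rw [pow_orderOf_eq_one]
        simp
      have h4 : r ∣ Nat.gcd m (q ^ orderOf (q : ZMod r) - 1) := Nat.dvd_gcd hrm h3
      rw [hc] at h4
      exact hr.one_lt.ne' (Nat.dvd_one.mp h4)
    have h5 : e ∣ r - 1 := by
      rw [← hord]
      exact ZMod.orderOf_dvd_card_sub_one h0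
    exact ((Nat.modEq_iff_dvd' hr.one_lt.le).mpr h5).symm
  -- induction on the factorisation
  have key : ∀ n : ℕ, n ≠ 0 → (∀ r : ℕ, r.Prime → r ∣ n → r ≡ 1 [MOD e]) → n ≡ 1 [MOD e] := by
    intro n
    induction n using Nat.recOnMul with
    | zero => intro h; exact absurd rfl h
    | one => intro _ _; exact Nat.ModEq.refl _
    | prime p hp =>
      intro _ h
      exact h p hp (dvd_refl _)
    | mul a b ha hb =>
      intro hab h
      have ha0 : a ≠ 0 := left_ne_zero_of_mul hab
      have hb0 : b ≠ 0 := right_ne_zero_of_mul hab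
      have h1 := ha ha0 (fun r hr hd => h r hr (Dvd.dvd.mul_right hd b))
      have h2 := hb hb0 (fun r hr hd => h r hr (Dvd.dvd.mul_left hd a))
      simpa using h1.mul h2
  exact key m hm0 hprime

end Cfsg.Agent.S4422
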