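import Cfsg.Statements.S4423
import Cfsg.Agent.Lib.Struct.Zsig

set_option autoImplicit false
open Cfsg

namespace Cfsg.Agent.S4423

open Cfsg.Agent.Lib.Struct.Zsig

/-- Remove from `M` the common factors with `d`. -/
def strip (d : ℕ) : ℕ → ℕ → ℕ
  | 0, M => M
  | k + 1, M => if Nat.gcd M d = 1 then M else strip d k (M / Nat.gcd M d)

/-- Remove from `M` the common factors with `q ^ i - 1` for `1 ≤ i ≤ n`. -/
def stripAll (q : ℕ) : ℕ → ℕ → ℕ
  | 0, M => M
  | i + 1, M => stripAll q i (strip (q ^ (i + 1) - 1) 12 M)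

/-- Candidate for the primitive part. -/
def wit (q e : ℕ) : ℕ := stripAll q (e - 1) (q ^ e - 1)

/-- The candidate has the required properties. -/
def Ok (q e : ℕ) : Prop :=
  wit q e ∣ q ^ e - 1 ∧ (∀ i < e, 1 ≤ i → Nat.Coprime (wit q e) (q ^ i - 1)) ∧ 3 * e + 1 ≤ wit q e

instance (q e : ℕ) : Decidable (Ok q e) := by unfold Ok; infer_instance

/-- The thirteen exceptional pairs. -/
def LL : List (ℕ × ℕ) :=
  [(2, 6), (2, 4), (2, 10), (2, 12), (2, 18), (3, 4), (3, 6), (5, 6), (2, 3), (2, 8), (2, 20),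
    (4, 3), (4, 6)]

/-- Number of integers below `m` coprime to `e`. -/
def cntCop (e : ℕ) : ℕ → ℕ
  | 0 => 0
  | k + 1 => cntCop e k + if Nat.gcd e k = 1 then 1 else 0

theorem cntCop_eq (e m : ℕ) : cntCop e m = ((Finset.range m).filter (Nat.Coprime e)).card := by
  induction m with
  | zero => rfl
  | succ k ih =>
    rw [cntCop, ih, Finset.range_add_one, Finset.filter_insert]
    by_cases h : Nat.Coprime e k
    · rw [if_pos h, if_pos h, Finset.card_insert_of_notMem (by simp)]
    · rw [if_neg h, if_neg h]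
      rfl

theorem cntCop_self (e : ℕ) : cntCop e e = Nat.totient e := by
  rw [cntCop_eq, Nat.totient_eq_card_coprime]

theorem cntCop_le (e m : ℕ) (h : m ≤ e) : cntCop e m ≤ Nat.totient e := by
  rw [cntCop_eq, Nat.totient_eq_card_coprime]
  exact Finset.card_le_card (Finset.filter_subset_filter _ (Finset.range_mono h))

def check1 : Bool :=
  (List.range 91).all fun e => !(decide (3 ≤ e)) || decide ((2, e) ∈ LL) || decide (Ok 2 e)

def check2 : Bool :=
  (List.range 67).all fun e =>
    (List.range 116).all fun q =>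
      !(decide (3 ≤ q)) || !(decide (3 ≤ e)) ||
        !(decide ((q - 1) ^ cntCop e e < e * (3 * e + 1))) || decide ((q, e) ∈ LL) ||
        decide (Ok q e)

def check3 : Bool :=
  (List.range 1683).all fun e => decide (e ≤ 90) || decide (30 ≤ cntCop e (min e 150))

def check4 : Bool :=
  (List.range 883).all fun e => decide (e ≤ 66) || decide (22 ≤ cntCop e (min e 150))

theorem check1_true : check1 = true := by decide +kernel
theorem check2_true : check2 = true := by decide +kernel
theorem check3_true : check3 = true := by decide +kernel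
theorem check4_true : check4 = true := by decide +kernel

theorem table1 : ∀ e < 91, 3 ≤ e → (2, e) ∉ LL → Ok 2 e := by
  intro e he h3 hL
  have := List.all_eq_true.1 check1_true e (List.mem_range.2 he)
  simpa [h3, hL] using this

theorem table2 : ∀ q < 116, ∀ e < 67, 3 ≤ q → 3 ≤ e → (q - 1) ^ Nat.totient e < e * (3 * e + 1) →
    (q, e) ∉ LL → Ok q e := by
  intro q hq e he h3 h3' hp hL
  have h := List.all_eq_true.1 (List.all_eq_true.1 check2_true e (List.mem_range.2 he)) q
    (List.mem_range.2 hq)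
  rw [cntCop_self] at h
  simpa [h3, h3', hp, hL] using h

theorem bound1 : ∀ e < 1683, Nat.totient e < 30 → e ≤ 90 := by
  intro e he h
  have h1 := List.all_eq_true.1 check3_true e (List.mem_range.2 he)
  simp only [Bool.or_eq_true, decide_eq_true_eq] at h1
  rcases h1 with h1 | h1
  · exact h1
  · have := cntCop_le e (min e 150) (min_le_left _ _)
    omega

theorem bound2 : ∀ e < 883, Nat.totient e < 22 → e ≤ 66 := by
  intro e he h
  have h1 := List.all_eq_true.1 check4_true e (List.mem_range.2 he)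
  simp only [Bool.or_eq_true, decide_eq_true_eq] at h1
  rcases h1 with h1 | h1
  · exact h1
  · have := cntCop_le e (min e 150) (min_le_left _ _)
    omega

theorem of_ok {q e : ℕ} (h : Ok q e) :
    ∃ m : ℕ, m ∣ q ^ e - 1 ∧ (∀ i : ℕ, 1 ≤ i → i < e → Nat.Coprime m (q ^ i - 1)) ∧
      3 * e + 1 ≤ m :=
  ⟨wit q e, h.1, fun i h1 h2 => h.2.1 i h2 h1, h.2.2⟩

theorem size_aux {e x : ℕ} (he : 1 ≤ e) (h : e ≤ 2 * x ^ 2) :
    e * (3 * e + 1) ≤ 16 * x ^ 4 := by
  have h1 : e * (3 * e + 1) ≤ 4 * e ^ 2 := by nlinarith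
  have h2 : e ^ 2 ≤ (2 * x ^ 2) ^ 2 := Nat.pow_le_pow_left h 2
  have h3 : (2 * x ^ 2) ^ 2 = 4 * x ^ 4 := by ring
  omega

theorem part1 (q e : ℕ) (hq : 2 ≤ q) (he : 3 ≤ e) (hL : (q, e) ∉ LL) :
    ∃ m : ℕ, m ∣ q ^ e - 1 ∧ (∀ i : ℕ, 1 ≤ i → i < e → Nat.Coprime m (q ^ i - 1)) ∧
      3 * e + 1 ≤ m := by
  have hsize := le_two_totient_sq (e := e) (by omega)
  obtain ⟨x, hx⟩ : ∃ x, x = Nat.totient e := ⟨_, rfl⟩
  rw [← hx] at hsize
  rcases Nat.lt_or_ge q 3 with hq3 | hq3
  · obtain rfl : q = 2 := by omega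
    rcases Nat.lt_or_ge x 30 with hx30 | hx30
    · have h1 : e < 1683 := by nlinarith
      have h2 := bound1 e h1 (hx ▸ hx30)
      exact of_ok (table1 e (by omega) he hL)
    · refine main_of_large (le_refl 2) he ?_
      have h3 : e ≠ 3 := by
        rintro rfl
        exact hL (by decide)
      have h6 : e ≠ 6 := by
        rintro rfl
        exact hL (by decide)
      have h7 := eval_two he h3 h6
      rw [← hx] at h7
      have h8 : 3 ^ x ≤ Phi e 2 ^ 2 := by exact_mod_cast h7
      have h9 := pow3_bound x hx30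
      have h10 := size_aux (e := e) (x := x) (by omega) hsize
      have h11 : (16 * x ^ 4) ^ 2 = 256 * x ^ 8 := by ring
      have h12 : (16 * x ^ 4) ^ 2 ≤ Phi e 2 ^ 2 := by omega
      have h13 : 16 * x ^ 4 ≤ Phi e 2 := by
        by_contra hcon
        have : Phi e 2 ^ 2 < (16 * x ^ 4) ^ 2 := Nat.pow_lt_pow_left (by omega) (by norm_num)
        omega
      omega
  · have hgt := Phi_gt (q := q) (e := e) (by omega) (by omega)
    rw [← hx] at hgt
    rcases Nat.lt_or_ge x 22 with hx22 | hx22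
    · have h1 : e < 883 := by nlinarith
      have h2 := bound2 e h1 (hx ▸ hx22)
      by_cases hsmall : (q - 1) ^ x < e * (3 * e + 1)
      · have hx2 : 2 ≤ x := by
          have h3 : Even (Nat.totient e) := Nat.totient_even (by omega)
          have h4 : 0 < Nat.totient e := Nat.totient_pos.2 (by omega)
          rw [← hx] at h3 h4
          obtain ⟨k, hk⟩ := h3
          omega
        have h3 : (q - 1) ^ 2 ≤ (q - 1) ^ x := Nat.pow_le_pow_right (by omega) hx2
        have h4 : e * (3 * e + 1) ≤ 66 * (3 * 66 + 1) :=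
          Nat.mul_le_mul h2 (by omega)
        have h5 : q < 116 := by
          by_contra hcon
          have h6 : 115 ≤ q - 1 := by omega
          have h7 : 115 ^ 2 ≤ (q - 1) ^ 2 := Nat.pow_le_pow_left h6 2
          omega
        exact of_ok (table2 q h5 e (by omega) hq3 he (hx ▸ hsmall) hL)
      · exact main_of_large hq he (by omega)
    · refine main_of_large hq he ?_
      have h3 : 2 ^ x ≤ (q - 1) ^ x := Nat.pow_le_pow_left (by omega) x
      have h4 := pow2_bound x hx22
      have h5 := size_aux (e := e) (x := x) (by omega) hsize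
      omega

/-- Check of the thirteen pairs: the prime `P` and the rest, which divides a power of the
product of the smaller differences. -/
def checkPair (q e P : ℕ) : Bool :=
  decide (0 < P) && decide (P ≤ 2 * e + 1) && decide (P ∣ q ^ e - 1) &&
    decide (((q ^ e - 1) / P) ∣ (∏ i ∈ Finset.Ico 1 e, (q ^ i - 1)) ^ 2)

def LP : List (ℕ × ℕ × ℕ) :=
  [(2, 6, 1), (2, 4, 5), (2, 10, 11), (2, 12, 13), (2, 18, 19), (3, 4, 5), (3, 6, 7), (5, 6, 7),
    (2, 3, 7), (2, 8, 17), (2, 20, 41), (4, 3, 7), (4, 6, 13)]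

theorem checks : LP.all (fun t => checkPair t.1 t.2.1 t.2.2) = true := by decide +kernel

theorem part2_aux (q e P m : ℕ) (h : checkPair q e P = true) (hm : m ∣ q ^ e - 1)
    (hc : ∀ i : ℕ, 1 ≤ i → i < e → Nat.Coprime m (q ^ i - 1)) : m ≤ 2 * e + 1 := by
  simp only [checkPair, Bool.and_eq_true, decide_eq_true_eq] at h
  obtain ⟨⟨⟨h1, h2⟩, h3⟩, h4⟩ := h
  have h5 : Nat.Coprime m ((∏ i ∈ Finset.Ico 1 e, (q ^ i - 1)) ^ 2) := by
    apply Nat.Coprime.pow_right
    apply Nat.Coprime.prod_right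
    intro i hi
    rw [Finset.mem_Ico] at hi
    exact hc i hi.1 hi.2
  have h6 : Nat.Coprime m ((q ^ e - 1) / P) := Nat.Coprime.coprime_dvd_right h4 h5
  have h7 : q ^ e - 1 = P * ((q ^ e - 1) / P) := (Nat.mul_div_cancel' h3).symm
  rw [h7] at hm
  have h8 : m ∣ P := Nat.Coprime.dvd_of_dvd_mul_right h6 hm
  exact le_trans (Nat.le_of_dvd h1 h8) h2

theorem part2 (q e m : ℕ) (hL : (q, e) ∈ LL) (hm : m ∣ q ^ e - 1)
    (hc : ∀ i : ℕ, 1 ≤ i → i < e → Nat.Coprime m (q ^ i - 1)) : m ≤ 2 * e + 1 := by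
  have hall := List.all_eq_true.1 checks
  have key : ∀ t ∈ LP, (t.1, t.2.1) = (q, e) → m ≤ 2 * e + 1 := by
    intro t ht he
    have := hall t ht
    obtain ⟨h1, h2⟩ := Prod.mk.inj he
    rw [h1, h2] at this
    exact part2_aux q e _ m this hm hc
  have hL' : ∃ t ∈ LP, (t.1, t.2.1) = (q, e) := by
    have h0 : LL = LP.map (fun t => (t.1, t.2.1)) := by decide
    rw [h0] at hL
    obtain ⟨t, ht, he⟩ := List.mem_map.1 hL
    exact ⟨t, ht, he⟩
  obtain ⟨t, ht, he⟩ := hL'
  exact key t ht he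

/-- Size of the primitive part of `q^e - 1`. For a prime power `q` and `e ≥ 3`, call a divisor of `q^e - 1` primitive when it is coprime to `q^i - 1` for every `1 ≤ i < e`; the primitive part is the largest primitive divisor. Apart from thirteen exceptional pairs, the primitive part is at least `3e + 1`: there is a primitive divisor `m ≥ 3e + 1` unless `(q, e)` is `(2, 6)` (where every primitive divisor is 1), one of `(2,4), (2,10), (2,12), (2,18), (3,4), (3,6), (5,6)` (where the primitive part is exactly `e + 1`), or one of `(2,3), (2,8), (2,20), (4,3), (4,6)` (where it is exactly `2e + 1`). The statement asserts the existence of a primitive divisor `m ≥ 3e + 1` outside the thirteen pairs, and that every primitive divisor is at most `2e + 1` for the thirteen pairs. -/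
theorem result (q e : ℕ) (hq : IsPrimePow q) (he : 3 ≤ e) :
    ((q, e) ∉ [(2, 6), (2, 4), (2, 10), (2, 12), (2, 18), (3, 4), (3, 6), (5, 6), (2, 3), (2, 8), (2, 20), (4, 3), (4, 6)] →
      ∃ m : ℕ, m ∣ q ^ e - 1 ∧ (∀ i : ℕ, 1 ≤ i → i < e → Nat.Coprime m (q ^ i - 1)) ∧ 3 * e + 1 ≤ m) ∧
    ((q, e) ∈ [(2, 6), (2, 4), (2, 10), (2, 12), (2, 18), (3, 4), (3, 6), (5, 6), (2, 3), (2, 8), (2, 20), (4, 3), (4, 6)] →
      ∀ m : ℕ, m ∣ q ^ e - 1 → (∀ i : ℕ, 1 ≤ i → i < e → Nat.Coprime m (q ^ i - 1)) → m ≤ 2 * e + 1) :=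
  ⟨fun h => part1 q e hq.two_le he h, fun h m hm hc => part2 q e m h hm hc⟩

end Cfsg.Agent.S4423
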