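import Cfsg.Statements.S4425
import Cfsg.Agent.Lib.H8Group.RegBlock
import Cfsg.Agent.Lib.Char.Artin
import Cfsg.Agent.Lib.H8Group.CharVal

set_option autoImplicit false
open Cfsg

namespace Cfsg.Agent.S4425

open Cfsg.Agent.Lib.Char Cfsg.Agent.Lib.H8Group Cfsg.Agent.Lib.Blocks
open scoped ComplexConjugate

/-- Let χ be an irreducible character of the finite group G, p a prime, p^a the p-part of the order of G and p^b the p-part of the degree χ(1). Let χ̃ be the class function equal to p^a · χ on p-regular elements and zero on p-singular elements. Then p^(−b) · χ̃ is a generalized character of G, while p^(−(b+1)) · χ̃ is not. -/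
theorem result {G : Type*} [Group G] [Finite G] (p : ℕ) [Fact p.Prime] (χ : Cfsg.IrrCharacter G) : Cfsg.IsGeneralizedCharacter G (fun x : G => if p ∣ orderOf x then (0 : ℂ) else ((p ^ ((Nat.card G).factorization p - (Cfsg.charDegree (χ : G → ℂ)).factorization p) : ℕ) : ℂ) * (χ : G → ℂ) x) ∧ ¬ Cfsg.IsGeneralizedCharacter G (fun x : G => if p ∣ orderOf x then (0 : ℂ) else ((p ^ (Nat.card G).factorization p : ℕ) : ℂ) / ((p ^ ((Cfsg.charDegree (χ : G → ℂ)).factorization p + 1) : ℕ) : ℂ) * (χ : G → ℂ) x) := by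
  classical
  letI := Fintype.ofFinite G
  have hpp : p.Prime := Fact.out
  set a := (Nat.card G).factorization p with ha
  set b := (charDegree (χ : G → ℂ)).factorization p with hb
  have hdeg0 : charDegree (χ : G → ℂ) ≠ 0 := (charDegree_pos χ.2).ne'
  have hdegdvd := charDegree_dvd_card χ.2
  have hba : b ≤ a := (Nat.factorization_le_iff_dvd hdeg0 Nat.card_pos.ne').mpr hdegdvd p
  have hm : ¬ p ∣ Nat.card G / p ^ a := Nat.not_dvd_ordCompl hpp Nat.card_pos.ne'
  constructor
  · -- the coefficients are divisible by `p ^ b`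
    obtain ⟨c, hc, hs⟩ := IsGeneralizedCharacter.exists_int_coeffs
      (isGeneralizedCharacter_regTrunc (p := p) (IsIrrCharacter.isCharacter χ.2))
    have hdiv : ∀ ψ : IrrCharacter G, ((p ^ b : ℕ) : ℤ) ∣ c ψ := by
      intro ψ
      obtain ⟨n, -, h2, h3⟩ := exists_int_regInner (p := p) ψ χ
      have h4 : c ψ = n := by
        have : (c ψ : ℂ) = n := by rw [← hc ψ, h2]
        exact_mod_cast this
      rw [h4]
      have h5 := spec_regConj_isIntegral (p := p) ψ χ
      rw [h3, apply_one_eq_charDegree (IsIrrCharacter.isCharacter χ.2)] at h5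
      have h6 : IsIntegral ℤ ((((Nat.card G / p ^ a) * n.natAbs : ℕ) : ℂ) / (charDegree (χ : G → ℂ) : ℂ)) := by
        rcases int_div_sign (Nat.card G / p ^ a) n (charDegree (χ : G → ℂ)) with h7 | h7
        · rwa [h7] at h5
        · rw [h7] at h5
          simpa using h5.neg
      have h8 := nat_dvd_of_isIntegral_div hdeg0 h6
      have h9 : p ^ b ∣ (Nat.card G / p ^ a) * n.natAbs := (Nat.ordProj_dvd _ _).trans h8
      have h10 : p ^ b ∣ n.natAbs := by
        refine Nat.Coprime.dvd_of_dvd_mul_left ?_ h9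
        exact Nat.Coprime.pow_left _ ((Nat.Prime.coprime_iff_not_dvd hpp).mpr hm)
      exact Int.natCast_dvd.mpr h10
    choose d hd using hdiv
    have hp0 : ((p ^ b : ℕ) : ℂ) ≠ 0 := by exact_mod_cast pow_ne_zero _ hpp.ne_zero
    have hF : (fun x : G => if p ∣ orderOf x then (0 : ℂ) else ((p ^ (a - b) : ℕ) : ℂ) * (χ : G → ℂ) x) =
        ∑ ψ : IrrCharacter G, (d ψ : ℂ) • (ψ : G → ℂ) := by
      funext x
      have h2 := congrFun hs x
      simp only [Finset.sum_apply, Pi.smul_apply, smul_eq_mul, regTrunc] at h2 ⊢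
      have h3 : ∑ ψ : IrrCharacter G, (c ψ : ℂ) * (ψ : G → ℂ) x =
          ((p ^ b : ℕ) : ℂ) * ∑ ψ : IrrCharacter G, (d ψ : ℂ) * (ψ : G → ℂ) x := by
        rw [Finset.mul_sum]
        refine Finset.sum_congr rfl fun ψ _ => ?_
        rw [hd ψ]
        push_cast
        ring
      rw [h3] at h2
      apply mul_left_cancel₀ hp0
      rw [← h2]
      split_ifs
      · simp
      · rw [← mul_assoc, ← Nat.cast_mul, ← pow_add, Nat.add_sub_cancel' hba]
    rw [hF]
    refine IsGeneralizedCharacter.sum' _ fun ψ _ => ?_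
    have hψc := IsIrrCharacter.isCharacter ψ.2
    obtain ⟨k, hk | hk⟩ := (d ψ).eq_nat_or_neg
    · rw [hk]
      have := IsCharacter.nsmul hψc k
      refine IsGeneralizedCharacter.of_character ?_
      convert this using 1
      funext x
      simp
    · rw [hk]
      have := IsGeneralizedCharacter.neg (IsGeneralizedCharacter.of_character (IsCharacter.nsmul hψc k))
      convert this using 1
      funext x
      simp
  · intro hgen
    let P : Sylow p G := default
    letI : Fintype (P : Subgroup G) := Fintype.ofFinite _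
    set f : G → ℂ := fun x : G => if p ∣ orderOf x then (0 : ℂ) else
      ((p ^ a : ℕ) : ℂ) / ((p ^ (b + 1) : ℕ) : ℂ) * (χ : G → ℂ) x with hf
    have hres : IsGeneralizedCharacter (P : Subgroup G) (fun u : (P : Subgroup G) => f u) := by
      obtain ⟨α, β, hα, hβ, he⟩ := hgen
      refine ⟨_, _, IsCharacter.comp hα (P : Subgroup G).subtype, IsCharacter.comp hβ (P : Subgroup G).subtype, ?_⟩
      funext u
      have := congrFun he (u : G)
      simpa using this
    obtain ⟨n, hn⟩ := IsGeneralizedCharacter.classInner_int hres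
      (IsGeneralizedCharacter.of_character (IsIrrCharacter.isCharacter (isIrrCharacter_one (G := (P : Subgroup G)))))
    have hPcard : Nat.card (P : Subgroup G) = p ^ a := Sylow.card_eq_multiplicity P
    have hP0 : ((p ^ a : ℕ) : ℂ) ≠ 0 := by exact_mod_cast pow_ne_zero _ hpp.ne_zero
    have hp1 : ((p ^ (b + 1) : ℕ) : ℂ) ≠ 0 := by exact_mod_cast pow_ne_zero _ hpp.ne_zero
    have hsum : ∑ u : (P : Subgroup G), f u * conj ((1 : ℂ)) = f 1 := by
      rw [Finset.sum_eq_single 1]
      · simp
      · intro u _ hu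
        have h1 : p ∣ orderOf (u : G) := by
          obtain ⟨k, hk⟩ := IsPGroup.iff_orderOf.mp P.isPGroup' u
          rw [Subgroup.orderOf_coe, hk]
          rcases k with _ | k
          · exfalso
            exact hu (orderOf_eq_one_iff.mp (by simpa using hk))
          · exact dvd_pow_self p (Nat.succ_ne_zero k)
        have h2 : f u = 0 := if_pos h1
        rw [h2, zero_mul]
      · simp
    rw [classInner, hsum, hPcard] at hn
    have hreg1 : ¬ p ∣ orderOf (1 : G) := by
      rw [orderOf_one]
      exact hpp.one_lt.ne' ∘ Nat.dvd_one.mp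
    rw [hf] at hn
    simp only [if_neg hreg1] at hn
    rw [apply_one_eq_charDegree (IsIrrCharacter.isCharacter χ.2)] at hn
    have h2 : (charDegree (χ : G → ℂ) : ℂ) = (n : ℂ) * ((p ^ (b + 1) : ℕ) : ℂ) := by
      field_simp at hn
      rw [hn]
      ring
    have h3 : ((charDegree (χ : G → ℂ) : ℕ) : ℤ) = n * ((p ^ (b + 1) : ℕ) : ℤ) := by
      exact_mod_cast h2
    have h4 : ((p ^ (b + 1) : ℕ) : ℤ) ∣ ((charDegree (χ : G → ℂ) : ℕ) : ℤ) := ⟨n, by rw [h3]; ring⟩
    have h5 : p ^ (b + 1) ∣ charDegree (χ : G → ℂ) := Int.natCast_dvd_natCast.mp h4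
    exact Nat.pow_succ_factorization_not_dvd hdeg0 hpp h5

end Cfsg.Agent.S4425
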