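import Cfsg.Statements.S4426
import Cfsg.Agent.Lib.H8Group.RegBlock

set_option autoImplicit false
open Cfsg

namespace Cfsg.Agent.S4426

open Cfsg.Agent.Lib.Char Cfsg.Agent.Lib.H8Group Cfsg.Agent.Lib.Blocks

/-- Let χ be an irreducible character in the p-block B of the finite group G (relative to a maximal ideal M of the algebraic integers containing p), let p^a be the p-part of the order of G, and let χ̃ be the class function equal to p^a · χ on p-regular elements and zero elsewhere. For ξ ∈ B the inner product [χ̃, ξ] is an integer. The following are equivalent: (a) χ has height zero in B; (b) for some ξ ∈ B the integer [χ̃, ξ] is nonzero and the exact power of p dividing it equals the exact power of p dividing ξ(1); (c) the same holds for every ξ ∈ B. -/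
theorem result {G : Type*} [Group G] [Fintype G] (p : ℕ) [Fact p.Prime] (M : Ideal Cfsg.AlgInt) (hM : Cfsg.IsPModular p M) (B : Set (Cfsg.IrrCharacter G)) (hB : Cfsg.IsPBlock M B) (χ : Cfsg.IrrCharacter G) (hχ : χ ∈ B) : (Cfsg.blockHeight p B (χ : G → ℂ) = 0 ↔ ∃ ξ ∈ B, ∃ n : ℤ, Cfsg.classInner (fun x : G => if p ∣ orderOf x then (0 : ℂ) else ((p ^ (Nat.card G).factorization p : ℕ) : ℂ) * (χ : G → ℂ) x) (ξ : G → ℂ) = (n : ℂ) ∧ n ≠ 0 ∧ padicValInt p n = (Cfsg.charDegree (ξ : G → ℂ)).factorization p) ∧ (Cfsg.blockHeight p B (χ : G → ℂ) = 0 ↔ ∀ ξ ∈ B, ∃ n : ℤ, Cfsg.classInner (fun x : G => if p ∣ orderOf x then (0 : ℂ) else ((p ^ (Nat.card G).factorization p : ℕ) : ℂ) * (χ : G → ℂ) x) (ξ : G → ℂ) = (n : ℂ) ∧ n ≠ 0 ∧ padicValInt p n = (Cfsg.charDegree (ξ : G → ℂ)).factorization p) := by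
  classical
  haveI := isPrime_of_modular hM
  have hpp : p.Prime := Fact.out
  have hm : ¬ p ∣ Nat.card G / p ^ (Nat.card G).factorization p :=
    Nat.not_dvd_ordCompl hpp Nat.card_pos.ne'
  have key : ∀ ξ ∈ B, (¬ MemLocalIdeal M (spec (regConj p (χ : G → ℂ)) ξ) ↔ ∃ n : ℤ,
      classInner (regTrunc p ((p ^ (Nat.card G).factorization p : ℕ) : ℂ) (χ : G → ℂ)) (ξ : G → ℂ) = n ∧ n ≠ 0 ∧
        padicValInt p n = (charDegree (ξ : G → ℂ)).factorization p) := by
    intro ξ hξ
    obtain ⟨n, h1, -, h3⟩ := exists_int_regInner (p := p) χ ξ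
    rw [apply_one_eq_charDegree (IsIrrCharacter.isCharacter ξ.2)] at h3
    constructor
    · intro hu
      have hl := memLocalRing_of_isIntegral (M := M) (spec_regConj_isIntegral (p := p) χ ξ)
      rw [h3] at hl hu
      obtain ⟨hn0, hv⟩ := val_eq_of_int_unit hM hm (charDegree_pos ξ.2).ne' hl hu
      refine ⟨n, h1, hn0, ?_⟩
      rw [padicValInt, ← Nat.factorization_def _ hpp, hv]
    · rintro ⟨n', h4, h5, h6⟩
      have h7 : n = n' := by
        have : (n : ℂ) = n' := by rw [← h1, h4]
        exact_mod_cast this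
      subst h7
      rw [h3]
      refine int_not_memLocalIdeal_of_val_eq hM hm (charDegree_pos ξ.2).ne' h5 ?_
      rw [Nat.factorization_def _ hpp]
      exact h6
  constructor
  · constructor
    · intro h0
      exact ⟨χ, hχ, (key χ hχ).1 (spec_regConj_unit_of_height_zero hM hB hχ h0 hχ)⟩
    · rintro ⟨ξ, hξ, h⟩
      exact height_zero_of_spec_regConj_unit hM hB hχ hξ ((key ξ hξ).2 h)
  · constructor
    · intro h0 ξ hξ
      exact (key ξ hξ).1 (spec_regConj_unit_of_height_zero hM hB hχ h0 hξ)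
    · intro h
      exact height_zero_of_spec_regConj_unit hM hB hχ hχ ((key χ hχ).2 (h χ hχ))

end Cfsg.Agent.S4426
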