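import Cfsg.Statements.S4431
import Cfsg.Agent.Lib.H8Group.RegBlock
import Cfsg.Agent.Lib.Char.Artin

set_option autoImplicit false
open Cfsg

namespace Cfsg.Agent.S4431

open Cfsg.Agent.Lib.Char Cfsg.Agent.Lib.H8Group Cfsg.Agent.Lib.Blocks
open scoped ComplexConjugate

/-- Let H be a subgroup of the finite group G and b a block of H whose induced block B₀ in G is defined (relative to a maximal ideal M of the algebraic integers containing p). Let χ be an irreducible character of G, ψ ∈ b, and let η be the class function on H equal to p^a · χ on the p-regular elements of H and zero elsewhere, p^a being the p-part of the order of H. Then (a) if χ ∉ B₀, the number [η, ψ]/ψ(1) lies in the local ideal at M; (b) if χ ∈ B₀ has height zero, it does not. -/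
theorem result {G : Type*} [Group G] [Fintype G] (p : ℕ) [Fact p.Prime] (M : Ideal Cfsg.AlgInt) (hM : Cfsg.IsPModular p M) (H : Subgroup G) [Fintype H] (b : Set (Cfsg.IrrCharacter H)) (B₀ : Set (Cfsg.IrrCharacter G)) (hind : Cfsg.IsInducedBlock M H b B₀) (χ : Cfsg.IrrCharacter G) (ψ : Cfsg.IrrCharacter H) (hψ : ψ ∈ b) : (χ ∉ B₀ → Cfsg.MemLocalIdeal M (Cfsg.classInner (fun h : H => if p ∣ orderOf h then (0 : ℂ) else ((p ^ (Nat.card H).factorization p : ℕ) : ℂ) * (χ : G → ℂ) h) (ψ : H → ℂ) / (ψ : H → ℂ) 1)) ∧ (χ ∈ B₀ → Cfsg.blockHeight p B₀ (χ : G → ℂ) = 0 → ¬ Cfsg.MemLocalIdeal M (Cfsg.classInner (fun h : H => if p ∣ orderOf h then (0 : ℂ) else ((p ^ (Nat.card H).factorization p : ℕ) : ℂ) * (χ : G → ℂ) h) (ψ : H → ℂ) / (ψ : H → ℂ) 1)) := by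
  classical
  haveI := isPrime_of_modular hM
  have hpp : p.Prime := Fact.out
  -- the integer
  set a := (Nat.card H).factorization p with ha
  let η : H → ℂ := fun h : H => if p ∣ orderOf h then (0 : ℂ) else ((p ^ a : ℕ) : ℂ) * (χ : G → ℂ) h
  have hresχ : IsCharacter H (fun h : H => (χ : G → ℂ) h) :=
    IsCharacter.comp (IsIrrCharacter.isCharacter χ.2) H.subtype
  have hgen : IsGeneralizedCharacter H η := isGeneralizedCharacter_regTrunc (p := p) hresχ
  obtain ⟨n, hn⟩ := IsGeneralizedCharacter.classInner_int hgen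
    (IsGeneralizedCharacter.of_character (IsIrrCharacter.isCharacter ψ.2))
  set c := spec (regConj p (χ : G → ℂ)) with hc
  have hcS : c ∈ zS M G := spec_regConj_mem_zS χ
  have hPm := Nat.ordProj_mul_ordCompl_eq_self (Nat.card H) p
  set P := p ^ a with hP
  set m := Nat.card H / P with hm
  have hmp : ¬ p ∣ m := Nat.not_dvd_ordCompl hpp Nat.card_pos.ne'
  have hm0 : (m : ℂ) ≠ 0 := natCast_ne_zero_of_not_dvd hmp
  have hP0 : (P : ℂ) ≠ 0 := by
    rw [hP]
    exact_mod_cast (pow_ne_zero _ hpp.ne_zero)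
  have hcard : (Nat.card H : ℂ) = (P : ℂ) * (m : ℂ) := by
    rw [← hPm]
    push_cast
    rfl
  have hψ1 := irr_apply_one_ne_zero ψ
  have hrel : resPhi H ψ c = (m : ℂ) * ((n : ℂ) / (ψ : H → ℂ) 1) := by
    rw [resPhi, hc, coef_spec_regConj, spec]
    have h1 : (n : ℂ) = (Nat.card H : ℂ)⁻¹ * (P : ℂ) *
        ∑ h : H, Cfsg.Agent.Lib.Blocks.resFun H (regConj p (χ : G → ℂ)) h * (ψ : H → ℂ) h := by
      have h2 : (n : ℂ) = conj (n : ℂ) := (map_intCast (starRingEnd ℂ) n).symm
      rw [h2, ← hn, classInner, map_mul, map_inv₀, map_natCast, map_sum, mul_assoc]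
      congr 1
      rw [Finset.mul_sum]
      refine Finset.sum_congr rfl fun h _ => ?_
      simp only [η, Cfsg.Agent.Lib.Blocks.resFun, regConj, Subgroup.orderOf_coe, map_mul, Complex.conj_conj]
      split_ifs
      · simp
      · rw [map_mul, Complex.conj_natCast, ← hP]
        ring
    rw [hcard] at h1
    field_simp at h1
    rw [← h1]
    field_simp
  have hS : (n : ℂ) / (ψ : H → ℂ) 1 = (m : ℂ)⁻¹ * resPhi H ψ c := by
    rw [hrel]
    field_simp
  have hinner : classInner (fun h : H => if p ∣ orderOf h then (0 : ℂ) else ((p ^ a : ℕ) : ℂ) * (χ : G → ℂ) h) (ψ : H → ℂ) = n := hn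
  obtain ⟨τ, hτ⟩ := IsPBlock.nonempty hind.2.1
  have hcong := IsInducedBlock.resPhi_congr H hind hψ hτ hcS
  rw [hinner, hS]
  have hminv := inv_natCast_memLocalRing hM hmp
  constructor
  · intro hχ
    have h0 : c τ = 0 := by
      apply spec_regConj_eq_zero hM
      intro hs
      apply hχ
      rw [blockOf_eq_of_mem hind.2.1 hτ]
      exact hs
    rw [h0, sub_zero] at hcong
    exact MemLocalIdeal.mul_left hminv hcong
  · intro hχ h0 hI
    have h1 := spec_regConj_unit_of_height_zero hM hind.2.1 hχ h0 hτ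
    apply h1
    have h2 : MemLocalIdeal M (resPhi H ψ c) := by
      have h3 := MemLocalIdeal.mul_left (MemLocalRing.natCast m) hI
      rw [← mul_assoc, mul_inv_cancel₀ hm0, one_mul] at h3
      exact h3
    have h4 := MemLocalIdeal.sub h2 hcong
    rw [sub_sub_cancel] at h4
    exact h4

end Cfsg.Agent.S4431
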