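import Cfsg.Statements.S4428
import Cfsg.Agent.S4431
import Cfsg.Agent.Lib.H8Group.Sections
import Cfsg.Agent.Lib.Blocks.Second

set_option autoImplicit false
open Cfsg

namespace Cfsg.Agent.S4428

open Cfsg.Agent.Lib.Char Cfsg.Agent.Lib.H8Group Cfsg.Agent.Lib.Blocks
open scoped ComplexConjugate

theorem aux {G : Type*} [Group G] [Fintype G] (p : ℕ) [Fact p.Prime] (M : Ideal Cfsg.AlgInt) (hM : Cfsg.IsPModular p M)
    (B : Set (Cfsg.IrrCharacter G)) (χ : Cfsg.IrrCharacter G) (hχ : χ ∈ B)
    (h0 : Cfsg.blockHeight p B (χ : G → ℂ) = 0) (x : G) {k : ℕ} (hx : orderOf x = p ^ k)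
    (H : Subgroup G) [Fintype H] (hxH : ∀ c : H, Commute x (c : G)) (b : Set (Cfsg.IrrCharacter H))
    (hb : Cfsg.IsInducedBlock M H b B) :
    ∃ y : H, ¬ p ∣ orderOf y ∧ Cfsg.blockPart b (fun c : H => (χ : G → ℂ) (x * (c : G))) y ≠ 0 := by
  classical
  haveI := isPrime_of_modular hM
  have hpp : p.Prime := Fact.out
  by_contra hcon
  push Not at hcon
  obtain ⟨ψ, hψ⟩ := IsPBlock.nonempty hb.1
  have hS := (Cfsg.Agent.S4431.result p M hM H b B hb χ ψ hψ).2 hχ h0
  apply hS
  let θ : H → ℂ := fun c => (χ : G → ℂ) c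
  let ϑ : H → ℂ := fun c => (χ : G → ℂ) (x * (c : G))
  have hθc : IsCharacter H θ := IsCharacter.comp (IsIrrCharacter.isCharacter χ.2) H.subtype
  have hθcl : IsClassFunction H θ := IsCharacter.isClassFunction hθc
  have hϑcl : IsClassFunction H ϑ := by
    intro c t
    simp only [ϑ]
    have h1 : x * ((t * c * t⁻¹ : H) : G) = (t : G) * (x * (c : G)) * (t : G)⁻¹ := by
      have h2 := (hxH t).eq
      push_cast
      calc x * ((t : G) * c * (t : G)⁻¹) = (x * t) * c * (t : G)⁻¹ := by group
        _ = (t * x) * c * (t : G)⁻¹ := by rw [h2]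
        _ = _ := by group
    rw [h1]
    exact irr_isClassFunction χ _ _
  let E : H → ℂ := projOp (indic b) θ
  have hEcl : IsClassFunction H E := projOp_isClassFunction _ hθcl
  have hib := indic_mem_zS (M := M) hb.1
  have hE : ∀ y : H, ¬ p ∣ orderOf y → MemLocalIdeal M (E y) := by
    intro y hy
    have h1 := hcon y hy
    rw [blockPart_eq_projOp b hϑcl] at h1
    have h2 : E y = E y - projOp (indic b) ϑ y := by rw [h1, sub_zero]
    rw [h2]
    simp only [E, projOp, ← Finset.sum_sub_distrib, ← mul_sub]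
    refine MemLocalIdeal.sum _ fun v _ => MemLocalIdeal.mul_left (mem_zS.mp hib v) ?_
    have h3 := character_mul_congr' hM (IsIrrCharacter.isCharacter χ.2) (hxH (v * y)) hx
    exact MemLocalIdeal.symm h3
  let a : H → ℂ := fun y => if p ∣ orderOf y then 0 else E y
  have hacl : IsClassFunction H a := by
    intro g t
    simp only [a, orderOf_conj, hEcl g t]
  have haI : ∀ y, MemLocalIdeal M (a y) := by
    intro y
    by_cases hy : p ∣ orderOf y
    · simp only [a, if_pos hy]
      exact memLocalIdeal_zero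
    · simp only [a, if_neg hy]
      exact hE y hy
  let ψc : Cfsg.IrrCharacter H := ⟨fun g => conj ((ψ : H → ℂ) g), IsIrrCharacter.conj ψ.2⟩
  have hspec := spec_memLocalIdeal (M := M) hacl haI ψc
  -- linear functional
  let L : (H → ℂ) → ℂ := fun f => ∑ y : H, (if p ∣ orderOf y then 0 else f y) * conj ((ψ : H → ℂ) y)
  have hLirr : ∀ ψ' : Cfsg.IrrCharacter H, ψ' ∉ b → L (ψ' : H → ℂ) = 0 := by
    intro ψ' hψ'
    have h1 : ¬ SameBlock M (ψ' : H → ℂ) (ψ : H → ℂ) := by
      intro hs
      apply hψ'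
      rw [blockOf_eq_of_mem hb.1 hψ]
      exact SameBlock.symm' hs
    have h2 := sum_regular_mul_eq_zero hM h1
    have h3 : ({x : H | ¬ p ∣ orderOf x}) = ↑(Finset.univ.filter fun x : H => ¬ p ∣ orderOf x) := by
      ext
      simp
    rw [h3, finsum_mem_coe_finset, Finset.sum_filter] at h2
    rw [← h2]
    refine Finset.sum_congr rfl fun y _ => ?_
    by_cases hy : p ∣ orderOf y <;> simp [hy]
  have hθE : L θ = L E := by
    have h1 : ∀ y, θ y = ∑ ψ' : Cfsg.IrrCharacter H, classInner θ (ψ' : H → ℂ) * (ψ' : H → ℂ) y := by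
      intro y
      have h2 := congrFun (classFunction_eq_sum θ hθcl) y
      rw [Finset.sum_apply] at h2
      simpa using h2
    have h4 : ∀ y, E y = ∑ ψ' : Cfsg.IrrCharacter H, indic b ψ' * (classInner θ (ψ' : H → ℂ) * (ψ' : H → ℂ) y) :=
      fun y => projOp_eq_sum _ hθcl y
    have hL1 : L θ = ∑ ψ' : Cfsg.IrrCharacter H, classInner θ (ψ' : H → ℂ) * L (ψ' : H → ℂ) := by
      simp only [L]
      simp only [Finset.mul_sum]
      rw [Finset.sum_comm]
      refine Finset.sum_congr rfl fun y _ => ?_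
      by_cases hy : p ∣ orderOf y
      · simp [hy]
      · simp only [hy, if_false]
        rw [h1 y, Finset.sum_mul]
        refine Finset.sum_congr rfl fun ψ' _ => ?_
        ring
    have hL2 : L E = ∑ ψ' : Cfsg.IrrCharacter H, indic b ψ' * (classInner θ (ψ' : H → ℂ) * L (ψ' : H → ℂ)) := by
      simp only [L]
      simp only [Finset.mul_sum]
      rw [Finset.sum_comm]
      refine Finset.sum_congr rfl fun y _ => ?_
      by_cases hy : p ∣ orderOf y
      · simp [hy]
      · simp only [hy, if_false]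
        rw [h4 y, Finset.sum_mul]
        refine Finset.sum_congr rfl fun ψ' _ => ?_
        ring
    rw [hL1, hL2]
    refine Finset.sum_congr rfl fun ψ' _ => ?_
    by_cases hψ' : ψ' ∈ b
    · rw [indic_apply_of_mem hψ', one_mul]
    · rw [hLirr ψ' hψ']
      simp
  -- conclude
  have hspec2 : spec a ψc = L E / (ψ : H → ℂ) 1 := by
    rw [spec]
    have h1 : (ψc : H → ℂ) 1 = (ψ : H → ℂ) 1 := by
      show conj ((ψ : H → ℂ) 1) = _
      rw [apply_one_eq_charDegree (IsIrrCharacter.isCharacter ψ.2), Complex.conj_natCast]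
    rw [h1]
  rw [hspec2] at hspec
  set a' := (Nat.card H).factorization p with ha'
  have hPm := Nat.ordProj_mul_ordCompl_eq_self (Nat.card H) p
  set m := Nat.card H / p ^ a' with hm
  have hmp : ¬ p ∣ m := Nat.not_dvd_ordCompl hpp Nat.card_pos.ne'
  have hm0 : (m : ℂ) ≠ 0 := natCast_ne_zero_of_not_dvd hmp
  have hP0 : ((p ^ a' : ℕ) : ℂ) ≠ 0 := by exact_mod_cast (pow_ne_zero _ hpp.ne_zero)
  have hcard : (Nat.card H : ℂ) = ((p ^ a' : ℕ) : ℂ) * (m : ℂ) := by
    rw [← hPm]
    push_cast
    rfl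
  have hfinal : classInner (fun h : H => if p ∣ orderOf h then (0 : ℂ) else ((p ^ a' : ℕ) : ℂ) * (χ : G → ℂ) h) (ψ : H → ℂ) /
      (ψ : H → ℂ) 1 = (m : ℂ)⁻¹ * (L E / (ψ : H → ℂ) 1) := by
    rw [← hθE]
    have h1 : classInner (fun h : H => if p ∣ orderOf h then (0 : ℂ) else ((p ^ a' : ℕ) : ℂ) * (χ : G → ℂ) h) (ψ : H → ℂ) =
        (Nat.card H : ℂ)⁻¹ * ((p ^ a' : ℕ) : ℂ) * L θ := by
      rw [classInner, mul_assoc]
      congr 1
      rw [Finset.mul_sum]
      refine Finset.sum_congr rfl fun y _ => ?_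
      by_cases hy : p ∣ orderOf y
      · simp [hy]
      · simp only [hy, if_false, θ]
        ring
    rw [h1, hcard]
    field_simp
  rw [hfinal]
  exact MemLocalIdeal.mul_left (inv_natCast_memLocalRing hM hmp) hspec

/-- Let χ be an irreducible character of height zero in the p-block B of the finite group G (relative to a maximal ideal M of the algebraic integers containing p). Let x be a p-element of G with centralizer C, and let b be a block of C that induces B. Form the class function ϑ(c) = χ(x c) on C and its b-part (the sum over ψ ∈ b of the inner product of ϑ with ψ, times ψ). Then the b-part of ϑ does not vanish identically on the p-regular elements of C. (Compare the second main Theorem, which gives vanishing when b does not induce B.) -/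
theorem result {G : Type*} [Group G] [Finite G] (p : ℕ) [Fact p.Prime] (M : Ideal Cfsg.AlgInt) (hM : Cfsg.IsPModular p M) (B : Set (Cfsg.IrrCharacter G)) (hB : Cfsg.IsPBlock M B) (χ : Cfsg.IrrCharacter G) (hχ : χ ∈ B) (h0 : Cfsg.blockHeight p B (χ : G → ℂ) = 0) (x : G) (hx : ∃ k : ℕ, orderOf x = p ^ k) (b : Set (Cfsg.IrrCharacter (Subgroup.centralizer ({x} : Set G)))) (hb : Cfsg.IsInducedBlock M (Subgroup.centralizer ({x} : Set G)) b B) : ∃ y : Subgroup.centralizer ({x} : Set G), ¬ p ∣ orderOf y ∧ Cfsg.blockPart b (fun c : Subgroup.centralizer ({x} : Set G) => (χ : G → ℂ) (x * (c : G))) y ≠ 0 := by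
  classical
  letI := Fintype.ofFinite G
  letI : Fintype (Subgroup.centralizer ({x} : Set G)) := Fintype.ofFinite _
  obtain ⟨k, hk⟩ := hx
  exact aux p M hM B χ hχ h0 x hk (Subgroup.centralizer ({x} : Set G)) (fun c => by
    have := Subgroup.mem_centralizer_singleton_iff.mp c.2
    exact this.symm) b hb

end Cfsg.Agent.S4428
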