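import Cfsg.Statements.S4429
import Mathlib
import Cfsg.Agent.Lib.H8Group.M11D

set_option autoImplicit false
open Cfsg

namespace Cfsg.Agent.S4429

open Cfsg.Agent.Lib.Char Cfsg.Agent.Lib.H8Group Cfsg.Agent.Lib.Blocks

open Cfsg.Agent.Lib.BT Cfsg.Agent.Lib.H8Group.M11 Subgroup
open scoped ComplexConjugate

universe u

theorem num1 (v e n : ℕ) (hmod : n % 5 = 1) (hmul : n * (v * e) = 1584) (he : e = 2 ∨ e = 4) (h2 : ¬ 2 ∣ v) (h11 : ¬ 11 ∣ v) :
    v = 1 ∧ e = 4 := by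
  obtain ⟨k, rfl⟩ : ∃ k, n = 1 + 5 * k := ⟨n / 5, by omega⟩
  have hv0 : v ≠ 0 := by
    rintro rfl
    simp at hmul
  have hk : k ≤ 158 := by
    have h3 : (1 + 5 * k) * 2 ≤ (1 + 5 * k) * (v * e) := by
      apply Nat.mul_le_mul_left
      rcases he with rfl | rfl <;> omega
    omega
  rcases he with rfl | rfl <;> interval_cases k <;> omega

/-- The lower bound for a square. -/
def lowB (d : ℕ) : ℕ := if d % 5 = 0 then 0 else if d % 5 = 1 ∨ d % 5 = 4 then 1 else 4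

theorem lowB_le (d : ℕ) (w : ℤ) (h : (5 : ℤ) ∣ (d : ℤ) - w) : (lowB d : ℤ) ≤ w ^ 2 := by
  unfold lowB
  by_cases h0 : d % 5 = 0
  · rw [if_pos h0]
    simp only [Nat.cast_zero]
    positivity
  rw [if_neg h0]
  by_cases h1 : d % 5 = 1 ∨ d % 5 = 4
  · rw [if_pos h1]
    have hw : w ≠ 0 := by
      rintro rfl
      omega
    have : 0 < w ^ 2 := by positivity
    simp only [Nat.cast_one]
    omega
  · rw [if_neg h1]
    have hw : w ≠ 0 ∧ w ≠ 1 ∧ w ≠ -1 := by
      refine ⟨?_, ?_, ?_⟩ <;> rintro rfl <;> omega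
    simp only [Nat.cast_ofNat]
    have h4 : w ≤ -2 ∨ 2 ≤ w := by omega
    rcases h4 with h4 | h4 <;> nlinarith

/-- The count of characters by degree. -/
theorem count_arith (n : ℕ) :
    (if 1 = n then 1 else 0) + ((if 45 = n then 1 else 0) + (3 * (if 10 = n then 1 else 0) + (2 * (if 16 = n then 1 else 0) +
      ((if 11 = n then 1 else 0) + (if 44 = n then 1 else 0) + (if 55 = n then 1 else 0))))) =
    (if n = 1 ∨ n = 11 ∨ n = 44 ∨ n = 45 ∨ n = 55 then 1 else if n = 10 then 3 else if n = 16 then 2 else 0) := by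
  by_cases h1 : n = 1
  · subst h1; norm_num
  by_cases h2 : n = 10
  · subst h2; norm_num
  by_cases h3 : n = 11
  · subst h3; norm_num
  by_cases h4 : n = 16
  · subst h4; norm_num
  by_cases h5 : n = 44
  · subst h5; norm_num
  by_cases h6 : n = 45
  · subst h6; norm_num
  by_cases h7 : n = 55
  · subst h7; norm_num
  have e1 : ¬ 1 = n := fun h => h1 h.symm
  have e2 : ¬ 10 = n := fun h => h2 h.symm
  have e3 : ¬ 11 = n := fun h => h3 h.symm
  have e4 : ¬ 16 = n := fun h => h4 h.symm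
  have e5 : ¬ 44 = n := fun h => h5 h.symm
  have e6 : ¬ 45 = n := fun h => h6 h.symm
  have e7 : ¬ 55 = n := fun h => h7 h.symm
  simp [e1, e2, e3, e4, e5, e6, e7, h1, h2, h3, h4, h5, h6, h7]

section
variable {G : Type u} [Group G] [Fintype G] {P : Sylow 11 G}

theorem sum_bound (s : Finset (IrrCharacter G)) (w : IrrCharacter G → ℤ)
    (hw : ∀ χ : IrrCharacter G, (5 : ℤ) ∣ (charDegree (χ : G → ℂ) : ℤ) - w χ) :
    ((∑ χ ∈ s, lowB (charDegree (χ : G → ℂ)) : ℕ) : ℤ) ≤ ∑ χ ∈ s, (w χ) ^ 2 := by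
  push_cast
  exact Finset.sum_le_sum fun χ _ => lowB_le _ _ (hw χ)

theorem sum_sq_nonneg' (s : Finset (IrrCharacter G)) (w : IrrCharacter G → ℤ) : 0 ≤ ∑ χ ∈ s, (w χ) ^ 2 :=
  Finset.sum_nonneg fun χ _ => by positivity

theorem w_one (w : IrrCharacter G → ℤ) {z : G} (hw : ∀ χ : IrrCharacter G, (χ : G → ℂ) z = w χ) : w (oneIrr G) = 1 := by
  have h1 := hw (oneIrr G)
  have h2 : ((oneIrr G : IrrCharacter G) : G → ℂ) z = 1 := rfl
  rw [h2] at h1
  exact_mod_cast h1.symm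

/-- The case of the second branch does not occur. -/
theorem false_of_branch2 (D : Dat P 5 2) (w : IrrCharacter G → ℤ) {z : G} (hw1 : ∀ χ : IrrCharacter G, (χ : G → ℂ) z = w χ)
    (hw2 : ∀ χ : IrrCharacter G, (5 : ℤ) ∣ (charDegree (χ : G → ℂ) : ℤ) - w χ) (hw3 : ∑ χ, (w χ) ^ 2 = 5)
    (hA : ∀ χ ∈ D.A, charDegree (χ : G → ℂ) = 12) (hAc : D.A.card = 2) : False := by
  have h1 := D.sum_decomp (fun χ => (w χ) ^ 2)
  rw [hw3, w_one w hw1] at h1
  have hAb := sum_bound D.A w hw2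
  rw [Finset.sum_congr rfl (fun χ hχ => by rw [hA χ hχ]), Finset.sum_const, hAc] at hAb
  have h12 : lowB 12 = 4 := by decide
  rw [h12] at hAb
  have hB := sum_sq_nonneg' D.B w
  have hY := sum_sq_nonneg' D.Y w
  have hZ := sum_sq_nonneg' D.Z w
  norm_num at hAb
  omega

/-- The counts. -/
theorem final_count (hG : Nat.card G = 7920) (h : SC P 5 13 2) (D : Dat P 5 2) (w : IrrCharacter G → ℤ) {z : G} (hw1 : ∀ χ : IrrCharacter G, (χ : G → ℂ) z = w χ)
    (hw2 : ∀ χ : IrrCharacter G, (5 : ℤ) ∣ (charDegree (χ : G → ℂ) : ℤ) - w χ) (hw3 : ∑ χ, (w χ) ^ 2 = 5)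
    (hA : ∀ χ ∈ D.A, charDegree (χ : G → ℂ) = 45) (hAc : D.A.card = 1)
    (hB : ∀ χ ∈ D.B, charDegree (χ : G → ℂ) = 10) (hBc : D.B.card = 3)
    (hY : ∀ χ ∈ D.Y, charDegree (χ : G → ℂ) = 16) :
    Nat.card (IrrCharacter G) = 10 ∧ ∀ n : ℕ, Nat.card {χ : IrrCharacter G // charDegree (χ : G → ℂ) = n} =
      (if n = 1 ∨ n = 11 ∨ n = 44 ∨ n = 45 ∨ n = 55 then 1 else if n = 10 then 3 else if n = 16 then 2 else 0) := by
  classical
  letI : Fintype (P : Subgroup G) := Fintype.ofFinite _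
  have hYc : D.Y.card = 2 := D.card_Y
  -- the squares on `Z`
  have hsq := sum_sq_decomp hG D
  rw [Finset.sum_congr (s₂ := D.A) rfl (fun χ hχ => by rw [hA χ hχ]),
    Finset.sum_congr (s₂ := D.B) rfl (fun χ hχ => by rw [hB χ hχ]),
    Finset.sum_congr (s₂ := D.Y) rfl (fun χ hχ => by rw [hY χ hχ])] at hsq
  simp only [Finset.sum_const, hAc, hBc, hYc, smul_eq_mul] at hsq
  have hZsq : ∑ χ ∈ D.Z, charDegree (χ : G → ℂ) ^ 2 = 5082 := by omega
  -- the degrees on `Z`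
  have hZV : ∀ χ ∈ D.Z, charDegree (χ : G → ℂ) ∈ ({11, 22, 33, 44, 55, 66} : Finset ℕ) := by
    intro χ hχ
    have h1 := h.Z_T D hχ
    have h2 : charDegree (χ : G → ℂ) ^ 2 ≤ 5082 := by
      rw [← hZsq]
      exact Finset.single_le_sum (f := fun χ : IrrCharacter G => charDegree (χ : G → ℂ) ^ 2) (fun _ _ => Nat.zero_le _) hχ
    have h3 : charDegree (χ : G → ℂ) ≠ 0 := h.deg_ne_zero χ
    generalize charDegree (χ : G → ℂ) = d at *
    generalize T (P : Subgroup G) χ = T' at *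
    have h4 : d ≤ 71 := by nlinarith
    push_cast at h1
    have h5 : d = 11 ∨ d = 22 ∨ d = 33 ∨ d = 44 ∨ d = 55 ∨ d = 66 := by omega
    simpa using h5
  have hZs := sum_fiber D.Z (fun χ => charDegree (χ : G → ℂ)) _ hZV
  obtain ⟨c₁, hc₁⟩ : ∃ c, (D.Z.filter (fun χ : IrrCharacter G => charDegree (χ : G → ℂ) = 11)).card = c := ⟨_, rfl⟩
  obtain ⟨c₂, hc₂⟩ : ∃ c, (D.Z.filter (fun χ : IrrCharacter G => charDegree (χ : G → ℂ) = 22)).card = c := ⟨_, rfl⟩
  obtain ⟨c₃, hc₃⟩ : ∃ c, (D.Z.filter (fun χ : IrrCharacter G => charDegree (χ : G → ℂ) = 33)).card = c := ⟨_, rfl⟩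
  obtain ⟨c₄, hc₄⟩ : ∃ c, (D.Z.filter (fun χ : IrrCharacter G => charDegree (χ : G → ℂ) = 44)).card = c := ⟨_, rfl⟩
  obtain ⟨c₅, hc₅⟩ : ∃ c, (D.Z.filter (fun χ : IrrCharacter G => charDegree (χ : G → ℂ) = 55)).card = c := ⟨_, rfl⟩
  obtain ⟨c₆, hc₆⟩ : ∃ c, (D.Z.filter (fun χ : IrrCharacter G => charDegree (χ : G → ℂ) = 66)).card = c := ⟨_, rfl⟩
  have hZs' : ∀ f : ℕ → ℕ, ∑ χ ∈ D.Z, f (charDegree (χ : G → ℂ)) =
      c₁ * f 11 + (c₂ * f 22 + (c₃ * f 33 + (c₄ * f 44 + (c₅ * f 55 + c₆ * f 66)))) := by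
    intro f
    rw [hZs f, Finset.sum_insert (by decide), Finset.sum_insert (by decide), Finset.sum_insert (by decide),
      Finset.sum_insert (by decide), Finset.sum_insert (by decide), Finset.sum_singleton, hc₁, hc₂, hc₃, hc₄, hc₅, hc₆]
  -- the bound
  have hbd : (∑ χ ∈ D.Z, lowB (charDegree (χ : G → ℂ))) ≤ 2 := by
    have h1 := D.sum_decomp (fun χ => (w χ) ^ 2)
    rw [hw3, w_one w hw1] at h1
    have hYb := sum_bound D.Y w hw2
    rw [Finset.sum_congr rfl (fun χ hχ => by rw [hY χ hχ]), Finset.sum_const, hYc] at hYb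
    have h16 : lowB 16 = 1 := by decide
    rw [h16] at hYb
    have hZb := sum_bound D.Z w hw2
    have hA0 := sum_sq_nonneg' D.A w
    have hB0 := sum_sq_nonneg' D.B w
    norm_num at hYb
    omega
  rw [hZs' lowB] at hbd
  rw [hZs' (fun n => n ^ 2)] at hZsq
  have e11 : lowB 11 = 1 := by decide
  have e22 : lowB 22 = 4 := by decide
  have e33 : lowB 33 = 4 := by decide
  have e44 : lowB 44 = 1 := by decide
  have e55 : lowB 55 = 0 := by decide
  have e66 : lowB 66 = 1 := by decide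
  rw [e11, e22, e33, e44, e55, e66] at hbd
  norm_num at hZsq
  have hval : c₁ = 1 ∧ c₂ = 0 ∧ c₃ = 0 ∧ c₄ = 1 ∧ c₅ = 1 ∧ c₆ = 0 := by
    have b1 : c₁ ≤ 2 := by omega
    have b2 : c₄ ≤ 2 := by omega
    have b3 : c₆ ≤ 2 := by omega
    have b4 : c₂ = 0 := by omega
    have b5 : c₃ = 0 := by omega
    have b6 : c₅ ≤ 1 := by omega
    subst b4
    subst b5
    interval_cases c₁ <;> interval_cases c₄ <;> interval_cases c₆ <;> interval_cases c₅ <;> omega
  obtain ⟨rfl, rfl, rfl, rfl, rfl, rfl⟩ := hval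
  constructor
  · rw [Nat.card_eq_fintype_card]
    have h1 := D.sum_decomp (fun _ => (1 : ℕ))
    have h2 := hZs' (fun _ => 1)
    simp only [Finset.sum_const, smul_eq_mul, mul_one, hAc, hBc, hYc, Finset.card_univ] at h1 h2
    rw [h1, h2]
    simp
  · intro n
    rw [← count_arith n, Nat.card_eq_fintype_card, Fintype.card_subtype, Finset.card_filter]
    have h1 := D.sum_decomp (fun χ : IrrCharacter G => if charDegree (χ : G → ℂ) = n then 1 else 0)
    rw [h1, deg_oneIrr, Finset.sum_congr (s₂ := D.A) rfl (fun χ hχ => by rw [hA χ hχ]),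
      Finset.sum_congr (s₂ := D.B) rfl (fun χ hχ => by rw [hB χ hχ]),
      Finset.sum_congr (s₂ := D.Y) rfl (fun χ hχ => by rw [hY χ hχ]),
      hZs' (fun k => if k = n then 1 else 0)]
    simp only [Finset.sum_const, hAc, hBc, hYc, smul_eq_mul]
    ring

end

/-- Let G be a simple group of order 7920. Then G has exactly ten irreducible complex characters, and their degrees, listed with multiplicity, are 1, 10, 10, 10, 11, 16, 16, 44, 45, 55: for every natural number n, the number of irreducible characters of degree n is 1 if n ∈ {1, 11, 44, 45, 55}, 3 if n = 10, 2 if n = 16, and 0 otherwise. -/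
theorem result {G : Type*} [Group G] [Finite G] [IsSimpleGroup G] (hG : Nat.card G = 7920) : Nat.card (Cfsg.IrrCharacter G) = 10 ∧ ∀ n : ℕ, Nat.card {χ : Cfsg.IrrCharacter G // Cfsg.charDegree (χ : G → ℂ) = n} = (if n = 1 ∨ n = 11 ∨ n = 44 ∨ n = 45 ∨ n = 55 then 1 else if n = 10 then 3 else if n = 16 then 2 else 0) := by
  classical
  letI : Fintype G := Fintype.ofFinite G
  obtain ⟨P, h⟩ := exists_SC_M11 hG
  obtain ⟨D⟩ := h.exists_dat
  obtain ⟨hε, hB, hbr⟩ := branches h hG D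
  have hperf := h.perfect
  let Q : Sylow 5 G := default
  have hQ := card_sylow5 hG Q
  obtain ⟨v, e, n, hv, he, hmod, hmul, he2⟩ := numerics5 hG hperf Q
  have hne : (Q : Subgroup G) ≠ ⊥ := by
    intro h0
    rw [h0] at hQ
    simp at hQ
  obtain ⟨⟨z, hzQ⟩, hz1⟩ := Subgroup.ne_bot_iff_exists_ne_one.mp hne
  have hz1' : z ≠ 1 := fun e0 => hz1 (Subtype.ext e0)
  have hoz : orderOf z = 5 := by
    have h1 : orderOf (⟨z, hzQ⟩ : (Q : Subgroup G)) ∣ 5 := by
      have := orderOf_dvd_natCard (⟨z, hzQ⟩ : (Q : Subgroup G))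
      rwa [hQ] at this
    rw [Subgroup.orderOf_mk] at h1
    rcases (Nat.dvd_prime (by norm_num)).mp h1 with h2 | h2
    · exact absurd (orderOf_eq_one_iff.mp h2) hz1'
    · exact h2
  have hCz : centralizer ({z} : Set G) = centralizer ((Q : Subgroup G) : Set G) := cent_eq (p := 5) _ hQ hzQ hz1'
  have hcz : Nat.card (centralizer ({z} : Set G)) = 5 * v := by rw [hCz, hv]
  have hcomm : ∀ y : centralizer ({z} : Set G), z * (y : G) = y * z := fun y => mem_centralizer_iff.mp y.2 z rfl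
  have no11 : ¬ 11 ∣ v := by
    intro h11
    obtain ⟨y, hy⟩ := exists_prime_orderOf_dvd_card' (G := centralizer ({z} : Set G)) 11 (by rw [hcz]; exact Dvd.dvd.mul_left h11 5)
    exact no_eleven h hoz (y := y) (by rw [Subgroup.orderOf_coe]; exact hy) (hcomm y)
  have hfin : v = 1 → e = 4 → ∃ w : IrrCharacter G → ℤ, (∀ χ : IrrCharacter G, (χ : G → ℂ) z = w χ) ∧ (∀ χ : IrrCharacter G, (5 : ℤ) ∣ (charDegree (χ : G → ℂ) : ℤ) - w χ) ∧
      ∑ χ, (w χ) ^ 2 = 5 := by
    rintro rfl rfl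
    exact values5 (Q : Subgroup G) hQ hcz (fun x hx hx1 => conj_of_five (Q : Subgroup G) hQ hv he hzQ hz1' hx hx1)
  rcases hbr with ⟨hA, hAc, hBc, hY⟩ | ⟨hA, hAc, hBc, hY⟩
  · -- the first branch
    have h2Y : D.Y.card = 2 := D.card_Y
    obtain ⟨θ, hθ⟩ : D.Y.Nonempty := by
      rw [← Finset.card_pos]
      omega
    have no2 : ¬ 2 ∣ v := by
      intro h2
      obtain ⟨u, hu⟩ := exists_prime_orderOf_dvd_card' (G := centralizer ({z} : Set G)) 2 (by rw [hcz]; exact Dvd.dvd.mul_left h2 5)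
      exact no_ten hG D hε (fun χ hχ => by rw [hA χ hχ]; norm_num) (fun χ hχ => by rw [hB χ hχ]; norm_num) hθ
        (by rw [hY θ hθ]) hoz (u := u) (by rw [Subgroup.orderOf_coe]; exact hu) (hcomm u)
    obtain ⟨hv1, he4⟩ := num1 v e n hmod hmul he2 no2 no11
    obtain ⟨w, hw1, hw2, hw3⟩ := hfin hv1 he4
    exact final_count hG h D w hw1 hw2 hw3 hA hAc hB hBc hY
  · -- the second branch
    exfalso
    have h2Y : D.Y.card = 2 := D.card_Y
    obtain ⟨θ, hθ⟩ : D.Y.Nonempty := by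
      rw [← Finset.card_pos]
      omega
    have hv5 : ¬ 5 ∣ v := by
      intro h5
      have h1 : Nat.card (centralizer ((Q : Subgroup G) : Set G)) ∣ Nat.card G := Subgroup.card_subgroup_dvd_card _
      rw [hv, hG] at h1
      obtain ⟨c, hc⟩ := h5
      rw [hc] at h1
      have h25 : 25 ∣ 7920 := Dvd.dvd.trans ⟨c, by ring⟩ h1
      norm_num at h25
    have hv1 : v = 1 := by
      by_contra hv1
      obtain ⟨q, hq, hqv⟩ := Nat.exists_prime_and_dvd hv1
      haveI := Fact.mk hq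
      obtain ⟨y, hy⟩ := exists_prime_orderOf_dvd_card' (G := centralizer ({z} : Set G)) q (by rw [hcz]; exact Dvd.dvd.mul_left hqv 5)
      have hq5 : q ≠ 5 := by
        rintro rfl
        exact hv5 hqv
      have hy' : orderOf (y : G) = q := by rw [Subgroup.orderOf_coe]; exact hy
      have h1 := eq_one_of_vanish hperf θ (hY θ hθ) (fun g hg => vanish5 hG θ (by rw [hY θ hθ]) hg) hoz (hcomm y)
        (by
          rw [hy']
          intro h5
          exact hq5 ((Nat.prime_dvd_prime_iff_eq (by norm_num) hq).mp h5).symm)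
      rw [h1, orderOf_one] at hy'
      exact hq.one_lt.ne hy'
    have he4 : e = 4 := by
      rw [hv1] at hmul
      rcases he2 with rfl | rfl
      · omega
      · rfl
    obtain ⟨w, hw1, hw2, hw3⟩ := hfin hv1 he4
    exact false_of_branch2 D w hw1 hw2 hw3 hA hAc

end Cfsg.Agent.S4429
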