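import Cfsg.Statements.S4430
import Cfsg.Agent.Lib.H8Group.RegBlock

set_option autoImplicit false
open Cfsg

namespace Cfsg.Agent.S4430

open Cfsg.Agent.Lib.Char Cfsg.Agent.Lib.H8Group Cfsg.Agent.Lib.Blocks
open scoped ComplexConjugate

theorem aux_blockPart {G : Type*} [Group G] [Fintype G] (H : Subgroup G) [Fintype H] (ξ : Cfsg.IrrCharacter H)
    (B : Set (Cfsg.IrrCharacter G)) :
    Cfsg.blockPart B (Cfsg.indFun H (ξ : H → ℂ)) 1 =
      Cfsg.indFun H (ξ : H → ℂ) 1 * resPhi H ξ (indic B) := by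
  classical
  have hΨ : IsClassFunction G (Cfsg.indFun H (ξ : H → ℂ)) :=
    IsCharacter.isClassFunction (isCharacter_indFun H (IsIrrCharacter.isCharacter ξ.2))
  rw [blockPart_eq_projOp B hΨ, projOp_eq_sum _ hΨ]
  have hξ1 := irr_apply_one_ne_zero ξ
  have hG0 : (Nat.card G : ℂ) ≠ 0 := card_ne_zero_complex
  have hH0 : (Nat.card H : ℂ) ≠ 0 := card_ne_zero_complex
  have hidx : (H.index : ℂ) * (Nat.card H : ℂ) = (Nat.card G : ℂ) := by
    exact_mod_cast H.index_mul_card
  have hI0 : (H.index : ℂ) ≠ 0 := fun h => hG0 (by rw [← hidx, h, zero_mul])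
  rw [indFun_one, resPhi, spec]
  simp only [Cfsg.Agent.Lib.Blocks.resFun, coef]
  have h1 : ∀ h : H, (Nat.card G : ℂ)⁻¹ * (∑ χ : IrrCharacter G, indic B χ * ((χ : G → ℂ) 1 * conj ((χ : G → ℂ) h))) * (ξ : H → ℂ) h =
      (Nat.card G : ℂ)⁻¹ * ∑ χ : IrrCharacter G, indic B χ * ((χ : G → ℂ) 1 * ((ξ : H → ℂ) h * conj ((χ : G → ℂ) h))) := by
    intro h
    rw [mul_assoc, Finset.sum_mul]
    congr 1
    refine Finset.sum_congr rfl fun χ _ => ?_
    ring
  simp only [h1]
  rw [← Finset.mul_sum, Finset.sum_comm]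
  have h2 : ∀ χ : IrrCharacter G, ∑ h : H, indic B χ * ((χ : G → ℂ) 1 * ((ξ : H → ℂ) h * conj ((χ : G → ℂ) h))) =
      indic B χ * ((χ : G → ℂ) 1 * ((Nat.card H : ℂ) * classInner (Cfsg.indFun H (ξ : H → ℂ)) (χ : G → ℂ))) := by
    intro χ
    rw [classInner_indFun_left H _ _ (irr_isClassFunction χ), classInner, ← Finset.mul_sum, ← Finset.mul_sum]
    congr 2
    field_simp
  simp only [h2]
  have hsum : ∑ χ : IrrCharacter G, indic B χ * ((χ : G → ℂ) 1 * ((Nat.card H : ℂ) * classInner (Cfsg.indFun H (ξ : H → ℂ)) (χ : G → ℂ))) =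
      (Nat.card H : ℂ) * ∑ χ : IrrCharacter G, indic B χ * (classInner (Cfsg.indFun H (ξ : H → ℂ)) (χ : G → ℂ) * (χ : G → ℂ) 1) := by
    rw [Finset.mul_sum]
    refine Finset.sum_congr rfl fun χ _ => ?_
    ring
  rw [hsum, ← hidx]
  field_simp

theorem aux_nat {G : Type*} [Group G] [Fintype G] (H : Subgroup G) [Fintype H] (ξ : Cfsg.IrrCharacter H)
    (B : Set (Cfsg.IrrCharacter G)) :
    ∃ n : ℕ, Cfsg.blockPart B (Cfsg.indFun H (ξ : H → ℂ)) 1 = (n : ℂ) := by
  classical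
  have hΨc := isCharacter_indFun H (IsIrrCharacter.isCharacter ξ.2)
  have hΨ : IsClassFunction G (Cfsg.indFun H (ξ : H → ℂ)) := IsCharacter.isClassFunction hΨc
  choose m hm using fun χ : IrrCharacter G => IsCharacter.classInner_irr_eq_nat hΨc χ.2
  rw [blockPart_eq_projOp B hΨ, projOp_eq_sum _ hΨ]
  refine ⟨∑ χ ∈ Finset.univ.filter (· ∈ B), m χ * charDegree (χ : G → ℂ), ?_⟩
  push_cast
  rw [Finset.sum_filter]
  refine Finset.sum_congr rfl fun χ _ => ?_
  rw [hm χ, apply_one_eq_charDegree (IsIrrCharacter.isCharacter χ.2)]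
  by_cases hχ : χ ∈ B
  · simp [hχ, indic_apply_of_mem]
  · simp [hχ, indic_apply_of_notMem]

/-- Let H be a subgroup of the finite group G, b a block of H whose induced block B₀ in G is defined (relative to a maximal ideal M of the algebraic integers containing p), and ξ ∈ b. For a block B of G let n_B be the value at 1 of the B-part of the induced character ξ^G (a natural number: the sum over χ ∈ B of the multiplicity of χ in ξ^G times χ(1)). Then for B = B₀ the exact power of p dividing n_B equals the exact power of p dividing ξ^G(1), while for every other block B either n_B = 0 or n_B is divisible by a strictly higher power of p than ξ^G(1). -/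
theorem result {G : Type*} [Group G] [Fintype G] (p : ℕ) [Fact p.Prime] (M : Ideal Cfsg.AlgInt) (hM : Cfsg.IsPModular p M) (H : Subgroup G) [Fintype H] (b : Set (Cfsg.IrrCharacter H)) (B₀ : Set (Cfsg.IrrCharacter G)) (hind : Cfsg.IsInducedBlock M H b B₀) (ξ : Cfsg.IrrCharacter H) (hξ : ξ ∈ b) : (∃ n : ℕ, Cfsg.blockPart B₀ (Cfsg.indFun H (ξ : H → ℂ)) 1 = (n : ℂ) ∧ n ≠ 0 ∧ n.factorization p = (Cfsg.charDegree (Cfsg.indFun H (ξ : H → ℂ))).factorization p) ∧ ∀ B : Set (Cfsg.IrrCharacter G), Cfsg.IsPBlock M B → B ≠ B₀ → ∃ n : ℕ, Cfsg.blockPart B (Cfsg.indFun H (ξ : H → ℂ)) 1 = (n : ℂ) ∧ (n = 0 ∨ (Cfsg.charDegree (Cfsg.indFun H (ξ : H → ℂ))).factorization p < n.factorization p) := by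
  classical
  haveI := isPrime_of_modular hM
  have hΨc := isCharacter_indFun H (IsIrrCharacter.isCharacter ξ.2)
  have hD : Cfsg.indFun H (ξ : H → ℂ) 1 = (charDegree (Cfsg.indFun H (ξ : H → ℂ)) : ℂ) :=
    apply_one_eq_charDegree hΨc
  have hD0 : charDegree (Cfsg.indFun H (ξ : H → ℂ)) ≠ 0 := by
    intro h0
    rw [h0, indFun_one] at hD
    have h1 := irr_apply_one_ne_zero ξ
    have h2 : (H.index : ℂ) ≠ 0 := by exact_mod_cast Subgroup.index_ne_zero_of_finite
    simp only [Nat.cast_zero, mul_eq_zero] at hD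
    exact hD.elim h2 h1
  have hDc : (charDegree (Cfsg.indFun H (ξ : H → ℂ)) : ℂ) ≠ 0 := by exact_mod_cast hD0
  obtain ⟨τ, hτ⟩ := IsPBlock.nonempty hind.2.1
  have hr : ∀ (B : Set (IrrCharacter G)) (n : ℕ), blockPart B (Cfsg.indFun H (ξ : H → ℂ)) 1 = (n : ℂ) →
      resPhi H ξ (indic B) = (n : ℂ) / (charDegree (Cfsg.indFun H (ξ : H → ℂ)) : ℂ) := by
    intro B n hn
    rw [aux_blockPart, hD] at hn
    rw [eq_div_iff hDc, mul_comm]
    exact hn
  constructor
  · obtain ⟨n, hn⟩ := aux_nat H ξ B₀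
    refine ⟨n, hn, ?_⟩
    have h1 := IsInducedBlock.resPhi_congr H hind hξ hτ (indic_mem_zS hind.2.1)
    rw [indic_apply_of_mem hτ, hr B₀ n hn] at h1
    have h2 : MemLocalRing M ((n : ℂ) / (charDegree (Cfsg.indFun H (ξ : H → ℂ)) : ℂ)) := by
      have := MemLocalRing.add (MemLocalIdeal.memLocalRing h1) (memLocalRing_one (M := M))
      simpa using this
    have h3 : ¬ MemLocalIdeal M ((n : ℂ) / (charDegree (Cfsg.indFun H (ξ : H → ℂ)) : ℂ)) := by
      intro h4
      have h5 := MemLocalIdeal.sub h4 h1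
      rw [sub_sub_cancel] at h5
      exact not_memLocalIdeal_one h5
    have hn0 : n ≠ 0 := by
      rintro rfl
      apply h3
      simpa using memLocalIdeal_zero
    exact ⟨hn0, val_eq_of_unit_div hM hn0 hD0 h2 h3⟩
  · intro B hB hne
    obtain ⟨n, hn⟩ := aux_nat H ξ B
    refine ⟨n, hn, ?_⟩
    by_cases hn0 : n = 0
    · exact Or.inl hn0
    right
    have hτB : τ ∉ B := by
      intro h1
      apply hne
      rw [blockOf_eq_of_mem hB h1, ← blockOf_eq_of_mem hind.2.1 hτ]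
    have h1 := IsInducedBlock.resPhi_congr H hind hξ hτ (indic_mem_zS hB)
    rw [indic_apply_of_notMem hτB, sub_zero, hr B n hn] at h1
    have h2 := val_le_of_memLocalRing_div hM hn0 hD0 (MemLocalIdeal.memLocalRing h1)
    refine lt_of_le_of_ne h2 fun h3 => ?_
    exact not_memLocalIdeal_div_of_val_eq hM hn0 hD0 h3.symm h1

end Cfsg.Agent.S4430
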