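import Cfsg.Statements.S4444
import Cfsg.Agent.Lib.H8Group.GlaubP

set_option autoImplicit false
open Cfsg

namespace Cfsg.Agent.S4444

open Cfsg.Agent.Lib.Char Cfsg.Agent.Lib.H8Group

/-- The Glauberman correspondence for a p-group of operators. Inside a finite group Γ let S normalise G with the orders of G and S coprime, S a p-group, and let C = G ⊓ C(S) be the fixed points. Call an irreducible character χ of G S-invariant when χ(s g s⁻¹) = χ(g) for s ∈ S, g ∈ G. Then: (i) for every S-invariant χ there is exactly one irreducible character β of C whose multiplicity [χ_C, β] in the restriction of χ is not divisible by p; (ii) that multiplicity is ≡ 1 or ≡ −1 (mod p); (iii) distinct S-invariant χ give distinct β; (iv) every irreducible character of C arises in this way. So χ ↦ β is a bijection from the S-invariant irreducible characters of G onto the irreducible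 characters of C. -/
theorem result {Γ : Type*} [Group Γ] [Fintype Γ] (G S : Subgroup Γ) [Fintype G] (hnorm : ∀ s ∈ S, ∀ g ∈ G, s * g * s⁻¹ ∈ G) (hcop : (Nat.card G).Coprime (Nat.card S)) (p : ℕ) (hp : p.Prime) (hS : IsPGroup p S) (C : Subgroup Γ) [Fintype C] (hC : C = G ⊓ Subgroup.centralizer (S : Set Γ)) (hCG : C ≤ G) : (∀ χ : Cfsg.IrrCharacter G, (∀ s ∈ S, ∀ g g' : G, (g' : Γ) = s * g * s⁻¹ → (χ : G → ℂ) g' = (χ : G → ℂ) g) → ∃! β : Cfsg.IrrCharacter C, ∃ m : ℕ, Cfsg.classInner (fun c : C => (χ : G → ℂ) ⟨c, hCG c.2⟩) (β : C → ℂ) = (m : ℂ) ∧ ¬ p ∣ m) ∧ (∀ χ : Cfsg.IrrCharacter G, (∀ s ∈ S, ∀ g g' : G, (g' : Γ) = s * g * s⁻¹ → (χ : G → ℂ) g' = (χ : G → ℂ) g) → ∀ β : Cfsg.IrrCharacter C, ∀ m : ℕ, Cfsg.classInner (fun c : C => (χ : G → ℂ) ⟨c, hCG c.2⟩) (β : C → ℂ) = (m : ℂ) → ¬ p ∣ m → ((m : ℤ) ≡ 1 [ZMOD p] ∨ (m : ℤ) ≡ -1 [ZMOD p])) ∧ (∀ χ χ' : Cfsg.IrrCharacter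 G, (∀ s ∈ S, ∀ g g' : G, (g' : Γ) = s * g * s⁻¹ → (χ : G → ℂ) g' = (χ : G → ℂ) g) → (∀ s ∈ S, ∀ g g' : G, (g' : Γ) = s * g * s⁻¹ → (χ' : G → ℂ) g' = (χ' : G → ℂ) g) → ∀ β : Cfsg.IrrCharacter C, ∀ m m' : ℕ, Cfsg.classInner (fun c : C => (χ : G → ℂ) ⟨c, hCG c.2⟩) (β : C → ℂ) = (m : ℂ) → ¬ p ∣ m → Cfsg.classInner (fun c : C => (χ' : G → ℂ) ⟨c, hCG c.2⟩) (β : C → ℂ) = (m' : ℂ) → ¬ p ∣ m' → χ = χ') ∧ (∀ β : Cfsg.IrrCharacter C, ∃ χ : Cfsg.IrrCharacter G, (∀ s ∈ S, ∀ g g' : G, (g' : Γ) = s * g * s⁻¹ → (χ : G → ℂ) g' = (χ : G → ℂ) g) ∧ ∃ m : ℕ, Cfsg.classInner (fun c : C => (χ : G → ℂ) ⟨c, hCG c.2⟩) (β : C → ℂ) = (m : ℂ) ∧ ¬ p ∣ m) := by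
  classical
  have := Fact.mk hp
  have hn : ∀ t ∈ S, t ∈ Subgroup.normalizer (G : Set Γ) := by
    intro t ht
    rw [Subgroup.mem_normalizer_iff]
    intro h
    refine ⟨fun hh => hnorm t ht h hh, fun hh => ?_⟩
    have := hnorm t⁻¹ (S.inv_mem ht) _ hh
    simpa [mul_assoc] using this
  obtain ⟨h1, h2, h3⟩ := p_corr (p := p) _ S rfl hS G C hn hcop hC hCG
  have hchar : ∀ (χ : IrrCharacter G) (γ : IrrCharacter C), ∃ m : ℕ,
      classInner (fun c : C => (χ : G → ℂ) ⟨c, hCG c.2⟩) (γ : C → ℂ) = (m : ℂ) := by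
    intro χ γ
    exact IsCharacter.classInner_irr_eq_nat
      (IsCharacter.comp (IsIrrCharacter.isCharacter χ.2) (Subgroup.inclusion hCG)) γ.2
  have hmain : ∀ (χ : IrrCharacter G) (β : IrrCharacter C), CorrRel p hCG (χ : G → ℂ) (β : C → ℂ) →
      ∃ m : ℕ, classInner (fun c : C => (χ : G → ℂ) ⟨c, hCG c.2⟩) (β : C → ℂ) = (m : ℂ) ∧ ¬ p ∣ m ∧
        ((m : ℤ) ≡ 1 [ZMOD p] ∨ (m : ℤ) ≡ -1 [ZMOD p]) := by
    intro χ β hr
    obtain ⟨m, hm⟩ := hchar χ β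
    obtain ⟨ε, hε, q, hq⟩ := hr.mult
    rw [hm] at hq
    have h4 : (m : ℤ) = ε + p * q := by exact_mod_cast hq
    have h5 : (m : ℤ) ≡ ε [ZMOD p] := by
      rw [h4]
      simp [Int.ModEq]
    refine ⟨m, hm, fun hdvd => ?_, ?_⟩
    · have h6 : (p : ℤ) ∣ m := by exact_mod_cast hdvd
      have h7 : (p : ℤ) ∣ ε := by
        have h8 : (p : ℤ) ∣ ε + p * q := h4 ▸ h6
        exact (Int.dvd_add_left (dvd_mul_right _ _)).mp h8
      have h9 : (p : ℤ) ∣ 1 := by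
        rcases hε with rfl | rfl
        · exact h7
        · exact dvd_neg.mp h7
      have h10 : p ∣ 1 := by exact_mod_cast h9
      exact hp.one_lt.ne' (Nat.dvd_one.mp h10)
    · rcases hε with rfl | rfl
      · exact Or.inl h5
      · exact Or.inr h5
  have hother : ∀ (χ : IrrCharacter G) (β γ : IrrCharacter C), CorrRel p hCG (χ : G → ℂ) (β : C → ℂ) →
      ∀ m : ℕ, classInner (fun c : C => (χ : G → ℂ) ⟨c, hCG c.2⟩) (γ : C → ℂ) = (m : ℂ) → ¬ p ∣ m →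
        γ = β := by
    intro χ β γ hr m hm hpm
    by_contra hne
    obtain ⟨-, -, -, h0⟩ := hr
    obtain ⟨q, hq⟩ := h0 γ (fun h => hne (Subtype.ext h))
    rw [hm] at hq
    have h4 : (m : ℤ) = p * q := by exact_mod_cast hq
    have h6 : (p : ℤ) ∣ m := ⟨q, h4⟩
    exact hpm (by exact_mod_cast h6)
  refine ⟨?_, ?_, ?_, ?_⟩
  · intro χ hχ
    obtain ⟨β, hβ⟩ := h1 χ hχ
    obtain ⟨m, hm, hpm, -⟩ := hmain χ β hβ
    refine ⟨β, ⟨m, hm, hpm⟩, ?_⟩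
    rintro γ ⟨m', hm', hpm'⟩
    exact hother χ β γ hβ m' hm' hpm'
  · intro χ hχ β m hm hpm
    obtain ⟨β', hβ'⟩ := h1 χ hχ
    have e := hother χ β' β hβ' m hm hpm
    subst e
    obtain ⟨m', hm', -, h4⟩ := hmain χ β hβ'
    rw [hm] at hm'
    have : m = m' := by exact_mod_cast hm'
    rw [this]
    exact h4
  · intro χ χ' hχ hχ' β m m' hm hpm hm' hpm'
    obtain ⟨β₁, hβ₁⟩ := h1 χ hχ
    obtain ⟨β₂, hβ₂⟩ := h1 χ' hχ'
    have e₁ := hother χ β₁ β hβ₁ m hm hpm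
    have e₂ := hother χ' β₂ β hβ₂ m' hm' hpm'
    rw [← e₁] at hβ₁
    rw [← e₂] at hβ₂
    exact h2 χ χ' hχ hχ' β hβ₁ hβ₂
  · intro β
    obtain ⟨χ, hχ, hr⟩ := h3 β
    obtain ⟨m, hm, hpm, -⟩ := hmain χ β hr
    exact ⟨χ, hχ, m, hm, hpm⟩

end Cfsg.Agent.S4444
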