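import Cfsg.Statements.S4445
import Cfsg.Agent.Lib.H8Group.GlaubCount

set_option autoImplicit false
open Cfsg

namespace Cfsg.Agent.S4445

open Cfsg.Agent.Lib.Char Cfsg.Agent.Lib.H8Group

/-- Inside a finite group Γ let the solvable subgroup S normalise G with the orders of G and S coprime. Then the number of S-invariant irreducible characters of G (χ(s g s⁻¹) = χ(g) for all s ∈ S, g ∈ G) equals the number of conjugacy classes of G mapped to themselves by conjugation by every element of S. -/
theorem result {Γ : Type*} [Group Γ] [Fintype Γ] (G S : Subgroup Γ) [Fintype G] (hnorm : ∀ s ∈ S, ∀ g ∈ G, s * g * s⁻¹ ∈ G) (hcop : (Nat.card G).Coprime (Nat.card S)) (hsolv : Group.IsSolvable S) : Nat.card {χ : Cfsg.IrrCharacter G // (∀ s ∈ S, ∀ g g' : G, (g' : Γ) = s * g * s⁻¹ → (χ : G → ℂ) g' = (χ : G → ℂ) g)} = Nat.card {K : ConjClasses G // ∀ s ∈ S, ∀ g g' : G, (g' : Γ) = s * g * s⁻¹ → ConjClasses.mk g = K → ConjClasses.mk g' = K} := by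
  classical
  have hn : ∀ t ∈ S, t ∈ Subgroup.normalizer (G : Set Γ) := by
    intro t ht
    rw [Subgroup.mem_normalizer_iff]
    intro h
    refine ⟨fun hh => hnorm t ht h hh, fun hh => ?_⟩
    have := hnorm t⁻¹ (S.inv_mem ht) _ hh
    simpa [mul_assoc] using this
  have h1 := card_invariant_irr S _ G rfl hn hcop
  have h2 := card_invariant_classes G S hn hcop (Or.inl hsolv)
  exact h1.trans h2.symm

end Cfsg.Agent.S4445
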