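import Cfsg.Statements.S4446
import Cfsg.Agent.Lib.H8Group.GlaubMain

set_option autoImplicit false
open Cfsg

namespace Cfsg.Agent.S4446

open Cfsg.Agent.Lib.Char Cfsg.Agent.Lib.H8Group

theorem gen_eq_pow {Γ : Type*} [Group Γ] [Finite Γ] {s s₀ : Γ}
    (h : Subgroup.zpowers s = Subgroup.zpowers s₀) :
    ∃ j : ℕ, j.Coprime (orderOf s₀) ∧ s = s₀ ^ j := by
  have h1 : s ∈ Subgroup.zpowers s₀ := by rw [← h]; exact Subgroup.mem_zpowers s
  rw [← mem_powers_iff_mem_zpowers] at h1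
  obtain ⟨j, rfl⟩ := h1
  refine ⟨j, ?_, rfl⟩
  have h2 : orderOf (s₀ ^ j) = orderOf s₀ := by
    rw [← Nat.card_zpowers, h, Nat.card_zpowers]
  have hpos : 0 < orderOf s₀ := orderOf_pos s₀
  rw [orderOf_pow] at h2
  have h3 : Nat.gcd (orderOf s₀) j ∣ orderOf s₀ := Nat.gcd_dvd_left _ _
  have h4 : 0 < Nat.gcd (orderOf s₀) j := Nat.gcd_pos_of_pos_left _ hpos
  have h5 : orderOf s₀ = orderOf s₀ / Nat.gcd (orderOf s₀) j * Nat.gcd (orderOf s₀) j :=
    (Nat.div_mul_cancel h3).symm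
  rw [h2] at h5
  have h6 : Nat.gcd (orderOf s₀) j = 1 := by
    have := Nat.eq_of_mul_eq_mul_left hpos (by rw [mul_one]; exact h5 : orderOf s₀ * 1 = orderOf s₀ * Nat.gcd (orderOf s₀) j)
    exact this.symm
  rw [Nat.Coprime, Nat.gcd_comm]
  exact h6

/-- Let the finite group Γ be generated by a normal subgroup G and a cyclic subgroup S of coprime orders, C = G ⊓ C(S), and let χ be an S-invariant irreducible character of G with canonical extension χ̂ to Γ (the extension whose determinantal order is coprime to the order of S). Then there are exactly one irreducible character β of C and one sign ε such that χ̂(c s) = ε β(c) for every c ∈ C and every generator s of S; this β is a constituent of the restriction of χ to C; distinct S-invariant χ give distinct β; and every irreducible character of C arises in this way. -/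
theorem result {Γ : Type*} [Group Γ] [Fintype Γ] (G S : Subgroup Γ) [Fintype G] (hnorm : ∀ s ∈ S, ∀ g ∈ G, s * g * s⁻¹ ∈ G) (hcop : (Nat.card G).Coprime (Nat.card S)) (htop : G ⊔ S = ⊤) (hcyc : IsCyclic S) (C : Subgroup Γ) [Fintype C] (hC : C = G ⊓ Subgroup.centralizer (S : Set Γ)) (hCG : C ≤ G) : (∀ (χ : Cfsg.IrrCharacter G) (χh : Cfsg.IrrCharacter Γ), (∀ s ∈ S, ∀ g g' : G, (g' : Γ) = s * g * s⁻¹ → (χ : G → ℂ) g' = (χ : G → ℂ) g) → (∀ g : G, (χh : Γ → ℂ) g = (χ : G → ℂ) g) → (Cfsg.detOrder (χh : Γ → ℂ)).Coprime (Nat.card S) → (∃! βε : Cfsg.IrrCharacter C × ℤ, (βε.2 = 1 ∨ βε.2 = -1) ∧ ∀ c : C, ∀ s : Γ, Subgroup.zpowers s = S → (χh : Γ → ℂ) ((c : Γ) * s) = (βε.2 : ℂ) * (βε.1 : C → ℂ) c) ∧ ∀ β : Cfsg.IrrCharacter C, ∀ ε : ℤ, (ε = 1 ∨ ε = -1) → (∀ c : C, ∀ s : Γ, Subgroup.zpowers s = S → (χh : Γ → ℂ) ((c : Γ) * s) = (ε : ℂ) * (β : C → ℂ) c) → Cfsg.classInner (fun c : C => (χ : G → ℂ) ⟨c, hCG c.2⟩) (β :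 C → ℂ) ≠ 0) ∧ (∀ (χ χ' : Cfsg.IrrCharacter G) (χh χh' : Cfsg.IrrCharacter Γ), (∀ s ∈ S, ∀ g g' : G, (g' : Γ) = s * g * s⁻¹ → (χ : G → ℂ) g' = (χ : G → ℂ) g) → (∀ s ∈ S, ∀ g g' : G, (g' : Γ) = s * g * s⁻¹ → (χ' : G → ℂ) g' = (χ' : G → ℂ) g) → (∀ g : G, (χh : Γ → ℂ) g = (χ : G → ℂ) g) → (∀ g : G, (χh' : Γ → ℂ) g = (χ' : G → ℂ) g) → (Cfsg.detOrder (χh : Γ → ℂ)).Coprime (Nat.card S) → (Cfsg.detOrder (χh' : Γ → ℂ)).Coprime (Nat.card S) → ∀ β : Cfsg.IrrCharacter C, ∀ ε ε' : ℤ, (ε = 1 ∨ ε = -1) → (ε' = 1 ∨ ε' = -1) → (∀ c : C, ∀ s : Γ, Subgroup.zpowers s = S → (χh : Γ → ℂ) ((c : Γ) * s) = (ε : ℂ) * (β : C → ℂ) c) → (∀ c : C, ∀ s : Γ, Subgroup.zpowers s = S → (χh' : Γ → ℂ) ((c : Γ) * s) = (ε' : ℂ) * (β : C → ℂ) c) → χ = χ') ∧ (∀ β : Cfsg.IrrCharacter C, ∃ (χ : Cfsg.IrrCharacter G) (χh : Cfsg.IrrCharacter Γ) (ε : ℤ), (∀ s ∈ S, ∀ g g' : G, (g' : Γ) = s * g * s⁻¹ → (χ : G → ℂ) g' = (χ : G → ℂ) g) ∧ (∀ g : G, (χh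 : Γ → ℂ) g = (χ : G → ℂ) g) ∧ (Cfsg.detOrder (χh : Γ → ℂ)).Coprime (Nat.card S) ∧ (ε = 1 ∨ ε = -1) ∧ ∀ c : C, ∀ s : Γ, Subgroup.zpowers s = S → (χh : Γ → ℂ) ((c : Γ) * s) = (ε : ℂ) * (β : C → ℂ) c) := by
  classical
  have hGn : G.Normal := by
    rw [← Subgroup.normalizer_eq_top_iff, eq_top_iff, ← htop]
    refine sup_le Subgroup.le_normalizer fun t ht => ?_
    rw [Subgroup.mem_normalizer_iff]
    intro h
    refine ⟨fun hh => hnorm t ht h hh, fun hh => ?_⟩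
    have := hnorm t⁻¹ (S.inv_mem ht) _ hh
    simpa [mul_assoc] using this
  obtain ⟨g₀, hg₀⟩ := hcyc.exists_generator
  set s₀ : Γ := (g₀ : Γ) with hs₀
  have hzp : Subgroup.zpowers s₀ = S := by
    ext x
    constructor
    · intro hx
      obtain ⟨j, rfl⟩ := Subgroup.mem_zpowers_iff.mp hx
      exact S.zpow_mem g₀.2 j
    · intro hx
      obtain ⟨j, hj⟩ := Subgroup.mem_zpowers_iff.mp (hg₀ ⟨x, hx⟩)
      have := congrArg Subtype.val hj
      simp only [Subgroup.coe_zpow] at this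
      exact Subgroup.mem_zpowers_iff.mpr ⟨j, this⟩
  have hgen : Subgroup.zpowers (s₀ : Γ ⧸ G) = ⊤ := by
    have h1 : Subgroup.map (QuotientGroup.mk' G) (G ⊔ S) = ⊤ := by
      rw [htop, Subgroup.map_top_of_surjective _ (QuotientGroup.mk'_surjective G)]
    rw [Subgroup.map_sup, ← hzp] at h1
    have h2 : Subgroup.map (QuotientGroup.mk' G) G = ⊥ := by
      rw [Subgroup.map_eq_bot_iff]
      rw [QuotientGroup.ker_mk']
    rw [h2, bot_sup_eq, MonoidHom.map_zpowers] at h1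
    exact h1
  have hord : orderOf s₀ = Nat.card S := by
    rw [← Nat.card_zpowers, hzp]
  have hcop' : Nat.Coprime (orderOf s₀) (Nat.card G) := by
    rw [hord]
    exact hcop.symm
  have hidx := index_dvd_orderOf hgen
  have hCs : C = cD G s₀ := by
    rw [hC, ← hzp]
    congr 1
    ext x
    rw [Subgroup.mem_centralizer_iff, Subgroup.mem_centralizer_singleton_iff]
    constructor
    · intro h
      exact (h s₀ (Subgroup.mem_zpowers s₀)).symm
    · intro h t ht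
      obtain ⟨j, rfl⟩ := Subgroup.mem_zpowers_iff.mp ht
      have h1 : Commute x s₀ := h
      exact (h1.zpow_right j).symm.eq
  subst hCs
  have hgens : ∀ (χh : Γ → ℂ), IsIrrCharacter Γ χh → IsIrrCharacter G (resFun G χh) →
      (detOrder χh).Coprime (Nat.card S) → ∀ (c : cD G s₀) (s : Γ), Subgroup.zpowers s = S →
        χh ((c : Γ) * s) = χh ((c : Γ) * s₀) := by
    intro χh h1 h2 h3 c s hs
    obtain ⟨j, hj, rfl⟩ := gen_eq_pow (hs.trans hzp.symm)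
    refine generator_indep hgen hcop' h1 h2 (m := detOrder χh) ?_ ?_ c.2 hj
    · intro x
      exact congrFun (pow_orderOf_eq_one (detChar χh)) x
    · rw [← hord] at h3
      exact h3.symm.coprime_dvd_left hidx
  have hdeg : ∀ (β β' : IrrCharacter (cD G s₀)) (ε ε' : ℤ), (ε = 1 ∨ ε = -1) → (ε' = 1 ∨ ε' = -1) →
      (∀ c : cD G s₀, (ε : ℂ) * (β : cD G s₀ → ℂ) c = (ε' : ℂ) * (β' : cD G s₀ → ℂ) c) →
      β = β' ∧ ε = ε' := by
    intro β β' ε ε' hε hε' h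
    obtain ⟨d, hd⟩ := IsCharacter.apply_one (IsIrrCharacter.isCharacter β.2)
    obtain ⟨d', hd'⟩ := IsCharacter.apply_one (IsIrrCharacter.isCharacter β'.2)
    have hdpos : (d : ℂ) ≠ 0 := hd ▸ IsIrrCharacter.apply_one_ne_zero β.2
    have hdpos' : (d' : ℂ) ≠ 0 := hd' ▸ IsIrrCharacter.apply_one_ne_zero β'.2
    have h1 := h 1
    rw [hd, hd'] at h1
    have h2 : (ε * d : ℤ) = ε' * d' := by exact_mod_cast h1
    have hd0 : (d : ℤ) > 0 := by
      have : d ≠ 0 := fun h => hdpos (by simp [h])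
      omega
    have hd0' : (d' : ℤ) > 0 := by
      have : d' ≠ 0 := fun h => hdpos' (by simp [h])
      omega
    have hεε' : ε = ε' := by
      rcases hε with rfl | rfl <;> rcases hε' with rfl | rfl <;> first | rfl | omega
    subst hεε'
    refine ⟨Subtype.ext (funext fun c => ?_), rfl⟩
    have h3 := h c
    have h4 : (ε : ℂ) ≠ 0 := by
      rcases hε with rfl | rfl <;> norm_num
    exact mul_left_cancel₀ h4 h3
  refine ⟨?_, ?_, ?_⟩
  · intro χ χh hχinv hχh hdet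
    have hresχ : resFun G (χh : Γ → ℂ) = (χ : G → ℂ) := funext hχh
    have hres : IsIrrCharacter G (resFun G (χh : Γ → ℂ)) := by rw [hresχ]; exact χ.2
    have hm : ∀ x, detChar (χh : Γ → ℂ) x ^ detOrder (χh : Γ → ℂ) = 1 := fun x =>
      congrFun (pow_orderOf_eq_one (detChar (χh : Γ → ℂ))) x
    have hm' : Nat.Coprime G.index (detOrder (χh : Γ → ℂ)) := by
      rw [← hord] at hdet
      exact hdet.symm.coprime_dvd_left hidx
    obtain ⟨β, ε, hε, hval, hinner⟩ := glauberman_values hgen hcop' χh.2 hres hm hm'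
    have hall : ∀ (c : cD G s₀) (s : Γ), Subgroup.zpowers s = S →
        (χh : Γ → ℂ) ((c : Γ) * s) = (ε : ℂ) * (β : cD G s₀ → ℂ) c := by
      intro c s hs
      rw [hgens _ χh.2 hres hdet c s hs, hval]
    have huniq : ∀ (β' : IrrCharacter (cD G s₀)) (ε' : ℤ), (ε' = 1 ∨ ε' = -1) →
        (∀ (c : cD G s₀) (s : Γ), Subgroup.zpowers s = S →
          (χh : Γ → ℂ) ((c : Γ) * s) = (ε' : ℂ) * (β' : cD G s₀ → ℂ) c) → β' = β ∧ ε' = ε := by
      intro β' ε' hε' h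
      refine hdeg β' β ε' ε hε' hε fun c => ?_
      rw [← h c s₀ hzp, hval]
    refine ⟨⟨(β, ε), ⟨hε, hall⟩, ?_⟩, ?_⟩
    · rintro ⟨β', ε'⟩ ⟨h1, h2⟩
      obtain ⟨rfl, rfl⟩ := huniq β' ε' h1 h2
      rfl
    · intro β' ε' hε' h
      obtain ⟨rfl, rfl⟩ := huniq β' ε' hε' h
      have : (fun c : cD G s₀ => (χ : G → ℂ) ⟨c, hCG c.2⟩) = fun c : cD G s₀ => (χh : Γ → ℂ) (c : Γ) := by
        funext c
        exact (hχh ⟨c, hCG c.2⟩).symm
      rw [this]
      exact hinner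
  · intro χ χ' χh χh' _ _ hχh hχh' hdet hdet' β ε ε' hε hε' h1 h2
    have hres : resFun G (χh : Γ → ℂ) = resFun G (χh' : Γ → ℂ) := by
      refine glauberman_inj hgen hcop' χh.2 χh'.2 (ε₁ := (ε : ℂ)) (ε₂ := (ε' : ℂ)) ?_ ?_ β
        (fun c => h1 c s₀ hzp) (fun c => h2 c s₀ hzp)
      · rcases hε with rfl | rfl <;> norm_num
      · rcases hε' with rfl | rfl <;> norm_num
    apply Subtype.ext
    funext g
    rw [← hχh g, ← hχh' g]
    exact congrFun hres g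
  · intro β
    obtain ⟨χh, hχh, hres, hdet, ε, hε, hval⟩ := glauberman_surj hgen hcop' β
    have hdetord : (detOrder χh).Coprime (Nat.card S) := by
      have h1 : detOrder χh ∣ Nat.card G := by
        apply orderOf_dvd_of_pow_eq_one
        funext x
        exact hdet x
      exact hcop.coprime_dvd_left h1
    refine ⟨⟨resFun G χh, hres⟩, ⟨χh, hχh⟩, ε, ?_, fun g => rfl, hdetord, hε, ?_⟩
    · intro s _ g g' hgg'
      show χh (g' : Γ) = χh (g : Γ)
      rw [hgg']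
      exact (IsCharacter.isClassFunction (IsIrrCharacter.isCharacter hχh)) (g : Γ) s
    · intro c s hs
      show χh ((c : Γ) * s) = _
      rw [hgens χh hχh hres hdetord c s hs, hval]

end Cfsg.Agent.S4446
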