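import Cfsg.Statements.S4448
import Cfsg.Agent.Lib.H8Group.AbelianStep

set_option autoImplicit false
open Cfsg

namespace Cfsg.Agent.S4448

open Cfsg.Agent.Lib.Char Cfsg.Agent.Lib.H8Group

theorem mem_norm {Γ : Type*} [Group Γ] {T H : Subgroup Γ} (h : ∀ t ∈ T, ∀ x ∈ H, t * x * t⁻¹ ∈ H) :
    ∀ t ∈ T, t ∈ Subgroup.normalizer (H : Set Γ) := by
  intro t ht
  rw [Subgroup.mem_normalizer_iff]
  intro x
  refine ⟨fun hh => h t ht x hh, fun hh => ?_⟩
  have := h t⁻¹ (T.inv_mem ht) _ hh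
  simpa [mul_assoc] using this

/-- Inside a finite group Γ let S normalise G and also normalise a normal subgroup N of G, with the order of S coprime to the index of N in G and G/N solvable. Then for every S-invariant irreducible character ϑ of N, the induced character ϑ^G has an S-invariant irreducible constituent. -/
theorem result {Γ : Type*} [Group Γ] [Fintype Γ] (G S N : Subgroup Γ) [Fintype G] [Fintype N] (hnorm : ∀ s ∈ S, ∀ g ∈ G, s * g * s⁻¹ ∈ G) (hNG : N ≤ G) [hNn : (N.subgroupOf G).Normal] (hNS : ∀ s ∈ S, ∀ n ∈ N, s * n * s⁻¹ ∈ N) (hcop : (N.relIndex G).Coprime (Nat.card S)) (hsolv : Group.IsSolvable (G ⧸ N.subgroupOf G)) (θ : Cfsg.IrrCharacter N) (hinv : (∀ s ∈ S, ∀ g g' : N, (g' : Γ) = s * g * s⁻¹ → (θ : N → ℂ) g' = (θ : N → ℂ) g)) : ∃ χ : Cfsg.IrrCharacter G, Cfsg.classInner (fun n : N => (χ : G → ℂ) ⟨n, hNG n.2⟩) (θ : N → ℂ) ≠ 0 ∧ (∀ s ∈ S, ∀ g g' : G, (g' : Γ) = s * g * s⁻¹ → (χ : G → ℂ) g'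 = (χ : G → ℂ) g) := by
  exact exists_invariant_over_solvable S _ G N rfl (mem_norm hnorm) hNG (mem_norm hNS) hcop hsolv θ hinv

end Cfsg.Agent.S4448
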