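import Cfsg.Statements.S4451
import Cfsg.Agent.Lib.H8Group.GlaubFpf

set_option autoImplicit false
open Cfsg

namespace Cfsg.Agent.S4451

open Cfsg.Agent.Lib.Char Cfsg.Agent.Lib.H8Group

/-- Let the finite group Γ be generated by a normal subgroup G and a cyclic subgroup S of coprime orders such that every non-identity element of S has the same centraliser C = G ⊓ C(S) in G. Let χ be an S-invariant irreducible character of G, χ̂ its canonical extension to Γ (determinantal order coprime to the order of S), and β the irreducible character of C with χ̂(c s) = ε₀ β(c) for c ∈ C and generators s of S (ε₀ = ±1). Then there are a sign ε = ±1, which may differ from ε₀, and a linear character μ of S with μ² = 1, such that: (a) χ̂(c x) = ε β(c) μ(x) for all c ∈ C and all x ∈ S other than 1; (b) the restriction of χ to C equals |S|·ϑ + ε β for some character ϑ of C or ϑ = 0; (c) |S| divides χ(1) − ε β(1). -/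
theorem result {Γ : Type*} [Group Γ] [Fintype Γ] (G S : Subgroup Γ) [Fintype G] (hnorm : ∀ s ∈ S, ∀ g ∈ G, s * g * s⁻¹ ∈ G) (hcop : (Nat.card G).Coprime (Nat.card S)) (htop : G ⊔ S = ⊤) (hcyc : IsCyclic S) (C : Subgroup Γ) [Fintype C] (hC : C = G ⊓ Subgroup.centralizer (S : Set Γ)) (hCG : C ≤ G) (hfpf : ∀ x ∈ S, x ≠ 1 → G ⊓ Subgroup.centralizer ({x} : Set Γ) = C) (χ : Cfsg.IrrCharacter G) (hinv : (∀ s ∈ S, ∀ g g' : G, (g' : Γ) = s * g * s⁻¹ → (χ : G → ℂ) g' = (χ : G → ℂ) g)) (χh : Cfsg.IrrCharacter Γ) (hext : (∀ g : G, (χh : Γ → ℂ) g = (χ : G → ℂ) g)) (hdet : (Cfsg.detOrder (χh : Γ → ℂ)).Coprime (Nat.card S)) (β : Cfsg.IrrCharacter C) (ε₀ : ℤ) (hε₀ : ε₀ = 1 ∨ ε₀ = -1) (hβ : ∀ c : C, ∀ s : Γ, Subgroup.zpowers s = S → (χh : Γ → ℂ) ((c : Γ) * s) = (ε₀ : ℂ) * (β : C → ℂ) c) : ∃ ε : ℤ, (ε = 1 ∨ ε = -1) ∧ (∃ μ : S → ℂ, Cfsg.IsCharacter S μ ∧ μ 1 = 1 ∧ (∀ x : S, μ x * μ x = 1) ∧ ∀ c : C, ∀ x : S, x ≠ 1 → (χh : Γ → ℂ) ((c : Γ) * x) = (ε : ℂ) * (β :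 C → ℂ) c * μ x) ∧ (∃ ϑ : C → ℂ, Cfsg.IsCharacter C ϑ ∧ (fun c : C => (χ : G → ℂ) ⟨c, hCG c.2⟩) = fun c => (Nat.card S : ℂ) * ϑ c + (ε : ℂ) * (β : C → ℂ) c) ∧ (Nat.card S : ℤ) ∣ (Cfsg.charDegree (χ : G → ℂ) : ℤ) - ε * (Cfsg.charDegree (β : C → ℂ) : ℤ) := by
  classical
  have hGn : G.Normal := by
    rw [← Subgroup.normalizer_eq_top_iff, eq_top_iff, ← htop]
    refine sup_le Subgroup.le_normalizer fun t ht => ?_
    rw [Subgroup.mem_normalizer_iff]
    intro h
    refine ⟨fun hh => hnorm t ht h hh, fun hh => ?_⟩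
    have := hnorm t⁻¹ (S.inv_mem ht) _ hh
    simpa [mul_assoc] using this
  obtain ⟨g₀, hg₀⟩ := hcyc.exists_generator
  obtain ⟨s₀, hs₀⟩ : ∃ s₀ : Γ, s₀ = (g₀ : Γ) := ⟨_, rfl⟩
  have hzp : Subgroup.zpowers s₀ = S := by
    ext x
    constructor
    · intro hx
      obtain ⟨j, rfl⟩ := Subgroup.mem_zpowers_iff.mp hx
      rw [hs₀]
      exact S.zpow_mem g₀.2 j
    · intro hx
      obtain ⟨j, hj⟩ := Subgroup.mem_zpowers_iff.mp (hg₀ ⟨x, hx⟩)
      have := congrArg Subtype.val hj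
      simp only [Subgroup.coe_zpow] at this
      rw [hs₀]
      exact Subgroup.mem_zpowers_iff.mpr ⟨j, this⟩
  clear hg₀ hs₀ g₀
  subst hzp
  have hgen : Subgroup.zpowers (s₀ : Γ ⧸ G) = ⊤ := by
    have h1 : Subgroup.map (QuotientGroup.mk' G) (G ⊔ Subgroup.zpowers s₀) = ⊤ := by
      rw [htop, Subgroup.map_top_of_surjective _ (QuotientGroup.mk'_surjective G)]
    rw [Subgroup.map_sup] at h1
    have h2 : Subgroup.map (QuotientGroup.mk' G) G = ⊥ := by
      rw [Subgroup.map_eq_bot_iff]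
      rw [QuotientGroup.ker_mk']
    rw [h2, bot_sup_eq, MonoidHom.map_zpowers] at h1
    exact h1
  have hord : orderOf s₀ = Nat.card (Subgroup.zpowers s₀) := (Nat.card_zpowers s₀).symm
  have hcop' : Nat.Coprime (orderOf s₀) (Nat.card G) := by
    rw [hord]
    exact hcop.symm
  have hidx := index_dvd_orderOf hgen
  have hCs : C = cD G s₀ := by
    rw [hC]
    congr 1
    ext x
    rw [Subgroup.mem_centralizer_iff, Subgroup.mem_centralizer_singleton_iff]
    constructor
    · intro h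
      exact (h s₀ (Subgroup.mem_zpowers s₀)).symm
    · intro h t ht
      obtain ⟨j, rfl⟩ := Subgroup.mem_zpowers_iff.mp ht
      have h1 : Commute x s₀ := h
      exact (h1.zpow_right j).symm.eq
  subst hCs
  let _ : Fintype (Subgroup.zpowers s₀) := Fintype.ofFinite _
  have hresχ : resFun G (χh : Γ → ℂ) = (χ : G → ℂ) := funext hext
  have hres : IsIrrCharacter G (resFun G (χh : Γ → ℂ)) := by rw [hresχ]; exact χ.2
  have hm : ∀ x, detChar (χh : Γ → ℂ) x ^ detOrder (χh : Γ → ℂ) = 1 := fun x =>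
    congrFun (pow_orderOf_eq_one (detChar (χh : Γ → ℂ))) x
  have hm' : Nat.Coprime G.index (detOrder (χh : Γ → ℂ)) := by
    rw [← hord] at hdet
    exact hdet.symm.coprime_dvd_left hidx
  have hcomm : ∀ c ∈ cD G s₀, ∀ t ∈ Subgroup.zpowers s₀, c * t = t * c := by
    intro c hc t ht
    obtain ⟨j, rfl⟩ := Subgroup.mem_zpowers_iff.mp ht
    have h1 : Commute c s₀ := (mem_cD.mp hc).2
    exact (h1.zpow_right j).eq
  obtain ⟨ξ, hξ, hdec⟩ := exists_decomp (cD G s₀) (Subgroup.zpowers s₀) hcomm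
    (IsIrrCharacter.isCharacter χh.2)
  have hCval : (fun c : cD G s₀ => (χ : G → ℂ) ⟨c, hCG c.2⟩) =
      fun c : cD G s₀ => ∑ γ : IrrCharacter (cD G s₀), (γ : cD G s₀ → ℂ) c * ξ γ 1 := by
    funext c
    have h1 := hdec c 1
    rw [← hext ⟨c, hCG c.2⟩]
    simp only [OneMemClass.coe_one, mul_one] at h1
    exact h1
  by_cases htriv : s₀ = 1
  · -- trivial operators
    subst htriv
    have hall : ∀ x : Subgroup.zpowers (1 : Γ), x = 1 := by
      intro x
      apply Subtype.ext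
      have := x.2
      simpa using this
    have hcard : Nat.card (Subgroup.zpowers (1 : Γ)) = 1 := by
      rw [Nat.card_zpowers, orderOf_one]
    have h1 : ∀ c : cD G (1 : Γ), (χ : G → ℂ) ⟨c, hCG c.2⟩ = (ε₀ : ℂ) * (β : cD G (1 : Γ) → ℂ) c := by
      intro c
      rw [← hext ⟨c, hCG c.2⟩, ← hβ c 1 rfl]
      simp
    refine ⟨ε₀, hε₀, ⟨fun _ => 1, IsIrrCharacter.isCharacter isIrrCharacter_one, rfl, fun _ => by simp, ?_⟩,
      ⟨0, isCharacter_zero, ?_⟩, ?_⟩
    · intro c x hx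
      exact absurd (hall x) hx
    · funext c
      simp [h1 c]
    · rw [hcard]
      simp
  · -- nontrivial operators
    set s' : Subgroup.zpowers s₀ := ⟨s₀, Subgroup.mem_zpowers s₀⟩ with hs'
    have hs'ne : s' ≠ 1 := fun h => htriv (congrArg Subtype.val h)
    have hz : ∀ (x : Subgroup.zpowers s₀) (γ : IrrCharacter (cD G s₀)), ∃ w : ℤ, ξ γ x = w := fun x γ =>
      fpf_coeffs hgen hcop' χh.2 hres hm hm' ξ hξ hdec x γ
    choose w hw using hz
    have hfix : ∀ x : Subgroup.zpowers s₀, x ≠ 1 → cD G s₀ = cD G (x : Γ) := by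
      intro x hx
      exact (hfpf x x.2 (fun h => hx (Subtype.ext h))).symm
    have hsq : ∀ x : Subgroup.zpowers s₀, x ≠ 1 → ∑ γ : IrrCharacter (cD G s₀), w x γ ^ 2 = 1 := fun x hx =>
      fpf_norm hcop' χh.2 hres ξ hdec x (hfix x hx) (w x) (hw x)
    have hval : ∀ (γ : IrrCharacter (cD G s₀)) (x : Subgroup.zpowers s₀), x ≠ 1 →
        ∃ v : ℤ, ξ γ x = v ∧ (v = 0 ∨ v = 1 ∨ v = -1) := by
      intro γ x hx
      refine ⟨w x γ, hw x γ, ?_⟩
      have h1 : w x γ ^ 2 ≤ 1 := by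
        rw [← hsq x hx]
        exact Finset.single_le_sum (f := fun γ => w x γ ^ 2) (fun i _ => sq_nonneg _) (Finset.mem_univ γ)
      have h2 : -1 ≤ w x γ ∧ w x γ ≤ 1 := abs_le.mp (by
        have := abs_le_one_iff_mul_self_le_one.mpr (by nlinarith : w x γ * w x γ ≤ 1)
        exact this)
      omega
    have hab : ∀ a b : Subgroup.zpowers s₀, a * b = b * a := by
      rintro ⟨a, ha⟩ ⟨b, hb⟩
      obtain ⟨i, rfl⟩ := Subgroup.mem_zpowers_iff.mp ha
      obtain ⟨j, rfl⟩ := Subgroup.mem_zpowers_iff.mp hb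
      apply Subtype.ext
      exact (Commute.refl s₀).zpow_zpow i j
    have hlin := (comm_iff_irr_degree_one (G := Subgroup.zpowers s₀)).mp hab
    -- the values at the generator
    have hgenval : ∀ γ : IrrCharacter (cD G s₀),
        ξ γ s' = (ε₀ : ℂ) * classInner (β : cD G s₀ → ℂ) (γ : cD G s₀ → ℂ) := by
      intro γ
      have h1 := classInner_decomp (cD G s₀) (Subgroup.zpowers s₀) ξ hdec s' γ
      have h2 : (fun c : cD G s₀ => (χh : Γ → ℂ) ((c : Γ) * (s' : Γ))) =
          (ε₀ : ℂ) • (β : cD G s₀ → ℂ) := by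
        funext c
        exact hβ c s₀ rfl
      rw [h2, classInner_smul_left] at h1
      exact h1.symm
    have hε₀ne : (ε₀ : ℂ) ≠ 0 := by
      rcases hε₀ with rfl | rfl <;> norm_num
    have hgβ : ξ β s' = (ε₀ : ℂ) := by
      rw [hgenval, classInner_irr_self β.2, mul_one]
    have hgγ : ∀ γ : IrrCharacter (cD G s₀), γ ≠ β → ξ γ s' = 0 := by
      intro γ hγ
      rw [hgenval, classInner_irr_of_ne β.2 γ.2 (fun h => hγ (Subtype.ext h.symm)), mul_zero]
    have hunit : ∀ (μ : IrrCharacter (Subgroup.zpowers s₀)) (x : Subgroup.zpowers s₀),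
        (μ : Subgroup.zpowers s₀ → ℂ) x ≠ 0 := by
      intro μ x
      obtain ⟨lam, hlam⟩ := IsCharacter.exists_monoidHom (IsIrrCharacter.isCharacter μ.2) (hlin μ)
      rw [hlam]
      exact Units.ne_zero _
    -- the main constituent
    obtain ⟨k, ε, μ, hε, hμ, hF⟩ : ∃ (k ε : ℤ) (μ : IrrCharacter (Subgroup.zpowers s₀)),
        (ε = 1 ∨ ε = -1) ∧ (∀ x, x ≠ 1 → ξ β x = (ε : ℂ) * (μ : Subgroup.zpowers s₀ → ℂ) x) ∧
        ξ β 1 = (k : ℂ) * (Nat.card (Subgroup.zpowers s₀) : ℂ) + (ε : ℂ) := by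
      rcases abelian_char_dichotomy hab (hξ β) (hval β) with ⟨h1, -⟩ | h1
      · exfalso
        have := h1 s' hs'ne
        rw [hgβ] at this
        exact hε₀ne this
      · exact h1
    -- the other constituents
    have hother : ∀ γ : IrrCharacter (cD G s₀), γ ≠ β →
        (∀ x, x ≠ 1 → ξ γ x = 0) ∧
        ∃ t : ℕ, ξ γ 1 = (Nat.card (Subgroup.zpowers s₀) : ℂ) * (t : ℂ) := by
      intro γ hγ
      rcases abelian_char_dichotomy hab (hξ γ) (hval γ) with h1 | ⟨k', ε', μ', hε', hμ', -⟩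
      · exact h1
      · exfalso
        have h2 := hμ' s' hs'ne
        rw [hgγ γ hγ] at h2
        have h3 : (ε' : ℂ) ≠ 0 := by
          rcases hε' with rfl | rfl <;> norm_num
        exact (mul_ne_zero h3 (hunit μ' s')) h2.symm
    have ht : ∀ γ : IrrCharacter (cD G s₀), ∃ t : ℕ, γ ≠ β →
        ξ γ 1 = (Nat.card (Subgroup.zpowers s₀) : ℂ) * (t : ℂ) := by
      intro γ
      by_cases hγ : γ = β
      · exact ⟨0, fun h => absurd hγ h⟩
      · obtain ⟨t, ht⟩ := (hother γ hγ).2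
        exact ⟨t, fun _ => ht⟩
    choose t ht using ht
    have hnpos : (0 : ℤ) < Nat.card (Subgroup.zpowers s₀) := by
      exact_mod_cast Nat.card_pos
    -- positivity of `k`
    have hk : 0 ≤ k := by
      obtain ⟨F, hFn⟩ := IsCharacter.apply_one (hξ β)
      have h1 := IsCharacter.norm_le (hξ β) s'
      rw [hgβ, hFn] at h1
      have h2 : (1 : ℝ) ≤ F := by
        have h3 : ‖(ε₀ : ℂ)‖ = 1 := by
          rcases hε₀ with rfl | rfl <;> simp
        rw [h3] at h1
        simpa using h1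
      have h3 : (1 : ℤ) ≤ F := by exact_mod_cast h2
      rw [hFn] at hF
      have h4 : (F : ℤ) = k * Nat.card (Subgroup.zpowers s₀) + ε := by exact_mod_cast hF
      by_contra hneg
      push Not at hneg
      have h5 : k * (Nat.card (Subgroup.zpowers s₀) : ℤ) ≤ -(Nat.card (Subgroup.zpowers s₀) : ℤ) := by
        nlinarith
      have h6 : (2 : ℤ) ≤ Nat.card (Subgroup.zpowers s₀) := by
        have h7 : Nontrivial (Subgroup.zpowers s₀) := ⟨⟨s', 1, hs'ne⟩⟩
        have := Finite.one_lt_card (α := Subgroup.zpowers s₀)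
        exact_mod_cast this
      rcases hε with rfl | rfl <;> omega
    obtain ⟨k', rfl⟩ := Int.eq_ofNat_of_zero_le hk
    -- the character `ϑ`
    let ϑ : cD G s₀ → ℂ := fun c => (k' : ℂ) * (β : cD G s₀ → ℂ) c +
      ∑ γ ∈ Finset.univ.erase β, (t γ : ℂ) * (γ : cD G s₀ → ℂ) c
    have hϑ : IsCharacter (cD G s₀) ϑ := by
      have h1 : IsCharacter (cD G s₀) (k' • (β : cD G s₀ → ℂ)) :=
        IsCharacter.nsmul (IsIrrCharacter.isCharacter β.2) k'
      have h2 : IsCharacter (cD G s₀) (∑ γ ∈ Finset.univ.erase β, t γ • (γ : cD G s₀ → ℂ)) :=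
        IsCharacter.sum _ fun γ _ => IsCharacter.nsmul (IsIrrCharacter.isCharacter γ.2) _
      have h3 := IsCharacter.add h1 h2
      convert h3 using 1
      funext c
      simp only [ϑ, Pi.add_apply, Finset.sum_apply, Pi.smul_apply]
      simp only [nsmul_eq_mul]
    have hχC : (fun c : cD G s₀ => (χ : G → ℂ) ⟨c, hCG c.2⟩) =
        fun c => (Nat.card (Subgroup.zpowers s₀) : ℂ) * ϑ c + (ε : ℂ) * (β : cD G s₀ → ℂ) c := by
      rw [hCval]
      funext c
      rw [← Finset.add_sum_erase _ _ (Finset.mem_univ β), hF]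
      simp only [ϑ]
      have h1 : ∑ γ ∈ Finset.univ.erase β, (γ : cD G s₀ → ℂ) c * ξ γ 1 =
          (Nat.card (Subgroup.zpowers s₀) : ℂ) * ∑ γ ∈ Finset.univ.erase β, (t γ : ℂ) * (γ : cD G s₀ → ℂ) c := by
        rw [Finset.mul_sum]
        refine Finset.sum_congr rfl fun γ hγ => ?_
        rw [ht γ (Finset.ne_of_mem_erase hγ)]
        ring
      rw [h1]
      push_cast
      ring
    refine ⟨ε, hε, ⟨(μ : Subgroup.zpowers s₀ → ℂ), IsIrrCharacter.isCharacter μ.2, hlin μ, ?_, ?_⟩,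
      ⟨ϑ, hϑ, hχC⟩, ?_⟩
    · intro x
      by_cases hx : x = 1
      · subst hx
        rw [hlin μ]
        simp
      · -- the value at `x` squares to one
        have h1 : ∑ γ : IrrCharacter (cD G s₀), w x γ ^ 2 = w x β ^ 2 := by
          rw [Finset.sum_eq_single β]
          · intro γ _ hγ
            have h2 := (hother γ hγ).1 x hx
            rw [hw x γ] at h2
            have h3 : w x γ = 0 := by exact_mod_cast h2
            rw [h3]
            simp
          · intro h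
            exact absurd (Finset.mem_univ _) h
        rw [hsq x hx] at h1
        have h2 : (ξ β x) ^ 2 = 1 := by
          rw [hw x β]
          have h3 : ((w x β ^ 2 : ℤ) : ℂ) = 1 := by rw [← h1]; simp
          exact_mod_cast h3
        rw [hμ x hx, mul_pow] at h2
        have h3 : (ε : ℂ) ^ 2 = 1 := by
          rcases hε with rfl | rfl <;> norm_num
        rw [h3, one_mul] at h2
        rw [← sq]
        exact h2
    · intro c x hx
      rw [hdec c x, Finset.sum_eq_single β, hμ x hx]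
      · ring
      · intro γ _ hγ
        rw [(hother γ hγ).1 x hx, mul_zero]
      · intro h
        exact absurd (Finset.mem_univ _) h
    · -- the divisibility
      obtain ⟨d, hd⟩ := IsCharacter.apply_one hϑ
      have h1 := congrFun hχC 1
      have h2 : (χ : G → ℂ) ⟨((1 : cD G s₀) : Γ), hCG (1 : cD G s₀).2⟩ = (χ : G → ℂ) 1 := rfl
      rw [h2, hd, apply_one_eq_charDegree (IsIrrCharacter.isCharacter χ.2),
        apply_one_eq_charDegree (IsIrrCharacter.isCharacter β.2)] at h1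
      have h3 : (charDegree (χ : G → ℂ) : ℤ) = (Nat.card (Subgroup.zpowers s₀) : ℤ) * d +
          ε * (charDegree (β : cD G s₀ → ℂ) : ℤ) := by
        exact_mod_cast h1
      exact ⟨d, by linear_combination h3⟩

end Cfsg.Agent.S4451
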