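import Cfsg.Statements.S4458
import Cfsg.Agent.S4456
import Cfsg.Agent.Lib.Char.TwoDeg
-- import your own Cfsg.Agent.* helpers here

set_option autoImplicit false
open Cfsg

namespace Cfsg.Agent.S4458

/-- If a finite group has exactly two irreducible character degrees, 1 and m with m ≠ 1, then its commutator subgroup is abelian. -/
theorem result {G : Type*} [Group G] [Finite G] (m : ℕ) (hcd : ∀ χ : Cfsg.IrrCharacter G, Cfsg.charDegree (χ : G → ℂ) = 1 ∨ Cfsg.charDegree (χ : G → ℂ) = m) (hm : ∃ χ : Cfsg.IrrCharacter G, Cfsg.charDegree (χ : G → ℂ) = m) (hm1 : m ≠ 1) : ∀ a ∈ commutator G, ∀ b ∈ commutator G, a * b = b * a := by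
  classical
  letI : Fintype G := Fintype.ofFinite G
  have hm0 : m ≠ 0 := by
    obtain ⟨χ, hχ⟩ := hm
    rw [← hχ]
    exact (Cfsg.Agent.Lib.Char.charDegree_pos χ.2).ne'
  have hK : ∀ p : ℕ, p.Prime → p ∣ m → ∃ N : Subgroup G, N.Normal ∧ (Nat.card N).Coprime p ∧
      ∃ k : ℕ, N.index = p ^ k := by
    intro p hp hpm
    refine Cfsg.Agent.S4456.result p hp fun χ hχ => ?_
    rcases hcd χ with h | h
    · exact absurd h hχ
    · rw [h]
      exact hpm
  rcases Cfsg.Agent.Lib.Char.TwoDeg.main m hcd hm hm1 hK with ⟨A, -, h2, -, h4⟩ | ⟨hnil, -⟩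
  · have h5 : commutator G ≤ A := by
      rw [commutator_def, Subgroup.commutator_le]
      intro x _ y _
      exact h4 x y
    intro a ha b hb
    exact h2 a (h5 ha) b (h5 hb)
  · haveI := hnil
    exact Cfsg.Agent.Lib.Char.TwoDeg.derived_comm m hcd hm1 hm0

end Cfsg.Agent.S4458
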