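import Cfsg.Statements.S4477
import Mathlib
import Cfsg.Agent.Lib.Char.FSCount
import Cfsg.Agent.Lib.Char.Linear
import Cfsg.Agent.Lib.Char.Degree

set_option autoImplicit false
open Cfsg

namespace Cfsg.Agent.S4477

open Cfsg.Agent.Lib.Char MulAction

open scoped ComplexConjugate

universe u

section
variable {G : Type u} [Group G] [Fintype G]

theorem norm_hom (lam : G →* ℂˣ) (g : G) : ‖((lam g : ℂˣ) : ℂ)‖ = 1 := by
  have h2 : ((lam g : ℂˣ) : ℂ) ^ (orderOf g) = 1 := by
    rw [← Units.val_pow_eq_pow_val, ← map_pow, pow_orderOf_eq_one, map_one, Units.val_one]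
  exact Complex.norm_eq_one_of_pow_eq_one h2 (orderOf_pos g).ne'

theorem hom_mul_conj (lam : G →* ℂˣ) (g : G) : ((lam g : ℂˣ) : ℂ) * conj ((lam g : ℂˣ) : ℂ) = 1 := by
  rw [Complex.mul_conj, Complex.normSq_eq_norm_sq, norm_hom]
  simp

/-- Multiplying by a linear character. -/
noncomputable def tw (lam : G →* ℂˣ) (χ : IrrCharacter G) : IrrCharacter G :=
  ⟨fun g => ((lam g : ℂˣ) : ℂ) * (χ : G → ℂ) g, by
    apply isIrrCharacter_of_classInner_self
    · exact IsCharacter.mul (IsIrrCharacter.isCharacter (isIrrCharacter_of_monoidHom lam)) (IsIrrCharacter.isCharacter χ.2)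
    · have h := classInner_irr_self χ.2
      unfold classInner at h ⊢
      rw [← h]
      congr 1
      refine Finset.sum_congr rfl fun g _ => ?_
      rw [map_mul]
      have := hom_mul_conj lam g
      linear_combination ((χ : G → ℂ) g * conj ((χ : G → ℂ) g)) * this⟩

theorem tw_apply (lam : G →* ℂˣ) (χ : IrrCharacter G) (g : G) :
    ((tw lam χ : IrrCharacter G) : G → ℂ) g = ((lam g : ℂˣ) : ℂ) * (χ : G → ℂ) g := rfl

theorem tw_one (χ : IrrCharacter G) : tw 1 χ = χ := by
  apply Subtype.ext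
  funext g
  simp [tw_apply]

theorem tw_mul (a b : G →* ℂˣ) (χ : IrrCharacter G) : tw (a * b) χ = tw a (tw b χ) := by
  apply Subtype.ext
  funext g
  simp only [tw_apply, MonoidHom.mul_apply, Units.val_mul]
  ring

theorem deg_tw (lam : G →* ℂˣ) (χ : IrrCharacter G) :
    charDegree ((tw lam χ : IrrCharacter G) : G → ℂ) = charDegree (χ : G → ℂ) := by
  have h1 := apply_one_eq_charDegree (IsIrrCharacter.isCharacter (tw lam χ).2)
  have h2 := apply_one_eq_charDegree (IsIrrCharacter.isCharacter χ.2)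
  rw [tw_apply, map_one, Units.val_one, one_mul, h2] at h1
  exact_mod_cast h1.symm

/-- Real valued. -/
def Rl (χ : IrrCharacter G) : Prop := ∀ s, ((χ : G → ℂ) s).im = 0

theorem fsInd_ne_zero_iff (χ : IrrCharacter G) : fsInd (χ : G → ℂ) ≠ 0 ↔ Rl χ := by
  rw [Ne, fsInd_eq_zero_iff χ.2]
  unfold Rl
  push Not
  rfl

/-- The homomorphisms of exponent two. -/
def L2 (G : Type u) [Group G] : Subgroup (G →* ℂˣ) where
  carrier := {μ | ∀ g, μ g * μ g = 1}
  mul_mem' := by
    intro a b ha hb g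
    simp only [MonoidHom.mul_apply]
    rw [mul_mul_mul_comm, ha g, hb g, one_mul]
  one_mem' := by
    intro g
    simp
  inv_mem' := by
    intro a ha g
    simp only [MonoidHom.inv_apply]
    rw [← mul_inv, ha g, inv_one]

theorem mem_L2 {μ : G →* ℂˣ} : μ ∈ L2 G ↔ ∀ g, μ g * μ g = 1 := Iff.rfl

theorem hom_val_of_mem {μ : G →* ℂˣ} (h : μ ∈ L2 G) (s : G) : ((μ s : ℂˣ) : ℂ) = 1 ∨ ((μ s : ℂˣ) : ℂ) = -1 := by
  have h2 : μ s * μ s = 1 := h s
  have h3 : ((μ s : ℂˣ) : ℂ) * ((μ s : ℂˣ) : ℂ) = 1 := by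
    have h4 := congrArg (fun u : ℂˣ => (u : ℂ)) h2
    simpa using h4
  exact mul_self_eq_one_iff.mp h3

theorem Rl_tw {μ : G →* ℂˣ} (h : μ ∈ L2 G) {χ : IrrCharacter G} (hχ : Rl χ) : Rl (tw μ χ) := by
  intro s
  rw [tw_apply]
  rcases hom_val_of_mem h s with h1 | h1 <;> rw [h1] <;> simp [hχ s]

/-- A real square root twist. -/
theorem Rl_tw' {μ : G →* ℂˣ} {χ : IrrCharacter G} (hχ : Rl χ) (hf : tw (μ * μ) χ = χ) : Rl (tw μ χ) := by
  intro s
  rw [tw_apply]
  have h1 : (((tw (μ * μ) χ : IrrCharacter G) : G → ℂ) s) = (χ : G → ℂ) s := by rw [hf]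
  rw [tw_apply] at h1
  by_cases h0 : (χ : G → ℂ) s = 0
  · simp [h0]
  have h2 : (((μ * μ) s : ℂˣ) : ℂ) = 1 := by
    apply mul_right_cancel₀ h0
    rw [h1, one_mul]
  have h3 : ((μ s : ℂˣ) : ℂ) * ((μ s : ℂˣ) : ℂ) = 1 := by simpa using h2
  rcases mul_self_eq_one_iff.mp h3 with h4 | h4 <;> rw [h4] <;> simp [hχ s]

/-- The linear character. -/
noncomputable def linChar (lam : G →* ℂˣ) : IrrCharacter G := ⟨fun g => ((lam g : ℂˣ) : ℂ), isIrrCharacter_of_monoidHom lam⟩

theorem linChar_injective : Function.Injective (linChar (G := G)) := by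
  intro a b h
  ext g
  exact congrFun (congrArg Subtype.val h) g

theorem deg_linChar (lam : G →* ℂˣ) : charDegree ((linChar lam : IrrCharacter G) : G → ℂ) = 1 := by
  have h1 := apply_one_eq_charDegree (IsIrrCharacter.isCharacter (linChar lam).2)
  have h2 : ((linChar lam : IrrCharacter G) : G → ℂ) 1 = 1 := by
    show ((lam 1 : ℂˣ) : ℂ) = 1
    simp
  rw [h2] at h1
  exact_mod_cast h1.symm

/-- The number of fixed linear characters is bounded by the square of the degree. -/
theorem card_stab_le (χ : IrrCharacter G) (S : Finset (G →* ℂˣ)) (hS : ∀ μ ∈ S, tw μ χ = χ) :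
    S.card ≤ charDegree (χ : G → ℂ) ^ 2 := by
  classical
  have hχc := IsIrrCharacter.isCharacter χ.2
  have hΦ : IsCharacter G (fun g => (χ : G → ℂ) g * conj ((χ : G → ℂ) g)) :=
    IsCharacter.mul hχc (IsCharacter.conj hχc)
  obtain ⟨m, hm1, hm2⟩ := IsCharacter.exists_eq_sum hΦ
  have hone : ∀ μ ∈ S, m (linChar μ) = 1 := by
    intro μ hμ
    have h1 := hm1 (linChar μ)
    have h2 : classInner (fun g => (χ : G → ℂ) g * conj ((χ : G → ℂ) g)) ((linChar μ : IrrCharacter G) : G → ℂ) = 1 := by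
      have h3 := classInner_irr_self χ.2
      rw [← h3]
      unfold classInner
      congr 1
      refine Finset.sum_congr rfl fun g _ => ?_
      have h4 : (μ g : ℂ) * (χ : G → ℂ) g = (χ : G → ℂ) g := by
        have := congrFun (congrArg Subtype.val (hS μ hμ)) g
        exact this
      show (χ : G → ℂ) g * conj ((χ : G → ℂ) g) * conj ((μ g : ℂˣ) : ℂ) = _
      rw [mul_assoc, ← map_mul, mul_comm _ ((μ g : ℂˣ) : ℂ), h4]
    rw [h2] at h1
    have h3 : m (linChar μ) = 1 := by exact_mod_cast h1.symm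
    exact h3
  have hdeg : ∑ ψ : IrrCharacter G, m ψ * charDegree (ψ : G → ℂ) = charDegree (χ : G → ℂ) ^ 2 := by
    have h2 := congrFun hm2 1
    rw [Finset.sum_apply] at h2
    have h3 := apply_one_eq_charDegree hχc
    simp only [h3, Complex.conj_natCast, Pi.smul_apply, nsmul_eq_mul] at h2
    have h4 : ((∑ ψ : IrrCharacter G, m ψ * charDegree (ψ : G → ℂ) : ℕ) : ℂ) = ((charDegree (χ : G → ℂ) ^ 2 : ℕ) : ℂ) := by
      push_cast
      rw [sq, h2]
      refine Finset.sum_congr rfl fun ψ _ => ?_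
      rw [apply_one_eq_charDegree (IsIrrCharacter.isCharacter ψ.2)]
    exact_mod_cast h4
  rw [← hdeg]
  calc S.card = ∑ μ ∈ S, 1 := by simp
    _ = ∑ μ ∈ S, m (linChar μ) * charDegree ((linChar μ : IrrCharacter G) : G → ℂ) := by
        refine Finset.sum_congr rfl fun μ hμ => ?_
        rw [hone μ hμ, deg_linChar]
    _ = ∑ ψ ∈ S.image linChar, m ψ * charDegree (ψ : G → ℂ) := by
        rw [Finset.sum_image (fun a _ b _ h => linChar_injective h)]
    _ ≤ _ := Finset.sum_le_sum_of_subset (Finset.subset_univ _)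

instance finHom : Finite (G →* ℂˣ) := Finite.of_equiv _ (linearCharEquiv G)

end

section
variable {G : Type u} [Group G] [Fintype G]

/-- The action by multiplication. -/
noncomputable instance twAction : MulAction (G →* ℂˣ) (IrrCharacter G) where
  smul := tw
  one_smul := tw_one
  mul_smul := tw_mul

theorem smul_def' (lam : G →* ℂˣ) (χ : IrrCharacter G) : lam • χ = tw lam χ := rfl

/-- The set of real characters of degree two, as a set with an action. -/
def X2 (G : Type u) [Group G] [Fintype G] : SubMulAction (L2 G) (IrrCharacter G) where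
  carrier := {χ | charDegree (χ : G → ℂ) = 2 ∧ Rl χ}
  smul_mem' := by
    rintro ⟨μ, hμ⟩ χ ⟨h1, h2⟩
    exact ⟨(deg_tw μ χ).trans h1, Rl_tw hμ h2⟩

theorem isPGroup_L2 : IsPGroup 2 (L2 G) := by
  rintro ⟨μ, hμ⟩
  refine ⟨1, ?_⟩
  rw [pow_one, pow_two]
  apply Subtype.ext
  show μ * μ = 1
  exact MonoidHom.ext hμ

/-- The fixed points. -/
noncomputable def Y2 (G : Type u) [Group G] [Fintype G] : Finset (IrrCharacter G) := by
  classical
  exact Finset.univ.filter (fun χ => charDegree (χ : G → ℂ) = 2 ∧ Rl χ ∧ ∀ μ ∈ L2 G, tw μ χ = χ)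

theorem mem_Y2 {χ : IrrCharacter G} : χ ∈ Y2 G ↔ charDegree (χ : G → ℂ) = 2 ∧ Rl χ ∧ ∀ μ ∈ L2 G, tw μ χ = χ := by
  classical
  simp [Y2]

theorem card_Y2_modEq : Nat.card (X2 G) ≡ (Y2 G).card [MOD 2] := by
  classical
  have h := (isPGroup_L2 (G := G)).card_modEq_card_fixedPoints (X2 G)
  have h2 : Nat.card (fixedPoints (L2 G) (X2 G)) = (Y2 G).card := by
    rw [← Fintype.card_coe, ← Nat.card_eq_fintype_card]
    refine Nat.card_congr ⟨fun x => ⟨x.1.1, mem_Y2.mpr ⟨x.1.2.1, x.1.2.2, fun μ hμ => ?_⟩⟩,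
      fun x => ⟨⟨x.1, (mem_Y2.mp x.2).1, (mem_Y2.mp x.2).2.1⟩, fun μ => ?_⟩, fun x => rfl, fun x => rfl⟩
    · exact congrArg Subtype.val (x.2 ⟨μ, hμ⟩)
    · apply Subtype.ext
      exact (mem_Y2.mp x.2).2.2 μ.1 μ.2
  rwa [h2] at h

/-- If there is an element of order four, then the number of fixed points is even. -/
theorem even_Y2 (hL : Nat.card (L2 G) = 4) {μ : G →* ℂˣ} (h1 : μ * μ ∈ L2 G) (h2 : μ ∉ L2 G) : 2 ∣ (Y2 G).card := by
  classical
  letI : Fintype (L2 G) := Fintype.ofFinite _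
  letI : Fintype (G →* ℂˣ) := Fintype.ofFinite _
  have hsum : ∑ χ ∈ Y2 G, (1 : ZMod 2) = 0 := by
    refine Finset.sum_involution (fun χ _ => tw μ χ) ?_ ?_ ?_ ?_
    · intro χ _
      decide
    · intro χ hχ _ he
      obtain ⟨hd, hR, hF⟩ := mem_Y2.mp hχ
      let S : Finset (G →* ℂˣ) := insert μ (Finset.univ.filter (fun a => a ∈ L2 G))
      have hS : S.card = 5 := by
        rw [Finset.card_insert_of_notMem (by simpa using h2)]
        have : (Finset.univ.filter (fun a => a ∈ L2 G)).card = 4 := by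
          rw [← hL, Nat.card_eq_fintype_card, Fintype.card_subtype]
        omega
      have hb := card_stab_le χ S (by
        intro a ha
        rcases Finset.mem_insert.mp ha with rfl | ha
        · exact he
        · exact hF a (Finset.mem_filter.mp ha).2)
      rw [hS, hd] at hb
      norm_num at hb
    · intro χ hχ
      obtain ⟨hd, hR, hF⟩ := mem_Y2.mp hχ
      refine mem_Y2.mpr ⟨(deg_tw μ χ).trans hd, Rl_tw' hR (hF _ h1), fun a ha => ?_⟩
      have hc : a * μ = μ * a := MonoidHom.ext fun g => mul_comm (a g) (μ g)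
      rw [← tw_mul, hc, tw_mul, hF a ha]
    · intro χ hχ
      obtain ⟨hd, hR, hF⟩ := mem_Y2.mp hχ
      show tw μ (tw μ χ) = χ
      rw [← tw_mul]
      exact hF _ h1
  rw [Finset.sum_const, nsmul_eq_mul, mul_one] at hsum
  exact (ZMod.natCast_eq_zero_iff _ _).mp hsum

end

section
variable {G : Type u} [Group G] [Fintype G]

/-- The sign of an index two subgroup. -/
noncomputable def signOf (M : Subgroup G) (hM : M.index = 2) : G →* ℂˣ := by
  classical
  exact
  { toFun := fun g => if g ∈ M then 1 else -1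
    map_one' := by simp
    map_mul' := by
      intro a b
      have h := Subgroup.mul_mem_iff_of_index_two hM (a := a) (b := b)
      by_cases ha : a ∈ M <;> by_cases hb : b ∈ M <;> simp [ha, hb, h] }

theorem signOf_mem {M : Subgroup G} (hM : M.index = 2) {g : G} (hg : g ∈ M) : signOf M hM g = 1 := by
  simp [signOf, hg]

theorem signOf_not_mem {M : Subgroup G} (hM : M.index = 2) {g : G} (hg : g ∉ M) : signOf M hM g = -1 := by
  simp [signOf, hg]

theorem signOf_in_L2 {M : Subgroup G} (hM : M.index = 2) : signOf M hM ∈ L2 G := by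
  classical
  intro g
  by_cases hg : g ∈ M
  · rw [signOf_mem hM hg]
    simp
  · rw [signOf_not_mem hM hg]
    simp

/-- A proper subgroup of a `2`-group lies in a subgroup of index two. -/
theorem exists_index_two (hG : IsPGroup 2 G) (H : Subgroup G) (hH : H ≠ ⊤) : ∃ M : Subgroup G, H ≤ M ∧ M.index = 2 := by
  obtain ⟨N, hN⟩ := IsPGroup.iff_card.mp hG
  obtain ⟨n, hn⟩ := IsPGroup.iff_card.mp (hG.to_subgroup H)
  have hlt : n < N := by
    by_contra hle
    apply hH
    have h1 : Nat.card H ≤ Nat.card G := Subgroup.card_le_card_group H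
    rw [hn, hN] at h1
    have h2 : N ≤ n := by omega
    have h3 : n = N := le_antisymm ((Nat.pow_le_pow_iff_right (by norm_num)).mp h1) h2
    apply Subgroup.eq_top_of_card_eq
    rw [hn, hN, h3]
  obtain ⟨M, hM, hHM⟩ := Sylow.exists_subgroup_card_pow_prime_le 2 (m := N - 1) (by
    rw [hN]
    exact pow_dvd_pow 2 (by omega)) H hn (by omega)
  refine ⟨M, hHM, ?_⟩
  have h1 := M.card_mul_index
  rw [hM, hN] at h1
  have h2 : N = (N - 1) + 1 := by omega
  rw [h2, pow_succ] at h1
  simp only [Nat.add_sub_cancel] at h1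
  have h3 : 0 < 2 ^ (N - 1) := by positivity
  exact Nat.eq_of_mul_eq_mul_left h3 (by rw [h1])

/-- A noncyclic `2`-group has at least four homomorphisms of exponent two. -/
theorem four_dvd_L2 (hG : IsPGroup 2 G) (hc : ¬ IsCyclic G) : 4 ∣ Nat.card (L2 G) := by
  classical
  letI : Fintype (L2 G) := Fintype.ofFinite _
  have hprop : ∀ g : G, Subgroup.zpowers g ≠ ⊤ := by
    intro g h
    exact hc ⟨g, (Subgroup.eq_top_iff' _).mp h⟩
  obtain ⟨M₁, hM₁, hi₁⟩ := exists_index_two hG _ (hprop 1)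
  have hne₁ : M₁ ≠ ⊤ := by
    rintro rfl
    simp at hi₁
  obtain ⟨x, hx⟩ : ∃ x, x ∉ M₁ := by
    by_contra hall
    push Not at hall
    exact hne₁ ((Subgroup.eq_top_iff' _).mpr hall)
  obtain ⟨M₂, hM₂, hi₂⟩ := exists_index_two hG _ (hprop x)
  have hxM₂ : x ∈ M₂ := hM₂ (Subgroup.mem_zpowers x)
  have hne₂ : M₂ ≠ ⊤ := by
    rintro rfl
    simp at hi₂
  obtain ⟨y, hy⟩ : ∃ y, y ∉ M₂ := by
    by_contra hall
    push Not at hall
    exact hne₂ ((Subgroup.eq_top_iff' _).mpr hall)
  let a : L2 G := ⟨signOf M₁ hi₁, signOf_in_L2 hi₁⟩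
  let b : L2 G := ⟨signOf M₂ hi₂, signOf_in_L2 hi₂⟩
  have hax : ((a : G →* ℂˣ) x) = -1 := signOf_not_mem hi₁ hx
  have hbx : ((b : G →* ℂˣ) x) = 1 := signOf_mem hi₂ hxM₂
  have hby : ((b : G →* ℂˣ) y) = -1 := signOf_not_mem hi₂ hy
  have hne : (-1 : ℂˣ) ≠ 1 := by
    intro h
    have h2 := congrArg (fun u : ℂˣ => (u : ℂ)) h
    norm_num at h2
  have hab : a ≠ b := by
    intro h
    rw [h, hbx] at hax
    exact hne hax.symm
  have ha1 : a ≠ 1 := by
    intro h
    rw [h] at hax
    exact hne hax.symm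
  have hb1 : b ≠ 1 := by
    intro h
    rw [h] at hby
    exact hne hby.symm
  have hcard : 3 ≤ Nat.card (L2 G) := by
    rw [Nat.card_eq_fintype_card, ← Finset.card_univ]
    have h3 : ({1, a, b} : Finset (L2 G)).card = 3 := by
      rw [Finset.card_insert_of_notMem, Finset.card_insert_of_notMem, Finset.card_singleton]
      · simpa using hab
      · simp only [Finset.mem_insert, Finset.mem_singleton, not_or]
        exact ⟨ha1.symm, hb1.symm⟩
    rw [← h3]
    exact Finset.card_le_univ _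
  obtain ⟨r, hr⟩ := IsPGroup.iff_card.mp (isPGroup_L2 (G := G))
  rw [hr] at hcard ⊢
  have hr2 : 2 ≤ r := by
    by_contra hlt
    have : r = 0 ∨ r = 1 := by omega
    rcases this with rfl | rfl <;> norm_num at hcard
  exact pow_dvd_pow 2 hr2

end

section
variable {G : Type u} [Group G] [Fintype G]

theorem card_sq_one : Nat.card {u : G // u * u = 1} = 1 + Nat.card {x : G // orderOf x = 2} := by
  classical
  rw [Nat.card_eq_fintype_card, Nat.card_eq_fintype_card, Fintype.card_subtype, Fintype.card_subtype]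
  have h1 : (Finset.univ.filter (fun u : G => u * u = 1)) = insert 1 (Finset.univ.filter (fun x : G => orderOf x = 2)) := by
    ext u
    simp only [Finset.mem_filter, Finset.mem_univ, true_and, Finset.mem_insert]
    constructor
    · intro h
      by_cases h1 : u = 1
      · exact Or.inl h1
      · right
        exact orderOf_eq_prime (by rw [pow_two]; exact h) h1
    · rintro (rfl | h)
      · simp
      · have := pow_orderOf_eq_one u
        rw [h, pow_two] at this
        exact this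
  rw [h1, Finset.card_insert_of_notMem]
  · omega
  · simp

theorem exists_nu (χ : IrrCharacter G) : ∃ n : ℤ, fsInd (χ : G → ℂ) = n ∧ (n = 0 ∨ n = 1 ∨ n = -1) := by
  rcases fsInd_trichotomy χ.2 with h | h | h
  · exact ⟨0, by simpa using h, Or.inl rfl⟩
  · exact ⟨1, by simpa using h, Or.inr (Or.inl rfl)⟩
  · exact ⟨-1, by simpa using h, Or.inr (Or.inr rfl)⟩

/-- Linear real characters have indicator one. -/
theorem nu_linear (χ : IrrCharacter G) (hd : charDegree (χ : G → ℂ) = 1) (hR : Rl χ) :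
    fsInd (χ : G → ℂ) = 1 ∧ ∃ lam ∈ L2 G, linChar lam = χ := by
  have hχc := IsIrrCharacter.isCharacter χ.2
  have h1 : (χ : G → ℂ) 1 = 1 := by
    rw [apply_one_eq_charDegree hχc, hd]
    simp
  obtain ⟨lam, hlam⟩ := IsCharacter.exists_monoidHom hχc h1
  have hL : lam ∈ L2 G := by
    intro g
    have h2 : (((lam g : ℂˣ) : ℂ)).im = 0 := by
      have := hR g
      rwa [hlam] at this
    have h3 := norm_hom lam g
    have h4 : ((lam g : ℂˣ) : ℂ) * ((lam g : ℂˣ) : ℂ) = 1 := by
      have h5 := hom_mul_conj lam g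
      have h6 : conj ((lam g : ℂˣ) : ℂ) = ((lam g : ℂˣ) : ℂ) := Complex.conj_eq_iff_im.mpr h2
      rwa [h6] at h5
    apply Units.ext
    simpa using h4
  refine ⟨?_, lam, hL, Subtype.ext hlam.symm⟩
  unfold fsInd
  have h7 : ∀ s : G, (χ : G → ℂ) (s * s) = 1 := by
    intro s
    rw [hlam]
    show ((lam (s * s) : ℂˣ) : ℂ) = 1
    rw [map_mul]
    have := congrArg (fun u : ℂˣ => (u : ℂ)) (hL s)
    simpa using this
  simp only [h7, Finset.sum_const, Finset.card_univ, nsmul_eq_mul, mul_one, ← Nat.card_eq_fintype_card]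
  have : (Nat.card G : ℂ) ≠ 0 := by exact_mod_cast Nat.card_pos.ne'
  field_simp

theorem Rl_linChar {lam : G →* ℂˣ} (h : lam ∈ L2 G) : Rl (linChar lam) := by
  intro s
  show (((lam s : ℂˣ) : ℂ)).im = 0
  rcases hom_val_of_mem h s with h1 | h1 <;> rw [h1] <;> simp

/-- The congruence modulo four. -/
theorem count_mod4 (hG : IsPGroup 2 G) :
    (4 : ℤ) ∣ (Nat.card {u : G // u * u = 1} : ℤ) - Nat.card (L2 G) - 2 * Nat.card (X2 G) := by
  classical
  letI : Fintype (L2 G) := Fintype.ofFinite _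
  letI : Fintype (G →* ℂˣ) := Fintype.ofFinite _
  have h1 := sum_fsInd_mul_apply (1 : G)
  choose ν hν hν3 using exists_nu (G := G)
  have hsum : (Nat.card {u : G // u * u = 1} : ℤ) = ∑ χ : IrrCharacter G, ν χ * charDegree (χ : G → ℂ) := by
    have h2 : ((Nat.card {u : G // u * u = 1} : ℤ) : ℂ) = ((∑ χ : IrrCharacter G, ν χ * charDegree (χ : G → ℂ) : ℤ) : ℂ) := by
      push_cast
      have h3 : sqrtCount (1 : G) = (Nat.card {u : G // u * u = 1} : ℂ) := rfl
      rw [← h3, ← h1]
      refine Finset.sum_congr rfl fun χ _ => ?_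
      rw [hν χ, apply_one_eq_charDegree (IsIrrCharacter.isCharacter χ.2)]
    exact_mod_cast h2
  let a : IrrCharacter G → ℤ := fun χ => if charDegree (χ : G → ℂ) = 1 ∧ Rl χ then 1 else 0
  let b : IrrCharacter G → ℤ := fun χ => if charDegree (χ : G → ℂ) = 2 ∧ Rl χ then 1 else 0
  have hsa : ∑ χ, a χ = Nat.card (L2 G) := by
    have h3 : (Finset.univ.filter (fun χ : IrrCharacter G => charDegree (χ : G → ℂ) = 1 ∧ Rl χ)) =
        (Finset.univ.filter (fun lam : G →* ℂˣ => lam ∈ L2 G)).image linChar := by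
      ext χ
      simp only [Finset.mem_filter, Finset.mem_univ, true_and, Finset.mem_image]
      constructor
      · rintro ⟨h4, h5⟩
        exact (nu_linear χ h4 h5).2
      · rintro ⟨lam, h4, rfl⟩
        exact ⟨deg_linChar lam, Rl_linChar h4⟩
    simp only [a]
    rw [Finset.sum_boole, h3, Finset.card_image_of_injective _ linChar_injective,
      Nat.card_eq_fintype_card, Fintype.card_subtype]
  have hsb : ∑ χ, b χ = Nat.card (X2 G) := by
    simp only [b]
    rw [Finset.sum_boole, Nat.card_congr (show X2 G ≃ {χ : IrrCharacter G // charDegree (χ : G → ℂ) = 2 ∧ Rl χ} from Equiv.refl _),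
      Nat.card_eq_fintype_card, Fintype.card_subtype]
  rw [hsum, ← hsa, ← hsb, Finset.mul_sum, ← Finset.sum_sub_distrib, ← Finset.sum_sub_distrib]
  apply Finset.dvd_sum
  intro χ _
  have hR : ν χ ≠ 0 ↔ Rl χ := by
    rw [← fsInd_ne_zero_iff χ, hν χ]
    simp
  have hd : charDegree (χ : G → ℂ) ∣ 2 ^ (Nat.card G).factorization 2 := by
    obtain ⟨N, hN⟩ := IsPGroup.iff_card.mp hG
    have h2 := charDegree_dvd_card χ.2
    rw [hN] at h2 ⊢
    rwa [Nat.Prime.factorization_pow Nat.prime_two, Finsupp.single_eq_same]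
  obtain ⟨j, -, hj⟩ := (Nat.dvd_prime_pow Nat.prime_two).mp hd
  have hcase : charDegree (χ : G → ℂ) = 1 ∨ charDegree (χ : G → ℂ) = 2 ∨ 4 ∣ charDegree (χ : G → ℂ) := by
    rw [hj]
    rcases j with _ | _ | j
    · left; simp
    · right; left; simp
    · right; right
      exact (show (4 : ℕ) = 2 ^ 2 by norm_num) ▸ pow_dvd_pow 2 (show 2 ≤ j + 1 + 1 by omega)
  rcases hcase with h2 | h2 | h2
  · have hb0 : b χ = 0 := by
      simp only [b]
      rw [if_neg]
      rintro ⟨h3, -⟩
      omega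
    rw [hb0, h2]
    by_cases h3 : Rl χ
    · have ha1 : a χ = 1 := by
        simp only [a]
        rw [if_pos ⟨h2, h3⟩]
      have h4 := (nu_linear χ h2 h3).1
      rw [hν χ] at h4
      have h5 : ν χ = 1 := by exact_mod_cast h4
      rw [ha1, h5]
      simp
    · have ha0 : a χ = 0 := by
        simp only [a]
        rw [if_neg]
        rintro ⟨-, h4⟩
        exact h3 h4
      have h5 : ν χ = 0 := by
        by_contra h6
        exact h3 (hR.mp h6)
      rw [ha0, h5]
      simp
  · have ha0 : a χ = 0 := by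
      simp only [a]
      rw [if_neg]
      rintro ⟨h3, -⟩
      omega
    rw [ha0, h2]
    by_cases h3 : Rl χ
    · have hb1 : b χ = 1 := by
        simp only [b]
        rw [if_pos ⟨h2, h3⟩]
      rw [hb1]
      have h6 := hR.mpr h3
      rcases hν3 χ with h5 | h5 | h5
      · exact absurd h5 h6
      · rw [h5]
        norm_num
      · rw [h5]
        norm_num
    · have hb0 : b χ = 0 := by
        simp only [b]
        rw [if_neg]
        rintro ⟨-, h4⟩
        exact h3 h4
      have h5 : ν χ = 0 := by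
        by_contra h6
        exact h3 (hR.mp h6)
      rw [hb0, h5]
      simp
  · have ha0 : a χ = 0 := by
      simp only [a]
      rw [if_neg]
      rintro ⟨h3, -⟩
      omega
    have hb0 : b χ = 0 := by
      simp only [b]
      rw [if_neg]
      rintro ⟨h3, -⟩
      omega
    rw [ha0, hb0]
    simp only [sub_zero, mul_zero]
    exact Dvd.dvd.mul_left (by exact_mod_cast h2) _

theorem forall_mem_L2 (hno : ∀ μ : G →* ℂˣ, μ * μ ∈ L2 G → μ ∈ L2 G) (k : ℕ) :
    ∀ μ : G →* ℂˣ, μ ^ (2 ^ k) = 1 → μ ∈ L2 G := by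
  induction k with
  | zero =>
    intro μ hμ
    rw [pow_zero, pow_one] at hμ
    rw [hμ]
    exact one_mem _
  | succ k ih =>
    intro μ hμ
    apply hno
    apply ih
    have e : μ * μ = μ ^ 2 := (pow_two μ).symm
    rw [e, ← pow_mul, ← pow_succ']
    exact hμ

end

/-- Let G be a finite 2-group whose number of involutions is congruent to 1 modulo 4. Then G is cyclic or its commutator subgroup has index 4. -/
theorem result {G : Type*} [Group G] [Finite G] (hG : IsPGroup 2 G) (ht : Nat.card {x : G // orderOf x = 2} % 4 = 1) : IsCyclic G ∨ (commutator G).index = 4 := by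
  classical
  letI : Fintype G := Fintype.ofFinite G
  by_cases hc : IsCyclic G
  · exact Or.inl hc
  right
  letI : Fintype (L2 G) := Fintype.ofFinite _
  letI : Fintype (G →* ℂˣ) := Fintype.ofFinite _
  have h4 := four_dvd_L2 hG hc
  have hm := count_mod4 hG
  rw [card_sq_one] at hm
  have hodd : Nat.card (X2 G) % 2 = 1 := by
    obtain ⟨c, hc'⟩ := h4
    rw [hc'] at hm
    push_cast at hm
    omega
  have hY := card_Y2_modEq (G := G)
  have hYo : (Y2 G).card % 2 = 1 := by
    have : Nat.card (X2 G) % 2 = (Y2 G).card % 2 := hY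
    omega
  obtain ⟨χ₀, hχ₀⟩ : (Y2 G).Nonempty := by
    rw [← Finset.card_pos]
    omega
  obtain ⟨hd, hR, hF⟩ := mem_Y2.mp hχ₀
  have hL4 : Nat.card (L2 G) = 4 := by
    have hb := card_stab_le χ₀ (Finset.univ.filter (fun a => a ∈ L2 G)) (fun a ha => hF a (Finset.mem_filter.mp ha).2)
    rw [hd] at hb
    have h5 : (Finset.univ.filter (fun a => a ∈ L2 G)).card = Nat.card (L2 G) := by
      rw [Nat.card_eq_fintype_card, Fintype.card_subtype]
    rw [h5] at hb
    have h6 : 0 < Nat.card (L2 G) := Nat.card_pos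
    obtain ⟨c, hc'⟩ := h4
    omega
  have hno : ∀ μ : G →* ℂˣ, μ * μ ∈ L2 G → μ ∈ L2 G := by
    intro μ h1
    by_contra h2
    have := even_Y2 hL4 h1 h2
    omega
  have hall : ∀ μ : G →* ℂˣ, μ ∈ L2 G := by
    intro μ
    obtain ⟨N, hN⟩ := IsPGroup.iff_card.mp hG
    apply forall_mem_L2 hno N
    ext g
    simp only [MonoidHom.pow_apply, MonoidHom.one_apply, ← map_pow, ← hN, pow_card_eq_one', map_one]
  have htop : L2 G = ⊤ := (Subgroup.eq_top_iff' _).mpr hall
  have hΛ : Nat.card (G →* ℂˣ) = 4 := by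
    rw [← hL4, htop, Subgroup.card_top]
  rw [← card_linear_eq_index_commutator, Nat.card_congr (linearCharEquiv G)]
  exact hΛ

end Cfsg.Agent.S4477
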