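import Cfsg.Statements.S4483
import Cfsg.Agent.Lib.H8Group.RealTwo
import Cfsg.Agent.Lib.H8Group.SMat

set_option autoImplicit false
open Cfsg

namespace Cfsg.Agent.S4483

open Cfsg.Agent.Lib.Char Cfsg.Agent.Lib.H8Group Cfsg.Agent.Lib.Blocks

/-- Let G be a finite group of order 2^n·g₀ with g₀ odd, and M a maximal ideal of the algebraic integers containing 2. Every real-valued irreducible character of G of odd degree lies in the principal 2-block; consequently G has at most 2^(2n) real-valued irreducible characters of odd degree. -/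
theorem result {G : Type*} [Group G] [Finite G] (M : Ideal Cfsg.AlgInt) (hM : Cfsg.IsPModular 2 M) : (∀ χ : Cfsg.IrrCharacter G, (∀ g : G, ((χ : G → ℂ) g).im = 0) → Odd (Cfsg.charDegree (χ : G → ℂ)) → χ ∈ Cfsg.principalBlock M G) ∧ Nat.card {χ : Cfsg.IrrCharacter G // (∀ g : G, ((χ : G → ℂ) g).im = 0) ∧ Odd (Cfsg.charDegree (χ : G → ℂ))} ≤ 2 ^ (2 * (Nat.card G).factorization 2) := by
  classical
  letI : Fintype G := Fintype.ofFinite G
  haveI : Fact (Nat.Prime 2) := ⟨Nat.prime_two⟩
  have := isPrime_of_modular hM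
  have key : ∀ χ : Cfsg.IrrCharacter G, (∀ g : G, ((χ : G → ℂ) g).im = 0) → Odd (Cfsg.charDegree (χ : G → ℂ)) → χ ∈ Cfsg.principalBlock M G := by
    intro χ hre hodd
    have hB : IsPBlock M (blockOf M (χ : G → ℂ)) := isPBlock_blockOf χ
    have hχ : χ ∈ blockOf M (χ : G → ℂ) := self_mem_blockOf χ
    have hdef := blockDefect_eq_of_degree (p := 2) hχ (fun h => by
      rcases hodd with ⟨k, hk⟩
      omega)
    have hc : conjI χ = χ := by
      apply Subtype.ext
      funext g
      rw [conjI_apply]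
      apply Complex.conj_eq_iff_im.mpr
      exact hre g
    have h1 := eq_principal_of_conj_mem hM hB hdef hχ (by rw [hc]; exact hχ)
    rw [← h1]
    exact hχ
  refine ⟨key, ?_⟩
  have h1 : Nat.card {χ : Cfsg.IrrCharacter G // (∀ g : G, ((χ : G → ℂ) g).im = 0) ∧ Odd (Cfsg.charDegree (χ : G → ℂ))} ≤ Nat.card (Cfsg.principalBlock M G) := by
    let f : {χ : Cfsg.IrrCharacter G // (∀ g : G, ((χ : G → ℂ) g).im = 0) ∧ Odd (Cfsg.charDegree (χ : G → ℂ))} → (Cfsg.principalBlock M G) := fun χ => ⟨χ.1, key χ.1 χ.2.1 χ.2.2⟩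
    have hf : Function.Injective f := by
      intro a b hab
      exact Subtype.ext (congrArg (fun z : Cfsg.principalBlock M G => (z : Cfsg.IrrCharacter G)) hab)
    exact Nat.card_le_card_of_injective f hf
  have h2 := four_mul_card_block_le hM (isPBlock_principalBlock M G)
  have h3 : blockDefect 2 (principalBlock M G) ≤ (Nat.card G).factorization 2 := by
    rw [blockDefect]
    exact Nat.sub_le _ _
  have h4 : 2 ^ (2 * blockDefect 2 (principalBlock M G)) ≤ 2 ^ (2 * (Nat.card G).factorization 2) :=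
    Nat.pow_le_pow_right (by norm_num) (by omega)
  rcases Nat.eq_zero_or_pos ((Nat.card G).factorization 2) with h0 | h0
  · rw [h0] at h4 ⊢
    simp only [mul_zero, pow_zero] at h4 ⊢
    omega
  · have h5 : 4 ≤ 2 ^ (2 * (Nat.card G).factorization 2) := by
      calc 4 = 2 ^ 2 := by norm_num
        _ ≤ _ := Nat.pow_le_pow_right (by norm_num) (by omega)
    omega

end Cfsg.Agent.S4483
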