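import Cfsg.Statements.S4489
import Cfsg.Agent.Lib.Char.SchurC

set_option autoImplicit false
open Cfsg

namespace Cfsg.Agent.S4489

/-- Let P be a finite p-group of order p^a with a > 0, and χ a faithful irreducible character of P of degree f whose field of values ℚ(χ) has degree (p − 1)·p^t over ℚ. Then a ≤ (f − 1)/(p − 1) + (t + 1)·f; in integer form, (p − 1)·a ≤ (f − 1) + (p − 1)(t + 1)·f. -/
theorem result {P : Type*} [Group P] [Finite P] (p a : ℕ) (hp : p.Prime) (ha : 0 < a) (hP : Nat.card P = p ^ a) (χ : Cfsg.IrrCharacter P) (hfaith : ∀ g : P, (χ : P → ℂ) g = (χ : P → ℂ) 1 → g = 1) (f t : ℕ) (hf : Cfsg.charDegree (χ : P → ℂ) = f) (hfield : Module.finrank ℚ (IntermediateField.adjoin ℚ (Set.range (χ : P → ℂ))) = (p - 1) * p ^ t) : (p - 1) * a ≤ (f - 1) + (p - 1) * (t + 1) * f := by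
  classical
  letI : Fintype P := Fintype.ofFinite P
  haveI : Fact p.Prime := ⟨hp⟩
  have hχc := Cfsg.Agent.Lib.Char.IsIrrCharacter.isCharacter χ.2
  have hker : Cfsg.Agent.Lib.Char.charKer (χ : P → ℂ) = ⊥ := by
    rw [eq_bot_iff]
    intro g hg
    rw [Subgroup.mem_bot]
    exact hfaith g ((Cfsg.Agent.Lib.Char.mem_charKer hχc).mp hg)
  exact Cfsg.Agent.Lib.Char.Schur.main_aux p f P a hP (χ : P → ℂ) χ.2 hker hf t (le_of_eq hfield)

end Cfsg.Agent.S4489
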