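import Cfsg.Statements.S4491
import Cfsg.Agent.Lib.H8Group.RegBlock

set_option autoImplicit false
open Cfsg

namespace Cfsg.Agent.S4491

open Cfsg.Agent.Lib.Char Cfsg.Agent.Lib.H8Group Cfsg.Agent.Lib.Blocks
open scoped ComplexConjugate

/-- Let B be a p-block of defect d of the finite group G (relative to a maximal ideal M of the algebraic integers containing p), and let p^a be the p-part of the order of G. Then the exact power of p dividing the sum of the squares of the degrees of the irreducible characters in B is p^(2a − d). -/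
theorem result {G : Type*} [Group G] [Finite G] (p : ℕ) [Fact p.Prime] (M : Ideal Cfsg.AlgInt) (hM : Cfsg.IsPModular p M) (B : Set (Cfsg.IrrCharacter G)) (hB : Cfsg.IsPBlock M B) : (∑ᶠ χ ∈ B, Cfsg.charDegree (χ : G → ℂ) ^ 2).factorization p = 2 * (Nat.card G).factorization p - Cfsg.blockDefect p B := by
  classical
  letI := Fintype.ofFinite G
  haveI := isPrime_of_modular hM
  have hpp : p.Prime := Fact.out
  obtain ⟨g, hg⟩ := exists_defectClass hB
  obtain ⟨h1, h2⟩ := coef_indic_one_div_index hM hB hg
  set idx := (Subgroup.centralizer ({g} : Set G)).index with hidx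
  have hidx0 : idx ≠ 0 := Subgroup.index_ne_zero_of_finite
  set n := ∑ᶠ χ ∈ B, charDegree (χ : G → ℂ) ^ 2 with hn
  have hcast : (n : ℂ) = ∑ᶠ χ ∈ B, (χ : G → ℂ) 1 * conj ((χ : G → ℂ) 1) := by
    rw [hn, finsum_mem_eq_finite_toFinset_sum _ (Set.toFinite B),
      finsum_mem_eq_finite_toFinset_sum _ (Set.toFinite B)]
    push_cast
    refine Finset.sum_congr rfl fun χ _ => ?_
    rw [apply_one_eq_charDegree (IsIrrCharacter.isCharacter χ.2), Complex.conj_natCast, pow_two]
  have hcoef : coef (indic B) 1 = (Nat.card G : ℂ)⁻¹ * (n : ℂ) := by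
    rw [← blockCoeff_eq_coef, blockCoeff, hcast]
  have hG0 : (Nat.card G : ℂ) ≠ 0 := card_ne_zero_complex
  have hdiv : coef (indic B) 1 / (idx : ℂ) = (n : ℂ) / ((Nat.card G * idx : ℕ) : ℂ) := by
    rw [hcoef]
    push_cast
    field_simp
  rw [hdiv] at h1 h2
  have hn0 : n ≠ 0 := by
    intro h0
    apply h2
    rw [h0]
    simpa using memLocalIdeal_zero
  have hv := val_eq_of_unit_div hM hn0 (mul_ne_zero Nat.card_pos.ne' hidx0) h1 h2
  have hsInf := sInf_degree_eq_of_defectClass hM hB hg
  rw [← hidx] at hsInf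
  rw [hv, Nat.factorization_mul Nat.card_pos.ne' hidx0, Finsupp.add_apply, blockDefect, hsInf]
  have hle : idx.factorization p ≤ (Nat.card G).factorization p :=
    (Nat.factorization_le_iff_dvd hidx0 Nat.card_pos.ne').mpr (Subgroup.index_dvd_card _) p
  omega

end Cfsg.Agent.S4491
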