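import Cfsg.Statements.S4493
import Cfsg.Agent.Lib.Char.ItoP
import Cfsg.Agent.Lib.Char.CliffordBij
import Cfsg.Agent.Lib.Struct.PLen

set_option autoImplicit false
open Cfsg

namespace Cfsg.Agent.S4493

open Cfsg.Agent.Lib.Char Cfsg.Agent.Lib.H8Group Cfsg.Agent.Lib.Blocks

/-- Let G be a finite solvable group and p a prime. Then G has a normal abelian Sylow p-subgroup if and only if no irreducible character degree of G is divisible by p. -/
theorem result {G : Type*} [Group G] [Finite G] (hsolv : Group.IsSolvable G) (p : ℕ) (hp : p.Prime) : (∃ P : Subgroup G, P.Normal ∧ (∀ x ∈ P, ∀ y ∈ P, x * y = y * x) ∧ IsPGroup p P ∧ ¬ p ∣ P.index) ↔ ∀ χ : Cfsg.IrrCharacter G, ¬ p ∣ Cfsg.charDegree (χ : G → ℂ) := by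
  classical
  haveI : Fact p.Prime := ⟨hp⟩
  have hps : Cfsg.IsPSolvable p G := Cfsg.Agent.Lib.Struct.isPSolvable_of_isSolvable p _ G rfl hsolv
  constructor
  · rintro ⟨P, hn, hc, hpP, hi⟩ χ h
    letI := Fintype.ofFinite G
    haveI := hn
    have h1 := charDegree_dvd_index_of_abelian χ.2 P hc
    exact hi (h.trans h1)
  · intro hd
    let P : Sylow p G := default
    have hn := sylow_normal_of_isPSolvable _ G rfl hps hd P
    have hc := isMulCommutative_sylow_of_normal P hn hd
    refine ⟨P, hn, fun x hx y hy => ?_, P.isPGroup', P.not_dvd_index⟩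
    have := hc.is_comm.comm ⟨x, hx⟩ ⟨y, hy⟩
    simpa using congrArg Subtype.val this

end Cfsg.Agent.S4493
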