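import Cfsg.Statements.S4495
import Cfsg.Agent.Lib.H8Group.SelfCentralizing

set_option autoImplicit false
open Cfsg

namespace Cfsg.Agent.S4495

open Cfsg.Agent.Lib.H8Group

/-- Let the finite group G contain an element x of prime order p with C_G(x) = ⟨x⟩, and let t be the number of conjugacy classes of elements of order p. If t ≠ p − 1 then the commutator subgroup has index at most (p − 1)/t; if t = p − 1 it has index exactly p. -/
theorem result {G : Type*} [Group G] [Finite G] (p : ℕ) (hp : p.Prime) (x : G) (hx : orderOf x = p) (hC : Subgroup.centralizer ({x} : Set G) = Subgroup.zpowers x) (t : ℕ) (ht : Nat.card {C : ConjClasses G // ∃ g ∈ C.carrier, orderOf g = p} = t) : (t ≠ p - 1 → (commutator G).index * t ≤ p - 1) ∧ (t = p - 1 → (commutator G).index = p) := by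
  have := Fact.mk hp
  have hmul := sc_card_classes_mul hx hC
  rw [ht] at hmul
  have hpos : 0 < p - 1 := Nat.sub_pos_of_lt hp.one_lt
  have hd : (Subgroup.zpowers x).relIndex (Subgroup.normalizer (Subgroup.zpowers x : Set G)) ≠ 0 := by
    intro h0
    rw [h0, mul_zero] at hmul
    omega
  constructor
  · intro hne
    have hd1 : (Subgroup.zpowers x).relIndex (Subgroup.normalizer (Subgroup.zpowers x : Set G)) ≠ 1 := by
      intro h1
      rw [h1, mul_one] at hmul
      exact hne hmul
    have hdvd := sc_index_dvd hx hC hd1
    have hle := Nat.le_of_dvd (Nat.pos_of_ne_zero hd) hdvd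
    calc (commutator G).index * t ≤ _ * t := Nat.mul_le_mul_right t hle
      _ = p - 1 := by rw [mul_comm]; exact hmul
  · intro heq
    have hd1 : (Subgroup.zpowers x).relIndex (Subgroup.normalizer (Subgroup.zpowers x : Set G)) = 1 := by
      rw [heq] at hmul
      exact Nat.eq_of_mul_eq_mul_left hpos (by rw [hmul, mul_one])
    exact (sc_commutator_complement hx hC hd1).2.1

end Cfsg.Agent.S4495
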