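import Cfsg.Statements.S4500
import Cfsg.Agent.Lib.Blocks.PrincipalDegrees

set_option autoImplicit false
open Cfsg

namespace Cfsg.Agent.S4500

/-- Let G be a non-trivial finite group of order p^a · q^b · r^c with p, q, r distinct primes and a ≤ 2. Then G has a non-principal irreducible character whose degree is a power of q, and a non-principal irreducible character whose degree is a power of r; the power may be the zeroth, so a non-principal linear character serves for both. -/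
theorem result {G : Type*} [Group G] [Finite G] [Nontrivial G] (p q r a b c : ℕ) (hp : p.Prime) (hq : q.Prime) (hr : r.Prime) (hpq : p ≠ q) (hpr : p ≠ r) (hqr : q ≠ r) (ha : a ≤ 2) (hG : Nat.card G = p ^ a * q ^ b * r ^ c) : (∃ χ : Cfsg.IrrCharacter G, (χ : G → ℂ) ≠ (fun _ => 1) ∧ ∃ k : ℕ, Cfsg.charDegree (χ : G → ℂ) = q ^ k) ∧ ∃ χ : Cfsg.IrrCharacter G, (χ : G → ℂ) ≠ (fun _ => 1) ∧ ∃ k : ℕ, Cfsg.charDegree (χ : G → ℂ) = r ^ k := by
  classical
  cases nonempty_fintype G
  have aux : ∀ (q r b c : ℕ), q.Prime → r.Prime → p ≠ q → p ≠ r → q ≠ r → Nat.card G = p ^ a * q ^ b * r ^ c →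
      ∃ χ : Cfsg.IrrCharacter G, (χ : G → ℂ) ≠ (fun _ => 1) ∧ ∃ k : ℕ, Cfsg.charDegree (χ : G → ℂ) = q ^ k := by
    intro q r b c hq hr hpq hpr hqr hG
    have hcardne : Nat.card G ≠ 0 := Nat.card_pos.ne'
    -- the key input
    have key : ∃ χ : Cfsg.IrrCharacter G, (χ : G → ℂ) ≠ (fun _ => 1) ∧ ¬ p ∣ Cfsg.charDegree (χ : G → ℂ) ∧
        ¬ r ∣ Cfsg.charDegree (χ : G → ℂ) := by
      by_cases hpd : p ∣ Nat.card G
      · haveI : Fact p.Prime := ⟨hp⟩
        obtain ⟨M, hM⟩ := Cfsg.Agent.Lib.Char.exists_isPModular hp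
        obtain ⟨y, hy⟩ := exists_prime_orderOf_dvd_card (G := G) p (by rwa [← Nat.card_eq_fintype_card])
        obtain ⟨χ, hχ, h1, h2⟩ := Cfsg.Agent.Lib.Blocks.exists_principal_not_dvd hM hr (y := y) (by rw [hy])
        refine ⟨χ, h1, ?_, h2⟩
        apply Cfsg.Agent.Lib.Blocks.not_dvd_of_principal_of_val_le_two hM _ hχ
        by_contra hlt
        have h3 : p ^ 3 ∣ Nat.card G := (hp.pow_dvd_iff_le_factorization hcardne).mpr (by omega)
        rw [hG] at h3
        have hc1 : Nat.Coprime (p ^ 3) (q ^ b * r ^ c) :=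
          Nat.Coprime.pow_left _ (Nat.Coprime.mul_right
            (Nat.Coprime.pow_right _ ((Nat.coprime_primes hp hq).mpr hpq))
            (Nat.Coprime.pow_right _ ((Nat.coprime_primes hp hr).mpr hpr)))
        rw [mul_assoc] at h3
        have h4 : p ^ 3 ∣ p ^ a := hc1.dvd_of_dvd_mul_right h3
        have h5 := (Nat.pow_dvd_pow_iff_le_right hp.one_lt).mp h4
        omega
      · have hregular : ∀ χ : Cfsg.IrrCharacter G, ¬ p ∣ Cfsg.charDegree (χ : G → ℂ) := fun χ hd =>
          hpd (hd.trans (Cfsg.Agent.Lib.Char.charDegree_dvd_card χ.2))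
        by_cases hqd : q ∣ Nat.card G
        · haveI : Fact q.Prime := ⟨hq⟩
          obtain ⟨M, hM⟩ := Cfsg.Agent.Lib.Char.exists_isPModular hq
          obtain ⟨y, hy⟩ := exists_prime_orderOf_dvd_card (G := G) q (by rwa [← Nat.card_eq_fintype_card])
          obtain ⟨χ, hχ, h1, h2⟩ := Cfsg.Agent.Lib.Blocks.exists_principal_not_dvd hM hr (y := y) (by rw [hy])
          exact ⟨χ, h1, hregular χ, h2⟩
        · have hrd : r ∣ Nat.card G := by
            obtain ⟨ℓ, hℓ, hℓd⟩ := Nat.exists_prime_and_dvd (Finite.one_lt_card (α := G)).ne'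
            have h6 := hℓd
            rw [hG] at h6
            rcases (hℓ.dvd_mul).mp h6 with h7 | h7
            · rcases (hℓ.dvd_mul).mp h7 with h8 | h8
              · have := (Nat.prime_dvd_prime_iff_eq hℓ hp).mp (hℓ.dvd_of_dvd_pow h8)
                subst this; exact absurd hℓd hpd
              · have := (Nat.prime_dvd_prime_iff_eq hℓ hq).mp (hℓ.dvd_of_dvd_pow h8)
                subst this; exact absurd hℓd hqd
            · have := (Nat.prime_dvd_prime_iff_eq hℓ hr).mp (hℓ.dvd_of_dvd_pow h7)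
              subst this; exact hℓd
          haveI : Fact r.Prime := ⟨hr⟩
          obtain ⟨M, hM⟩ := Cfsg.Agent.Lib.Char.exists_isPModular hr
          obtain ⟨y, hy⟩ := exists_prime_orderOf_dvd_card (G := G) r (by rwa [← Nat.card_eq_fintype_card])
          obtain ⟨χ, hχ, h1, h2⟩ := Cfsg.Agent.Lib.Blocks.exists_principal_not_dvd hM hr (y := y) (by rw [hy])
          exact ⟨χ, h1, hregular χ, h2⟩
    obtain ⟨χ, h1, h2, h3⟩ := key
    refine ⟨χ, h1, ?_⟩
    have h4 : Cfsg.charDegree (χ : G → ℂ) ∣ p ^ a * q ^ b * r ^ c := by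
      rw [← hG]; exact Cfsg.Agent.Lib.Char.charDegree_dvd_card χ.2
    have h5 : Nat.Coprime (Cfsg.charDegree (χ : G → ℂ)) (r ^ c) :=
      Nat.Coprime.pow_right _ ((Nat.Prime.coprime_iff_not_dvd hr).mpr h3).symm
    have h6 : Cfsg.charDegree (χ : G → ℂ) ∣ p ^ a * q ^ b := h5.dvd_of_dvd_mul_right h4
    have h7 : Nat.Coprime (Cfsg.charDegree (χ : G → ℂ)) (p ^ a) :=
      Nat.Coprime.pow_right _ ((Nat.Prime.coprime_iff_not_dvd hp).mpr h2).symm
    have h8 : Cfsg.charDegree (χ : G → ℂ) ∣ q ^ b := h7.dvd_of_dvd_mul_left h6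
    obtain ⟨k, -, hk⟩ := (Nat.dvd_prime_pow hq).mp h8
    exact ⟨k, hk⟩
  refine ⟨aux q r b c hq hr hpq hpr hqr hG, aux r q c b hr hq hpr hpq hqr.symm ?_⟩
  rw [hG]; ring

end Cfsg.Agent.S4500
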