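import Cfsg.Statements.S4506
import Cfsg.Agent.Lib.Blocks.PConj
import Cfsg.Agent.Lib.Char.DefectZero

set_option autoImplicit false
open Cfsg

namespace Cfsg.Agent.S4506

/-- Let G be a finite group, p a prime, p^a the p-part of the order of G and g′ its p′-part. Call two irreducible characters p-conjugate when one is obtained from the other by applying a field automorphism of ℂ that fixes the g′-th roots of unity, and let r be the number of characters p-conjugate to the irreducible character χ (χ included). Then the exponent of p in r·χ(1) is at most a; and if p^a divides r·χ(1) then p^a already divides χ(1). -/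
theorem result {G : Type*} [Group G] [Finite G] (p : ℕ) (hp : p.Prime) (χ : Cfsg.IrrCharacter G) (r : ℕ) (hr : Nat.card {ψ : Cfsg.IrrCharacter G // ∃ σ : ℂ ≃+* ℂ, σ (Complex.exp (2 * Real.pi * Complex.I / ((Nat.card G / p ^ (Nat.card G).factorization p) : ℕ))) = Complex.exp (2 * Real.pi * Complex.I / ((Nat.card G / p ^ (Nat.card G).factorization p) : ℕ)) ∧ (ψ : G → ℂ) = fun g => σ ((χ : G → ℂ) g)} = r) : (r * Cfsg.charDegree (χ : G → ℂ)).factorization p ≤ (Nat.card G).factorization p ∧ (p ^ (Nat.card G).factorization p ∣ r * Cfsg.charDegree (χ : G → ℂ) → p ^ (Nat.card G).factorization p ∣ Cfsg.charDegree (χ : G → ℂ)) := by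
  classical
  cases nonempty_fintype G
  haveI : Fact p.Prime := ⟨hp⟩
  have hG : Nat.card G = p ^ (Nat.card G).factorization p * (Nat.card G / p ^ (Nat.card G).factorization p) :=
    (Nat.ordProj_mul_ordCompl_eq_self _ p).symm
  have hc : (p ^ (Nat.card G).factorization p).Coprime (Nat.card G / p ^ (Nat.card G).factorization p) :=
    Nat.Coprime.pow_left _ ((Nat.Prime.coprime_iff_not_dvd hp).mpr (Nat.not_dvd_ordCompl hp Nat.card_pos.ne'))
  haveI : NeZero (p ^ (Nat.card G).factorization p) := ⟨pow_ne_zero _ hp.ne_zero⟩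
  haveI : NeZero (Nat.card G / p ^ (Nat.card G).factorization p) :=
    ⟨fun h => by rw [h, mul_zero] at hG; exact (Nat.card_pos (α := G)).ne' hG⟩
  obtain ⟨M, hM⟩ := Cfsg.Agent.Lib.Char.exists_isPModular hp
  refine Cfsg.Agent.Lib.Blocks.pc_main χ hG hc hM (r := r) ?_
  rw [← hr]
  exact Nat.card_congr (Equiv.subtypeEquivRight fun ψ => (Cfsg.Agent.Lib.Blocks.pc_orbit_iff hG hc χ ψ).symm)

end Cfsg.Agent.S4506
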