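import Cfsg.Statements.S4508
import Cfsg.Agent.Lib.Char.SelfCentC
import Cfsg.Agent.Lib.Char.Degree

set_option autoImplicit false
open Cfsg

namespace Cfsg.Agent.S4508

/-- Let the finite group G contain an element x of prime order p with C_G(x) = ⟨x⟩, and let t be the number of conjugacy classes of elements of order p. If G has an irreducible character of degree p − 1, then t is even or the commutator subgroup has even index. -/
theorem result {G : Type*} [Group G] [Finite G] (p : ℕ) (hp : p.Prime) (x : G) (hx : orderOf x = p) (hC : Subgroup.centralizer ({x} : Set G) = Subgroup.zpowers x) (t : ℕ) (ht : Nat.card {C : ConjClasses G // ∃ g ∈ C.carrier, orderOf g = p} = t) (χ : Cfsg.IrrCharacter G) (hχ : Cfsg.charDegree (χ : G → ℂ) + 1 = p) : Even t ∨ Even (commutator G).index := by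
  classical
  have hp2' : (χ : G → ℂ) 1 + 1 = (p : ℂ) := by
    rw [Cfsg.Agent.Lib.Char.apply_one_eq_charDegree (Cfsg.Agent.Lib.Char.IsIrrCharacter.isCharacter χ.2)]
    exact_mod_cast hχ
  by_cases h2 : p = 2
  · subst h2
    exact Or.inr (Cfsg.Agent.Lib.Char.SelfCent.even_index_of_two x hx hC)
  by_cases he : Even t
  · exact Or.inl he
  right
  have hodd : Odd (Nat.card {C : ConjClasses G // ∃ g ∈ C.carrier, orderOf g = p}) := by
    rw [ht]
    exact Nat.not_even_iff_odd.mp he
  obtain ⟨c, hc⟩ := Cfsg.Agent.Lib.Char.SelfCent.main_odd hp h2 x hx hC hodd χ.2 hp2'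
  obtain ⟨δ, hδ⟩ := Cfsg.Agent.Lib.H8Group.exists_detHom (Cfsg.Agent.Lib.Char.IsIrrCharacter.isCharacter χ.2)
  have h1 : commutator G ≤ δ.ker := Abelianization.commutator_subset_ker δ
  have h3 := Subgroup.index_dvd_of_le h1
  have h4 : (δ c : ℂ) = -1 := by rw [← hδ, hc]
  have h5 : δ c ≠ 1 := by
    intro h
    rw [h] at h4
    norm_num at h4
  have h6 : (δ c) ^ 2 = 1 := by
    ext
    push_cast
    rw [h4]
    norm_num
  have h7 : orderOf (⟨δ c, c, rfl⟩ : δ.range) = 2 := by
    apply orderOf_eq_prime
    · exact Subtype.ext h6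
    · intro h
      exact h5 (congrArg Subtype.val h)
  have h8 : 2 ∣ δ.ker.index := by
    rw [Subgroup.index_ker, ← h7]
    exact orderOf_dvd_natCard _
  exact even_iff_two_dvd.mpr (h8.trans h3)

end Cfsg.Agent.S4508
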