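import Cfsg.Statements.S4509
import Cfsg.Agent.Lib.H8Group.SelfCentralizing

set_option autoImplicit false
open Cfsg

namespace Cfsg.Agent.S4509

open Cfsg.Agent.Lib.H8Group Cfsg.Agent.Lib.Basic Subgroup
open scoped commutatorElement

section aux

variable {G : Type*} [Group G] [Finite G] {p : ℕ} [hp : Fact p.Prime] {x : G}

/-- Case `t = p - 1`. -/
theorem aux_eq (hx : orderOf x = p) (hC : centralizer ({x} : Set G) = zpowers x)
    (h : (zpowers x).relIndex (normalizer (zpowers x : Set G)) = 1) :
    Nat.card (commutator G) = (normalizer (zpowers x : Set G)).index ∧ IsCyclic (G ⧸ commutator G) ∧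
      (commutator G).index = p := by
  obtain ⟨h1, h2, -⟩ := sc_commutator_complement hx hC h
  refine ⟨?_, ?_, h2⟩
  · have hN : normalizer (zpowers x : Set G) = zpowers x :=
      le_antisymm (relIndex_eq_one.mp h) le_normalizer
    rw [hN, h1.index_eq_card]
  · have hfact : Nat.card (G ⧸ commutator G) = p := by rw [← index_eq_card]; exact h2
    exact isCyclic_of_prime_card hfact

/-- Case `t < p - 1`, `G'' ≠ G'`. -/
theorem aux_lt (hx : orderOf x = p) (hC : centralizer ({x} : Set G) = zpowers x)
    (h : (zpowers x).relIndex (normalizer (zpowers x : Set G)) ≠ 1)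
    (hder : derivedSeries G 2 ≠ derivedSeries G 1) :
    Nat.card (derivedSeries G 2) = (normalizer (zpowers x : Set G)).index ∧
      Nat.card (commutator G) = p * (normalizer (zpowers x : Set G)).index := by
  have hP := sc_zpowers_le_commutator hx hC h
  have hxG : x ∈ commutator G := hP (mem_zpowers x)
  have hdd : derivedSeries G 2 = ⁅commutator G, commutator G⁆ := by
    rw [derivedSeries_succ, derivedSeries_one]
  have hdd1 : derivedSeries G 1 = commutator G := derivedSeries_one G
  have hle21 : derivedSeries G 2 ≤ commutator G := by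
    rw [← hdd1]; exact derivedSeries_antitone G (Nat.le_succ 1)
  have hn2 : (derivedSeries G 2).Normal := derivedSeries_normal G 2
  -- `G''` has order prime to `p`
  have h2 : ¬ p ∣ Nat.card (derivedSeries G 2) := by
    intro hdvd
    apply hder
    rw [hdd1]
    exact le_antisymm hle21 (sc_commutator_le_of_dvd hx hC hdvd)
  have h3 : derivedSeries G 2 ≤ pPrimeCore p G :=
    le_pPrimeCore hn2 (((Nat.Prime.coprime_iff_not_dvd hp.out).mpr h2).symm)
  have hS := sc_not_dvd_pPrimeCore (p := p) (G := G)
  have hSle : pPrimeCore p G ≤ commutator G := sc_le_commutator hx hC hS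
  have h4 : pPrimeCore p G ≤ derivedSeries G 2 := by
    intro u hu
    obtain ⟨s, hs, rfl⟩ := sc_exists_comm hx hC hS hu
    rw [hdd]
    exact commutator_mem_commutator (hSle hs) hxG
  have h5 : derivedSeries G 2 = pPrimeCore p G := le_antisymm h3 h4
  rw [h5]
  -- `G' = S* P`
  let L : Subgroup G := zpowers x ⊔ pPrimeCore p G
  have hLle : L ≤ commutator G := sup_le hP hSle
  have hSL : pPrimeCore p G ≤ L := le_sup_right
  have hPL : zpowers x ≤ L := le_sup_left
  have hLn : ∀ g ∈ commutator G, ∀ l ∈ L, g * l * g⁻¹ ∈ L := by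
    intro g hg l hl
    have h6 : ⁅g, l⁆ ∈ pPrimeCore p G := by
      rw [← h5, hdd]
      exact commutator_mem_commutator hg (hLle hl)
    have h7 : g * l * g⁻¹ = ⁅g, l⁆ * l := by
      rw [commutatorElement_def]; group
    rw [h7]
    exact L.mul_mem (hSL h6) hl
  have hdvdL : p ∣ Nat.card L := by
    rw [← sc_card_zpowers hx]
    exact card_dvd_of_le hPL
  have h8 : commutator G ≤ L := sc_commutator_le_of_dvd_of_le hx hC hP hLn hdvdL
  have h9 : commutator G = L := le_antisymm h8 hLle
  -- order of `L`
  have h10 : Nat.card L = Nat.card (pPrimeCore p G) * p := by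
    have h11 : Nat.card L = Nat.card (pPrimeCore p G) * (pPrimeCore p G).relIndex (zpowers x) :=
      card_sup_eq_of_normal _ _
    have h12 : (pPrimeCore p G).relIndex (zpowers x) = p := by
      change ((pPrimeCore p G).subgroupOf (zpowers x)).index = p
      have h13 : (pPrimeCore p G).subgroupOf (zpowers x) = ⊥ := by
        rw [eq_bot_iff]
        intro y hy
        have h14 : (y : G) ∈ pPrimeCore p G ⊓ zpowers x := ⟨mem_subgroupOf.mp hy, y.2⟩
        rw [sc_inf_eq_bot hx hS, mem_bot] at h14
        exact mem_bot.mpr (Subtype.ext h14)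
      rw [h13, index_bot, sc_card_zpowers hx]
    rw [h11, h12]
  -- `N ⊔ S* = ⊤`
  have h15 : normalizer (zpowers x : Set G) ⊔ pPrimeCore p G = ⊤ := by
    have h16 := sc_normalizer_sup hx hC hP
    rw [eq_top_iff, ← h16]
    refine sup_le le_sup_left ?_
    rw [h9]
    exact sup_le (le_normalizer.trans le_sup_left) le_sup_right
  have h17 := sc_card_mul_card_normalizer_dvd hx hC hS
  rw [h15, card_top, ← (normalizer (zpowers x : Set G)).index_mul_card] at h17
  have h18 : Nat.card (pPrimeCore p G) = (normalizer (zpowers x : Set G)).index :=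
    Nat.eq_of_mul_eq_mul_right Nat.card_pos h17
  refine ⟨h18, ?_⟩
  rw [h9, h10, h18, mul_comm]

/-- A normal subgroup of order `[G : N(P)]` forces `G'' ≠ G'`. -/
theorem aux_exists (hx : orderOf x = p) (hC : centralizer ({x} : Set G) = zpowers x)
    (h : (zpowers x).relIndex (normalizer (zpowers x : Set G)) ≠ 1)
    {S : Subgroup G} [hSn : S.Normal] (hS : ¬ p ∣ Nat.card S)
    (hcard : Nat.card S = (normalizer (zpowers x : Set G)).index) :
    derivedSeries G 2 ≠ derivedSeries G 1 := by
  have hP := sc_zpowers_le_commutator hx hC h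
  have hxG : x ∈ commutator G := hP (mem_zpowers x)
  have hdd : derivedSeries G 2 = ⁅commutator G, commutator G⁆ := by
    rw [derivedSeries_succ, derivedSeries_one]
  have hdd1 : derivedSeries G 1 = commutator G := derivedSeries_one G
  have h1 := sc_card_mul_card_normalizer_dvd hx hC hS
  rw [hcard, (normalizer (zpowers x : Set G)).index_mul_card] at h1
  have htop : normalizer (zpowers x : Set G) ⊔ S = ⊤ := (card_eq_iff_eq_top _).mp h1.symm
  have hdecomp : ∀ g : G, ∃ n ∈ normalizer (zpowers x : Set G), QuotientGroup.mk' S g = QuotientGroup.mk' S n := by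
    intro g
    have hg : g ∈ normalizer (zpowers x : Set G) ⊔ S := by rw [htop]; exact mem_top g
    obtain ⟨n, hn, s, hs, rfl⟩ := mem_sup_of_normal_right.mp hg
    refine ⟨n, hn, ?_⟩
    rw [map_mul, show QuotientGroup.mk' S s = 1 from (QuotientGroup.eq_one_iff s).mpr hs, mul_one]
  have h2 : ∀ a ∈ commutator G, QuotientGroup.mk' S a ∈ (zpowers x).map (QuotientGroup.mk' S) := by
    intro a ha
    have h3 : commutator G ≤ (((zpowers x).map (QuotientGroup.mk' S)).comap (QuotientGroup.mk' S)) := by
      rw [commutator_def, commutator_le]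
      rintro a - b -
      obtain ⟨n, hn, hna⟩ := hdecomp a
      obtain ⟨m, hm, hmb⟩ := hdecomp b
      rw [mem_comap, map_commutatorElement, hna, hmb, ← map_commutatorElement]
      exact mem_map_of_mem _ (sc_commutator_mem hC hn hm)
    exact h3 ha
  have h4 : derivedSeries G 2 ≤ S := by
    rw [hdd, commutator_le]
    intro a ha b hb
    obtain ⟨u, hu, hua⟩ := h2 a ha
    obtain ⟨v, hv, hvb⟩ := h2 b hb
    obtain ⟨k, rfl⟩ := mem_zpowers_iff.mp hu
    obtain ⟨l, rfl⟩ := mem_zpowers_iff.mp hv
    have h5 : QuotientGroup.mk' S ⁅a, b⁆ = 1 := by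
      rw [map_commutatorElement, ← hua, ← hvb, ← map_commutatorElement,
        commutatorElement_eq_one_iff_commute.mpr ((Commute.refl x).zpow_zpow k l), map_one]
    exact (QuotientGroup.eq_one_iff _).mp h5
  intro heq
  rw [heq, hdd1] at h4
  exact sc_not_mem hx hS (h4 hxG)

end aux

/-- Let the finite group G contain an element x of prime order p with C_G(x) = ⟨x⟩; let t be the number of conjugacy classes of elements of order p and 1 + n·p the number of subgroups of order p. Then G has a normal subgroup of order 1 + n·p if and only if either t = p − 1, or t < p − 1 and G″ ≠ G′. Moreover, if t = p − 1 then G′ has order 1 + n·p and G/G′ is cyclic of order p; and if t < p − 1 and G″ ≠ G′ then G″ has order 1 + n·p and G′ has order p·(1 + n·p). -/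
theorem result {G : Type*} [Group G] [Finite G] (p : ℕ) (hp : p.Prime) (x : G) (hx : orderOf x = p) (hC : Subgroup.centralizer ({x} : Set G) = Subgroup.zpowers x) (t : ℕ) (ht : Nat.card {C : ConjClasses G // ∃ g ∈ C.carrier, orderOf g = p} = t) (n : ℕ) (hn : Nat.card {H : Subgroup G // Nat.card H = p} = 1 + n * p) : ((∃ S : Subgroup G, S.Normal ∧ Nat.card S = 1 + n * p) ↔ (t = p - 1 ∨ (t < p - 1 ∧ derivedSeries G 2 ≠ derivedSeries G 1))) ∧ (t = p - 1 → Nat.card (commutator G) = 1 + n * p ∧ IsCyclic (G ⧸ commutator G) ∧ (commutator G).index = p) ∧ (t < p - 1 → derivedSeries G 2 ≠ derivedSeries G 1 → Nat.card (derivedSeries G 2) = 1 + n * p ∧ Nat.card (commutator G) = p * (1 + n * p)) := by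
  have := Fact.mk hp
  have hmul := sc_card_classes_mul hx hC
  rw [ht] at hmul
  rw [sc_card_subgroups hx hC] at hn
  have hpos : 0 < p - 1 := Nat.sub_pos_of_lt hp.one_lt
  have hd0 : (Subgroup.zpowers x).relIndex (Subgroup.normalizer (Subgroup.zpowers x : Set G)) ≠ 0 := by
    intro h0
    rw [h0, mul_zero] at hmul
    omega
  have hd1 : t = p - 1 → (Subgroup.zpowers x).relIndex (Subgroup.normalizer (Subgroup.zpowers x : Set G)) = 1 := by
    intro heq
    rw [heq] at hmul
    exact Nat.eq_of_mul_eq_mul_left hpos (by rw [hmul, mul_one])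
  have hd2 : t ≠ p - 1 → (Subgroup.zpowers x).relIndex (Subgroup.normalizer (Subgroup.zpowers x : Set G)) ≠ 1 := by
    intro hne h1
    rw [h1, mul_one] at hmul
    exact hne hmul
  have htle : t ≤ p - 1 := by
    rw [← hmul]
    exact Nat.le_mul_of_pos_right t (Nat.pos_of_ne_zero hd0)
  have hB : t = p - 1 → Nat.card (commutator G) = 1 + n * p ∧ IsCyclic (G ⧸ commutator G) ∧ (commutator G).index = p := by
    intro heq
    rw [← hn]
    exact aux_eq hx hC (hd1 heq)
  have hC' : t < p - 1 → derivedSeries G 2 ≠ derivedSeries G 1 → Nat.card (derivedSeries G 2) = 1 + n * p ∧ Nat.card (commutator G) = p * (1 + n * p) := by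
    intro hlt hder
    rw [← hn]
    exact aux_lt hx hC (hd2 hlt.ne) hder
  refine ⟨⟨?_, ?_⟩, hB, hC'⟩
  · rintro ⟨S, hS, hcard⟩
    by_cases heq : t = p - 1
    · exact Or.inl heq
    · right
      refine ⟨lt_of_le_of_ne htle heq, ?_⟩
      have hnd : ¬ p ∣ Nat.card S := by
        rw [hcard]
        intro hdvd
        have h1 : p ∣ 1 := (Nat.dvd_add_left (Dvd.intro_left n rfl)).mp hdvd
        exact hp.one_lt.ne' (Nat.dvd_one.mp h1)
      exact aux_exists hx hC (hd2 heq) hnd (hcard.trans hn.symm)
  · rintro (heq | ⟨hlt, hder⟩)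
    · exact ⟨commutator G, inferInstance, (hB heq).1⟩
    · exact ⟨derivedSeries G 2, derivedSeries_normal G 2, (hC' hlt hder).1⟩

end Cfsg.Agent.S4509
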