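import Cfsg.Statements.S4512
import Cfsg.Agent.Lib.Blocks.SubCount

set_option autoImplicit false
open Cfsg

namespace Cfsg.Agent.S4512

/-- If G is a finite group with a Sylow 2-subgroup that is a Klein four-group and a single conjugacy class of involutions, then its principal 2-block (relative to a maximal ideal M of the algebraic integers containing 2) has 2-regular rank 3: the restrictions of its irreducible characters to the elements of odd order span a space of dimension 3 (it has three irreducible Brauer characters). -/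
theorem result {G : Type*} [Group G] [Finite G] (M : Ideal Cfsg.AlgInt) (hM : Cfsg.IsPModular 2 M) (P : Sylow 2 G)
    (hP : Nat.card P = 4) (hexp : ∀ x : P, x * x = 1)
    (hone : ∀ s t : G, orderOf s = 2 → orderOf t = 2 → IsConj s t) :
    Cfsg.blockRank 2 (Cfsg.principalBlock M G) = 3 := by
  classical
  letI : Fintype G := Fintype.ofFinite G
  have hprime := Cfsg.Agent.Lib.Blocks.isPrime_of_modular hM
  haveI hK : IsKleinFour (P : Subgroup G) := by
    haveI : Nontrivial (P : Subgroup G) := by
      rw [← Finite.one_lt_card_iff_nontrivial, hP]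
      norm_num
    refine ⟨hP, ?_⟩
    have h1 : Monoid.exponent (P : Subgroup G) ∣ 2 := by
      apply Monoid.exponent_dvd_of_forall_pow_eq_one
      intro x
      rw [pow_two]
      exact hexp x
    obtain ⟨x, hx⟩ := exists_ne (1 : (P : Subgroup G))
    have h2 : Monoid.exponent (P : Subgroup G) ≠ 1 := by
      intro h
      have h3 := Monoid.pow_exponent_eq_one x
      rw [h, pow_one] at h3
      exact hx h3
    have h3 := (Nat.dvd_prime Nat.prime_two).mp h1
    exact h3.resolve_left h2
  obtain ⟨ζ₂, ζ₃, ζ₄, ε, hε, h21, h31, h23, h24, h34, hB, hval, -, -, -, -⟩ :=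
    Cfsg.Agent.Lib.Blocks.klein_principal_block hM P hK hone
  -- an involution
  obtain ⟨hsq, hcomm, -⟩ := Cfsg.Agent.Lib.Blocks.sylow_klein_props P hK P
  obtain ⟨x₀, hx₀⟩ : ∃ x : (P : Subgroup G), x ≠ 1 := by
    haveI : Nontrivial (P : Subgroup G) := by
      rw [← Finite.one_lt_card_iff_nontrivial, hP]
      norm_num
    exact exists_ne 1
  set z : G := (x₀ : G) with hzdef
  have hz1 : z ≠ 1 := fun h => hx₀ (Subtype.ext h)
  have hz2 : z ^ 2 = 1 := hsq _ x₀.2
  have hzord : orderOf z = 2 := orderOf_eq_prime hz2 hz1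
  have hX : ∀ x ∈ ({1, z} : Finset G), ∃ k, orderOf x = 2 ^ k := by
    intro x hx
    simp only [Finset.mem_insert, Finset.mem_singleton] at hx
    rcases hx with rfl | rfl
    · exact ⟨0, by simp⟩
    · exact ⟨1, by simpa using hzord⟩
  have hXrep : ∀ g : G, (∃ k, orderOf g = 2 ^ k) → ∃! x, x ∈ ({1, z} : Finset G) ∧ IsConj g x := by
    rintro g ⟨k, hk⟩
    have hg2 := Cfsg.Agent.Lib.Blocks.pow_two_eq_one_of_two_element P hK hk
    by_cases hg1 : g = 1
    · subst hg1
      refine ⟨1, ⟨by simp, IsConj.refl _⟩, ?_⟩
      rintro y ⟨hy, hc⟩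
      exact (isConj_one_left.mp hc.symm)
    · have hgord : orderOf g = 2 := orderOf_eq_prime hg2 hg1
      refine ⟨z, ⟨by simp, hone g z hgord hzord⟩, ?_⟩
      rintro y ⟨hy, hc⟩
      simp only [Finset.mem_insert, Finset.mem_singleton] at hy
      rcases hy with rfl | rfl
      · exact absurd (isConj_one_right.mp hc.symm) hg1
      · rfl
  have hcount := Cfsg.Agent.Lib.Blocks.card_principal_eq_sum (p := 2) hM ({1, z} : Finset G) hX hXrep
  rw [Finset.sum_pair (Ne.symm hz1)] at hcount
  have hl1 : Cfsg.blockRank 2 (Cfsg.principalBlock M (Subgroup.centralizer ({(1 : G)} : Set G))) = Cfsg.blockRank 2 (Cfsg.principalBlock M G) :=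
    Cfsg.Agent.Lib.Blocks.blockRank_principal_equiv (Cfsg.Agent.Lib.Blocks.centOneEquiv G)
  have hl2 : Cfsg.blockRank 2 (Cfsg.principalBlock M (Subgroup.centralizer ({z} : Set G))) = 1 :=
    Cfsg.Agent.Lib.H8Group.blockRank_principal_of_complement hM
      (Cfsg.Agent.Lib.Blocks.hasNormalPComplement_centralizer_klein P hK hzord)
  rw [hl1, hl2] at hcount
  have hcard : Nat.card (Cfsg.principalBlock M G) = 4 := by
    have h41 : ((ζ₄ : Cfsg.IrrCharacter G) : G → ℂ) ≠ fun _ => 1 := by
      intro h
      have h5 := (hval z hzord).2.2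
      rw [h] at h5
      norm_num at h5
    have heq : Cfsg.principalBlock M G = ↑({Cfsg.Agent.Lib.Blocks.oneIrr G, ζ₂, ζ₃, ζ₄} : Finset (Cfsg.IrrCharacter G)) := by
      rw [hB]
      ext χ
      simp only [Set.mem_ofPred_eq, Finset.coe_insert, Finset.coe_singleton, Set.mem_insert_iff, Set.mem_singleton_iff]
      constructor
      · rintro (h | h | h | h)
        · left
          exact Subtype.ext h
        · right; left; exact h
        · right; right; left; exact h
        · right; right; right; exact h
      · rintro (h | h | h | h)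
        · left
          rw [h]
          rfl
        · right; left; exact h
        · right; right; left; exact h
        · right; right; right; exact h
    rw [heq, Nat.card_coe_set_eq, Set.ncard_coe_finset]
    have hne21 : Cfsg.Agent.Lib.Blocks.oneIrr G ≠ ζ₂ := fun h => h21 (by rw [← h]; rfl)
    have hne31 : Cfsg.Agent.Lib.Blocks.oneIrr G ≠ ζ₃ := fun h => h31 (by rw [← h]; rfl)
    have hne41 : Cfsg.Agent.Lib.Blocks.oneIrr G ≠ ζ₄ := fun h => h41 (by rw [← h]; rfl)
    rw [Finset.card_insert_of_notMem (by simp [hne21, hne31, hne41]), Finset.card_insert_of_notMem (by simp [h23, h24]),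
      Finset.card_insert_of_notMem (by simp [h34]), Finset.card_singleton]
  omega

end Cfsg.Agent.S4512
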