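import Cfsg.Statements.S4633
import Cfsg.Agent.Lib.Blocks.CyclicInertial
import Cfsg.Agent.Lib.Char.MaxPair
import Cfsg.Agent.Lib.H8Group.SubPairs

set_option autoImplicit false
open Cfsg

namespace Cfsg.Agent.S4633

/-- Let B be a block of the finite group G relative to a maximal ideal M of the algebraic integers containing the prime p, with a nontrivial cyclic defect group P. Let c be a block of C_G(P) inducing B and T the stabilizer of c in N_G(P) (the elements of N_G(P) conjugating c to itself); T contains C_G(P). Then T/C_G(P) is cyclic of order dividing p − 1, and it acts freely on the non-identity elements of P: an element of T fixing some non-identity element of P under conjugation lies in C_G(P). -/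
theorem result {G : Type*} [Group G] [Finite G] (p : ℕ) [Fact p.Prime] (M : Ideal Cfsg.AlgInt) (hM : Cfsg.IsPModular p M) (B : Set (Cfsg.IrrCharacter G)) (hB : Cfsg.IsPBlock M B) (P : Subgroup G) (hPD : Cfsg.IsDefectGroup p M B P) (hP1 : P ≠ ⊥) (hcyc : IsCyclic P) (c : Set (Cfsg.IrrCharacter (Subgroup.centralizer (P : Set G)))) (hc : Cfsg.IsInducedBlock M (Subgroup.centralizer (P : Set G)) c B) (T : Subgroup G) (hT : ∀ g : G, g ∈ T ↔ (g ∈ Subgroup.normalizer (P : Set G) ∧ Cfsg.StabilizesBlock (Subgroup.centralizer (P : Set G)) c g)) [hn : ((Subgroup.centralizer (P : Set G)).subgroupOf T).Normal] : IsCyclic (T ⧸ (Subgroup.centralizer (P : Set G)).subgroupOf T) ∧ (Subgroup.centralizer (P : Set G)).relIndex T ∣ p - 1 ∧ ∀ g ∈ T, ∀ x ∈ P, x ≠ 1 → g * x * g⁻¹ = x → g ∈ Subgroup.centralizer (P : Set G) := by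
  classical
  cases nonempty_fintype G
  have hPp : IsPGroup p P := Cfsg.Agent.Lib.Blocks.IsDefectGroup.isPGroup hPD
  letI : Fintype (Subgroup.centralizer (P : Set G)) := Fintype.ofFinite _
  have hcb : Cfsg.IsBrauerPairOf p M B P c :=
    (Cfsg.Agent.Lib.H8Group.isBrauerPairOf_iff hM hPp hc.1).mpr hc
  have hmax := Cfsg.Agent.Lib.H8Group.isMaximalBrauerPair_of_defect hM hcb hPD
  have hab : ∀ x ∈ P, ∀ y ∈ P, x * y = y * x := by
    intro x hx y hy
    haveI := hcyc
    have h := mul_comm' (⟨x, hx⟩ : P) ⟨y, hy⟩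
    exact congrArg Subtype.val h
  refine Cfsg.Agent.Lib.Blocks.cyclic_inertial hPp hP1 hcyc (fun t ht => ((hT t).mp ht).1) ?_
  intro t ht hk
  obtain ⟨h1, h2⟩ := (hT t).mp ht
  have h3 := Cfsg.Agent.Lib.Char.MP.mem_sup_of_maximal hM hmax h1 h2 hk
  have h4 : P ≤ Subgroup.centralizer (P : Set G) := fun x hx =>
    Subgroup.mem_centralizer_iff.mpr (fun y hy => hab y hy x hx)
  rwa [sup_eq_right.mpr h4] at h3

end Cfsg.Agent.S4633
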