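import Cfsg.Statements.S4636
-- import your own Cfsg.Agent.* helpers here

set_option autoImplicit false
open scoped Pointwise
open Cfsg

namespace Cfsg.Agent.S4636

theorem eq_of_le_cyclic {G : Type*} [Group G] [Finite G] {P A B : Subgroup G} (hc : IsCyclic P)
    (hA : A ≤ P) (hB : B ≤ P) (h : Nat.card A = Nat.card B) : A = B := by
  classical
  have := Fintype.ofFinite G
  have : Fintype P := Fintype.ofFinite _
  have key : ∀ C : Subgroup G, C ≤ P → Nat.card C = Nat.card B →
      (C : Set G) = (fun x : P => (x : G)) '' {x : P | x ^ Nat.card B = 1} := by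
    intro C hC hcard
    have hn : 0 < Nat.card B := Nat.card_pos
    have hS := IsCyclic.card_pow_eq_one_le (α := P) hn
    have hsub : (Finset.univ.filter (fun x : P => (x : G) ∈ C)) ⊆ (Finset.univ.filter (fun x : P => x ^ Nat.card B = 1)) := by
      intro x hx
      simp only [Finset.mem_filter, Finset.mem_univ, true_and] at hx ⊢
      have : (x : G) ^ Nat.card C = 1 := by
        have h1 := pow_card_eq_one' (x := (⟨x, hx⟩ : C))
        have h2 := congrArg (Subtype.val) h1
        simpa only [SubgroupClass.coe_pow, OneMemClass.coe_one] using h2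
      rw [hcard] at this
      exact Subtype.ext (by rw [SubgroupClass.coe_pow]; exact this)
    have hcardC : (Finset.univ.filter (fun x : P => (x : G) ∈ C)).card = Nat.card B := by
      rw [← hcard, Nat.card_eq_fintype_card, ← Fintype.card_subtype]
      refine Fintype.card_congr ?_
      exact { toFun := fun x => ⟨x.1.1, x.2⟩
              invFun := fun x => ⟨⟨x.1, hC x.2⟩, x.2⟩
              left_inv := fun x => rfl
              right_inv := fun x => rfl }
    have heq := Finset.eq_of_subset_of_card_le hsub (by rw [hcardC]; exact hS)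
    ext g
    simp only [SetLike.mem_coe, Set.mem_image]
    constructor
    · intro hg
      refine ⟨⟨g, hC hg⟩, ?_, rfl⟩
      have : (⟨g, hC hg⟩ : P) ∈ Finset.univ.filter (fun x : P => (x : G) ∈ C) :=
        Finset.mem_filter.mpr ⟨Finset.mem_univ _, hg⟩
      rw [heq] at this
      exact (Finset.mem_filter.mp this).2
    · rintro ⟨x, hx, rfl⟩
      have : x ∈ Finset.univ.filter (fun x : P => x ^ Nat.card B = 1) :=
        Finset.mem_filter.mpr ⟨Finset.mem_univ _, hx⟩
      rw [← heq] at this
      exact (Finset.mem_filter.mp this).2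
  have hAeq := key A hA h
  have hBeq := key B hB rfl
  exact SetLike.coe_injective (hAeq.trans hBeq.symm)

theorem card_conj_smul {G : Type*} [Group G] (g : G) (Z : Subgroup G) :
    Nat.card (MulAut.conj g • Z : Subgroup G) = Nat.card Z := by
  refine Nat.card_congr (?_ : _ ≃ _)
  exact ((Subgroup.equivSMul (MulAut.conj g) Z).symm).toEquiv

/-- Let P be a nontrivial cyclic p-subgroup of the finite group G and Z its subgroup of order p. For every x outside N_G(Z), P meets its conjugate xPx⁻¹ trivially; consequently N_G(Q) ≤ N_G(Z) for every nontrivial subgroup Q of P. -/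
theorem result {G : Type*} [Group G] [Finite G] (p : ℕ) [Fact p.Prime] (P : Subgroup G) (hP : IsPGroup p P) (hP1 : P ≠ ⊥) (hcyc : IsCyclic P) (Z : Subgroup G) (hZ : Z ≤ P) (hZcard : Nat.card Z = p) : (∀ x : G, x ∉ Subgroup.normalizer (Z : Set G) → P ⊓ MulAut.conj x • P = ⊥) ∧ ∀ Q : Subgroup G, Q ≤ P → Q ≠ ⊥ → Subgroup.normalizer (Q : Set G) ≤ Subgroup.normalizer (Z : Set G) := by
  have hp := (Fact.out : p.Prime)
  have huniq : ∀ Y : Subgroup G, Y ≤ P → Nat.card Y = p → Y = Z := fun Y hY hc =>
    eq_of_le_cyclic hcyc hY hZ (hc.trans hZcard.symm)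
  have hin : ∀ Q : Subgroup G, Q ≤ P → Q ≠ ⊥ → Z ≤ Q := by
    intro Q hQ hQ1
    have hQp : IsPGroup p Q := hP.to_le hQ
    have hnt : Nontrivial Q := (Subgroup.nontrivial_iff_ne_bot Q).mpr hQ1
    have hdvd : p ∣ Nat.card Q := by
      obtain ⟨k, hk⟩ := IsPGroup.iff_card.mp hQp
      rw [hk]
      have hk0 : k ≠ 0 := by
        rintro rfl
        have : Nat.card Q = 1 := by simpa using hk
        exact (Finite.one_lt_card_iff_nontrivial.mpr hnt).ne' this
      exact dvd_pow_self p hk0
    obtain ⟨y, hy⟩ := exists_prime_orderOf_dvd_card' p hdvd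
    have hzQ : (Subgroup.zpowers (y : G)) ≤ Q := by
      rw [Subgroup.zpowers_le]; exact y.2
    have hcard : Nat.card (Subgroup.zpowers (y : G)) = p := by
      rw [Nat.card_zpowers, Subgroup.orderOf_coe]; exact hy
    have := huniq _ (hzQ.trans hQ) hcard
    rw [← this]; exact hzQ
  have hnorm : ∀ g : G, MulAut.conj g • Z = Z → g ∈ Subgroup.normalizer (Z : Set G) := by
    intro g hg
    rw [Subgroup.mem_normalizer_iff]
    intro h
    have : h ∈ Z ↔ MulAut.conj g • h ∈ MulAut.conj g • Z :=
      (Subgroup.smul_mem_pointwise_smul_iff).symm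
    rw [hg] at this
    simpa using this
  constructor
  · intro x hx
    by_contra hne
    have h1 := hin _ inf_le_left hne
    have h2 : Z ≤ MulAut.conj x • P := h1.trans inf_le_right
    have h3 : MulAut.conj x⁻¹ • Z ≤ P := by
      rintro _ ⟨z, hz, rfl⟩
      obtain ⟨w, hw, hwz⟩ := h2 hz
      have hwz' : (MulAut.conj x) w = z := hwz
      rw [← hwz']
      have : MulAut.conj x⁻¹ • ((MulAut.conj x) w) = w := by
        simp [MulAut.smul_def, mul_assoc]
      change MulAut.conj x⁻¹ • ((MulAut.conj x) w) ∈ P
      rw [this]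
      exact hw
    have h4 := huniq _ h3 ((card_conj_smul _ _).trans hZcard)
    have h5 := hnorm _ h4
    exact hx (by simpa using (Subgroup.inv_mem _ h5))
  · intro Q hQ hQ1 g hg
    apply hnorm
    apply huniq
    · rintro _ ⟨z, hz, rfl⟩
      apply hQ
      have := (Subgroup.mem_normalizer_iff.mp hg z).mp (hin Q hQ hQ1 hz)
      simpa using this
    · exact (card_conj_smul _ _).trans hZcard

end Cfsg.Agent.S4636
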