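import Cfsg.Statements.S4640
import Cfsg.Agent.Lib.H8Group.CosetFree
import Cfsg.Agent.Lib.H8Group.NormalBlocks
import Cfsg.Agent.Lib.Char.BlockKer2

set_option autoImplicit false
open Cfsg

namespace Cfsg.Agent.S4640

open Cfsg.Agent.Lib.Char Cfsg.Agent.Lib.H8Group Cfsg.Agent.Lib.Blocks

/-- Let N be a normal subgroup of the finite group G of index a power of the prime p, M a maximal ideal of the algebraic integers containing p, b a block of N stabilized by every element of G, and B a block of G covering b (some member of B has a member of b as a constituent of its restriction to N). Suppose that B has a commutative defect group P. Then G = NP and P ∩ N is a defect group of b; every member of B restricts to a member of b; every member of b is the restriction of exactly [G : N] members of B; B contains exactly [G : N] times as many irreducible characters as b; and B and b have the same p-regular rank. -/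
theorem result {G : Type*} [Group G] [Fintype G] (p : ℕ) [Fact p.Prime] (M : Ideal Cfsg.AlgInt) (hM : Cfsg.IsPModular p M) (N : Subgroup G) [N.Normal] [Fintype N] (hNi : ∃ k : ℕ, N.index = p ^ k) (b : Set (Cfsg.IrrCharacter N)) (hb : Cfsg.IsPBlock M b) (hstab : ∀ g : G, Cfsg.StabilizesBlock N b g) (B : Set (Cfsg.IrrCharacter G)) (hB : Cfsg.IsPBlock M B) (hcov : ∃ χ ∈ B, ∃ θ ∈ b, Cfsg.classInner (fun n : N => (χ : G → ℂ) n) (θ : N → ℂ) ≠ 0) (P : Subgroup G) (hPD : Cfsg.IsDefectGroup p M B P) (hPab : ∀ x ∈ P, ∀ y ∈ P, x * y = y * x) : N ⊔ P = ⊤ ∧ Cfsg.IsDefectGroup p M b ((P ⊓ N).subgroupOf N) ∧ (∀ χ ∈ B, ∃ θ ∈ b, ∀ n : N, (χ : G → ℂ) n = (θ : N → ℂ) n) ∧ (∀ θ ∈ b, Nat.card {χ : Cfsg.IrrCharacter G // χ ∈ B ∧ ∀ n : N, (χ : G → ℂ) n = (θ : N → ℂ) n} = N.index) ∧ Nat.card B = N.index * Nat.card b ∧ Cfsg.blockRank p B = Cfsg.blockRank p b := by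
  classical
  have := isPrime_of_modular hM
  have hpp : p.Prime := Fact.out
  obtain ⟨k, hk⟩ := hNi
  have hinv : ∀ (g : G) θ, θ ∈ b → conjIrr N g θ ∈ b := fun g θ hθ => conjIrr_mem_of_stabilizes N (hstab g) hθ
  obtain ⟨χ₀, hχ₀, θ₀, hθ₀, hcon⟩ := hcov
  have hBc : B = Cfsg.Agent.Lib.Blocks.covSet N b := by
    rw [blockOf_eq_of_mem hB hχ₀]
    exact blockOf_eq_covSet_of_index N hM hk hb hinv hθ₀ hcon
  have hcoef : ∀ g, blockCoeff B g = subgroupBlockCoeff N b g := by
    intro g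
    rw [hBc, blockCoeff_eq_coef, coef_indic_covSet N hinv, subgroupBlockCoeff_eq_covFun]
  obtain ⟨hNP, hdef⟩ := defect_of_block_of_index N hM hk hb hinv hB hcoef hPD
  -- every coset contains an element of `P`
  have hsurj : ∀ q : G ⧸ N, ∃ u ∈ P, (u : G ⧸ N) = q := by
    intro q
    obtain ⟨g, rfl⟩ := QuotientGroup.mk_surjective q
    have hg : g ∈ ((N ⊔ P : Subgroup G) : Set G) := by
      rw [hNP]
      trivial
    rw [Subgroup.normal_mul] at hg
    obtain ⟨n, hn, u, hu, rfl⟩ := Set.mem_mul.mp hg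
    refine ⟨u, hu, ?_⟩
    rw [QuotientGroup.eq]
    have : u⁻¹ * (n * u) = u⁻¹ * n * u := by group
    rw [this]
    exact Subgroup.Normal.conj_mem' inferInstance n hn u
  have hcomm : ∀ a b : G ⧸ N, a * b = b * a := by
    intro a c
    obtain ⟨u, hu, rfl⟩ := hsurj a
    obtain ⟨v, hv, rfl⟩ := hsurj c
    rw [← QuotientGroup.mk_mul, ← QuotientGroup.mk_mul, hPab u hu v hv]
  obtain ⟨e, he⟩ := Cfsg.Agent.Lib.Char.BK.exists_isBrauerPairOf_of_isDefectGroup hM hB hPD
  have hmax := isMaximalBrauerPair_of_defect hM he hPD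
  have hnv : ∀ χ ∈ B, ∀ q : G ⧸ N, ∃ g : G, (g : G ⧸ N) = q ∧ (χ : G → ℂ) g ≠ 0 := by
    intro χ hχ q
    obtain ⟨u, hu, rfl⟩ := hsurj q
    obtain ⟨y, -, hyr, hy⟩ := exists_regular_mul_ne_zero hM hmax hu (fun d hd => hPab u hu d hd) hχ
    have hyN : y ∈ N := mem_of_regular_of_index hk hyr
    exact ⟨u * y, QuotientGroup.mk_mul_of_mem u hyN, hy⟩
  have hirr : ∀ χ ∈ B, IsIrrCharacter N (Cfsg.Agent.Lib.Char.resFun N (χ : G → ℂ)) :=
    fun χ hχ => res_irr_of_coset_ne_zero N hcomm χ.2 (hnv χ hχ)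
  have hover : ∀ χ ∈ B, ∀ θ : IrrCharacter N, classInner (fun n : N => (χ : G → ℂ) n) (θ : N → ℂ) ≠ 0 →
      ∀ n : N, (χ : G → ℂ) n = (θ : N → ℂ) n := by
    intro χ hχ θ hne n
    have h1 := classInner_irr (hirr χ hχ) θ.2
    have h2 : Cfsg.Agent.Lib.Char.resFun N (χ : G → ℂ) = (θ : N → ℂ) := by
      by_contra hcon
      apply hne
      rw [if_neg hcon] at h1
      exact h1
    exact congrFun h2 n
  have h3 : ∀ χ ∈ B, ∃ θ ∈ b, ∀ n : N, (χ : G → ℂ) n = (θ : N → ℂ) n := by
    intro χ hχ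
    have hχ' := hχ
    rw [hBc] at hχ'
    obtain ⟨θ, hθ, hne⟩ := hχ'
    exact ⟨θ, hθ, hover χ hχ θ hne⟩
  have hsame : ∀ (χ : IrrCharacter G) (θ : IrrCharacter N), (∀ n : N, (χ : G → ℂ) n = (θ : N → ℂ) n) →
      classInner (fun n : N => (χ : G → ℂ) n) (θ : N → ℂ) ≠ 0 := by
    intro χ θ h
    have h1 : (fun n : N => (χ : G → ℂ) n) = (θ : N → ℂ) := funext h
    rw [h1, classInner_irr_self θ.2]
    exact one_ne_zero
  have h4 : ∀ θ ∈ b, Nat.card {χ : IrrCharacter G // χ ∈ B ∧ ∀ n : N, (χ : G → ℂ) n = (θ : N → ℂ) n} = N.index := by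
    intro θ hθ
    obtain ⟨χ₁, hχ₁⟩ := exists_over_irr (G := G) N θ
    have hχ₁B : χ₁ ∈ B := by
      rw [hBc]
      exact ⟨θ, hθ, hχ₁⟩
    have hχ₁θ := hover χ₁ hχ₁B θ hχ₁
    rw [← card_ext_of_coset_ne_zero N hcomm (hnv χ₁ hχ₁B)]
    apply Nat.card_congr
    refine Equiv.subtypeEquivRight fun χ => ?_
    constructor
    · rintro ⟨-, h⟩ n
      rw [h, hχ₁θ]
    · intro h
      have h5 : ∀ n : N, (χ : G → ℂ) n = (θ : N → ℂ) n := fun n => by rw [h, hχ₁θ]
      refine ⟨?_, h5⟩
      rw [hBc]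
      exact ⟨θ, hθ, hsame χ θ h5⟩
  have hbfin : Fintype (IrrCharacter N) := inferInstance
  have h5 : Nat.card B = N.index * Nat.card b := by
    haveI : Nonempty (IrrCharacter N) := ⟨θ₀⟩
    choose! r hrb hr using h3
    have hcard1 : Nat.card B = (Finset.univ.filter (· ∈ B)).card := by
      rw [Nat.card_eq_fintype_card, Fintype.card_subtype]
    have hcard2 : Nat.card b = (Finset.univ.filter (· ∈ b)).card := by
      rw [Nat.card_eq_fintype_card, Fintype.card_subtype]
    rw [hcard1, hcard2, Finset.card_eq_sum_card_fiberwise (f := r) (t := Finset.univ.filter (· ∈ b))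
      (fun χ hχ => by
        have : χ ∈ B := by simpa using hχ
        simpa using hrb χ this)]
    rw [mul_comm, ← smul_eq_mul, ← Finset.sum_const]
    refine Finset.sum_congr rfl fun θ hθ => ?_
    have hθb : θ ∈ b := by simpa using hθ
    rw [← h4 θ hθb, Nat.card_eq_fintype_card, Fintype.card_subtype]
    congr 1
    ext χ
    simp only [Finset.mem_filter, Finset.mem_univ, true_and]
    constructor
    · rintro ⟨hχ, hrχ⟩
      refine ⟨hχ, fun n => ?_⟩
      rw [hr χ hχ n, hrχ]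
    · rintro ⟨hχ, h⟩
      refine ⟨hχ, ?_⟩
      apply Subtype.ext
      funext n
      rw [← hr χ hχ n, h]
  have h6 : blockRank p B = blockRank p b := by
    let E : (N → ℂ) →ₗ[ℂ] (G → ℂ) :=
      { toFun := fun f g => if h : g ∈ N then f ⟨g, h⟩ else 0
        map_add' := by
          intro f f'
          funext g
          by_cases h : g ∈ N <;> simp [h]
        map_smul' := by
          intro c f
          funext g
          by_cases h : g ∈ N <;> simp [h] }
    have hE : Function.Injective E := by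
      intro f f' h
      funext n
      have h1 := congrFun h (n : G)
      simpa [E, n.2] using h1
    have hEreg : ∀ χ : IrrCharacter G, ∀ θ : IrrCharacter N, (∀ n : N, (χ : G → ℂ) n = (θ : N → ℂ) n) →
        E (pRegularPart p (θ : N → ℂ)) = pRegularPart p (χ : G → ℂ) := by
      intro χ θ h
      funext g
      by_cases hg : g ∈ N
      · have h1 : IsPRegular p (⟨g, hg⟩ : N) ↔ IsPRegular p g := by
          simp only [IsPRegular, Subgroup.orderOf_mk]
        simp only [E, LinearMap.coe_mk, AddHom.coe_mk, dif_pos hg, pRegularPart]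
        by_cases hr : IsPRegular p g
        · rw [if_pos hr, if_pos (h1.mpr hr)]
          exact (h ⟨g, hg⟩).symm
        · rw [if_neg hr, if_neg (fun h2 => hr (h1.mp h2))]
      · have hr : ¬ IsPRegular p g := fun h1 => hg (mem_of_regular_of_index hk h1)
        simp only [E, LinearMap.coe_mk, AddHom.coe_mk, dif_neg hg, pRegularPart, if_neg hr]
    have himg : (⇑E) '' ((fun θ : IrrCharacter N => pRegularPart p (θ : N → ℂ)) '' b) =
        (fun χ : IrrCharacter G => pRegularPart p (χ : G → ℂ)) '' B := by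
      ext F
      constructor
      · rintro ⟨_, ⟨θ, hθ, rfl⟩, rfl⟩
        obtain ⟨χ₁, hχ₁⟩ := exists_over_irr (G := G) N θ
        have hχ₁B : χ₁ ∈ B := by
          rw [hBc]
          exact ⟨θ, hθ, hχ₁⟩
        exact ⟨χ₁, hχ₁B, (hEreg χ₁ θ (hover χ₁ hχ₁B θ hχ₁)).symm⟩
      · rintro ⟨χ, hχ, rfl⟩
        obtain ⟨θ, hθ, hh⟩ := h3 χ hχ
        exact ⟨_, ⟨θ, hθ, rfl⟩, hEreg χ θ hh⟩
    rw [blockRank, blockRank, ← himg, ← Submodule.map_span]
    exact (LinearEquiv.finrank_eq (Submodule.equivMapOfInjective E hE _)).symm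
  exact ⟨hNP, hdef, h3, h4, h5, h6⟩

end Cfsg.Agent.S4640
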