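import Cfsg.Statements.S4650
import Cfsg.Agent.Lib.Blocks.AbelianFree

set_option autoImplicit false
open Cfsg

namespace Cfsg.Agent.S4650

/-- Let B be a block of the finite group G relative to a maximal ideal M of the algebraic integers containing the prime p, with a nontrivial commutative defect group P; let c be a block of C_G(P) inducing B and T the stabilizer of c in N_G(P). Then T/C_G(P) acts freely on the non-identity elements of P (an element of T fixing a non-identity element of P under conjugation lies in C_G(P)) if and only if, for every nontrivial subgroup Q of P, the block of C_G(Q) induced by c inside C_G(Q) is a nilpotent block of C_G(Q). -/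
theorem result {G : Type*} [Group G] [Finite G] (p : ℕ) [Fact p.Prime] (M : Ideal Cfsg.AlgInt) (hM : Cfsg.IsPModular p M) (B : Set (Cfsg.IrrCharacter G)) (hB : Cfsg.IsPBlock M B) (P : Subgroup G) (hPD : Cfsg.IsDefectGroup p M B P) (hPab : ∀ x ∈ P, ∀ y ∈ P, x * y = y * x) (hP1 : P ≠ ⊥) (c : Set (Cfsg.IrrCharacter (Subgroup.centralizer (P : Set G)))) (hc : Cfsg.IsInducedBlock M (Subgroup.centralizer (P : Set G)) c B) (T : Subgroup G) (hT : ∀ g : G, g ∈ T ↔ (g ∈ Subgroup.normalizer (P : Set G) ∧ Cfsg.StabilizesBlock (Subgroup.centralizer (P : Set G)) c g)) : (∀ g ∈ T, ∀ x ∈ P, x ≠ 1 → g * x * g⁻¹ = x → g ∈ Subgroup.centralizer (P : Set G)) ↔ ∀ Q : Subgroup G, Q ≤ P → Q ≠ ⊥ → ∀ f : Set (Cfsg.IrrCharacter (Subgroup.centralizer (Q : Set G))), Cfsg.IsInducedBlockIn M (Subgroup.centralizer (Q : Set G)) (Subgroup.centralizer (P : Set G)) c f → Cfsg.IsNilpotentBlock p M f := by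
  classical
  cases nonempty_fintype G
  have := Cfsg.Agent.Lib.Blocks.isPrime_of_modular hM
  have hPp : IsPGroup p P := Cfsg.Agent.Lib.Blocks.IsDefectGroup.isPGroup hPD
  letI : Fintype (Subgroup.centralizer (P : Set G)) := Fintype.ofFinite _
  have hcb : Cfsg.IsBrauerPairOf p M B P c :=
    (Cfsg.Agent.Lib.H8Group.isBrauerPairOf_iff hM hPp hc.1).mpr hc
  have hmax := Cfsg.Agent.Lib.H8Group.isMaximalBrauerPair_of_defect hM hcb hPD
  have hab' : ∀ {Q : Subgroup G}, ∀ x ∈ P.subgroupOf (Subgroup.centralizer (Q : Set G)),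
      ∀ y ∈ P.subgroupOf (Subgroup.centralizer (Q : Set G)), x * y = y * x := by
    intro Q x hx y hy
    apply Subtype.ext
    exact hPab _ (Subgroup.mem_subgroupOf.mp hx) _ (Subgroup.mem_subgroupOf.mp hy)
  constructor
  · intro hfree Q hQP hQ1 f hf
    letI : Fintype (Subgroup.centralizer (Q : Set G)) := Fintype.ofFinite _
    letI : Fintype (Subgroup.centralizer ((P.subgroupOf (Subgroup.centralizer (Q : Set G)) : Subgroup _) : Set (Subgroup.centralizer (Q : Set G)))) := Fintype.ofFinite _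
    obtain ⟨hcd, hle, hmax'⟩ := Cfsg.Agent.Lib.H8Group.isMaximalBrauerPair_in_centralizer hM hmax hPab hQP hf
    have hPW := Cfsg.Agent.Lib.H8Group.cenData_of_abelian hQP hPab
    refine (Cfsg.Agent.Lib.H8Group.isNilpotentBlock_iff_of_abelian hM hmax' hab').mpr ?_
    intro x hxN hxs
    have hxG : (x : G) ∈ Subgroup.normalizer (P : Set G) := by
      have h1 := Cfsg.Agent.Lib.H8Group.map_subtype_mem_normalizer hxN
      rwa [Subgroup.map_subgroupOf_eq_of_le hPW] at h1
    have hs := Cfsg.Agent.Lib.H8Group.stabilizes_lift hcd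
      (Cfsg.Agent.Lib.H8Group.normalizer_le_normalizer_centralizer hxG) hxs
    rw [Cfsg.Agent.Lib.Blocks.transBlock_symm_transBlock] at hs
    have hxT : (x : G) ∈ T := (hT _).mpr ⟨hxG, hs⟩
    obtain ⟨z, hz, hz1⟩ : ∃ z ∈ Q, z ≠ 1 := by
      by_contra h
      push Not at h
      exact hQ1 ((Subgroup.eq_bot_iff_forall Q).mpr h)
    have hcomm : (x : G) * z * (x : G)⁻¹ = z := by
      have h2 := Subgroup.mem_centralizer_iff.mp x.2 z hz
      rw [← h2, mul_inv_cancel_right]
    have h3 := hfree x hxT z (hQP hz) hz1 hcomm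
    rw [Subgroup.mem_centralizer_iff]
    intro y hy
    apply Subtype.ext
    exact Subgroup.mem_centralizer_iff.mp h3 _ (Subgroup.mem_subgroupOf.mp hy)
  · intro hnil g hgT x hxP hx1 hgx
    have hQP : Subgroup.zpowers x ≤ P := Subgroup.zpowers_le.mpr hxP
    have hQ1 : Subgroup.zpowers x ≠ ⊥ := by
      intro h
      exact hx1 (Subgroup.zpowers_eq_bot.mp h)
    letI : Fintype (Subgroup.centralizer ((Subgroup.zpowers x : Subgroup G) : Set G)) := Fintype.ofFinite _
    letI : Fintype (Subgroup.centralizer ((P.subgroupOf (Subgroup.centralizer ((Subgroup.zpowers x : Subgroup G) : Set G)) : Subgroup _) : Set (Subgroup.centralizer ((Subgroup.zpowers x : Subgroup G) : Set G)))) := Fintype.ofFinite _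
    have hPW := Cfsg.Agent.Lib.H8Group.cenData_of_abelian hQP hPab
    have hcd0 : Cfsg.Agent.Lib.H8Group.CenData (P.subgroupOf (Subgroup.centralizer ((Subgroup.zpowers x : Subgroup G) : Set G))) P :=
      Cfsg.Agent.Lib.H8Group.cenData_of_le le_rfl hPW hQP
    obtain ⟨f, hf⟩ := Cfsg.Agent.Lib.H8Group.exists_isInducedBlock_cent hM
      (Cfsg.Agent.Lib.Blocks.isPGroup_subgroupOf hPp _)
      (Cfsg.Agent.Lib.Blocks.isPBlock_transBlock (Cfsg.Agent.Lib.H8Group.cenTrans hcd0) hc.1)
    have hfIn := Cfsg.Agent.Lib.H8Group.in_of_isInducedBlock hcd0 hc.1 hf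
    obtain ⟨hcd, hle, hmax'⟩ := Cfsg.Agent.Lib.H8Group.isMaximalBrauerPair_in_centralizer hM hmax hPab hQP hfIn
    have hcrit := (Cfsg.Agent.Lib.H8Group.isNilpotentBlock_iff_of_abelian hM hmax' hab').mp
      (hnil _ hQP hQ1 f hfIn)
    have hgW : g ∈ Subgroup.centralizer ((Subgroup.zpowers x : Subgroup G) : Set G) := by
      rw [Subgroup.mem_centralizer_iff]
      intro z hz
      obtain ⟨n, rfl⟩ := Subgroup.mem_zpowers_iff.mp hz
      have h1 : Commute x g := by
        rw [mul_inv_eq_iff_eq_mul] at hgx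
        exact hgx.symm
      exact (h1.zpow_left n).eq
    obtain ⟨hgN, hgs⟩ := (hT g).mp hgT
    have hgN' : (⟨g, hgW⟩ : Subgroup.centralizer ((Subgroup.zpowers x : Subgroup G) : Set G)) ∈
        Subgroup.normalizer ((P.subgroupOf (Subgroup.centralizer ((Subgroup.zpowers x : Subgroup G) : Set G)) : Subgroup _) : Set (Subgroup.centralizer ((Subgroup.zpowers x : Subgroup G) : Set G))) := by
      rw [Subgroup.mem_normalizer_iff]
      intro z
      have := Subgroup.mem_normalizer_iff.mp hgN (z : G)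
      simpa [Subgroup.mem_subgroupOf] using this
    have h5 := hcrit _ hgN' (Cfsg.Agent.Lib.H8Group.stabilizes_down hcd hgs)
    exact hcd.cen _ h5

end Cfsg.Agent.S4650
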