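import Cfsg.Statements.S4654
import Cfsg.Agent.Lib.H8Group.StabBlock

set_option autoImplicit false
open Cfsg

namespace Cfsg.Agent.S4654

open Cfsg.Agent.Lib.Char Cfsg.Agent.Lib.H8Group Cfsg.Agent.Lib.Blocks

/-- Fix a prime p and a maximal ideal M of the algebraic integers containing p. Let P be a normal p-subgroup of the finite group G, B a p-block of G and e a p-block of C_G(P) such that (P, e) is a Brauer pair of B (as P is normal, this says that e occurs in the idempotent of B, which is supported on C_G(P)). Let T be the stabilizer of e in G under conjugation. Then the idempotent of e is a block idempotent of T: some block E of T has, at every element of T, the same idempotent coefficient as e (zero off C_G(P)); and the idempotent of B is the sum of the distinct G-conjugates of the idempotent of e: its coefficient at g is the sum over all x in G of the coefficient of e at x⁻¹ g x, divided by the order of T. -/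
theorem result {G : Type*} [Group G] [Fintype G] (p : ℕ) [Fact p.Prime] (M : Ideal Cfsg.AlgInt) (hM : Cfsg.IsPModular p M) (P : Subgroup G) [P.Normal] (hP : IsPGroup p P) (B : Set (Cfsg.IrrCharacter G)) (e : Set (Cfsg.IrrCharacter (Subgroup.centralizer (P : Set G)))) (hBe : Cfsg.IsBrauerPairOf p M B P e) (T : Subgroup G) (hT : ∀ x : G, x ∈ T ↔ Cfsg.StabilizesBlock (Subgroup.centralizer (P : Set G)) e x) : (∃ E : Set (Cfsg.IrrCharacter T), Cfsg.IsPBlock M E ∧ ∀ t : T, Cfsg.blockCoeff E t = Cfsg.subgroupBlockCoeff (Subgroup.centralizer (P : Set G)) e (t : G)) ∧ ∀ g : G, Cfsg.blockCoeff B g = (Nat.card T : ℂ)⁻¹ * ∑ x : G, Cfsg.subgroupBlockCoeff (Subgroup.centralizer (P : Set G)) e (x⁻¹ * g * x) := by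
  classical
  letI : Fintype (Subgroup.centralizer (P : Set G)) := Fintype.ofFinite _
  letI : Fintype T := Fintype.ofFinite _
  have := isPrime_of_modular hM
  have he := hBe.1.2
  have hind := (isBrauerPairOf_iff hM hP he).mp hBe
  constructor
  · refine exists_block_stabilizer hM hP (fun q hq => (hT q).mpr (stabilizes_of_mem_self e hq))
      (fun c hc => (hT c).mpr (stabilizes_of_mem_centralizer _ e hc)) ?_ he (fun t ht => (hT t).mp ht)
    rw [Subgroup.normalizer_eq_top_iff.mpr inferInstance]
    exact le_top
  · intro g
    obtain ⟨θ₀, hθ₀⟩ := IsPBlock.nonempty he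
    obtain ⟨χ₁, hcon⟩ := exists_over_irr (G := G) (Subgroup.centralizer (P : Set G)) θ₀
    have h1 := isInducedBlock_of_covering (Subgroup.centralizer (P : Set G)) hM hP le_rfl he
      (isPBlock_blockOf χ₁) ⟨χ₁, self_mem_blockOf χ₁, θ₀, hθ₀, hcon⟩
    have h2 := IsInducedBlock.unique _ h1 hind
    rw [← h2]
    exact blockCoeff_eq_sum_conj _ (offIdeal_centralizer hM P hP) (isPBlock_blockOf χ₁) he
      (self_mem_blockOf χ₁) hθ₀ hcon T (fun x => (hT x).trans (stabilizes_iff _)) g

end Cfsg.Agent.S4654
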