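import Cfsg.Statements.S4665
import Cfsg.Agent.Lib.H8Group.CharSum

set_option autoImplicit false
open Cfsg

namespace Cfsg.Agent.S4665

/-- Fix a prime p, a maximal ideal M of the algebraic integers containing p, and a p-block B of the finite group G, and let p^a be the p-part of the order of G. Let χ be an integer combination of the irreducible characters in B. If the function that agrees with χ on p-regular elements and vanishes on p-singular elements is again an integer combination of the irreducible characters in B, then p^a divides χ(1). -/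
theorem result {G : Type*} [Group G] [Fintype G] (p : ℕ) [Fact p.Prime] (M : Ideal Cfsg.AlgInt) (hM : Cfsg.IsPModular p M) (B : Set (Cfsg.IrrCharacter G)) (hB : Cfsg.IsPBlock M B) (χ : G → ℂ) (hχ : (∃ n : Cfsg.IrrCharacter G → ℤ, ∀ g : G, χ g = ∑ᶠ ψ ∈ B, (n ψ : ℂ) * (ψ : G → ℂ) g)) (h0 : (∃ n : Cfsg.IrrCharacter G → ℤ, ∀ g : G, Cfsg.pRegularPart p χ g = ∑ᶠ ψ ∈ B, (n ψ : ℂ) * (ψ : G → ℂ) g)) : ∃ k : ℤ, χ 1 = (p ^ (Nat.card G).factorization p : ℂ) * k := by
  obtain ⟨n, hn⟩ := h0
  have h1 := Cfsg.Agent.Lib.H8Group.exists_apply_one_eq_of_vanish p B n (Cfsg.pRegularPart p χ) hn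
    (fun g hg => Cfsg.Agent.Lib.H8Group.cs_pRegularPart_of_dvd χ hg)
  obtain ⟨k, hk⟩ := h1
  refine ⟨k, ?_⟩
  rw [← hk]
  have hp : ¬ p ∣ orderOf (1 : G) := by
    rw [orderOf_one]
    exact (Fact.out : p.Prime).one_lt.ne' ∘ Nat.dvd_one.mp
  exact (Cfsg.Agent.Lib.H8Group.cs_pRegularPart_of_not_dvd χ hp).symm

end Cfsg.Agent.S4665
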