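import Cfsg.Statements.S4666
import Cfsg.Agent.Lib.H8Group.RankTrace

set_option autoImplicit false
open Cfsg

namespace Cfsg.Agent.S4666

open Cfsg.Agent.Lib.Char Cfsg.Agent.Lib.H8Group Cfsg.Agent.Lib.Blocks

variable {G : Type*} [Group G] [Fintype G] {p : ℕ} [hp : Fact p.Prime] {M : Ideal Cfsg.AlgInt}

theorem aux_char (hM : IsPModular p M) {B : Set (IrrCharacter G)} (hB : IsPBlock M B) {ψ : IrrCharacter G}
    (hψ : ψ ∈ B) (g : G) :
    (p ^ blockDefect p B : ℂ) * pRegularPart p (ψ : G → ℂ) g =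
      ∑ φ : IrrCharacter G, (blockT p B ψ φ : ℂ) * (φ : G → ℂ) g := by
  have := isPrime_of_modular hM
  have hpp : p.Prime := hp.out
  have h1 := congrFun (classFunction_eq_sum (pRegularPart p (ψ : G → ℂ))
    (pRegularPart_isClassFunction (irr_isClassFunction ψ))) g
  have hcard := card_val_eq_minVal_add_defect (p := p) (IsPBlock.nonempty hB)
  have hk : ((p ^ minVal p B : ℕ) : ℂ) ≠ 0 := by exact_mod_cast pow_ne_zero _ hpp.ne_zero
  apply mul_left_cancel₀ hk
  rw [h1]
  simp only [Finset.sum_apply, Pi.smul_apply, smul_eq_mul]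
  rw [Finset.mul_sum, Finset.mul_sum, Finset.mul_sum]
  refine Finset.sum_congr rfl fun φ _ => ?_
  have h2 := classInner_pRegularPart (p := p) ψ φ
  rw [regInt_eq_mul_blockT hM hB hψ, hcard, pow_add] at h2
  push_cast at h2 ⊢
  rw [← mul_assoc, ← mul_assoc, ← mul_assoc, h2]
/-- Fix a prime p and a maximal ideal M of the algebraic integers containing p, and a p-block B of the finite group G of defect d. For every integer combination χ of the irreducible characters in B, p^d times the function that agrees with χ on p-regular elements and vanishes elsewhere is again an integer combination of the irreducible characters in B. -/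
theorem result {G : Type*} [Group G] [Fintype G] (p : ℕ) [Fact p.Prime] (M : Ideal Cfsg.AlgInt) (hM : Cfsg.IsPModular p M) (B : Set (Cfsg.IrrCharacter G)) (hB : Cfsg.IsPBlock M B) (χ : G → ℂ) (hχ : (∃ n : Cfsg.IrrCharacter G → ℤ, ∀ g : G, χ g = ∑ᶠ ψ ∈ B, (n ψ : ℂ) * (ψ : G → ℂ) g)) : (∃ n : Cfsg.IrrCharacter G → ℤ, ∀ g : G, (p ^ Cfsg.blockDefect p B : ℂ) * Cfsg.pRegularPart p χ g = ∑ᶠ ψ ∈ B, (n ψ : ℂ) * (ψ : G → ℂ) g) := by
  classical
  have := isPrime_of_modular hM
  obtain ⟨n, hn⟩ := hχ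
  refine ⟨fun φ => ∑ ψ ∈ Finset.univ.filter (· ∈ B), n ψ * blockT p B ψ φ, fun g => ?_⟩
  have h1 : pRegularPart p χ g = ∑ ψ ∈ Finset.univ.filter (· ∈ B), (n ψ : ℂ) * pRegularPart p (ψ : G → ℂ) g := by
    by_cases hg : p ∣ orderOf g
    · simp [pRegularPart_of_dvd _ hg]
    · rw [pRegularPart_of_not_dvd _ hg, hn, finsum_mem_eq_filter]
      refine Finset.sum_congr rfl fun ψ _ => ?_
      rw [pRegularPart_of_not_dvd _ hg]
  rw [h1, Finset.mul_sum, finsum_mem_eq_filter]
  have h2 : ∀ ψ ∈ Finset.univ.filter (· ∈ B), (p ^ blockDefect p B : ℂ) * ((n ψ : ℂ) * pRegularPart p (ψ : G → ℂ) g) =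
      ∑ φ ∈ Finset.univ.filter (· ∈ B), (n ψ : ℂ) * ((blockT p B ψ φ : ℂ) * (φ : G → ℂ) g) := by
    intro ψ hψ
    have hψB : ψ ∈ B := (Finset.mem_filter.mp hψ).2
    rw [mul_left_comm, aux_char hM hB hψB, Finset.mul_sum]
    symm
    apply Finset.sum_subset (Finset.subset_univ _)
    intro φ _ hφ
    have hφB : φ ∉ B := by simpa using hφ
    rw [blockT_eq_zero_of_notMem hM hB hψB hφB]
    simp
  rw [Finset.sum_congr rfl h2, Finset.sum_comm]
  refine Finset.sum_congr rfl fun φ _ => ?_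
  push_cast
  rw [Finset.sum_mul]
  refine Finset.sum_congr rfl fun ψ _ => ?_
  ring

end Cfsg.Agent.S4666
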