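import Cfsg.Statements.S4667
import Cfsg.Agent.Lib.H8Group.RankTrace

set_option autoImplicit false
open Cfsg

namespace Cfsg.Agent.S4667

open Cfsg.Agent.Lib.Char Cfsg.Agent.Lib.H8Group Cfsg.Agent.Lib.Blocks

/-- Fix a prime p and a maximal ideal M of the algebraic integers containing p, and a p-block B of the finite group G. The p-regular rank of B (the number of irreducible Brauer characters in B) times the order of G equals the sum over the p-regular elements x of G of Σ_{χ ∈ B} χ(x) χ(x⁻¹) (written with the restriction of χ to p-regular elements, which vanishes at p-singular x). -/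
theorem result {G : Type*} [Group G] [Fintype G] (p : ℕ) [Fact p.Prime] (M : Ideal Cfsg.AlgInt) (hM : Cfsg.IsPModular p M) (B : Set (Cfsg.IrrCharacter G)) (hB : Cfsg.IsPBlock M B) : (Nat.card G : ℂ) * (Cfsg.blockRank p B : ℂ) = ∑ x : G, ∑ᶠ χ ∈ B, Cfsg.pRegularPart p (χ : G → ℂ) x * (χ : G → ℂ) x⁻¹ := by
  classical
  letI : Fintype {χ : IrrCharacter G // χ ∈ B} := Fintype.ofFinite _
  have hG : (Nat.card G : ℂ) ≠ 0 := card_ne_zero_complex
  have h1 := sum_classInner_pRegularPart hM hB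
  have h2 : ∀ χ : IrrCharacter G, ∑ x : G, pRegularPart p (χ : G → ℂ) x * (χ : G → ℂ) x⁻¹ =
      (Nat.card G : ℂ) * classInner (pRegularPart p (χ : G → ℂ)) (χ : G → ℂ) := by
    intro χ
    rw [classInner_eq_sum_inv _ (IsIrrCharacter.isCharacter χ.2), ← mul_assoc, mul_inv_cancel₀ hG, one_mul]
  have h3 : ∑ x : G, ∑ᶠ χ ∈ B, pRegularPart p (χ : G → ℂ) x * (χ : G → ℂ) x⁻¹ =
      ∑ x : G, ∑ χ ∈ Finset.univ.filter (· ∈ B), pRegularPart p (χ : G → ℂ) x * (χ : G → ℂ) x⁻¹ := by
    refine Finset.sum_congr rfl fun x _ => ?_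
    rw [finsum_mem_eq_filter]
  rw [h3, Finset.sum_comm]
  simp only [h2]
  rw [← Finset.mul_sum]
  congr 1
  rw [← h1]
  symm
  refine Finset.sum_subtype _ (fun ψ => by simp) _

end Cfsg.Agent.S4667
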