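import Cfsg.Statements.S4668
import Cfsg.Agent.Lib.H8Group.NormalBlocks

set_option autoImplicit false
open Cfsg

namespace Cfsg.Agent.S4668

open Cfsg.Agent.Lib.Char Cfsg.Agent.Lib.H8Group Cfsg.Agent.Lib.Blocks

/-- Fix a prime p and a maximal ideal M of the algebraic integers containing p. Let Q₀ < Q₁ < ⋯ < Q_m be a strictly increasing chain of p-subgroups of the finite group G and N the intersection of their normalizers. Then every block idempotent of N is supported on C_G(Q_m): for every p-block E of N, the idempotent coefficient of E vanishes at every element of N outside C_G(Q_m). -/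
theorem result {G : Type*} [Group G] [Fintype G] (p : ℕ) [Fact p.Prime] (M : Ideal Cfsg.AlgInt) (hM : Cfsg.IsPModular p M) (m : ℕ) (Q : Fin (m + 1) → Subgroup G) (hQ : StrictMono Q) (hQp : ∀ i, IsPGroup p (Q i)) (N : Subgroup G) (hN : ∀ g : G, g ∈ N ↔ ∀ i, g ∈ Subgroup.normalizer (Q i : Set G)) (E : Set (Cfsg.IrrCharacter N)) (hE : Cfsg.IsPBlock M E) (n : N) (hn : (n : G) ∉ Subgroup.centralizer (Q (Fin.last m) : Set G)) : Cfsg.blockCoeff E n = 0 := by
  classical
  have hQm := hQ.monotone
  have hpp := (Fact.out : p.Prime)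
  set R : Subgroup G := Q (Fin.last m) with hR
  set R' : Subgroup N := R.subgroupOf N with hR'
  have hR'p : IsPGroup p R' := isPGroup_subgroupOf (hQp _) N
  haveI hR'n : R'.Normal := by
    refine ⟨fun x hx g => ?_⟩
    rw [hR', Subgroup.mem_subgroupOf] at hx ⊢
    have h1 := (hN g).mp g.2 (Fin.last m)
    have h2 := (Subgroup.mem_normalizer_iff.mp h1 x).mp hx
    simpa using h2
  by_contra hne
  have hcen : n ∈ Subgroup.centralizer (R' : Set N) := by
    by_contra hc
    exact hne (blockCoeff_eq_zero_of_not_mem_centralizer hM R' hR'p hE hc)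
  have hreg : ¬ p ∣ orderOf (n : G) := by
    intro hd
    apply hne
    refine blockCoeff_eq_zero_of_singular hM hE ?_
    rwa [Subgroup.orderOf_coe] at hd
  have h1 := commute_of_chain Q hQm hQp hreg (fun i => (hN n).mp n.2 i) m (Nat.lt_succ_self m) R (hQp _)
    le_rfl ((hN n).mp n.2 _) (by
      intro x hx hi
      have hxN : x ∈ N := (hN x).mpr fun i => hi i (Nat.lt_succ_iff.mp i.2)
      have h2 := Subgroup.mem_centralizer_iff.mp hcen ⟨x, hxN⟩ (by
        show (⟨x, hxN⟩ : N) ∈ R'
        rw [hR', Subgroup.mem_subgroupOf]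
        exact hx)
      have h3 := congrArg Subtype.val h2
      exact h3.symm)
  apply hn
  rw [Subgroup.mem_centralizer_iff]
  intro x hx
  exact (h1 x hx).symm

end Cfsg.Agent.S4668
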