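import Cfsg.Statements.S4674
import Cfsg.Agent.Lib.H8Group.HarrisKnorr

set_option autoImplicit false
open Cfsg

namespace Cfsg.Agent.S4674

open Cfsg.Agent.Lib.Char Cfsg.Agent.Lib.H8Group Cfsg.Agent.Lib.Blocks

/-- Fix a prime p and a maximal ideal M of the algebraic integers containing p. Let N be a normal subgroup of the finite group G, Q a p-subgroup of N, H = N_G(Q) and L = H ∩ N = N_N(Q). Let d be a p-block of N with defect group Q and e the p-block of L with defect group Q that induces d inside N (its Brauer correspondent). Then block induction from H to G is a bijection from the p-blocks of H covering e onto the p-blocks of G covering d: every block of H covering e induces exactly one block of G, and that block covers d; and every block of G covering d is induced by exactly one block of H covering e. -/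
theorem result {G : Type*} [Group G] [Fintype G] (p : ℕ) [Fact p.Prime] (M : Ideal Cfsg.AlgInt) (hM : Cfsg.IsPModular p M) (N : Subgroup G) [N.Normal] [Fintype N] (Q : Subgroup G) (hQ : IsPGroup p Q) (hQN : Q ≤ N) [Fintype ↥(Subgroup.normalizer (Q : Set G) ⊓ N)] (d : Set (Cfsg.IrrCharacter N)) (hd : Cfsg.IsPBlock M d) (hdQ : Cfsg.IsDefectGroup p M d (Q.subgroupOf N)) (e : Set (Cfsg.IrrCharacter ↥(Subgroup.normalizer (Q : Set G) ⊓ N))) (he : Cfsg.IsPBlock M e) (heQ : Cfsg.IsDefectGroup p M e (Q.subgroupOf (Subgroup.normalizer (Q : Set G) ⊓ N))) (hed : Cfsg.IsInducedBlockIn M N (Subgroup.normalizer (Q : Set G) ⊓ N) e d) : (∀ c : Set (Cfsg.IrrCharacter ↥(Subgroup.normalizer (Q : Set G))), Cfsg.IsPBlock M c → (∃ ψ ∈ c, ∃ ξ ∈ e, Cfsg.classInner (fun l : ↥(Subgroup.normalizer (Q : Set G) ⊓ N) => (ψ : ↥(Subgroup.normalizer (Q : Set G)) → ℂ) (Subgroup.inclusion inf_le_left l)) (ξ : ↥(Subgroup.normalizer (Q : Set G) ⊓ N) → ℂ) ≠ 0) → ∃! B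 : Set (Cfsg.IrrCharacter G), Cfsg.IsInducedBlock M (Subgroup.normalizer (Q : Set G)) c B ∧ (∃ χ ∈ B, ∃ θ ∈ d, Cfsg.classInner (fun n : N => (χ : G → ℂ) n) (θ : N → ℂ) ≠ 0)) ∧ (∀ B : Set (Cfsg.IrrCharacter G), Cfsg.IsPBlock M B → (∃ χ ∈ B, ∃ θ ∈ d, Cfsg.classInner (fun n : N => (χ : G → ℂ) n) (θ : N → ℂ) ≠ 0) → ∃! c : Set (Cfsg.IrrCharacter ↥(Subgroup.normalizer (Q : Set G))), (Cfsg.IsPBlock M c ∧ ∃ ψ ∈ c, ∃ ξ ∈ e, Cfsg.classInner (fun l : ↥(Subgroup.normalizer (Q : Set G) ⊓ N) => (ψ : ↥(Subgroup.normalizer (Q : Set G)) → ℂ) (Subgroup.inclusion inf_le_left l)) (ξ : ↥(Subgroup.normalizer (Q : Set G) ⊓ N) → ℂ) ≠ 0) ∧ Cfsg.IsInducedBlock M (Subgroup.normalizer (Q : Set G)) c B) := by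
  classical
  have := isPrime_of_modular hM
  letI : Fintype (Subgroup.normalizer (Q : Set G)) := Fintype.ofFinite _
  letI : Fintype (Subgroup.normalizer ((Q.subgroupOf N : Subgroup N) : Set N)) := Fintype.ofFinite _
  refine ⟨?_, ?_⟩
  · intro c hc hcov
    obtain ⟨B, hB⟩ := exists_isInducedBlock (Subgroup.normalizer (Q : Set G)) hM hQ Subgroup.le_normalizer
      (Subgroup.centralizer_le_normalizer _) le_rfl hc
    refine ⟨B, ⟨hB, ?_⟩, fun B' hB' => IsInducedBlock.unique _ hB'.1 hB⟩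
    obtain ⟨ψ, hψ, ξ, hξ, hinner⟩ := hcov
    obtain ⟨χ, hχ⟩ := IsPBlock.nonempty hB.2.1
    obtain ⟨θ₀, hθ₀⟩ := Cfsg.Agent.Lib.Blocks.exists_constituent N χ
    have hed' : IsInducedBlockIn M N (Subgroup.normalizer (Q : Set G) ⊓ N) (blockOf M (ξ : ↥(Subgroup.normalizer (Q : Set G) ⊓ N) → ℂ)) d := by
      rw [← blockOf_eq_of_mem he hξ]
      exact hed
    obtain ⟨g, hg⟩ := exists_conj_mem_of_induced N hM hQN hB hψ hinner hed' hχ hθ₀
    exact ⟨χ, hχ, _, hg, by rw [classInner_conjIrr]; exact hθ₀⟩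
  · intro B hB hcov
    obtain ⟨P, hP, hinf, -⟩ := knorr_exists N hM hd hQN hdQ hB hcov
    obtain ⟨g, hg, hS⟩ := isDefectGroup_iff.mp hP
    have hgQ : g ∈ Subgroup.centralizer (Q : Set G) := by
      rw [Subgroup.mem_centralizer_iff]
      intro q hq
      have hqP : q ∈ P := by
        rw [← hinf] at hq
        exact hq.1
      exact Subgroup.mem_centralizer_singleton_iff.mp (hS.le hqP)
    obtain ⟨ξ, -, hξ⟩ := exists_induced_of_coeff (Subgroup.normalizer (Q : Set G)) hM hQ Subgroup.le_normalizer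
      (Subgroup.centralizer_le_normalizer _) le_rfl hB hgQ hg.2.1
    refine ⟨blockOf M (ξ : ↥(Subgroup.normalizer (Q : Set G)) → ℂ), ⟨⟨hξ.1, covers_of_induced_of_covers N hM hQ hQN hd hdQ hed hξ hcov⟩, hξ⟩, ?_⟩
    rintro c' ⟨⟨hc', hcov'⟩, hind'⟩
    exact eq_of_induced_of_covering N hM hQ hQN he heQ hcov' hind' hξ

end Cfsg.Agent.S4674
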