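import Cfsg.Statements.S4693
import Cfsg.Agent.Lib.H8Group.CentricBlock

set_option autoImplicit false
open Cfsg

namespace Cfsg.Agent.S4693

open Cfsg.Agent.Lib.Char Cfsg.Agent.Lib.H8Group Cfsg.Agent.Lib.Blocks

/-- Fix a prime p and a maximal ideal M of the algebraic integers containing p, a p-block B of the finite group G with maximal Brauer pair (P, e) and fusion system F on P, and a Brauer pair (Q, f) ≤ (P, e) with Q centric in F. Suppose every element of G normalizes Q and stabilizes f. Then the idempotent of B agrees with that of f modulo M at every element of G, and f is the idempotent of a nilpotent block of Q·C_G(Q): some p-block of Q·C_G(Q) has the idempotent coefficients of f and is nilpotent. -/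
theorem result {G : Type*} [Group G] [Fintype G] (p : ℕ) [Fact p.Prime] (M : Ideal Cfsg.AlgInt) (hM : Cfsg.IsPModular p M) (B : Set (Cfsg.IrrCharacter G)) (P : Subgroup G) (e : Set (Cfsg.IrrCharacter (Subgroup.centralizer (P : Set G)))) (hmax : Cfsg.IsMaximalBrauerPair p M B P e) (F : Cfsg.FusionSystem P) (hF : Cfsg.IsBlockFusionSystemOn p M B P e F) (Q : Subgroup G) (f : Set (Cfsg.IrrCharacter (Subgroup.centralizer (Q : Set G)))) (hQP : Q ≤ P) (hf : Cfsg.IsPBlock M f) (hle : Cfsg.SubpairLE p M Q f P e) (hcen : F.IsCentric Q) (hG : ∀ x : G, x ∈ Subgroup.normalizer (Q : Set G) ∧ Cfsg.StabilizesBlock (Subgroup.centralizer (Q : Set G)) f x) : (∀ g : G, Cfsg.MemLocalIdeal M (Cfsg.blockCoeff B g - Cfsg.subgroupBlockCoeff (Subgroup.centralizer (Q : Set G)) f g)) ∧ ∃ F' : Set (Cfsg.IrrCharacter ↥(Q ⊔ Subgroup.centralizer (Q : Set G))), Cfsg.IsPBlock M F' ∧ (∀ t : ↥(Q ⊔ Subgroup.centralizer (Q : Set G)), Cfsg.blockCoeff F' t = Cfsg.subgroupBlockCoeff (Subgroup.centralizer (Q : Set G)) f (t : G)) ∧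 Cfsg.IsNilpotentBlock p M F' := by
  classical
  have := isPrime_of_modular hM
  have hPp := hmax.1.1.1
  have hQp : IsPGroup p Q := hPp.to_le hQP
  have hB := hmax.1.2.1
  haveI hQn : Q.Normal := ⟨fun n hn g => (Subgroup.mem_normalizer_iff.mp (hG g).1 n).mp hn⟩
  have hQf : IsBrauerPairOf p M B Q f := (isBrauerPairOf_iff_of_chain hM hle hB).mp hmax.1
  have h1 := blockCoeff_eq_of_normal_pair hM Q hQp hf (fun x => (hG x).2) hQf
  refine ⟨fun g => ?_, ?_⟩
  · rw [h1, sub_self]
    exact memLocalIdeal_zero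
  · have hdef := (isCentric_iff hM hF hQP hf hle).mp hcen
    letI : Fintype (Subgroup.centralizer (Q : Set G)) := Fintype.ofFinite _
    letI : Fintype ↥(Q ⊔ Subgroup.centralizer (Q : Set G)) := Fintype.ofFinite _
    obtain ⟨F', hF', hc⟩ := exists_block_stabilizer hM hQp le_sup_left le_sup_right
      sup_centralizer_le_normalizer hf (fun t ht => stabilizesBlock_of_mem_sup ht f)
    exact ⟨F', hF', hc, isNilpotentBlock_sup_of_defect hM hQp hf hdef hF' hc⟩

end Cfsg.Agent.S4693
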