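import Cfsg.Statements.S4706
import Cfsg.Agent.Lib.BT.PermP
import Cfsg.Agent.S4702

set_option autoImplicit false
open Cfsg

namespace Cfsg.Agent.S4706

open MulAction Subgroup Cfsg.Agent.Lib.BT.PermP

theorem normal_of_solvable {α : Type*} [Fintype α] [DecidableEq α] {p : ℕ} [Fact p.Prime] (hα : Fintype.card α = p)
    (G : Subgroup (Equiv.Perm α)) [MulAction.IsPretransitive G α] [Group.IsSolvable G] (P : Sylow p G)
    (hPc : Nat.card (P : Subgroup G) = p) : (P : Subgroup G).Normal := by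
  classical
  have hp : p.Prime := Fact.out
  haveI : NeZero p := ⟨hp.ne_zero⟩
  haveI : Fact (1 < p) := ⟨hp.one_lt⟩
  obtain ⟨c, e, hc, haff⟩ := Cfsg.Agent.Lib.Perm.pd_affine hα G
  have hord : ∀ x : G, x ∈ (P : Subgroup G) → x ≠ 1 → orderOf x = p := fun x hx hx1 =>
    Cfsg.Agent.Lib.SmallSimple.orderOf_eq_of_mem_sylow hPc hx hx1
  have key : ∀ h : G, orderOf h = p → ∃ b : ZMod p, ∀ j, h.1 (e j) = e (b + j) := by
    intro h ho
    obtain ⟨b, m, hm, hb⟩ := haff h
    refine ⟨b, ?_⟩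
    by_cases hm1 : m = 1
    · intro j
      rw [hb, hm1, mul_one]
    · exfalso
      have hne : 1 - m ≠ 0 := sub_ne_zero.mpr (Ne.symm hm1)
      have ho' : orderOf (h : Equiv.Perm α) = p := by
        rw [← ho]
        exact Subgroup.orderOf_coe h
      apply no_fixed_of_order hα (h : Equiv.Perm α) ho' (e (b / (1 - m)))
      show h.1 _ = _
      rw [hb]
      congr 1
      field_simp
      ring
  obtain ⟨⟨x₀, hx₀⟩, hx₀1⟩ : ∃ x₀ : (P : Subgroup G), x₀ ≠ 1 := by
    have : Nontrivial (P : Subgroup G) := by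
      rw [← Finite.one_lt_card_iff_nontrivial, hPc]
      exact hp.one_lt
    exact exists_ne 1
  have hx₀1' : x₀ ≠ 1 := fun h => hx₀1 (Subtype.ext h)
  obtain ⟨b₀, hb₀⟩ := key x₀ (hord x₀ hx₀ hx₀1')
  have hb₀0 : b₀ ≠ 0 := by
    rintro rfl
    apply hx₀1'
    apply Subtype.ext
    apply Equiv.ext
    intro a
    obtain ⟨j, rfl⟩ := e.surjective a
    rw [hb₀, zero_add]
    rfl
  have hpow : ∀ (n : ℕ) j, (x₀ ^ n).1 (e j) = e ((n : ZMod p) * b₀ + j) := by
    intro n
    induction n with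
    | zero => intro j; simp
    | succ n ih =>
      intro j
      rw [pow_succ']
      show x₀.1 ((x₀ ^ n).1 (e j)) = _
      rw [ih, hb₀]
      congr 1
      push_cast
      ring
  have hin : ∀ h : G, orderOf h = p → h ∈ (P : Subgroup G) := by
    intro h ho
    obtain ⟨b, hb⟩ := key h ho
    have : h = x₀ ^ (b / b₀).val := by
      apply Subtype.ext
      apply Equiv.ext
      intro a
      obtain ⟨j, rfl⟩ := e.surjective a
      show h.1 _ = (x₀ ^ (b / b₀).val).1 _
      rw [hb, hpow]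
      congr 2
      rw [ZMod.natCast_val, ZMod.cast_id', id]
      field_simp
    rw [this]
    exact pow_mem hx₀ _
  constructor
  intro x hx g
  by_cases hx1 : x = 1
  · rw [hx1]
    simp
  apply hin
  rw [← hord x hx hx1]
  have h0 : g * x * g⁻¹ = MulAut.conj g x := rfl
  rw [h0]
  exact MulEquiv.orderOf_eq _ _

/-- Let p > 2 be a prime and G a permutation group on p letters whose Sylow p-subgroup P has normalizer of order 2p. Then either P is normal in G, or p − 1 = 2^a for some a and G is isomorphic to SL(2, 2^a). -/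
theorem result {α : Type*} [Fintype α] [DecidableEq α] {p : ℕ} [Fact p.Prime] (hp : 2 < p) (hα : Fintype.card α = p) (G : Subgroup (Equiv.Perm α)) (P : Sylow p G) (hN : Nat.card (Subgroup.normalizer ((P : Subgroup G) : Set G)) = 2 * p) : (P : Subgroup G).Normal ∨ ∃ (a : ℕ) (F : Type) (_ : Field F) (_ : Fintype F), p = 2 ^ a + 1 ∧ Fintype.card F = 2 ^ a ∧ Nonempty (G ≃* Matrix.SpecialLinearGroup (Fin 2) F) := by
  classical
  have hpp : p.Prime := Fact.out
  haveI : NeZero p := ⟨hpp.ne_zero⟩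
  haveI : Fact (1 < p) := ⟨hpp.one_lt⟩
  have hGdvd : Nat.card (Subgroup.normalizer ((P : Subgroup G) : Set G)) ∣ Nat.card G := Subgroup.card_subgroup_dvd_card _
  have hpG : p ∣ Nat.card G := by
    rw [hN] at hGdvd
    exact dvd_trans (Dvd.intro_left 2 rfl) hGdvd
  have hPne : (P : Subgroup G) ≠ ⊥ := P.ne_bot_of_dvd_card hpG
  have hPc : Nat.card (P : Subgroup G) = p := by
    obtain ⟨k, hk⟩ := IsPGroup.iff_card.mp P.isPGroup'
    have hd : Nat.card (P : Subgroup G) ∣ 2 * p := by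
      rw [← hN]
      have hle : (P : Subgroup G) ≤ Subgroup.normalizer ((P : Subgroup G) : Set G) := Subgroup.le_normalizer
      exact Subgroup.card_dvd_of_le hle
    rw [hk] at hd
    rcases k with _ | _ | k
    · exfalso
      apply hPne
      rw [pow_zero] at hk
      exact Subgroup.eq_bot_of_card_eq _ hk
    · simpa using hk
    · exfalso
      have h1 : p ^ 2 ∣ 2 * p := dvd_trans (pow_dvd_pow p (by omega)) hd
      rw [pow_two, mul_comm 2 p] at h1
      have h2 : p ∣ 2 := Nat.dvd_of_mul_dvd_mul_left hpp.pos h1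
      have := Nat.le_of_dvd (by norm_num) h2
      omega
  obtain ⟨⟨x₀, hx₀⟩, hx₀1⟩ : ∃ x₀ : (P : Subgroup G), x₀ ≠ 1 := by
    have : Nontrivial (P : Subgroup G) := by
      rw [← Finite.one_lt_card_iff_nontrivial, hPc]
      exact hpp.one_lt
    exact exists_ne 1
  have hx₀1' : x₀ ≠ 1 := fun h => hx₀1 (Subtype.ext h)
  have hox : orderOf x₀ = p := Cfsg.Agent.Lib.SmallSimple.orderOf_eq_of_mem_sylow hPc hx₀ hx₀1'
  have hox' : orderOf (x₀ : Equiv.Perm α) = p := by
    rw [← hox]
    exact Subgroup.orderOf_coe x₀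
  obtain ⟨e, he⟩ := Cfsg.Agent.Lib.Perm.exists_cycle_numbering hα (x₀ : Equiv.Perm α) hox'
  haveI htr : MulAction.IsPretransitive G α := by
    refine ⟨fun a b => ?_⟩
    obtain ⟨i, rfl⟩ := e.surjective a
    obtain ⟨j, rfl⟩ := e.surjective b
    refine ⟨x₀ ^ (j - i).val, ?_⟩
    show ((x₀ ^ (j - i).val : G) : Equiv.Perm α) (e i) = e j
    rw [Subgroup.coe_pow, Cfsg.Agent.Lib.Perm.pd_cpow e _ he]
    congr 1
    rw [ZMod.natCast_val, ZMod.cast_id', id]
    ring
  by_cases hs : Group.IsSolvable G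
  · exact Or.inl (normal_of_solvable hα G P hPc)
  · right
    have h3 := Cfsg.Agent.Lib.Perm.pd_three hα G hs P ⟨p, by rw [hN]; ring⟩
    obtain ⟨a, ha, hca, F, i1, i2, hF, hiso⟩ := Cfsg.Agent.S4702.result (by rw [hα]; omega)
      (by rw [hα]; exact hpp.odd_of_ne_two (by omega)) G h3 (fix_three hα G h3 P hPc hN (by omega))
    exact ⟨a, F, i1, i2, by rw [← hα]; exact hca, hF, hiso⟩

end Cfsg.Agent.S4706
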