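import Cfsg.Statements.S4707
import Cfsg.Agent.Lib.BT.Deg2pC
import Cfsg.Agent.S0494

set_option autoImplicit false
open Cfsg

namespace Cfsg.Agent.S4707

open MulAction Subgroup Cfsg.Agent.Lib.BT Cfsg.Agent.Lib.Char

theorem deg2p_main {Γ : Type*} [Group Γ] [Fintype Γ] {α : Type*} [Fintype α] [MulAction Γ α] [FaithfulSMul Γ α]
    [IsPreprimitive Γ α] {p : ℕ} [hp : Fact p.Prime] (hp3 : 3 < p) (hα : Fintype.card α = 2 * p)
    (hnot2 : ¬ IsMultiplyPretransitive Γ α 2) (P : Sylow p Γ)
    (hN : Nat.card (normalizer ((P : Subgroup Γ) : Set Γ)) = 2 * p) :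
    p = 5 ∧ IsSimpleGroup Γ ∧ Nat.card Γ = 60 := by
  classical
  have hpr := hp.out
  have hp5 : 5 ≤ p := by
    by_contra hlt
    have h4 : p = 4 := by omega
    rw [h4] at hpr
    norm_num at hpr
  have hGdvd : Nat.card (normalizer ((P : Subgroup Γ) : Set Γ)) ∣ Nat.card Γ := Subgroup.card_subgroup_dvd_card _
  have hpG : p ∣ Nat.card Γ := by
    rw [hN] at hGdvd
    exact dvd_trans (Dvd.intro_left 2 rfl) hGdvd
  have hPne : (P : Subgroup Γ) ≠ ⊥ := P.ne_bot_of_dvd_card hpG
  have hPc : Nat.card (P : Subgroup Γ) = p := by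
    obtain ⟨k, hk⟩ := IsPGroup.iff_card.mp P.isPGroup'
    have hd : Nat.card (P : Subgroup Γ) ∣ 2 * p := by
      rw [← hN]
      have hle : (P : Subgroup Γ) ≤ Subgroup.normalizer ((P : Subgroup Γ) : Set Γ) := Subgroup.le_normalizer
      exact Subgroup.card_dvd_of_le hle
    rw [hk] at hd
    rcases k with _ | _ | k
    · exfalso
      apply hPne
      rw [pow_zero] at hk
      exact Subgroup.eq_bot_of_card_eq _ hk
    · simpa using hk
    · exfalso
      have h1 : p ^ 2 ∣ 2 * p := dvd_trans (pow_dvd_pow p (by omega)) hd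
      rw [pow_two, mul_comm 2 p] at h1
      have h2 : p ∣ 2 := Nat.dvd_of_mul_dvd_mul_left hpr.pos h1
      have := Nat.le_of_dvd (by norm_num) h2
      omega
  have hsimple : IsSimpleGroup Γ := simple_of (α := α) (by rw [hα]; exact Dvd.intro_left 2 rfl) (by rw [hα]; omega) P hPc hN
  obtain ⟨m, t, h⟩ := exists_SC_two hp5 P hPc hN
  obtain ⟨D⟩ := h.exists_dat
  letI : Fintype (P : Subgroup Γ) := Fintype.ofFinite _
  obtain ⟨mm, hd⟩ := exists_dec (isCharacter_permChar (G := Γ) (X := α))
  have hindex : ∀ a : α, (stabilizer Γ a).index = 2 * p := by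
    intro a
    rw [MulAction.index_stabilizer, orbit_eq_univ, Set.ncard_univ, Nat.card_eq_fintype_card, hα]
  have hπ : ∀ g : Γ, p ∣ orderOf g → ∀ a : α, g • a ≠ a := by
    intro g hg a ha
    obtain ⟨ho, -⟩ := h.singular g hg
    have h2 := (stabilizer Γ a).card_mul_index
    rw [hindex a] at h2
    have h3 : p ∣ Nat.card (stabilizer Γ a) := by
      have hg' : g ∈ stabilizer Γ a := ha
      have h4 : orderOf (⟨g, hg'⟩ : stabilizer Γ a) = p := by rw [Subgroup.orderOf_mk, ho]
      rw [← h4]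
      exact orderOf_dvd_natCard _
    have h5 : p ^ 2 ∣ Nat.card Γ := by
      obtain ⟨k, hk⟩ := h3
      rw [← h2, hk]
      exact ⟨k * 2, by ring⟩
    have h6 := Sylow.pow_dvd_card_of_pow_dvd_card P h5
    rw [hPc, sq] at h6
    have h7 := Nat.le_of_dvd hpr.pos h6
    nlinarith
  obtain ⟨χ₁, H, hY⟩ := exists_two_of_perm h D hα hπ hnot2 hd
  have hf : ∀ g : Γ, (χ₁ : Γ → ℂ) g = (χ₁ : Γ → ℂ) 1 → g = 1 := by
    have hχ := IsIrrCharacter.isCharacter χ₁.2
    have hn := charKer_normal hχ
    rcases hn.eq_bot_or_eq_top with hk | hk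
    · intro g hg
      have h1 : g ∈ charKer (χ₁ : Γ → ℂ) := (mem_charKer hχ).mpr hg
      rw [hk] at h1
      exact Subgroup.mem_bot.mp h1
    · exfalso
      obtain ⟨y, hy, hy1⟩ := h.exists_ne_one_mem
      have h1 : y ∈ charKer (χ₁ : Γ → ℂ) := by rw [hk]; trivial
      have h2 := (mem_charKer hχ).mp h1
      rw [H.val_P hy hy1, H.one_val] at h2
      have h3 : (p : ℂ) = 0 := by linear_combination -h2
      exact hpr.ne_zero (by exact_mod_cast h3)
  have hG := H.card_G_nat hf
  haveI : Fact (Nat.Prime 2) := ⟨Nat.prime_two⟩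
  obtain ⟨S⟩ : Nonempty (Sylow 2 Γ) := inferInstance
  have hSc := H.S2_card hf S
  have hle : Nat.card (S : Subgroup Γ) ≤ 4 := by
    apply card_le_four (α := α)
    · intro x y
      apply Subtype.ext
      exact H.S2_comm hf S x.2 y.2
    · intro σ hσ
      have hσ1 : (σ : Γ) ≠ 1 := fun e => hσ (Subtype.ext e)
      exact H.fix_invol hf hα hπ hd hY (H.S2_sq hf S σ.2) hσ1
    · intro a
      by_contra hcon
      push Not at hcon
      have hle : (S : Subgroup Γ) ≤ stabilizer Γ a := fun x hx => hcon ⟨x, hx⟩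
      have hdv := Subgroup.card_dvd_of_le hle
      rw [hSc] at hdv
      obtain ⟨k, hk⟩ := hdv
      have h2 := (stabilizer Γ a).card_mul_index
      rw [hindex a, hk, hG] at h2
      have hodd : p % 2 = 1 := by
        rcases Nat.Prime.eq_two_or_odd hpr with h0 | h0
        · omega
        · exact h0
      have h3 : (p * (p - 1)) * (2 * k) = (p * (p - 1)) * (p - 2) := by
        rw [show (p * (p - 1)) * (2 * k) = (p - 1) * k * (2 * p) by ring, h2]
        ring
      have h4 : 0 < p * (p - 1) := Nat.mul_pos hpr.pos (by omega)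
      have h5 := Nat.eq_of_mul_eq_mul_left h4 h3
      omega
  have hp5' : p = 5 := by
    rw [hSc] at hle
    omega
  refine ⟨hp5', hsimple, ?_⟩
  rw [hp5'] at hG
  rw [hG]

/-- Let p > 3 be a prime and G a primitive permutation group of degree 2p that is not doubly transitive. If a Sylow p-subgroup of G has normalizer of order 2p, then p = 5 and G is isomorphic to the alternating group of degree 5. -/
theorem result {α : Type*} [Fintype α] [DecidableEq α] {p : ℕ} [Fact p.Prime] (hp : 3 < p) (hα : Fintype.card α = 2 * p) (G : Subgroup (Equiv.Perm α)) (hprim : MulAction.IsPreprimitive G α) (hnot2 : ¬ MulAction.IsMultiplyPretransitive G α 2) (P : Sylow p G) (hN : Nat.card (Subgroup.normalizer ((P : Subgroup G) : Set G)) = 2 * p) : p = 5 ∧ Nonempty (G ≃* alternatingGroup (Fin 5)) := by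
  classical
  letI : Fintype G := Fintype.ofFinite _
  obtain ⟨h1, h2, h3⟩ := deg2p_main hp hα hnot2 P hN
  haveI := h2
  exact ⟨h1, Cfsg.Agent.S0494.result h3⟩

end Cfsg.Agent.S4707
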