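import Cfsg.Statements.S4708
import Cfsg.Agent.Lib.Blocks.CoverAll
import Cfsg.Agent.Lib.Char.PBlock

set_option autoImplicit false
open Cfsg

namespace Cfsg.Agent.S4708

/-- Let p be a prime, M a maximal ideal of the algebraic integers containing p, G a finite group and H a normal subgroup. Write λ(X) for the sum of the squares of the degrees of the irreducible characters in the principal p-block of a group X. Then λ(H) ≤ λ(G) ≤ [G : H]·λ(H). -/
theorem result {G : Type*} [Group G] [Finite G] (p : ℕ) [Fact p.Prime] (M : Ideal Cfsg.AlgInt) (hM : Cfsg.IsPModular p M) (H : Subgroup G) [H.Normal] : (∑ᶠ θ ∈ Cfsg.principalBlock M H, Cfsg.charDegree (θ : H → ℂ) ^ 2) ≤ (∑ᶠ χ ∈ Cfsg.principalBlock M G, Cfsg.charDegree (χ : G → ℂ) ^ 2) ∧ (∑ᶠ χ ∈ Cfsg.principalBlock M G, Cfsg.charDegree (χ : G → ℂ) ^ 2) ≤ H.index * ∑ᶠ θ ∈ Cfsg.principalBlock M H, Cfsg.charDegree (θ : H → ℂ) ^ 2 := by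
  classical
  letI : Fintype G := Fintype.ofFinite G
  letI : Fintype H := Fintype.ofFinite H
  have := Cfsg.Agent.Lib.Blocks.isPrime_of_modular hM
  set B₀ := Cfsg.principalBlock M G with hB₀
  set b₀ := Cfsg.principalBlock M H with hb₀
  have hB : Cfsg.IsPBlock M B₀ := Cfsg.Agent.Lib.Char.isPBlock_principalBlock
  have hb : Cfsg.IsPBlock M b₀ := Cfsg.Agent.Lib.Char.isPBlock_principalBlock
  have h1G : Cfsg.Agent.Lib.Char.irrOne G ∈ B₀ := Cfsg.Agent.Lib.Char.irrOne_mem_principalBlock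
  have h1H : Cfsg.Agent.Lib.Char.irrOne H ∈ b₀ := Cfsg.Agent.Lib.Char.irrOne_mem_principalBlock
  have hcon1 : Cfsg.classInner (fun n : H => ((Cfsg.Agent.Lib.Char.irrOne G : Cfsg.IrrCharacter G) : G → ℂ) n)
      ((Cfsg.Agent.Lib.Char.irrOne H : Cfsg.IrrCharacter H) : H → ℂ) ≠ 0 := by
    have h2 := Cfsg.Agent.Lib.Char.classInner_irr_self (Cfsg.Agent.Lib.Char.irrOne H).2
    have h3 : (fun n : H => ((Cfsg.Agent.Lib.Char.irrOne G : Cfsg.IrrCharacter G) : G → ℂ) n) =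
        ((Cfsg.Agent.Lib.Char.irrOne H : Cfsg.IrrCharacter H) : H → ℂ) := rfl
    rw [h3, h2]
    exact one_ne_zero
  have hcov : ∃ χ ∈ B₀, ∃ θ ∈ b₀, Cfsg.classInner (fun n : H => (χ : G → ℂ) n) (θ : H → ℂ) ≠ 0 :=
    ⟨_, h1G, _, h1H, hcon1⟩
  -- constituents of the principal block lie in the principal block
  have hconst : ∀ χ ∈ B₀, ∀ θ : Cfsg.IrrCharacter H,
      Cfsg.classInner (fun n : H => (χ : G → ℂ) n) (θ : H → ℂ) ≠ 0 → θ ∈ b₀ := by
    intro χ hχ θ hθ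
    obtain ⟨g, hg⟩ := Cfsg.Agent.Lib.Blocks.covering_constituents H hB hb h1G hχ h1H hcon1 hθ
    have h2 : Cfsg.SameBlock M ((Cfsg.Agent.Lib.Blocks.conjIrr H g θ : Cfsg.IrrCharacter H) : H → ℂ)
        ((Cfsg.Agent.Lib.Char.irrOne H : Cfsg.IrrCharacter H) : H → ℂ) :=
      Cfsg.Agent.Lib.Blocks.sameBlock_of_mem hb hg h1H
    have h3 := Cfsg.Agent.Lib.Blocks.sameBlock_conjIrr H g⁻¹ h2
    rw [← Cfsg.Agent.Lib.Blocks.conjIrr_mul, inv_mul_cancel, Cfsg.Agent.Lib.Blocks.conjIrr_one] at h3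
    have h4 : (Cfsg.Agent.Lib.Blocks.conjIrr H g⁻¹ (Cfsg.Agent.Lib.Char.irrOne H) : Cfsg.IrrCharacter H) =
        Cfsg.Agent.Lib.Char.irrOne H := rfl
    rw [h4] at h3
    exact Cfsg.Agent.Lib.Blocks.SameBlock.symm' h3
  -- natural number data
  have hm : ∀ (χ : Cfsg.IrrCharacter G) (θ : Cfsg.IrrCharacter H), ∃ n : ℕ,
      Cfsg.classInner (fun n : H => (χ : G → ℂ) n) (θ : H → ℂ) = n := fun χ θ =>
    Cfsg.Agent.Lib.Char.IsCharacter.classInner_irr_eq_nat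
      (Cfsg.Agent.Lib.Char.isCharacter_resFun H (Cfsg.Agent.Lib.Char.IsIrrCharacter.isCharacter χ.2)) θ.2
  choose m hm' using hm
  set d : Cfsg.IrrCharacter G → ℕ := fun χ => Cfsg.charDegree (χ : G → ℂ) with hd
  set d' : Cfsg.IrrCharacter H → ℕ := fun θ => Cfsg.charDegree (θ : H → ℂ) with hd'
  have hdc : ∀ χ : Cfsg.IrrCharacter G, (χ : G → ℂ) 1 = d χ := fun χ =>
    Cfsg.Agent.Lib.Char.apply_one_eq_charDegree (Cfsg.Agent.Lib.Char.IsIrrCharacter.isCharacter χ.2)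
  have hdc' : ∀ θ : Cfsg.IrrCharacter H, (θ : H → ℂ) 1 = d' θ := fun θ =>
    Cfsg.Agent.Lib.Char.apply_one_eq_charDegree (Cfsg.Agent.Lib.Char.IsIrrCharacter.isCharacter θ.2)
  -- degree of the restriction
  have hA₀ : ∀ χ : Cfsg.IrrCharacter G, d χ = ∑ θ : Cfsg.IrrCharacter H, m χ θ * d' θ := by
    intro χ
    obtain ⟨n, hn1, hn2⟩ := Cfsg.Agent.Lib.Char.IsCharacter.exists_eq_sum
      (Cfsg.Agent.Lib.Char.isCharacter_resFun H (Cfsg.Agent.Lib.Char.IsIrrCharacter.isCharacter χ.2))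
    have h1 := congrFun hn2 1
    have h2 : (d χ : ℂ) = ∑ θ : Cfsg.IrrCharacter H, (n θ : ℂ) * (d' θ : ℂ) := by
      rw [← hdc χ]
      have h3 : (χ : G → ℂ) 1 = Cfsg.Agent.Lib.Char.resFun H (χ : G → ℂ) 1 := rfl
      rw [h3, h1, Finset.sum_apply]
      refine Finset.sum_congr rfl fun θ _ => ?_
      rw [Pi.smul_apply, nsmul_eq_mul, hdc']
    have h4 : ∀ θ, n θ = m χ θ := by
      intro θ
      have h5 := hn1 θ
      have h6 := hm' χ θ
      have h7 : (n θ : ℂ) = m χ θ := h5.symm.trans h6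
      exact_mod_cast h7
    simp only [h4] at h2
    exact_mod_cast h2
  -- induced degree
  have hB₀' : ∀ θ : Cfsg.IrrCharacter H, ∑ χ : Cfsg.IrrCharacter G, d χ * m χ θ = H.index * d' θ := by
    intro θ
    have h1 : (∑ χ : Cfsg.IrrCharacter G, (d χ : ℂ) * (m χ θ : ℂ)) = (H.index : ℂ) * (d' θ : ℂ) := by
      have h2 : ∀ χ : Cfsg.IrrCharacter G, (d χ : ℂ) * (m χ θ : ℂ) =
          (Nat.card H : ℂ)⁻¹ * ∑ n : H, (starRingEnd ℂ) ((θ : H → ℂ) n) * ((χ : G → ℂ) 1 * (χ : G → ℂ) n) := by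
        intro χ
        rw [← hm' χ θ, ← hdc χ]
        show (χ : G → ℂ) 1 * ((Nat.card H : ℂ)⁻¹ * ∑ n : H, (χ : G → ℂ) n * (starRingEnd ℂ) ((θ : H → ℂ) n)) = _
        rw [mul_left_comm, Finset.mul_sum]
        congr 1
        refine Finset.sum_congr rfl fun n _ => ?_
        ring
      rw [Finset.sum_congr rfl fun χ _ => h2 χ, ← Finset.mul_sum, Finset.sum_comm]
      have h3 : ∀ n : H, ∑ χ : Cfsg.IrrCharacter G, (starRingEnd ℂ) ((θ : H → ℂ) n) * ((χ : G → ℂ) 1 * (χ : G → ℂ) n) =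
          (starRingEnd ℂ) ((θ : H → ℂ) n) * (if n = 1 then (Nat.card G : ℂ) else 0) := by
        intro n
        rw [← Finset.mul_sum, Cfsg.Agent.Lib.Char.sum_irr_degree_mul_apply]
        congr 1
        by_cases h : n = 1
        · subst h
          simp
        · rw [if_neg h, if_neg]
          intro h'
          exact h (Subtype.ext h')
      rw [Finset.sum_congr rfl fun n _ => h3 n, Finset.sum_eq_single (1 : H)]
      · rw [if_pos rfl]
        have h4 : (starRingEnd ℂ) ((θ : H → ℂ) 1) = (θ : H → ℂ) 1 := by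
          have h5 := Cfsg.Agent.Lib.Blocks.irr_apply_inv θ 1
          simpa using h5.symm
        rw [h4, hdc']
        have h6 : (Nat.card G : ℂ) = (H.index : ℂ) * (Nat.card H : ℂ) := by
          rw [← Nat.cast_mul, Subgroup.index_mul_card]
        have h7 : (Nat.card H : ℂ) ≠ 0 := Cfsg.Agent.Lib.Blocks.card_ne_zero_complex
        rw [h6]
        field_simp
      · intro n _ hn
        rw [if_neg hn, mul_zero]
      · simp
    exact_mod_cast h1
  have hcover : ∀ θ ∈ b₀, ∃ χ ∈ B₀, m χ θ ≠ 0 := by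
    intro θ hθ
    obtain ⟨χ, hχ, h⟩ := Cfsg.Agent.Lib.Blocks.exists_over_of_covering H hM hb hB hcov hθ
    refine ⟨χ, hχ, fun h0 => h ?_⟩
    rw [hm' χ θ, h0]
    simp
  rw [finsum_mem_eq_toFinset_sum, finsum_mem_eq_toFinset_sum]
  set A := b₀.toFinset with hAdef
  set C := B₀.toFinset with hCdef
  have hAmem : ∀ θ, θ ∈ A ↔ θ ∈ b₀ := fun θ => Set.mem_toFinset
  have hCmem : ∀ χ, χ ∈ C ↔ χ ∈ B₀ := fun χ => Set.mem_toFinset
  have hA : ∀ χ ∈ C, d χ = ∑ θ ∈ A, m χ θ * d' θ := by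
    intro χ hχ
    rw [hA₀ χ]
    symm
    apply Finset.sum_subset (Finset.subset_univ _)
    intro θ _ hθ
    have h0 : m χ θ = 0 := by
      by_contra h
      apply hθ
      rw [hAmem]
      refine hconst χ ((hCmem χ).mp hχ) θ ?_
      rw [hm' χ θ]
      exact_mod_cast h
    rw [h0, zero_mul]
  set v : Cfsg.IrrCharacter H → ℕ := fun θ => ∑ χ ∈ C, d χ * m χ θ with hv
  have hsum : ∑ χ ∈ C, d χ ^ 2 = ∑ θ ∈ A, d' θ * v θ := by
    have h1 : ∀ χ ∈ C, d χ ^ 2 = ∑ θ ∈ A, d' θ * (d χ * m χ θ) := by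
      intro χ hχ
      have h2 : d χ * d χ = d χ * ∑ θ ∈ A, m χ θ * d' θ := by rw [← hA χ hχ]
      rw [pow_two, h2, Finset.mul_sum]
      refine Finset.sum_congr rfl fun θ _ => ?_
      ring
    rw [Finset.sum_congr rfl h1, Finset.sum_comm]
    refine Finset.sum_congr rfl fun θ _ => ?_
    rw [← Finset.mul_sum]
  have hlow : ∀ θ ∈ A, d' θ ≤ v θ := by
    intro θ hθ
    obtain ⟨χ, hχ, h0⟩ := hcover θ ((hAmem θ).mp hθ)
    have hχC : χ ∈ C := (hCmem χ).mpr hχ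
    have h1 : d' θ ≤ d χ := by
      rw [hA χ hχC]
      calc d' θ ≤ m χ θ * d' θ := Nat.le_mul_of_pos_left _ (Nat.pos_of_ne_zero h0)
        _ ≤ _ := Finset.single_le_sum (f := fun θ => m χ θ * d' θ) (fun _ _ => Nat.zero_le _) hθ
    calc d' θ ≤ d χ := h1
      _ ≤ d χ * m χ θ := Nat.le_mul_of_pos_right _ (Nat.pos_of_ne_zero h0)
      _ ≤ v θ := Finset.single_le_sum (f := fun χ => d χ * m χ θ) (fun _ _ => Nat.zero_le _) hχC
  have hup : ∀ θ, v θ ≤ H.index * d' θ := by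
    intro θ
    rw [← hB₀' θ]
    exact Finset.sum_le_sum_of_subset (Finset.subset_univ _)
  constructor
  · show ∑ θ ∈ A, d' θ ^ 2 ≤ ∑ χ ∈ C, d χ ^ 2
    rw [hsum]
    refine Finset.sum_le_sum fun θ hθ => ?_
    rw [pow_two]
    exact Nat.mul_le_mul_left _ (hlow θ hθ)
  · show ∑ χ ∈ C, d χ ^ 2 ≤ H.index * ∑ θ ∈ A, d' θ ^ 2
    rw [hsum, Finset.mul_sum]
    refine Finset.sum_le_sum fun θ _ => ?_
    calc d' θ * v θ ≤ d' θ * (H.index * d' θ) := Nat.mul_le_mul_left _ (hup θ)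
      _ = _ := by ring

end Cfsg.Agent.S4708
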