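import Cfsg.Statements.S4712
import Mathlib
import Cfsg.Agent.Lib.LocalAlg.PRat2

set_option autoImplicit false
open Cfsg

namespace Cfsg.Agent.S4712

/-- Let p be an odd prime, M a maximal ideal of the algebraic integers containing p, G a finite group of order n with p-part p^a, and B a p-block of G. Call an irreducible character χ p-rational when χ(g^k) = χ(g) for every g and every k coprime to n with k ≡ 1 modulo n/p^a (χ is fixed by the Galois automorphisms fixing the roots of unity of order prime to p). Then the number of p-rational irreducible characters in B is at least the p-regular rank of B (the number of irreducible Brauer characters in B). -/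
theorem result {G : Type*} [Group G] [Finite G] (p : ℕ) [Fact p.Prime] (hodd : p ≠ 2) (M : Ideal Cfsg.AlgInt) (hM : Cfsg.IsPModular p M) (B : Set (Cfsg.IrrCharacter G)) (hB : Cfsg.IsPBlock M B) : Cfsg.blockRank p B ≤ Nat.card {χ : Cfsg.IrrCharacter G // χ ∈ B ∧ ∀ k : ℕ, Nat.Coprime k (Nat.card G) → k ≡ 1 [MOD Nat.card G / p ^ (Nat.card G).factorization p] → ∀ g : G, (χ : G → ℂ) (g ^ k) = (χ : G → ℂ) g} := by
  classical
  obtain ⟨_⟩ := nonempty_fintype G
  have := Cfsg.Agent.Lib.Blocks.isPrime_of_modular hM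
  have hpp : p.Prime := Fact.out
  have hn0 : Nat.card G ≠ 0 := Nat.card_pos.ne'
  have hcop : Nat.Coprime (p ^ (Nat.card G).factorization p) (Nat.card G / p ^ (Nat.card G).factorization p) :=
    Nat.Coprime.pow_left _ (Nat.coprime_ordCompl hpp hn0)
  have hnn : p ^ (Nat.card G).factorization p * (Nat.card G / p ^ (Nat.card G).factorization p) = Nat.card G :=
    Nat.mul_div_cancel' (Nat.ordProj_dvd _ _)
  haveI hcyc := ZMod.isCyclic_units_of_prime_pow p hpp hodd ((Nat.card G).factorization p)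
  haveI : NeZero (p ^ (Nat.card G).factorization p) := ⟨(pow_pos hpp.pos _).ne'⟩
  obtain ⟨γ, hγ⟩ := IsCyclic.exists_generator (α := (ZMod (p ^ (Nat.card G).factorization p))ˣ)
  let k₀ : ℕ := (Nat.chineseRemainder hcop (γ : ZMod (p ^ (Nat.card G).factorization p)).val 1 : ℕ)
  have h1 : k₀ ≡ (γ : ZMod (p ^ (Nat.card G).factorization p)).val [MOD p ^ (Nat.card G).factorization p] :=
    (Nat.chineseRemainder hcop _ _).2.1
  have h2 : k₀ ≡ 1 [MOD Nat.card G / p ^ (Nat.card G).factorization p] := (Nat.chineseRemainder hcop _ _).2.2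
  have hk₀Z : ((k₀ : ℕ) : ZMod (p ^ (Nat.card G).factorization p)) = γ := by
    rw [(ZMod.natCast_eq_natCast_iff _ _ _).mpr h1]
    exact ZMod.natCast_zmod_val _
  have hcop₁ : k₀.Coprime (p ^ (Nat.card G).factorization p) := by
    rw [← ZMod.isUnit_iff_coprime, hk₀Z]
    exact γ.isUnit
  have hcop₂ : k₀.Coprime (Nat.card G / p ^ (Nat.card G).factorization p) := by
    have h3 := h2.gcd_eq
    rw [Nat.Coprime, h3]
    simp
  have hk₀ : k₀.Coprime (Nat.card G) := by
    rw [← hnn]
    exact Nat.Coprime.mul_right hcop₁ hcop₂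
  have hmain := Cfsg.Agent.Lib.LocalAlg.rank_le_card_fixed hM hB hk₀ h2
  rw [← Nat.card_eq_fintype_card] at hmain
  refine hmain.trans (le_of_eq (Nat.card_congr (Equiv.subtypeEquivRight fun χ => ?_)))
  constructor
  · rintro ⟨hχ, hf⟩
    refine ⟨hχ, fun k hk hk1 g => ?_⟩
    have hkU : IsUnit ((k : ℕ) : ZMod (p ^ (Nat.card G).factorization p)) := by
      rw [ZMod.isUnit_iff_coprime]
      exact Nat.Coprime.coprime_dvd_right (Dvd.intro _ hnn) hk
    obtain ⟨w, hw⟩ := hkU
    obtain ⟨e, he⟩ := (mem_powers_iff_mem_zpowers).mpr (hγ w)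
    have h3 : k ≡ k₀ ^ e [MOD p ^ (Nat.card G).factorization p] := by
      rw [← ZMod.natCast_eq_natCast_iff, ← hw, ← he]
      push_cast
      rw [hk₀Z]
    have h4 : k ≡ k₀ ^ e [MOD Nat.card G / p ^ (Nat.card G).factorization p] := by
      have h5 := h2.pow e
      rw [one_pow] at h5
      exact hk1.trans h5.symm
    have h5 : k ≡ k₀ ^ e [MOD Nat.card G] := by
      rw [← hnn]
      exact (Nat.modEq_and_modEq_iff_modEq_mul hcop).mp ⟨h3, h4⟩
    have h6 : g ^ k = g ^ (k₀ ^ e) := pow_eq_pow_iff_modEq.mpr (h5.of_dvd (orderOf_dvd_natCard g))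
    rw [h6]
    clear h3 h4 h5 h6 he
    induction e with
    | zero => simp
    | succ e ih =>
      rw [pow_succ, pow_mul, hf, ih]
  · rintro ⟨hχ, hf⟩
    exact ⟨hχ, fun g => hf k₀ hk₀ h2 g⟩

end Cfsg.Agent.S4712
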