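import Cfsg.Statements.S4713
import Cfsg.Agent.Lib.Char.ItoP
import Cfsg.Agent.Lib.Char.CliffordBij

set_option autoImplicit false
open Cfsg

namespace Cfsg.Agent.S4713

open Cfsg.Agent.Lib.Char Cfsg.Agent.Lib.H8Group Cfsg.Agent.Lib.Blocks

/-- Let p be a prime and G a finite p-solvable group. Then G has a normal abelian Sylow p-subgroup if and only if the degree of every irreducible character of G is prime to p. -/
theorem result {G : Type*} [Group G] [Finite G] (p : ℕ) [Fact p.Prime] (hsolv : Cfsg.IsPSolvable p G) (P : Sylow p G) : ((P : Subgroup G).Normal ∧ IsMulCommutative P) ↔ ∀ χ : Cfsg.IrrCharacter G, ¬ p ∣ Cfsg.charDegree (χ : G → ℂ) := by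
  classical
  constructor
  · rintro ⟨hn, hc⟩ χ h
    letI := Fintype.ofFinite G
    haveI := hn
    have h1 := charDegree_dvd_index_of_abelian χ.2 (P : Subgroup G) (fun a ha b hb => by
      have := hc.is_comm.comm ⟨a, ha⟩ ⟨b, hb⟩
      simpa using congrArg Subtype.val this)
    exact P.not_dvd_index (h.trans h1)
  · intro hd
    have hn := sylow_normal_of_isPSolvable _ G rfl hsolv hd P
    exact ⟨hn, isMulCommutative_sylow_of_normal P hn hd⟩

end Cfsg.Agent.S4713
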