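import Cfsg.Statements.S4714
import Cfsg.Agent.Lib.H8Group.CentralStruct

set_option autoImplicit false
open Cfsg

namespace Cfsg.Agent.S4714

open Cfsg.Agent.Lib.Char Cfsg.Agent.Lib.H8Group Cfsg.Agent.Lib.Blocks

/-- Let p be a prime, M a maximal ideal of the algebraic integers containing p, D a p-subgroup of the finite group G with G = D·C_G(D), and B a p-block with defect group D. Let χ be a member of B having D in its kernel (there is exactly one, the canonical character of B). Then the irreducible characters in B are exactly the functions θ on G for which there is an irreducible character ζ of D such that θ(yx) = ζ(y)χ(x) whenever y ∈ D, x has order prime to p and x commutes with y, and θ(z) = 0 whenever the p-part of z does not lie in D. -/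
theorem result {G : Type*} [Group G] [Finite G] (p : ℕ) [Fact p.Prime] (M : Ideal Cfsg.AlgInt) (hM : Cfsg.IsPModular p M) (D : Subgroup G) (hD : IsPGroup p D) (hG : D ⊔ Subgroup.centralizer (D : Set G) = ⊤) (B : Set (Cfsg.IrrCharacter G)) (hB : Cfsg.IsPBlock M B) (hBD : Cfsg.IsDefectGroup p M B D) (χ : Cfsg.IrrCharacter G) (hχ : χ ∈ B) (hχD : ∀ y ∈ D, (χ : G → ℂ) y = (χ : G → ℂ) 1) : (∀ θ : Cfsg.IrrCharacter G, θ ∈ B ↔ ∃ ζ : Cfsg.IrrCharacter D, (∀ (y : D) (x : G), ¬ p ∣ orderOf x → Commute (y : G) x → (θ : G → ℂ) ((y : G) * x) = (ζ : D → ℂ) y * (χ : G → ℂ) x) ∧ (∀ z : G, (∀ y : G, Cfsg.IsPPart p z y → y ∉ D) → (θ : G → ℂ) z = 0)) ∧ ∀ ζ : Cfsg.IrrCharacter D, ∃ θ ∈ B, (∀ (y : D) (x : G), ¬ p ∣ orderOf x → Commute (y : G) x → (θ : G → ℂ) ((y : G) * x) = (ζ : D → ℂ) y * (χ : G → ℂ) x) ∧ (∀ z : G, (∀ y : G, Cfsg.IsPPart p z y → y ∉ D) → (θ : G → ℂ) z = 0) := by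
  classical
  letI := Fintype.ofFinite G
  letI : Fintype D := Fintype.ofFinite D
  have := isPrime_of_modular hM
  haveI hDn : D.Normal := by
    have h0 : Subgroup.centralizer (D : Set G) ≤ Subgroup.normalizer (D : Set G) := by
      intro c hc
      rw [Subgroup.mem_normalizer_iff]
      intro n
      have hcomm : ∀ m ∈ D, c * m * c⁻¹ = m := by
        intro m hm
        rw [(Subgroup.mem_centralizer_iff.mp hc m hm).symm, mul_inv_cancel_right]
      constructor
      · intro hn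
        rw [hcomm n hn]
        exact hn
      · intro hn
        have h2 := hcomm _ hn
        have h3 : c * n * c⁻¹ = n := by
          have h4 : c⁻¹ * (c * n * c⁻¹) * c = n := by group
          have h5 := hcomm _ hn
          have h6 : c * (c * n * c⁻¹) * c⁻¹ = c * n * c⁻¹ := h5
          have h7 : c * n * c⁻¹ = n := by
            have h8 : c * (c * n * c⁻¹) * c⁻¹ = c * n * c⁻¹ := h6
            have h9 : c * (c * n * c⁻¹) = (c * n * c⁻¹) * c := by
              calc c * (c * n * c⁻¹) = c * (c * n * c⁻¹) * c⁻¹ * c := by group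
                _ = _ := by rw [h8]
            calc c * n * c⁻¹ = c⁻¹ * (c * (c * n * c⁻¹)) := by group
              _ = c⁻¹ * ((c * n * c⁻¹) * c) := by rw [h9]
              _ = n := by group
          exact h7
        rw [h3] at hn
        exact hn
    have h1 : D ⊔ Subgroup.centralizer (D : Set G) ≤ Subgroup.normalizer (D : Set G) :=
      sup_le Subgroup.le_normalizer h0
    rw [hG] at h1
    exact Subgroup.normalizer_eq_top_iff.mp (top_le_iff.mp h1)
  obtain ⟨θ₀, α, Ψ, hθ₀, Dat, hinj, hΨ, hrange⟩ := Cfsg.Agent.Lib.H8Group.normal_central_block_struct hM hD hG hB hBD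
  have hker0 : ∀ y ∈ D, (θ₀ : G → ℂ) y = (θ₀ : G → ℂ) 1 := fun y hy =>
    (mem_charKer (irr_isCharacter θ₀)).mp (Dat.hker hy)
  have hχeq : χ = θ₀ :=
    (normal_central_block hM hD hG hB hBD).1.unique ⟨hχ, hχD⟩ ⟨hθ₀, hker0⟩
  subst hχeq
  have hprop : ∀ ζ : IrrCharacter D, (∀ (y : D) (x : G), ¬ p ∣ orderOf x → Commute (y : G) x →
      (Ψ ζ : G → ℂ) ((y : G) * x) = (ζ : D → ℂ) y * (χ : G → ℂ) x) ∧
      (∀ z : G, (∀ y : G, IsPPart p z y → y ∉ D) → (Ψ ζ : G → ℂ) z = 0) := by
    intro ζ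
    constructor
    · intro y x hx _
      rw [hΨ]
      exact Dat.psi_mul _ y hx
    · intro z hz
      rw [hΨ]
      exact Dat.psi_eq_zero _ (hz _ (Dat.hα.isPPart z))
  refine ⟨fun θ => ⟨?_, ?_⟩, fun ζ => ⟨Ψ ζ, hrange ▸ ⟨ζ, rfl⟩, hprop ζ⟩⟩
  · intro hθ
    rw [← hrange] at hθ
    obtain ⟨ζ, rfl⟩ := hθ
    exact ⟨ζ, hprop ζ⟩
  · rintro ⟨ζ, h1, h2⟩
    have heq : θ = Ψ ζ := by
      apply Subtype.ext
      funext g
      by_cases hg : g ^ α ∈ D
      · obtain ⟨r, hxr, hc', hk, hr⟩ := Dat.hα.isPPart g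
        have h3 := h1 ⟨g ^ α, hg⟩ r hr hc'
        have h4 := (hprop ζ).1 ⟨g ^ α, hg⟩ r hr hc'
        simp only at h3 h4
        rw [hxr] at h3 h4
        rw [h3, h4]
      · have h3 : ∀ y : G, IsPPart p g y → y ∉ D := by
          intro y hy
          rw [← Dat.hα.eq_of_isPPart hy]
          exact hg
        rw [h2 g h3, (hprop ζ).2 g h3]
    rw [heq, ← hrange]
    exact ⟨ζ, rfl⟩

end Cfsg.Agent.S4714
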