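import Cfsg.Statements.S4715
import Cfsg.Agent.Lib.H8Group.SupBlocks

set_option autoImplicit false
open Cfsg

namespace Cfsg.Agent.S4715

open Cfsg.Agent.Lib.Char Cfsg.Agent.Lib.H8Group Cfsg.Agent.Lib.Blocks

/-- Let p be a prime, M a maximal ideal of the algebraic integers containing p, B a p-block of the finite group G with defect group D of order p^d, H = D·C_G(D), b a block of H inducing B, T the stabilizer of b in N_G(D) and e = [T : H] the inertial index of B; let n be the integer with p^n ≤ e < p^(n+1) and p^c the order of the centre of D. Then every irreducible character in B has height h with h + c ≤ n + d. -/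
theorem result {G : Type*} [Group G] [Finite G] (p : ℕ) [Fact p.Prime] (M : Ideal Cfsg.AlgInt) (hM : Cfsg.IsPModular p M) (B : Set (Cfsg.IrrCharacter G)) (hB : Cfsg.IsPBlock M B) (D : Subgroup G) (hBD : Cfsg.IsDefectGroup p M B D) (d : ℕ) (hDd : Nat.card D = p ^ d) (H : Subgroup G) (hH : H = D ⊔ Subgroup.centralizer (D : Set G)) (b : Set (Cfsg.IrrCharacter H)) (hind : Cfsg.IsInducedBlock M H b B) (T : Subgroup G) (hT : ∀ g : G, g ∈ T ↔ (g ∈ Subgroup.normalizer (D : Set G) ∧ ∀ θ ∈ b, ∀ θ' : Cfsg.IrrCharacter H, (∀ h h' : H, (h' : G) = g * h * g⁻¹ → (θ' : H → ℂ) h' = (θ : H → ℂ) h) → θ' ∈ b)) (e : ℕ) (he : H.relIndex T = e) (n : ℕ) (hn : p ^ n ≤ e ∧ e < p ^ (n + 1)) (c : ℕ) (hc : Nat.card (Subgroup.center D) = p ^ c) : ∀ χ ∈ B, Cfsg.blockHeight p B (χ : G → ℂ) + c ≤ n + d := by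
  classical
  cases nonempty_fintype G
  have := isPrime_of_modular hM
  have hpp : p.Prime := Fact.out
  have hDp : IsPGroup p D := IsDefectGroup.isPGroup hBD
  letI : Fintype H := Fintype.ofFinite _
  letI : Fintype (Subgroup.centralizer (D : Set G)) := Fintype.ofFinite _
  obtain ⟨c₀, hc₀⟩ := exists_cen_block_of_sup hM hDp hH hind.1
  have hcB : IsInducedBlock M (Subgroup.centralizer (D : Set G)) c₀ B :=
    isInducedBlock_trans_in (cen_le_sup hH) hc₀ hind
  have hcb : IsBrauerPairOf p M B D c₀ := (isBrauerPairOf_iff hM hDp hc₀.1).mpr hcB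
  have hmax := isMaximalBrauerPair_of_defect hM hcb hBD
  have hTs : ∀ t : G, (∃ h : conjS t D = D, conjB t h c₀ = c₀) → t ∈ T := by
    rintro t ⟨hP, he'⟩
    have htN := mem_normalizer_of_conjS_eq hP
    refine (hT t).mpr ⟨htN, fun θ hθ θ' hθ' => ?_⟩
    exact stabilizes_sup_of_stabilizes hM hH hc₀ htN (stabilizes_of_conjB_eq hP he') hθ hθ'
  set Z : Finset G := Finset.univ.filter (fun u => u ∈ D ∧ ∀ y ∈ D, u * y = y * u) with hZ
  have hZmem : ∀ u, u ∈ Z ↔ u ∈ D ∧ ∀ y ∈ D, u * y = y * u := fun u => by simp [hZ]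
  have hZP : ∀ u ∈ Z, u ∈ D := fun u hu => ((hZmem u).mp hu).1
  have hZc : ∀ u ∈ Z, ∀ y ∈ D, u * y = y * u := fun u hu => ((hZmem u).mp hu).2
  have hZpow : ∀ u ∈ Z, ∀ k : ℕ, u ^ k ∈ Z := by
    intro u hu k
    refine (hZmem _).mpr ⟨D.pow_mem (hZP u hu) k, fun y hy => ?_⟩
    have h1 : Commute u y := hZc u hu y hy
    exact (h1.pow_left k).eq
  have hZcard : Z.card = p ^ c := by
    rw [← hc, Nat.card_congr (α := Subgroup.center D) (β := Z) ?_, Nat.card_eq_fintype_card, Fintype.card_coe]
    exact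
      { toFun := fun x => ⟨((x : D) : G), (hZmem _).mpr ⟨(x : D).2, fun y hy => by
          have h1 := Subgroup.mem_center_iff.mp x.2 ⟨y, hy⟩
          exact (congrArg Subtype.val h1).symm⟩⟩
        invFun := fun u => ⟨⟨u, hZP u u.2⟩, Subgroup.mem_center_iff.mpr fun y => by
          apply Subtype.ext
          exact (hZc u u.2 y y.2).symm⟩
        left_inv := fun x => rfl
        right_inv := fun u => rfl }
  -- orbits
  have hHcen : ∀ u ∈ Z, H ≤ Subgroup.centralizer ({u} : Set G) := by
    intro u hu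
    rw [hH, sup_le_iff]
    constructor
    · intro y hy
      rw [Subgroup.mem_centralizer_singleton_iff]
      exact (hZc u hu y hy).symm
    · intro y hy
      rw [Subgroup.mem_centralizer_singleton_iff]
      exact (Subgroup.mem_centralizer_iff.mp hy u (hZP u hu)).symm
  have horb : ∀ u ∈ Z, (Z.filter (fun v => ∃ t ∈ T, t * u * t⁻¹ = v)).card ≤ e := by
    intro u hu
    letI act : MulAction T G :=
      { smul := fun t g => (t : G) * g * (t : G)⁻¹
        one_smul := by
          intro g
          show ((1 : T) : G) * g * ((1 : T) : G)⁻¹ = g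
          simp
        mul_smul := by
          intro a b g
          show ((a * b : T) : G) * g * ((a * b : T) : G)⁻¹ = (a : G) * ((b : G) * g * (b : G)⁻¹) * (a : G)⁻¹
          push_cast
          group }
    have hsmul : ∀ (t : T) (g : G), t • g = (t : G) * g * (t : G)⁻¹ := fun _ _ => rfl
    have hsub : H.subgroupOf T ≤ MulAction.stabilizer T u := by
      intro t ht
      rw [MulAction.mem_stabilizer_iff, hsmul]
      have h1 := hHcen u hu (Subgroup.mem_subgroupOf.mp ht)
      rw [Subgroup.mem_centralizer_singleton_iff] at h1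
      rw [h1, mul_inv_cancel_right]
    have h2 : (MulAction.stabilizer T u).index ≤ (H.subgroupOf T).index :=
      Nat.le_of_dvd (Nat.pos_of_ne_zero Subgroup.index_ne_zero_of_finite) (Subgroup.index_dvd_of_le hsub)
    rw [MulAction.index_stabilizer] at h2
    rw [← he, Subgroup.relIndex]
    refine le_trans ?_ h2
    rw [← Set.ncard_coe_finset]
    refine Set.ncard_le_ncard ?_ (Set.toFinite _)
    intro v hv
    obtain ⟨-, t, ht, rfl⟩ := Finset.mem_filter.mp (Finset.mem_coe.mp hv)
    exact ⟨⟨t, ht⟩, rfl⟩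
  intro χ hχ
  have hmain := pow_height_mul_card_le hM hmax hTs Z hZP hZc hZpow e horb hχ
  have hdefB : blockDefect p B = d := by
    have h1 := card_defectGroup hM hB hBD
    rw [hDd] at h1
    exact (Nat.pow_right_injective hpp.two_le h1).symm
  rw [hZcard, hdefB] at hmain
  have h2 : p ^ c * p ^ blockHeight p B (χ : G → ℂ) < p ^ (n + 1) * p ^ d :=
    lt_of_le_of_lt hmain (Nat.mul_lt_mul_of_pos_right hn.2 (pow_pos hpp.pos _))
  rw [← pow_add, ← pow_add] at h2
  have h3 := (Nat.pow_lt_pow_iff_right hpp.one_lt).mp h2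
  omega

end Cfsg.Agent.S4715
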