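import Cfsg.Statements.S4716
import Cfsg.Agent.Lib.H8Group.HeightLocal

set_option autoImplicit false
open Cfsg

namespace Cfsg.Agent.S4716

open Cfsg.Agent.Lib.Char Cfsg.Agent.Lib.H8Group Cfsg.Agent.Lib.Blocks

/-- Let p be a prime, M a maximal ideal of the algebraic integers containing p, and B a p-block of defect d of the finite group G all of whose irreducible characters have height zero. Let y be a p-element, C = C_G(y), and b a block of C inducing B and having the same defect d (a major subsection). Then k(B)^2 ≤ p^(2d)·l(b), where k(B) is the number of irreducible characters in B and l(b) the p-regular rank of b (its number of irreducible Brauer characters); in particular (y = 1) k(B)^2 ≤ p^(2d)·l(B). -/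
theorem result {G : Type*} [Group G] [Finite G] (p : ℕ) [Fact p.Prime] (M : Ideal Cfsg.AlgInt) (hM : Cfsg.IsPModular p M) (B : Set (Cfsg.IrrCharacter G)) (hB : Cfsg.IsPBlock M B) (d : ℕ) (hd : Cfsg.blockDefect p B = d) (hh : ∀ χ ∈ B, Cfsg.blockHeight p B (χ : G → ℂ) = 0) (y : G) (hy : ∃ k : ℕ, orderOf y = p ^ k) (b : Set (Cfsg.IrrCharacter ↥(Subgroup.centralizer ({y} : Set G)))) (hind : Cfsg.IsInducedBlock M (Subgroup.centralizer ({y} : Set G)) b B) (hbd : Cfsg.blockDefect p b = d) : Nat.card B ^ 2 ≤ p ^ (2 * d) * Cfsg.blockRank p b := by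
  classical
  letI := Fintype.ofFinite G
  letI : Fintype (Subgroup.centralizer ({y} : Set G)) := Fintype.ofFinite _
  have hxp : ∃ k, orderOf ((centElt y : Subgroup.centralizer ({y} : Set G)) : G) = p ^ k := hy
  have hH := mem_cent_iff y
  obtain ⟨m, hm, -, hS⟩ := lattice_bounds hM hH hxp hind
  obtain ⟨h1, h2⟩ := hS (Finset.univ.filter (· ∈ B)) (by
    intro χ hχ
    have hχB : χ ∈ B := (Finset.mem_filter.mp hχ).2
    exact ⟨hχB, height_zero_row hM hH hxp hind hχB (hh χ hχB)⟩)
  rw [natCard_block_eq]
  rw [hbd] at h1 h2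
  set k := (Finset.univ.filter (· ∈ B)).card with hk
  set l := blockRank p b with hl
  calc k ^ 2 = k * k := sq k
    _ ≤ k * (m * p ^ d) := Nat.mul_le_mul_left _ h2
    _ = (m * k) * p ^ d := by ring
    _ ≤ (p ^ d * l) * p ^ d := Nat.mul_le_mul_right _ h1
    _ = p ^ (2 * d) * l := by ring

end Cfsg.Agent.S4716
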