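import Cfsg.Statements.S4719
import Cfsg.Agent.Lib.H8Group.DefBound

set_option autoImplicit false
universe u
open Cfsg

namespace Cfsg.Agent.S4719

open Cfsg.Agent.Lib.Char Cfsg.Agent.Lib.H8Group Cfsg.Agent.Lib.Blocks

/-- For every natural number a there is a bound N with the following property. Let G be a finite group with Sylow 2-subgroups of order 2^a and r ≥ 0 such that G has no non-principal 2-block (relative to a maximal ideal of the algebraic integers containing 2) of defect ≥ r, and suppose a Sylow 2-subgroup of G contains an elementary abelian subgroup of order 2^(r+1). Then the order of G is at most N. -/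
theorem result (a : ℕ) : ∃ N : ℕ, ∀ (G : Type u) [Group G] [Finite G] (M : Ideal Cfsg.AlgInt) (r : ℕ) (P : Sylow 2 G), Cfsg.IsPModular 2 M → Nat.card P = 2 ^ a → (∀ B : Set (Cfsg.IrrCharacter G), Cfsg.IsPBlock M B → B ≠ Cfsg.principalBlock M G → Cfsg.blockDefect 2 B < r) → (∃ E : Subgroup G, E ≤ (P : Subgroup G) ∧ IsMulCommutative E ∧ (∀ x ∈ E, x * x = 1) ∧ Nat.card E = 2 ^ (r + 1)) → Nat.card G ≤ N := by
  classical
  choose N hN using fun r : ℕ => exists_defBound.{u} a r
  refine ⟨(Finset.range a).sup N, ?_⟩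
  rintro G _ _ M r P hM hP hdef ⟨E, hE, hcomm, hinv, hcard⟩
  have h1 : Nat.card E ≤ Nat.card P := Subgroup.card_le_of_le hE
  rw [hcard, hP] at h1
  have h2 : r + 1 ≤ a := (Nat.pow_le_pow_iff_right (by norm_num)).mp h1
  have h3 := hN r G M P hM hP.le hdef ⟨E, hE, hcomm, hinv, hcard⟩
  exact le_trans h3 (Finset.le_sup (f := N) (Finset.mem_range.mpr (by omega)))

end Cfsg.Agent.S4719
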