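import Cfsg.Statements.S4720
import Cfsg.Agent.Lib.Blocks.PrincipalSum

set_option autoImplicit false
open Cfsg

namespace Cfsg.Agent.S4720

/-- Let p be a prime, M a maximal ideal of the algebraic integers containing p, P a p-subgroup of the finite group G, N a subgroup with P ≤ N ≤ N_G(P), and U a nonempty subset of P normalized by N such that an element of U and an element of P that are conjugate in G are already conjugate in N, and such that λ(C_G(y)) = w·#C_N(y) for every y ∈ U with one rational number w, where λ(X) denotes the sum of the squares of the degrees of the irreducible characters in the principal p-block of X. For a complex function θ on P and χ in the principal block of G put a_χ(θ) = #P⁻¹ Σ_{y ∈ P} χ(y) θ(y⁻¹). Then for generalized characters θ, η of P with θ vanishing outside U, Σ_χ a_χ(θ)·conj(a_χ(η)) = (w/#P²)·Σ_{y ∈ P} θ(y)·conj(Σ_{x ∈ N} η(x y x⁻¹)) (η extended by zero off P;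 the conjugates lie in P), the first sum over the principal p-block of G. -/
theorem result {G : Type*} [Group G] [Finite G] (p : ℕ) [Fact p.Prime] (M : Ideal Cfsg.AlgInt) (hM : Cfsg.IsPModular p M) (P : Subgroup G) (hP : IsPGroup p P) (N : Subgroup G) (hPN : P ≤ N) (hNN : N ≤ Subgroup.normalizer (P : Set G)) (U : Set G) (hUne : U.Nonempty) (hUP : U ⊆ (P : Set G)) (hUN : ∀ n ∈ N, ∀ u ∈ U, n * u * n⁻¹ ∈ U) (hfus : ∀ u ∈ U, ∀ g : G, g * u * g⁻¹ ∈ (P : Set G) → ∃ n ∈ N, n * u * n⁻¹ = g * u * g⁻¹) (w : ℚ) (hw : ∀ y ∈ U, ((∑ᶠ ψ ∈ Cfsg.principalBlock M ↥(Subgroup.centralizer ({y} : Set G)), Cfsg.charDegree (ψ : ↥(Subgroup.centralizer ({y} : Set G)) → ℂ) ^ 2) : ℚ) = w * Nat.card ↥(N ⊓ Subgroup.centralizer ({y} : Set G))) (θ η : ↥P → ℂ) (hθ : Cfsg.IsGeneralizedCharacter ↥P θ) (hη : Cfsg.IsGeneralizedCharacter ↥P η) (hθU : ∀ y : ↥P, (y : G) ∉ U → θ y = 0) : ∑ᶠ χ ∈ Cfsg.principalBlock M G, ((Nat.card ↥P : ℂ)⁻¹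 * ∑ᶠ y : ↥P, (χ : G → ℂ) (y : G) * θ y⁻¹) * (starRingEnd ℂ) ((Nat.card ↥P : ℂ)⁻¹ * ∑ᶠ y : ↥P, (χ : G → ℂ) (y : G) * η y⁻¹) = ((w : ℂ) / ((Nat.card ↥P : ℂ) ^ 2)) * ∑ᶠ y : ↥P, θ y * (starRingEnd ℂ) (∑ᶠ x : ↥N, Cfsg.extendByZero P η ((x : G) * (y : G) * (x : G)⁻¹)) := by
  classical
  letI : Fintype G := Fintype.ofFinite G
  letI : Fintype ↥P := Fintype.ofFinite _
  letI : Fintype ↥N := Fintype.ofFinite _
  have hprime := Cfsg.Agent.Lib.Blocks.isPrime_of_modular hM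
  have hne1 : ¬ p = 1 := (Fact.out : p.Prime).ne_one
  have hpel : ∀ v : ↥P, ∃ k, orderOf (v : G) = p ^ k := by
    intro v
    obtain ⟨k, hk⟩ := (IsPGroup.iff_orderOf.mp hP) v
    exact ⟨k, by rw [Subgroup.orderOf_coe]; exact hk⟩
  have hB : Cfsg.IsPBlock M (Cfsg.principalBlock M G) := ⟨Cfsg.Agent.Lib.Blocks.oneIrr G, rfl⟩
  have hD : ∀ v : ↥P, (v : G) ∈ U → ∑ χ : Cfsg.IrrCharacter G, Cfsg.Agent.Lib.Blocks.indic (Cfsg.principalBlock M G) χ * ((χ : G → ℂ) v * (starRingEnd ℂ) ((χ : G → ℂ) v)) = (w : ℂ) * (Nat.card ↥(N ⊓ Subgroup.centralizer ({(v : G)} : Set G)) : ℂ) := by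
    intro v hv
    have h1 := Cfsg.Agent.Lib.Blocks.sum_principal_section (M := M) hM (hpel v) (y := 1) (h := 1) (by simpa using hne1) (by simpa using hne1)
    simp only [OneMemClass.coe_one, mul_one] at h1
    rw [Cfsg.Agent.Lib.Blocks.finsum_mem_eq_sum_indic] at h1
    rw [h1]
    have h2 := hw v hv
    have h3 : ∑ᶠ ξ ∈ Cfsg.principalBlock M ↥(Subgroup.centralizer ({(v : G)} : Set G)), (ξ : ↥(Subgroup.centralizer ({(v : G)} : Set G)) → ℂ) 1 * (starRingEnd ℂ) ((ξ : ↥(Subgroup.centralizer ({(v : G)} : Set G)) → ℂ) 1) =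
        (((∑ᶠ ψ ∈ Cfsg.principalBlock M ↥(Subgroup.centralizer ({(v : G)} : Set G)), Cfsg.charDegree (ψ : ↥(Subgroup.centralizer ({(v : G)} : Set G)) → ℂ) ^ 2) : ℚ) : ℂ) := by
      letI : Fintype ↥(Subgroup.centralizer ({(v : G)} : Set G)) := Fintype.ofFinite _
      rw [finsum_mem_def, finsum_mem_def, finsum_eq_sum_of_fintype, finsum_eq_sum_of_fintype, Rat.cast_sum]
      refine Finset.sum_congr rfl fun ξ _ => ?_
      by_cases hξ : ξ ∈ Cfsg.principalBlock M ↥(Subgroup.centralizer ({(v : G)} : Set G))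
      · rw [Set.indicator_of_mem hξ, Set.indicator_of_mem hξ]
        rw [Cfsg.Agent.Lib.Char.apply_one_eq_charDegree (Cfsg.Agent.Lib.Char.IsIrrCharacter.isCharacter ξ.2)]
        simp [pow_two]
      · rw [Set.indicator_of_notMem hξ, Set.indicator_of_notMem hξ]
        simp
    rw [h3, h2]
    push_cast
    rfl
  obtain ⟨α, hα⟩ := Cfsg.Agent.Lib.Blocks.exists_isPExp (G := G) (p := p)
  have hS0 : ∀ v v' : ↥P, ¬ IsConj (v' : G) (v : G) → ∑ χ : Cfsg.IrrCharacter G, Cfsg.Agent.Lib.Blocks.indic (Cfsg.principalBlock M G) χ * ((χ : G → ℂ) v' * (starRingEnd ℂ) ((χ : G → ℂ) v)) = 0 := by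
    intro v v' hc
    obtain ⟨k, hk⟩ := hpel v
    obtain ⟨k', hk'⟩ := hpel v'
    have h1 := Cfsg.Agent.Lib.Blocks.sum_block_mul_eq_zero hM hα hB (g := (v' : G)) (h := (v : G)) (by
      rw [hα.pow_of_pPow hk, hα.pow_of_pPow hk']
      exact fun h => hc h.symm)
    rw [← h1]
    refine Finset.sum_congr rfl fun χ _ => ?_
    rw [Cfsg.Agent.Lib.Blocks.irr_apply_inv]
  have hS1 : ∀ v v' : ↥P, IsConj (v' : G) (v : G) → ∑ χ : Cfsg.IrrCharacter G, Cfsg.Agent.Lib.Blocks.indic (Cfsg.principalBlock M G) χ * ((χ : G → ℂ) v' * (starRingEnd ℂ) ((χ : G → ℂ) v)) = ∑ χ : Cfsg.IrrCharacter G, Cfsg.Agent.Lib.Blocks.indic (Cfsg.principalBlock M G) χ * ((χ : G → ℂ) v * (starRingEnd ℂ) ((χ : G → ℂ) v)) := by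
    intro v v' hc
    obtain ⟨c, hc⟩ := isConj_iff.mp hc
    refine Finset.sum_congr rfl fun χ _ => ?_
    rw [← hc, Cfsg.Agent.Lib.Blocks.irr_isClassFunction]
  have hcount : ∀ v : ↥P, (v : G) ∈ U → ∑ x : ↥N, Cfsg.extendByZero P η ((x : G) * (v : G) * (x : G)⁻¹) = (Nat.card ↥(N ⊓ Subgroup.centralizer ({(v : G)} : Set G)) : ℂ) * ∑ v' : ↥P, if IsConj (v' : G) (v : G) then η v' else 0 := by
    intro v hv
    have hmem : ∀ x : ↥N, (x : G) * (v : G) * (x : G)⁻¹ ∈ P := fun x =>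
      (Subgroup.mem_normalizer_iff.mp (hNN x.2) v).mp v.2
    let φ : ↥N → ↥P := fun x => ⟨(x : G) * (v : G) * (x : G)⁻¹, hmem x⟩
    have h1 : ∑ x : ↥N, Cfsg.extendByZero P η ((x : G) * (v : G) * (x : G)⁻¹) = ∑ x : ↥N, η (φ x) :=
      Finset.sum_congr rfl fun x _ => Cfsg.Agent.Lib.Char.extendByZero_coe P η (φ x)
    rw [h1, ← Finset.sum_fiberwise Finset.univ φ (fun x => η (φ x)), Finset.mul_sum]
    refine Finset.sum_congr rfl fun v' _ => ?_
    rw [Finset.sum_congr rfl (fun x hx => by rw [(Finset.mem_filter.mp hx).2])]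
    rw [Finset.sum_const, nsmul_eq_mul]
    by_cases hc : IsConj (v' : G) (v : G)
    · rw [if_pos hc]
      congr 1
      obtain ⟨g, hg⟩ := isConj_iff.mp hc.symm
      obtain ⟨n, hn, hng⟩ := hfus v hv g (by rw [hg]; exact v'.2)
      rw [hg] at hng
      rw [← Fintype.card_subtype, ← Nat.card_eq_fintype_card]
      congr 1
      apply Nat.card_congr
      refine ⟨fun x => ⟨n⁻¹ * ((x.1 : ↥N) : G), ?_⟩, fun y => ⟨⟨n * (y : G), ?_⟩, ?_⟩, ?_, ?_⟩
      · refine Subgroup.mem_inf.mpr ⟨N.mul_mem (N.inv_mem hn) x.1.2, ?_⟩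
        rw [Subgroup.mem_centralizer_singleton_iff]
        have hx : ((x.1 : ↥N) : G) * (v : G) * ((x.1 : ↥N) : G)⁻¹ = n * (v : G) * n⁻¹ := by
          have := congrArg Subtype.val x.2
          rw [hng]
          exact this
        have h5 : ((x.1 : ↥N) : G) * (v : G) = n * (v : G) * n⁻¹ * ((x.1 : ↥N) : G) := by
          rw [← hx]
          group
        calc n⁻¹ * ((x.1 : ↥N) : G) * (v : G) = n⁻¹ * (((x.1 : ↥N) : G) * (v : G)) := by group
          _ = (v : G) * (n⁻¹ * ((x.1 : ↥N) : G)) := by rw [h5]; group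
      · exact N.mul_mem hn (Subgroup.mem_inf.mp y.2).1
      · apply Subtype.ext
        show (n * (y : G)) * (v : G) * (n * (y : G))⁻¹ = (v' : G)
        have hy : (y : G) * (v : G) = (v : G) * (y : G) := Subgroup.mem_centralizer_singleton_iff.mp (Subgroup.mem_inf.mp y.2).2
        rw [← hng]
        calc (n * (y : G)) * (v : G) * (n * (y : G))⁻¹ = n * ((y : G) * (v : G)) * (y : G)⁻¹ * n⁻¹ := by group
          _ = n * (v : G) * n⁻¹ := by rw [hy]; group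
      · intro x
        apply Subtype.ext
        apply Subtype.ext
        simp
      · intro y
        apply Subtype.ext
        simp
    · rw [if_neg hc, mul_zero]
      have h2 : Finset.filter (fun x => φ x = v') Finset.univ = ∅ := by
        apply Finset.filter_eq_empty_iff.mpr
        intro x _ hx
        apply hc
        have := congrArg Subtype.val hx
        exact (isConj_iff.mpr ⟨(x : G), this⟩).symm
      rw [h2, Finset.card_empty, Nat.cast_zero, zero_mul]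
  have hA : ∀ (χ : Cfsg.IrrCharacter G) (f : ↥P → ℂ), ∑ᶠ y : ↥P, (χ : G → ℂ) (y : G) * f y⁻¹ = ∑ v : ↥P, (starRingEnd ℂ) ((χ : G → ℂ) (v : G)) * f v := by
    intro χ f
    rw [finsum_eq_sum_of_fintype]
    refine Fintype.sum_equiv (Equiv.inv ↥P) _ _ fun y => ?_
    simp [Cfsg.Agent.Lib.Blocks.irr_apply_inv]
  have hkey : ∀ v : ↥P, ∑ v' : ↥P, (θ v * (starRingEnd ℂ) (η v')) * ∑ χ : Cfsg.IrrCharacter G, Cfsg.Agent.Lib.Blocks.indic (Cfsg.principalBlock M G) χ * ((χ : G → ℂ) v' * (starRingEnd ℂ) ((χ : G → ℂ) v)) = (w : ℂ) * (θ v * (starRingEnd ℂ) (∑ x : ↥N, Cfsg.extendByZero P η ((x : G) * (v : G) * (x : G)⁻¹))) := by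
    intro v
    by_cases hv : (v : G) ∈ U
    · rw [hcount v hv, map_mul, Complex.conj_natCast, map_sum]
      have h1 : ∀ v' : ↥P, (θ v * (starRingEnd ℂ) (η v')) * ∑ χ : Cfsg.IrrCharacter G, Cfsg.Agent.Lib.Blocks.indic (Cfsg.principalBlock M G) χ * ((χ : G → ℂ) v' * (starRingEnd ℂ) ((χ : G → ℂ) v)) =
          (w : ℂ) * (θ v * ((Nat.card ↥(N ⊓ Subgroup.centralizer ({(v : G)} : Set G)) : ℂ) * (starRingEnd ℂ) (if IsConj (v' : G) (v : G) then η v' else 0))) := by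
        intro v'
        by_cases hc : IsConj (v' : G) (v : G)
        · rw [if_pos hc, hS1 v v' hc, hD v hv]
          ring
        · rw [if_neg hc, hS0 v v' hc]
          simp
      rw [Finset.sum_congr rfl (fun v' _ => h1 v'), ← Finset.mul_sum, ← Finset.mul_sum, ← Finset.mul_sum]
    · rw [hθU v hv]
      simp
  rw [Cfsg.Agent.Lib.Blocks.finsum_mem_eq_sum_indic]
  simp_rw [hA, finsum_eq_sum_of_fintype]
  have hc : (Nat.card ↥P : ℂ) ≠ 0 := by exact_mod_cast Nat.card_pos.ne'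
  have h1 : ∀ χ : Cfsg.IrrCharacter G, Cfsg.Agent.Lib.Blocks.indic (Cfsg.principalBlock M G) χ * (((Nat.card ↥P : ℂ)⁻¹ * ∑ v : ↥P, (starRingEnd ℂ) ((χ : G → ℂ) (v : G)) * θ v) * (starRingEnd ℂ) ((Nat.card ↥P : ℂ)⁻¹ * ∑ v : ↥P, (starRingEnd ℂ) ((χ : G → ℂ) (v : G)) * η v)) =
      ((Nat.card ↥P : ℂ)⁻¹ * (Nat.card ↥P : ℂ)⁻¹) * ∑ v : ↥P, ∑ v' : ↥P, (θ v * (starRingEnd ℂ) (η v')) * (Cfsg.Agent.Lib.Blocks.indic (Cfsg.principalBlock M G) χ * ((χ : G → ℂ) v' * (starRingEnd ℂ) ((χ : G → ℂ) v))) := by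
    intro χ
    rw [map_mul, map_inv₀, Complex.conj_natCast, map_sum]
    have h2 : ∀ v : ↥P, (starRingEnd ℂ) ((starRingEnd ℂ) ((χ : G → ℂ) (v : G)) * η v) = (χ : G → ℂ) (v : G) * (starRingEnd ℂ) (η v) := by
      intro v
      rw [map_mul, Complex.conj_conj]
    simp_rw [h2]
    have h3 : (∑ v : ↥P, (starRingEnd ℂ) ((χ : G → ℂ) (v : G)) * θ v) * (∑ v : ↥P, (χ : G → ℂ) (v : G) * (starRingEnd ℂ) (η v)) = ∑ v : ↥P, ∑ v' : ↥P, ((starRingEnd ℂ) ((χ : G → ℂ) (v : G)) * θ v) * ((χ : G → ℂ) (v' : G) * (starRingEnd ℂ) (η v')) :=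
      Finset.sum_mul_sum _ _ _ _
    calc _ = ((Nat.card ↥P : ℂ)⁻¹ * (Nat.card ↥P : ℂ)⁻¹) * (Cfsg.Agent.Lib.Blocks.indic (Cfsg.principalBlock M G) χ * ((∑ v : ↥P, (starRingEnd ℂ) ((χ : G → ℂ) (v : G)) * θ v) * (∑ v : ↥P, (χ : G → ℂ) (v : G) * (starRingEnd ℂ) (η v)))) := by ring
      _ = _ := by
        rw [h3, Finset.mul_sum]
        congr 1
        refine Finset.sum_congr rfl fun v _ => ?_
        rw [Finset.mul_sum]
        refine Finset.sum_congr rfl fun v' _ => ?_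
        ring
  rw [Finset.sum_congr rfl (fun χ _ => h1 χ), ← Finset.mul_sum]
  have h4 : ∑ χ : Cfsg.IrrCharacter G, ∑ v : ↥P, ∑ v' : ↥P, (θ v * (starRingEnd ℂ) (η v')) * (Cfsg.Agent.Lib.Blocks.indic (Cfsg.principalBlock M G) χ * ((χ : G → ℂ) v' * (starRingEnd ℂ) ((χ : G → ℂ) v))) = ∑ v : ↥P, ∑ v' : ↥P, (θ v * (starRingEnd ℂ) (η v')) * ∑ χ : Cfsg.IrrCharacter G, Cfsg.Agent.Lib.Blocks.indic (Cfsg.principalBlock M G) χ * ((χ : G → ℂ) v' * (starRingEnd ℂ) ((χ : G → ℂ) v)) := by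
    rw [Finset.sum_comm]
    refine Finset.sum_congr rfl fun v _ => ?_
    rw [Finset.sum_comm]
    refine Finset.sum_congr rfl fun v' _ => ?_
    rw [Finset.mul_sum]
  rw [h4, Finset.sum_congr rfl (fun v _ => hkey v), ← Finset.mul_sum]
  field_simp

end Cfsg.Agent.S4720
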