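import Cfsg.Statements.S4721
import Cfsg.Agent.Lib.Char.E3Even
import Cfsg.Agent.Lib.Transfer.Fusion

set_option autoImplicit false
open Cfsg

namespace Cfsg.Agent.S4721

open Cfsg.Agent.Lib.Char Cfsg.Agent.Lib.Char.E3
open scoped ComplexConjugate

universe u

section Group

variable {G : Type u} [Group G] [Finite G] {P : Subgroup G}

/-- The decomposition of the normalizer. -/
theorem exists_decomp (hCN : (Subgroup.centralizer (P : Set G)).relIndex (Subgroup.normalizer (P : Set G)) = 3)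
    {g : G} (hgN : g ∈ Subgroup.normalizer (P : Set G)) (hgC : g ∉ Subgroup.centralizer (P : Set G)) :
    g ^ 3 ∈ Subgroup.centralizer (P : Set G) ∧
    ∀ n ∈ Subgroup.normalizer (P : Set G), ∃ i : ℕ, i < 3 ∧ ∃ c ∈ Subgroup.centralizer (P : Set G), n = g ^ i * c := by
  classical
  let N := Subgroup.normalizer (P : Set G)
  let H : Subgroup ↥N := (Subgroup.centralizer (P : Set G)).subgroupOf N
  have hHn : H.Normal := by
    constructor
    intro c hc n
    rw [Subgroup.mem_subgroupOf, Subgroup.mem_centralizer_iff] at hc ⊢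
    intro x hx
    have hnx : (n : G)⁻¹ * x * ((n : G)⁻¹)⁻¹ ∈ P :=
      (Subgroup.mem_normalizer_iff.mp (inv_mem n.2) x).mp hx
    have h1 := hc _ hnx
    simp only [inv_inv] at h1
    simp only [Subgroup.coe_mul, Subgroup.coe_inv] at h1 ⊢
    calc x * ((n : G) * c * (n : G)⁻¹) = (n : G) * ((n : G)⁻¹ * x * n * c) * (n : G)⁻¹ := by group
      _ = (n : G) * (c * ((n : G)⁻¹ * x * n)) * (n : G)⁻¹ := by rw [h1]
      _ = _ := by group
  have hidx : H.index = 3 := hCN
  let Q := ↥N ⧸ H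
  have hQ : Nat.card Q = 3 := by rw [← hidx]; rfl
  letI : Fintype Q := Fintype.ofFinite Q
  have hQ' : Fintype.card Q = 3 := by rw [← Nat.card_eq_fintype_card, hQ]
  let g' : ↥N := ⟨g, hgN⟩
  let gb : Q := QuotientGroup.mk' H g'
  have hgb : gb ≠ 1 := by
    intro e
    have h1 : g' ∈ H := (QuotientGroup.eq_one_iff g').mp e
    exact hgC (Subgroup.mem_subgroupOf.mp h1)
  have hgb3 : gb ^ 3 = 1 := by
    have := pow_card_eq_one' (x := gb)
    rwa [hQ] at this
  refine ⟨?_, ?_⟩
  · have h1 : QuotientGroup.mk' H (g' ^ 3) = 1 := by rw [map_pow]; exact hgb3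
    have h2 : g' ^ 3 ∈ H := (QuotientGroup.eq_one_iff _).mp h1
    exact Subgroup.mem_subgroupOf.mp h2
  · intro n hn
    let n' : ↥N := ⟨n, hn⟩
    have h1 : QuotientGroup.mk' H n' ∈ Submonoid.powers gb := mem_powers_of_prime_card hQ hgb
    obtain ⟨k, hk₀⟩ := h1
    have hk : gb ^ k = QuotientGroup.mk' H n' := hk₀
    refine ⟨k % 3, Nat.mod_lt _ (by norm_num), ?_⟩
    have h2 : gb ^ (k % 3) = QuotientGroup.mk' H n' := by
      rw [← hk]
      conv_rhs => rw [← Nat.mod_add_div k 3, pow_add, pow_mul, hgb3, one_pow, mul_one]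
    have h3 : QuotientGroup.mk' H ((g' ^ (k % 3))⁻¹ * n') = 1 := by
      rw [map_mul, map_inv, map_pow]
      show (gb ^ (k % 3))⁻¹ * _ = 1
      rw [h2]
      group
    have h4 : (g' ^ (k % 3))⁻¹ * n' ∈ H := (QuotientGroup.eq_one_iff _).mp h3
    refine ⟨(g ^ (k % 3))⁻¹ * n, ?_, ?_⟩
    · have h5 := Subgroup.mem_subgroupOf.mp h4
      simpa [g', n'] using h5
    · group

end Group

section Setup

variable {G : Type u} [Group G] [Fintype G] {p : ℕ} [hp : Fact p.Prime] {M : Ideal AlgInt}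

/-- The automorphism of `P` induced by `g`. -/
def sigmaOf (P : Subgroup G) {g : G} (hg : g ∈ Subgroup.normalizer (P : Set G)) : ↥P →* ↥P where
  toFun y := ⟨g * y * g⁻¹, (Subgroup.mem_normalizer_iff.mp hg y).mp y.2⟩
  map_one' := by
    apply Subtype.ext
    simp
  map_mul' x y := by
    apply Subtype.ext
    simp only [Subgroup.coe_mul]
    group

theorem sigmaOf_coe (P : Subgroup G) {g : G} (hg : g ∈ Subgroup.normalizer (P : Set G)) (y : ↥P) :
    ((sigmaOf P hg y : ↥P) : G) = g * y * g⁻¹ := rfl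

theorem setup_of (hM : IsPModular p M) (P : Sylow p G)
    (hab : ∀ x ∈ (P : Subgroup G), ∀ y ∈ (P : Subgroup G), x * y = y * x)
    (hP1 : Nat.card (P : Subgroup G) ≠ 1)
    (hCN : (Subgroup.centralizer ((P : Subgroup G) : Set G)).relIndex (Subgroup.normalizer ((P : Subgroup G) : Set G)) = 3)
    {g : G} (hgN : g ∈ Subgroup.normalizer ((P : Subgroup G) : Set G))
    (hgC : g ∉ Subgroup.centralizer ((P : Subgroup G) : Set G))
    (hfrob : ∀ y : G, y ∈ (P : Subgroup G) → y ≠ 1 → Subgroup.centralizer ({y} : Set G) ⊓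
      Subgroup.normalizer ((P : Subgroup G) : Set G) = Subgroup.centralizer ((P : Subgroup G) : Set G)) :
    Setup M p (P : Subgroup G) (sigmaOf (P : Subgroup G) hgN) := by
  classical
  obtain ⟨hg3, hdec⟩ := exists_decomp hCN hgN hgC
  haveI : IsMulCommutative (P : Subgroup G) := ⟨⟨fun a b => Subtype.ext (hab _ a.2 _ b.2)⟩⟩
  have hcoe := sigmaOf_coe (P : Subgroup G) hgN
  have hpEx : ∀ y : ↥(P : Subgroup G), ∃ k, orderOf (y : G) = p ^ k := by
    intro y
    obtain ⟨k, hk⟩ := IsPGroup.iff_orderOf.mp P.isPGroup' y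
    exact ⟨k, by rw [← hk, Subgroup.orderOf_coe]⟩
  exact {
    hM := hM
    isP := P.isPGroup'
    hcomm := fun x y => Subtype.ext (hab _ x.2 _ y.2)
    hσ3 := by
      intro y
      apply Subtype.ext
      rw [hcoe, hcoe, hcoe]
      have h1 := (Subgroup.mem_centralizer_iff.mp hg3) y y.2
      rw [pow_three] at h1
      calc g * (g * (g * (y : G) * g⁻¹) * g⁻¹) * g⁻¹ = (g * (g * g)) * y * (g * (g * g))⁻¹ := by group
        _ = (y : G) * (g * (g * g)) * (g * (g * g))⁻¹ := by rw [← h1]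
        _ = (y : G) := by group
    hfix := by
      intro y hy
      by_contra hy1
      apply hgC
      have hy1' : (y : G) ≠ 1 := fun e => hy1 (Subtype.ext e)
      rw [← hfrob y y.2 hy1']
      refine ⟨?_, hgN⟩
      apply Cfsg.Agent.Lib.Blocks.mem_centralizer_singleton_of_commute
      have h1 : g * (y : G) * g⁻¹ = y := congrArg Subtype.val hy
      show g * (y : G) = y * g
      calc g * (y : G) = (g * (y : G) * g⁻¹) * g := by group
        _ = y * g := by rw [h1]
    hconj := by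
      intro y y'
      constructor
      · intro hc
        obtain ⟨u, hu⟩ := isConj_iff.mp hc
        obtain ⟨n, hn, hn'⟩ := Cfsg.Agent.Lib.Transfer.exists_normalizer_conj_of_abelian P y.2 u (by rw [hu]; exact y'.2)
        rw [hu] at hn'
        obtain ⟨i, hi, c, hc', rfl⟩ := hdec n hn
        have hcy : c * (y : G) * c⁻¹ = y := by
          have h1 := (Subgroup.mem_centralizer_iff.mp hc') y y.2
          rw [← h1]
          group
        have h2 : (y' : G) = g ^ i * (y : G) * (g ^ i)⁻¹ := by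
          rw [← hn']
          calc g ^ i * c * (y : G) * (g ^ i * c)⁻¹ = g ^ i * (c * (y : G) * c⁻¹) * (g ^ i)⁻¹ := by group
            _ = _ := by rw [hcy]
        interval_cases i
        · left
          apply Subtype.ext
          rw [h2]
          group
        · right
          left
          apply Subtype.ext
          rw [h2, hcoe]
          group
        · right
          right
          apply Subtype.ext
          rw [h2, hcoe, hcoe, pow_two]
          group
      · rintro (rfl | rfl | rfl)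
        · exact IsConj.refl _
        · rw [hcoe]
          exact isConj_iff.mpr ⟨g, rfl⟩
        · rw [hcoe, hcoe]
          refine isConj_iff.mpr ⟨g * g, ?_⟩
          group
    hnorm := by
      intro y hy
      have hy1' : (y : G) ≠ 1 := fun e => hy (Subtype.ext e)
      obtain ⟨k, hk, hk'⟩ := local_index P hab hfrob y.2 hy1'
      have h1 := local_norm (M := M) hM (hpEx y) hk
      rw [h1, hk']
    hpart := by
      intro y hy r hr hreg χ hχ
      have hy1' : (y : G) ≠ 1 := fun e => hy (Subtype.ext e)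
      obtain ⟨k, hk, -⟩ := local_index P hab hfrob y.2 hy1'
      exact local_part hM (hpEx y) hk hr hreg hχ
    hdvd := by
      intro χ hχ hd
      have hcard := P.card_eq_multiplicity
      have h1 : ¬ p ∣ Nat.card G / charDegree (χ : G → ℂ) := by
        intro h3
        obtain ⟨m, hm⟩ := charDegree_dvd_card χ.2
        have hd0 : 0 < charDegree (χ : G → ℂ) := charDegree_pos χ.2
        rw [hm, Nat.mul_div_cancel_left _ hd0] at h3
        rw [hcard] at hd
        have h4 : p ^ ((Nat.card G).factorization p + 1) ∣ Nat.card G := by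
          rw [pow_succ]
          calc _ ∣ charDegree (χ : G → ℂ) * m := Nat.mul_dvd_mul hd h3
            _ = Nat.card G := hm.symm
        have h5 := (hp.out.pow_dvd_iff_le_factorization Nat.card_pos.ne').mp h4
        omega
      have h3 := (Cfsg.Agent.Lib.Blocks.not_dvd_iff_blockOf_singleton hM χ).mp h1
      haveI := Cfsg.Agent.Lib.Blocks.isPrime_of_modular hM
      have hPB : IsPBlock M (principalBlock M G) := isPBlock_principalBlock
      have h4 := Cfsg.Agent.Lib.Blocks.blockOf_eq_of_mem hPB hχ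
      rw [h3] at h4
      have h5 : irrOne G ∈ principalBlock M G := irrOne_mem_principalBlock
      rw [h4] at h5
      have h6 : irrOne G = χ := h5
      rw [← h6, charDegree_irrOne] at hd
      exact hP1 (Nat.dvd_one.mp hd)
    hSyl := by
      intro Q hQ
      obtain ⟨S, hS⟩ := hQ.exists_le_sylow
      obtain ⟨c, hc⟩ := MulAction.exists_smul_eq G S P
      refine ⟨c, ?_⟩
      intro q hq
      have h1 : c * q * c⁻¹ ∈ ((c • S : Sylow p G) : Subgroup G) := by
        rw [Sylow.coe_subgroup_smul, Subgroup.mem_smul_pointwise_iff_exists]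
        exact ⟨q, hS hq, rfl⟩
      rwa [hc] at h1
  }

/-- The orbit relation in the form of the statement. -/
theorem rel_iff (P : Subgroup G)
    (hCN : (Subgroup.centralizer (P : Set G)).relIndex (Subgroup.normalizer (P : Set G)) = 3)
    {g : G} (hgN : g ∈ Subgroup.normalizer (P : Set G))
    (hgC : g ∉ Subgroup.centralizer (P : Set G)) (hσ3 : ∀ y, sigmaOf P hgN (sigmaOf P hgN (sigmaOf P hgN y)) = y)
    (ψ ψ' : ↥P →* ℂˣ) :
    (∃ n : G, n ∈ Subgroup.normalizer (P : Set G) ∧ ∀ w w' : ↥P, (w' : G) = n * w * n⁻¹ → ψ' w' = ψ w) ↔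
      Setup.orbRel (sigmaOf P hgN) ψ ψ' := by
  classical
  obtain ⟨hg3, hdec⟩ := exists_decomp hCN hgN hgC
  have hcoe := sigmaOf_coe P hgN
  constructor
  · rintro ⟨n, hn, hrel⟩
    obtain ⟨i, hi, c, hc', rfl⟩ := hdec n hn
    have hcy : ∀ y : ↥P, c * (y : G) * c⁻¹ = y := by
      intro y
      have h1 := (Subgroup.mem_centralizer_iff.mp hc') y y.2
      rw [← h1]
      group
    have hconjn : ∀ y : ↥P, g ^ i * c * (y : G) * (g ^ i * c)⁻¹ = g ^ i * (y : G) * (g ^ i)⁻¹ := by
      intro y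
      calc g ^ i * c * (y : G) * (g ^ i * c)⁻¹ = g ^ i * (c * (y : G) * c⁻¹) * (g ^ i)⁻¹ := by group
        _ = _ := by rw [hcy]
    interval_cases i
    · left
      ext w
      have h1 := hrel w w (by rw [hconjn]; group)
      rw [h1]
    · right
      right
      -- `ψ w = ψ' (σ w)`
      have h1 : ∀ w : ↥P, ψ' (sigmaOf P hgN w) = ψ w := fun w =>
        hrel w _ (by rw [hconjn, hcoe]; group)
      ext w
      show ((ψ' w : ℂˣ) : ℂ) = ((ψ (sigmaOf P hgN (sigmaOf P hgN w)) : ℂˣ) : ℂ)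
      rw [← h1, hσ3]
    · right
      left
      have h1 : ∀ w : ↥P, ψ' (sigmaOf P hgN (sigmaOf P hgN w)) = ψ w := fun w =>
        hrel w _ (by rw [hconjn, hcoe, hcoe, pow_two]; group)
      ext w
      show ((ψ' w : ℂˣ) : ℂ) = ((ψ (sigmaOf P hgN w) : ℂˣ) : ℂ)
      rw [← h1, hσ3]
  · rintro (rfl | rfl | rfl)
    · refine ⟨1, one_mem _, ?_⟩
      intro w w' hw
      have : w' = w := Subtype.ext (by rw [hw]; group)
      rw [this]
    · refine ⟨g⁻¹, inv_mem hgN, ?_⟩
      intro w w' hw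
      have h1 : sigmaOf P hgN w' = w := by
        apply Subtype.ext
        rw [hcoe, hw]
        group
      show ψ (sigmaOf P hgN w') = ψ w
      rw [h1]
    · refine ⟨g, hgN, ?_⟩
      intro w w' hw
      have h1 : w' = sigmaOf P hgN w := Subtype.ext hw
      show ψ (sigmaOf P hgN (sigmaOf P hgN w')) = ψ w
      rw [h1, hσ3]

end Setup

/-- Let p be a prime, M a maximal ideal of the algebraic integers containing p, and G a finite group with a nontrivial abelian Sylow p-subgroup P, N = N_G(P), C = C_G(P), such that N/C is cyclic of order 3, #P > 4, and C_G(y) ∩ N = C for every non-identity y ∈ P. Then the principal p-block is the disjoint union of a set X of exactly 3 characters containing the principal character and a set Y of (#P − 1)/3 characters, with signs a_χ = ±1 (χ ∈ X, a = 1 at the principal character) and δ = ±1 such that every χ ∈ X takes the value a_χ at every element whose p-part is a non-identity element of P, and there is a map ζ from the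 non-principal linear characters of P onto Y, constant on N-conjugacy classes, with ζ_ψ(z) = δ·Σ ψ'(y) over the N-orbit of ψ, for z with p-part y ≠ 1 in P. If moreover G has an involution lying in no proper normal subgroup of G, then exactly two of the three numbers −δ and a_χ (χ ∈ X non-principal) equal −1, and the product of the degrees of the two non-principal members of X and of any member of Y is a perfect square. -/
theorem result {G : Type*} [Group G] [Finite G] (p : ℕ) [Fact p.Prime] (M : Ideal Cfsg.AlgInt) (hM : Cfsg.IsPModular p M) (P : Sylow p G) (hab : IsMulCommutative P) (hP1 : Nat.card P ≠ 1) (hCN : (Subgroup.centralizer ((P : Subgroup G) : Set G)).relIndex (Subgroup.normalizer ((P : Subgroup G) : Set G)) = 3) (hcyc : ∃ g : G, g ∈ Subgroup.normalizer ((P : Subgroup G) : Set G) ∧ Subgroup.centralizer ((P : Subgroup G) : Set G) ⊔ Subgroup.zpowers g = Subgroup.normalizer ((P : Subgroup G) : Set G)) (hm2 : 3 + 1 < Nat.card P) (hfrob : ∀ y : G, y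 ∈ (P : Subgroup G) → y ≠ 1 → Subgroup.centralizer ({y} : Set G) ⊓ Subgroup.normalizer ((P : Subgroup G) : Set G) = Subgroup.centralizer ((P : Subgroup G) : Set G)) : ∃ (X Y : Set (Cfsg.IrrCharacter G)), Cfsg.principalBlock M G = X ∪ Y ∧ Disjoint X Y ∧ Nat.card X = 3 ∧ Nat.card Y = (Nat.card P - 1) / 3 ∧ (∃ χ₁ ∈ X, (χ₁ : G → ℂ) = fun _ => 1) ∧ ∃ (a : Cfsg.IrrCharacter G → ℤ) (δ : ℤ) (ζ : (↥(P : Subgroup G) →* ℂˣ) → Cfsg.IrrCharacter G), (δ = 1 ∨ δ = -1) ∧ (∀ χ ∈ X, (a χ = 1 ∨ a χ = -1) ∧ ∀ z y : G, Cfsg.IsPPart p z y → y ∈ (P : Subgroup G) → y ≠ 1 → (χ : G → ℂ) z = (a χ : ℂ)) ∧ (∀ ψ : ↥(P : Subgroup G) →* ℂˣ, ψ ≠ 1 → ζ ψ ∈ Y) ∧ (∀ η ∈ Y, ∃ ψ : ↥(P : Subgroup G) →* ℂˣ, ψ ≠ 1 ∧ ζ ψ = η) ∧ (∀ ψ ψ' : ↥(P : Subgroup G) →* ℂˣ, ψ ≠ 1 → (∃ n : G, n ∈ Subgroup.normalizer ((P : Subgroup G) : Set G) ∧ ∀ w w' : ↥(P : Subgroup G), (w' : G) = n * w * n⁻¹ → ψ' w' = ψ w) → ζ ψ' = ζ ψ) ∧ (∀ ψ : ↥(P : Subgroup G) →* ℂˣ, ψ ≠ 1 → ∀ (z : G) (y : ↥(P : Subgroup G)), Cfsg.IsPPart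 p z (y : G) → (y : G) ≠ 1 → (ζ ψ : G → ℂ) z = (δ : ℂ) * ∑ᶠ ψ' ∈ {ψ' : ↥(P : Subgroup G) →* ℂˣ | ∃ n : G, n ∈ Subgroup.normalizer ((P : Subgroup G) : Set G) ∧ ∀ w w' : ↥(P : Subgroup G), (w' : G) = n * w * n⁻¹ → ψ' w' = ψ w}, ((ψ' y : ℂˣ) : ℂ)) ∧ ((∃ t : G, orderOf t = 2 ∧ ∀ K : Subgroup G, K.Normal → t ∈ K → K = ⊤) → Nat.card {χ : Cfsg.IrrCharacter G // χ ∈ X ∧ (χ : G → ℂ) ≠ (fun _ => 1) ∧ a χ = -1} + (if δ = 1 then 1 else 0) = 2 ∧ ∀ η ∈ Y, IsSquare (Cfsg.charDegree (η : G → ℂ) * ∏ᶠ χ ∈ {χ : Cfsg.IrrCharacter G | χ ∈ X ∧ (χ : G → ℂ) ≠ fun _ => 1}, Cfsg.charDegree (χ : G → ℂ))) := by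
  classical
  cases nonempty_fintype G
  letI : Fintype ↥(P : Subgroup G) := Fintype.ofFinite _
  have hab' : ∀ x ∈ (P : Subgroup G), ∀ y ∈ (P : Subgroup G), x * y = y * x := by
    intro x hx y hy
    have h1 := hab.is_comm.comm ⟨x, hx⟩ ⟨y, hy⟩
    exact congrArg Subtype.val h1
  have hcomm : ∀ x y : ↥(P : Subgroup G), x * y = y * x := fun x y => Subtype.ext (hab' _ x.2 _ y.2)
  haveI hfin : Finite (↥(P : Subgroup G) →* ℂˣ) := dual_finite hcomm
  letI : Fintype (↥(P : Subgroup G) →* ℂˣ) := Fintype.ofFinite _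
  obtain ⟨g, hgN, hsup⟩ := hcyc
  have hgC : g ∉ Subgroup.centralizer ((P : Subgroup G) : Set G) := by
    intro hg
    have h1 : Subgroup.centralizer ((P : Subgroup G) : Set G) ⊔ Subgroup.zpowers g =
        Subgroup.centralizer ((P : Subgroup G) : Set G) :=
      sup_eq_left.mpr ((Subgroup.zpowers_le).mpr hg)
    rw [h1] at hsup
    rw [← hsup, Subgroup.relIndex_self] at hCN
    omega
  have h := setup_of (M := M) hM P hab' hP1 hCN hgN hgC hfrob
  obtain ⟨χ₁, χ₂, a₁, a₂, ε, η, T⟩ := h.exists_table (by omega)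
  have hc := h.hcomm
  have h3 := h.hσ3
  have hf := h.hfix
  have hrel := fun ψ ψ' => rel_iff (P : Subgroup G) hCN hgN hgC h3 ψ ψ'
  let Ψ : Finset (↥(P : Subgroup G) →* ℂˣ) := Finset.univ.filter (fun ψ => ψ ≠ 1)
  have hΨ : ∀ {ψ : ↥(P : Subgroup G) →* ℂˣ}, ψ ∈ Ψ ↔ ψ ≠ 1 := by
    intro ψ
    simp [Ψ]
  let Yf : Finset (IrrCharacter G) := Ψ.image η
  have hYf : ∀ {χ : IrrCharacter G}, χ ∈ Yf ↔ ∃ ψ, ψ ≠ 1 ∧ η ψ = χ := by
    intro χ
    simp [Yf, Ψ]
  let Xf : Finset (IrrCharacter G) := {irrOne G, χ₁, χ₂}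
  have hXf : ∀ {χ : IrrCharacter G}, χ ∈ Xf ↔ χ = irrOne G ∨ χ = χ₁ ∨ χ = χ₂ := by
    intro χ
    simp [Xf]
  have hXcard : Xf.card = 3 := by
    simp only [Xf]
    rw [Finset.card_insert_of_notMem (by simp [T.ne₁.symm, T.ne₂.symm]), Finset.card_pair T.ne₁₂]
  have hcardΨ : Ψ.card + 1 = Nat.card (P : Subgroup G) := h.card_dual_ne
  have hcard3 : Ψ.card = 3 * Yf.card := by
    refine card_image_three Ψ η (twist (sigmaOf (P : Subgroup G) hgN)) ?_ ?_ ?_ ?_ ?_
    · intro ψ hψ
      exact hΨ.mpr (twist_ne_one h3 (hΨ.mp hψ))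
    · intro ψ hψ
      exact twist_ne_self hc hf (hΨ.mp hψ)
    · intro ψ hψ
      exact twist2_ne_self hc h3 hf (hΨ.mp hψ)
    · intro ψ hψ
      exact twist2_ne_twist hc h3 hf (hΨ.mp hψ)
    · intro ψ hψ φ hφ
      exact T.η_eq ψ (hΨ.mp hψ) φ (hΨ.mp hφ)
  have hmem₀ : irrOne G ∈ blockS M G := h.one_mem
  have hpart : ∀ y : ↥(P : Subgroup G), y ≠ 1 → ∀ z, IsPPart p z (y : G) → ∀ χ ∈ principalBlock M G,
      (χ : G → ℂ) z = (χ : G → ℂ) y := by
    rintro y hy z ⟨r, rfl, hcomm', -, hreg⟩ χ hχ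
    exact h.hpart y hy r hcomm' hreg χ hχ
  let aa : IrrCharacter G → ℤ := fun χ => if χ = irrOne G then 1 else if χ = χ₁ then a₁ else if χ = χ₂ then a₂ else 0
  have ha0 : aa (irrOne G) = 1 := by simp [aa]
  have ha1 : aa χ₁ = a₁ := by simp [aa, T.ne₁]
  have ha2 : aa χ₂ = a₂ := by simp [aa, T.ne₂, T.ne₁₂.symm]
  refine ⟨(Xf : Set (IrrCharacter G)), (Yf : Set (IrrCharacter G)), ?_, ?_, ?_, ?_, ⟨irrOne G, ?_, rfl⟩,
    aa, -ε, η, ?_, ?_, ?_, ?_, ?_, ?_, ?_⟩
  · ext χ
    simp only [Set.mem_union, Finset.mem_coe]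
    constructor
    · intro hχ
      rcases T.cover χ (mem_blockS.mpr hχ) with e | e | e | ⟨ψ, hψ, e⟩
      · exact Or.inl (hXf.mpr (Or.inl e))
      · exact Or.inl (hXf.mpr (Or.inr (Or.inl e)))
      · exact Or.inl (hXf.mpr (Or.inr (Or.inr e)))
      · exact Or.inr (hYf.mpr ⟨ψ, hψ, e.symm⟩)
    · rintro (hX | hY)
      · rcases hXf.mp hX with e | e | e
        · rw [e]
          exact mem_blockS.mp hmem₀
        · rw [e]
          exact mem_blockS.mp T.mem₁
        · rw [e]
          exact mem_blockS.mp T.mem₂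
      · obtain ⟨ψ, hψ, rfl⟩ := hYf.mp hY
        exact mem_blockS.mp (T.memη ψ hψ)
  · rw [Finset.disjoint_coe, Finset.disjoint_left]
    intro χ hX hY
    obtain ⟨ψ, hψ, rfl⟩ := hYf.mp hY
    have hn := T.neη ψ hψ
    rcases hXf.mp hX with e | e | e
    · exact hn.1 e
    · exact hn.2.1 e
    · exact hn.2.2 e
  · rw [Nat.card_coe_set_eq, Set.ncard_coe_finset, hXcard]
  · rw [Nat.card_coe_set_eq, Set.ncard_coe_finset]
    omega
  · exact Finset.mem_coe.mpr (hXf.mpr (Or.inl rfl))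
  · rcases T.hε with e | e
    · right
      rw [e]
    · left
      rw [e]
      norm_num
  · intro χ hχ
    rcases hXf.mp (Finset.mem_coe.mp hχ) with rfl | rfl | rfl
    · refine ⟨Or.inl ha0, ?_⟩
      intro z y _ _ _
      rw [ha0]
      simp
    · refine ⟨by rw [ha1]; exact T.ha₁, ?_⟩
      intro z y hzy hyP hy1
      have hy' : (⟨y, hyP⟩ : ↥(P : Subgroup G)) ≠ 1 := fun e => hy1 (congrArg Subtype.val e)
      rw [hpart ⟨y, hyP⟩ hy' z hzy _ (mem_blockS.mp T.mem₁), ha1]
      exact Table.val_const h T.al₁ hy'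
    · refine ⟨by rw [ha2]; exact T.ha₂, ?_⟩
      intro z y hzy hyP hy1
      have hy' : (⟨y, hyP⟩ : ↥(P : Subgroup G)) ≠ 1 := fun e => hy1 (congrArg Subtype.val e)
      rw [hpart ⟨y, hyP⟩ hy' z hzy _ (mem_blockS.mp T.mem₂), ha2]
      exact Table.val_const h T.al₂ hy'
  · intro ψ hψ
    exact Finset.mem_coe.mpr (hYf.mpr ⟨ψ, hψ, rfl⟩)
  · intro χ hχ
    obtain ⟨ψ, hψ, e⟩ := hYf.mp (Finset.mem_coe.mp hχ)
    exact ⟨ψ, hψ, e⟩
  · intro ψ ψ' hψ hr
    have hr' := (hrel ψ ψ').mp hr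
    have hψ' : ψ' ≠ 1 := by
      rcases hr' with rfl | rfl | rfl
      · exact hψ
      · exact twist_ne_one h3 hψ
      · exact twist_ne_one h3 (twist_ne_one h3 hψ)
    exact (T.η_eq ψ hψ ψ' hψ').mpr hr'
  · intro ψ hψ z y hzy hy1
    have hy' : y ≠ 1 := fun e => hy1 (congrArg Subtype.val e)
    rw [hpart y hy' z hzy _ (mem_blockS.mp (T.memη ψ hψ)), Table.val_eta h T hψ hy']
    let O : Finset (↥(P : Subgroup G) →* ℂˣ) :=
      {ψ, twist (sigmaOf (P : Subgroup G) hgN) ψ, twist (sigmaOf (P : Subgroup G) hgN) (twist (sigmaOf (P : Subgroup G) hgN) ψ)}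
    have hset : {ψ' : ↥(P : Subgroup G) →* ℂˣ | ∃ n : G, n ∈ Subgroup.normalizer ((P : Subgroup G) : Set G) ∧
        ∀ w w' : ↥(P : Subgroup G), (w' : G) = n * w * n⁻¹ → ψ' w' = ψ w} = ((O : Finset _) : Set _) := by
      ext ψ'
      simp only [Set.mem_setOf_eq, Finset.mem_coe, O, Finset.mem_insert, Finset.mem_singleton]
      exact hrel ψ ψ'
    rw [hset, finsum_mem_coe_finset]
    simp only [O]
    rw [Finset.sum_insert, Finset.sum_insert, Finset.sum_singleton]
    · simp only [ev]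
      push_cast
      ring
    · simpa using (twist2_ne_twist hc h3 hf hψ).symm
    · simp only [Finset.mem_insert, Finset.mem_singleton, not_or]
      exact ⟨(twist_ne_self hc hf hψ).symm, (twist2_ne_self hc h3 hf hψ).symm⟩
  · rintro ⟨t, ht, hnorm⟩
    by_cases hp2 : p = 2
    · exfalso
      subst hp2
      obtain ⟨c, hc'⟩ := h.hSyl (Subgroup.zpowers t)
        (Cfsg.Agent.Lib.PGroups.isPGroup_zpowers_iff.mpr ⟨1, by simpa using ht⟩)
      have hmemt := hc' t (Subgroup.mem_zpowers t)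
      let t₀ : ↥(P : Subgroup G) := ⟨c * t * c⁻¹, hmemt⟩
      have ht1 : t ≠ 1 := by
        intro e
        rw [e, orderOf_one] at ht
        omega
      have ht2 : t * t = 1 := by rw [← pow_two, ← ht]; exact pow_orderOf_eq_one t
      have ht₀1 : t₀ ≠ 1 := by
        intro e
        have e' : c * t * c⁻¹ = 1 := congrArg Subtype.val e
        apply ht1
        have : t = c⁻¹ * (c * t * c⁻¹) * c := by group
        rw [this, e']
        group
      have ht₀2 : t₀ * t₀ = 1 := by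
        apply Subtype.ext
        show c * t * c⁻¹ * (c * t * c⁻¹) = 1
        calc c * t * c⁻¹ * (c * t * c⁻¹) = c * (t * t) * c⁻¹ := by group
          _ = 1 := by rw [ht2]; group
      have hnorm' : ∀ K : Subgroup G, K.Normal → (t₀ : G) ∈ K → K = ⊤ := by
        intro K hK hmem
        apply hnorm K hK
        have h5 : t = c⁻¹ * (c * t * c⁻¹) * (c⁻¹)⁻¹ := by group
        rw [h5]
        exact hK.conj_mem _ hmem _
      have hP16 : 16 ≤ Nat.card (P : Subgroup G) := by
        obtain ⟨n, hn⟩ := IsPGroup.iff_card.mp P.isPGroup'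
        by_contra hcon
        have hn4 : n < 4 := by
          by_contra hn4
          have h5 : 2 ^ 4 ≤ 2 ^ n := Nat.pow_le_pow_right (by norm_num) (by omega)
          rw [← hn] at h5
          omega
        interval_cases n <;> omega
      exact Table.even_false h T hP16 ht₀1 ht₀2 hnorm'
    · -- the odd case
      obtain ⟨ψ₀, hψ₀⟩ : ∃ ψ : ↥(P : Subgroup G) →* ℂˣ, ψ ≠ 1 := by
        have hne : Ψ.Nonempty := by
          rw [← Finset.card_pos]
          omega
        obtain ⟨ψ, hψ⟩ := hne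
        exact ⟨ψ, hΨ.mp hψ⟩
      have hX1 : ∀ χ : IrrCharacter G, (χ : G → ℂ) ≠ (fun _ => 1) ↔ χ ≠ irrOne G := by
        intro χ
        constructor
        · intro h5 h6
          rw [h6] at h5
          exact h5 rfl
        · intro h5 h6
          exact h5 (Subtype.ext h6)
      refine ⟨?_, ?_⟩
      · have hcount := (Table.odd_final h T hp2 ht hnorm hψ₀).1
        let A : Finset (IrrCharacter G) := ({χ₁, χ₂} : Finset (IrrCharacter G)).filter (fun χ => aa χ = -1)
        have hA : ∀ χ : IrrCharacter G, χ ∈ A ↔ (χ ∈ (Xf : Set (IrrCharacter G)) ∧ (χ : G → ℂ) ≠ (fun _ => 1) ∧ aa χ = -1) := by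
          intro χ
          simp only [A, Finset.mem_filter, Finset.mem_insert, Finset.mem_singleton, Finset.mem_coe, hX1]
          constructor
          · rintro ⟨rfl | rfl, h6⟩
            · exact ⟨hXf.mpr (Or.inr (Or.inl rfl)), T.ne₁, h6⟩
            · exact ⟨hXf.mpr (Or.inr (Or.inr rfl)), T.ne₂, h6⟩
          · rintro ⟨h5, h6, h7⟩
            rcases hXf.mp h5 with e | e | e
            · exact absurd e h6
            · exact ⟨Or.inl e, h7⟩
            · exact ⟨Or.inr e, h7⟩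
        rw [Nat.subtype_card A hA]
        have hAc : A.card = (if a₁ = -1 then 1 else 0) + (if a₂ = -1 then 1 else 0) := by
          simp only [A]
          rw [Finset.filter_insert, Finset.filter_singleton, ha1, ha2]
          rcases T.ha₁ with e₁ | e₁ <;> rcases T.ha₂ with e₂ | e₂ <;> rw [e₁, e₂] <;> simp [T.ne₁₂]
        rw [hAc]
        have hδ : (if -ε = 1 then 1 else 0) = (if ε = -1 then 1 else 0) := by
          rcases T.hε with e | e <;> rw [e] <;> norm_num
        rw [hδ]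
        exact hcount
      · intro η' hη'
        obtain ⟨ψ, hψ, rfl⟩ := hYf.mp (Finset.mem_coe.mp hη')
        have hset : {χ : IrrCharacter G | χ ∈ (Xf : Set (IrrCharacter G)) ∧ (χ : G → ℂ) ≠ fun _ => 1} = {χ₁, χ₂} := by
          ext χ
          simp only [Set.mem_setOf_eq, Finset.mem_coe, Set.mem_insert_iff, Set.mem_singleton_iff, hX1, hXf]
          constructor
          · rintro ⟨h5 | h5 | h5, h6⟩
            · exact absurd h5 h6
            · exact Or.inl h5
            · exact Or.inr h5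
          · rintro (rfl | rfl)
            · exact ⟨Or.inr (Or.inl rfl), T.ne₁⟩
            · exact ⟨Or.inr (Or.inr rfl), T.ne₂⟩
        rw [hset, finprod_mem_pair T.ne₁₂]
        exact (Table.odd_final h T hp2 ht hnorm hψ).2

end Cfsg.Agent.S4721
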