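import Cfsg.Statements.S4722
import Cfsg.Agent.Lib.Char.RelIto
import Cfsg.Agent.Lib.Blocks.Section
import Cfsg.Agent.Lib.Char.ClassSum

set_option autoImplicit false
open Cfsg

namespace Cfsg.Agent.S4722

open Cfsg.Agent.Lib.Char
open Cfsg.Agent.Lib.Blocks (sum_block_mul_finsum_eq_zero exists_isPExp IsPExp)
open scoped ComplexConjugate

universe u

/-- The real analysis at the heart of the argument. -/
theorem real_key {ι : Type*} (S : Finset ι) (R d τ : ι → ℝ) (hd : ∀ i ∈ S, 0 < d i)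
    (E1 : ∑ i ∈ S, R i * τ i ^ 2 / d i = 0) (E2 : ∑ i ∈ S, R i * d i = 0)
    (E3 : ∑ i ∈ S, R i * τ i = 0) {i₀ : ι} (hi₀ : i₀ ∈ S) (hR : R i₀ ≠ 0) (hτ : τ i₀ = d i₀)
    (huniq : ∀ i ∈ S, ∀ j ∈ S, 0 < R i → 0 < R j → i = j) :
    ∀ i ∈ S, R i ≠ 0 → τ i = d i := by
  classical
  -- a positive element
  obtain ⟨c, hc, hcpos⟩ : ∃ c ∈ S, 0 < R c := by
    by_contra hcon
    push Not at hcon
    have h1 : ∑ i ∈ S, R i * d i < ∑ i ∈ S, (0 : ℝ) := by
      apply Finset.sum_lt_sum (fun i hi => mul_nonpos_of_nonpos_of_nonneg (hcon i hi) (hd i hi).le)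
      refine ⟨i₀, hi₀, ?_⟩
      have h2 : R i₀ < 0 := lt_of_le_of_ne (hcon i₀ hi₀) hR
      exact mul_neg_of_neg_of_pos h2 (hd i₀ hi₀)
    rw [E2] at h1
    simp at h1
  set r₀ : ℝ := τ c / d c with hr₀
  have hid : ∑ i ∈ S, R i * d i * (τ i / d i - r₀) ^ 2 = 0 := by
    have h1 : ∀ i ∈ S, R i * d i * (τ i / d i - r₀) ^ 2 =
        R i * τ i ^ 2 / d i - 2 * r₀ * (R i * τ i) + r₀ ^ 2 * (R i * d i) := by
      intro i hi
      have := (hd i hi).ne'
      field_simp
      ring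
    rw [Finset.sum_congr rfl h1, Finset.sum_add_distrib, Finset.sum_sub_distrib, ← Finset.mul_sum,
      ← Finset.mul_sum, E1, E2, E3]
    ring
  have hterm : ∀ i ∈ S, R i * d i * (τ i / d i - r₀) ^ 2 ≤ 0 := by
    intro i hi
    by_cases hpos : 0 < R i
    · have : i = c := huniq i hi c hc hpos hcpos
      subst this
      rw [hr₀, sub_self]
      simp
    · push Not at hpos
      exact mul_nonpos_of_nonpos_of_nonneg (mul_nonpos_of_nonpos_of_nonneg hpos (hd i hi).le) (sq_nonneg _)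
  have hzero := (Finset.sum_eq_zero_iff_of_nonpos hterm).mp hid
  have hratio : ∀ i ∈ S, R i ≠ 0 → τ i / d i = r₀ := by
    intro i hi hRi
    by_cases hpos : 0 < R i
    · have : i = c := huniq i hi c hc hpos hcpos
      subst this
      rfl
    · have h1 := hzero i hi
      have h2 : R i * d i ≠ 0 := mul_ne_zero hRi (hd i hi).ne'
      have h3 := (mul_eq_zero.mp h1).resolve_left h2
      have h4 := pow_eq_zero_iff (two_ne_zero) |>.mp h3
      linarith
  have hr1 : r₀ = 1 := by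
    rw [← hratio i₀ hi₀ hR, hτ]
    exact div_self (hd i₀ hi₀).ne'
  intro i hi hRi
  have h1 := hratio i hi hRi
  rw [hr1] at h1
  have := (hd i hi).ne'
  field_simp at h1
  exact h1

section Main

variable {G : Type u} [Group G] [Fintype G]

/-- The coefficient `a_χ`. -/
noncomputable def coefA (P : Subgroup G) [Fintype P] (θ : P → ℂ) (χ : IrrCharacter G) : ℂ :=
  (Nat.card P : ℂ)⁻¹ * ∑ y : P, (χ : G → ℂ) (y : G) * θ y⁻¹

theorem coefA_real (P : Subgroup G) [Fintype P] {θ : P → ℂ} (hθ : IsGeneralizedCharacter P θ)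
    (χ : IrrCharacter G) : ∃ r : ℝ, coefA P θ χ = r := by
  obtain ⟨α, β, hα, hβ, rfl⟩ := hθ
  have h1 : coefA P (α - β) χ = classInner (resFun P (χ : G → ℂ)) α - classInner (resFun P (χ : G → ℂ)) β := by
    rw [coefA, classInner, classInner, ← mul_sub, ← Finset.sum_sub_distrib]
    congr 1
    refine Finset.sum_congr rfl fun y _ => ?_
    simp only [Pi.sub_apply]
    rw [IsCharacter.apply_inv hα, IsCharacter.apply_inv hβ]
    ring
  obtain ⟨m, hm⟩ := IsCharacter.classInner_nat (isCharacter_resFun P (IsIrrCharacter.isCharacter χ.2)) hα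
  obtain ⟨n, hn⟩ := IsCharacter.classInner_nat (isCharacter_resFun P (IsIrrCharacter.isCharacter χ.2)) hβ
  refine ⟨(m : ℝ) - n, ?_⟩
  rw [h1, hm, hn]
  push_cast
  rfl

theorem fsum_eq {ι : Type*} [Fintype ι] [DecidableEq ι] (B : Set ι) [DecidablePred (· ∈ B)] (f : ι → ℂ) :
    ∑ᶠ χ ∈ B, f χ = ∑ χ ∈ Finset.univ.filter (· ∈ B), f χ := by
  have h1 : B = ↑(Finset.univ.filter (· ∈ B)) := by
    ext x
    simp
  conv_lhs => rw [h1]
  rw [finsum_mem_coe_finset]

open scoped Classical in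
theorem D_eq_zero {M : Ideal AlgInt} (hM : IsPModular 2 M) (P : Subgroup G) [Fintype P]
    (hP : IsPGroup 2 P) (U : Set G) (θ : P → ℂ) (hθU : ∀ y : P, (y : G) ∉ U → θ y = 0) {α : ℕ}
    (hα : IsPExp 2 G α) {x : G} (hx : ∀ u ∈ U, ¬ IsConj (x ^ α) u) :
    ∑ χ ∈ Finset.univ.filter (· ∈ principalBlock M G), coefA P θ χ * (χ : G → ℂ) x = 0 := by
  have h1 : ∑ χ ∈ Finset.univ.filter (· ∈ principalBlock M G), coefA P θ χ * (χ : G → ℂ) x =
      (Nat.card P : ℂ)⁻¹ * ∑ y : P, θ y⁻¹ *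
        ∑ χ ∈ Finset.univ.filter (· ∈ principalBlock M G), (χ : G → ℂ) (y : G) * (χ : G → ℂ) x := by
    simp only [coefA, Finset.mul_sum, Finset.sum_mul]
    rw [Finset.sum_comm]
    refine Finset.sum_congr rfl fun y _ => Finset.sum_congr rfl fun χ _ => ?_
    ring
  rw [h1]
  have h2 : ∀ y : P, θ y⁻¹ *
      ∑ χ ∈ Finset.univ.filter (· ∈ principalBlock M G), (χ : G → ℂ) (y : G) * (χ : G → ℂ) x = 0 := by
    intro y
    by_cases hy : ((y⁻¹ : P) : G) ∈ U
    · have hne : ¬ IsConj ((x⁻¹) ^ α) ((y : G) ^ α) := by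
        obtain ⟨k, hk⟩ := IsPGroup.iff_orderOf.mp hP y
        have hk' : orderOf (y : G) = 2 ^ k := by rw [← hk, Subgroup.orderOf_coe]
        rw [hα.pow_of_pPow hk', inv_pow]
        intro hc
        apply hx _ hy
        obtain ⟨c, hc'⟩ := isConj_iff.mp hc
        rw [isConj_iff]
        refine ⟨c, ?_⟩
        push_cast
        rw [← hc']
        group
      have h3 := sum_block_mul_finsum_eq_zero hM hα (isPBlock_principalBlock (M := M) (G := G)) hne
      simp only [inv_inv] at h3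
      rw [fsum_eq] at h3
      rw [h3, mul_zero]
    · rw [hθU _ hy, zero_mul]
  simp only [h2, Finset.sum_const_zero, mul_zero]

end Main

/-- Let M be a maximal ideal of the algebraic integers containing 2, P a 2-subgroup of the finite group G, U a subset of P, and t an involution of G such that no element of U is inverted by any conjugate of t. Let θ be a generalized character of P vanishing outside U, and for χ in the principal 2-block B₀ put a_χ = #P⁻¹ Σ_{y ∈ P} χ(y) θ(y⁻¹). Then Σ_{χ ∈ B₀} a_χ χ(t)^2/χ(1) = 0, Σ_{χ ∈ B₀} a_χ χ(1) = 0 and Σ_{χ ∈ B₀} a_χ χ(t) = 0. If moreover #P⁻¹ Σ_{y ∈ P} θ(y) ≠ 0, then either at least two of the a_χ have positive real part and at least two have negative real part, or G has a proper normal subgroup containing O_2'(G) and t. -/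
theorem result {G : Type*} [Group G] [Finite G] (M : Ideal Cfsg.AlgInt) (hM : Cfsg.IsPModular 2 M) (P : Subgroup G) (hP : IsPGroup 2 P) (U : Set G) (hUP : U ⊆ (P : Set G)) (t : G) (ht : orderOf t = 2) (hinv : ∀ u ∈ U, ∀ g : G, (g * t * g⁻¹) * u * (g * t * g⁻¹)⁻¹ ≠ u⁻¹) (θ : ↥P → ℂ) (hθ : Cfsg.IsGeneralizedCharacter ↥P θ) (hθU : ∀ y : ↥P, (y : G) ∉ U → θ y = 0) : (∑ᶠ χ ∈ Cfsg.principalBlock M G, ((Nat.card ↥P : ℂ)⁻¹ * ∑ᶠ y : ↥P, (χ : G → ℂ) (y : G) * θ y⁻¹) * (χ : G → ℂ) t ^ 2 / (χ : G → ℂ) 1 = 0) ∧ (∑ᶠ χ ∈ Cfsg.principalBlock M G, ((Nat.card ↥P : ℂ)⁻¹ * ∑ᶠ y : ↥P, (χ : G → ℂ) (y : G) * θ y⁻¹) * (χ : G → ℂ) 1 = 0) ∧ (∑ᶠ χ ∈ Cfsg.principalBlock M G, ((Nat.card ↥P : ℂ)⁻¹ * ∑ᶠ y : ↥P, (χ : G → ℂ) (y : G) * θ y⁻¹) * (χ : G → ℂ) t = 0) ∧ ((Nat.card ↥P : ℂ)⁻¹ * ∑ᶠ y : ↥P, θ y ≠ 0 → (2 ≤ Nat.card {χ : Cfsg.IrrCharacter G // χ ∈ Cfsg.principalBlock M G ∧ 0 < (((Nat.card ↥P : ℂ)⁻¹ * ∑ᶠ y : ↥P, (χ : G → ℂ) (y : G) * θ y⁻¹)).re} ∧ 2 ≤ Nat.card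 {χ : Cfsg.IrrCharacter G // χ ∈ Cfsg.principalBlock M G ∧ (((Nat.card ↥P : ℂ)⁻¹ * ∑ᶠ y : ↥P, (χ : G → ℂ) (y : G) * θ y⁻¹)).re < 0}) ∨ ∃ K : Subgroup G, K.Normal ∧ K ≠ ⊤ ∧ Cfsg.pPrimeCore 2 G ≤ K ∧ t ∈ K) := by
  classical
  cases nonempty_fintype G
  letI : Fintype P := Fintype.ofFinite _
  haveI hprime := Cfsg.Agent.Lib.Blocks.isPrime_of_modular hM
  obtain ⟨α, hα⟩ := exists_isPExp G 2
  have hfin : ∀ χ : IrrCharacter G, (∑ᶠ y : ↥P, (χ : G → ℂ) (y : G) * θ y⁻¹) =
      ∑ y : ↥P, (χ : G → ℂ) (y : G) * θ y⁻¹ := fun χ => finsum_eq_sum_of_fintype _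
  have hcoef : ∀ χ : IrrCharacter G, ((Nat.card ↥P : ℂ)⁻¹ * ∑ᶠ y : ↥P, (χ : G → ℂ) (y : G) * θ y⁻¹) =
      coefA P θ χ := fun χ => by rw [hfin, coefA]
  simp only [hcoef]
  let S := Finset.univ.filter (· ∈ principalBlock M G)
  have hSmem : ∀ χ, χ ∈ S ↔ χ ∈ principalBlock M G := fun χ => by simp [S]
  have ht2 : t * t = 1 := by
    have := pow_orderOf_eq_one t
    rwa [ht, pow_two] at this
  have htinv : t⁻¹ = t := inv_eq_of_mul_eq_one_left ht2
  have htp : t ^ α = t := hα.pow_of_pPow (k := 1) (by rw [ht, pow_one])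
  -- the three vanishing statements
  have hN1 : ∀ u ∈ U, ¬ IsConj ((1 : G) ^ α) u := by
    intro u hu hc
    rw [one_pow, isConj_one_right] at hc
    have h1 := hinv u hu 1
    rw [hc] at h1
    simp at h1
  have hNt : ∀ u ∈ U, ¬ IsConj (t ^ α) u := by
    intro u hu hc
    rw [htp] at hc
    obtain ⟨c, hc'⟩ := isConj_iff.mp hc
    have h1 := hinv u hu c
    rw [hc'] at h1
    apply h1
    have huu : u * u = 1 := by
      rw [← hc']
      calc c * t * c⁻¹ * (c * t * c⁻¹) = c * (t * t) * c⁻¹ := by group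
        _ = 1 := by rw [ht2]; group
    rw [mul_inv_cancel_right]
    exact eq_inv_of_mul_eq_one_left huu
  have hNw : ∀ a b : G, ∀ u ∈ U, ¬ IsConj ((a * t * a⁻¹ * (b * t * b⁻¹)) ^ α) u := by
    intro a b u hu hc
    obtain ⟨c, hc'⟩ := isConj_iff.mp hc
    obtain ⟨w, hw⟩ : ∃ w, w = a * t * a⁻¹ * (b * t * b⁻¹) := ⟨_, rfl⟩
    rw [← hw] at hc'
    have h1 := hinv u hu (c * a)
    apply h1
    have hsw : (a * t * a⁻¹) * w * (a * t * a⁻¹)⁻¹ = w⁻¹ := by
      have hss : ∀ s : G, s = a * t * a⁻¹ → s * s = 1 := fun s hs => by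
        rw [hs]
        calc a * t * a⁻¹ * (a * t * a⁻¹) = a * (t * t) * a⁻¹ := by group
          _ = 1 := by rw [ht2]; group
      have hvv : ∀ v : G, v = b * t * b⁻¹ → v * v = 1 := fun v hv => by
        rw [hv]
        calc b * t * b⁻¹ * (b * t * b⁻¹) = b * (t * t) * b⁻¹ := by group
          _ = 1 := by rw [ht2]; group
      rw [hw]
      obtain ⟨s, hs⟩ : ∃ s, s = a * t * a⁻¹ := ⟨_, rfl⟩
      obtain ⟨v, hv⟩ : ∃ v, v = b * t * b⁻¹ := ⟨_, rfl⟩
      rw [← hs, ← hv]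
      have h3 := hss s hs
      have h4 := hvv v hv
      have h5 : v⁻¹ = v := inv_eq_of_mul_eq_one_left h4
      rw [mul_inv_rev, h5, ← mul_assoc, h3, one_mul]
    have hsw' : (a * t * a⁻¹) * w ^ α * (a * t * a⁻¹)⁻¹ = (w ^ α)⁻¹ := by
      rw [← conj_pow, hsw, inv_pow]
    rw [← hc']
    calc c * a * t * (c * a)⁻¹ * (c * w ^ α * c⁻¹) * (c * a * t * (c * a)⁻¹)⁻¹
        = c * ((a * t * a⁻¹) * w ^ α * (a * t * a⁻¹)⁻¹) * c⁻¹ := by group
      _ = (c * w ^ α * c⁻¹)⁻¹ := by rw [hsw']; group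
  have E2 : ∑ χ ∈ S, coefA P θ χ * (χ : G → ℂ) 1 = 0 := D_eq_zero hM P hP U θ hθU hα hN1
  have E3 : ∑ χ ∈ S, coefA P θ χ * (χ : G → ℂ) t = 0 := D_eq_zero hM P hP U θ hθU hα hNt
  have Ew : ∀ a b : G, ∑ χ ∈ S, coefA P θ χ * (χ : G → ℂ) (a * t * a⁻¹ * (b * t * b⁻¹)) = 0 :=
    fun a b => D_eq_zero hM P hP U θ hθU hα (hNw a b)
  have hG0 : (Nat.card G : ℂ) ≠ 0 := by exact_mod_cast Nat.card_pos.ne'
  have E1 : ∑ χ ∈ S, coefA P θ χ * (χ : G → ℂ) t ^ 2 / (χ : G → ℂ) 1 = 0 := by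
    have h1 : ∑ a : G, ∑ b : G, ∑ χ ∈ S, coefA P θ χ * (χ : G → ℂ) (a * t * a⁻¹ * (b * t * b⁻¹)) = 0 := by
      simp only [Ew, Finset.sum_const_zero]
    have h2 : ∑ a : G, ∑ b : G, ∑ χ ∈ S, coefA P θ χ * (χ : G → ℂ) (a * t * a⁻¹ * (b * t * b⁻¹)) =
        (Nat.card G : ℂ) ^ 2 * ∑ χ ∈ S, coefA P θ χ * (χ : G → ℂ) t ^ 2 / (χ : G → ℂ) 1 := by
      rw [Finset.mul_sum]
      have h3 : ∀ a : G, ∑ b : G, ∑ χ ∈ S, coefA P θ χ * (χ : G → ℂ) (a * t * a⁻¹ * (b * t * b⁻¹)) =
          ∑ χ ∈ S, ∑ b : G, coefA P θ χ * (χ : G → ℂ) (a * t * a⁻¹ * (b * t * b⁻¹)) :=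
        fun a => Finset.sum_comm
      simp only [h3]
      rw [Finset.sum_comm]
      refine Finset.sum_congr rfl fun χ _ => ?_
      rw [Finset.sum_comm]
      have h0 := IsIrrCharacter.apply_one_ne_zero χ.2
      have h4 : ∀ b : G, ∑ a : G, coefA P θ χ * (χ : G → ℂ) (a * t * a⁻¹ * (b * t * b⁻¹)) =
          coefA P θ χ * ((Nat.card G : ℂ) * (χ : G → ℂ) t ^ 2 / (χ : G → ℂ) 1) := by
        intro b
        rw [← Finset.mul_sum]
        congr 1
        have h5 := IsIrrCharacter.sum_conj_mul χ.2 t (b * t * b⁻¹)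
        rw [IsCharacter.isClassFunction (IsIrrCharacter.isCharacter χ.2) t b] at h5
        rw [eq_div_iff h0, mul_comm, h5]
        ring
      simp only [h4]
      rw [Finset.sum_const, Finset.card_univ, ← Nat.card_eq_fintype_card, nsmul_eq_mul]
      ring
    rw [h2] at h1
    exact (mul_eq_zero.mp h1).resolve_left (pow_ne_zero 2 hG0)
  refine ⟨?_, ?_, ?_, ?_⟩
  · rw [fsum_eq]
    exact E1
  · rw [fsum_eq]
    exact E2
  · rw [fsum_eq]
    exact E3
  · intro ha₁
    -- real forms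
    have hreal := fun χ => coefA_real P hθ χ
    choose R hR using hreal
    have hRre : ∀ χ, (coefA P θ χ).re = R χ := fun χ => by rw [hR]; rfl
    let d : IrrCharacter G → ℝ := fun χ => (charDegree (χ : G → ℂ) : ℝ)
    have hd1 : ∀ χ : IrrCharacter G, (χ : G → ℂ) 1 = (d χ : ℂ) := fun χ => by
      rw [apply_one_eq_charDegree (IsIrrCharacter.isCharacter χ.2)]
      simp [d]
    have hdpos : ∀ χ : IrrCharacter G, 0 < d χ := fun χ => by
      have h1 := IsIrrCharacter.apply_one_ne_zero χ.2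
      rw [hd1] at h1
      have h2 : d χ ≠ 0 := by exact_mod_cast h1
      have h3 : 0 ≤ d χ := Nat.cast_nonneg _
      exact lt_of_le_of_ne h3 h2.symm
    have htreal : ∀ χ : IrrCharacter G, ∃ r : ℝ, (χ : G → ℂ) t = r := fun χ => by
      have h1 := IsCharacter.apply_inv (IsIrrCharacter.isCharacter χ.2) t
      rw [htinv] at h1
      exact Complex.conj_eq_iff_real.mp h1.symm
    choose τ hτ using htreal
    have E1R : ∑ χ ∈ S, R χ * τ χ ^ 2 / d χ = 0 := by
      have h1 : ((∑ χ ∈ S, R χ * τ χ ^ 2 / d χ : ℝ) : ℂ) = 0 := by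
        rw [← E1]
        push_cast
        refine Finset.sum_congr rfl fun χ _ => ?_
        rw [hR, hτ, hd1]
      exact_mod_cast h1
    have E2R : ∑ χ ∈ S, R χ * d χ = 0 := by
      have h1 : ((∑ χ ∈ S, R χ * d χ : ℝ) : ℂ) = 0 := by
        rw [← E2]
        push_cast
        refine Finset.sum_congr rfl fun χ _ => ?_
        rw [hR, hd1]
      exact_mod_cast h1
    have E3R : ∑ χ ∈ S, R χ * τ χ = 0 := by
      have h1 : ((∑ χ ∈ S, R χ * τ χ : ℝ) : ℂ) = 0 := by
        rw [← E3]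
        push_cast
        refine Finset.sum_congr rfl fun χ _ => ?_
        rw [hR, hτ]
      exact_mod_cast h1
    have hone : irrOne G ∈ S := (hSmem _).mpr irrOne_mem_principalBlock
    have hRone : R (irrOne G) ≠ 0 := by
      intro h0
      apply ha₁
      have h1 : coefA P θ (irrOne G) = (Nat.card ↥P : ℂ)⁻¹ * ∑ᶠ y : ↥P, θ y := by
        rw [coefA, finsum_eq_sum_of_fintype]
        congr 1
        simp only [irrOne_apply, one_mul]
        exact Fintype.sum_equiv (Equiv.inv _) _ _ (fun y => rfl)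
      rw [← h1, hR, h0]
      simp
    have hτone : τ (irrOne G) = d (irrOne G) := by
      have h1 := hτ (irrOne G)
      have h2 := hd1 (irrOne G)
      rw [irrOne_apply] at h1 h2
      have h3 : (τ (irrOne G) : ℂ) = (d (irrOne G) : ℂ) := by rw [← h1, ← h2]
      exact_mod_cast h3
    by_cases hcase : 2 ≤ Nat.card {χ : IrrCharacter G // χ ∈ principalBlock M G ∧ 0 < (coefA P θ χ).re} ∧
        2 ≤ Nat.card {χ : IrrCharacter G // χ ∈ principalBlock M G ∧ (coefA P θ χ).re < 0}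
    · exact Or.inl hcase
    · right
      have hker : ∀ χ ∈ S, R χ ≠ 0 → τ χ = d χ := by
        have hchoice : (∀ i ∈ S, ∀ j ∈ S, 0 < R i → 0 < R j → i = j) ∨
            (∀ i ∈ S, ∀ j ∈ S, 0 < (- R) i → 0 < (- R) j → i = j) := by
          by_contra hcon
          push Not at hcon
          obtain ⟨⟨i, hi, j, hj, hRi, hRj, hij⟩, ⟨i', hi', j', hj', hRi', hRj', hij'⟩⟩ := hcon
          apply hcase
          constructor
          · have hnt : Nontrivial {χ : IrrCharacter G // χ ∈ principalBlock M G ∧ 0 < (coefA P θ χ).re} :=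
              ⟨⟨⟨i, (hSmem i).mp hi, by rw [hRre]; exact hRi⟩, ⟨j, (hSmem j).mp hj, by rw [hRre]; exact hRj⟩,
                fun h => hij (congrArg Subtype.val h)⟩⟩
            exact Finite.one_lt_card_iff_nontrivial.mpr hnt
          · have hnt : Nontrivial {χ : IrrCharacter G // χ ∈ principalBlock M G ∧ (coefA P θ χ).re < 0} :=
              ⟨⟨⟨i', (hSmem i').mp hi', by rw [hRre]; simpa using hRi'⟩,
                ⟨j', (hSmem j').mp hj', by rw [hRre]; simpa using hRj'⟩,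
                fun h => hij' (congrArg Subtype.val h)⟩⟩
            exact Finite.one_lt_card_iff_nontrivial.mpr hnt
        rcases hchoice with hu | hu
        · exact real_key S R d τ (fun i _ => hdpos i) E1R E2R E3R hone hRone hτone hu
        · intro χ hχ hRχ
          refine real_key S (- R) d τ (fun i _ => hdpos i) ?_ ?_ ?_ hone ?_ hτone hu χ hχ ?_
          · have : ∑ χ ∈ S, (- R) χ * τ χ ^ 2 / d χ = - ∑ χ ∈ S, R χ * τ χ ^ 2 / d χ := by
              rw [← Finset.sum_neg_distrib]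
              refine Finset.sum_congr rfl fun χ _ => ?_
              simp only [Pi.neg_apply]
              ring
            rw [this, E1R, neg_zero]
          · have : ∑ χ ∈ S, (- R) χ * d χ = - ∑ χ ∈ S, R χ * d χ := by
              rw [← Finset.sum_neg_distrib]
              refine Finset.sum_congr rfl fun χ _ => ?_
              simp only [Pi.neg_apply]
              ring
            rw [this, E2R, neg_zero]
          · have : ∑ χ ∈ S, (- R) χ * τ χ = - ∑ χ ∈ S, R χ * τ χ := by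
              rw [← Finset.sum_neg_distrib]
              refine Finset.sum_congr rfl fun χ _ => ?_
              simp only [Pi.neg_apply]
              ring
            rw [this, E3R, neg_zero]
          · simpa using hRone
          · simpa using hRχ
      let K : Subgroup G := ⨅ χ : {χ : IrrCharacter G // χ ∈ S ∧ R χ ≠ 0}, charKer ((χ : IrrCharacter G) : G → ℂ)
      refine ⟨K, ?_, ?_, ?_, ?_⟩
      · apply Subgroup.normal_iInf_normal
        intro χ
        exact charKer_normal (IsIrrCharacter.isCharacter χ.1.2)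
      · intro hK
        have hall : ∀ χ ∈ S, R χ ≠ 0 → χ = irrOne G := by
          intro χ hχ hRχ
          by_contra hne
          have h1 : ∀ g : G, (χ : G → ℂ) g = (χ : G → ℂ) 1 := by
            intro g
            have h2 : g ∈ K := by rw [hK]; trivial
            have h3 := (Subgroup.mem_iInf.mp h2) ⟨χ, hχ, hRχ⟩
            exact (mem_charKer (IsIrrCharacter.isCharacter χ.2)).mp h3
          have h2 : classInner (χ : G → ℂ) (irrOne G : G → ℂ) = 0 :=
            classInner_irr_of_ne χ.2 (irrOne G).2 (fun h => hne (Subtype.ext h))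
          rw [classInner] at h2
          simp only [irrOne_apply, map_one, mul_one, h1, Finset.sum_const, Finset.card_univ,
            nsmul_eq_mul] at h2
          rw [← Nat.card_eq_fintype_card, inv_mul_cancel_left₀ hG0] at h2
          exact IsIrrCharacter.apply_one_ne_zero χ.2 h2
        have h1 : ∑ χ ∈ S, R χ * d χ = R (irrOne G) * d (irrOne G) := by
          apply Finset.sum_eq_single_of_mem _ hone
          intro χ hχ hne
          by_cases hRχ : R χ = 0
          · rw [hRχ, zero_mul]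
          · exact absurd (hall χ hχ hRχ) hne
        rw [E2R] at h1
        exact (mul_ne_zero hRone (hdpos _).ne') h1.symm
      · refine le_iInf fun χ => ?_
        refine le_charKer_of_mem_principalBlock hM _ ?_ ((hSmem _).mp χ.2.1)
        intro h1
        have h2 := Cfsg.Agent.Lib.Basic.pPrimeCore_coprime (G := G) 2
        exact (Nat.Prime.coprime_iff_not_dvd Nat.prime_two).mp h2.symm h1
      · rw [Subgroup.mem_iInf]
        intro χ
        rw [mem_charKer (IsIrrCharacter.isCharacter χ.1.2), hτ, hker _ χ.2.1 χ.2.2, hd1]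

end Cfsg.Agent.S4722
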