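import Cfsg.Statements.S4723
import Cfsg.Agent.Lib.Blocks.StableHeightZero

set_option autoImplicit false
open Cfsg

namespace Cfsg.Agent.S4723

/-- Let p be a prime, M a maximal ideal of the algebraic integers containing p, H a normal subgroup of the finite group G and b a p-block of H. Let T be the stabilizer of b in G. Then b contains a character θ of height zero whose own stabilizer in G (the elements g with θ(g h g⁻¹) = θ(h) for all h ∈ H) has index prime to p in T, i.e. contains a Sylow p-subgroup of T. -/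
theorem result {G : Type*} [Group G] [Finite G] (p : ℕ) [Fact p.Prime] (M : Ideal Cfsg.AlgInt) (hM : Cfsg.IsPModular p M) (H : Subgroup G) [H.Normal] (b : Set (Cfsg.IrrCharacter ↥H)) (hb : Cfsg.IsPBlock M b) (T : Subgroup G) (hT : (∀ g : G, g ∈ T ↔ ∀ θ ∈ b, ∀ θ' : Cfsg.IrrCharacter ↥H, (∀ h h' : ↥H, (h' : G) = g * h * g⁻¹ → (θ' : ↥H → ℂ) h' = (θ : ↥H → ℂ) h) → θ' ∈ b)) : ∃ θ ∈ b, Cfsg.blockHeight p b (θ : ↥H → ℂ) = 0 ∧ ∃ S : Subgroup G, S ≤ T ∧ (∀ g : G, g ∈ S ↔ (g ∈ T ∧ ∀ h h' : ↥H, (h' : G) = g * h * g⁻¹ → (θ : ↥H → ℂ) h' = (θ : ↥H → ℂ) h)) ∧ ¬ p ∣ S.relIndex T := by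
  classical
  letI : Fintype G := Fintype.ofFinite G
  letI : Fintype H := Fintype.ofFinite H
  have hT' : ∀ g, g ∈ T ↔ ∀ θ ∈ b, Cfsg.Agent.Lib.Blocks.conjIrr H g θ ∈ b := by
    intro g
    rw [hT]
    constructor
    · intro h θ hθ
      refine h θ hθ _ ?_
      intro x x' hx
      show Cfsg.Agent.Lib.Char.conjFun H g (θ : H → ℂ) x' = (θ : H → ℂ) x
      rw [Cfsg.Agent.Lib.Char.conjFun_apply]
      exact congrArg _ (Subtype.ext (by simp [hx, mul_assoc]))
    · intro h θ hθ θ' hθ'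
      have h1 : θ' = Cfsg.Agent.Lib.Blocks.conjIrr H g θ := by
        apply Subtype.ext
        funext n
        show (θ' : H → ℂ) n = Cfsg.Agent.Lib.Char.conjFun H g (θ : H → ℂ) n
        rw [Cfsg.Agent.Lib.Char.conjFun_apply]
        apply hθ'
        simp [mul_assoc]
      rw [h1]
      exact h θ hθ
  obtain ⟨θ, hθ, h0, L, hLT, hLidx, hfix⟩ := Cfsg.Agent.Lib.Blocks.exists_height_zero_stabilizer hM H hb hT'
  refine ⟨θ, hθ, h0, T ⊓ Cfsg.Agent.Lib.Char.inertia H (θ : H → ℂ), inf_le_left, ?_, ?_⟩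
  · intro g
    rw [Subgroup.mem_inf]
    refine and_congr_right fun _ => ?_
    rw [Cfsg.Agent.Lib.Char.mem_inertia]
    constructor
    · intro h x x' hx
      have h1 := congrFun h x'
      rw [Cfsg.Agent.Lib.Char.conjFun_apply] at h1
      rw [← h1]
      exact congrArg _ (Subtype.ext (by simp [hx, mul_assoc]))
    · intro h
      funext n
      rw [Cfsg.Agent.Lib.Char.conjFun_apply]
      symm
      apply h
      simp [mul_assoc]
  · have hLS : L ≤ T ⊓ Cfsg.Agent.Lib.Char.inertia H (θ : H → ℂ) := by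
      intro g hg
      refine Subgroup.mem_inf.mpr ⟨hLT hg, ?_⟩
      rw [Cfsg.Agent.Lib.Char.mem_inertia]
      exact congrArg Subtype.val (hfix g hg)
    intro hd
    apply hLidx
    rw [← Subgroup.relIndex_mul_relIndex L _ T hLS inf_le_left]
    exact Dvd.dvd.mul_left hd _

end Cfsg.Agent.S4723
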