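import Cfsg.Statements.S4726
import Cfsg.Agent.Lib.Char.MaxPair
import Cfsg.Agent.Lib.Char.BlockKer2
import Cfsg.Agent.Lib.H8Group.ConjMax

set_option autoImplicit false
open Cfsg

namespace Cfsg.Agent.S4726

open Cfsg.Agent.Lib.Blocks Cfsg.Agent.Lib.H8Group Cfsg.Agent.Lib.Char.BK

universe u

theorem tower_up {G : Type u} [Group G] [Fintype G] {M : Ideal Cfsg.AlgInt} {p : ℕ} [hp : Fact p.Prime]
    (hM : Cfsg.IsPModular p M) (K : Subgroup G) [Fintype K] (L : Subgroup K) [Fintype L]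
    (L' : Subgroup G) [Fintype L'] (φ : L ≃* L') (hφ : ∀ x : L, ((φ x : L') : G) = ((x : K) : G))
    {f : Set (Cfsg.IrrCharacter L)} {b : Set (Cfsg.IrrCharacter K)} {B : Set (Cfsg.IrrCharacter G)}
    (h1 : Cfsg.IsInducedBlock M L f b) (h2 : Cfsg.IsInducedBlock M L' (transBlock φ.symm f) B) :
    Cfsg.IsInducedBlock M K b B := by
  classical
  have := isPrime_of_modular hM
  refine ⟨h1.2.1, h2.2.1, fun ξ hξ χ hχ g => ?_⟩
  obtain ⟨ξ', hξ'⟩ := IsPBlock.nonempty h2.1
  have hθ : Cfsg.Agent.Lib.Blocks.irrComp φ ξ' ∈ f := hξ'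
  have ha : Cfsg.IsClassFunction K (Cfsg.Agent.Lib.Blocks.resFun K (cls g)) :=
    resFun_isClassFunction K (cls_isClassFunction g)
  have hc : spec (Cfsg.Agent.Lib.Blocks.resFun K (cls g)) ∈ zS M K :=
    spec_mem_zS ha (fun x => cls_memLocalRing g x)
  have h3 := IsInducedBlock.resPhi_congr L h1 hθ hξ hc
  rw [resPhi, coef_spec _ ha] at h3
  have h4 : spec (Cfsg.Agent.Lib.Blocks.resFun L (Cfsg.Agent.Lib.Blocks.resFun K (cls g)))
      (Cfsg.Agent.Lib.Blocks.irrComp φ ξ') = spec (Cfsg.Agent.Lib.Blocks.resFun L' (cls g)) ξ' := by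
    rw [← spec_irrComp φ]
    congr 1
    funext x
    simp only [resFun_apply, Function.comp_apply, hφ]
  have h5 := h2.2.2 ξ' hξ' χ hχ g
  rw [inducedCentralChar_eq_spec] at h5 ⊢
  rw [h4] at h3
  exact MemLocalIdeal.trans (MemLocalIdeal.symm h3) h5

/-- Let p be a prime, M a maximal ideal of the algebraic integers containing p, H a subgroup of the finite group G and b a p-block of H with defect group D₀ such that C_G(D₀) ≤ H. Then b induces a block of G, and for every block B of G induced by b there is a defect group D of B with Z(D) ≤ Z(D₀) ≤ D₀ ≤ D (as subgroups of G). In particular, if the defect groups of B are abelian then D₀ is a defect group of B. -/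
theorem result {G : Type*} [Group G] [Finite G] (p : ℕ) [Fact p.Prime] (M : Ideal Cfsg.AlgInt) (hM : Cfsg.IsPModular p M) (H : Subgroup G) (b : Set (Cfsg.IrrCharacter ↥H)) (hb : Cfsg.IsPBlock M b) (D₀ : Subgroup ↥H) (hD₀ : Cfsg.IsDefectGroup p M b D₀) (hC : Subgroup.centralizer ((D₀.map H.subtype : Subgroup G) : Set G) ≤ H) : Cfsg.InducedBlockDefined M H b ∧ ∀ B : Set (Cfsg.IrrCharacter G), Cfsg.IsInducedBlock M H b B → (∃ D : Subgroup G, Cfsg.IsDefectGroup p M B D ∧ (Subgroup.center ↥D).map D.subtype ≤ ((Subgroup.center ↥D₀).map D₀.subtype).map H.subtype ∧ ((Subgroup.center ↥D₀).map D₀.subtype).map H.subtype ≤ D₀.map H.subtype ∧ D₀.map H.subtype ≤ D) ∧ (∀ D : Subgroup G, Cfsg.IsDefectGroup p M B D → IsMulCommutative ↥D → Cfsg.IsDefectGroup p M B (D₀.map H.subtype)) := by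
  classical
  cases nonempty_fintype G
  have := isPrime_of_modular hM
  have hpp : p.Prime := Fact.out
  letI : Fintype H := Fintype.ofFinite _
  have hD₀p : IsPGroup p D₀ := IsDefectGroup.isPGroup hD₀
  have hD₀'p : IsPGroup p (D₀.map H.subtype) := hD₀p.map _
  obtain ⟨f₀, hf₀⟩ := exists_isBrauerPairOf_of_isDefectGroup hM hb hD₀
  letI : Fintype (Subgroup.centralizer (D₀ : Set H)) := Fintype.ofFinite _
  letI : Fintype (Subgroup.centralizer ((D₀.map H.subtype : Subgroup G) : Set G)) := Fintype.ofFinite _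
  have hmemL : ∀ y : Subgroup.centralizer ((D₀.map H.subtype : Subgroup G) : Set G),
      (⟨(y : G), hC y.2⟩ : H) ∈ Subgroup.centralizer (D₀ : Set H) := by
    intro y
    rw [Subgroup.mem_centralizer_iff]
    intro d hd
    apply Subtype.ext
    exact Subgroup.mem_centralizer_iff.mp y.2 (d : G) ⟨d, hd, rfl⟩
  have hmemL' : ∀ x : Subgroup.centralizer (D₀ : Set H),
      ((x : H) : G) ∈ Subgroup.centralizer ((D₀.map H.subtype : Subgroup G) : Set G) := by
    intro x
    rw [Subgroup.mem_centralizer_iff]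
    rintro _ ⟨d, hd, rfl⟩
    exact congrArg Subtype.val (Subgroup.mem_centralizer_iff.mp x.2 d hd)
  let φ : Subgroup.centralizer (D₀ : Set H) ≃* Subgroup.centralizer ((D₀.map H.subtype : Subgroup G) : Set G) :=
    { toFun := fun x => ⟨((x : H) : G), hmemL' x⟩
      invFun := fun y => ⟨⟨(y : G), hC y.2⟩, hmemL y⟩
      left_inv := fun x => rfl
      right_inv := fun y => rfl
      map_mul' := fun a b => rfl }
  have hφ : ∀ x : Subgroup.centralizer (D₀ : Set H), ((φ x : Subgroup.centralizer ((D₀.map H.subtype : Subgroup G) : Set G)) : G) = ((x : H) : G) :=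
    fun x => rfl
  have hf₀ind := (Cfsg.Agent.Lib.H8Group.isBrauerPairOf_iff hM hD₀p hf₀.1.2).mp hf₀
  have hf₀' : IsPBlock M (transBlock φ.symm f₀) := isPBlock_transBlock _ hf₀.1.2
  refine ⟨?_, fun B hB => ?_⟩
  · obtain ⟨B, hB⟩ := exists_isInducedBlock_cent hM hD₀'p hf₀'
    exact ⟨B, tower_up hM H _ _ φ hφ hf₀ind hB⟩
  have hind := isInducedBlock_tower hM H _ _ φ hφ hf₀ind hB
  have hpair := (Cfsg.Agent.Lib.H8Group.isBrauerPairOf_iff hM hD₀'p hf₀').mpr hind
  have key : ∃ D : Subgroup G, IsDefectGroup p M B D ∧ (Subgroup.center ↥D).map D.subtype ≤ ((Subgroup.center ↥D₀).map D₀.subtype).map H.subtype ∧ ((Subgroup.center ↥D₀).map D₀.subtype).map H.subtype ≤ D₀.map H.subtype ∧ D₀.map H.subtype ≤ D := by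
    obtain ⟨D, e, hle, hmax⟩ := exists_maximal_above (M := M) (p := p) _ _ hpair
    have hDdef := isDefectGroup_of_isMaximalBrauerPair hM hmax
    have hD₀D : D₀.map H.subtype ≤ D := le_of_subpairLE hle
    have hDp : IsPGroup p D := IsDefectGroup.isPGroup hDdef
    -- the centre
    have hYD : (Subgroup.center ↥D).map D.subtype ≤ D := Subgroup.map_subtype_le _
    have hYL : (Subgroup.center ↥D).map D.subtype ≤ Subgroup.centralizer ((D₀.map H.subtype : Subgroup G) : Set G) := by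
      rintro _ ⟨z, hz, rfl⟩
      rw [Subgroup.mem_centralizer_iff]
      intro d hd
      have h1 := (Subgroup.mem_center_iff.mp hz) ⟨d, hD₀D hd⟩
      exact congrArg Subtype.val h1
    have hED : D₀.map H.subtype ⊔ (Subgroup.center ↥D).map D.subtype ≤ D := sup_le hD₀D hYD
    have hQE : D₀.map H.subtype ≤ D₀.map H.subtype ⊔ (Subgroup.center ↥D).map D.subtype := le_sup_left
    have hEN : D₀.map H.subtype ⊔ (Subgroup.center ↥D).map D.subtype ≤ Subgroup.normalizer ((D₀.map H.subtype : Subgroup G) : Set G) :=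
      sup_le Subgroup.le_normalizer (hYL.trans (Subgroup.centralizer_le_normalizer _))
    obtain ⟨f₁, hf₁, hE⟩ := exists_subpairLE hM hmax.1.1 _ hED
    have hEpair : Cfsg.IsBrauerPair p M (D₀.map H.subtype ⊔ (Subgroup.center ↥D).map D.subtype) f₁ := ⟨hDp.to_le hED, hf₁⟩
    obtain ⟨f₂, hf₂, -⟩ := existsUnique_isNormalSubpair hM hEpair hQE hEN
    have hff : f₂ = transBlock φ.symm f₀ := subpairLE_unique hM hmax.1.1 _ hD₀D f₂ _
      (Relation.ReflTransGen.trans (Relation.ReflTransGen.single (show Cfsg.NormalSubpairRel p M ⟨_, f₂⟩ ⟨_, f₁⟩ from hf₂)) hE) hle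
    rw [hff] at hf₂
    obtain ⟨y, hy, hyc⟩ := exists_coeff_of_isNormalSubpair hM hf₂
    have hyL : y ∈ Subgroup.centralizer ((D₀.map H.subtype : Subgroup G) : Set G) := Subgroup.centralizer_le hQE hy
    have hyc2 : ¬ MemLocalIdeal M (Cfsg.subgroupBlockCoeff (Subgroup.centralizer (D₀ : Set H)) f₀ (⟨y, hC hyL⟩ : H)) := by
      have e1 := Cfsg.Agent.Lib.Char.MP.coeff_of_coe (C := Subgroup.centralizer ((D₀.map H.subtype : Subgroup G) : Set G))
        (e := transBlock φ.symm f₀) (t := ⟨y, hyL⟩)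
      have e2 := Cfsg.Agent.Lib.Char.MP.coeff_of_coe (C := Subgroup.centralizer (D₀ : Set H))
        (e := f₀) (t := ⟨⟨y, hC hyL⟩, hmemL ⟨y, hyL⟩⟩)
      rw [show (⟨y, hC hyL⟩ : H) = ((⟨⟨y, hC hyL⟩, hmemL ⟨y, hyL⟩⟩ : Subgroup.centralizer (D₀ : Set H)) : H) from rfl, e2, blockCoeff_eq_coef]
      have e3 : Cfsg.subgroupBlockCoeff (Subgroup.centralizer ((D₀.map H.subtype : Subgroup G) : Set G)) (transBlock φ.symm f₀) y =
          coef (indic f₀) (⟨⟨y, hC hyL⟩, hmemL ⟨y, hyL⟩⟩ : Subgroup.centralizer (D₀ : Set H)) := by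
        refine (show _ = blockCoeff (transBlock φ.symm f₀) ⟨y, hyL⟩ from e1).trans ?_
        rw [blockCoeff_eq_coef, coef_indic_transBlock]
        rfl
      rw [← e3]
      exact hyc
    -- the subgroup of `H`
    have hEH : D₀.map H.subtype ⊔ (Subgroup.center ↥D).map D.subtype ≤ H :=
      sup_le (Subgroup.map_subtype_le _) (hYL.trans hC)
    have hRsup : (D₀.map H.subtype ⊔ (Subgroup.center ↥D).map D.subtype).subgroupOf H ≤ D₀ ⊔ Subgroup.centralizer (D₀ : Set H) := by
      have h1 : D₀.map H.subtype ⊔ (Subgroup.center ↥D).map D.subtype ≤ (D₀ ⊔ Subgroup.centralizer (D₀ : Set H)).map H.subtype := by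
        refine sup_le (Subgroup.map_mono le_sup_left) ?_
        intro z hz
        exact ⟨⟨z, hC (hYL hz)⟩, Subgroup.mem_sup_right (hmemL ⟨z, hYL hz⟩), rfl⟩
      intro r hr
      obtain ⟨t, ht, hrt⟩ := h1 (Subgroup.mem_subgroupOf.mp hr)
      have : t = r := Subtype.ext hrt
      rwa [← this]
    have hRp : IsPGroup p ((D₀.map H.subtype ⊔ (Subgroup.center ↥D).map D.subtype).subgroupOf H) :=
      IsPGroup.comap_of_injective (hDp.to_le hED) H.subtype H.subtype_injective
    have hQR : D₀ ≤ (D₀.map H.subtype ⊔ (Subgroup.center ↥D).map D.subtype).subgroupOf H := by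
      intro d hd
      rw [Subgroup.mem_subgroupOf]
      exact Subgroup.mem_sup_left ⟨d, hd, rfl⟩
    have hyR : (⟨y, hC hyL⟩ : H) ∈ Subgroup.centralizer (((D₀.map H.subtype ⊔ (Subgroup.center ↥D).map D.subtype).subgroupOf H : Subgroup H) : Set H) := by
      rw [Subgroup.mem_centralizer_iff]
      intro r hr
      apply Subtype.ext
      exact Subgroup.mem_centralizer_iff.mp hy (r : G) (Subgroup.mem_subgroupOf.mp hr)
    obtain ⟨g₁, hn₁⟩ := exists_isNormalSubpair_of_coeff hM hRp hQR (hRsup.trans sup_centralizer_le_normalizer)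
      hf₀.1.2 (fun r hr => stabilizesBlock_of_mem_sup (hRsup hr) f₀) hyR hyc2
    have hRpair := (isBrauerPairOf_iff_normal hM hn₁ hb).mpr hf₀
    obtain ⟨D₂, e₂, hle₂, hmax₂⟩ := exists_maximal_above (M := M) (p := p) _ _ hRpair
    have hD₂ := isDefectGroup_of_isMaximalBrauerPair hM hmax₂
    obtain ⟨u, hu⟩ := IsDefectGroup.exists_conj_eq hM hb hD₀ hD₂
    have hRD₂ := le_of_subpairLE hle₂
    have hcard : Nat.card ((D₀.map H.subtype ⊔ (Subgroup.center ↥D).map D.subtype).subgroupOf H) ≤ Nat.card D₀ := by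
      have := Subgroup.card_le_of_le hRD₂
      rwa [hu, card_conjS] at this
    have hEq : D₀ = (D₀.map H.subtype ⊔ (Subgroup.center ↥D).map D.subtype).subgroupOf H :=
      Subgroup.eq_of_le_of_card_ge hQR hcard
    have hYD₀ : (Subgroup.center ↥D).map D.subtype ≤ D₀.map H.subtype := by
      intro z hz
      have hzE : z ∈ D₀.map H.subtype ⊔ (Subgroup.center ↥D).map D.subtype := Subgroup.mem_sup_right hz
      have h2 : (⟨z, hEH hzE⟩ : H) ∈ D₀ := by
        rw [hEq, Subgroup.mem_subgroupOf]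
        exact hzE
      exact ⟨_, h2, rfl⟩
    refine ⟨D, hDdef, ?_, Subgroup.map_mono (Subgroup.map_subtype_le _), hD₀D⟩
    intro z hz
    obtain ⟨d, hd, rfl⟩ := hYD₀ hz
    refine ⟨d, ⟨⟨d, hd⟩, Subgroup.mem_center_iff.mpr ?_, rfl⟩, rfl⟩
    intro w
    apply Subtype.ext
    apply Subtype.ext
    have hw : ((w : H) : G) ∈ D₀.map H.subtype := ⟨w, w.2, rfl⟩
    have h3 := Subgroup.mem_centralizer_iff.mp (hYL hz) _ hw
    exact h3
  refine ⟨key, fun D hD hab => ?_⟩
  obtain ⟨D₁, hD₁, h1, h2, h3⟩ := key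
  obtain ⟨x, hx⟩ := IsDefectGroup.exists_conj_eq hM hB.2.1 hD hD₁
  have hcomm : ∀ a ∈ D₁, ∀ b ∈ D₁, a * b = b * a := by
    intro a ha b hb
    rw [hx] at ha hb
    have ha' := mem_conjS.mp ha
    have hb' := mem_conjS.mp hb
    have h4 := congrArg Subtype.val (hab.is_comm.comm (⟨_, ha'⟩ : D) (⟨_, hb'⟩ : D))
    have h5 : x⁻¹ * a * x * (x⁻¹ * b * x) = x⁻¹ * b * x * (x⁻¹ * a * x) := h4
    have h6 : x⁻¹ * (a * b) * x = x⁻¹ * (b * a) * x := by
      calc x⁻¹ * (a * b) * x = x⁻¹ * a * x * (x⁻¹ * b * x) := by group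
        _ = x⁻¹ * b * x * (x⁻¹ * a * x) := h5
        _ = x⁻¹ * (b * a) * x := by group
    have h7 := mul_right_cancel h6
    exact mul_left_cancel h7
  have hle : D₁ ≤ (Subgroup.center ↥D₁).map D₁.subtype := by
    intro a ha
    refine ⟨⟨a, ha⟩, Subgroup.mem_center_iff.mpr ?_, rfl⟩
    intro w
    apply Subtype.ext
    exact hcomm _ w.2 _ ha
  have heq : D₀.map H.subtype = D₁ := le_antisymm h3 (hle.trans (h1.trans h2))
  rw [heq]
  exact hD₁

end Cfsg.Agent.S4726
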