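import Cfsg.Statements.S4727
import Cfsg.Agent.Lib.Char.BlockKer

set_option autoImplicit false
open Cfsg

namespace Cfsg.Agent.S4727

open Cfsg.Agent.Lib.Char.BK Cfsg.Agent.Lib.Blocks Cfsg.Agent.Lib.H8Group

universe u

theorem main {G : Type u} [Group G] [Fintype G] (p : ℕ) [hp : Fact p.Prime] (M : Ideal Cfsg.AlgInt)
    (hM : Cfsg.IsPModular p M) (σ : Set ℕ) (hσ : p ∉ σ) (B : Set (Cfsg.IrrCharacter G))
    (hB : Cfsg.IsPBlock M B) (D : Subgroup G) (hBD : Cfsg.IsDefectGroup p M B D)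
    (B₁ : Set (Cfsg.IrrCharacter ↥(Subgroup.normalizer (D : Set G))))
    (hB₁ : Cfsg.IsInducedBlock M (Subgroup.normalizer (D : Set G)) B₁ B)
    (hB₁D : Cfsg.IsDefectGroup p M B₁ (D.subgroupOf (Subgroup.normalizer (D : Set G))))
    (hker : ∀ n : ↥(Subgroup.normalizer (D : Set G)), n ∈ Cfsg.piCore σ ↥(Subgroup.normalizer (D : Set G)) →
      n ∈ Cfsg.blockKer B₁) (y : G) (hy : ∃ k : ℕ, orderOf y = p ^ k) (Z : Subgroup G) (hZ : Z = Subgroup.zpowers y)
    (hC : ∀ x : ↥(Subgroup.centralizer (Z : Set G)), (∀ q : ℕ, q.Prime → q ∣ orderOf x → q ∈ σ) →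
      x ∈ Cfsg.piCore σ ↥(Subgroup.centralizer (Z : Set G))) (χ : Cfsg.IrrCharacter G) (hχ : χ ∈ B)
    (x : ↥(Subgroup.centralizer (Z : Set G))) (hxσ : ∀ q : ℕ, q.Prime → q ∣ orderOf x → q ∈ σ) :
    (χ : G → ℂ) (y * x) = (χ : G → ℂ) y := by
  classical
  have := isPrime_of_modular hM
  letI : Fintype ↥(Subgroup.centralizer (Z : Set G)) := Fintype.ofFinite _
  have hZp : IsPGroup p Z := by
    rw [hZ]
    exact Cfsg.Agent.Lib.PGroups.isPGroup_zpowers_iff.mpr hy
  have hyZ : y ∈ Z := by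
    rw [hZ]
    exact Subgroup.mem_zpowers y
  have hy₀ : y ∈ Subgroup.centralizer (Z : Set G) := by
    rw [Subgroup.mem_centralizer_iff]
    intro z hz
    rw [hZ] at hz
    obtain ⟨k, rfl⟩ := Subgroup.mem_zpowers_iff.mp hz
    exact ((Commute.refl y).zpow_left k).eq
  let x₀ : Subgroup.centralizer (Z : Set G) := ⟨y, hy₀⟩
  have hH : ∀ w : G, w ∈ Subgroup.centralizer (Z : Set G) ↔ Commute w (x₀ : G) := by
    intro w
    constructor
    · intro hw
      exact (Subgroup.mem_centralizer_iff.mp hw y hyZ).symm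
    · intro hw
      rw [Subgroup.mem_centralizer_iff]
      intro z hz
      rw [hZ] at hz
      obtain ⟨k, rfl⟩ := Subgroup.mem_zpowers_iff.mp hz
      exact (Commute.zpow_left hw.symm k).eq
  have hxp : ∃ k, orderOf (x₀ : G) = p ^ k := hy
  have hF := subF_isClassFunction hH (irr_isClassFunction χ)
  have hF0 := pRegularPart_isClassFunction (p := p) hF
  have hvan : ∀ ψ : Cfsg.IrrCharacter ↥(Subgroup.centralizer (Z : Set G)),
      Cfsg.classInner (Cfsg.pRegularPart p (subF _ x₀ (χ : G → ℂ))) (ψ : _ → ℂ) ≠ 0 →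
        ψ ∈ kerSet (Cfsg.piCore σ ↥(Subgroup.centralizer (Z : Set G))) := by
    intro ψ hne
    obtain ⟨B', hB'⟩ := exists_isInducedBlock_sub hM hH hxp (isPBlock_blockOf (M := M) ψ)
    have hχB' : χ ∈ B' := by
      by_contra hn
      exact hne (classInner_subF_eq_zero hM hH hxp hB' hn (self_mem_blockOf ψ))
    have hBB' : B' = B := by
      rw [blockOf_eq_of_mem hB'.2.1 hχB', ← blockOf_eq_of_mem hB hχ]
    subst hBB'
    have hpair := (isBrauerPairOf_iff hM hZp (isPBlock_blockOf (M := M) ψ)).mpr hB'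
    exact kerC_of_isBrauerPairOf hM hσ hBD hB₁ hB₁D hker hpair (self_mem_blockOf ψ)
  have hexp := Cfsg.Agent.Lib.Char.classFunction_eq_sum _ hF0
  have hp1 : ∀ s : ↥(Subgroup.centralizer (Z : Set G)), s ∈ Cfsg.piCore σ ↥(Subgroup.centralizer (Z : Set G)) →
      Cfsg.pRegularPart p (subF _ x₀ (χ : G → ℂ)) s = Cfsg.pRegularPart p (subF _ x₀ (χ : G → ℂ)) 1 := by
    intro s hs
    rw [hexp]
    simp only [Finset.sum_apply, Pi.smul_apply, smul_eq_mul]
    refine Finset.sum_congr rfl fun ψ _ => ?_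
    by_cases hne : Cfsg.classInner (Cfsg.pRegularPart p (subF _ x₀ (χ : G → ℂ))) (ψ : _ → ℂ) = 0
    · rw [hne, zero_mul, zero_mul]
    · rw [hvan ψ hne s hs]
  have hxc := hC x hxσ
  have h1 := hp1 x hxc
  have hxreg : ¬ p ∣ orderOf x := fun h => hσ (hxσ p hp.out h)
  rw [pRegularPart_of_not_dvd _ hxreg, pRegularPart_of_not_dvd _ (by simp [hp.out.one_lt.ne'] : ¬ p ∣ orderOf (1 : ↥(Subgroup.centralizer (Z : Set G)))), subF_apply, subF_apply, mul_one] at h1
  exact h1

/-- Let p be a prime, π a set of primes containing p, M a maximal ideal of the algebraic integers containing p, and B a p-block of the finite group G with defect group D; let B₁ be the block of N_G(D) with defect group D that induces B (the Brauer correspondent of B). Suppose every element of O_π'(N_G(D)), the largest normal subgroup of N_G(D) whose order has no prime divisor in π, lies in the kernel of every member of B₁. If y is a p-element whose centralizer C has a normal Hall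 π'-subgroup (every element of C whose order has no prime divisor in π lies in O_π'(C)), then χ(y x) = χ(y) for every χ ∈ B and every x ∈ C whose order has no prime divisor in π. -/
theorem result {G : Type*} [Group G] [Finite G] (p : ℕ) [Fact p.Prime] (M : Ideal Cfsg.AlgInt) (hM : Cfsg.IsPModular p M) (π : Set ℕ) (hpπ : p ∈ π) (B : Set (Cfsg.IrrCharacter G)) (hB : Cfsg.IsPBlock M B) (D : Subgroup G) (hBD : Cfsg.IsDefectGroup p M B D) (B₁ : Set (Cfsg.IrrCharacter ↥(Subgroup.normalizer (D : Set G)))) (hB₁ : Cfsg.IsInducedBlock M (Subgroup.normalizer (D : Set G)) B₁ B) (hB₁D : Cfsg.IsDefectGroup p M B₁ (D.subgroupOf (Subgroup.normalizer (D : Set G)))) (hker : ∀ n : ↥(Subgroup.normalizer (D : Set G)), n ∈ Cfsg.piCore {q | q ∉ π} ↥(Subgroup.normalizer (D : Set G)) → n ∈ Cfsg.blockKer B₁) (y : G) (hy : ∃ k : ℕ, orderOf y = p ^ k) (hC : ∀ x : ↥(Subgroup.centralizer ({y} : Set G)), (∀ q : ℕ, q.Prime → q ∣ orderOf x → q ∉ π) → x ∈ Cfsg.piCore {q | q ∉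 π} ↥(Subgroup.centralizer ({y} : Set G))) : ∀ χ ∈ B, ∀ x : G, x ∈ Subgroup.centralizer ({y} : Set G) → (∀ q : ℕ, q.Prime → q ∣ orderOf x → q ∉ π) → (χ : G → ℂ) (y * x) = (χ : G → ℂ) y := by
  classical
  cases nonempty_fintype G
  intro χ hχ x hx hxπ
  have hσ : p ∉ {q | q ∉ π} := by simpa using hpπ
  have hZ : Subgroup.centralizer ({y} : Set G) = Subgroup.centralizer ((Subgroup.zpowers y : Subgroup G) : Set G) := by
    rw [centralizer_zpowers_eq]
  have key : ∀ H : Subgroup G, H = Subgroup.centralizer ((Subgroup.zpowers y : Subgroup G) : Set G) →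
      (∀ x : ↥H, (∀ q : ℕ, q.Prime → q ∣ orderOf x → q ∉ π) → x ∈ Cfsg.piCore {q | q ∉ π} ↥H) →
      ∀ x : ↥H, (∀ q : ℕ, q.Prime → q ∣ orderOf x → q ∉ π) → (χ : G → ℂ) (y * x) = (χ : G → ℂ) y := by
    intro H hH
    subst hH
    intro hC x hx
    exact main p M hM {q | q ∉ π} hσ B hB D hBD B₁ hB₁ hB₁D hker y hy _ rfl hC χ hχ x hx
  exact key _ hZ hC ⟨x, hx⟩ (by simpa using hxπ)

end Cfsg.Agent.S4727
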