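import Cfsg.Statements.S4728
import Cfsg.Agent.Lib.Char.BlockKer2

set_option autoImplicit false
open Cfsg

namespace Cfsg.Agent.S4728

open Cfsg.Agent.Lib.Char.BK Cfsg.Agent.Lib.Blocks Cfsg.Agent.Lib.H8Group

/-- Let p be a prime, π a set of primes containing p, M a maximal ideal of the algebraic integers containing p, B a p-block of the finite group G with defect group D, and B₁ the block of N_G(D) with defect group D inducing B. Let D₀ be a p-subgroup, H₀ = D₀·C_G(D₀), and b a block of H₀ inducing B. Write O_π'(X) for the largest normal subgroup of X whose order has no prime divisor in π. Suppose that O_π'(C_G(D₀)) is a normal Hall π'-subgroup of C_G(D₀) (it contains every element of C_G(D₀) whose order has no prime divisor in π) and that every element of it lies in the kernel of every member of b. Then every element of O_π'(N_G(D)) lies in the kernel of every member of B₁. -/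
theorem result {G : Type*} [Group G] [Finite G] (p : ℕ) [Fact p.Prime] (M : Ideal Cfsg.AlgInt) (hM : Cfsg.IsPModular p M) (π : Set ℕ) (hpπ : p ∈ π) (B : Set (Cfsg.IrrCharacter G)) (hB : Cfsg.IsPBlock M B) (D : Subgroup G) (hBD : Cfsg.IsDefectGroup p M B D) (B₁ : Set (Cfsg.IrrCharacter ↥(Subgroup.normalizer (D : Set G)))) (hB₁ : Cfsg.IsInducedBlock M (Subgroup.normalizer (D : Set G)) B₁ B) (hB₁D : Cfsg.IsDefectGroup p M B₁ (D.subgroupOf (Subgroup.normalizer (D : Set G)))) (D₀ : Subgroup G) (hD₀ : IsPGroup p D₀) (H₀ : Subgroup G) (hH₀ : H₀ = D₀ ⊔ Subgroup.centralizer (D₀ : Set G)) (b : Set (Cfsg.IrrCharacter ↥H₀)) (hb : Cfsg.IsInducedBlock M H₀ b B) (hcompl : ∀ x : ↥(Subgroup.centralizer (D₀ : Set G)), (∀ q : ℕ, q.Prime → q ∣ orderOf x → q ∉ π) → x ∈ Cfsg.piCore {q | q ∉ π} ↥(Subgroup.centralizer (D₀ : Set G))) (hkerb : ∀ x : ↥(Subgroup.centralizer (D₀ : Set G)), x ∈ Cfsg.piCore {q | q ∉ π} ↥(Subgroup.centralizer (D₀ : Set G)) → ∀ θ ∈ b,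 ∀ h : ↥H₀, (h : G) = (x : G) → (θ : ↥H₀ → ℂ) h = (θ : ↥H₀ → ℂ) 1) : ∀ n : ↥(Subgroup.normalizer (D : Set G)), n ∈ Cfsg.piCore {q | q ∉ π} ↥(Subgroup.normalizer (D : Set G)) → n ∈ Cfsg.blockKer B₁ := by
  classical
  cases nonempty_fintype G
  have hσ : p ∉ {q | q ∉ π} := by simpa using hpπ
  have := isPrime_of_modular hM
  subst hH₀
  letI : Fintype ↥(D₀ ⊔ Subgroup.centralizer (D₀ : Set G)) := Fintype.ofFinite _
  letI : Fintype ↥(Subgroup.centralizer (D₀ : Set G)) := Fintype.ofFinite _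
  letI : Fintype ((Subgroup.centralizer (D₀ : Set G)).subgroupOf (D₀ ⊔ Subgroup.centralizer (D₀ : Set G))) :=
    Fintype.ofFinite _
  have hHN : D₀ ⊔ Subgroup.centralizer (D₀ : Set G) ≤ Subgroup.normalizer (D₀ : Set G) :=
    sup_centralizer_le_normalizer
  have hCH : Subgroup.centralizer (D₀ : Set G) ≤ D₀ ⊔ Subgroup.centralizer (D₀ : Set G) := le_sup_right
  haveI hNn : ((Subgroup.centralizer (D₀ : Set G)).subgroupOf (D₀ ⊔ Subgroup.centralizer (D₀ : Set G))).Normal := by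
    constructor
    intro n hn g
    rw [Subgroup.mem_subgroupOf] at hn ⊢
    exact conj_mem_centralizer_of_normalizer (hHN g.2) hn
  obtain ⟨θ, hθ⟩ := IsPBlock.nonempty hb.1
  obtain ⟨ξ', hξ'⟩ := exists_constituent ((Subgroup.centralizer (D₀ : Set G)).subgroupOf (D₀ ⊔ Subgroup.centralizer (D₀ : Set G))) θ
  let e := Subgroup.subgroupOfEquivOfLe hCH
  let ξ : Cfsg.IrrCharacter ↥(Subgroup.centralizer (D₀ : Set G)) := Cfsg.Agent.Lib.Blocks.irrComp e.symm ξ'
  have hξξ' : Cfsg.Agent.Lib.Blocks.irrComp e ξ = ξ' := Cfsg.Agent.Lib.Blocks.irrComp_irrComp_symm e ξ'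
  have hcon : Cfsg.classInner (fun n : ((Subgroup.centralizer (D₀ : Set G)).subgroupOf (D₀ ⊔ Subgroup.centralizer (D₀ : Set G))) =>
      (θ : ↥(D₀ ⊔ Subgroup.centralizer (D₀ : Set G)) → ℂ) n)
      ((Cfsg.Agent.Lib.Blocks.irrComp e ξ : Cfsg.IrrCharacter _) : _ → ℂ) ≠ 0 := by
    rw [hξξ']
    exact hξ'
  obtain ⟨B', hB'⟩ := exists_isInducedBlock_cent hM hD₀ (isPBlock_blockOf (M := M) ξ)
  have hind := isInducedBlock_of_cover_gen hM hD₀ _ le_sup_left hHN hCH hB' hb.1 hθ (self_mem_blockOf ξ) hcon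
  have hBB' : B' = B := IsInducedBlock.unique _ hind hb
  subst hBB'
  have hpair := (isBrauerPairOf_iff hM hD₀ (isPBlock_blockOf (M := M) ξ)).mpr hB'
  have hKf : KerC {q | q ∉ π} D₀ (blockOf M (ξ : ↥(Subgroup.centralizer (D₀ : Set G)) → ℂ)) := by
    haveI hW : ((Cfsg.piCore {q | q ∉ π} ↥(Subgroup.centralizer (D₀ : Set G))).comap e.toMonoidHom).Normal :=
      Subgroup.Normal.comap inferInstance _
    have h1 := mem_kerSet_of_classInner _ hcon ((Cfsg.piCore {q | q ∉ π} ↥(Subgroup.centralizer (D₀ : Set G))).comap e.toMonoidHom)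
      (fun w hw => hkerb (e w) hw θ hθ _ rfl |>.trans rfl)
    have h2 : ξ ∈ kerSet (Cfsg.piCore {q | q ∉ π} ↥(Subgroup.centralizer (D₀ : Set G))) := by
      intro u hu
      have h3 := h1 (e.symm u) (by
        show e (e.symm u) ∈ Cfsg.piCore {q | q ∉ π} ↥(Subgroup.centralizer (D₀ : Set G))
        simpa using hu)
      simpa [Cfsg.Agent.Lib.Blocks.irrComp_coe] using h3
    exact subset_kerSet_of_mem hM _ (not_dvd_card_piCore (Fact.out : p.Prime) hσ) (isPBlock_blockOf ξ) (self_mem_blockOf ξ) h2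
  have hH : HallC {q | q ∉ π} D₀ := fun x hx => hcompl x (by simpa using hx)
  exact blockKer_of_isBrauerPairOf hM hσ hBD hB₁ hB₁D hpair hH hKf

end Cfsg.Agent.S4728
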