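import Cfsg.Statements.S4731
import Cfsg.Agent.Lib.Blocks.Closed
import Cfsg.Agent.Lib.Blocks.Height
import Cfsg.Agent.Lib.Char.Kernel
import Cfsg.Agent.Lib.Char.Degree

set_option autoImplicit false
open Cfsg

namespace Cfsg.Agent.S4731

open Cfsg.Agent.Lib.Char Cfsg.Agent.Lib.Blocks
open scoped ComplexConjugate

universe u

/-- An element which is locally integral everywhere is integral. -/
theorem isIntegral_of_forall_local {z : ℂ}
    (h : ∀ m : Ideal AlgInt, m.IsMaximal → MemLocalRing m z) : IsIntegral ℤ z := by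
  classical
  let I : Ideal AlgInt :=
    { carrier := {b | IsIntegral ℤ ((b : ℂ) * z)}
      add_mem' := by
        intro a b ha hb
        have h1 : (((a + b : AlgInt) : ℂ)) * z = (a : ℂ) * z + (b : ℂ) * z := by
          push_cast
          ring
        show IsIntegral ℤ _
        rw [h1]
        exact IsIntegral.add ha hb
      zero_mem' := by
        show IsIntegral ℤ _
        simp [isIntegral_zero]
      smul_mem' := by
        intro c b hb
        have h1 : (((c • b : AlgInt) : ℂ)) * z = (c : ℂ) * ((b : ℂ) * z) := by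
          simp [mul_assoc]
        show IsIntegral ℤ _
        rw [h1]
        exact IsIntegral.mul c.2 hb }
  by_cases hI : I = ⊤
  · have h1 : (1 : AlgInt) ∈ I := by
      rw [hI]
      trivial
    have h2 : IsIntegral ℤ (((1 : AlgInt) : ℂ) * z) := h1
    simpa using h2
  · exfalso
    obtain ⟨m, hm, hle⟩ := Ideal.exists_le_maximal I hI
    haveI := hm.isPrime
    obtain ⟨a, b, hb, hz⟩ := h m hm
    apply hb
    apply hle
    show IsIntegral ℤ ((b : ℂ) * z)
    have hb0 : (b : ℂ) ≠ 0 := coe_ne_zero_of_notMem hb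
    rw [← hz, mul_div_cancel₀ _ hb0]
    exact a.2

variable {G : Type u} [Group G] [Fintype G]

/-- No element of order `pq`: centralizers of `p`-singular elements have order prime to `q`. -/
theorem not_dvd_card_centralizer {p q : ℕ} [hp : Fact p.Prime] [hq : Fact q.Prime] (hpq : p ≠ q)
    (hno : ∀ g : G, orderOf g ≠ p * q) {g : G} (hg : p ∣ orderOf g) :
    ¬ q ∣ Nat.card (Subgroup.centralizer ({g} : Set G)) := by
  intro hdvd
  obtain ⟨w, hw⟩ := exists_prime_orderOf_dvd_card' q hdvd
  have hw' : orderOf (w : G) = q := by rw [Subgroup.orderOf_coe]; exact hw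
  have hg' : orderOf (g ^ (orderOf g / p)) = p := orderOf_pow_orderOf_div (orderOf_pos g).ne' hg
  have hcomm : Commute (g ^ (orderOf g / p)) (w : G) := by
    have h1 : (w : G) * g = g * (w : G) := Subgroup.mem_centralizer_singleton_iff.mp w.2
    have h2 : Commute g (w : G) := h1.symm
    exact h2.pow_left _
  have hco : Nat.Coprime (orderOf (g ^ (orderOf g / p))) (orderOf (w : G)) := by
    rw [hg', hw']
    exact (Nat.coprime_primes hp.out hq.out).mpr hpq
  have h3 := hcomm.orderOf_mul_eq_mul_orderOf_of_coprime hco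
  rw [hg', hw'] at h3
  exact hno _ h3

/-- the two-variable sum used below -/
theorem core_eq (p : ℕ) (Bp Bq : Set (IrrCharacter G)) (y : G) :
    ∑ᶠ χ ∈ Bp ∩ Bq, (charDegree (χ : G → ℂ) : ℂ) * (χ : G → ℂ) y =
      ∑ g : G, coef (indic Bq) g * ∑ χ : IrrCharacter G, indic Bp χ * ((χ : G → ℂ) g * (χ : G → ℂ) y) := by
  classical
  rw [finsum_mem_eq_sum_indic]
  have hc : ∀ χ : IrrCharacter G, ∑ g : G, coef (indic Bq) g * (χ : G → ℂ) g = indic Bq χ * (χ : G → ℂ) 1 := by
    intro χ
    have h1 : ∀ g : G, coef (indic Bq) g * (χ : G → ℂ) g =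
        (Nat.card G : ℂ)⁻¹ * ∑ ξ : IrrCharacter G, indic Bq ξ * (ξ : G → ℂ) 1 * ((χ : G → ℂ) g * conj ((ξ : G → ℂ) g)) := by
      intro g
      rw [coef, mul_assoc, Finset.sum_mul]
      congr 1
      refine Finset.sum_congr rfl fun ξ _ => ?_
      ring
    simp only [h1]
    rw [← Finset.mul_sum, Finset.sum_comm]
    simp only [← Finset.mul_sum]
    rw [Finset.mul_sum, Finset.sum_eq_single χ]
    · have h2 : (Nat.card G : ℂ)⁻¹ * (indic Bq χ * (χ : G → ℂ) 1 * ∑ g : G, (χ : G → ℂ) g * conj ((χ : G → ℂ) g)) =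
          indic Bq χ * (χ : G → ℂ) 1 * classInner (χ : G → ℂ) (χ : G → ℂ) := by
        rw [classInner]
        ring
      rw [h2, classInner_irr_self χ.2, mul_one]
    · intro ξ _ hξ
      have h2 : (Nat.card G : ℂ)⁻¹ * (indic Bq ξ * (ξ : G → ℂ) 1 * ∑ g : G, (χ : G → ℂ) g * conj ((ξ : G → ℂ) g)) =
          indic Bq ξ * (ξ : G → ℂ) 1 * classInner (χ : G → ℂ) (ξ : G → ℂ) := by
        rw [classInner]
        ring
      rw [h2, classInner_irr_of_ne χ.2 ξ.2, mul_zero]
      intro h
      exact hξ (Subtype.ext h.symm)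
    · simp
  have h3 : ∀ χ : IrrCharacter G, indic (Bp ∩ Bq) χ * ((charDegree (χ : G → ℂ) : ℂ) * (χ : G → ℂ) y) =
      ∑ g : G, coef (indic Bq) g * (indic Bp χ * ((χ : G → ℂ) g * (χ : G → ℂ) y)) := by
    intro χ
    have h4 : (∑ g : G, coef (indic Bq) g * (indic Bp χ * ((χ : G → ℂ) g * (χ : G → ℂ) y))) =
        indic Bp χ * (χ : G → ℂ) y * ∑ g : G, coef (indic Bq) g * (χ : G → ℂ) g := by
      rw [Finset.mul_sum]
      refine Finset.sum_congr rfl fun g _ => ?_
      ring
    rw [h4, hc χ, ← apply_one_eq_charDegree (irr_isCharacter χ)]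
    by_cases h1 : χ ∈ Bp <;> by_cases h2 : χ ∈ Bq <;> simp [indic, h1, h2]
    ring
  simp only [h3]
  rw [Finset.sum_comm]
  simp only [Finset.mul_sum]

theorem core {p q : ℕ} [hp : Fact p.Prime] [hq : Fact q.Prime] (hpq : p ≠ q)
    (Mp Mq : Ideal AlgInt) (hMp : IsPModular p Mp) (hMq : IsPModular q Mq)
    (hno : ∀ g : G, orderOf g ≠ p * q) (b : ℕ) (hb : (Nat.card G).factorization q = b)
    (Bp : Set (IrrCharacter G)) (hBp : IsPBlock Mp Bp) (Bq : Set (IrrCharacter G))
    (hBq : IsPBlock Mq Bq) (y : G) (hy : p ∣ orderOf y) :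
    ∃ ω : AlgInt, ∑ᶠ χ ∈ Bp ∩ Bq, (charDegree (χ : G → ℂ) : ℂ) * (χ : G → ℂ) y =
      (q : ℂ) ^ b * (ω : ℂ) := by
  classical
  set θ : ℂ := ∑ᶠ χ ∈ Bp ∩ Bq, (charDegree (χ : G → ℂ) : ℂ) * (χ : G → ℂ) y with hθ
  -- integrality of θ
  have hθint : IsIntegral ℤ θ := by
    rw [hθ, finsum_mem_eq_sum_indic]
    refine IsIntegral.sum _ fun χ _ => ?_
    have h0 : IsIntegral ℤ (indic (Bp ∩ Bq) χ) := by
      by_cases h : χ ∈ Bp ∩ Bq
      · rw [indic_apply_of_mem h]; exact isIntegral_one
      · rw [indic_apply_of_notMem h]; exact isIntegral_zero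
    refine IsIntegral.mul h0 (IsIntegral.mul ?_ (irr_isIntegral χ y))
    exact isIntegral_algebraMap (R := ℤ) (A := ℂ) (x := ((charDegree (χ : G → ℂ) : ℤ))) |> (by simpa using ·)
  set D : G → ℂ := fun g => ∑ χ : IrrCharacter G, indic Bp χ * ((χ : G → ℂ) g * (χ : G → ℂ) y) with hD
  have hDint : ∀ g, IsIntegral ℤ (D g) := by
    intro g
    refine IsIntegral.sum _ fun χ _ => ?_
    have h0 : IsIntegral ℤ (indic Bp χ) := by
      by_cases h : χ ∈ Bp
      · rw [indic_apply_of_mem h]; exact isIntegral_one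
      · rw [indic_apply_of_notMem h]; exact isIntegral_zero
    exact IsIntegral.mul h0 (IsIntegral.mul (irr_isIntegral χ g) (irr_isIntegral χ y))
  have hD0 : ∀ g : G, ¬ p ∣ orderOf g → D g = 0 := by
    intro g hg
    have hy' : p ∣ orderOf y⁻¹ := by rwa [orderOf_inv]
    have h1 := weak_block_orthogonality hMp hBp hg hy'
    rw [finsum_mem_eq_sum_indic] at h1
    rw [← h1]
    refine Finset.sum_congr rfl fun χ _ => ?_
    rw [irr_apply_inv, Complex.conj_conj]
  set c : G → ℂ := coef (indic Bq) with hc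
  set A : G → ℂ := fun g => c g * D g with hA
  have hAcl : IsClassFunction G A := by
    intro g h
    have h1 : c (h * g * h⁻¹) = c g := by
      simp only [hc, coef]
      congr 1
      refine Finset.sum_congr rfl fun χ _ => ?_
      rw [irr_isClassFunction χ g h]
    have h2 : D (h * g * h⁻¹) = D g := by
      simp only [hD]
      refine Finset.sum_congr rfl fun χ _ => ?_
      rw [irr_isClassFunction χ g h]
    simp only [hA, h1, h2]
  have hθA : θ = ∑ g, A g := core_eq p Bp Bq y
  rw [sum_eq_sum_classes A hAcl] at hθA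
  -- divisibility
  have hdvd : ∀ K : ConjClasses G, p ∣ orderOf (clsRep K) →
      q ^ b ∣ Nat.card {x : G // IsConj (clsRep K) x} := by
    intro K hK
    have h1 := card_conj_mul_card_centralizer (clsRep K)
    have h2 := not_dvd_card_centralizer hpq hno hK
    have hqq : q.Prime := hq.out
    have h3 : q ^ b ∣ Nat.card {x : G // IsConj (clsRep K) x} *
        Nat.card (Subgroup.centralizer ({clsRep K} : Set G)) := by
      rw [h1, ← hb]
      exact Nat.ordProj_dvd _ _
    exact (Nat.Coprime.pow_left b ((Nat.Prime.coprime_iff_not_dvd hqq).mpr h2)).dvd_of_dvd_mul_right h3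
  let n : ConjClasses G → ℕ := fun K => Nat.card {x : G // IsConj (clsRep K) x} / q ^ b
  have hn : ∀ K : ConjClasses G, (Nat.card {x : G // IsConj (clsRep K) x} : ℂ) * A (clsRep K) =
      (q : ℂ) ^ b * ((n K : ℂ) * A (clsRep K)) := by
    intro K
    by_cases hK : p ∣ orderOf (clsRep K)
    · have h1 : Nat.card {x : G // IsConj (clsRep K) x} = q ^ b * n K := (Nat.mul_div_cancel' (hdvd K hK)).symm
      conv_lhs => rw [h1]
      push_cast
      ring
    · have h1 : A (clsRep K) = 0 := by
        simp only [hA, hD0 _ hK, mul_zero]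
      rw [h1]
      simp
  set z : ℂ := ∑ K : ConjClasses G, (n K : ℂ) * A (clsRep K) with hz
  have hθz : θ = (q : ℂ) ^ b * z := by
    rw [hθA, hz, Finset.mul_sum]
    exact Finset.sum_congr rfl fun K _ => hn K
  have hzint : IsIntegral ℤ z := by
    refine isIntegral_of_forall_local fun m hm => ?_
    haveI := hm.isPrime
    by_cases hqm : (q : AlgInt) ∈ m
    · have hmod : IsPModular q m := ⟨hq.out, hm, hqm⟩
      haveI := isPrime_of_modular hMq
      have hBq' : IsPBlock m Bq := by
        obtain ⟨χ₀, rfl⟩ := hBq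
        refine ⟨χ₀, ?_⟩
        ext ψ
        exact ⟨fun h => sameBlock_of_sameBlock hMq hmod h, fun h => sameBlock_of_sameBlock hmod hMq h⟩
      have hcl : ∀ g, MemLocalRing m (c g) := fun g => indic_mem_zS hBq' g
      refine MemLocalRing.sum _ fun K _ => ?_
      refine MemLocalRing.mul (MemLocalRing.natCast _) ?_
      exact MemLocalRing.mul (hcl _) (memLocalRing_of_isIntegral (hDint _))
    · have hq0 : ((q : ℂ)) ≠ 0 := by exact_mod_cast hq.out.ne_zero
      have hz' : z = θ / (q : ℂ) ^ b := by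
        rw [hθz]
        field_simp
      rw [hz']
      refine ⟨⟨θ, hθint⟩, (q : AlgInt) ^ b, ?_, ?_⟩
      · intro h
        exact hqm (hm.isPrime.mem_of_pow_mem _ h)
      · simp
  exact ⟨⟨z, hzint⟩, hθz⟩

/-- Let p ≠ q be primes, M_p and M_q maximal ideals of the algebraic integers containing p and q respectively, and G a finite group with no element of order pq; let q^b be the q-part of the order of G. For a p-block B_p (relative to M_p), a q-block B_q (relative to M_q) and a p-singular element y, the sum of χ(1)χ(y) over the irreducible characters χ lying in both B_p and B_q is q^b times an algebraic integer. -/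
theorem result {G : Type*} [Group G] [Finite G] (p q : ℕ) [Fact p.Prime] [Fact q.Prime] (hpq : p ≠ q) (Mp Mq : Ideal Cfsg.AlgInt) (hMp : Cfsg.IsPModular p Mp) (hMq : Cfsg.IsPModular q Mq) (hno : ∀ g : G, orderOf g ≠ p * q) (b : ℕ) (hb : (Nat.card G).factorization q = b) (Bp : Set (Cfsg.IrrCharacter G)) (hBp : Cfsg.IsPBlock Mp Bp) (Bq : Set (Cfsg.IrrCharacter G)) (hBq : Cfsg.IsPBlock Mq Bq) (y : G) (hy : p ∣ orderOf y) : ∃ ω : Cfsg.AlgInt, ∑ᶠ χ ∈ Bp ∩ Bq, (Cfsg.charDegree (χ : G → ℂ) : ℂ) * (χ : G → ℂ) y = (q : ℂ) ^ b * (ω : ℂ) := by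
  cases nonempty_fintype G
  exact core hpq Mp Mq hMp hMq hno b hb Bp hBp Bq hBq y hy

end Cfsg.Agent.S4731
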