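import Cfsg.Statements.S4733
import Cfsg.Agent.Lib.Char.PBlock
import Cfsg.Prelude.Def_BlockRank

set_option autoImplicit false
open Cfsg

namespace Cfsg.Agent.S4733

open Cfsg.Agent.Lib.Char Cfsg.Agent.Lib.Blocks
open scoped ComplexConjugate

theorem factorization_eq_of_not_dvd_div {p n d : ℕ} (_hp : p.Prime) (hn : n ≠ 0) (hd : d ∣ n)
    (h : ¬ p ∣ n / d) : n.factorization p = d.factorization p := by
  obtain ⟨t, rfl⟩ := hd
  have hd0 : d ≠ 0 := left_ne_zero_of_mul hn
  have ht0 : t ≠ 0 := right_ne_zero_of_mul hn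
  rw [Nat.mul_div_cancel_left _ (Nat.pos_of_ne_zero hd0)] at h
  rw [Nat.factorization_mul hd0 ht0, Finsupp.add_apply, Nat.factorization_eq_zero_of_not_dvd h,
    add_zero]

theorem not_dvd_div_of_factorization_le {p n d : ℕ} (hp : p.Prime) (hn : n ≠ 0) (hd : d ∣ n)
    (h : n.factorization p ≤ d.factorization p) : ¬ p ∣ n / d := by
  obtain ⟨t, rfl⟩ := hd
  have hd0 : d ≠ 0 := left_ne_zero_of_mul hn
  have ht0 : t ≠ 0 := right_ne_zero_of_mul hn
  rw [Nat.mul_div_cancel_left _ (Nat.pos_of_ne_zero hd0)]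
  rw [Nat.factorization_mul hd0 ht0, Finsupp.add_apply] at h
  have h1 : t.factorization p = 0 := by omega
  rw [Nat.factorization_eq_zero_iff] at h1
  rcases h1 with h1 | h1 | h1
  · exact absurd hp h1
  · exact h1
  · exact absurd h1 ht0

section

variable {G : Type*} [Group G] [Fintype G] {p : ℕ} [hp : Fact p.Prime] {M : Ideal Cfsg.AlgInt}

/-- A block of defect zero is a singleton. -/
theorem blockDefect_eq_zero_iff (hM : Cfsg.IsPModular p M) {B : Set (Cfsg.IrrCharacter G)}
    (hB : Cfsg.IsPBlock M B) : Cfsg.blockDefect p B = 0 ↔ ∃ χ, B = {χ} := by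
  classical
  haveI := isPrime_of_modular hM
  have hpp : p.Prime := hp.out
  have hG : Nat.card G ≠ 0 := Nat.card_pos.ne'
  constructor
  · intro h
    have hne : ((fun χ : Cfsg.IrrCharacter G => (Cfsg.charDegree (χ : G → ℂ)).factorization p) '' B).Nonempty :=
      (IsPBlock.nonempty hB).image _
    obtain ⟨χ, hχB, hχ⟩ := Nat.sInf_mem hne
    refine ⟨χ, ?_⟩
    rw [blockOf_eq_of_mem hB hχB]
    apply (not_dvd_iff_blockOf_singleton hM χ).mp
    apply not_dvd_div_of_factorization_le hpp hG (charDegree_dvd_card χ.2)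
    rw [Cfsg.blockDefect, ← hχ] at h
    exact Nat.sub_eq_zero_iff_le.mp h
  · rintro ⟨χ, rfl⟩
    have h1 : {χ} = blockOf M (χ : G → ℂ) := blockOf_eq_of_mem hB rfl
    have h2 := (not_dvd_iff_blockOf_singleton hM χ).mpr h1.symm
    have h3 := factorization_eq_of_not_dvd_div hpp hG (charDegree_dvd_card χ.2) h2
    rw [Cfsg.blockDefect, Set.image_singleton, csInf_singleton, h3, Nat.sub_self]

end

/-- Let p be a prime, M a maximal ideal of the algebraic integers containing p, and B a p-block of the finite group G with k irreducible characters and p-regular rank l (the number of irreducible Brauer characters). Then l ≤ k, and the following are equivalent: B has defect 0; k = l = 1; k = l. -/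
theorem result {G : Type*} [Group G] [Finite G] (p : ℕ) [Fact p.Prime] (M : Ideal Cfsg.AlgInt) (hM : Cfsg.IsPModular p M) (B : Set (Cfsg.IrrCharacter G)) (hB : Cfsg.IsPBlock M B) : Cfsg.blockRank p B ≤ Nat.card B ∧ (Cfsg.blockDefect p B = 0 ↔ (Nat.card B = 1 ∧ Cfsg.blockRank p B = 1)) ∧ (Cfsg.blockDefect p B = 0 ↔ Nat.card B = Cfsg.blockRank p B) := by
  classical
  cases nonempty_fintype G
  haveI := isPrime_of_modular hM
  have hpp : p.Prime := Fact.out
  set f : Cfsg.IrrCharacter G → G → ℂ := fun χ => Cfsg.pRegularPart p (χ : G → ℂ) with hf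
  letI : Fintype B := Fintype.ofFinite _
  let b : B → (G → ℂ) := fun χ => f χ
  have hrange : Set.range b = f '' B := by
    ext g
    constructor
    · rintro ⟨χ, rfl⟩
      exact ⟨χ, χ.2, rfl⟩
    · rintro ⟨χ, hχ, rfl⟩
      exact ⟨⟨χ, hχ⟩, rfl⟩
  have hrank : Cfsg.blockRank p B = (Set.range b).finrank ℂ := by
    rw [hrange]
    rfl
  have hcard : Nat.card B = Fintype.card B := Nat.card_eq_fintype_card
  have hle : Cfsg.blockRank p B ≤ Nat.card B := by
    rw [hrank, hcard]
    exact finrank_range_le_card b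
  have hsingle : ∀ χ, B = {χ} → Nat.card B = 1 ∧ Cfsg.blockRank p B = 1 := by
    intro χ hχ
    subst hχ
    refine ⟨by simp, ?_⟩
    have h1 : Cfsg.blockRank p ({χ} : Set (Cfsg.IrrCharacter G)) =
        Module.finrank ℂ ↥(Submodule.span ℂ ({f χ} : Set (G → ℂ))) := by
      rw [Cfsg.blockRank]
      have h0 : (fun χ : Cfsg.IrrCharacter G => Cfsg.pRegularPart p (χ : G → ℂ)) '' {χ} = {f χ} :=
        Set.image_singleton
      rw [h0]
    rw [h1]
    apply finrank_span_singleton
    intro h2
    have h3 := congrFun h2 1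
    have h4 : Cfsg.IsPRegular p (1 : G) := by
      simp only [Cfsg.IsPRegular, orderOf_one]
      exact fun h5 => hpp.one_lt.ne' (Nat.dvd_one.mp h5)
    simp only [hf, Cfsg.pRegularPart, h4, if_true, Pi.zero_apply] at h3
    exact irr_apply_one_ne_zero χ h3
  refine ⟨hle, ⟨fun h => ?_, fun h => ?_⟩, ⟨fun h => ?_, fun h => ?_⟩⟩
  · obtain ⟨χ, hχ⟩ := (blockDefect_eq_zero_iff hM hB).mp h
    exact hsingle χ hχ
  · apply (blockDefect_eq_zero_iff hM hB).mpr
    have h1 := h.1
    obtain ⟨χ, hχ⟩ := IsPBlock.nonempty hB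
    refine ⟨χ, ?_⟩
    have h2 : (Set.ncard B) = 1 := h1
    obtain ⟨a, rfl⟩ := Set.ncard_eq_one.mp h2
    have : χ = a := hχ
    rw [this]
  · obtain ⟨χ, hχ⟩ := (blockDefect_eq_zero_iff hM hB).mp h
    obtain ⟨h1, h2⟩ := hsingle χ hχ
    rw [h1, h2]
  · -- linear independence
    have hli : LinearIndependent ℂ b := by
      rw [linearIndependent_iff_card_eq_finrank_span, ← hcard, h, hrank]
    have hvan : ∀ χ ∈ B, ∀ y : G, p ∣ orderOf y → (χ : G → ℂ) y = 0 := by
      intro χ hχ y hy
      have hrel : ∑ ψ : B, (conj (((ψ : Cfsg.IrrCharacter G) : G → ℂ) y)) • b ψ = 0 := by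
        funext g
        simp only [Finset.sum_apply, Pi.smul_apply, smul_eq_mul, Pi.zero_apply, b, hf, Cfsg.pRegularPart]
        by_cases hg : Cfsg.IsPRegular p g
        · simp only [hg, if_true]
          have h1 := weak_block_orthogonality hM hB (x := g) (y := y) hg hy
          rw [finsum_mem_eq_sum_indic] at h1
          have h2 : ∑ χ : Cfsg.IrrCharacter G, indic B χ * ((χ : G → ℂ) g * conj ((χ : G → ℂ) y)) =
              ∑ χ ∈ Finset.univ.filter (· ∈ B), conj ((χ : G → ℂ) y) * (χ : G → ℂ) g := by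
            rw [Finset.sum_filter]
            refine Finset.sum_congr rfl fun χ _ => ?_
            by_cases hχB : χ ∈ B
            · rw [if_pos hχB, indic_apply_of_mem hχB]
              ring
            · rw [if_neg hχB, indic_apply_of_notMem hχB, zero_mul]
          rw [h2, Finset.sum_subtype (Finset.univ.filter (· ∈ B)) (p := (· ∈ B)) (by simp)] at h1
          exact h1
        · simp [hg]
      have h1 := Fintype.linearIndependent_iff.mp hli _ hrel ⟨χ, hχ⟩
      have h2 := congrArg conj h1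
      simpa using h2
    obtain ⟨χ, hχ⟩ := IsPBlock.nonempty hB
    apply (blockDefect_eq_zero_iff hM hB).mpr
    refine ⟨χ, ?_⟩
    rw [blockOf_eq_of_mem hB hχ]
    apply (not_dvd_iff_blockOf_singleton hM χ).mp
    apply not_dvd_div_of_factorization_le hpp Nat.card_pos.ne' (charDegree_dvd_card χ.2)
    have h1 := pow_dvd_degree_of_vanish (p := p) χ (hvan χ hχ)
    exact (Nat.Prime.pow_dvd_iff_le_factorization hpp (charDegree_pos χ.2).ne').mp h1

end Cfsg.Agent.S4733
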