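import Cfsg.Statements.S4734
import Cfsg.Agent.Lib.Char.BlockKer2

set_option autoImplicit false
open Cfsg

namespace Cfsg.Agent.S4734

open Cfsg.Agent.Lib.Char.BK Cfsg.Agent.Lib.Blocks Cfsg.Agent.Lib.H8Group

/-- Let p be a prime, π a set of primes containing p, M a maximal ideal of the algebraic integers containing p, B a p-block of the finite group G with defect group D, and B₁ the block of N_G(D) with defect group D inducing B. Write O_π'(X) for the largest normal subgroup of X whose order has no prime divisor in π, and suppose every element of O_π'(N_G(D)) lies in the kernel of every member of B₁. Let G₀ be a subgroup and B₀ a block of G₀ with defect group D₀ such that C_G(D₀) ≤ G₀ and B₀ induces B. Then every element of O_π'(G₀) lies in the kernel of every member of B₀. -/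
theorem result {G : Type*} [Group G] [Finite G] (p : ℕ) [Fact p.Prime] (M : Ideal Cfsg.AlgInt) (hM : Cfsg.IsPModular p M) (π : Set ℕ) (hpπ : p ∈ π) (B : Set (Cfsg.IrrCharacter G)) (hB : Cfsg.IsPBlock M B) (D : Subgroup G) (hBD : Cfsg.IsDefectGroup p M B D) (B₁ : Set (Cfsg.IrrCharacter ↥(Subgroup.normalizer (D : Set G)))) (hB₁ : Cfsg.IsInducedBlock M (Subgroup.normalizer (D : Set G)) B₁ B) (hB₁D : Cfsg.IsDefectGroup p M B₁ (D.subgroupOf (Subgroup.normalizer (D : Set G)))) (hker : ∀ n : ↥(Subgroup.normalizer (D : Set G)), n ∈ Cfsg.piCore {q | q ∉ π} ↥(Subgroup.normalizer (D : Set G)) → n ∈ Cfsg.blockKer B₁) (G₀ : Subgroup G) (B₀ : Set (Cfsg.IrrCharacter ↥G₀)) (hB₀ : Cfsg.IsInducedBlock M G₀ B₀ B) (D₀ : Subgroup ↥G₀) (hD₀ : Cfsg.IsDefectGroup p M B₀ D₀) (hC : Subgroup.centralizer ((D₀.map G₀.subtype : Subgroup G) : Set G) ≤ G₀) : ∀ x : ↥G₀, x ∈ Cfsg.piCore {q | q ∉ π} ↥G₀ → x ∈ Cfsg.blockKer B₀ := by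
  classical
  cases nonempty_fintype G
  have hpp : p.Prime := Fact.out
  have hσ : p ∉ {q | q ∉ π} := by simpa using hpπ
  have := isPrime_of_modular hM
  letI : Fintype ↥G₀ := Fintype.ofFinite _
  letI : Fintype ↥(Subgroup.centralizer (D₀ : Set ↥G₀)) := Fintype.ofFinite _
  letI : Fintype ↥(Subgroup.centralizer ((D₀.map G₀.subtype : Subgroup G) : Set G)) := Fintype.ofFinite _
  have hm1 : ∀ x : ↥G₀, x ∈ Subgroup.centralizer (D₀ : Set ↥G₀) →
      (x : G) ∈ Subgroup.centralizer ((D₀.map G₀.subtype : Subgroup G) : Set G) := by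
    intro x hx
    rw [Subgroup.mem_centralizer_iff] at hx ⊢
    rintro _ ⟨d, hd, rfl⟩
    exact congrArg Subtype.val (hx d hd)
  have hm2 : ∀ y (hy : y ∈ Subgroup.centralizer ((D₀.map G₀.subtype : Subgroup G) : Set G)),
      (⟨y, hC hy⟩ : ↥G₀) ∈ Subgroup.centralizer (D₀ : Set ↥G₀) := by
    intro y hy
    rw [Subgroup.mem_centralizer_iff] at hy ⊢
    intro d hd
    exact Subtype.ext (hy (d : G) ⟨d, hd, rfl⟩)
  let φ : ↥(Subgroup.centralizer (D₀ : Set ↥G₀)) ≃* ↥(Subgroup.centralizer ((D₀.map G₀.subtype : Subgroup G) : Set G)) :=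
    { toFun := fun x => ⟨((x : ↥G₀) : G), hm1 _ x.2⟩
      invFun := fun y => ⟨⟨y, hC y.2⟩, hm2 _ y.2⟩
      left_inv := fun x => rfl
      right_inv := fun y => rfl
      map_mul' := fun x y => rfl }
  obtain ⟨f₀, hf₀⟩ := exists_isBrauerPairOf_of_isDefectGroup hM hB₀.1 hD₀
  have hD₀p : IsPGroup p D₀ := hf₀.1.1
  have h1 := (isBrauerPairOf_iff hM hD₀p hf₀.1.2).mp hf₀
  have h2 := isInducedBlock_tower hM G₀ _ _ φ (fun x => rfl) h1 hB₀
  have hD₀'p : IsPGroup p (D₀.map G₀.subtype) := hD₀p.map _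
  have hpair := (isBrauerPairOf_iff hM hD₀'p h2.1).mpr h2
  have hK := kerC_of_isBrauerPairOf hM hσ hBD hB₁ hB₁D hker hpair
  obtain ⟨ξ, hξ⟩ := IsPBlock.nonempty hf₀.1.2
  have hv := hf₀.2.2 ξ hξ
  rw [brauerOmega_eq_brV_g] at hv
  have hmain := (subset_kerSet_iff_of_brData hM hD₀p (brData_g D₀) (Cfsg.piCore {q | q ∉ π} ↥G₀)
    (not_dvd_card_piCore hpp hσ) (fun γ x => mem_piCore_equiv_iff _) hB₀.1 (isStable_g B₀) hv).mpr ?_
  · intro x hx χ hχ
    exact hmain hχ x hx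
  · intro w hw
    have h3 : w ∈ Cfsg.piCore {q | q ∉ π} ↥(Subgroup.centralizer (D₀ : Set ↥G₀)) :=
      comap_piCore_le _ (Subgroup.subtype_injective _) hw
    have h4 := hK (Cfsg.Agent.Lib.Blocks.irrComp_mem_transBlock φ.symm hξ) (φ w)
      ((mem_piCore_equiv_iff φ).mpr h3)
    have h5 : (ξ : ↥(Subgroup.centralizer (D₀ : Set ↥G₀)) → ℂ) (φ.symm (φ w)) =
        (ξ : ↥(Subgroup.centralizer (D₀ : Set ↥G₀)) → ℂ) (φ.symm 1) := h4
    rw [MulEquiv.symm_apply_apply, map_one] at h5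
    exact h5

end Cfsg.Agent.S4734
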