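import Cfsg.Statements.S4735
import Cfsg.Agent.Lib.Char.PBlock
import Cfsg.Agent.Lib.Char.Galois
import Cfsg.Agent.Lib.Blocks.Third
import Cfsg.Agent.Lib.Basic.Core

set_option autoImplicit false
open Cfsg

namespace Cfsg.Agent.S4735

open Cfsg.Agent.Lib.Char Cfsg.Agent.Lib.Blocks
open scoped ComplexConjugate

universe u

theorem finsum_mem_eq_filter {α γ : Type*} [Fintype α] [AddCommMonoid γ] (S : Set α) (f : α → γ) :
    open scoped Classical in
    ∑ᶠ a ∈ S, f a = ∑ a ∈ Finset.univ.filter (· ∈ S), f a := by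
  classical
  rw [← finsum_mem_coe_finset]
  congr 1
  ext a
  simp

variable {G : Type u} [Group G] [Fintype G] {p : ℕ} [hp : Fact p.Prime] {M : Ideal AlgInt}

/-- The Galois twist of an irreducible character. -/
noncomputable def irrPow {k : ℕ} (hk : k.Coprime (Nat.card G)) (χ : IrrCharacter G) : IrrCharacter G :=
  ⟨fun g => (χ : G → ℂ) (g ^ k), isIrrCharacter_pow χ.2 hk⟩

theorem irrPow_bijective {k : ℕ} (hk : k.Coprime (Nat.card G)) : Function.Bijective (irrPow (G := G) hk) := by
  apply Finite.injective_iff_bijective.mp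
  intro χ ψ h
  apply Subtype.ext
  funext g
  obtain ⟨y, rfl⟩ := (powCoprime hk.symm).surjective g
  exact congrFun (congrArg Subtype.val h) y

/-- The principal block is stable under Galois twists. -/
theorem irrPow_mem_iff (hM : IsPModular p M) {k : ℕ} (hk : k.Coprime (Nat.card G)) (χ : IrrCharacter G) :
    irrPow hk χ ∈ principalBlock M G ↔ χ ∈ principalBlock M G := by
  classical
  rw [mem_principalBlock_iff hM, mem_principalBlock_iff hM]
  have h1 : spec (regFun p G) (irrPow hk χ) = spec (regFun p G) χ := by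
    have hone : ((irrPow hk χ : IrrCharacter G) : G → ℂ) 1 = (χ : G → ℂ) 1 := by
      show (χ : G → ℂ) (1 ^ k) = _
      rw [one_pow]
    simp only [spec, hone]
    have h2 := sum_pow_eq hk (fun g => regFun p G g * (χ : G → ℂ) g)
    congr 1
    rw [← h2]
    refine Finset.sum_congr rfl fun g _ => ?_
    have h3 : orderOf (g ^ k) = orderOf g := by
      have := Nat.Coprime.coprime_dvd_right (orderOf_dvd_natCard g) hk
      exact this.symm.orderOf_pow
    have h4 : regFun p G (g ^ k) = regFun p G g := by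
      simp only [regFun, h3]
    rw [h4]
    rfl
  rw [h1]

/-- The norm sum over the principal block is a positive integer. -/
theorem exists_nat_sum_normSq (hM : IsPModular p M) (x : G) :
    ∃ n : ℕ, 0 < n ∧ ∑ᶠ χ ∈ principalBlock M G, Complex.normSq ((χ : G → ℂ) x) = n := by
  classical
  have hprime := isPrime_of_modular hM
  rw [finsum_mem_eq_filter]
  set S := Finset.univ.filter (· ∈ principalBlock M G) with hS
  set z : ℂ := ∑ χ ∈ S, (χ : G → ℂ) x * conj ((χ : G → ℂ) x) with hz
  have hzc : z = ((∑ χ ∈ S, Complex.normSq ((χ : G → ℂ) x) : ℝ) : ℂ) := by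
    rw [hz]
    push_cast
    refine Finset.sum_congr rfl fun χ _ => ?_
    rw [Complex.mul_conj]
  have hzint : IsIntegral ℤ z := by
    refine IsIntegral.sum _ fun χ _ => ?_
    refine IsIntegral.mul (IsCharacter.isIntegral (IsIrrCharacter.isCharacter χ.2) x) ?_
    rw [← IsCharacter.apply_inv (IsIrrCharacter.isCharacter χ.2) x]
    exact IsCharacter.isIntegral (IsIrrCharacter.isCharacter χ.2) x⁻¹
  have hzfield : z ∈ cycField (Nat.card G) := by
    refine sum_mem fun χ _ => mul_mem (character_mem_cycField (IsIrrCharacter.isCharacter χ.2) x) ?_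
    rw [← IsCharacter.apply_inv (IsIrrCharacter.isCharacter χ.2) x]
    exact character_mem_cycField (IsIrrCharacter.isCharacter χ.2) x⁻¹
  have hrat : ∃ q : ℚ, z = q := by
    refine rat_of_forall_sigma (Nat.card G) hzfield ?_
    intro σ k hk hσ
    have hk' : k.Coprime (Nat.card G) := hk
    rw [hz, map_sum]
    refine Finset.sum_equiv (Equiv.ofBijective _ (irrPow_bijective hk')) ?_ ?_
    · intro χ
      simp only [hS, Finset.mem_filter, Finset.mem_univ, true_and, Equiv.ofBijective_apply]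
      exact (irrPow_mem_iff hM hk' χ).symm
    · intro χ _
      simp only [Equiv.ofBijective_apply, map_mul]
      have h1 := sigma_character (IsIrrCharacter.isCharacter χ.2) σ k hσ x
      have h2 := sigma_character (IsIrrCharacter.isCharacter χ.2) σ k hσ x⁻¹
      rw [IsCharacter.apply_inv (IsIrrCharacter.isCharacter χ.2) x] at h2
      rw [h1, h2]
      show _ = (χ : G → ℂ) (x ^ k) * conj ((χ : G → ℂ) (x ^ k))
      rw [← IsCharacter.apply_inv (IsIrrCharacter.isCharacter χ.2) (x ^ k), inv_pow]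
  obtain ⟨m, hm⟩ := int_of_isIntegral_of_rat hzint hrat
  have hone : (⟨_, isIrrCharacter_one⟩ : IrrCharacter G) ∈ S := by
    refine Finset.mem_filter.mpr ⟨Finset.mem_univ _, ?_⟩
    exact self_mem_blockOf (⟨_, isIrrCharacter_one⟩ : IrrCharacter G)
  have hge : (1 : ℝ) ≤ ∑ χ ∈ S, Complex.normSq ((χ : G → ℂ) x) := by
    have h1 := Finset.single_le_sum (f := fun χ : IrrCharacter G => Complex.normSq ((χ : G → ℂ) x))
      (fun χ _ => Complex.normSq_nonneg _) hone
    simpa using h1
  have hreal : (∑ χ ∈ S, Complex.normSq ((χ : G → ℂ) x) : ℝ) = m := by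
    have h1 : ((∑ χ ∈ S, Complex.normSq ((χ : G → ℂ) x) : ℝ) : ℂ) = ((m : ℝ) : ℂ) := by
      rw [← hzc, hm]
      simp
    exact_mod_cast h1
  rw [hreal] at hge ⊢
  have hm1 : (1 : ℤ) ≤ m := by exact_mod_cast hge
  refine ⟨m.toNat, by omega, ?_⟩
  have hm2 : ((m.toNat : ℤ) : ℝ) = (m : ℝ) := by
    rw [Int.toNat_of_nonneg (by omega)]
  rw [← hm2, Int.cast_natCast]

section Quot

variable (N : Subgroup G) [hN : N.Normal] [Fintype N] [Fintype (G ⧸ N)]

/-- Inflation is a bijection on principal blocks. -/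
theorem bijOn_inflate (hM : IsPModular p M) (hNp : ¬ p ∣ Nat.card N) :
    Set.BijOn (irrInflate N) (principalBlock M (G ⧸ N)) (principalBlock M G) := by
  have hprime := isPrime_of_modular hM
  refine ⟨?_, ?_, ?_⟩
  · intro β hβ
    have h1 := SameBlock.inflate N (M := M) hβ
    exact h1
  · intro β _ β' _ h
    apply Subtype.ext
    exact inflate_injective N (congrArg Subtype.val h)
  · intro χ hχ
    have hker := le_charKer_of_mem_principalBlock hM N hNp hχ
    obtain ⟨β, hβ, hχβ⟩ := exists_deflate N χ.2 hker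
    refine ⟨⟨β, hβ⟩, ?_, Subtype.ext hχβ.symm⟩
    have h1 := sameBlock_of_inflate N hM hNp (β := ⟨_, isIrrCharacter_one⟩) (β' := ⟨β, hβ⟩) (by
      intro g
      have h2 := hχ g
      rw [hχβ] at h2
      exact h2)
    exact h1

end Quot

/-- Let p be a prime, M a maximal ideal of the algebraic integers containing p, G a finite group, H = O_p'(G) and Ḡ = G/H. For x ∈ G write λ(G, x) for the sum of |χ(x)|^2 over the irreducible characters χ in the principal p-block of G. Then λ(G, x) is a positive integer, λ(G, x) = λ(Ḡ, x̄) where x̄ is the image of x, and λ(G, x) ≤ #C_Ḡ(x̄). Moreover λ(G, 1) = [G : H] if and only if the principal block is the only p-block of Ḡ. -/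
theorem result {G : Type*} [Group G] [Finite G] (p : ℕ) [Fact p.Prime] (M : Ideal Cfsg.AlgInt) (hM : Cfsg.IsPModular p M) (x : G) : (∃ n : ℕ, 0 < n ∧ ∑ᶠ χ ∈ Cfsg.principalBlock M G, Complex.normSq ((χ : G → ℂ) x) = n) ∧ ∑ᶠ χ ∈ Cfsg.principalBlock M G, Complex.normSq ((χ : G → ℂ) x) = ∑ᶠ ψ ∈ Cfsg.principalBlock M (G ⧸ Cfsg.pPrimeCore p G), Complex.normSq ((ψ : G ⧸ Cfsg.pPrimeCore p G → ℂ) (QuotientGroup.mk x)) ∧ ∑ᶠ χ ∈ Cfsg.principalBlock M G, Complex.normSq ((χ : G → ℂ) x) ≤ (Nat.card ↥(Subgroup.centralizer ({(QuotientGroup.mk x : G ⧸ Cfsg.pPrimeCore p G)} : Set (G ⧸ Cfsg.pPrimeCore p G))) : ℝ) ∧ ((∑ᶠ χ ∈ Cfsg.principalBlock M G, Cfsg.charDegree (χ : G → ℂ) ^ 2) = (Cfsg.pPrimeCore p G).index ↔ ∀ B : Set (Cfsg.IrrCharacter (G ⧸ Cfsg.pPrimeCore p G)), Cfsg.IsPBlock M B → B = Cfsg.principalBlock M (G ⧸ Cfsg.pPrimeCore p G)) := by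
  classical
  cases nonempty_fintype G
  have hprime := isPrime_of_modular hM
  set N := Cfsg.pPrimeCore p G with hNdef
  letI : Fintype N := Fintype.ofFinite _
  letI : Fintype (G ⧸ N) := Fintype.ofFinite _
  have hNp : ¬ p ∣ Nat.card N := by
    intro h2
    exact ((Nat.Prime.dvd_iff_not_coprime Fact.out).mp h2) (Cfsg.Agent.Lib.Basic.pPrimeCore_coprime p).symm
  have hbij := bijOn_inflate (M := M) N hM hNp
  have hsum : ∑ᶠ χ ∈ principalBlock M G, Complex.normSq ((χ : G → ℂ) x) =
      ∑ᶠ ψ ∈ principalBlock M (G ⧸ N), Complex.normSq ((ψ : G ⧸ N → ℂ) (QuotientGroup.mk x)) :=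
    (finsum_mem_eq_of_bijOn (irrInflate N) hbij (fun β _ => rfl)).symm
  refine ⟨exists_nat_sum_normSq hM x, hsum, ?_, ?_⟩
  · rw [hsum, finsum_mem_eq_filter]
    have h1 := sum_irr_mul_conj_of_isConj (IsConj.refl ((x : G ⧸ N)))
    have h2 : ∑ ψ : IrrCharacter (G ⧸ N), Complex.normSq ((ψ : G ⧸ N → ℂ) (x : G ⧸ N)) =
        Nat.card (Subgroup.centralizer ({(x : G ⧸ N)} : Set (G ⧸ N))) := by
      have h3 : ((∑ ψ : IrrCharacter (G ⧸ N), Complex.normSq ((ψ : G ⧸ N → ℂ) (x : G ⧸ N)) : ℝ) : ℂ) =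
          ((Nat.card (Subgroup.centralizer ({(x : G ⧸ N)} : Set (G ⧸ N))) : ℝ) : ℂ) := by
        push_cast
        rw [← h1]
        refine Finset.sum_congr rfl fun ψ _ => ?_
        rw [Complex.mul_conj]
      exact_mod_cast h3
    rw [← h2]
    exact Finset.sum_le_sum_of_subset_of_nonneg (Finset.subset_univ _)
      (fun ψ _ _ => Complex.normSq_nonneg _)
  · have hdeg : ∑ᶠ χ ∈ principalBlock M G, Cfsg.charDegree (χ : G → ℂ) ^ 2 =
        ∑ᶠ ψ ∈ principalBlock M (G ⧸ N), Cfsg.charDegree (ψ : G ⧸ N → ℂ) ^ 2 := by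
      exact (finsum_mem_eq_of_bijOn (irrInflate N) hbij (fun β _ => rfl)).symm
    have htotal : ∑ ψ : IrrCharacter (G ⧸ N), charDegree (ψ : G ⧸ N → ℂ) ^ 2 = N.index := by
      have h1 := sum_irr_degree_sq (G := G ⧸ N)
      have h2 : ((∑ ψ : IrrCharacter (G ⧸ N), charDegree (ψ : G ⧸ N → ℂ) ^ 2 : ℕ) : ℂ) = (N.index : ℂ) := by
        rw [Subgroup.index, ← h1]
        push_cast
        refine Finset.sum_congr rfl fun ψ _ => ?_
        rw [apply_one_eq_charDegree (IsIrrCharacter.isCharacter ψ.2)]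
      exact_mod_cast h2
    rw [hdeg, finsum_mem_eq_filter, ← htotal]
    constructor
    · intro h B hB
      have hall : ∀ ψ : IrrCharacter (G ⧸ N), ψ ∈ principalBlock M (G ⧸ N) := by
        intro ψ
        by_contra hψ
        have hlt : ∑ ψ ∈ Finset.univ.filter (· ∈ principalBlock M (G ⧸ N)), charDegree (ψ : G ⧸ N → ℂ) ^ 2 <
            ∑ ψ : IrrCharacter (G ⧸ N), charDegree (ψ : G ⧸ N → ℂ) ^ 2 := by
          apply Finset.sum_lt_sum_of_subset (Finset.subset_univ _) (Finset.mem_univ ψ)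
            (fun h3 => hψ (Finset.mem_filter.mp h3).2)
          · have h4 : charDegree (ψ : G ⧸ N → ℂ) ≠ 0 := by
              intro h5
              have h6 := apply_one_eq_charDegree (IsIrrCharacter.isCharacter ψ.2)
              rw [h5] at h6
              exact IsIrrCharacter.apply_one_ne_zero ψ.2 (by simpa using h6)
            positivity
          · intro j _ _
            exact Nat.zero_le _
        omega
      ext ψ
      constructor
      · intro _
        exact hall ψ
      · intro _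
        obtain ⟨χ, rfl⟩ := hB
        have h1 : blockOf M (χ : G ⧸ N → ℂ) = principalBlock M (G ⧸ N) :=
          (blockOf_eq_of_mem (isPBlock_blockOf (M := M) (⟨_, isIrrCharacter_one⟩ : IrrCharacter (G ⧸ N))) (hall χ)).symm
        rw [h1]
        exact hall ψ
    · intro h
      have hall : ∀ ψ : IrrCharacter (G ⧸ N), ψ ∈ principalBlock M (G ⧸ N) := by
        intro ψ
        rw [← h _ (isPBlock_blockOf ψ)]
        exact self_mem_blockOf ψ
      congr 1
      ext ψ
      simp [hall ψ]

end Cfsg.Agent.S4735
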