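import Cfsg.Statements.S4736
import Cfsg.Agent.Lib.Char.ItoP

set_option autoImplicit false
open Cfsg

namespace Cfsg.Agent.S4736

open Cfsg.Agent.Lib.Char Cfsg.Agent.Lib.Blocks

/-- Let p be a prime, M a maximal ideal of the algebraic integers containing p, and G a finite p-solvable group with Sylow p-subgroup P. Then P is abelian if and only if every irreducible character in the principal p-block of G has height zero. -/
theorem result {G : Type*} [Group G] [Finite G] (p : ℕ) [Fact p.Prime] (M : Ideal Cfsg.AlgInt) (hM : Cfsg.IsPModular p M) (hsolv : Cfsg.IsPSolvable p G) (P : Sylow p G) : IsMulCommutative P ↔ ∀ χ ∈ Cfsg.principalBlock M G, Cfsg.blockHeight p (Cfsg.principalBlock M G) (χ : G → ℂ) = 0 := by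
  classical
  cases nonempty_fintype G
  haveI := isPrime_of_modular hM
  have hpp : p.Prime := Fact.out
  set H := Cfsg.pPrimeCore p G with hH
  haveI hHn : H.Normal := Cfsg.Agent.Lib.Basic.pPrimeCore_normal p
  letI : Fintype H := Fintype.ofFinite _
  letI : Fintype (G ⧸ H) := Fintype.ofFinite _
  have hHp : (Nat.card H).Coprime p := Cfsg.Agent.Lib.Basic.pPrimeCore_coprime p
  have hsolv' : Cfsg.IsPSolvable p (G ⧸ H) :=
    Cfsg.Agent.Lib.Coprime.isPSolvable_map (QuotientGroup.mk' H) (QuotientGroup.mk'_surjective H) hsolv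
  have hcore : Cfsg.pPrimeCore p (G ⧸ H) = ⊥ := Cfsg.Agent.Lib.Basic.pPrimeCore_quotient_eq_bot p
  have hC := centralizer_pCore_le_of_isPSolvable hsolv' hcore
  have hPb : IsPGroup p ((P : Subgroup G).map (QuotientGroup.mk' H)) := P.isPGroup'.map _
  have hPbi : ¬ p ∣ ((P : Subgroup G).map (QuotientGroup.mk' H)).index := fun h1 =>
    P.not_dvd_index (h1.trans (Subgroup.index_map_dvd _ (QuotientGroup.mk'_surjective H)))
  set Pb : Sylow p (G ⧸ H) := hPb.toSylow hPbi with hPbdef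
  have hPbc : (Pb : Subgroup (G ⧸ H)) = (P : Subgroup G).map (QuotientGroup.mk' H) :=
    IsPGroup.toSylow_coe hPb hPbi
  constructor
  · intro hcomm χ hχ
    rw [blockHeight_principalBlock_eq_zero_iff]
    have hle := (mem_principalBlock_iff_of_isPSolvable hM hsolv).mp hχ
    obtain ⟨β, hβ, hχβ⟩ := exists_deflate H χ.2 hle
    -- the image of `P` is normal and abelian
    have hO : IsPGroup p (Cfsg.pCore p (G ⧸ H)) := Cfsg.Agent.Lib.Basic.pCore_isPGroup p
    haveI hOn : (Cfsg.pCore p (G ⧸ H)).Normal := Cfsg.Agent.Lib.Basic.pCore_normal p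
    have hOP : Cfsg.pCore p (G ⧸ H) ≤ (Pb : Subgroup (G ⧸ H)) := by
      have h1 : IsPGroup p ((Pb : Subgroup (G ⧸ H)) ⊔ Cfsg.pCore p (G ⧸ H) : Subgroup (G ⧸ H)) :=
        IsPGroup.to_sup_of_normal_right Pb.isPGroup' hO
      have h2 := Pb.is_maximal' h1 le_sup_left
      rw [← h2]
      exact le_sup_right
    have hPbcomm : ∀ a ∈ (Pb : Subgroup (G ⧸ H)), ∀ b ∈ (Pb : Subgroup (G ⧸ H)), a * b = b * a := by
      rw [hPbc]
      rintro _ ⟨a, ha, rfl⟩ _ ⟨b, hb, rfl⟩
      have h1 : (⟨a, ha⟩ : (P : Subgroup G)) * ⟨b, hb⟩ = ⟨b, hb⟩ * ⟨a, ha⟩ := hcomm.is_comm.comm _ _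
      have h2 : a * b = b * a := congrArg Subtype.val h1
      rw [← map_mul, h2, map_mul]
    have hPbO : (Pb : Subgroup (G ⧸ H)) ≤ Cfsg.pCore p (G ⧸ H) := by
      intro a ha
      apply hC
      rw [Subgroup.mem_centralizer_iff]
      intro b hb
      exact hPbcomm b (hOP hb) a ha
    have hEq : (Pb : Subgroup (G ⧸ H)) = Cfsg.pCore p (G ⧸ H) := le_antisymm hPbO hOP
    haveI hPbn : (Pb : Subgroup (G ⧸ H)).Normal := by
      rw [hEq]
      exact hOn
    have h1 := charDegree_dvd_index_of_abelian hβ (Pb : Subgroup (G ⧸ H)) hPbcomm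
    intro h2
    have h3 : Cfsg.charDegree (χ : G → ℂ) = Cfsg.charDegree β := by
      rw [hχβ]
      rfl
    rw [h3] at h2
    exact Pb.not_dvd_index (h2.trans h1)
  · intro hall
    have hd : ∀ β : Cfsg.IrrCharacter (G ⧸ H), ¬ p ∣ Cfsg.charDegree (β : G ⧸ H → ℂ) := by
      intro β
      have h1 : irrInflate H β ∈ Cfsg.principalBlock M G :=
        mem_principalBlock_of_le_charKer hM hsolv
          (le_charKer_inflate H (IsIrrCharacter.isCharacter β.2))
      exact (blockHeight_principalBlock_eq_zero_iff (χ := irrInflate H β)).mp (hall _ h1)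
    have hPbn := sylow_normal_of_isPSolvable _ (G ⧸ H) rfl hsolv' hd Pb
    have hcomm := isMulCommutative_sylow_of_normal Pb hPbn hd
    refine ⟨⟨fun a b => ?_⟩⟩
    -- `P` embeds into `P̄`
    have hinf : ∀ x ∈ (P : Subgroup G), x ∈ H → x = 1 := by
      intro x hx hxH
      obtain ⟨k, hk⟩ := IsPGroup.iff_orderOf.mp P.isPGroup' ⟨x, hx⟩
      have h1 : orderOf x = p ^ k := by rw [← hk]; exact (Subgroup.orderOf_mk x hx).symm
      have h2 : orderOf x ∣ Nat.card H := by
        rw [← Subgroup.orderOf_mk x hxH]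
        exact orderOf_dvd_natCard _
      have h3 : Nat.Coprime (orderOf x) (Nat.card H) := by
        rw [h1]
        exact Nat.Coprime.pow_left _ hHp.symm
      exact orderOf_eq_one_iff.mp (Nat.Coprime.eq_one_of_dvd h3 h2)
    have ha : ((a : G) : G ⧸ H) ∈ (Pb : Subgroup (G ⧸ H)) := by
      rw [hPbc]
      exact ⟨a, a.2, rfl⟩
    have hb : ((b : G) : G ⧸ H) ∈ (Pb : Subgroup (G ⧸ H)) := by
      rw [hPbc]
      exact ⟨b, b.2, rfl⟩
    have h1 : (⟨_, ha⟩ : (Pb : Subgroup (G ⧸ H))) * ⟨_, hb⟩ = ⟨_, hb⟩ * ⟨_, ha⟩ := hcomm.is_comm.comm _ _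
    have h2 : ((a : G) : G ⧸ H) * ((b : G) : G ⧸ H) = ((b : G) : G ⧸ H) * ((a : G) : G ⧸ H) :=
      congrArg Subtype.val h1
    have h3 : ((b : G) * (a : G))⁻¹ * ((a : G) * (b : G)) ∈ H := by
      rw [← QuotientGroup.eq, QuotientGroup.mk_mul, QuotientGroup.mk_mul, h2]
    have h4 := hinf _ ((P : Subgroup G).mul_mem ((P : Subgroup G).inv_mem ((P : Subgroup G).mul_mem b.2 a.2))
      ((P : Subgroup G).mul_mem a.2 b.2)) h3
    have h5 : (a : G) * b = b * a := by
      have := inv_mul_eq_one.mp h4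
      exact this.symm
    exact Subtype.ext h5

end Cfsg.Agent.S4736
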