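import Cfsg.Statements.S4955
import Cfsg.Agent.Lib.Char.Galois
import Cfsg.Agent.Lib.Char.Ito
import Cfsg.Agent.Lib.Char.Kernel
import Cfsg.Agent.Lib.H8Group.CharVal

set_option autoImplicit false
open Cfsg

namespace Cfsg.Agent.S4955

open Cfsg.Agent.Lib.Char
open scoped ComplexConjugate

/-- `k(G)` is invariant under isomorphism. -/
theorem card_conjClasses_congr {A B : Type*} [Group A] [Group B] (e : A ≃* B) :
    Nat.card (ConjClasses A) = Nat.card (ConjClasses B) := by
  refine Nat.card_congr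
    { toFun := ConjClasses.map e.toMonoidHom
      invFun := ConjClasses.map e.symm.toMonoidHom
      left_inv := ?_
      right_inv := ?_ }
  · intro C
    obtain ⟨g, rfl⟩ := ConjClasses.mk_surjective C
    show ConjClasses.mk (e.symm (e g)) = _
    simp
  · intro C
    obtain ⟨g, rfl⟩ := ConjClasses.mk_surjective C
    show ConjClasses.mk (e (e.symm g)) = _
    simp

/-- Let X be a finite group with an abelian normal Sylow p-subgroup V (a normal p-subgroup of index prime to p in which any two elements commute), and let G be a complement to V in X. Then for every v in V, writing C for the centralizer of v in G, the number k(X) of conjugacy classes of X satisfies k(X) ≤ (order of C)·(order of V) − ((order of G) − k(G)); the statement is written with the subtracted term moved to the left. In particular, if some v in V is centralized by no nonidentity element of G, then k(X) is at most the order of V. -/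
theorem result {X : Type*} [Group X] [Finite X] (p : ℕ) [Fact p.Prime] (V : Subgroup X) [V.Normal] (hVp : IsPGroup p V) (hidx : ¬ p ∣ V.index) (hab : ∀ a ∈ V, ∀ b ∈ V, a * b = b * a) (G : Subgroup X) (hGV : Subgroup.IsComplement' V G) (v : X) (hv : v ∈ V) : Nat.card (ConjClasses X) + Nat.card G ≤ Nat.card ↥(G ⊓ Subgroup.centralizer ({v} : Set X)) * Nat.card V + Nat.card (ConjClasses G) := by
  classical
  cases nonempty_fintype X
  haveI : Fintype V := Fintype.ofFinite _
  haveI : Fintype (X ⧸ V) := Fintype.ofFinite _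
  let FA : Finset (IrrCharacter X) := Finset.univ.filter (fun χ => V ≤ charKer (χ : X → ℂ))
  let FB : Finset (IrrCharacter X) := Finset.univ.filter (fun χ => ¬ V ≤ charKer (χ : X → ℂ))
  let S : Finset X := Finset.univ.filter (fun x => ∃ k : ℕ, k.Coprime (Nat.card X) ∧ x = v ^ k)
  have hSne : 0 < S.card := by
    apply Finset.card_pos.mpr
    exact ⟨v, Finset.mem_filter.mpr ⟨Finset.mem_univ _, 1, Nat.coprime_one_left _, (pow_one v).symm⟩⟩
  have hSV : ∀ x ∈ S, x ∈ V := by
    intro x hx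
    obtain ⟨-, k, -, rfl⟩ := Finset.mem_filter.mp hx
    exact V.pow_mem hv k
  have hSclosed : ∀ k : ℕ, k.Coprime (Nat.card X) → ∀ x ∈ S, x ^ k ∈ S := by
    intro k hk x hx
    obtain ⟨-, j, hj, rfl⟩ := Finset.mem_filter.mp hx
    refine Finset.mem_filter.mpr ⟨Finset.mem_univ _, j * k, Nat.Coprime.mul_left hj hk, ?_⟩
    rw [pow_mul]
  -- centralizers of the elements of `S`
  have hcent : ∀ x ∈ S, G ⊓ Subgroup.centralizer ({x} : Set X) = G ⊓ Subgroup.centralizer ({v} : Set X) := by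
    intro x hx
    obtain ⟨-, k, hk, rfl⟩ := Finset.mem_filter.mp hx
    ext g
    simp only [Subgroup.mem_inf, Subgroup.mem_centralizer_singleton_iff]
    constructor
    · rintro ⟨hg, h⟩
      refine ⟨hg, ?_⟩
      have hcomm : Commute g (v ^ k) := h
      have h1 : v = (v ^ k) ^ (Nat.gcdA k (Nat.card X)) := by
        have h2 := Nat.gcd_eq_gcd_ab k (Nat.card X)
        rw [Nat.Coprime.gcd_eq_one hk] at h2
        have h3 : v ^ (((1 : ℕ) : ℤ)) = v ^ ((k : ℤ) * Nat.gcdA k (Nat.card X) + (Nat.card X : ℤ) * Nat.gcdB k (Nat.card X)) := by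
          rw [h2]
        rw [zpow_add, zpow_mul, zpow_mul, zpow_natCast, zpow_natCast, zpow_natCast] at h3
        have h4 : v ^ Nat.card X = 1 := pow_card_eq_one'
        rw [h4, one_zpow, mul_one] at h3
        simpa using h3
      have h2 : Commute g ((v ^ k) ^ (Nat.gcdA k (Nat.card X))) := hcomm.zpow_right _
      rw [← h1] at h2
      exact h2
    · rintro ⟨hg, h⟩
      have hcomm : Commute g v := h
      exact ⟨hg, (hcomm.pow_right k).eq⟩
  -- order of the centralizer
  have hcard : ∀ x ∈ S, Nat.card (Subgroup.centralizer ({x} : Set X)) =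
      Nat.card (G ⊓ Subgroup.centralizer ({v} : Set X) : Subgroup X) * Nat.card V := by
    intro x hx
    rw [← hcent x hx, mul_comm, ← Nat.card_prod]
    have hxV := hSV x hx
    let e : ↥V × ↥(G ⊓ Subgroup.centralizer ({x} : Set X)) → ↥(Subgroup.centralizer ({x} : Set X)) :=
      fun q => ⟨(q.1 : X) * q.2, Subgroup.mul_mem _
        (Subgroup.mem_centralizer_singleton_iff.mpr (hab _ q.1.2 _ hxV)) q.2.2.2⟩
    have he : Function.Bijective e := by
      constructor
      · rintro ⟨a, b⟩ ⟨a', b'⟩ h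
        have h1 : (a : X) * b = a' * b' := congrArg Subtype.val h
        have h2 := (hGV.existsUnique ((a : X) * b)).unique (y₁ := (⟨a, a.2⟩, ⟨b, b.2.1⟩))
          (y₂ := (⟨a', a'.2⟩, ⟨b', b'.2.1⟩)) rfl h1.symm
        have h3 : (a : X) = a' := congrArg (fun q : ↥(V : Set X) × ↥(G : Set X) => (q.1 : X)) h2
        have h4 : (b : X) = b' := congrArg (fun q : ↥(V : Set X) × ↥(G : Set X) => (q.2 : X)) h2
        exact Prod.ext (Subtype.ext h3) (Subtype.ext h4)
      · rintro ⟨y, hy⟩
        obtain ⟨⟨a, b⟩, hab', -⟩ := hGV.existsUnique y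
        have h1 : (a : X) * b = y := hab'
        have h2 : (b : X) ∈ Subgroup.centralizer ({x} : Set X) := by
          have h3 : (b : X) = (a : X)⁻¹ * y := by rw [← h1]; group
          rw [h3]
          exact Subgroup.mul_mem _ (Subgroup.inv_mem _
            (Subgroup.mem_centralizer_singleton_iff.mpr (hab _ a.2 _ hxV))) hy
        exact ⟨(⟨a, a.2⟩, ⟨b, b.2, h2⟩), Subtype.ext h1⟩
    exact (Nat.card_congr (Equiv.ofBijective e he)).symm
  -- second orthogonality
  have hnormsq : ∀ z : ℂ, z * conj z = ((‖z‖ ^ 2 : ℝ) : ℂ) := by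
    intro z
    rw [Complex.mul_conj, Complex.normSq_eq_norm_sq]
  have hsum : ∀ x ∈ S, ∑ χ : IrrCharacter X, ‖(χ : X → ℂ) x‖ ^ 2 =
      (Nat.card (G ⊓ Subgroup.centralizer ({v} : Set X) : Subgroup X) : ℝ) * (Nat.card V : ℝ) := by
    intro x hx
    have h1 := sum_irr_mul_conj_of_isConj (IsConj.refl x)
    rw [hcard x hx] at h1
    simp only [hnormsq] at h1
    have h2 : ((∑ χ : IrrCharacter X, ‖(χ : X → ℂ) x‖ ^ 2 : ℝ) : ℂ) =
        (((Nat.card (G ⊓ Subgroup.centralizer ({v} : Set X) : Subgroup X) : ℝ) * (Nat.card V : ℝ) : ℝ) : ℂ) := by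
      push_cast
      push_cast at h1
      exact h1
    exact_mod_cast h2
  -- the characters with `V` in the kernel
  let ι : IrrCharacter (X ⧸ V) → {χ : IrrCharacter X // V ≤ charKer (χ : X → ℂ)} := fun β =>
    ⟨⟨inflate V (β : X ⧸ V → ℂ), isIrrCharacter_inflate V β.2⟩,
      le_charKer_inflate V (IsIrrCharacter.isCharacter β.2)⟩
  have hι : Function.Bijective ι := by
    constructor
    · intro β β' h
      apply Subtype.ext
      apply inflate_injective V
      exact congrArg (fun q : {χ : IrrCharacter X // V ≤ charKer (χ : X → ℂ)} => (q.1 : X → ℂ)) h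
    · rintro ⟨χ, hχ⟩
      obtain ⟨β, hβ, hβe⟩ := exists_deflate V χ.2 hχ
      exact ⟨⟨β, hβ⟩, Subtype.ext (Subtype.ext hβe.symm)⟩
  have hFA : FA.card = Nat.card (ConjClasses G) := by
    have h1 : Nat.card {χ : IrrCharacter X // V ≤ charKer (χ : X → ℂ)} = Nat.card (IrrCharacter (X ⧸ V)) :=
      (Nat.card_congr (Equiv.ofBijective ι hι)).symm
    rw [card_irr_eq_card_conjClasses, card_conjClasses_congr hGV.symm.QuotientMulEquiv] at h1
    rw [← h1, Nat.card_eq_fintype_card, Fintype.card_subtype]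
  have hFAsum : ∀ x ∈ S, ∑ χ ∈ FA, ‖(χ : X → ℂ) x‖ ^ 2 = (Nat.card G : ℝ) := by
    intro x hx
    have hxV := hSV x hx
    have h1 : ∀ χ ∈ FA, ‖(χ : X → ℂ) x‖ ^ 2 = ‖(χ : X → ℂ) 1‖ ^ 2 := by
      intro χ hχ
      have h2 := (Finset.mem_filter.mp hχ).2 hxV
      rw [mem_charKer (IsIrrCharacter.isCharacter χ.2)] at h2
      rw [h2]
    rw [Finset.sum_congr rfl h1]
    have h3 : ∑ χ ∈ FA, ‖(χ : X → ℂ) 1‖ ^ 2 = ∑ χ : {χ : IrrCharacter X // V ≤ charKer (χ : X → ℂ)}, ‖((χ.1 : IrrCharacter X) : X → ℂ) 1‖ ^ 2 := by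
      exact Finset.sum_subtype FA (fun χ => by simp [FA]) _
    rw [h3, ← Fintype.sum_equiv (Equiv.ofBijective ι hι) (fun β => ‖((β : IrrCharacter (X ⧸ V)) : X ⧸ V → ℂ) 1‖ ^ 2) _ (fun β => rfl)]
    have h4 := sum_irr_degree_sq (G := X ⧸ V)
    have h5 : Nat.card (X ⧸ V) = Nat.card G := Nat.card_congr hGV.symm.QuotientMulEquiv.toEquiv
    rw [h5] at h4
    have h6 : ∀ β : IrrCharacter (X ⧸ V), ((‖(β : X ⧸ V → ℂ) 1‖ ^ 2 : ℝ) : ℂ) = (β : X ⧸ V → ℂ) 1 ^ 2 := by
      intro β
      obtain ⟨n, hn⟩ := IsCharacter.apply_one (IsIrrCharacter.isCharacter β.2)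
      rw [hn]
      simp
    have h7 : ((∑ β : IrrCharacter (X ⧸ V), ‖(β : X ⧸ V → ℂ) 1‖ ^ 2 : ℝ) : ℂ) = ((Nat.card G : ℝ) : ℂ) := by
      rw [Complex.ofReal_sum]
      simp only [h6]
      rw [h4]
      simp
    exact_mod_cast h7
  -- nonvanishing
  have hne : ∀ (χ : IrrCharacter X), ∀ x ∈ S, (χ : X → ℂ) x ≠ 0 := by
    intro χ x hx h0
    have hxV := hSV x hx
    obtain ⟨j, hj⟩ := hVp ⟨x, hxV⟩
    have hj' : x ^ (p ^ j) = 1 := by
      have := congrArg Subtype.val hj
      simpa using this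
    have h1 := Cfsg.Agent.Lib.H8Group.dvd_charDegree_of_apply_eq_zero (IsIrrCharacter.isCharacter χ.2) hj' h0
    have h2 := charDegree_dvd_index_of_abelian_normal χ.2 V hab
    exact hidx (h1.trans h2)
  -- the estimate
  have hB : (FB.card : ℝ) * (S.card : ℝ) ≤ ∑ χ ∈ FB, ∑ x ∈ S, ‖(χ : X → ℂ) x‖ ^ 2 := by
    rw [← nsmul_eq_mul, ← Finset.sum_const]
    refine Finset.sum_le_sum fun χ _ => ?_
    exact card_le_sum_norm_sq (IsIrrCharacter.isCharacter χ.2) S hSclosed (hne χ)
  have hsplit : ∀ x ∈ S, ∑ χ ∈ FB, ‖(χ : X → ℂ) x‖ ^ 2 =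
      (Nat.card (G ⊓ Subgroup.centralizer ({v} : Set X) : Subgroup X) : ℝ) * (Nat.card V : ℝ) - (Nat.card G : ℝ) := by
    intro x hx
    rw [← hsum x hx, ← hFAsum x hx, eq_sub_iff_add_eq, add_comm]
    exact Finset.sum_filter_add_sum_filter_not _ _ _
  rw [Finset.sum_comm, Finset.sum_congr rfl hsplit, Finset.sum_const, nsmul_eq_mul, mul_comm] at hB
  have hS0 : (0 : ℝ) < (S.card : ℝ) := by exact_mod_cast hSne
  have hB' := le_of_mul_le_mul_left hB hS0
  have hcardsplit : FA.card + FB.card = Nat.card (ConjClasses X) := by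
    rw [← card_irr_eq_card_conjClasses, Nat.card_eq_fintype_card, ← Finset.card_univ]
    exact Finset.card_filter_add_card_filter_not _
  have h9 : ((Nat.card (ConjClasses X) + Nat.card G : ℕ) : ℝ) ≤
      ((Nat.card ↥(G ⊓ Subgroup.centralizer ({v} : Set X)) * Nat.card V + Nat.card (ConjClasses G) : ℕ) : ℝ) := by
    push_cast
    rw [← hcardsplit, ← hFA]
    push_cast
    linarith
  exact_mod_cast h9

end Cfsg.Agent.S4955
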