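import Cfsg.Statements.S4956
import Mathlib.Tactic.Group
import Mathlib.GroupTheory.OrderOfElement
import Mathlib.GroupTheory.Index
import Mathlib.Algebra.BigOperators.Group.Finset.Sigma
import Mathlib.SetTheory.Cardinal.Finite
import Mathlib.GroupTheory.Subgroup.Centralizer

set_option autoImplicit false
open Cfsg

namespace Cfsg.Agent.S4956

section

variable {X : Type*} [Group X]

/-- The commutator map `u ↦ [u, c]` on an abelian normal subgroup. -/
def tauHom (V : Subgroup X) [hV : V.Normal] (hab : ∀ a ∈ V, ∀ b ∈ V, a * b = b * a) (c : X) : ↥V →* ↥V where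
  toFun u := ⟨(u : X) * c * (u : X)⁻¹ * c⁻¹, by
    have h1 : (u : X) * c * (u : X)⁻¹ * c⁻¹ = (u : X) * (c * (u : X)⁻¹ * c⁻¹) := by group
    rw [h1]
    exact V.mul_mem u.2 (hV.conj_mem _ (V.inv_mem u.2) _)⟩
  map_one' := by
    apply Subtype.ext
    simp
  map_mul' u v := by
    apply Subtype.ext
    have hA : c * (u : X)⁻¹ * c⁻¹ ∈ V := hV.conj_mem _ (V.inv_mem u.2) _
    have hB : c * (v : X)⁻¹ * c⁻¹ ∈ V := hV.conj_mem _ (V.inv_mem v.2) _
    have h1 := hab _ (V.mul_mem v.2 hB) _ hA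
    show ((u : X) * v) * c * ((u : X) * v)⁻¹ * c⁻¹ =
      ((u : X) * c * (u : X)⁻¹ * c⁻¹) * ((v : X) * c * (v : X)⁻¹ * c⁻¹)
    calc ((u : X) * v) * c * ((u : X) * v)⁻¹ * c⁻¹
        = (u : X) * (((v : X) * (c * (v : X)⁻¹ * c⁻¹)) * (c * (u : X)⁻¹ * c⁻¹)) := by group
      _ = (u : X) * ((c * (u : X)⁻¹ * c⁻¹) * ((v : X) * (c * (v : X)⁻¹ * c⁻¹))) := by rw [h1]
      _ = _ := by group

theorem tau_disjoint (V : Subgroup X) (c u y : X) [Finite V] (hy : y ∈ V) (h1 : y = u * c * u⁻¹ * c⁻¹) (h2 : c * y = y * c)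
    (hcop : (orderOf c).Coprime (Nat.card V)) (hc : 0 < orderOf c) : y = 1 := by
  have h3 : c * u * c⁻¹ = y⁻¹ * u := by
    rw [h1]; group
  have h4 : ∀ i : ℕ, c ^ i * u * (c ^ i)⁻¹ = (y ^ i)⁻¹ * u := by
    intro i
    induction i with
    | zero => simp
    | succ n ih =>
      have h5 : c ^ (n + 1) * u * (c ^ (n + 1))⁻¹ = c * (c ^ n * u * (c ^ n)⁻¹) * c⁻¹ := by
        rw [pow_succ']
        group
      rw [h5, ih]
      have h6 : c * (y ^ n)⁻¹ = (y ^ n)⁻¹ * c := by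
        have : Commute c y := h2
        exact ((this.pow_right n).inv_right).eq
      calc c * ((y ^ n)⁻¹ * u) * c⁻¹ = (c * (y ^ n)⁻¹) * u * c⁻¹ := by group
        _ = (y ^ n)⁻¹ * (c * u * c⁻¹) := by rw [h6]; group
        _ = (y ^ (n + 1))⁻¹ * u := by rw [h3, pow_succ]; group
  have h5 := h4 (orderOf c)
  rw [pow_orderOf_eq_one] at h5
  simp only [one_mul, inv_one, mul_one] at h5
  have h6 : y ^ orderOf c = 1 := by
    have : (y ^ orderOf c)⁻¹ = 1 := by
      have h7 : (y ^ orderOf c)⁻¹ * u = u := h5.symm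
      exact mul_eq_right.mp h7
    exact inv_eq_one.mp this
  have h7 : orderOf y ∣ orderOf c := orderOf_dvd_of_pow_eq_one h6
  have h8 : orderOf y ∣ Nat.card V := by
    have := Subgroup.orderOf_dvd_natCard V hy
    exact this
  have h9 : orderOf y = 1 := Nat.eq_one_of_dvd_coprimes hcop h7 h8
  exact orderOf_eq_one_iff.mp h9

theorem tau_decomp (V : Subgroup X) [hV : V.Normal] [Finite V] (hab : ∀ a ∈ V, ∀ b ∈ V, a * b = b * a) (c : X)
    (hcop : (orderOf c).Coprime (Nat.card V)) (hc : 0 < orderOf c) (v : X) (hv : v ∈ V) :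
    ∃ w ∈ V, ∃ u ∈ V, c * w = w * c ∧ v = w * (u * c * u⁻¹ * c⁻¹) := by
  classical
  set τ := tauHom V hab c with hτ
  have hτa : ∀ u : ↥V, ((τ u : ↥V) : X) = (u : X) * c * (u : X)⁻¹ * c⁻¹ := fun _ => rfl
  have hker : ∀ u : ↥V, u ∈ τ.ker ↔ c * (u : X) = u * c := by
    intro u
    rw [MonoidHom.mem_ker, Subtype.ext_iff, hτa]
    constructor
    · intro h
      have h1 : (u : X) * c * (u : X)⁻¹ * c⁻¹ = 1 := h
      have h2 : (u : X) * c = c * u := by
        have h3 : (u : X) * c * (u : X)⁻¹ = c := by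
          have := mul_inv_eq_one.mp h1
          exact this
        exact mul_inv_eq_iff_eq_mul.mp h3
      exact h2.symm
    · intro h
      show (u : X) * c * (u : X)⁻¹ * c⁻¹ = 1
      rw [← h]
      group
  have hdis : Disjoint τ.ker τ.range := by
    rw [Subgroup.disjoint_def]
    intro y hy1 hy2
    obtain ⟨u, hu⟩ := hy2
    apply Subtype.ext
    show (y : X) = 1
    apply tau_disjoint V c u y y.2 _ ((hker y).mp hy1) hcop hc
    rw [← hu]
    rfl
  have hcard : Nat.card τ.ker * Nat.card τ.range = Nat.card ↥V := by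
    rw [← Subgroup.index_ker τ, mul_comm, Subgroup.index_mul_card]
  have hcompl := Subgroup.isComplement'_of_card_mul_and_disjoint hcard hdis
  obtain ⟨⟨w, y⟩, hwy, -⟩ := hcompl.existsUnique ⟨v, hv⟩
  obtain ⟨u, hu⟩ := y.2
  refine ⟨w.1, w.1.2, u, u.2, (hker w.1).mp w.2, ?_⟩
  have h1 : ((w.1 : ↥V) : X) * ((y.1 : ↥V) : X) = v := congrArg Subtype.val hwy
  rw [← h1, ← hu]
  rfl

end

/-- Let X be a finite group, V an abelian normal subgroup of X (any two elements of V commute) and G a complement to V in X whose order is coprime to that of V. Let S be a set of representatives of the orbits of G on V under conjugation: S lies in V and every element of V is conjugate under G to exactly one member of S. Then the number of conjugacy classes of X equals the sum, over s in S, of the number of conjugacy classes of the centralizer of s in G. -/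
theorem result {X : Type*} [Group X] [Finite X] (V : Subgroup X) [V.Normal] (hab : ∀ a ∈ V, ∀ b ∈ V, a * b = b * a) (G : Subgroup X) (hGV : Subgroup.IsComplement' V G) (hcop : (Nat.card V).Coprime (Nat.card G)) (S : Finset X) (hSV : ∀ s ∈ S, s ∈ V) (hrep : ∀ v ∈ V, ∃! s, s ∈ S ∧ ∃ g ∈ G, g * v * g⁻¹ = s) : Nat.card (ConjClasses X) = ∑ s ∈ S, Nat.card (ConjClasses ↥(G ⊓ Subgroup.centralizer ({s} : Set X))) := by
  classical
  cases nonempty_fintype X
  have hVn : V.Normal := inferInstance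
  have hmulG : ∀ x : X, ∃ v ∈ V, ∃ g ∈ G, v * g = x := by
    intro x
    obtain ⟨⟨a, b⟩, hab', -⟩ := hGV.existsUnique x
    exact ⟨a.1, a.2, b.1, b.2, hab'⟩
  have huniq : ∀ v ∈ V, ∀ g ∈ G, ∀ v' ∈ V, ∀ g' ∈ G, v * g = v' * g' → v = v' ∧ g = g' := by
    intro v hv g hg v' hv' g' hg' h
    have h1 := (hGV.existsUnique (v * g)).unique (y₁ := (⟨v, hv⟩, ⟨g, hg⟩)) (y₂ := (⟨v', hv'⟩, ⟨g', hg'⟩)) rfl h.symm
    exact ⟨congrArg (fun x : ↥(V : Set X) × ↥(G : Set X) => (x.1 : X)) h1,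
      congrArg (fun x : ↥(V : Set X) × ↥(G : Set X) => (x.2 : X)) h1⟩
  have hcopG : ∀ c ∈ G, (orderOf c).Coprime (Nat.card V) := fun c hc =>
    (Nat.Coprime.coprime_dvd_right (Subgroup.orderOf_dvd_natCard G hc) hcop).symm
  have hpos : ∀ c : X, 0 < orderOf c := fun c => orderOf_pos c
  -- the map on classes
  let lift : ∀ s : X, ConjClasses ↥(G ⊓ Subgroup.centralizer ({s} : Set X)) → ConjClasses X := fun s =>
    Quotient.lift (fun c : ↥(G ⊓ Subgroup.centralizer ({s} : Set X)) => ConjClasses.mk (s * (c : X))) (by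
      intro a b hab'
      obtain ⟨c, hc⟩ := isConj_iff.mp hab'
      apply ConjClasses.mk_eq_mk_iff_isConj.mpr
      rw [isConj_iff]
      refine ⟨(c : X), ?_⟩
      have h1 : (c : X) * s = s * c := by
        have := Subgroup.mem_centralizer_iff.mp (c.2.2) s (Set.mem_singleton s)
        exact this.symm
      have h2 : (c : X) * a * (c : X)⁻¹ = b := congrArg Subtype.val hc
      rw [← h2]
      calc (c : X) * (s * a) * (c : X)⁻¹ = ((c : X) * s) * a * (c : X)⁻¹ := by group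
        _ = s * ((c : X) * a * (c : X)⁻¹) := by rw [h1]; group)
  have hlift : ∀ (s : X) (c : ↥(G ⊓ Subgroup.centralizer ({s} : Set X))),
      lift s (ConjClasses.mk c) = ConjClasses.mk (s * (c : X)) := fun _ _ => rfl
  let T := Σ s : {s // s ∈ S}, ConjClasses ↥(G ⊓ Subgroup.centralizer ({s.1} : Set X))
  let f : T → ConjClasses X := fun t => lift t.1.1 t.2
  have hrepr : ∀ v ∈ V, ∃ s ∈ S, ∃ g ∈ G, g * v * g⁻¹ = s := by
    intro v hv
    obtain ⟨s, ⟨hs, g, hg, h⟩, -⟩ := hrep v hv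
    exact ⟨s, hs, g, hg, h⟩
  have hrepu : ∀ v ∈ V, ∀ s ∈ S, ∀ s' ∈ S, (∃ g ∈ G, g * v * g⁻¹ = s) → (∃ g ∈ G, g * v * g⁻¹ = s') → s = s' := by
    intro v hv s hs s' hs' h1 h2
    exact (hrep v hv).unique ⟨hs, h1⟩ ⟨hs', h2⟩
  have hbij : Function.Bijective f := by
    constructor
    · -- injective
      rintro ⟨⟨s₁, hs₁⟩, C₁⟩ ⟨⟨s₂, hs₂⟩, C₂⟩ hf
      obtain ⟨c₁, rfl⟩ := ConjClasses.mk_surjective C₁
      obtain ⟨c₂, rfl⟩ := ConjClasses.mk_surjective C₂
      have hf' : ConjClasses.mk (s₁ * (c₁ : X)) = ConjClasses.mk (s₂ * (c₂ : X)) := hf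
      obtain ⟨y, hy⟩ := isConj_iff.mp (ConjClasses.mk_eq_mk_iff_isConj.mp hf')
      obtain ⟨u, hu, h, hh, rfl⟩ := hmulG y
      have hs₁V := hSV s₁ hs₁
      have hs₂V := hSV s₂ hs₂
      have hc₁G : (c₁ : X) ∈ G := c₁.2.1
      have hc₂G : (c₂ : X) ∈ G := c₂.2.1
      have hc₁s : (c₁ : X) * s₁ = s₁ * c₁ := (Subgroup.mem_centralizer_iff.mp c₁.2.2 s₁ (Set.mem_singleton s₁)).symm
      have hc₂s : (c₂ : X) * s₂ = s₂ * c₂ := (Subgroup.mem_centralizer_iff.mp c₂.2.2 s₂ (Set.mem_singleton s₂)).symm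
      set s' := h * s₁ * h⁻¹ with hs'
      set c' := h * (c₁ : X) * h⁻¹ with hc'
      have hs'V : s' ∈ V := hVn.conj_mem _ hs₁V _
      have hc'G : c' ∈ G := G.mul_mem (G.mul_mem hh hc₁G) (G.inv_mem hh)
      have hcomm' : c' * s' = s' * c' := by
        rw [hs', hc']
        calc h * (c₁ : X) * h⁻¹ * (h * s₁ * h⁻¹) = h * ((c₁ : X) * s₁) * h⁻¹ := by group
          _ = h * (s₁ * c₁) * h⁻¹ := by rw [hc₁s]
          _ = _ := by group
      have h1 : (s' * (u * c' * u⁻¹ * c'⁻¹)) * c' = s₂ * (c₂ : X) := by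
        rw [← hy, hs', hc']
        have h9 : u * s' = s' * u := hab _ hu _ hs'V
        rw [hs'] at h9
        calc (h * s₁ * h⁻¹ * (u * (h * (c₁ : X) * h⁻¹) * u⁻¹ * (h * (c₁ : X) * h⁻¹)⁻¹)) * (h * (c₁ : X) * h⁻¹)
            = (h * s₁ * h⁻¹ * u) * (h * (c₁ : X) * h⁻¹) * u⁻¹ := by group
          _ = (u * (h * s₁ * h⁻¹)) * (h * (c₁ : X) * h⁻¹) * u⁻¹ := by rw [h9]
          _ = _ := by group
      have hτmem : u * c' * u⁻¹ * c'⁻¹ ∈ V := by
        have h2 : u * c' * u⁻¹ * c'⁻¹ = u * (c' * u⁻¹ * c'⁻¹) := by group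
        rw [h2]
        exact V.mul_mem hu (hVn.conj_mem _ (V.inv_mem hu) _)
      obtain ⟨h2, h3⟩ := huniq _ (V.mul_mem hs'V hτmem) _ hc'G _ hs₂V _ hc₂G h1
      -- `c' = c₂`
      have hcomm2 : (c₂ : X) * s' = s' * c₂ := by rw [← h3]; exact hcomm'
      have hτ : u * (c₂ : X) * u⁻¹ * (c₂ : X)⁻¹ = s'⁻¹ * s₂ := by
        rw [← h3]
        exact eq_inv_mul_of_mul_eq h2
      have hτ1 : s'⁻¹ * s₂ = 1 := by
        apply tau_disjoint V (c₂ : X) u _ (V.mul_mem (V.inv_mem hs'V) hs₂V) hτ.symm _ (hcopG _ hc₂G) (hpos _)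
        have h4 : Commute (c₂ : X) s'⁻¹ := (show Commute (c₂ : X) s' from hcomm2).inv_right
        have h5 : Commute (c₂ : X) s₂ := hc₂s
        exact (h4.mul_right h5).eq
      have hs'eq : s' = s₂ := by
        have := mul_eq_one_iff_eq_inv'.mp hτ1 
        simpa using this.symm
      have hsame : s₁ = s₂ := by
        apply hrepu s₁ hs₁V s₁ hs₁ s₂ hs₂ ⟨1, G.one_mem, by simp⟩ ⟨h, hh, ?_⟩
        exact hs'eq
      subst hsame
      have hhC : h ∈ G ⊓ Subgroup.centralizer ({s₁} : Set X) := by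
        refine ⟨hh, Subgroup.mem_centralizer_iff.mpr ?_⟩
        intro x hx
        rw [Set.mem_singleton_iff] at hx
        subst hx
        have h6 : h * x * h⁻¹ = x := hs'eq
        exact (mul_inv_eq_iff_eq_mul.mp h6).symm
      have hconj : ConjClasses.mk c₁ = ConjClasses.mk c₂ := by
        apply ConjClasses.mk_eq_mk_iff_isConj.mpr
        rw [isConj_iff]
        refine ⟨⟨h, hhC⟩, Subtype.ext ?_⟩
        exact h3
      show (⟨⟨s₁, hs₁⟩, ConjClasses.mk c₁⟩ : T) = ⟨⟨s₁, hs₂⟩, ConjClasses.mk c₂⟩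
      rw [hconj]
    · -- surjective
      intro C
      obtain ⟨x, rfl⟩ := ConjClasses.mk_surjective C
      obtain ⟨v, hv, c, hc, rfl⟩ := hmulG x
      obtain ⟨w, hw, u, hu, hcw, hvw⟩ := tau_decomp V hab c (hcopG c hc) (hpos c) v hv
      obtain ⟨s, hs, g, hg, hgw⟩ := hrepr w hw
      have hcomm : (g * c * g⁻¹) * s = s * (g * c * g⁻¹) := by
        rw [← hgw]
        calc g * c * g⁻¹ * (g * w * g⁻¹) = g * (c * w) * g⁻¹ := by group
          _ = g * (w * c) * g⁻¹ := by rw [hcw]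
          _ = _ := by group
      let c' : ↥(G ⊓ Subgroup.centralizer ({s} : Set X)) :=
        ⟨g * c * g⁻¹, G.mul_mem (G.mul_mem hg hc) (G.inv_mem hg), Subgroup.mem_centralizer_iff.mpr (by
          intro y hy
          rw [Set.mem_singleton_iff] at hy
          rw [hy]
          exact hcomm.symm)⟩
      refine ⟨⟨⟨s, hs⟩, ConjClasses.mk c'⟩, ?_⟩
      show ConjClasses.mk (s * (g * c * g⁻¹)) = ConjClasses.mk (v * c)
      apply ConjClasses.mk_eq_mk_iff_isConj.mpr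
      rw [isConj_iff]
      refine ⟨u * g⁻¹, ?_⟩
      rw [← hgw, hvw]
      have h9 : u * w = w * u := hab _ hu _ hw
      calc u * g⁻¹ * (g * w * g⁻¹ * (g * c * g⁻¹)) * (u * g⁻¹)⁻¹ = (u * w) * c * u⁻¹ := by group
        _ = (w * u) * c * u⁻¹ := by rw [h9]
        _ = _ := by group
  have h1 : Nat.card (ConjClasses X) = Nat.card T := (Nat.card_congr (Equiv.ofBijective f hbij)).symm
  rw [h1]
  have h2 : Nat.card T = ∑ s : {s // s ∈ S}, Nat.card (ConjClasses ↥(G ⊓ Subgroup.centralizer ({s.1} : Set X))) :=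
    Nat.card_sigma
  rw [h2]
  exact Finset.sum_coe_sort S (fun s => Nat.card (ConjClasses ↥(G ⊓ Subgroup.centralizer ({s} : Set X))))

end Cfsg.Agent.S4956
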