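import Cfsg.Statements.S4964
import Cfsg.Agent.Lib.Blocks.Inflate
import Cfsg.Agent.Lib.Coprime.Action
import Cfsg.Agent.Lib.Basic.Frattini

set_option autoImplicit false
open Cfsg

namespace Cfsg.Agent.S4964

open Cfsg.Agent.Lib.Char Cfsg.Agent.Lib.Blocks
open scoped ComplexConjugate commutatorElement

universe u

variable {G : Type u} [Group G] [Fintype G] {p : ℕ} [hp : Fact p.Prime]

/-- Burnside: a `p`-regular element trivial on `D / D'` centralizes `D`. -/
theorem commute_of_commutator_mem (D : Subgroup G) [hDn : D.Normal] (hD : IsPGroup p D) {x : G}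
    (hreg : ¬ p ∣ orderOf x) (hcomm : ∀ d ∈ D, d * x * d⁻¹ * x⁻¹ ∈ ⁅D, D⁆) :
    ∀ d ∈ D, d * x = x * d := by
  classical
  have hact : Cfsg.Agent.Lib.Coprime.CoprimeAction (Subgroup.zpowers x) D := by
    refine ⟨?_, ?_, Or.inr ?_⟩
    · intro a _
      rw [Subgroup.normalizer_eq_top_iff.mpr hDn]
      trivial
    · rw [Nat.card_zpowers]
      obtain ⟨n, hn⟩ := IsPGroup.iff_card.mp hD
      rw [hn]
      exact Nat.Coprime.pow_right n ((Nat.Prime.coprime_iff_not_dvd Fact.out).mpr hreg).symm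
    · haveI := hD.isNilpotent
      infer_instance
  have hKD : ⁅D, D⁆ ≤ D := Subgroup.commutator_le_left D D
  have hfact : ∀ u ∈ D, ∃ n ∈ ⁅D, D⁆, ∃ c ∈ D ⊓ Subgroup.centralizer ((Subgroup.zpowers x : Subgroup G) : Set G),
      u = n * c := by
    intro u hu
    refine hact.exists_mul_centralizer hKD ?_ hu ?_
    · intro a _
      rw [Subgroup.normalizer_eq_top_iff.mpr inferInstance]
      trivial
    · intro a ha
      obtain ⟨k, rfl⟩ := Subgroup.mem_zpowers_iff.mp ha
      -- `u` commutes with `x` modulo `⁅D, D⁆`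
      have h1 : ((u : G) : G ⧸ ⁅D, D⁆) * (x : G ⧸ ⁅D, D⁆) = (x : G ⧸ ⁅D, D⁆) * (u : G ⧸ ⁅D, D⁆) := by
        have h2 := hcomm u hu
        rw [← QuotientGroup.eq_one_iff] at h2
        have h3 : (((u * x * u⁻¹ * x⁻¹ : G)) : G ⧸ ⁅D, D⁆) =
            (u : G ⧸ ⁅D, D⁆) * x * (u : G ⧸ ⁅D, D⁆)⁻¹ * (x : G ⧸ ⁅D, D⁆)⁻¹ := rfl
        rw [h3, mul_inv_eq_one, mul_inv_eq_iff_eq_mul] at h2
        exact h2
      have h4 : Commute ((u : G) : G ⧸ ⁅D, D⁆) (x : G ⧸ ⁅D, D⁆) := h1
      have h5 := h4.zpow_right k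
      rw [← QuotientGroup.eq_one_iff]
      have h6 : (((u * x ^ k * u⁻¹ * (x ^ k)⁻¹ : G)) : G ⧸ ⁅D, D⁆) =
          (u : G ⧸ ⁅D, D⁆) * ((x : G ⧸ ⁅D, D⁆) ^ k) * (u : G ⧸ ⁅D, D⁆)⁻¹ * ((x : G ⧸ ⁅D, D⁆) ^ k)⁻¹ := rfl
      rw [h6, mul_inv_eq_one, mul_inv_eq_iff_eq_mul]
      exact h5
  -- Frattini argument inside `D`
  haveI : Group.IsNilpotent D := hD.isNilpotent
  let H : Subgroup D := (Subgroup.centralizer ((Subgroup.zpowers x : Subgroup G) : Set G)).subgroupOf D
  have hmap : (commutator D).map D.subtype = ⁅D, D⁆ := by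
    exact Subgroup.map_subtype_commutator D
  have hsup : H ⊔ commutator D = ⊤ := by
    rw [eq_top_iff]
    intro u _
    obtain ⟨n, hn, c, hc, huc⟩ := hfact u u.2
    rw [← hmap] at hn
    obtain ⟨n₀, hn₀, rfl⟩ := hn
    have h1 : u = n₀ * ⟨c, hc.1⟩ := Subtype.ext huc
    rw [h1, sup_comm]
    refine Subgroup.mul_mem_sup hn₀ ?_
    exact hc.2
  have hHtop := Cfsg.Agent.Lib.Basic.eq_top_of_sup_eq_top_of_le_frattini
    (Cfsg.Agent.Lib.Basic.commutator_le_frattini_of_isNilpotent (G := D)) hsup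
  intro d hd
  have h1 : (⟨d, hd⟩ : D) ∈ H := by
    rw [hHtop]
    trivial
  exact (Subgroup.mem_centralizer_iff.mp h1 x (Subgroup.mem_zpowers x)).symm


/-- The index of the centralizer of a `p`-regular element centralizing `D`. -/
theorem index_centralizer_eq (D : Subgroup G) [hDn : D.Normal] (hD : IsPGroup p D) {x : G}
    (hreg : ¬ p ∣ orderOf x) (hx : ∀ d ∈ D, d * x = x * d) :
    (Subgroup.centralizer ({x} : Set G)).index =
      (Subgroup.centralizer ({(x : G ⧸ ⁅D, D⁆)} : Set (G ⧸ ⁅D, D⁆))).index := by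
  classical
  have hKD : ⁅D, D⁆ ≤ D := Subgroup.commutator_le_left D D
  have hcent : Subgroup.centralizer ({x} : Set G) =
      (Subgroup.centralizer ({(x : G ⧸ ⁅D, D⁆)} : Set (G ⧸ ⁅D, D⁆))).comap (QuotientGroup.mk' ⁅D, D⁆) := by
    ext y
    rw [Subgroup.mem_comap, Subgroup.mem_centralizer_singleton_iff,
      Subgroup.mem_centralizer_singleton_iff]
    constructor
    · intro h
      show ((y * x : G) : G ⧸ ⁅D, D⁆) = ((x * y : G) : G ⧸ ⁅D, D⁆)
      rw [h]
    · intro h
      have h1 : ((y * x : G) : G ⧸ ⁅D, D⁆) = ((x * y : G) : G ⧸ ⁅D, D⁆) := h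
      have h1' : ((x : G) : G ⧸ ⁅D, D⁆) = ((y * x * y⁻¹ : G) : G ⧸ ⁅D, D⁆) := by
        have e : ((y * x * y⁻¹ : G) : G ⧸ ⁅D, D⁆) = ((y * x : G) : G ⧸ ⁅D, D⁆) * (y : G ⧸ ⁅D, D⁆)⁻¹ := rfl
        rw [e, h1]
        have e2 : ((x * y : G) : G ⧸ ⁅D, D⁆) = (x : G ⧸ ⁅D, D⁆) * (y : G ⧸ ⁅D, D⁆) := rfl
        rw [e2, mul_assoc, mul_inv_cancel, mul_one]
      have h2 : x⁻¹ * (y * x * y⁻¹) ∈ ⁅D, D⁆ := QuotientGroup.eq.mp h1'
      set u := x⁻¹ * (y * x * y⁻¹) with hu
      have huD : u ∈ D := hKD h2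
      have hxu : Commute x u := (hx u huD).symm
      obtain ⟨k, hk⟩ := (IsPGroup.iff_orderOf.mp hD) ⟨u, huD⟩
      rw [Subgroup.orderOf_mk] at hk
      have hco : Nat.Coprime (orderOf x) (orderOf u) := by
        rw [hk]
        exact Nat.Coprime.pow_right k ((Nat.Prime.coprime_iff_not_dvd Fact.out).mpr hreg).symm
      have h3 := hxu.orderOf_mul_eq_mul_orderOf_of_coprime hco
      have h4 : x * u = y * x * y⁻¹ := by
        rw [hu]
        group
      have h5 : orderOf (x * u) = orderOf x := by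
        rw [h4]
        have := orderOf_injective (MulAut.conj y).toMonoidHom (MulAut.conj y).injective x
        simpa [MulAut.conj_apply] using this
      rw [h5] at h3
      have h6 : orderOf u = 1 := by
        have h7 : 0 < orderOf x := orderOf_pos x
        exact (Nat.eq_of_mul_eq_mul_left h7 (by rw [mul_one]; exact h3 : orderOf x * 1 = orderOf x * orderOf u)).symm
      have h8 : u = 1 := orderOf_eq_one_iff.mp h6
      rw [h8, mul_one] at h4
      exact (mul_inv_eq_iff_eq_mul.mp h4.symm).symm ▸ rfl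
  rw [hcent]
  exact Subgroup.index_comap_of_surjective _ (QuotientGroup.mk'_surjective _)

/-- The central character of an inflation. -/
theorem centralChar_inflate_dvd (K : Subgroup G) [K.Normal] (g : G) :
    ∃ r : ℕ, ∀ β : G ⧸ K → ℂ, centralChar (β ∘ QuotientGroup.mk) g = r * centralChar β (g : G ⧸ K) := by
  have h1 : Subgroup.centralizer ({g} : Set G) ≤
      (Subgroup.centralizer ({(g : G ⧸ K)} : Set (G ⧸ K))).comap (QuotientGroup.mk' K) := by
    intro y hy
    rw [Subgroup.mem_comap, Subgroup.mem_centralizer_singleton_iff]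
    have h2 : y * g = g * y := Subgroup.mem_centralizer_singleton_iff.mp hy
    show ((y * g : G) : G ⧸ K) = ((g * y : G) : G ⧸ K)
    rw [h2]
  obtain ⟨r, hr⟩ := Subgroup.index_dvd_of_le h1
  rw [Subgroup.index_comap_of_surjective _ (QuotientGroup.mk'_surjective _)] at hr
  refine ⟨r, fun β => ?_⟩
  simp only [centralChar, Function.comp_apply, QuotientGroup.mk_one]
  rw [hr]
  push_cast
  ring

/-- The centralizer of a normal subgroup is normal, elementwise. -/
theorem mem_centralizer_of_isConj {H : Type*} [Group H] (P : Subgroup H) [hP : P.Normal] {g x : H}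
    (hx : IsConj g x) (hxC : x ∈ Subgroup.centralizer (P : Set H)) :
    g ∈ Subgroup.centralizer (P : Set H) := by
  obtain ⟨c, rfl⟩ := isConj_iff.mp hx
  rw [Subgroup.mem_centralizer_iff] at hxC ⊢
  intro u hu
  have h1 := hxC (c * u * c⁻¹) (hP.conj_mem u hu c)
  have h2 : c * (u * g) * c⁻¹ = c * (g * u) * c⁻¹ := by
    calc c * (u * g) * c⁻¹ = c * u * c⁻¹ * (c * g * c⁻¹) := by group
      _ = c * g * c⁻¹ * (c * u * c⁻¹) := h1
      _ = c * (g * u) * c⁻¹ := by group
  exact mul_left_cancel (mul_right_cancel h2)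

/-- Let D be a normal p-subgroup of the finite group G, let D′ be its commutator subgroup (normal in G), and fix a maximal ideal M of the algebraic integers containing p. Then (i) two irreducible characters of G ⧸ D′ lie in the same p-block if and only if their inflations to G do, and (ii) every p-block of G contains the inflation of some irreducible character of G ⧸ D′; so inflation induces a bijection between the p-blocks of G ⧸ D′ and the p-blocks of G. -/
theorem result {G : Type*} [Group G] [Finite G] (p : ℕ) [Fact p.Prime] (M : Ideal Cfsg.AlgInt) (hM : Cfsg.IsPModular p M) (D : Subgroup G) [D.Normal] (hD : IsPGroup p D) : (∀ χ ψ : Cfsg.IrrCharacter (G ⧸ ⁅D, D⁆), Cfsg.SameBlock M (χ : G ⧸ ⁅D, D⁆ → ℂ) (ψ : G ⧸ ⁅D, D⁆ → ℂ) ↔ Cfsg.SameBlock M ((χ : G ⧸ ⁅D, D⁆ → ℂ) ∘ QuotientGroup.mk) ((ψ : G ⧸ ⁅D, D⁆ → ℂ) ∘ QuotientGroup.mk)) ∧ ∀ B : Set (Cfsg.IrrCharacter G), Cfsg.IsPBlock M B → ∃ χ : Cfsg.IrrCharacter (G ⧸ ⁅D, D⁆), ∃ θ ∈ B, (θ : G → ℂ) = (χ : G ⧸ ⁅D, D⁆ → ℂ) ∘ QuotientGroup.mk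 := by
  classical
  cases nonempty_fintype G
  have hprime := isPrime_of_modular hM
  set K := ⁅D, D⁆ with hK
  have hKD : K ≤ D := Subgroup.commutator_le_left D D
  letI : Fintype (G ⧸ K) := Fintype.ofFinite _
  refine ⟨?_, ?_⟩
  · intro β β'
    constructor
    · intro h g
      obtain ⟨r, hr⟩ := centralChar_inflate_dvd K g
      rw [hr, hr, ← mul_sub]
      exact MemLocalIdeal.mul_left (MemLocalRing.natCast _) (h _)
    · intro h
      set b := blockOf M (β : G ⧸ K → ℂ) with hbdef
      have hb : IsPBlock M b := isPBlock_blockOf β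
      have hc : indic b ∈ zS M (G ⧸ K) := indic_mem_zS hb
      have hDbar : (D.map (QuotientGroup.mk' K)).Normal :=
        Subgroup.Normal.map inferInstance _ (QuotientGroup.mk'_surjective K)
      have hDbarp : IsPGroup p (D.map (QuotientGroup.mk' K)) := hD.map _
      have hdiff : MemLocalIdeal M (indic b β - indic b β') := by
        rw [zS_apply_eq (indic b) β, zS_apply_eq (indic b) β', ← Finset.sum_sub_distrib]
        refine MemLocalIdeal.sum _ fun Kl _ => ?_
        rw [← mul_sub]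
        set z := clsRep Kl with hz
        by_cases hzs : p ∣ orderOf z
        · have h0 := blockCoeff_eq_zero_of_singular hM hb hzs
          rw [blockCoeff_eq_coef] at h0
          rw [h0, zero_mul]
          exact memLocalIdeal_zero
        · refine MemLocalIdeal.mul_left (hc z) ?_
          by_cases hzC : z ∈ Subgroup.centralizer ((D.map (QuotientGroup.mk' K) : Subgroup (G ⧸ K)) : Set (G ⧸ K))
          · obtain ⟨z', hz'⟩ := QuotientGroup.mk_surjective z
            rw [← hz'] at hzs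
            obtain ⟨r, hr, hrreg⟩ := exists_regular_lift (p := p) (P := K) z' hzs
            have hcomm : ∀ d ∈ D, d * r * d⁻¹ * r⁻¹ ∈ ⁅D, D⁆ := by
              intro d hd
              rw [← QuotientGroup.eq_one_iff]
              have h1 := Subgroup.mem_centralizer_iff.mp hzC ((d : G) : G ⧸ K)
                (Subgroup.mem_map.mpr ⟨d, hd, rfl⟩)
              rw [← hz', ← hr] at h1
              have h3 : (((d * r * d⁻¹ * r⁻¹ : G)) : G ⧸ K) =
                  (d : G ⧸ K) * r * (d : G ⧸ K)⁻¹ * (r : G ⧸ K)⁻¹ := rfl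
              rw [h3, mul_inv_eq_one, mul_inv_eq_iff_eq_mul]
              exact h1
            have hx := commute_of_commutator_mem D hD hrreg hcomm
            have hidx := index_centralizer_eq D hD hrreg hx
            have hzr : z = (r : G ⧸ K) := by rw [hr, hz']
            have hval : ∀ ξ : IrrCharacter (G ⧸ K), centralChar (ξ : G ⧸ K → ℂ) z =
                centralChar ((ξ : G ⧸ K → ℂ) ∘ QuotientGroup.mk) r := by
              intro ξ
              simp only [centralChar, Function.comp_apply, QuotientGroup.mk_one]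
              rw [hzr, hidx]
            rw [hval, hval]
            exact h r
          · have hval : ∀ ξ : IrrCharacter (G ⧸ K), MemLocalIdeal M (centralChar (ξ : G ⧸ K → ℂ) z) := by
              intro ξ
              refine centralChar_memLocalIdeal_of_normal hM (D.map (QuotientGroup.mk' K)) hDbarp z ?_ ξ
              intro x hx hxC
              exact hzC (mem_centralizer_of_isConj _ hx hxC)
            exact MemLocalIdeal.sub (hval β) (hval β')
      rw [indic_apply_of_mem (self_mem_blockOf β)] at hdiff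
      by_cases hβ' : β' ∈ b
      · exact hβ'
      · rw [indic_apply_of_notMem hβ', sub_zero] at hdiff
        exact absurd hdiff not_memLocalIdeal_one
  · intro B hB
    obtain ⟨y, hy⟩ := exists_defectClass hB
    have hreg := IsDefectClass.regular hM hB hy
    obtain ⟨χ₀, hχ₀⟩ := IsPBlock.nonempty hB
    have hyC : y ∈ Subgroup.centralizer (D : Set G) := by
      by_contra hcon
      refine hy.2.2 χ₀ hχ₀ (centralChar_memLocalIdeal_of_normal hM D hD y ?_ χ₀)
      intro x hx hxC
      exact hcon (mem_centralizer_of_isConj _ hx hxC)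
    have hyC' : D ≤ Subgroup.centralizer ({y} : Set G) := by
      intro u hu
      rw [Subgroup.mem_centralizer_singleton_iff]
      exact Subgroup.mem_centralizer_iff.mp hyC u hu
    obtain ⟨θ, hθ, hker⟩ := exists_kernel_char_of_normal hM hB hD hy.2.1 hyC'
    obtain ⟨β, hβ, hβeq⟩ := exists_deflate K θ.2 (hKD.trans hker)
    exact ⟨⟨β, hβ⟩, θ, hθ, hβeq⟩

end Cfsg.Agent.S4964
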