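import Cfsg.Statements.S4965
import Mathlib.GroupTheory.GroupAction.CardCommute
import Mathlib.Tactic.Group

set_option autoImplicit false
open Cfsg

namespace Cfsg.Agent.S4965

theorem conj_key {X : Type*} [Group X] (x y x₀ y₀ : X) (hxy : x * y = y * x) (h₀ : x₀ * y₀ = y₀ * x₀) :
    (x * x₀⁻¹) * (x₀ * (y * y₀⁻¹) * x₀⁻¹) = (y * y₀⁻¹) * (y₀ * (x * x₀⁻¹) * y₀⁻¹) := by
  have h1 : y₀⁻¹ * x₀⁻¹ = x₀⁻¹ * y₀⁻¹ := by
    rw [← mul_inv_rev, ← mul_inv_rev, h₀]
  calc (x * x₀⁻¹) * (x₀ * (y * y₀⁻¹) * x₀⁻¹) = (x * y) * (y₀⁻¹ * x₀⁻¹) := by group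
    _ = (y * x) * (x₀⁻¹ * y₀⁻¹) := by rw [hxy, h1]
    _ = _ := by group


theorem sd_commute {X : Type*} [Group X] (V : Subgroup X) [V.Normal] (φ : X ⧸ V →* MulAut ↥V)
    (hφ : ∀ (x : X) (v : ↥V), ((φ (QuotientGroup.mk x) v : ↥V) : X) = x * v * x⁻¹)
    (p q : ↥V) (a b : X ⧸ V) (x₀ y₀ : X) (ha : (QuotientGroup.mk x₀ : X ⧸ V) = a)
    (hb : (QuotientGroup.mk y₀ : X ⧸ V) = b) (hcomm : a * b = b * a)
    (h : (p : X) * (x₀ * (q : X) * x₀⁻¹) = (q : X) * (y₀ * (p : X) * y₀⁻¹)) :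
    Commute (⟨p, a⟩ : SemidirectProduct (↥V) (X ⧸ V) φ) ⟨q, b⟩ := by
  subst ha hb
  apply SemidirectProduct.ext
  · apply Subtype.ext
    rw [SemidirectProduct.mul_left, SemidirectProduct.mul_left]
    show (p : X) * ((φ (QuotientGroup.mk x₀) q : ↥V) : X) = (q : X) * ((φ (QuotientGroup.mk y₀) p : ↥V) : X)
    rw [hφ, hφ]
    exact h
  · rw [SemidirectProduct.mul_right, SemidirectProduct.mul_right]
    exact hcomm

/-- Let X be a finite group with an abelian normal subgroup V (any two elements of V commute), and let φ be the action of X ⧸ V on V induced by conjugation (well defined because V is abelian; the hypothesis hφ says that the class of x acts as conjugation by x). Then X has at most as many conjugacy classes as the semidirect product of V by X ⧸ V formed with this action: the split extension has the largest class number among extensions with the given action. -/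
theorem result {X : Type*} [Group X] [Finite X] (V : Subgroup X) [V.Normal] (hab : ∀ a ∈ V, ∀ b ∈ V, a * b = b * a) (φ : X ⧸ V →* MulAut ↥V) (hφ : ∀ (x : X) (v : ↥V), ((φ (QuotientGroup.mk x) v : ↥V) : X) = x * v * x⁻¹) : Nat.card (ConjClasses X) ≤ Nat.card (ConjClasses (SemidirectProduct ↥V (X ⧸ V) φ)) := by
  classical
  have hVn : V.Normal := inferInstance
  let SD := SemidirectProduct (↥V) (X ⧸ V) φ
  have hcardSD : Nat.card SD = Nat.card X := by
    have h1 : Nat.card SD = Nat.card (↥V × (X ⧸ V)) := Nat.card_congr SemidirectProduct.equivProd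
    rw [h1, Nat.card_prod, mul_comm, ← Subgroup.index_eq_card, Subgroup.index_mul_card]
  have hX := card_comm_eq_card_conjClasses_mul_card X
  have hS := card_comm_eq_card_conjClasses_mul_card SD
  suffices h : Nat.card {p : X × X // Commute p.1 p.2} ≤ Nat.card {p : SD × SD // Commute p.1 p.2} by
    rw [hX, hS, hcardSD] at h
    exact Nat.le_of_mul_le_mul_right h Nat.card_pos
  let P : (X ⧸ V) × (X ⧸ V) → Prop := fun ab =>
    ∃ q : X × X, Commute q.1 q.2 ∧ (QuotientGroup.mk q.1 : X ⧸ V) = ab.1 ∧ (QuotientGroup.mk q.2 : X ⧸ V) = ab.2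
  let base : (X ⧸ V) × (X ⧸ V) → X × X := fun ab => if h : P ab then h.choose else (1, 1)
  have hbase : ∀ p : X × X, Commute p.1 p.2 →
      Commute (base ((QuotientGroup.mk p.1 : X ⧸ V), (QuotientGroup.mk p.2 : X ⧸ V))).1
        (base ((QuotientGroup.mk p.1 : X ⧸ V), (QuotientGroup.mk p.2 : X ⧸ V))).2 ∧
      (QuotientGroup.mk (base ((QuotientGroup.mk p.1 : X ⧸ V), (QuotientGroup.mk p.2 : X ⧸ V))).1 : X ⧸ V) =
        QuotientGroup.mk p.1 ∧
      (QuotientGroup.mk (base ((QuotientGroup.mk p.1 : X ⧸ V), (QuotientGroup.mk p.2 : X ⧸ V))).2 : X ⧸ V) =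
        QuotientGroup.mk p.2 := by
    intro p hp
    have hP : P ((QuotientGroup.mk p.1 : X ⧸ V), (QuotientGroup.mk p.2 : X ⧸ V)) := ⟨p, hp, rfl, rfl⟩
    simp only [base, dif_pos hP]
    exact hP.choose_spec
  have hmem : ∀ x x₀ : X, (QuotientGroup.mk x₀ : X ⧸ V) = QuotientGroup.mk x → x * x₀⁻¹ ∈ V := by
    intro x x₀ h
    have h1 : x₀⁻¹ * x ∈ V := QuotientGroup.eq.mp h
    have h2 : x * x₀⁻¹ = x₀ * (x₀⁻¹ * x) * x₀⁻¹ := by group
    rw [h2]
    exact hVn.conj_mem _ h1 _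
  let f : {p : X × X // Commute p.1 p.2} → {p : SD × SD // Commute p.1 p.2} := fun p =>
    ⟨(⟨⟨p.1.1 * (base ((QuotientGroup.mk p.1.1 : X ⧸ V), (QuotientGroup.mk p.1.2 : X ⧸ V))).1⁻¹,
          hmem _ _ (hbase p.1 p.2).2.1⟩, QuotientGroup.mk p.1.1⟩,
      ⟨⟨p.1.2 * (base ((QuotientGroup.mk p.1.1 : X ⧸ V), (QuotientGroup.mk p.1.2 : X ⧸ V))).2⁻¹,
          hmem _ _ (hbase p.1 p.2).2.2⟩, QuotientGroup.mk p.1.2⟩), by
      obtain ⟨h₀, h₁, h₂⟩ := hbase p.1 p.2
      have hcomm : (QuotientGroup.mk p.1.1 : X ⧸ V) * QuotientGroup.mk p.1.2 =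
          QuotientGroup.mk p.1.2 * QuotientGroup.mk p.1.1 := by
        rw [← QuotientGroup.mk_mul, ← QuotientGroup.mk_mul, p.2.eq]
      exact sd_commute V φ hφ _ _ _ _ _ _ h₁ h₂ hcomm (conj_key _ _ _ _ p.2.eq h₀.eq)⟩
  have hf : Function.Injective f := by
    intro p p' h
    have h1 : (QuotientGroup.mk p.1.1 : X ⧸ V) = QuotientGroup.mk p'.1.1 :=
      congrArg (fun s : {p : SD × SD // Commute p.1 p.2} => s.1.1.right) h
    have h2 : (QuotientGroup.mk p.1.2 : X ⧸ V) = QuotientGroup.mk p'.1.2 :=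
      congrArg (fun s : {p : SD × SD // Commute p.1 p.2} => s.1.2.right) h
    have h3 : p.1.1 * (base ((QuotientGroup.mk p.1.1 : X ⧸ V), (QuotientGroup.mk p.1.2 : X ⧸ V))).1⁻¹ =
        p'.1.1 * (base ((QuotientGroup.mk p'.1.1 : X ⧸ V), (QuotientGroup.mk p'.1.2 : X ⧸ V))).1⁻¹ :=
      congrArg (fun s : {p : SD × SD // Commute p.1 p.2} => ((s.1.1.left : ↥V) : X)) h
    have h4 : p.1.2 * (base ((QuotientGroup.mk p.1.1 : X ⧸ V), (QuotientGroup.mk p.1.2 : X ⧸ V))).2⁻¹ =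
        p'.1.2 * (base ((QuotientGroup.mk p'.1.1 : X ⧸ V), (QuotientGroup.mk p'.1.2 : X ⧸ V))).2⁻¹ :=
      congrArg (fun s : {p : SD × SD // Commute p.1 p.2} => ((s.1.2.left : ↥V) : X)) h
    rw [← h1, ← h2] at h3 h4
    apply Subtype.ext
    exact Prod.ext (mul_right_cancel h3) (mul_right_cancel h4)
  haveI : Finite SD := Finite.of_equiv _ SemidirectProduct.equivProd.symm
  exact Nat.card_le_card_of_injective f hf

end Cfsg.Agent.S4965
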