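import Cfsg.Statements.S4966
import Mathlib

set_option autoImplicit false
open Cfsg

namespace Cfsg.Agent.S4966

open Module

section

variable {F : Type*} [Field F] {G : Type*} [Group G] {V : Type*} [AddCommGroup V] [Module F V]

/-- A projection. -/
theorem exists_proj (U W : Submodule F V) (h : U ⊓ W = ⊥) :
    ∃ π : V →ₗ[F] V, (∀ x ∈ U, π x = x) ∧ (∀ x ∈ W, π x = 0) ∧ ∀ x, π x ∈ U := by
  obtain ⟨C, hC⟩ := Submodule.exists_isCompl (U ⊔ W)
  have hd : Disjoint U W := disjoint_iff.mpr h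
  have hc : IsCompl U (W ⊔ C) := by
    constructor
    · exact hd.disjoint_sup_right_of_disjoint_sup_left hC.disjoint
    · rw [codisjoint_iff, ← sup_assoc]
      exact hC.sup_eq_top
  refine ⟨U.subtype ∘ₗ Submodule.projectionOnto U (W ⊔ C) hc, ?_, ?_, ?_⟩
  · intro x hx
    simp only [LinearMap.comp_apply, Submodule.subtype_apply]
    rw [Submodule.projectionOnto_apply_of_mem_left hc hx]
  · intro x hx
    have : x ∈ W ⊔ C := Submodule.mem_sup_left hx
    simp only [LinearMap.comp_apply, Submodule.subtype_apply]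
    rw [Submodule.projectionOnto_apply_of_mem_right hc this]
    simp
  · intro x
    simp only [LinearMap.comp_apply, Submodule.subtype_apply]
    exact SetLike.coe_mem _

variable (ρ : Representation F G V)

/-- Invariant subspaces. -/
def Inv (U : Submodule F V) : Prop := ∀ g : G, ∀ u ∈ U, ρ g u ∈ U

/-- Subspaces carrying an alternating form. -/
def AltOK (U : Submodule F V) : Prop :=
  ∃ A : LinearMap.BilinForm F V, (∀ x : V, A x x = 0) ∧
    (∀ g : G, ∀ x ∈ U, ∀ y ∈ U, A (ρ g x) (ρ g y) = A x y) ∧ (∀ x ∈ U, (∀ y ∈ U, A x y = 0) → x = 0)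

/-- Subspaces carrying a symmetric form. -/
def SymOK (W : Submodule F V) : Prop :=
  ∃ S : LinearMap.BilinForm F V, (∀ x y : V, S x y = S y x) ∧
    (∀ g : G, ∀ x ∈ W, ∀ y ∈ W, S (ρ g x) (ρ g y) = S x y) ∧ (∀ x ∈ W, (∀ y ∈ W, S x y = 0) → x = 0)

variable {ρ}

theorem Inv.sup {U W : Submodule F V} (hU : Inv ρ U) (hW : Inv ρ W) : Inv ρ (U ⊔ W) := by
  intro g x hx
  obtain ⟨u, hu, w, hw, rfl⟩ := Submodule.mem_sup.mp hx
  rw [map_add]
  exact Submodule.add_mem _ (Submodule.mem_sup_left (hU g u hu)) (Submodule.mem_sup_right (hW g w hw))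

theorem Inv.inf {U W : Submodule F V} (hU : Inv ρ U) (hW : Inv ρ W) : Inv ρ (U ⊓ W) :=
  fun g x hx => ⟨hU g x hx.1, hW g x hx.2⟩

/-- The common computation for the sum of two forms. -/
theorem sum_forms {U₁ U₂ : Submodule F V} (h1 : Inv ρ U₁) (h2 : Inv ρ U₂) (h : U₁ ⊓ U₂ = ⊥)
    (A₁ A₂ : LinearMap.BilinForm F V)
    (hinv1 : ∀ g : G, ∀ x ∈ U₁, ∀ y ∈ U₁, A₁ (ρ g x) (ρ g y) = A₁ x y)
    (hinv2 : ∀ g : G, ∀ x ∈ U₂, ∀ y ∈ U₂, A₂ (ρ g x) (ρ g y) = A₂ x y)
    (hn1 : ∀ x ∈ U₁, (∀ y ∈ U₁, A₁ x y = 0) → x = 0) (hn2 : ∀ x ∈ U₂, (∀ y ∈ U₂, A₂ x y = 0) → x = 0) :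
    ∃ (p₁ p₂ : V →ₗ[F] V), (∀ g : G, ∀ x ∈ U₁ ⊔ U₂, ∀ y ∈ U₁ ⊔ U₂,
        (A₁.compl₁₂ p₁ p₁ + A₂.compl₁₂ p₂ p₂) (ρ g x) (ρ g y) = (A₁.compl₁₂ p₁ p₁ + A₂.compl₁₂ p₂ p₂) x y) ∧
      (∀ x ∈ U₁ ⊔ U₂, (∀ y ∈ U₁ ⊔ U₂, (A₁.compl₁₂ p₁ p₁ + A₂.compl₁₂ p₂ p₂) x y = 0) → x = 0) := by
  obtain ⟨p₁, hp11, hp12, -⟩ := exists_proj U₁ U₂ h
  obtain ⟨p₂, hp22, hp21, -⟩ := exists_proj U₂ U₁ (by rw [inf_comm]; exact h)
  refine ⟨p₁, p₂, ?_, ?_⟩
  · intro g x hx y hy
    obtain ⟨x₁, hx₁, x₂, hx₂, rfl⟩ := Submodule.mem_sup.mp hx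
    obtain ⟨y₁, hy₁, y₂, hy₂, rfl⟩ := Submodule.mem_sup.mp hy
    simp only [map_add, LinearMap.add_apply, LinearMap.compl₁₂_apply,
      hp11 _ hx₁, hp11 _ hy₁, hp12 _ hx₂, hp12 _ hy₂, hp21 _ hx₁, hp21 _ hy₁, hp22 _ hx₂, hp22 _ hy₂,
      hp11 _ (h1 g _ hx₁), hp11 _ (h1 g _ hy₁), hp12 _ (h2 g _ hx₂), hp12 _ (h2 g _ hy₂),
      hp21 _ (h1 g _ hx₁), hp21 _ (h1 g _ hy₁), hp22 _ (h2 g _ hx₂), hp22 _ (h2 g _ hy₂), add_zero, zero_add,
      hinv1 g _ hx₁ _ hy₁, hinv2 g _ hx₂ _ hy₂, map_zero, LinearMap.zero_apply]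
  · intro x hx hall
    obtain ⟨x₁, hx₁, x₂, hx₂, rfl⟩ := Submodule.mem_sup.mp hx
    have e1 : x₁ = 0 := by
      apply hn1 _ hx₁
      intro y hy
      have := hall y (Submodule.mem_sup_left hy)
      simpa only [map_add, LinearMap.add_apply, LinearMap.compl₁₂_apply,
        hp11 _ hx₁, hp11 _ hy, hp12 _ hx₂, hp21 _ hx₁, hp21 _ hy, hp22 _ hx₂, add_zero, zero_add,
        map_zero, LinearMap.zero_apply] using this
    have e2 : x₂ = 0 := by
      apply hn2 _ hx₂
      intro y hy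
      have := hall y (Submodule.mem_sup_right hy)
      simpa only [map_add, LinearMap.add_apply, LinearMap.compl₁₂_apply,
        hp11 _ hx₁, hp12 _ hx₂, hp12 _ hy, hp21 _ hx₁, hp22 _ hx₂, hp22 _ hy, add_zero, zero_add,
        map_zero, LinearMap.zero_apply] using this
    rw [e1, e2, add_zero]

theorem AltOK.sup {U₁ U₂ : Submodule F V} (h1 : Inv ρ U₁) (h2 : Inv ρ U₂) (h : U₁ ⊓ U₂ = ⊥)
    (ha1 : AltOK ρ U₁) (ha2 : AltOK ρ U₂) : AltOK ρ (U₁ ⊔ U₂) := by
  obtain ⟨A₁, a1, i1, n1⟩ := ha1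
  obtain ⟨A₂, a2, i2, n2⟩ := ha2
  obtain ⟨p₁, p₂, hi, hn⟩ := sum_forms h1 h2 h A₁ A₂ i1 i2 n1 n2
  refine ⟨_, ?_, hi, hn⟩
  intro x
  simp [a1, a2]

theorem SymOK.sup {U₁ U₂ : Submodule F V} (h1 : Inv ρ U₁) (h2 : Inv ρ U₂) (h : U₁ ⊓ U₂ = ⊥)
    (ha1 : SymOK ρ U₁) (ha2 : SymOK ρ U₂) : SymOK ρ (U₁ ⊔ U₂) := by
  obtain ⟨A₁, a1, i1, n1⟩ := ha1
  obtain ⟨A₂, a2, i2, n2⟩ := ha2
  obtain ⟨p₁, p₂, hi, hn⟩ := sum_forms h1 h2 h A₁ A₂ i1 i2 n1 n2
  refine ⟨_, ?_, hi, hn⟩
  intro x y
  simp only [LinearMap.add_apply, LinearMap.compl₁₂_apply]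
  rw [a1 (p₁ x), a2 (p₂ x)]

/-- The hyperbolic form. -/
theorem hyper {S S' : Submodule F V} (h1 : Inv ρ S) (h2 : Inv ρ S') (h : S ⊓ S' = ⊥)
    (β : LinearMap.BilinForm F V) (hinv : ∀ g : G, ∀ x ∈ S, ∀ y ∈ S', β (ρ g x) (ρ g y) = β x y)
    (hL : ∀ s ∈ S, (∀ s' ∈ S', β s s' = 0) → s = 0) (hR : ∀ s' ∈ S', (∀ s ∈ S, β s s' = 0) → s' = 0) :
    AltOK ρ (S ⊔ S') := by
  obtain ⟨p, hp1, hp2, -⟩ := exists_proj S S' h
  obtain ⟨q, hq2, hq1, -⟩ := exists_proj S' S (by rw [inf_comm]; exact h)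
  refine ⟨β.compl₁₂ p q - (β.compl₁₂ p q).flip, ?_, ?_, ?_⟩
  · intro x
    simp
  · intro g x hx y hy
    obtain ⟨x₁, hx₁, x₂, hx₂, rfl⟩ := Submodule.mem_sup.mp hx
    obtain ⟨y₁, hy₁, y₂, hy₂, rfl⟩ := Submodule.mem_sup.mp hy
    simp only [map_add, LinearMap.sub_apply, LinearMap.flip_apply, LinearMap.add_apply, LinearMap.compl₁₂_apply,
      hp1 _ hx₁, hp1 _ hy₁, hp2 _ hx₂, hp2 _ hy₂, hq1 _ hx₁, hq1 _ hy₁, hq2 _ hx₂, hq2 _ hy₂,
      hp1 _ (h1 g _ hx₁), hp1 _ (h1 g _ hy₁), hp2 _ (h2 g _ hx₂), hp2 _ (h2 g _ hy₂),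
      hq1 _ (h1 g _ hx₁), hq1 _ (h1 g _ hy₁), hq2 _ (h2 g _ hx₂), hq2 _ (h2 g _ hy₂), add_zero, zero_add,
      hinv g _ hx₁ _ hy₂, hinv g _ hy₁ _ hx₂, map_zero, LinearMap.zero_apply, sub_zero, zero_sub]
  · intro x hx hall
    obtain ⟨x₁, hx₁, x₂, hx₂, rfl⟩ := Submodule.mem_sup.mp hx
    have e2 : x₂ = 0 := by
      apply hR _ hx₂
      intro s hs
      have := hall s (Submodule.mem_sup_left hs)
      simp only [map_add, LinearMap.sub_apply, LinearMap.add_apply, LinearMap.flip_apply, LinearMap.compl₁₂_apply,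
        hp1 _ hx₁, hp1 _ hs, hp2 _ hx₂, hq1 _ hx₁, hq1 _ hs, hq2 _ hx₂, add_zero, zero_add, map_zero,
        LinearMap.zero_apply, sub_zero, zero_sub, neg_eq_zero] at this
      exact this
    have e1 : x₁ = 0 := by
      apply hL _ hx₁
      intro s hs
      have := hall s (Submodule.mem_sup_right hs)
      simp only [map_add, LinearMap.sub_apply, LinearMap.add_apply, LinearMap.flip_apply, LinearMap.compl₁₂_apply,
        hp1 _ hx₁, hp2 _ hx₂, hp2 _ hs, hq1 _ hx₁, hq2 _ hx₂, hq2 _ hs, add_zero, zero_add, map_zero,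
        LinearMap.zero_apply, sub_zero, zero_sub] at this
      exact this
    rw [e1, e2, add_zero]

/-- Maschke's theorem for subspaces. -/
theorem maschke [Finite G] (hG : (Nat.card G : F) ≠ 0) {A X : Submodule F V} (hA : Inv ρ A)
    (hX : Inv ρ X) (hle : A ≤ X) : ∃ C : Submodule F V, Inv ρ C ∧ A ⊓ C = ⊥ ∧ A ⊔ C = X := by
  classical
  cases nonempty_fintype G
  obtain ⟨π, hπ1, -, hπ3⟩ := exists_proj A ⊥ (by simp)
  let c : F := (Nat.card G : F)⁻¹
  let P : V →ₗ[F] V := c • ∑ g : G, (ρ g⁻¹) ∘ₗ π ∘ₗ (ρ g)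
  have hinvg : ∀ (g : G) (x : V), ρ g⁻¹ (ρ g x) = x := by
    intro g x
    rw [← Module.End.mul_apply, ← map_mul, inv_mul_cancel, map_one]
    rfl
  have hP : ∀ x, P x = c • ∑ g : G, ρ g⁻¹ (π (ρ g x)) := by
    intro x
    simp [P]
  have hPA : ∀ a ∈ A, P a = a := by
    intro a ha
    rw [hP]
    have h1 : ∀ g : G, ρ g⁻¹ (π (ρ g a)) = a := by
      intro g
      rw [hπ1 _ (hA g a ha), hinvg]
    simp only [h1, Finset.sum_const, Finset.card_univ]
    rw [← Nat.card_eq_fintype_card, ← Nat.cast_smul_eq_nsmul F, smul_smul, inv_mul_cancel₀ hG, one_smul]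
  have hPr : ∀ x, P x ∈ A := by
    intro x
    rw [hP]
    refine Submodule.smul_mem _ _ (Submodule.sum_mem _ fun g _ => ?_)
    exact hA g⁻¹ _ (hπ3 _)
  have hPe : ∀ (h : G) (x : V), P (ρ h x) = ρ h (P x) := by
    intro h x
    rw [hP, hP, map_smul, map_sum]
    congr 1
    refine Fintype.sum_equiv (Equiv.mulRight h) _ _ fun g => ?_
    simp only [Equiv.coe_mulRight]
    rw [← Module.End.mul_apply (ρ g), ← map_mul, ← Module.End.mul_apply (ρ h), ← map_mul]
    congr 2
    group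
  refine ⟨LinearMap.ker P ⊓ X, ?_, ?_, ?_⟩
  · rintro g x ⟨hx, hx2⟩
    refine ⟨?_, hX g x hx2⟩
    rw [SetLike.mem_coe, LinearMap.mem_ker] at hx ⊢
    rw [hPe, hx, map_zero]
  · rw [eq_bot_iff]
    rintro x ⟨hx1, hx2, -⟩
    have := hPA x hx1
    rw [SetLike.mem_coe, LinearMap.mem_ker] at hx2
    rw [hx2] at this
    exact this.symm
  · apply le_antisymm
    · exact sup_le hle inf_le_right
    · intro x hx
      have h1 : x = P x + (x - P x) := by abel
      rw [h1]
      refine Submodule.add_mem _ (Submodule.mem_sup_left (hPr x)) (Submodule.mem_sup_right ⟨?_, ?_⟩)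
      · rw [SetLike.mem_coe, LinearMap.mem_ker, map_sub, hPA _ (hPr x), sub_self]
      · exact X.sub_mem hx (hle (hPr x))

variable [FiniteDimensional F V]

/-- Minimal invariant subspaces. -/
theorem exists_min_inv : ∀ (n : ℕ) (K : Submodule F V), finrank F K = n → K ≠ ⊥ → Inv ρ K →
    ∃ S : Submodule F V, S ≤ K ∧ S ≠ ⊥ ∧ Inv ρ S ∧ ∀ S' : Submodule F V, S' ≤ S → Inv ρ S' → S' = ⊥ ∨ S' = S := by
  intro n
  induction n using Nat.strong_induction_on with
  | _ n ih =>
    intro K hn hne hK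
    by_cases hmin : ∀ S' : Submodule F V, S' ≤ K → Inv ρ S' → S' = ⊥ ∨ S' = K
    · exact ⟨K, le_refl _, hne, hK, hmin⟩
    · push Not at hmin
      obtain ⟨S', hle, hS', hne1, hne2⟩ := hmin
      have hlt : S' < K := lt_of_le_of_ne hle hne2
      have hfin := Submodule.finrank_lt_finrank_of_lt hlt
      obtain ⟨S, h1, h2, h3, h4⟩ := ih _ (by omega) S' rfl hne1 hS'
      exact ⟨S, h1.trans hle, h2, h3, h4⟩

end

section Main

variable {F : Type*} [Field F] (p : ℕ) [Fact p.Prime] [CharP F p] {G : Type*} [Group G] [Finite G]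
  {V : Type*} [AddCommGroup V] [Module F V] [FiniteDimensional F V] (ρ : Representation F G V)

/-- The conclusion for a subspace. -/
def Good (X : Submodule F V) : Prop :=
  ∃ U W : Submodule F V, U ⊓ W = ⊥ ∧ U ⊔ W = X ∧ Inv ρ U ∧ Inv ρ W ∧ AltOK ρ U ∧ SymOK ρ W ∧
    (p = 2 → ∀ g : G, ∀ w ∈ W, ρ g w = w)

variable {p ρ}

theorem Good.add_alt {T C : Submodule F V} (hC : Good p ρ C) (hT : Inv ρ T) (hA : AltOK ρ T) (h : T ⊓ C = ⊥) :
    Good p ρ (T ⊔ C) := by
  obtain ⟨U, W, h1, rfl, h3, h4, h5, h6, h7⟩ := hC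
  refine ⟨T ⊔ U, W, ?_, ?_, hT.sup h3, h4, ?_, h6, h7⟩
  · rw [← disjoint_iff]
    exact (disjoint_iff.mpr h1).disjoint_sup_left_of_disjoint_sup_right (disjoint_iff.mpr h)
  · rw [sup_assoc]
  · apply AltOK.sup hT h3 _ hA h5
    rw [eq_bot_iff, ← h]
    exact inf_le_inf_left _ le_sup_left

theorem Good.add_sym {T C : Submodule F V} (hC : Good p ρ C) (hT : Inv ρ T) (hS : SymOK ρ T)
    (htr : p = 2 → ∀ g : G, ∀ w ∈ T, ρ g w = w) (h : T ⊓ C = ⊥) : Good p ρ (T ⊔ C) := by
  obtain ⟨U, W, h1, rfl, h3, h4, h5, h6, h7⟩ := hC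
  refine ⟨U, T ⊔ W, ?_, ?_, h3, hT.sup h4, h5, ?_, ?_⟩
  · rw [← disjoint_iff]
    have h8 : Disjoint T (W ⊔ U) := by
      rw [sup_comm]
      exact disjoint_iff.mpr h
    exact ((disjoint_iff.mpr h1).symm.disjoint_sup_left_of_disjoint_sup_right h8).symm
  · rw [sup_left_comm]
  · apply SymOK.sup hT h4 _ hS h6
    rw [eq_bot_iff, ← h]
    exact inf_le_inf_left _ le_sup_right
  · intro hp g w hw
    obtain ⟨a, ha, b, hb, rfl⟩ := Submodule.mem_sup.mp hw
    rw [map_add, htr hp g a ha, h7 hp g b hb]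

omit [Fact p.Prime] [CharP F p] [Finite G] [Group G] in
theorem finrank_le_of_pair {A B : Submodule F V} (β : LinearMap.BilinForm F V)
    (h : ∀ b ∈ B, (∀ a ∈ A, β a b = 0) → b = 0) : finrank F B ≤ finrank F A := by
  let Ψ : B →ₗ[F] Module.Dual F A := (β.flip.compl₁₂ B.subtype A.subtype)
  have hinj : Function.Injective Ψ := by
    rw [injective_iff_map_eq_zero]
    intro b hb
    apply Subtype.ext
    apply h b b.2
    intro a ha
    have := congrArg (fun f : Module.Dual F A => f ⟨a, ha⟩) hb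
    simpa [Ψ] using this
  have := LinearMap.finrank_le_finrank_of_injective hinj
  rwa [Subspace.dual_finrank_eq] at this

omit [Fact p.Prime] [CharP F p] [Finite G] [Group G] in
theorem exists_rep {A B : Submodule F V} (β : LinearMap.BilinForm F V)
    (h : ∀ b ∈ B, (∀ a ∈ A, β a b = 0) → b = 0) (hfin : finrank F A ≤ finrank F B) (x : V) :
    ∃ b ∈ B, ∀ a ∈ A, β a b = β a x := by
  let Ψ : B →ₗ[F] Module.Dual F A := (β.flip.compl₁₂ B.subtype A.subtype)
  have hinj : Function.Injective Ψ := by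
    rw [injective_iff_map_eq_zero]
    intro b hb
    apply Subtype.ext
    apply h b b.2
    intro a ha
    have := congrArg (fun f : Module.Dual F A => f ⟨a, ha⟩) hb
    simpa [Ψ] using this
  have hB := finrank_le_of_pair β h
  have hsurj : Function.Surjective Ψ :=
    (LinearMap.injective_iff_surjective_of_finrank_eq_finrank (by
      rw [Subspace.dual_finrank_eq]
      omega)).mp hinj
  obtain ⟨b, hb⟩ := hsurj ((β.flip x).comp A.subtype)
  refine ⟨b, b.2, fun a ha => ?_⟩
  have := congrArg (fun f : Module.Dual F A => f ⟨a, ha⟩) hb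
  simpa [Ψ] using this

/-- The main induction. -/
theorem main (hG : (Nat.card G : F) ≠ 0) : ∀ (n : ℕ) (X : Submodule F V), finrank F X = n → Inv ρ X →
    ∀ β : LinearMap.BilinForm F V, (∀ g : G, ∀ x ∈ X, ∀ y ∈ X, β (ρ g x) (ρ g y) = β x y) →
      (∀ x ∈ X, (∀ y ∈ X, β x y = 0) → x = 0) → Good p ρ X := by
  intro n
  induction n using Nat.strong_induction_on with
  | _ n ih =>
  intro X hn hX β hinv hnd
  have hinvg : ∀ (g : G) (x : V), ρ g (ρ g⁻¹ x) = x := by
    intro g x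
    rw [← Module.End.mul_apply, ← map_mul, mul_inv_cancel, map_one]
    rfl
  have hinvg' : ∀ (g : G) (x : V), ρ g⁻¹ (ρ g x) = x := by
    intro g x
    rw [← Module.End.mul_apply, ← map_mul, inv_mul_cancel, map_one]
    rfl
  -- the symmetric vectors
  let K : Submodule F V :=
    { carrier := {x | x ∈ X ∧ ∀ y ∈ X, β x y = β y x}
      add_mem' := by
        rintro a b ⟨ha, ha2⟩ ⟨hb, hb2⟩
        refine ⟨X.add_mem ha hb, fun y hy => ?_⟩
        rw [map_add, map_add, LinearMap.add_apply, ha2 y hy, hb2 y hy]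
      zero_mem' := ⟨X.zero_mem, fun y _ => by simp⟩
      smul_mem' := by
        rintro c a ⟨ha, ha2⟩
        refine ⟨X.smul_mem c ha, fun y hy => ?_⟩
        rw [map_smul, map_smul, LinearMap.smul_apply, ha2 y hy] }
  have hKinv : Inv ρ K := by
    rintro g x ⟨hx, hx2⟩
    refine ⟨hX g x hx, fun y hy => ?_⟩
    have hy' := hX g⁻¹ y hy
    have h1 := hinv g x hx _ hy'
    have h2 := hinv g _ hy' x hx
    rw [hinvg] at h1 h2
    rw [h1, h2, hx2 _ hy']
  by_cases hK0 : K = ⊥
  · obtain ⟨π, hπ1, -, hπ3⟩ := exists_proj X ⊥ (by simp)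
    refine ⟨X, ⊥, by simp, by simp, hX, ?_, ?_, ?_, ?_⟩
    · intro g u hu
      rw [Submodule.mem_bot] at hu
      subst hu
      simp
    · refine ⟨(β - β.flip).compl₁₂ π π, ?_, ?_, ?_⟩
      · intro x
        simp
      · intro g x hx y hy
        simp only [LinearMap.compl₁₂_apply, LinearMap.sub_apply, LinearMap.BilinForm.flip_apply,
          hπ1 _ hx, hπ1 _ hy, hπ1 _ (hX g x hx), hπ1 _ (hX g y hy), hinv g x hx y hy, hinv g y hy x hx]
      · intro x hx hall
        have h1 : x ∈ K := by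
          refine ⟨hx, fun y hy => ?_⟩
          have := hall y hy
          simp only [LinearMap.compl₁₂_apply, LinearMap.sub_apply, LinearMap.BilinForm.flip_apply,
            hπ1 _ hx, hπ1 _ hy, sub_eq_zero] at this
          exact this
        rw [hK0, Submodule.mem_bot] at h1
        exact h1
    · refine ⟨0, fun _ _ => rfl, fun _ _ _ _ _ => rfl, ?_⟩
      intro x hx _
      exact (Submodule.mem_bot F).mp hx
    · intro _ g w hw
      rw [Submodule.mem_bot] at hw
      subst hw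
      simp
  · obtain ⟨S, hSK, hS0, hSinv, hSmin⟩ := exists_min_inv _ K rfl hK0 hKinv
    have hSX : S ≤ X := fun x hx => (hSK hx).1
    have hSsym : ∀ s ∈ S, ∀ x ∈ X, β s x = β x s := fun s hs x hx => (hSK hs).2 x hx
    let Q : Submodule F V :=
      { carrier := {x | x ∈ X ∧ ∀ s ∈ S, β s x = 0}
        add_mem' := by
          rintro a b ⟨ha, ha2⟩ ⟨hb, hb2⟩
          refine ⟨X.add_mem ha hb, fun y hy => ?_⟩
          rw [map_add, ha2 y hy, hb2 y hy, add_zero]
        zero_mem' := ⟨X.zero_mem, fun y _ => by simp⟩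
        smul_mem' := by
          rintro c a ⟨ha, ha2⟩
          refine ⟨X.smul_mem c ha, fun y hy => ?_⟩
          rw [map_smul, ha2 y hy, smul_zero] }
    have hQX : Q ≤ X := fun x hx => hx.1
    have hQinv : Inv ρ Q := by
      rintro g x ⟨hx, hx2⟩
      refine ⟨hX g x hx, fun s hs => ?_⟩
      have hs' := hSinv g⁻¹ s hs
      have h1 := hinv g _ (hSX hs') x hx
      rw [hinvg] at h1
      rw [h1, hx2 _ hs']
    obtain ⟨π, hπ1, -, hπ3⟩ := exists_proj S ⊥ (by simp)
    rcases hSmin (S ⊓ Q) inf_le_left (hSinv.inf hQinv) with hD | hD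
    · -- `S` is nondegenerate
      have hSQmem : ∀ x ∈ S, (∀ y ∈ S, β x y = 0) → x = 0 := by
        intro x hx hall
        have h1 : x ∈ S ⊓ Q := by
          refine ⟨hx, hSX hx, fun s hs => ?_⟩
          rw [hSsym s hs x (hSX hx)]
          exact hall s hs
        rw [hD, Submodule.mem_bot] at h1
        exact h1
      have hXeq : S ⊔ Q = X := by
        apply le_antisymm (sup_le hSX hQX)
        intro x hx
        obtain ⟨b, hb, hab⟩ := exists_rep (A := S) (B := S) β (fun b hb hall => hSQmem b hb (fun y hy => by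
          rw [hSsym b hb y (hSX hy)]
          exact hall y hy)) (le_refl _) x
        have h1 : x = b + (x - b) := by abel
        rw [h1]
        refine Submodule.add_mem _ (Submodule.mem_sup_left hb) (Submodule.mem_sup_right ⟨X.sub_mem hx (hSX hb), ?_⟩)
        intro s hs
        rw [map_sub, hab s hs, sub_self]
      have hQnd : ∀ x ∈ Q, (∀ y ∈ Q, β x y = 0) → x = 0 := by
        intro x hx hall
        apply hnd x (hQX hx)
        intro y hy
        rw [← hXeq] at hy
        obtain ⟨a, ha, b, hb, rfl⟩ := Submodule.mem_sup.mp hy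
        rw [map_add, hall b hb, add_zero, ← hSsym a ha x (hQX hx)]
        exact hx.2 a ha
      have hlt : finrank F Q < n := by
        rw [← hn]
        apply Submodule.finrank_lt_finrank_of_lt
        refine lt_of_le_of_ne hQX ?_
        intro e
        apply hS0
        rw [← e] at hSX
        rw [← inf_eq_left.mpr hSX]
        exact hD
      have hgood := ih _ hlt Q rfl hQinv β (fun g x hx y hy => hinv g x (hQX hx) y (hQX hy)) hQnd
      have hSymS : SymOK ρ S := by
        refine ⟨β.compl₁₂ π π, ?_, ?_, ?_⟩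
        · intro x y
          simp only [LinearMap.compl₁₂_apply]
          exact hSsym _ (hπ3 x) _ (hSX (hπ3 y))
        · intro g x hx y hy
          simp only [LinearMap.compl₁₂_apply, hπ1 _ hx, hπ1 _ hy, hπ1 _ (hSinv g x hx), hπ1 _ (hSinv g y hy)]
          exact hinv g x (hSX hx) y (hSX hy)
        · intro x hx hall
          apply hSQmem x hx
          intro y hy
          have := hall y hy
          simpa only [LinearMap.compl₁₂_apply, hπ1 _ hx, hπ1 _ hy] using this
      rw [← hXeq]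
      by_cases hp2 : p = 2
      · have h20 : (2 : F) = 0 := by
          have := CharP.cast_eq_zero F p
          rw [hp2] at this
          exact_mod_cast this
        let H : Submodule F V :=
          { carrier := {x | x ∈ S ∧ β x x = 0}
            add_mem' := by
              rintro a b ⟨ha, ha2⟩ ⟨hb, hb2⟩
              refine ⟨S.add_mem ha hb, ?_⟩
              rw [map_add, map_add, LinearMap.add_apply, LinearMap.add_apply, ha2, hb2,
                ← hSsym a ha b (hSX hb)]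
              have : β a b + β a b = 2 * β a b := by ring
              simp only [zero_add, add_zero]
              rw [this, h20, zero_mul]
            zero_mem' := ⟨S.zero_mem, by simp⟩
            smul_mem' := by
              rintro c a ⟨ha, ha2⟩
              refine ⟨S.smul_mem c ha, ?_⟩
              rw [map_smul, map_smul, LinearMap.smul_apply, ha2]
              simp }
        have hHinv : Inv ρ H := by
          rintro g x ⟨hx, hx2⟩
          refine ⟨hSinv g x hx, ?_⟩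
          rw [hinv g x (hSX hx) x (hSX hx), hx2]
        rcases hSmin H (fun x hx => hx.1) hHinv with hH | hH
        · -- `G` acts trivially on `S`
          refine hgood.add_sym hSinv hSymS ?_ hD
          intro _ g x hx
          have h1 : ρ g x - x ∈ H := by
            refine ⟨S.sub_mem (hSinv g x hx) hx, ?_⟩
            rw [map_sub, map_sub, LinearMap.sub_apply, LinearMap.sub_apply,
              hinv g x (hSX hx) x (hSX hx), hSsym _ (hSinv g x hx) x (hSX hx)]
            have : β x x - β x (ρ g x) - (β x (ρ g x) - β x x) = 2 * (β x x - β x (ρ g x)) := by ring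
            rw [this, h20, zero_mul]
          rw [hH, Submodule.mem_bot, sub_eq_zero] at h1
          exact h1
        · -- `S` is alternating
          refine hgood.add_alt hSinv ⟨β.compl₁₂ π π, ?_, ?_, ?_⟩ hD
          · intro x
            simp only [LinearMap.compl₁₂_apply]
            have : π x ∈ H := by
              rw [hH]
              exact hπ3 x
            exact this.2
          · intro g x hx y hy
            simp only [LinearMap.compl₁₂_apply, hπ1 _ hx, hπ1 _ hy, hπ1 _ (hSinv g x hx), hπ1 _ (hSinv g y hy)]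
            exact hinv g x (hSX hx) y (hSX hy)
          · intro x hx hall
            apply hSQmem x hx
            intro y hy
            have := hall y hy
            simpa only [LinearMap.compl₁₂_apply, hπ1 _ hx, hπ1 _ hy] using this
      · exact hgood.add_sym hSinv hSymS (fun h => absurd h hp2) hD
    · -- `S` is isotropic
      have hSQ : S ≤ Q := inf_eq_left.mp hD
      obtain ⟨S', hS'inv, hS'1, hS'2⟩ := maschke hG hQinv hX hQX
      obtain ⟨C, hCinv, hC1, hC2⟩ := maschke hG hSinv hQinv hSQ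
      have hS'X : S' ≤ X := by
        rw [← hS'2]
        exact le_sup_right
      have hCQ : C ≤ Q := by
        rw [← hC2]
        exact le_sup_right
      have hL : ∀ s ∈ S, (∀ s' ∈ S', β s s' = 0) → s = 0 := by
        intro s hs hall
        apply hnd s (hSX hs)
        intro y hy
        rw [← hS'2] at hy
        obtain ⟨a, ha, b, hb, rfl⟩ := Submodule.mem_sup.mp hy
        rw [map_add, hall b hb, add_zero]
        exact ha.2 s hs
      have hR : ∀ s' ∈ S', (∀ s ∈ S, β s s' = 0) → s' = 0 := by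
        intro s' hs' hall
        have h1 : s' ∈ Q ⊓ S' := ⟨⟨hS'X hs', hall⟩, hs'⟩
        rw [hS'1, Submodule.mem_bot] at h1
        exact h1
      have hSS' : S ⊓ S' = ⊥ := by
        rw [eq_bot_iff, ← hS'1]
        exact inf_le_inf_right _ hSQ
      have hT : AltOK ρ (S ⊔ S') :=
        hyper hSinv hS'inv hSS' β (fun g x hx y hy => hinv g x (hSX hx) y (hS'X hy)) hL hR
      have hCnd : ∀ x ∈ C, (∀ y ∈ C, β x y = 0) → x = 0 := by
        intro x hx hall
        obtain ⟨s₀, hs₀, hrep⟩ := exists_rep (A := S') (B := S) β.flip (fun b hb h' => hL b hb (fun a ha => by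
          simpa using h' a ha)) (finrank_le_of_pair β hR) x
        simp only [LinearMap.BilinForm.flip_apply] at hrep
        have hxs : x - s₀ = 0 := by
          apply hnd _ (X.sub_mem (hQX (hCQ hx)) (hSX hs₀))
          intro y hy
          rw [← hS'2] at hy
          obtain ⟨q, hq, s', hs', rfl⟩ := Submodule.mem_sup.mp hy
          have hq' := hq
          rw [← hC2] at hq
          obtain ⟨s, hs, c, hc, rfl⟩ := Submodule.mem_sup.mp hq
          have e1 : β x s = 0 := by
            rw [← hSsym s hs x (hQX (hCQ hx))]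
            exact (hCQ hx).2 s hs
          have e2 : β s₀ s = 0 := (hSQ hs).2 s₀ hs₀
          have e3 : β s₀ c = 0 := (hCQ hc).2 s₀ hs₀
          simp only [map_add, map_sub, LinearMap.sub_apply, e1, e2, e3, hall c hc, hrep s' hs']
          simp
        have hxeq : x = s₀ := sub_eq_zero.mp hxs
        have h1 : x ∈ S ⊓ C := ⟨hxeq ▸ hs₀, hx⟩
        rw [hC1, Submodule.mem_bot] at h1
        exact h1
      have hlt : finrank F C < n := by
        rw [← hn]
        apply Submodule.finrank_lt_finrank_of_lt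
        refine lt_of_le_of_ne (hCQ.trans hQX) ?_
        intro e
        apply hS0
        have h1 := hSX
        rw [← e] at h1
        rw [← inf_eq_left.mpr h1]
        exact hC1
      have hgood := ih _ hlt C rfl hCinv β
        (fun g x hx y hy => hinv g x (hQX (hCQ hx)) y (hQX (hCQ hy))) hCnd
      have hTC : (S ⊔ S') ⊓ C = ⊥ := by
        rw [← disjoint_iff]
        have h1 : Disjoint C S := (disjoint_iff.mpr hC1).symm
        have h2 : Disjoint (C ⊔ S) S' := by
          rw [sup_comm, hC2]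
          exact disjoint_iff.mpr hS'1
        exact (h1.disjoint_sup_right_of_disjoint_sup_left h2).symm
      have hXeq : (S ⊔ S') ⊔ C = X := by
        rw [sup_right_comm, hC2, hS'2]
      rw [← hXeq]
      exact hgood.add_alt (hSinv.sup hS'inv) hT hTC

end Main

/-- Let F be a finite field of characteristic p, G a finite group of order prime to p, and V a finite-dimensional representation of G over F carrying a nondegenerate G-invariant bilinear form (equivalently, V is self-dual). Then V is the direct sum of two G-invariant subspaces U and W such that U carries a G-invariant alternating bilinear form that is nondegenerate on U and W carries a G-invariant symmetric bilinear form that is nondegenerate on W; moreover when p = 2 the decomposition can be chosen with G acting trivially on W. -/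
theorem result {F : Type*} [Field F] [Fintype F] (p : ℕ) [Fact p.Prime] [CharP F p] {G : Type*} [Group G] [Finite G] (hcop : ¬ p ∣ Nat.card G) {V : Type*} [AddCommGroup V] [Module F V] [FiniteDimensional F V] (ρ : Representation F G V) (B : LinearMap.BilinForm F V) (hB : B.Nondegenerate) (hBinv : ∀ g : G, ∀ x y : V, B (ρ g x) (ρ g y) = B x y) : ∃ U W : Submodule F V, IsCompl U W ∧ (∀ g : G, ∀ u ∈ U, ρ g u ∈ U) ∧ (∀ g : G, ∀ w ∈ W, ρ g w ∈ W) ∧ (∃ A : LinearMap.BilinForm F V, (∀ x : V, A x x = 0) ∧ (∀ g : G, ∀ x ∈ U, ∀ y ∈ U, A (ρ g x) (ρ g y) = A x y) ∧ (∀ x ∈ U, (∀ y ∈ U, A x y = 0) → x = 0)) ∧ (∃ S : LinearMap.BilinForm F V, (∀ x y : V, S x y = S y x) ∧ (∀ g : G, ∀ x ∈ W, ∀ y ∈ W, S (ρ g x) (ρ g y) = S x y) ∧ (∀ x ∈ W, (∀ y ∈ W, S x y = 0) → x = 0)) ∧ (p = 2 → ∀ g : G, ∀ w ∈ W, ρ g w = w) := by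
  have hG : (Nat.card G : F) ≠ 0 := by
    rw [Ne, CharP.cast_eq_zero_iff F p]
    exact hcop
  obtain ⟨U, W, h1, h2, h3, h4, h5, h6, h7⟩ := main (p := p) (ρ := ρ) hG _ ⊤ rfl
    (fun _ _ _ => Submodule.mem_top) B (fun g x _ y _ => hBinv g x y)
    (fun x _ hall => hB.1 x (fun y => hall y Submodule.mem_top))
  exact ⟨U, W, ⟨disjoint_iff.mpr h1, codisjoint_iff.mpr h2⟩, h3, h4, h5, h6, h7⟩

end Cfsg.Agent.S4966
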