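import Cfsg.Statements.S4967
import Mathlib

set_option autoImplicit false
open Cfsg

namespace Cfsg.Agent.S4967

open Module

section Abstract

variable {F : Type*} [Field F] [Fintype F] {E : Type*} [Field E] [Algebra F E] [FiniteDimensional F E]
  {H : Type*} [CommGroup H] [Finite H] (φ : H →* E)

theorem abstract_fwd (hinj : Function.Injective φ) (hgen : Algebra.adjoin F (Set.range φ) = ⊤)
    (B : LinearMap.BilinForm F E) (hB : B.Nondegenerate)
    (hinv : ∀ (h : H) (x y : E), B (φ h * x) (φ h * y) = B x y) (hn : 2 ≤ finrank F E) :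
    Even (finrank F E) ∧ Nat.card H ∣ Fintype.card F ^ (finrank F E / 2) + 1 := by
  classical
  haveI : Finite E := Module.finite_of_finite F
  have hφinv : ∀ h : H, φ h * φ h⁻¹ = 1 := by
    intro h
    rw [← map_mul, mul_inv_cancel, map_one]
  have hall : ∀ a : E, a ∈ Algebra.adjoin F (Set.range φ) := by
    intro a
    rw [hgen]
    exact Algebra.mem_top
  have hstep : ∀ a : E, ∃ a' : E, ∀ x y : E, B (a' * x) y = B x (a * y) := by
    intro a
    induction hall a using Algebra.adjoin_induction with
    | mem x hx =>
      obtain ⟨h, rfl⟩ := hx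
      refine ⟨φ h⁻¹, fun x y => ?_⟩
      have := hinv h (φ h⁻¹ * x) y
      rw [← mul_assoc, hφinv, one_mul] at this
      exact this.symm
    | algebraMap c =>
      refine ⟨algebraMap F E c, fun x y => ?_⟩
      rw [← Algebra.smul_def, ← Algebra.smul_def, map_smul, map_smul, LinearMap.smul_apply]
    | add a b _ _ ha hb =>
      obtain ⟨a', ha'⟩ := ha
      obtain ⟨b', hb'⟩ := hb
      refine ⟨a' + b', fun x y => ?_⟩
      rw [add_mul, add_mul, map_add, map_add, LinearMap.add_apply, ha', hb']
    | mul a b _ _ ha hb =>
      obtain ⟨a', ha'⟩ := ha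
      obtain ⟨b', hb'⟩ := hb
      refine ⟨b' * a', fun x y => ?_⟩
      rw [mul_assoc, mul_assoc, hb', ha']
  choose σ hσ using hstep
  have huniq : ∀ a c : E, (∀ x y : E, B (c * x) y = B x (a * y)) → σ a = c := by
    intro a c hc
    rw [← sub_eq_zero]
    apply hB.1
    intro y
    have h1 := hσ a 1 y
    have h2 := hc 1 y
    rw [mul_one] at h1 h2
    rw [map_sub, LinearMap.sub_apply, h1, h2, sub_self]
  have hσφ : ∀ h : H, σ (φ h) = φ h⁻¹ := by
    intro h
    apply huniq
    intro x y
    have := hinv h (φ h⁻¹ * x) y
    rw [← mul_assoc, hφinv, one_mul] at this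
    exact this.symm
  have hσadd : ∀ a b, σ (a + b) = σ a + σ b := by
    intro a b
    apply huniq
    intro x y
    rw [add_mul, add_mul, map_add, map_add, LinearMap.add_apply, hσ, hσ]
  have hσmul : ∀ a b, σ (a * b) = σ a * σ b := by
    intro a b
    apply huniq
    intro x y
    rw [mul_comm (σ a), mul_assoc, mul_assoc, hσ, hσ]
  have hσalg : ∀ c : F, σ (algebraMap F E c) = algebraMap F E c := by
    intro c
    apply huniq
    intro x y
    rw [← Algebra.smul_def, ← Algebra.smul_def, map_smul, map_smul, LinearMap.smul_apply]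
  let s : E →ₐ[F] E :=
    { toFun := σ
      map_one' := by rw [← map_one (algebraMap F E), hσalg]
      map_mul' := hσmul
      map_zero' := by rw [← map_zero (algebraMap F E), hσalg]
      map_add' := hσadd
      commutes' := hσalg }
  have hsbij : Function.Bijective s :=
    ⟨s.toRingHom.injective, Finite.surjective_of_injective s.toRingHom.injective⟩
  let g : Gal(E/F) := AlgEquiv.ofBijective s hsbij
  have hgval : ∀ x, g x = σ x := fun _ => rfl
  obtain ⟨⟨i, hi⟩, hgi⟩ := (FiniteField.bijective_frobeniusAlgEquivOfAlgebraic_pow F E).2 g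
  simp only at hgi
  have hval : ∀ x, σ x = x ^ (Fintype.card F ^ i) := by
    intro x
    rw [← hgval, ← hgi, AlgEquiv.coe_pow, FiniteField.coe_frobeniusAlgEquivOfAlgebraic_iterate]
  -- `σ` is an involution
  have hσσ : ∀ a, σ (σ a) = a := by
    intro a
    induction hall a using Algebra.adjoin_induction with
    | mem x hx =>
      obtain ⟨h, rfl⟩ := hx
      rw [hσφ, hσφ, inv_inv]
    | algebraMap c => rw [hσalg, hσalg]
    | add a b _ _ ha hb => rw [hσadd, hσadd, ha, hb]
    | mul a b _ _ ha hb => rw [hσmul, hσmul, ha, hb]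
  have hg2 : g * g = 1 := by
    ext x
    exact hσσ x
  have hord : finrank F E ∣ 2 * i := by
    rw [← FiniteField.orderOf_frobeniusAlgEquivOfAlgebraic F E]
    apply orderOf_dvd_of_pow_eq_one
    rw [two_mul, pow_add, hgi, hg2]
  have hi0 : i ≠ 0 := by
    rintro rfl
    have hid : ∀ x, σ x = x := by
      intro x
      rw [hval]
      simp
    have h1 : (⊤ : Subalgebra F E) = ⊥ := by
      rw [eq_bot_iff, ← hgen, Algebra.adjoin_le_iff]
      rintro _ ⟨h, rfl⟩
      have h2 : φ h⁻¹ = φ h := by
        rw [← hσφ, hid]
      have h3 : φ h * φ h = 1 := by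
        have := hφinv h
        rwa [h2] at this
      have h4 : (φ h - 1) * (φ h + 1) = 0 := by
        have : (φ h - 1) * (φ h + 1) = φ h * φ h - 1 := by ring
        rw [this, h3, sub_self]
      rcases mul_eq_zero.mp h4 with h5 | h5
      · have h6 : φ h = algebraMap F E 1 := by
          rw [map_one]
          exact sub_eq_zero.mp h5
        rw [h6]
        exact Subalgebra.algebraMap_mem _ _
      · have h6 : φ h = algebraMap F E (-1) := by
          rw [map_neg, map_one]
          exact eq_neg_of_add_eq_zero_left h5
        rw [h6]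
        exact Subalgebra.algebraMap_mem _ _
    have h2 := Subalgebra.bot_eq_top_iff_finrank_eq_one.mp h1.symm
    omega
  obtain ⟨k, hk⟩ := hord
  have hk1 : k = 1 := by
    have hpos : 0 < finrank F E := by omega
    have hk0 : k ≠ 0 := by
      rintro rfl
      omega
    have hk2 : k < 2 := by
      by_contra hcon
      have : 2 ≤ k := by omega
      have : finrank F E * 2 ≤ finrank F E * k := Nat.mul_le_mul_left _ this
      omega
    omega
  subst hk1
  rw [mul_one] at hk
  have hn2 : finrank F E / 2 = i := by omega
  refine ⟨⟨i, by omega⟩, ?_⟩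
  rw [hn2]
  haveI : IsCyclic H := isCyclic_of_subgroup_isDomain φ hinj
  obtain ⟨h₀, hh₀⟩ := IsCyclic.exists_generator (α := H)
  rw [← orderOf_eq_card_of_forall_mem_zpowers hh₀]
  apply orderOf_dvd_of_pow_eq_one
  apply hinj
  rw [map_pow, map_one, pow_succ, ← hval, hσφ, mul_comm]
  exact hφinv h₀

theorem abstract_bwd (hev : Even (finrank F E)) (hdvd : Nat.card H ∣ Fintype.card F ^ (finrank F E / 2) + 1) :
    ∃ B : LinearMap.BilinForm F E, B.Nondegenerate ∧ ∀ (h : H) (x y : E), B (φ h * x) (φ h * y) = B x y := by
  classical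
  haveI : Finite E := Module.finite_of_finite F
  set m := finrank F E / 2 with hm
  let τ : Gal(E/F) := FiniteField.frobeniusAlgEquivOfAlgebraic F E ^ m
  have hτ : ∀ x, τ x = x ^ (Fintype.card F ^ m) := by
    intro x
    show (FiniteField.frobeniusAlgEquivOfAlgebraic F E ^ m) x = _
    rw [AlgEquiv.coe_pow, FiniteField.coe_frobeniusAlgEquivOfAlgebraic_iterate]
  have hT := traceForm_nondegenerate F E
  refine ⟨(Algebra.traceForm F E).compl₂ τ.toLinearMap, ⟨?_, ?_⟩, ?_⟩
  · intro x hx
    apply hT.1 x
    intro y
    have := hx (τ.symm y)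
    simpa using this
  · intro y hy
    have h1 : τ y = 0 := by
      apply hT.2
      intro x
      have := hy x
      simpa using this
    simpa using h1
  · intro h x y
    have h1 : φ h * τ (φ h) = 1 := by
      rw [hτ, ← map_pow, ← map_mul, ← pow_succ']
      rw [orderOf_dvd_iff_pow_eq_one.mp ((orderOf_dvd_natCard h).trans hdvd), map_one]
    simp only [LinearMap.compl₂_apply, Algebra.traceForm_apply, AlgEquiv.toLinearMap_apply, map_mul]
    congr 1
    calc φ h * x * (τ (φ h) * τ y) = (φ h * τ (φ h)) * (x * τ y) := by ring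
      _ = x * τ y := by rw [h1, one_mul]

end Abstract

universe u₁ u₂ v

theorem setup {F : Type u₁} [Field F] [Fintype F] {H : Type u₂} [CommGroup H] [Finite H] {V : Type v}
    [AddCommGroup V] [Module F V] [FiniteDimensional F V] (ρ : Representation F H V) [hV : Nontrivial V]
    (hfaith : Function.Injective ρ)
    (hirr : ∀ U : Submodule F V, (∀ h : H, ∀ u ∈ U, ρ h u ∈ U) → U = ⊥ ∨ U = ⊤) :
    ∃ (E : Type v) (_ : Field E) (_ : Algebra F E) (_ : FiniteDimensional F E) (φ : H →* E) (e : E ≃ₗ[F] V),
      Function.Injective φ ∧ Algebra.adjoin F (Set.range φ) = ⊤ ∧ ∀ h x, e (φ h * x) = ρ h (e x) := by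
  classical
  have hcomm : ∀ a ∈ Set.range ρ, ∀ b ∈ Set.range ρ, a * b = b * a := by
    rintro _ ⟨x, rfl⟩ _ ⟨y, rfl⟩
    rw [← map_mul, ← map_mul, mul_comm]
  set A : Subalgebra F (Module.End F V) := Algebra.adjoin F (Set.range ρ) with hA
  letI cr : CommRing A := Algebra.adjoinCommRingOfComm F hcomm
  have hmem : ∀ h : H, ρ h ∈ A := fun h => Algebra.subset_adjoin ⟨h, rfl⟩
  have hcom : ∀ (a : A) (h : H), a.1 * ρ h = ρ h * a.1 := by
    intro a h
    exact congrArg Subtype.val (mul_comm a ⟨ρ h, hmem h⟩)
  have hinjA : ∀ a : A, a ≠ 0 → Function.Injective a.1 := by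
    intro a ha
    rcases hirr (LinearMap.ker a.1) (by
      intro h u hu
      rw [LinearMap.mem_ker] at hu ⊢
      have h1 : a.1 (ρ h u) = (a.1 * ρ h) u := rfl
      rw [h1, hcom, Module.End.mul_apply, hu, map_zero]) with h1 | h1
    · exact LinearMap.ker_eq_bot.mp h1
    · exfalso
      apply ha
      apply Subtype.ext
      exact LinearMap.ker_eq_top.mp h1
  haveI hnz : NoZeroDivisors A := ⟨by
    intro a b hab
    by_cases ha : a = 0
    · exact Or.inl ha
    · right
      apply Subtype.ext
      ext v
      apply hinjA a ha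
      have h1 : (a * b).1 v = a.1 (b.1 v) := rfl
      rw [← h1, hab]
      simp⟩
  haveI hnt : Nontrivial A := ⟨⟨0, 1, by
    intro h
    obtain ⟨v, hv⟩ := exists_ne (0 : V)
    apply hv
    have := congrArg (fun a : A => a.1 v) h
    simpa using this.symm⟩⟩
  haveI hdom : IsDomain A := NoZeroDivisors.to_isDomain A
  haveI hfinE : Finite (Module.End F V) := Module.finite_of_finite F
  haveI hfin : Finite A := Subtype.finite
  letI hft : Fintype A := Fintype.ofFinite A
  letI fld : Field A := Fintype.fieldOfDomain A
  letI alg : Algebra F A := A.algebra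
  obtain ⟨v₀, hv₀⟩ := exists_ne (0 : V)
  let e₀ : A →ₗ[F] V :=
    { toFun := fun a => a.1 v₀
      map_add' := fun _ _ => rfl
      map_smul' := fun _ _ => rfl }
  have he₀inj : Function.Injective e₀ := by
    rw [injective_iff_map_eq_zero]
    intro a ha
    by_contra hne
    apply hv₀
    apply hinjA a hne
    rw [map_zero]
    exact ha
  have he₀surj : Function.Surjective e₀ := by
    rw [← LinearMap.range_eq_top]
    rcases hirr (LinearMap.range e₀) (by
      rintro h _ ⟨a, rfl⟩
      exact ⟨⟨ρ h, hmem h⟩ * a, rfl⟩) with h1 | h1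
    · exfalso
      apply hv₀
      have h2 : e₀ 1 ∈ LinearMap.range e₀ := ⟨1, rfl⟩
      rw [h1, Submodule.mem_bot] at h2
      exact h2
    · exact h1
  let e : A ≃ₗ[F] V := LinearEquiv.ofBijective e₀ ⟨he₀inj, he₀surj⟩
  let φ : H →* A :=
    { toFun := fun h => ⟨ρ h, hmem h⟩
      map_one' := Subtype.ext (map_one ρ)
      map_mul' := fun a b => Subtype.ext (map_mul ρ a b) }
  refine ⟨A, fld, alg, Module.Finite.of_finite, φ, e, ?_, ?_, ?_⟩
  · intro a b hab
    apply hfaith
    exact congrArg Subtype.val hab
  · rw [eq_top_iff]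
    rintro ⟨x, hx⟩ -
    induction hx using Algebra.adjoin_induction with
    | mem x hx =>
      obtain ⟨h, rfl⟩ := hx
      exact Algebra.subset_adjoin ⟨h, rfl⟩
    | algebraMap c => exact Subalgebra.algebraMap_mem _ c
    | add a b _ _ ha hb => exact Subalgebra.add_mem _ ha hb
    | mul a b _ _ ha hb => exact Subalgebra.mul_mem _ ha hb
  · intro h x
    rfl

/-- Let F be a finite field with r elements and of characteristic p, H a finite abelian group of order prime to p, and V a faithful irreducible representation of H over F of dimension n (faithful: distinct elements act differently; irreducible: the only H-invariant subspaces are 0 and V). Call V self-dual when it carries a nondegenerate H-invariant bilinear form. If n = 1 and V is self-dual then H has order at most 2. If n ≥ 2 then V is self-dual if and only if n is even and the order of H divides r^(n/2) + 1. -/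
theorem result {F : Type*} [Field F] [Fintype F] (p : ℕ) [Fact p.Prime] [CharP F p] {H : Type*} [CommGroup H] [Finite H] (hcop : ¬ p ∣ Nat.card H) {V : Type*} [AddCommGroup V] [Module F V] [FiniteDimensional F V] (ρ : Representation F H V) (hfaith : Function.Injective ρ) (hirr : ∀ U : Submodule F V, (∀ h : H, ∀ u ∈ U, ρ h u ∈ U) → U = ⊥ ∨ U = ⊤) : (Module.finrank F V = 1 → (∃ B : LinearMap.BilinForm F V, B.Nondegenerate ∧ ∀ h : H, ∀ x y : V, B (ρ h x) (ρ h y) = B x y) → Nat.card H ≤ 2) ∧ (2 ≤ Module.finrank F V → ((∃ B : LinearMap.BilinForm F V, B.Nondegenerate ∧ ∀ h : H, ∀ x y : V, B (ρ h x) (ρ h y) = B x y) ↔ (Even (Module.finrank F V) ∧ Nat.card H ∣ Fintype.card F ^ (Module.finrank F V / 2) + 1))) := by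
  classical
  refine ⟨?_, ?_⟩
  · intro hn ⟨B, hB, hinv⟩
    obtain ⟨v₀, hv₀, hspan⟩ := finrank_eq_one_iff'.mp hn
    have hB0 : B v₀ v₀ ≠ 0 := by
      intro h0
      apply hv₀
      apply hB.1
      intro y
      obtain ⟨c, rfl⟩ := hspan y
      rw [map_smul, h0, smul_zero]
    have hpm : ∀ h : H, ρ h v₀ = v₀ ∨ ρ h v₀ = -v₀ := by
      intro h
      obtain ⟨c, hc⟩ := hspan (ρ h v₀)
      have h1 := hinv h v₀ v₀
      rw [← hc, map_smul, map_smul, LinearMap.smul_apply, smul_smul, smul_eq_mul] at h1
      have h2 : c * c = 1 := by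
        apply mul_right_cancel₀ hB0
        rw [h1, one_mul]
      have h3 : (c - 1) * (c + 1) = 0 := by
        have : (c - 1) * (c + 1) = c * c - 1 := by ring
        rw [this, h2, sub_self]
      rcases mul_eq_zero.mp h3 with h4 | h4
      · left
        rw [← hc, sub_eq_zero.mp h4, one_smul]
      · right
        rw [← hc, eq_neg_of_add_eq_zero_left h4, neg_smul, one_smul]
    let f : H → Bool := fun h => decide (ρ h v₀ = v₀)
    have hf : Function.Injective f := by
      intro a b hab
      have h1 : ρ a v₀ = ρ b v₀ := by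
        have hab' : (ρ a v₀ = v₀) ↔ (ρ b v₀ = v₀) := by
          simpa [f] using hab
        rcases hpm a with h2 | h2
        · rw [h2]
          exact (hab'.mp h2).symm
        · rcases hpm b with h3 | h3
          · rw [h3]
            exact hab'.mpr h3
          · rw [h2, h3]
      apply hfaith
      ext w
      obtain ⟨c, rfl⟩ := hspan w
      rw [map_smul, map_smul, h1]
    have := Nat.card_le_card_of_injective f hf
    simpa using this
  · intro hn
    haveI : Nontrivial V := Module.nontrivial_of_finrank_pos (R := F) (by omega)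
    obtain ⟨E, _, _, _, φ, e, hinj, hgen, he⟩ := setup ρ hfaith hirr
    have hfr : finrank F E = finrank F V := e.finrank_eq
    rw [← hfr] at hn ⊢
    constructor
    · rintro ⟨B, hB, hinv⟩
      apply abstract_fwd φ hinj hgen (B.compl₁₂ e.toLinearMap e.toLinearMap) ?_ ?_ hn
      · constructor
        · intro x hx
          have h1 : e x = 0 := by
            apply hB.1
            intro y
            have := hx (e.symm y)
            simpa using this
          simpa using h1
        · intro y hy
          have h1 : e y = 0 := by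
            apply hB.2
            intro x
            have := hy (e.symm x)
            simpa using this
          simpa using h1
      · intro h x y
        simp only [LinearMap.compl₁₂_apply, LinearEquiv.coe_coe, he, hinv]
    · rintro ⟨hev, hdvd⟩
      obtain ⟨B, hB, hinv⟩ := abstract_bwd φ hev hdvd
      refine ⟨B.compl₁₂ e.symm.toLinearMap e.symm.toLinearMap, ?_, ?_⟩
      · constructor
        · intro x hx
          have h1 : e.symm x = 0 := by
            apply hB.1
            intro y
            have := hx (e y)
            simpa using this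
          simpa using h1
        · intro y hy
          have h1 : e.symm y = 0 := by
            apply hB.2
            intro x
            have := hy (e x)
            simpa using this
          simpa using h1
      · intro h x y
        have hs : ∀ w, e.symm (ρ h w) = φ h * e.symm w := by
          intro w
          apply e.injective
          rw [he]
          simp
        simp only [LinearMap.compl₁₂_apply, LinearEquiv.coe_coe, hs, hinv]

end Cfsg.Agent.S4967
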