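import Cfsg.Statements.S5013
import Cfsg.Agent.Lib.Root.RankOne
import Mathlib

set_option autoImplicit false
open Cfsg

namespace Cfsg.Agent.S5013

/-- In a rank one group with unipotent subgroups A and B (conjugation written g H g⁻¹), for every non-identity a in A the non-identity b in B with b⁻¹ A b = a⁻¹ B a is unique, every non-identity b in B arises in this way from exactly one such a (so a ↦ b(a) is a bijection between the non-identity elements of A and of B), and no non-identity element of A normalizes B (and vice versa). -/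
theorem result {G : Type*} [Group G] {A B : Subgroup G} (h : Cfsg.IsRankOnePair A B) :
    (∀ a ∈ A, a ≠ 1 → ∃! b : G, b ∈ B ∧ b ≠ 1 ∧ Cfsg.conjBy A b⁻¹ = Cfsg.conjBy B a⁻¹) ∧
    (∀ b ∈ B, b ≠ 1 → ∃! a : G, a ∈ A ∧ a ≠ 1 ∧ Cfsg.conjBy A b⁻¹ = Cfsg.conjBy B a⁻¹) ∧
    A ⊓ Subgroup.normalizer (B : Set G) = ⊥ ∧ B ⊓ Subgroup.normalizer (A : Set G) = ⊥ := by
  classical
  refine ⟨?_, ?_, ?_, ?_⟩
  · intro a ha ha1
    obtain ⟨b, hb, hb1, hc⟩ := h.cond_left a ha ha1
    refine ⟨b, ⟨hb, hb1, hc⟩, ?_⟩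
    rintro c ⟨hc', hc1, hce⟩
    have hn : c * b⁻¹ ∈ Subgroup.normalizer (A : Set G) := by
      apply Cfsg.Agent.Lib.Root.mem_normalizer_of_conj_le
      rw [Cfsg.Agent.Lib.Root.conjBy_mul, ← hce.trans hc.symm, ← Cfsg.Agent.Lib.Root.conjBy_mul]
      simp [Cfsg.Agent.Lib.Root.conjBy_one]
    have h1 := h.eq_one_of_mem_normalizer' (B.mul_mem hc' (B.inv_mem hb)) hn
    exact mul_inv_eq_one.mp h1
  · intro b hb hb1
    obtain ⟨a, ha, ha1, hc⟩ := h.cond_right b hb hb1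
    refine ⟨a, ⟨ha, ha1, hc.symm⟩, ?_⟩
    rintro c ⟨hc', hc1, hce⟩
    have hn : c * a⁻¹ ∈ Subgroup.normalizer (B : Set G) := by
      apply Cfsg.Agent.Lib.Root.mem_normalizer_of_conj_le
      rw [Cfsg.Agent.Lib.Root.conjBy_mul, hc.trans hce, ← Cfsg.Agent.Lib.Root.conjBy_mul]
      simp [Cfsg.Agent.Lib.Root.conjBy_one]
    have h1 := h.eq_one_of_mem_normalizer (A.mul_mem hc' (A.inv_mem ha)) hn
    exact mul_inv_eq_one.mp h1
  · rw [eq_bot_iff]
    rintro a ⟨ha, han⟩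
    exact h.eq_one_of_mem_normalizer ha han
  · rw [eq_bot_iff]
    rintro a ⟨ha, han⟩
    exact h.eq_one_of_mem_normalizer' ha han

end Cfsg.Agent.S5013
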