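import Cfsg.Statements.S5015
import Cfsg.Agent.Lib.Root.RankOne
import Mathlib

set_option autoImplicit false
open Cfsg

namespace Cfsg.Agent.S5015
open Cfsg.Agent.Lib.Root

/-- Let a group Y act doubly transitively on a set Ω with at least three points, and suppose that the stabilizer of a point α contains a nilpotent subgroup A, normalized by that stabilizer, which acts regularly on the points other than α. Then for any y in Y moving α, the subgroups A and y A y⁻¹ are the unipotent subgroups of a rank one group, and the normal closure of A in Y (the subgroup generated by all conjugates of A) is generated by A and y A y⁻¹ alone. -/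
theorem result {Y Ω : Type*} [Group Y] [MulAction Y Ω]
    (h2 : MulAction.IsMultiplyPretransitive Y Ω 2) (hΩ : 3 ≤ ENat.card Ω) (α : Ω) (A : Subgroup Y)
    (hA : A ≤ MulAction.stabilizer Y α) (hAn : ∀ y ∈ MulAction.stabilizer Y α, Cfsg.conjBy A y = A)
    (hnil : Group.IsNilpotent A) (hreg : ∀ β γ : Ω, β ≠ α → γ ≠ α → ∃! a : Y, a ∈ A ∧ a • β = γ)
    (y : Y) (hy : y ∉ MulAction.stabilizer Y α) :
    Cfsg.IsRankOnePair A (Cfsg.conjBy A y) ∧ Subgroup.normalClosure (A : Set Y) = A ⊔ Cfsg.conjBy A y := by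
  classical

  have hβ : y • α ≠ α := fun he => hy (MulAction.mem_stabilizer_iff.mpr he)
  set β := y • α with hβdef
  -- conjugate depends only on image of α
  have F1 : ∀ g h : Y, g • α = h • α → conjBy A g = conjBy A h := by
    intro g h he
    have hs : h⁻¹ * g ∈ MulAction.stabilizer Y α := by
      rw [MulAction.mem_stabilizer_iff, mul_smul, he, inv_smul_smul]
    have h1 := hAn _ hs
    have : g = h * (h⁻¹ * g) := by group
    rw [this, conjBy_mul, h1]
  -- freeness
  have F2 : ∀ a ∈ A, a ≠ 1 → ∀ γ : Ω, γ ≠ α → a • γ ≠ γ := by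
    intro a ha ha1 γ hγ he
    obtain ⟨c, -, hc⟩ := hreg γ γ hγ hγ
    have h1 := hc a ⟨ha, he⟩
    have h2 := hc 1 ⟨A.one_mem, one_smul _ _⟩
    exact ha1 (h1.trans h2.symm)
  have hfix : ∀ a ∈ A, a • α = α := fun a ha => MulAction.mem_stabilizer_iff.mp (hA ha)
  -- the other subgroup
  set B := conjBy A y with hB
  have hBfix : ∀ b ∈ B, b • β = β := by
    intro b hb
    have h1 : y⁻¹ * b * y ∈ A := mem_conjBy.mp hb
    have h2 := hfix _ h1
    rw [mul_smul, mul_smul, inv_smul_eq_iff] at h2
    exact h2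
  have F3 : ∀ γ δ : Ω, γ ≠ β → δ ≠ β → ∃ b ∈ B, b • γ = δ := by
    intro γ δ hγ hδ
    have h1 : y⁻¹ • γ ≠ α := by
      intro he
      apply hγ
      rw [hβdef, ← he, smul_inv_smul]
    have h2 : y⁻¹ • δ ≠ α := by
      intro he
      apply hδ
      rw [hβdef, ← he, smul_inv_smul]
    obtain ⟨a, ⟨ha, hae⟩, -⟩ := hreg _ _ h1 h2
    refine ⟨y * a * y⁻¹, conj_mem_conjBy ha, ?_⟩
    rw [mul_smul, mul_smul, hae, smul_inv_smul]
  have F4 : ∀ b ∈ B, b ≠ 1 → ∀ γ : Ω, γ ≠ β → b • γ ≠ γ := by
    intro b hb hb1 γ hγ he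
    have h1 : y⁻¹ * b * y ∈ A := mem_conjBy.mp hb
    have h2 : y⁻¹ * b * y ≠ 1 := by
      intro h0
      apply hb1
      have : b = y * (y⁻¹ * b * y) * y⁻¹ := by group
      rw [this, h0]
      simp
    have h3 : y⁻¹ • γ ≠ α := by
      intro he'
      apply hγ
      rw [hβdef, ← he', smul_inv_smul]
    apply F2 _ h1 h2 _ h3
    rw [mul_smul, mul_smul, smul_inv_smul, he]
  constructor
  · refine ⟨?_, hnil, conjBy_isNilpotent hnil y, ?_, ?_⟩
    · -- A ≠ B
      intro he
      obtain ⟨γ, h1, h2⟩ : ∃ γ : Ω, γ ≠ α ∧ γ ≠ β := by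
        by_contra hcon
        push Not at hcon
        have huniv : (Set.univ : Set Ω) ⊆ {α, β} := by
          intro z _
          by_cases hz : z = α
          · simp [hz]
          · simp [hcon z hz]
        have h3 : ENat.card Ω ≤ 2 := by
          rw [← Set.encard_univ]
          exact (Set.encard_le_encard huniv).trans (Set.encard_pair hβ.symm).le
        have := hΩ.trans h3
        exact absurd this (by decide)
      obtain ⟨a, ⟨ha, hae⟩, -⟩ := hreg β γ hβ h1
      have ha' : a ∈ B := he ▸ ha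
      rw [hBfix a ha'] at hae
      exact h2 hae.symm
    · -- left condition
      intro a ha ha1
      have ha' : a⁻¹ ∈ A := A.inv_mem ha
      have ha1' : a⁻¹ ≠ 1 := by simpa using ha1
      have h1 : a⁻¹ • β ≠ β := F2 _ ha' ha1' _ hβ
      have h3 : α ≠ β := hβ.symm
      obtain ⟨b, hb, hbe⟩ := F3 (a⁻¹ • β) α h1 h3
      have h4 : a⁻¹ • β ≠ α := by
        intro he
        apply hβ
        have := congrArg (fun z => a • z) he
        simpa [hfix a ha] using this
      refine ⟨b, hb, ?_, ?_⟩
      · rintro rfl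
        rw [one_smul] at hbe
        exact h4 hbe
      · have e : b⁻¹ • α = (a⁻¹ * y) • α := by
          rw [inv_smul_eq_iff, mul_smul, hbe]
        rw [F1 _ _ e, conjBy_mul]
    · -- right condition
      intro b hb hb1
      have hb' : b⁻¹ ∈ B := B.inv_mem hb
      have hb1' : b⁻¹ ≠ 1 := by simpa using hb1
      have h1 : b⁻¹ • α ≠ α := F4 _ hb' hb1' _ hβ.symm
      obtain ⟨a, ⟨ha, hae⟩, -⟩ := hreg (b⁻¹ • α) β h1 hβ
      have h4 : b⁻¹ • α ≠ β := by
        intro he
        apply hβ.symm
        have := congrArg (fun z => b • z) he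
        simpa [hBfix b hb] using this
      refine ⟨a, ha, ?_, ?_⟩
      · rintro rfl
        rw [one_smul] at hae
        exact h4 hae
      · have e : (a⁻¹ * y) • α = b⁻¹ • α := by
          rw [mul_smul, ← hβdef, inv_smul_eq_iff, hae]
        rw [hB, ← conjBy_mul]
        exact F1 _ _ e
  · apply le_antisymm
    · rw [Subgroup.normalClosure, Subgroup.closure_le]
      intro x hx
      obtain ⟨z, hz, hzx⟩ := Group.mem_conjugatesOfSet_iff.mp hx
      obtain ⟨g, rfl⟩ := isConj_iff.mp hzx
      have hmem : g * z * g⁻¹ ∈ conjBy A g := conj_mem_conjBy hz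
      by_cases hg : g • α = α
      · have : conjBy A g = A := by
          rw [F1 g 1 (by rw [hg, one_smul]), conjBy_one]
        rw [this] at hmem
        exact (le_sup_left : A ≤ A ⊔ B) hmem
      · obtain ⟨a, ⟨ha, hae⟩, -⟩ := hreg β (g • α) hβ hg
        have e : g • α = (a * y) • α := by rw [mul_smul, ← hβdef, hae]
        rw [F1 _ _ e, conjBy_mul] at hmem
        have hle : conjBy B a ≤ A ⊔ B := by
          intro w hw
          have h1 : a⁻¹ * w * a ∈ B := mem_conjBy.mp hw
          have h2 : w = a * (a⁻¹ * w * a) * a⁻¹ := by group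
          rw [h2]
          exact Subgroup.mul_mem _ (Subgroup.mul_mem _ ((le_sup_left : A ≤ A ⊔ B) ha)
            ((le_sup_right : B ≤ A ⊔ B) h1)) ((le_sup_left : A ≤ A ⊔ B) (A.inv_mem ha))
        exact hle hmem
    · refine sup_le (fun w hw => Subgroup.subset_normalClosure hw) ?_
      intro w hw
      have h1 : y⁻¹ * w * y ∈ A := mem_conjBy.mp hw
      have h2 := (Subgroup.normalClosure_normal (s := (A : Set Y))).conj_mem _
        (Subgroup.subset_normalClosure h1) y
      have h3 : y * (y⁻¹ * w * y) * y⁻¹ = w := by group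
      rwa [h3] at h2

end Cfsg.Agent.S5015
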