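import Cfsg.Statements.S5018
import Cfsg.Agent.Lib.Root.RankOne
import Mathlib

set_option autoImplicit false
open Cfsg

namespace Cfsg.Agent.S5018
open Cfsg.Agent.Lib.Root

/-- A rank one group is not nilpotent, and its second centre equals its centre. -/
theorem result {X : Type*} [Group X] {A B : Subgroup X} (h : Cfsg.IsRankOneGroup X A B) :
    Subgroup.upperCentralSeries X 2 = Subgroup.center X ∧ ¬ Group.IsNilpotent X := by
  classical
  obtain ⟨htop, hp⟩ := h
  have hZ2 : Subgroup.upperCentralSeries X 2 = Subgroup.center X := by
    apply le_antisymm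
    · set N := Subgroup.upperCentralSeries X 2 with hNdef
      have hN : N.Normal := inferInstance
      have hcomm : ∀ z ∈ N, ∀ y : X, z * y * z⁻¹ * y⁻¹ ∈ Subgroup.center X := by
        intro z hz y
        have := (Subgroup.mem_upperCentralSeries_succ_iff (n := 1) (x := z)).mp hz y
        rwa [Subgroup.upperCentralSeries_one, commutatorElement_def] at this
      have H : ∀ n ∈ N, ∀ C ∈ Cfsg.unipotentSubgroups A B, Cfsg.conjBy C n = C := by
        intro n hn C hC
        by_contra hne
        obtain ⟨x, -, hx⟩ := hp.exists_conj_moving hC (by rw [htop]; trivial) hne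
        have hnn : x * n * x⁻¹ ∈ N := hN.conj_mem n hn x
        set n' := x * n * x⁻¹
        obtain ⟨b, hb, hb1⟩ := hp.exists_ne_one_right
        apply hb1
        apply hp.eq_one_of_mem_normalizer' hb
        -- b = w a, w central, a ∈ A
        rw [← hx] at hb
        have h1 : n'⁻¹ * b * n' ∈ A := mem_conjBy.mp hb
        set a := n'⁻¹ * b * n' with ha
        have hw := hcomm n' hnn a
        set w := n' * a * n'⁻¹ * a⁻¹ with hwdef
        have h2 : b = w * a := by
          rw [hwdef, ha]; group
        rw [h2]
        have h3 : w ∈ Subgroup.normalizer (A : Set X) := by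
          rw [Subgroup.mem_normalizer_iff]
          intro y
          have : w * y * w⁻¹ = y := by
            rw [(Subgroup.mem_center_iff.mp hw y).symm]
            simp
          rw [this]
        exact Subgroup.mul_mem _ h3 (Subgroup.le_normalizer h1)
      have hNA : N ≤ Subgroup.normalizer (A : Set X) := fun n hn =>
        mem_normalizer_of_conj_le (H n hn A left_mem_unipotent)
      have hNB : N ≤ Subgroup.normalizer (B : Set X) := fun n hn =>
        mem_normalizer_of_conj_le (H n hn B hp.right_mem_unipotent)
      have hnorm : ∀ K : Subgroup X, K ≤ Subgroup.normalizer (N : Set X) := fun K k _ => by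
        rw [Subgroup.mem_normalizer_iff]
        intro y
        constructor
        · exact fun hy => hN.conj_mem y hy k
        · intro hy
          have := hN.conj_mem _ hy k⁻¹
          simpa [mul_assoc] using this
      intro n hn
      rw [Subgroup.mem_center_iff]
      intro g
      have := hp.commute_of_mem_of_normalizes hNA hNB (hnorm A) (hnorm B) hn
        (x := g) (by rw [htop]; trivial)
      exact this.symm
    · rw [← Subgroup.upperCentralSeries_one]
      exact Subgroup.upperCentralSeries_mono X (by norm_num)
  refine ⟨hZ2, ?_⟩
  intro hnil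
  obtain ⟨n, hn⟩ := hnil.nilpotent'
  have hall : ∀ m : ℕ, 1 ≤ m → Subgroup.upperCentralSeries X m = Subgroup.center X := by
    intro m hm
    induction m, hm using Nat.le_induction with
    | base => exact Subgroup.upperCentralSeries_one X
    | succ m hm ih =>
      ext x
      rw [Subgroup.mem_upperCentralSeries_succ_iff, ih, ← Subgroup.upperCentralSeries_one,
        ← Subgroup.mem_upperCentralSeries_succ_iff, hZ2, Subgroup.upperCentralSeries_one]
  have htopc : Subgroup.center X = ⊤ := by
    rw [← hall (n + 1) (by omega), eq_top_iff]
    rw [← hn]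
    exact Subgroup.upperCentralSeries_mono X (by omega)
  obtain ⟨b, hb, hb1⟩ := hp.exists_ne_one_right
  apply hb1
  apply hp.eq_one_of_mem_normalizer' hb
  rw [Subgroup.mem_normalizer_iff]
  intro y
  have hbc : b ∈ Subgroup.center X := by rw [htopc]; trivial
  have : b * y * b⁻¹ = y := by
    rw [(Subgroup.mem_center_iff.mp hbc y).symm]
    simp
  rw [this]

end Cfsg.Agent.S5018
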