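import Cfsg.Statements.S5019
import Cfsg.Agent.Lib.Root.QuadRep
import Mathlib

set_option autoImplicit false
open Cfsg

namespace Cfsg.Agent.S5019

lemma qOf_apply {X N : Type*} [Group X] [AddCommGroup N] [DistribMulAction X N] (x : X) (n : N) :
    (Cfsg.Agent.Lib.Root.qOf (DistribMulAction.toAddMonoidEnd X N) x) n = x • n - n := by
  rfl

/-- Let X be a rank one group with abelian unipotent subgroups A and B, and suppose X acts on an abelian group N (written additively) in such a way that A acts quadratically, meaning a' • (a • n − n) = a • n − n for all a, a' in A and n in N, while X as a whole does not: y • (x • n − n) ≠ x • n − n for some x, y in X and n in N. Then X is a special rank one group. -/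
theorem result {X : Type*} [Group X] {A B : Subgroup X} (h : Cfsg.IsRankOneGroup X A B)
    (hab : Cfsg.HasAbelianUnipotents A B) {N : Type*} [AddCommGroup N] [DistribMulAction X N]
    (hq : ∀ a ∈ A, ∀ a' ∈ A, ∀ n : N, a' • (a • n - n) = a • n - n)
    (hX : ∃ x y : X, ∃ n : N, y • (x • n - n) ≠ x • n - n) : Cfsg.IsSpecialRankOnePair A B := by
  have hqq : ∀ a ∈ A, ∀ a' ∈ A, Cfsg.Agent.Lib.Root.qOf (DistribMulAction.toAddMonoidEnd X N) a' *
      Cfsg.Agent.Lib.Root.qOf (DistribMulAction.toAddMonoidEnd X N) a = 0 := by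
    intro a ha a' ha'
    ext n
    change (Cfsg.Agent.Lib.Root.qOf (DistribMulAction.toAddMonoidEnd X N) a') ((Cfsg.Agent.Lib.Root.qOf (DistribMulAction.toAddMonoidEnd X N) a) n) = 0
    rw [qOf_apply, qOf_apply]
    have := hq a ha a' ha' n
    simp [this]
  have hXX : ∃ x y : X, Cfsg.Agent.Lib.Root.qOf (DistribMulAction.toAddMonoidEnd X N) y *
      Cfsg.Agent.Lib.Root.qOf (DistribMulAction.toAddMonoidEnd X N) x ≠ 0 := by
    obtain ⟨x, y, n, hn⟩ := hX
    refine ⟨x, y, fun h0 => hn ?_⟩
    have := congrArg (fun f : AddMonoid.End N => f n) h0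
    change (Cfsg.Agent.Lib.Root.qOf (DistribMulAction.toAddMonoidEnd X N) y) ((Cfsg.Agent.Lib.Root.qOf (DistribMulAction.toAddMonoidEnd X N) x) n) = 0 at this
    rw [qOf_apply, qOf_apply] at this
    exact sub_eq_zero.mp this
  exact Cfsg.Agent.Lib.Root.special_of_quadRep h.1 h.2 hqq hXX

end Cfsg.Agent.S5019
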