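import Cfsg.Statements.S5020
import Cfsg.Agent.Lib.Root.PerfectCore
import Cfsg.Agent.Lib.Root.SmallSL2
import Cfsg.Agent.S5017
import Mathlib

set_option autoImplicit false
open Cfsg

namespace Cfsg.Agent.S5020

open Cfsg.Agent.Lib.Root

lemma small_case {X : Type*} [Group X] {A B : Subgroup X} (htop : A ⊔ B = ⊤)
    (hp : Cfsg.IsRankOnePair A B)
    (hs : ∀ a ∈ A, a ≠ 1 → ∀ b ∈ B, b ≠ 1 → Cfsg.conjBy A b⁻¹ = Cfsg.conjBy B a⁻¹ →
      b⁻¹ * a * b = a⁻¹ * b⁻¹ * a)
    (hcard : ENat.card A ≤ 3) :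
    Nonempty (X ≃* Matrix.SpecialLinearGroup (Fin 2) (ZMod 2)) ∨
        Nonempty (X ≃* Matrix.SpecialLinearGroup (Fin 2) (ZMod 3)) ∨
        Nonempty (X ≃* Matrix.ProjectiveSpecialLinearGroup (Fin 2) (ZMod 3)) := by
  classical
  have hfin : Finite ↥A := by
    rw [← ENat.card_lt_top]
    exact lt_of_le_of_lt hcard (by decide)
  obtain ⟨a, ha, ha1⟩ := hp.exists_ne_one_left
  obtain ⟨b, hb, hb1, hrel⟩ := hp.cond_left a ha ha1
  have hP : IsPartner A B a b := ⟨ha, ha1, hb, hb1, hrel⟩
  have hbr := partner_braid hs hP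
  have hn := partner_n_left hs hP
  set n := a * b⁻¹ * a with hnd
  have hAn : Cfsg.conjBy A n⁻¹ = B := partner_conj_A hp hs hP
  have hc1 : b⁻¹ ≠ 1 := inv_ne_one.mpr hb1
  have hcA : b⁻¹ ∉ A := by
    intro h
    apply hc1
    exact hp.eq_one_of_mem_normalizer' (B.inv_mem hb)
      (mem_normalizer_of_conj_le (conjBy_eq_self_of_mem h))
  -- cardinalities
  have hNle : Nat.card A ≤ 3 := by
    rw [ENat.card_eq_coe_natCard] at hcard
    exact_mod_cast hcard
  have hnt : Nontrivial ↥A := ⟨⟨⟨a, ha⟩, 1, fun h => ha1 (congrArg Subtype.val h)⟩⟩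
  have hNge : 1 < Nat.card A := Finite.one_lt_card_iff_nontrivial.mpr hnt
  have hpow : ∀ k : ℕ, a ^ k = 1 → (b⁻¹) ^ k = 1 := by
    intro k hk
    rw [inv_pow, (partner_pow_iff hs hP k).mp hk, inv_one]
  have hanp : a ^ Nat.card A = 1 := by
    have := pow_card_eq_one' (x := (⟨a, ha⟩ : ↥A))
    exact congrArg Subtype.val this
  -- generation
  have hgen : ∀ {Y : Type _} [Group Y], (Nat.card A).Prime → A ≤ Subgroup.zpowers a := by
    intro Y _ hprime
    haveI : Fact (Nat.card A).Prime := ⟨hprime⟩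
    intro x hx
    have h1 := mem_zpowers_of_prime_card (G := ↥A) rfl (g := ⟨a, ha⟩) (g' := ⟨x, hx⟩)
      (fun h => ha1 (congrArg Subtype.val h))
    obtain ⟨k, hk⟩ := h1
    exact ⟨k, by simpa using congrArg Subtype.val hk⟩
  have hBgen : A ≤ Subgroup.zpowers a → B ≤ Subgroup.zpowers (b⁻¹) := by
    intro hA y hy
    rw [← hAn, mem_conjBy, inv_inv] at hy
    obtain ⟨k, hk⟩ := hA hy
    refine ⟨k, ?_⟩
    have h2 : (n⁻¹ * a * n) ^ k = n⁻¹ * a ^ k * n := by
      have := conj_zpow (a := n⁻¹) (b := a) (i := k)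
      simpa using this
    simp only at hk
    rw [hn] at h2
    show (b⁻¹) ^ k = y
    rw [h2, hk]
    group
  have hsurj : ∀ {E : Type} [Group E] (f : E →* X) (a₀ c₀ : E), f a₀ = a → f c₀ = b⁻¹ →
      A ≤ Subgroup.zpowers a → Function.Surjective f := by
    intro E _ f a₀ c₀ h1 h2 hA
    rw [← MonoidHom.range_eq_top, eq_top_iff, ← htop]
    have hra : a ∈ f.range := ⟨a₀, h1⟩
    have hrc : b⁻¹ ∈ f.range := ⟨c₀, h2⟩
    refine sup_le (hA.trans ?_) ((hBgen hA).trans ?_)
    · rw [Subgroup.zpowers_le]; exact hra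
    · rw [Subgroup.zpowers_le]; exact hrc
  have hcases : Nat.card A = 2 ∨ Nat.card A = 3 := by omega
  rcases hcases with h2 | h3
  · -- the case `p = 2`
    left
    have hA := hgen (Y := X) (by rw [h2]; exact Nat.prime_two)
    rw [h2] at hanp
    have ha2 : a * a = 1 := by rw [← pow_two]; exact hanp
    have hc2 : b⁻¹ * b⁻¹ = 1 := by rw [← pow_two]; exact hpow 2 hanp
    obtain ⟨f, hfa, hfc⟩ := exists_hom_sl2 ha2 hc2 hbr
    have hs' := hsurj f sl2a sl2c hfa hfc hA
    have hinj : Function.Injective f := by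
      rw [injective_iff_map_eq_one]
      intro g hg
      rcases sl2_kernel g with rfl | rfl | rfl | ⟨k, hk⟩
      · rfl
      · exfalso
        rw [map_mul, hfa, hfc] at hg
        apply hcA
        have : b⁻¹ = a⁻¹ := by
          rw [eq_inv_iff_mul_eq_one]
          have h5 : a * b⁻¹ = 1 := hg
          exact (mul_eq_one_iff_eq_inv.mp h5 |>.symm ▸ by group)
        rw [this]; exact A.inv_mem ha
      · exfalso
        rw [map_inv, map_mul, hfa, hfc, inv_eq_one] at hg
        apply hcA
        have : b⁻¹ = a⁻¹ := by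
          rw [eq_inv_iff_mul_eq_one]
          exact (mul_eq_one_iff_eq_inv.mp hg |>.symm ▸ by group)
        rw [this]; exact A.inv_mem ha
      · exfalso
        apply ha1
        rw [← hfa, ← hk, map_mul, map_mul, hg, map_inv]
        group
    exact ⟨(MulEquiv.ofBijective f ⟨hinj, hs'⟩).symm⟩
  · -- the case `p = 3`
    right
    have hA := hgen (Y := X) (by rw [h3]; exact Nat.prime_three)
    rw [h3] at hanp
    have ha3 : a * a * a = 1 := by rw [← pow_three']; exact hanp
    have hc3 : b⁻¹ * b⁻¹ * b⁻¹ = 1 := by rw [← pow_three']; exact hpow 3 hanp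
    obtain ⟨f, hfa, hfc⟩ := exists_hom_sl3 ha3 hc3 hbr
    have hs' := hsurj f sl3a sl3c hfa hfc hA
    have hker : ∀ g : SL23, f g = 1 → g = 1 ∨ g = -1 := by
      intro g hg
      rcases sl3_kernel g with h | h | ⟨h, k, hk⟩
      · exact Or.inl h
      · exact Or.inr h
      · exfalso
        have hi : f (sl3a * sl3c * sl3a) = 1 := by
          rcases hk with hk | hk
          · rw [← hk, map_mul, map_mul, hg, map_inv]; group
          · rw [← hk]
            simp only [map_mul, map_inv, hg]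
            group
        rw [map_mul, map_mul, hfa, hfc] at hi
        apply hcA
        have : b⁻¹ = a := by
          have h5 : b⁻¹ = a⁻¹ * (a * b⁻¹ * a) * a⁻¹ := by group
          rw [h5, hi]
          calc a⁻¹ * 1 * a⁻¹ = a⁻¹ * a⁻¹ * 1 := by group
            _ = a⁻¹ * a⁻¹ * (a * a * a) := by rw [ha3]
            _ = a := by group
        rw [this]; exact ha
    by_cases hinj : Function.Injective f
    · left
      exact ⟨(MulEquiv.ofBijective f ⟨hinj, hs'⟩).symm⟩
    · right
      rw [injective_iff_map_eq_one] at hinj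
      push Not at hinj
      obtain ⟨g, hg, hg1⟩ := hinj
      have hm1 : f (-1) = 1 := by
        rcases hker g hg with h | h
        · exact absurd h hg1
        · rw [← h]; exact hg
      have hkereq : f.ker = Subgroup.center SL23 := by
        ext x
        rw [MonoidHom.mem_ker, sl3_center]
        constructor
        · exact hker x
        · rintro (rfl | rfl)
          · exact map_one f
          · exact hm1
      exact ⟨((QuotientGroup.quotientMulEquivOfEq hkereq).symm.trans
        (QuotientGroup.quotientKerEquivOfSurjective f hs')).symm⟩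

/-- Let X be a special rank one group with abelian unipotent subgroups A and B, and H = N(A) ∩ N(B) its diagonal subgroup. Then either A has at most three elements and X is isomorphic to SL₂(2), SL₂(3) or PSL₂(3); or X = X' A with the commutator subgroup X' quasisimple and the commutator subgroup ⁅A, H⁆ having more than three elements. -/
theorem result {X : Type*} [Group X] {A B : Subgroup X} (h : Cfsg.IsRankOneGroup X A B)
    (hs : Cfsg.IsSpecialRankOnePair A B) (hab : Cfsg.HasAbelianUnipotents A B) :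
    (ENat.card A ≤ 3 ∧ (Nonempty (X ≃* Matrix.SpecialLinearGroup (Fin 2) (ZMod 2)) ∨
        Nonempty (X ≃* Matrix.SpecialLinearGroup (Fin 2) (ZMod 3)) ∨
        Nonempty (X ≃* Matrix.ProjectiveSpecialLinearGroup (Fin 2) (ZMod 3)))) ∨
    (commutator X ⊔ A = ⊤ ∧ Cfsg.IsQuasisimple (commutator X) ∧
      3 < ENat.card ↥(⁅A, Cfsg.rankOneDiagonal A B⁆ : Subgroup X)) := by
  classical
  obtain ⟨htop, hp⟩ := h
  obtain ⟨hAc, hBc⟩ := hab
  have hcomm : ∀ x ∈ A, ∀ y ∈ A, x * y = y * x := fun x hx y hy =>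
    congrArg Subtype.val (hAc.is_comm.comm ⟨x, hx⟩ ⟨y, hy⟩)
  by_cases hcard : 3 < ENat.card A
  · right
    have hcore := special_core hp hs.2 hcomm hcard
    have hQ : ⁅A, Cfsg.rankOneDiagonal A B⁆ = A := le_antisymm (diag_commutator_le A B) hcore
    have hAle : A ≤ commutator X := by
      rw [commutator_def]
      refine hcore.trans ((diag_commutator_le_commutator A B).trans ?_)
      rw [htop]
    have hBle : B ≤ commutator X := by
      obtain ⟨a, ha, ha1⟩ := hp.exists_ne_one_left
      obtain ⟨b, hb, hb1, hrel⟩ := hp.cond_left a ha ha1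
      have hP : IsPartner A B a b := ⟨ha, ha1, hb, hb1, hrel⟩
      have hAn := partner_conj_A hp hs.2 hP
      rw [← hAn]
      intro y hy
      have h1 := hAle (mem_conjBy.mp hy)
      have hnorm : (commutator X).Normal := inferInstance
      have h2 := hnorm.conj_mem _ h1 (a * b⁻¹ * a)⁻¹
      have e : (a * b⁻¹ * a)⁻¹ * ((a * b⁻¹ * a)⁻¹⁻¹ * y * (a * b⁻¹ * a)⁻¹) * (a * b⁻¹ * a)⁻¹⁻¹ = y := by
        group
      rwa [e] at h2
    have htop' : commutator X = ⊤ := by
      rw [eq_top_iff, ← htop]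
      exact sup_le hAle hBle
    have hperf : Group.IsPerfect X := ⟨htop'⟩
    have hq := (Cfsg.Agent.S5017.result (X := X) ⟨htop, hp⟩).2 hperf
    refine ⟨by rw [htop', top_sup_eq], ?_, by rw [hQ]; exact hcard⟩
    rw [htop']
    haveI : Nontrivial X := by
      obtain ⟨a, -, ha1⟩ := hp.exists_ne_one_left
      exact ⟨⟨a, 1, ha1⟩⟩
    haveI : Nontrivial (⊤ : Subgroup X) := inferInstance
    exact Cfsg.Agent.Lib.Components.qs_of_surjective hq
      ((Subgroup.topEquiv : (⊤ : Subgroup X) ≃* X).symm.toMonoidHom)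
      (MulEquiv.surjective _)
  · left
    have hle : ENat.card A ≤ 3 := not_lt.mp hcard
    exact ⟨hle, small_case htop hp hs.2 hle⟩

end Cfsg.Agent.S5020
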