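import Cfsg.Statements.S5021
import Cfsg.Agent.Lib.Root.SpecialArith
import Mathlib

set_option autoImplicit false
open Cfsg

namespace Cfsg.Agent.S5021

/-- In a special rank one group with abelian unipotent subgroups A and B, either A is an elementary abelian p-group for some prime p, or A is torsion-free and divisible (every element of A has an n-th root in A for every positive n). -/
theorem result {X : Type*} [Group X] {A B : Subgroup X} (h : Cfsg.IsRankOneGroup X A B)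
    (hs : Cfsg.IsSpecialRankOnePair A B) (hab : Cfsg.HasAbelianUnipotents A B) :
    (∃ p : ℕ, p.Prime ∧ Cfsg.IsElementaryAbelian p A) ∨
    ((∀ a ∈ A, a ≠ 1 → ¬ IsOfFinOrder a) ∧ ∀ a ∈ A, ∀ n : ℕ, 0 < n → ∃ c ∈ A, c ^ n = a) := by
  obtain ⟨hgen, hp⟩ := h
  obtain ⟨-, hs'⟩ := hs
  have hAc : ∀ x ∈ A, ∀ y ∈ A, x * y = y * x := fun x hx y hy =>
    congrArg Subtype.val (hab.1.is_comm.comm ⟨x, hx⟩ ⟨y, hy⟩)
  have hBc : ∀ x ∈ B, ∀ y ∈ B, x * y = y * x := fun x hx y hy =>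
    congrArg Subtype.val (hab.2.is_comm.comm ⟨x, hx⟩ ⟨y, hy⟩)
  rcases Cfsg.Agent.Lib.Root.special_dichotomy hp hs' hBc hAc with ⟨p, hpp, hpw⟩ | h2
  · exact Or.inl ⟨p, hpp, hab.1, hpw⟩
  · exact Or.inr h2

end Cfsg.Agent.S5021
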