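import Cfsg.Statements.S5022
import Cfsg.Agent.Lib.Root.PrimeBraid
import Cfsg.Agent.Lib.Root.SpecialArith
import Cfsg.Agent.Lib.Root.SmallSL2
import Cfsg.Agent.Lib.Classical.PSL2Simple

set_option autoImplicit false
open Cfsg

namespace Cfsg.Agent.S5022

open Cfsg.Agent.Lib.Root Cfsg.Agent.Lib.Root.PrimeBraid Cfsg.Agent.Lib.Chev.SL2

lemma iso_of_inj {S X : Type*} [Group S] [Group X] (f : S →* X) (hinj : Function.Injective f)
    {W : Subgroup X} (hr : f.range = W) : Nonempty (↥W ≃* S) :=
  ⟨(MulEquiv.subgroupCongr hr.symm).trans (MonoidHom.ofInjective hinj).symm⟩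

lemma iso_final {S X : Type*} [Group S] [Group X] (f : S →* X) {W : Subgroup X} (hr : f.range = W)
    (hk : f.ker ≤ Subgroup.center S)
    (h2 : ∀ g ∈ Subgroup.center S, ∀ g' ∈ Subgroup.center S, g ≠ 1 → g' ≠ 1 → g = g') :
    Nonempty (↥W ≃* S) ∨ Nonempty (↥W ≃* (S ⧸ Subgroup.center S)) := by
  by_cases hinj : Function.Injective f
  · exact Or.inl (iso_of_inj f hinj hr)
  · right
    rw [injective_iff_map_eq_one] at hinj
    push Not at hinj
    obtain ⟨g, hg, hg1⟩ := hinj
    have heq : f.ker = Subgroup.center S := by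
      refine le_antisymm hk ?_
      intro c hc
      by_cases hc1 : c = 1
      · rw [hc1]; exact Subgroup.one_mem _
      · rw [h2 c hc g (hk hg) hc1 hg1]
        exact hg
    exact ⟨((MulEquiv.subgroupCongr hr.symm).trans (QuotientGroup.quotientKerEquivRange f).symm).trans
      (QuotientGroup.quotientMulEquivOfEq heq)⟩

lemma center_unique {p : ℕ} [Fact p.Prime] (g : Matrix.SpecialLinearGroup (Fin 2) (ZMod p))
    (hg : g ∈ Subgroup.center (Matrix.SpecialLinearGroup (Fin 2) (ZMod p)))
    (g' : Matrix.SpecialLinearGroup (Fin 2) (ZMod p))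
    (hg' : g' ∈ Subgroup.center (Matrix.SpecialLinearGroup (Fin 2) (ZMod p)))
    (h1 : g ≠ 1) (h1' : g' ≠ 1) : g = g' := by
  rw [Matrix.SpecialLinearGroup.mem_center_iff] at hg hg'
  obtain ⟨r, hr, e⟩ := hg
  obtain ⟨r', hr', e'⟩ := hg'
  have hsq : ∀ s : ZMod p, s ^ Fintype.card (Fin 2) = 1 → s = 1 ∨ s = -1 := by
    intro s hs
    have : (s - 1) * (s + 1) = 0 := by
      simp only [Fintype.card_fin] at hs
      linear_combination hs
    rcases mul_eq_zero.mp this with h | h
    · exact Or.inl (sub_eq_zero.mp h)
    · exact Or.inr (eq_neg_of_add_eq_zero_left h)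
  have hr1 : r ≠ 1 := by
    rintro rfl
    apply h1
    apply Subtype.ext
    rw [← e]
    simp
  have hr1' : r' ≠ 1 := by
    rintro rfl
    apply h1'
    apply Subtype.ext
    rw [← e']
    simp
  have h3 : r = r' := by
    rcases hsq r hr with h | h
    · exact absurd h hr1
    · rcases hsq r' hr' with h' | h'
      · exact absurd h' hr1'
      · rw [h, h']
  apply Subtype.ext
  rw [← e, ← e', h3]

/-- Let X be a special rank one group with abelian unipotent subgroups A and B, where A is an elementary abelian p-group for the prime p. Then for every non-identity a in A and the non-identity b in B with b⁻¹ A b = a⁻¹ B a, the subgroup generated by a and b is isomorphic to SL₂(p) or to PSL₂(p). -/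
theorem result {X : Type*} [Group X] {A B : Subgroup X} (h : Cfsg.IsRankOneGroup X A B)
    (hs : Cfsg.IsSpecialRankOnePair A B) (hab : Cfsg.HasAbelianUnipotents A B)
    {p : ℕ} [Fact p.Prime] (hA : Cfsg.IsElementaryAbelian p A)
    {a b : X} (ha : a ∈ A) (ha1 : a ≠ 1) (hb : b ∈ B) (hb1 : b ≠ 1) (hab' : Cfsg.conjBy A b⁻¹ = Cfsg.conjBy B a⁻¹) :
    Nonempty (↥(Subgroup.closure ({a, b} : Set X)) ≃* Matrix.SpecialLinearGroup (Fin 2) (ZMod p)) ∨
    Nonempty (↥(Subgroup.closure ({a, b} : Set X)) ≃* Matrix.ProjectiveSpecialLinearGroup (Fin 2) (ZMod p)) := by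
  classical
  obtain ⟨htop, hp⟩ := h
  obtain ⟨-, hs'⟩ := hs
  have hBc : ∀ x ∈ B, ∀ y ∈ B, x * y = y * x := fun x hx y hy =>
    congrArg Subtype.val (hab.2.is_comm.comm ⟨x, hx⟩ ⟨y, hy⟩)
  have hP0 : IsPartner A B a b := ⟨ha, ha1, hb, hb1, hab'⟩
  have hap : a ^ p = 1 := hA.2 a ha
  have hbp : b ^ p = 1 := (partner_pow_iff hs' hP0 p).mp hap
  have hpp : p.Prime := Fact.out
  have hord : orderOf a = p := orderOf_eq_prime hap ha1
  have hcA : b⁻¹ ∉ A := by
    intro h
    exact (inv_ne_one.mpr hb1) (hp.eq_one_of_mem_normalizer' (B.inv_mem hb)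
      (mem_normalizer_of_conj_le (conjBy_eq_self_of_mem h)))
  have hbr0 := partner_braid hs' hP0
  by_cases hsmall : p = 2 ∨ p = 3
  · rcases hsmall with rfl | rfl
    · -- `p = 2`
      left
      have ha2 : a * a = 1 := by rw [← pow_two]; exact hap
      have hc2 : b⁻¹ * b⁻¹ = 1 := by rw [← pow_two, inv_pow, hbp, inv_one]
      obtain ⟨f, hfa, hfc⟩ := exists_hom_sl2 ha2 hc2 hbr0
      have hr : f.range = Subgroup.closure ({a, b} : Set X) := by
        apply le_antisymm
        · rintro _ ⟨g, rfl⟩
          obtain ⟨i, rfl⟩ := sl2Word_surj g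
          rw [sl2Word_map, hfa, hfc]
          have h1 := sl2Word_mem a b⁻¹ i
          refine (Subgroup.closure_le _).mpr ?_ h1
          rintro x (rfl | rfl)
          · exact Subgroup.subset_closure (by simp)
          · exact Subgroup.inv_mem _ (Subgroup.subset_closure (by simp))
        · rw [Subgroup.closure_le]
          rintro x (rfl | rfl)
          · exact ⟨sl2a, hfa⟩
          · exact ⟨sl2c⁻¹, by rw [map_inv, hfc, inv_inv]⟩
      have hinj : Function.Injective f := by
        rw [injective_iff_map_eq_one]
        intro g hg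
        rcases sl2_kernel g with rfl | rfl | rfl | ⟨k, hk⟩
        · rfl
        · exfalso
          rw [map_mul, hfa, hfc] at hg
          apply hcA
          have : b⁻¹ = a⁻¹ := by
            rw [eq_inv_iff_mul_eq_one]
            exact (mul_eq_one_iff_eq_inv.mp hg |>.symm ▸ by group)
          rw [this]; exact A.inv_mem ha
        · exfalso
          rw [map_inv, map_mul, hfa, hfc, inv_eq_one] at hg
          apply hcA
          have : b⁻¹ = a⁻¹ := by
            rw [eq_inv_iff_mul_eq_one]
            exact (mul_eq_one_iff_eq_inv.mp hg |>.symm ▸ by group)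
          rw [this]; exact A.inv_mem ha
        · exfalso
          apply ha1
          rw [← hfa, ← hk, map_mul, map_mul, hg, map_inv]
          group
      exact iso_of_inj f hinj hr
    · -- `p = 3`
      have ha3 : a * a * a = 1 := by rw [← pow_three']; exact hap
      have hc3 : b⁻¹ * b⁻¹ * b⁻¹ = 1 := by rw [← pow_three', inv_pow, hbp, inv_one]
      obtain ⟨f, hfa, hfc⟩ := exists_hom_sl3 ha3 hc3 hbr0
      have hr : f.range = Subgroup.closure ({a, b} : Set X) := by
        apply le_antisymm
        · rintro _ ⟨g, rfl⟩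
          obtain ⟨e, r, m, rfl⟩ := sl3Word_surj g
          rw [sl3Word_map, hfa, hfc]
          have h1 := sl3Word_mem a b⁻¹ e r m
          refine (Subgroup.closure_le _).mpr ?_ h1
          rintro x (rfl | rfl)
          · exact Subgroup.subset_closure (by simp)
          · exact Subgroup.inv_mem _ (Subgroup.subset_closure (by simp))
        · rw [Subgroup.closure_le]
          rintro x (rfl | rfl)
          · exact ⟨sl3a, hfa⟩
          · exact ⟨sl3c⁻¹, by rw [map_inv, hfc, inv_inv]⟩
      have hker : ∀ g : SL23, f g = 1 → g = 1 ∨ g = -1 := by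
        intro g hg
        rcases sl3_kernel g with h | h | ⟨h, k, hk⟩
        · exact Or.inl h
        · exact Or.inr h
        · exfalso
          have hi : f (sl3a * sl3c * sl3a) = 1 := by
            rcases hk with hk | hk
            · rw [← hk, map_mul, map_mul, hg, map_inv]; group
            · rw [← hk]
              simp only [map_mul, map_inv, hg]
              group
          rw [map_mul, map_mul, hfa, hfc] at hi
          apply hcA
          have : b⁻¹ = a := by
            have h5 : b⁻¹ = a⁻¹ * (a * b⁻¹ * a) * a⁻¹ := by group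
            rw [h5, hi]
            calc a⁻¹ * 1 * a⁻¹ = a⁻¹ * a⁻¹ * 1 := by group
              _ = a⁻¹ * a⁻¹ * (a * a * a) := by rw [ha3]
              _ = a := by group
          rw [this]; exact ha
      refine iso_final f hr ?_ center_unique
      intro g hg
      exact (sl3_center g).mpr (hker g hg)
  · -- `p ≥ 5`
    have hp5 : 5 ≤ p := by
      have h2 := hpp.two_le
      by_contra hlt
      have h4 : p ≠ 4 := by
        rintro rfl
        exact (by decide : ¬ Nat.Prime 4) hpp
      push Not at hsmall
      omega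
    have hp1 : 1 < p := by omega
    -- the braid relations
    have hbr : ∀ t : ZMod p, t ≠ 0 →
        powF a t * powF b (-t⁻¹) * powF a t = powF b (-t⁻¹) * powF a t * powF b (-t⁻¹) := by
      intro t ht
      haveI : NeZero p := ⟨hpp.ne_zero⟩
      haveI : Fact (1 < p) := ⟨hp1⟩
      set k := t.val with hk
      have hk0 : k ≠ 0 := by
        rw [hk, ZMod.val_ne_zero]
        exact ht
      have hklt : k < p := ZMod.val_lt t
      obtain ⟨m, hm⟩ : ∃ m, k = m + 1 := ⟨k - 1, by omega⟩
      have hak : a ^ k ≠ 1 := by
        intro h1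
        have := orderOf_dvd_of_pow_eq_one h1
        rw [hord] at this
        exact absurd (Nat.le_of_dvd (Nat.pos_of_ne_zero hk0) this) (by omega)
      obtain ⟨b', hb', hb'1, hrel⟩ := hp.cond_left _ (A.pow_mem ha k) hak
      have hP' : IsPartner A B (a ^ k) b' := ⟨A.pow_mem ha k, hak, hb', hb'1, hrel⟩
      have hfac : a ^ ((m + 1).factorial) ≠ 1 := by
        intro h1
        have := orderOf_dvd_of_pow_eq_one h1
        rw [hord, hpp.dvd_factorial] at this
        omega
      have hmain : b' ^ (m + 1) = b :=
        partner_pow_main hp hs' hBc m a hfac b b' hP0 (by rw [← hm]; exact hP')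
      have hb'p : b' ^ p = 1 := by
        refine (partner_pow_iff hs' hP' p).mp ?_
        rw [← pow_mul, mul_comm, pow_mul, hap, one_pow]
      have hval : (t * t⁻¹).val = 1 := by
        rw [mul_inv_cancel₀ ht, ZMod.val_one]
      have e1 : powF b t⁻¹ = b' := by
        simp only [powF]
        rw [← hmain, ← hm, ← pow_mul]
        rw [ZMod.val_mul] at hval
        rw [pow_eq_pow_mod _ hb'p, hval, pow_one]
      have hbraid := partner_braid hs' hP'
      have e2 : powF a t = a ^ k := rfl
      rw [powF_neg hbp, e1, e2]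
      exact hbraid
    have R := rel hap hbp hbr
    have hαW : ∀ t : ZMod p, powF a t ∈ Subgroup.closure ({a, b} : Set X) := fun t =>
      Subgroup.pow_mem _ (Subgroup.subset_closure (by simp)) _
    have hβW : ∀ t : ZMod p, powF b t ∈ Subgroup.closure ({a, b} : Set X) := fun t =>
      Subgroup.pow_mem _ (Subgroup.subset_closure (by simp)) _
    have hr : R.hom.range = Subgroup.closure ({a, b} : Set X) := by
      apply le_antisymm (R.hom_range hαW hβW)
      rw [Subgroup.closure_le]
      rintro x (rfl | rfl)
      · have := R.a_mem_range 1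
        rwa [powF_one hp1] at this
      · have := R.b_mem_range 1
        rwa [powF_one hp1] at this
    -- the kernel
    haveI hsimple : IsSimpleGroup (Matrix.ProjectiveSpecialLinearGroup (Fin 2) (ZMod p)) :=
      Cfsg.Agent.Lib.Classical.psl_isSimpleGroup_of_four_le (by rw [Nat.card_zmod]; omega)
    have hk : R.hom.ker ≤ Subgroup.center (Matrix.SpecialLinearGroup (Fin 2) (ZMod p)) := by
      let π : Matrix.SpecialLinearGroup (Fin 2) (ZMod p) →*
          Matrix.ProjectiveSpecialLinearGroup (Fin 2) (ZMod p) := QuotientGroup.mk' _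
      have hπs : Function.Surjective π := QuotientGroup.mk'_surjective _
      haveI hN : ((R.hom.ker).map π).Normal := Subgroup.Normal.map inferInstance π hπs
      rcases hN.eq_bot_or_eq_top with hbot | htop'
      · intro g hg
        have h1 : π g = 1 := by
          have : π g ∈ (R.hom.ker).map π := ⟨g, hg, rfl⟩
          rw [hbot] at this
          exact this
        exact (QuotientGroup.eq_one_iff g).mp h1
      · exfalso
        -- the image is commutative
        have hdec : ∀ g : Matrix.SpecialLinearGroup (Fin 2) (ZMod p), ∃ c ∈ Subgroup.center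
            (Matrix.SpecialLinearGroup (Fin 2) (ZMod p)), R.hom g = R.hom c := by
          intro g
          have : π g ∈ (R.hom.ker).map π := by rw [htop']; trivial
          obtain ⟨k, hk, hkg⟩ := this
          refine ⟨k⁻¹ * g, ?_, ?_⟩
          · apply (QuotientGroup.eq_one_iff _).mp
            change π (k⁻¹ * g) = 1
            rw [map_mul, map_inv, hkg, inv_mul_cancel]
          · rw [map_mul, map_inv, hk, inv_one, one_mul]
        have hu1 := R.hom_up (g := ⟨!![1, 1; 0, 1], by simp [Matrix.det_fin_two]⟩) (t := 1) rfl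
        have hl1 := R.hom_low (g := ⟨!![1, 0; 1, 1], by simp [Matrix.det_fin_two]⟩) (t := 1) rfl
        rw [powF_one hp1] at hu1 hl1
        obtain ⟨gu, hgu⟩ : ∃ g, R.hom g = a := ⟨_, hu1⟩
        obtain ⟨gl, hgl⟩ : ∃ g, R.hom g = b := ⟨_, hl1⟩
        obtain ⟨c, hc, hc'⟩ := hdec gu
        obtain ⟨c2, hc2, hc2'⟩ := hdec gl
        have hcomm : a * b = b * a := by
          have h5 : R.hom gu * R.hom gl = R.hom gl * R.hom gu := by
            rw [hc', hc2', ← map_mul, ← map_mul]
            congr 1
            exact (Subgroup.mem_center_iff.mp hc c2).symm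
          rwa [hgu, hgl] at h5
        have hspec := hs' a ha ha1 b hb hb1 hab'
        have e1 : b⁻¹ * a * b = a := by
          rw [mul_assoc, hcomm, inv_mul_cancel_left]
        have e2 : a⁻¹ * b⁻¹ * a = b⁻¹ := by
          have : b⁻¹ * a = a * b⁻¹ := (Commute.inv_left (show Commute b a from hcomm.symm))
          rw [mul_assoc, this, inv_mul_cancel_left]
        rw [e1, e2] at hspec
        apply hcA
        rw [← hspec]
        exact ha
    exact iso_final R.hom hr hk center_unique

end Cfsg.Agent.S5022
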