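import Cfsg.Statements.S5023
import Cfsg.Agent.Lib.Root.QuadRep
import Mathlib

set_option autoImplicit false
open Cfsg

namespace Cfsg.Agent.S5023
open Cfsg.Agent.Lib.Root

lemma qOf_apply {X N : Type*} [Group X] [AddCommGroup N] [DistribMulAction X N] (x : X) (n : N) :
    (Cfsg.Agent.Lib.Root.qOf (DistribMulAction.toAddMonoidEnd X N) x) n = x • n - n := by
  rfl

/-- Let X be a rank one group with unipotent subgroups A and B that acts faithfully on an abelian group V (written additively) with A acting quadratically: a' • (a • v − v) = a • v − v for all a, a' in A and v in V. Then A is either torsion-free or an elementary abelian p-group for some prime p. -/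
theorem result {X : Type*} [Group X] {A B : Subgroup X} (h : Cfsg.IsRankOneGroup X A B)
    {V : Type*} [AddCommGroup V] [DistribMulAction X V] (hf : ∀ x : X, (∀ v : V, x • v = v) → x = 1)
    (hq : ∀ a ∈ A, ∀ a' ∈ A, ∀ v : V, a' • (a • v - v) = a • v - v) :
    (∀ a ∈ A, a ≠ 1 → ¬ IsOfFinOrder a) ∨ ∃ p : ℕ, p.Prime ∧ Cfsg.IsElementaryAbelian p A := by
  obtain ⟨hgen, hp⟩ := h
  set ρ : X →* AddMonoid.End V := DistribMulAction.toAddMonoidEnd X V with hρ
  have hqq : ∀ a ∈ A, ∀ a' ∈ A, qOf ρ a' * qOf ρ a = 0 := by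
    intro a ha a' ha'
    ext n
    change (Cfsg.Agent.Lib.Root.qOf (DistribMulAction.toAddMonoidEnd X V) a') ((Cfsg.Agent.Lib.Root.qOf (DistribMulAction.toAddMonoidEnd X V) a) n) = 0
    rw [qOf_apply, qOf_apply]
    have := hq a ha a' ha' n
    simp [this]
  have hinj : ∀ x : X, ρ x = 1 → x = 1 := by
    intro x hx
    apply hf
    intro v
    exact congrArg (fun f : AddMonoid.End V => f v) hx
  have hcomm_of : ∀ x y : X, qOf ρ x * qOf ρ y = 0 → qOf ρ y * qOf ρ x = 0 → x * y = y * x := by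
    intro x y h1 h2
    have h3 : ρ (x * y) = ρ (y * x) := by
      have e1 := qOf_mul (ρ := ρ) x y
      have e2 := qOf_mul (ρ := ρ) y x
      rw [h1, add_zero] at e1
      rw [h2, add_zero] at e2
      rw [rho_eq (x * y), rho_eq (y * x), e1, e2, add_comm (qOf ρ x)]
    have h4 : ρ (x * y * (y * x)⁻¹) = 1 := by
      rw [map_mul, h3, ← map_mul, mul_inv_cancel, map_one]
    exact mul_inv_eq_one.mp (hinj _ h4)
  have hXne : ∃ x y : X, qOf ρ y * qOf ρ x ≠ 0 := by
    by_contra hcon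
    push Not at hcon
    obtain ⟨a, ha, ha1⟩ := hp.exists_ne_one_left
    apply ha1
    refine hp.eq_one_of_mem_normalizer ha (mem_normalizer_of_commute ?_)
    intro x _
    exact hcomm_of a x (hcon x a) (hcon a x)
  have hc := kerOn_central (ρ := ρ) hgen hp hqq hXne
  by_cases htf : ∀ a ∈ A, a ≠ 1 → ¬ IsOfFinOrder a
  · exact Or.inl htf
  right
  push Not at htf
  obtain ⟨a₀, ha₀, ha₀1, hfin⟩ := htf
  have hm0 : orderOf a₀ ≠ 0 := (orderOf_pos_iff.mpr hfin).ne'
  have hm1 : orderOf a₀ ≠ 1 := by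
    intro h1
    exact ha₀1 (orderOf_eq_one_iff.mp h1)
  set p := (orderOf a₀).minFac with hpdef
  have hpp : p.Prime := Nat.minFac_prime hm1
  set a₁ := a₀ ^ (orderOf a₀ / p) with ha₁def
  have ho : orderOf a₁ = p := orderOf_pow_orderOf_div hm0 (Nat.minFac_dvd _)
  have ha₁ : a₁ ∈ A := A.pow_mem ha₀ _
  have ha₁1 : a₁ ≠ 1 := by
    intro h1
    rw [h1, orderOf_one] at ho
    exact hpp.one_lt.ne ho
  have hpq : p • qOf ρ a₁ = 0 := by
    have h1 := qOf_pow (ρ := ρ) (hqq a₁ ha₁ a₁ ha₁) p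
    have h2 : a₁ ^ p = 1 := by rw [← ho]; exact pow_orderOf_eq_one _
    rw [h2, qOf_one] at h1
    exact h1.symm
  obtain ⟨b₁, hb₁, -, hrel₁⟩ := hp.cond_left a₁ ha₁ ha₁1
  refine ⟨p, hpp, ⟨⟨fun x y => Subtype.ext (hcomm_of _ _ (hqq _ y.2 _ x.2) (hqq _ x.2 _ y.2))⟩⟩, ?_⟩
  intro c hcA
  by_cases hc1 : c = 1
  · rw [hc1, one_pow]
  obtain ⟨d, hd, -, hrel⟩ := hp.cond_left c hcA hc1
  have hker : c ^ p ∈ kerOn ρ := by
    intro z
    rw [qOf_pow (hqq c hcA c hcA), smul_mul_assoc]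
    have h1 := left_kill hgen hp hqq hcA hd hrel z
    rw [sub_mul, sub_eq_zero] at h1
    rw [h1]
    have h2 := rel_C hp hqq ha₁ hb₁ hrel₁ hcA hd
    rw [h2]
    have e : qOf ρ c * qOf ρ b₁ * qOf ρ a₁ * qOf ρ d * qOf ρ c * qOf ρ z =
        qOf ρ c * qOf ρ b₁ * (qOf ρ a₁ * (qOf ρ d * qOf ρ c * qOf ρ z)) := by noncomm_ring
    rw [e, ← mul_smul_comm, ← smul_mul_assoc, hpq, zero_mul, mul_zero]
  have hcen := hc hker
  rw [Subgroup.mem_center_iff] at hcen
  exact hp.eq_one_of_mem_normalizer (A.pow_mem hcA p)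
    (mem_normalizer_of_commute (fun x _ => (hcen x).symm))

end Cfsg.Agent.S5023
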