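import Cfsg.Statements.S5024
import Cfsg.Agent.Lib.Root.Sigma
import Mathlib

set_option autoImplicit false
open Cfsg

namespace Cfsg.Agent.S5024
open Cfsg.Agent.Lib.Root

/-- Let S be a set of abstract root subgroups of G, A and C members of S, B a rank one partner of A in S and D a rank one partner of C in S. If the rank one group ⟨A, B⟩ is contained in ⟨C, D⟩ then the two coincide, and C and D are conjugates of A inside ⟨A, B⟩. -/
theorem result {G : Type*} [Group G] {S : Set (Subgroup G)} (hS : Cfsg.IsRootSubgroupSet S)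
    {A B C D : Subgroup G} (hA : A ∈ S) (hC : C ∈ S) (hB : B ∈ Cfsg.rankOnePartners S A) (hD : D ∈ Cfsg.rankOnePartners S C)
    (hle : A ⊔ B ≤ C ⊔ D) : A ⊔ B = C ⊔ D ∧ C ∈ Cfsg.unipotentSubgroups A B ∧ D ∈ Cfsg.unipotentSubgroups A B := by
  classical

  obtain ⟨hBS, hAB⟩ := hB
  obtain ⟨hDS, hCD⟩ := hD
  have hAle : A ≤ C ⊔ D := le_trans le_sup_left hle
  have hBle : B ≤ C ⊔ D := le_trans le_sup_right hle
  have hAm : A ∈ Cfsg.unipotentSubgroups C D := by
    rcases mem_unipotent_or_kernel hS hC hCD hA hAle with h1 | h1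
    · exact h1
    · exfalso
      obtain ⟨a, ha, ha1⟩ := hAB.exists_ne_one_left
      apply ha1
      apply hAB.eq_one_of_mem_normalizer ha
      exact mem_normalizer_of_commute (fun x hx => kernelOn_commute hCD (h1 ha) (hBle hx))
  have hBm : B ∈ Cfsg.unipotentSubgroups C D := by
    rcases mem_unipotent_or_kernel hS hC hCD hBS hBle with h1 | h1
    · exact h1
    · exfalso
      obtain ⟨b, hb, hb1⟩ := hAB.exists_ne_one_right
      apply hb1
      apply hAB.eq_one_of_mem_normalizer' hb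
      exact mem_normalizer_of_commute (fun x hx => kernelOn_commute hCD (h1 hb) (hAle hx))
  have hsup : A ⊔ B = C ⊔ D := (hCD.of_mem_unipotent hAm hBm hAB.ne).2
  refine ⟨hsup, ?_, ?_⟩
  · obtain ⟨x, hx, hxe⟩ := hAm
    refine ⟨x⁻¹, by rw [hsup]; exact Subgroup.inv_mem _ hx, ?_⟩
    rw [hxe, conjBy_inv_conjBy]
  · obtain ⟨x, hx, hxe⟩ := hAm
    obtain ⟨y, hy, hye⟩ := hCD.right_mem_unipotent
    refine ⟨y * x⁻¹, by rw [hsup]; exact Subgroup.mul_mem _ hy (Subgroup.inv_mem _ hx), ?_⟩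
    rw [conjBy_mul, hxe, conjBy_inv_conjBy, hye]

end Cfsg.Agent.S5024
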