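import Cfsg.Statements.S5026
import Cfsg.Agent.Lib.Root.Sigma
import Mathlib

set_option autoImplicit false
open Cfsg

namespace Cfsg.Agent.S5026

/-- Centralizing a cyclic group. -/
lemma le_centralizer_zpowers_iff {G : Type*} [Group G] {E : Subgroup G} {x : G} :
    E ≤ Subgroup.centralizer ((Subgroup.zpowers x : Subgroup G) : Set G) ↔ ∀ e ∈ E, e * x = x * e := by
  constructor
  · intro h e he
    have := Subgroup.mem_centralizer_iff.mp (h he) x (Subgroup.mem_zpowers x)
    exact this.symm
  · intro h e he
    rw [Subgroup.mem_centralizer_iff]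
    rintro _ ⟨n, rfl⟩
    have hc : Commute e x := h e he
    exact (hc.zpow_right n).symm

/-- Let S be a degenerate set of abstract root subgroups of G (a set of abstract transvection groups) and let a, b be commuting non-identity elements of members of S with a b ≠ 1. Then the members of S centralizing a b are exactly those centralizing both a and b. -/
theorem result {G : Type*} [Group G] {S : Set (Subgroup G)} (hS : Cfsg.IsRootSubgroupSet S) (hdeg : Cfsg.IsDegenerateRootSet S)
    {a b : G} (ha : a ∈ Cfsg.rootElements S) (hb : b ∈ Cfsg.rootElements S) (hab : a * b = b * a) (hab1 : a * b ≠ 1) :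
    Cfsg.centralizingMembers S (Subgroup.zpowers (a * b)) =
      Cfsg.centralizingMembers S (Subgroup.zpowers a) ∩ Cfsg.centralizingMembers S (Subgroup.zpowers b) := by
  classical
  obtain ⟨ha1, A, hA, haA⟩ := ha
  obtain ⟨hb1, B, hB, hbB⟩ := hb
  ext E
  simp only [Cfsg.centralizingMembers, Set.mem_ofPred_eq, Set.mem_inter_iff, le_centralizer_zpowers_iff]
  constructor
  · rintro ⟨hE, hEc⟩
    have hfromA : (∀ e ∈ E, e * a = a * e) → (∀ e ∈ E, e * b = b * e) := by
      intro h e he
      have h1 := hEc e he
      have h2 := h e he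
      have h3 : e * (a * b) = a * (e * b) := by rw [← mul_assoc, h2, mul_assoc]
      rw [h3, mul_assoc] at h1
      exact mul_left_cancel h1
    have hfromB : (∀ e ∈ E, e * b = b * e) → (∀ e ∈ E, e * a = a * e) := by
      intro h e he
      have h1 := hEc e he
      have h2 := h e he
      rw [hab] at h1
      have h3 : e * (b * a) = b * (e * a) := by rw [← mul_assoc, h2, mul_assoc]
      rw [h3, mul_assoc] at h1
      exact mul_left_cancel h1
    have hcommOf : ∀ {P : Subgroup G} {y : G}, y ∈ P → ⁅P, E⁆ = ⊥ → ∀ e ∈ E, e * y = y * e := by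
      intro P y hy h0 e he
      have h1 : y * e * y⁻¹ * e⁻¹ ∈ ⁅P, E⁆ := Subgroup.commutator_mem_commutator hy he
      rw [h0, Subgroup.mem_bot] at h1
      have h2 : y * e * y⁻¹ = e := by
        have := congrArg (fun t => t * e) h1
        simpa using this
      exact (mul_inv_eq_iff_eq_mul.mp h2).symm
    rcases hS.pair A hA E hE with h0 | h0 | h0
    · have h1 := hcommOf haA h0
      exact ⟨⟨hE, h1⟩, hE, hfromA h1⟩
    · rcases hS.pair B hB E hE with h0' | h0' | h0'
      · have h1 := hcommOf hbB h0'
        exact ⟨⟨hE, hfromB h1⟩, hE, h1⟩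
      · -- both rank one
        exfalso
        have hec : Cfsg.conjBy E (a * b)⁻¹ = E := by
          apply Cfsg.Agent.Lib.Root.mem_normalizer_iff_conjBy.mp
          apply Subgroup.inv_mem
          exact Cfsg.Agent.Lib.Root.mem_normalizer_of_commute (fun x hx => (hEc x hx).symm)
        have he : Cfsg.conjBy E a⁻¹⁻¹ = Cfsg.conjBy E b⁻¹ := by
          have h1 : b⁻¹ = a * (a * b)⁻¹ := by rw [hab]; group
          rw [h1, Cfsg.Agent.Lib.Root.conjBy_mul, hec, inv_inv]
        obtain ⟨u, hu, hBe⟩ := Cfsg.Agent.Lib.Root.exists_conj_of_rankOne h0 h0'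
          (A.inv_mem haA) (by simpa using ha1) hbB hb1 he
        have hBm : B ∈ Cfsg.unipotentSubgroups A E := by
          rw [hBe]
          exact Cfsg.Agent.Lib.Root.conj_mem_unipotent Cfsg.Agent.Lib.Root.left_mem_unipotent
            ((le_sup_right : E ≤ A ⊔ E) hu)
        have hmem : Cfsg.conjBy A b ∈ Cfsg.unipotentSubgroups A E :=
          Cfsg.Agent.Lib.Root.conj_mem_unipotent Cfsg.Agent.Lib.Root.left_mem_unipotent
            (Cfsg.Agent.Lib.Root.le_sup_of_mem_unipotent hBm hbB)
        have hn : a ∈ Subgroup.normalizer ((Cfsg.conjBy A b : Subgroup G) : Set G) := by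
          apply Cfsg.Agent.Lib.Root.mem_normalizer_of_conj_le
          have h2 : a * b = b * a := hab
          rw [← Cfsg.Agent.Lib.Root.conjBy_mul, h2, Cfsg.Agent.Lib.Root.conjBy_mul,
            Cfsg.Agent.Lib.Root.conjBy_eq_self_of_mem haA]
        have hbA := h0.eq_left_of_normalizes hmem haA ha1 hn
        by_cases hAB : A = B
        · subst hAB
          apply hab1
          apply h0.eq_one_of_mem_normalizer (A.mul_mem haA hbB)
          exact Cfsg.Agent.Lib.Root.mem_normalizer_of_commute (fun x hx => (hEc x hx).symm)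
        · have hp := (h0.of_mem_unipotent Cfsg.Agent.Lib.Root.left_mem_unipotent hBm hAB).1
          exact hb1 (hp.eq_one_of_mem_normalizer' hbB
            (Cfsg.Agent.Lib.Root.mem_normalizer_of_conj_le hbA))
      · exact absurd h0' (hdeg B hB E hE)
    · exact absurd h0 (hdeg A hA E hE)
  · rintro ⟨⟨hE, h1⟩, -, h2⟩
    refine ⟨hE, fun e he => ?_⟩
    rw [← mul_assoc, h1 e he, mul_assoc, h2 e he, mul_assoc]

end Cfsg.Agent.S5026
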