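import Cfsg.Statements.S5027
import Cfsg.Agent.Lib.Root.Sigma
import Mathlib

set_option autoImplicit false
open Cfsg

namespace Cfsg.Agent.S5027

/-- Let S be a set of abstract root subgroups of G such that every member of S has a rank one partner in S (the graph of rank one pairs on S has no isolated vertex). Then the second centre of G equals its centre. -/
theorem result {G : Type*} [Group G] {S : Set (Subgroup G)} (hS : Cfsg.IsRootSubgroupSet S)
    (hF : ∀ A ∈ S, ¬ Cfsg.IsIsolatedIn (Cfsg.FAdj S) S A) : Subgroup.upperCentralSeries G 2 = Subgroup.center G := by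
  classical
  apply le_antisymm
  · intro z hz
    have hcomm : ∀ y : G, z * y * z⁻¹ * y⁻¹ ∈ Subgroup.center G := by
      intro y
      have := (Subgroup.mem_upperCentralSeries_succ_iff (n := 1) (x := z)).mp hz y
      rwa [Subgroup.upperCentralSeries_one, commutatorElement_def] at this
    have hA : ∀ A ∈ S, ∀ a ∈ A, z * a = a * z := by
      intro A hAS a ha
      by_contra hne
      obtain ⟨D, hD, hAD⟩ := Cfsg.Agent.Lib.Root.exists_partner (hF A hAS) hAS
      set w := z * a * z⁻¹ * a⁻¹ with hw
      have hw1 : w ≠ 1 := by
        intro h1
        apply hne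
        have h2 : z * a * z⁻¹ = a := by
          have := congrArg (fun y => y * a) h1
          simpa [hw] using this
        exact mul_inv_eq_iff_eq_mul.mp h2
      have hwc : w ∈ Subgroup.centralizer ((A ⊔ D : Subgroup G) : Set G) := by
        rw [Subgroup.mem_centralizer_iff]
        intro x _
        exact (Subgroup.mem_center_iff.mp (hcomm a) x)
      have ha1 : a ≠ 1 := by
        rintro rfl
        apply hne
        simp
      have hnot := Cfsg.Agent.Lib.Root.not_mem_rootElements hS hD hAD hwc hw1 a ha ha1
      apply hnot
      have he : w * a = z * a * z⁻¹ := by rw [hw]; group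
      rw [he]
      refine ⟨?_, Cfsg.conjBy A z, hS.conj_mem A hAS z, Cfsg.Agent.Lib.Root.conj_mem_conjBy ha⟩
      intro h1
      apply ha1
      have := congrArg (fun y => z⁻¹ * y * z) h1
      simpa [mul_assoc] using this
    rw [Subgroup.mem_center_iff]
    intro g
    have hg : g ∈ Subgroup.centralizer ({z} : Set G) := by
      have hle : (⨆ A ∈ S, A) ≤ Subgroup.centralizer ({z} : Set G) := by
        apply iSup₂_le
        intro A hAS a ha
        rw [Subgroup.mem_centralizer_singleton_iff]
        exact (hA A hAS a ha).symm
      rw [hS.generates] at hle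
      exact hle (Subgroup.mem_top g)
    rw [Subgroup.mem_centralizer_singleton_iff] at hg
    exact hg
  · rw [← Subgroup.upperCentralSeries_one]
    exact Subgroup.upperCentralSeries_mono G (by norm_num)

end Cfsg.Agent.S5027
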