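import Cfsg.Statements.S5032
import Cfsg.Agent.Lib.Root.Connected
import Mathlib

set_option autoImplicit false
open Cfsg

namespace Cfsg.Agent.S5032
open Cfsg.Agent.Lib.Root

lemma conj_of_reach {G : Type*} [Group G] {S : Set (Subgroup G)} {A B : Subgroup G}
    (h : Relation.ReflTransGen (Cfsg.FAdj S) A B) : ∃ g : G, B = Cfsg.conjBy A g := by
  induction h with
  | refl => exact ⟨1, (conjBy_one A).symm⟩
  | tail _ hab ih =>
    obtain ⟨g, rfl⟩ := ih
    obtain ⟨x, -, hx⟩ := hab.2.2.right_mem_unipotent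
    exact ⟨x * g, by rw [hx, conjBy_mul]⟩

/-- Let S be a set of abstract root subgroups of G with more than one member. Then the graph of rank one pairs on S is connected if and only if S is a single conjugacy class of G and some member of S has a rank one partner in S. -/
theorem result {G : Type*} [Group G] {S : Set (Subgroup G)} (hS : Cfsg.IsRootSubgroupSet S) (h2 : ∃ A ∈ S, ∃ B ∈ S, A ≠ B) :
    Cfsg.IsConnectedFamily (Cfsg.FAdj S) S ↔
      (Cfsg.IsConjClassOfSubgroups S ∧ ∃ A ∈ S, ¬ Cfsg.IsIsolatedIn (Cfsg.FAdj S) S A) := by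
  constructor
  · intro hc
    obtain ⟨A, hA, B, hB, hne⟩ := h2
    refine ⟨⟨⟨A, hA⟩, fun C hC E hE => conj_of_reach (hc C hC E hE)⟩, A, hA, ?_⟩
    obtain ⟨D, hD, hAD⟩ := exists_partner_of_reach (hc A hA B hB) hne.symm
    rintro ⟨-, hiso⟩
    exact (hiso D).1 ⟨hA, hD, hAD⟩
  · rintro ⟨⟨-, hconj⟩, A₀, hA₀, hiso⟩
    obtain ⟨D₀, hD₀, hA₀D₀⟩ := exists_partner hiso hA₀
    have hpart : ∀ E ∈ S, ∃ D ∈ S, Cfsg.IsRankOnePair E D := by
      intro E hE
      obtain ⟨g, rfl⟩ := hconj A₀ hA₀ E hE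
      exact ⟨_, hS.conj_mem D₀ hD₀ g, hA₀D₀.conj g⟩
    let Δ : Set (Subgroup G) := {E | E ∈ S ∧ Relation.ReflTransGen (Cfsg.FAdj S) A₀ E}
    have hstep : ∀ T ∈ S, ∀ t ∈ T, ∀ E ∈ Δ, Cfsg.conjBy E t ∈ Δ := by
      rintro T hT t ht E ⟨hE, hAE⟩
      obtain ⟨D, hD, hED⟩ := hpart E hE
      exact ⟨hS.conj_mem E hE t, hAE.trans (reach_conj hS hE hT hED hD ht (hpart T hT))⟩
    let H : Subgroup G :=
      { carrier := {g | ∀ E ∈ Δ, Cfsg.conjBy E g ∈ Δ ∧ Cfsg.conjBy E g⁻¹ ∈ Δ}
        one_mem' := by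
          intro E hE
          simp only [inv_one, conjBy_one]
          exact ⟨hE, hE⟩
        mul_mem' := by
          intro a b ha hb E hE
          constructor
          · rw [conjBy_mul]
            exact (ha _ (hb E hE).1).1
          · rw [mul_inv_rev, conjBy_mul]
            exact (hb _ (ha E hE).2).2
        inv_mem' := by
          intro a ha E hE
          rw [inv_inv]
          exact ⟨(ha E hE).2, (ha E hE).1⟩ }
    have hH : H = ⊤ := by
      rw [eq_top_iff, ← hS.generates]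
      apply iSup₂_le
      intro T hT t ht E hE
      exact ⟨hstep T hT t ht E hE, hstep T hT _ (T.inv_mem ht) E hE⟩
    have hall : ∀ B ∈ S, Relation.ReflTransGen (Cfsg.FAdj S) A₀ B := by
      intro B hB
      obtain ⟨g, rfl⟩ := hconj A₀ hA₀ B hB
      have hg : g ∈ H := by rw [hH]; trivial
      exact (hg A₀ ⟨hA₀, .refl⟩).1.2
    intro A hA B hB
    exact (reach_symm (hall A hA)).trans (hall B hB)

end Cfsg.Agent.S5032
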