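import Cfsg.Statements.S5033
import Cfsg.Agent.Lib.Root.PerfectCore
import Cfsg.Agent.Lib.Root.Gen
import Cfsg.Agent.Lib.Root.Special
import Cfsg.Agent.S5017
import Cfsg.Agent.S5032
import Mathlib

set_option autoImplicit false
open Cfsg

namespace Cfsg.Agent.S5033

open Cfsg.Agent.Lib.Root

variable {G : Type*} [Group G] {S : Set (Subgroup G)}

/-- Moving a unipotent by an element of `N` yields a pair conjugate under `N`. -/
lemma conj_in_N_of_move {N P T C C' : Subgroup G} (hN : N.Normal) (hPT : Cfsg.IsRankOnePair P T)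
    (hC : C ∈ Cfsg.unipotentSubgroups P T) (hC' : C' ∈ Cfsg.unipotentSubgroups P T) {y : G}
    (hy : y ∈ N) (hyC : Cfsg.conjBy C y = C') (hne : C ≠ C') :
    ∃ m ∈ N, T = Cfsg.conjBy P m := by
  obtain ⟨g, -, h1, h2⟩ := hPT.two_transitive hC hC' left_mem_unipotent hPT.right_mem_unipotent
    hne hPT.ne
  refine ⟨g * y * g⁻¹, hN.conj_mem y hy g, ?_⟩
  rw [← h1, conjBy_mul, conjBy_mul, conjBy_inv_conjBy, hyC, h2]

/-- An element of `P` nontrivial in `N` gives conjugacy of the pair. -/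
lemma conj_in_N_of_left {N P T : Subgroup G} (hN : N.Normal) (hPT : Cfsg.IsRankOnePair P T)
    {y : G} (hy : y ∈ N) (hyP : y ∈ P) (hy1 : y ≠ 1) :
    ∃ m ∈ N, T = Cfsg.conjBy P m := by
  have hne : T ≠ Cfsg.conjBy T y := by
    intro h
    exact hy1 (hPT.eq_one_of_mem_normalizer hyP (mem_normalizer_of_conj_le h.symm))
  exact conj_in_N_of_move hN hPT hPT.right_mem_unipotent
    (conj_mem_unipotent hPT.right_mem_unipotent ((le_sup_left : P ≤ P ⊔ T) hyP)) hy rfl hne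

/-- A commutator `[p,t]`, with `(P, T)` a rank one pair, in `N` gives conjugacy. -/
lemma conj_in_N_of_comm {N P T : Subgroup G} (hN : N.Normal) (hPT : Cfsg.IsRankOnePair P T)
    {p t : G} (hp : p ∈ P) (hp1 : p ≠ 1) (ht : t ∈ T) (ht1 : t ≠ 1)
    (hy : p * t * p⁻¹ * t⁻¹ ∈ N) : ∃ m ∈ N, T = Cfsg.conjBy P m := by
  set y := p * t * p⁻¹ * t⁻¹ with hyd
  have hpm : p ∈ P ⊔ T := (le_sup_left : P ≤ P ⊔ T) hp
  have htm : t ∈ P ⊔ T := (le_sup_right : T ≤ P ⊔ T) ht
  have hym : y ∈ P ⊔ T := by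
    rw [hyd]
    exact Subgroup.mul_mem _ (Subgroup.mul_mem _ (Subgroup.mul_mem _ hpm htm)
      (Subgroup.inv_mem _ hpm)) (Subgroup.inv_mem _ htm)
  have hC' : Cfsg.conjBy T p ∈ Cfsg.unipotentSubgroups P T :=
    conj_mem_unipotent hPT.right_mem_unipotent hpm
  have hy2 : Cfsg.conjBy T y = Cfsg.conjBy T (p * t * p⁻¹) := by
    rw [hyd, conjBy_mul, conjBy_eq_self_of_mem (T.inv_mem ht)]
  have hne1 : T ≠ Cfsg.conjBy T p := by
    intro h
    exact hp1 (hPT.eq_one_of_mem_normalizer hp (mem_normalizer_of_conj_le h.symm))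
  have hne2 : T ≠ Cfsg.conjBy T y := by
    rw [hy2]
    intro h
    have hmem : p * t * p⁻¹ ∈ Cfsg.conjBy T p := conj_mem_conjBy ht
    have hpair := (hPT.of_mem_unipotent hPT.right_mem_unipotent hC' hne1).1
    have h1 := hpair.eq_one_of_mem_normalizer' hmem (mem_normalizer_of_conj_le h.symm)
    apply ht1
    have : t = p⁻¹ * (p * t * p⁻¹) * p := by group
    rw [this, h1]; group
  exact conj_in_N_of_move hN hPT hPT.right_mem_unipotent
    (conj_mem_unipotent hPT.right_mem_unipotent hym) hy rfl hne2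

/-- Some rank one pair is conjugate under `N`. -/
def PairConj (S : Set (Subgroup G)) (N : Subgroup G) : Prop :=
  ∃ P ∈ S, ∃ T ∈ S, Cfsg.IsRankOnePair P T ∧ ∃ m ∈ N, T = Cfsg.conjBy P m

lemma pairConj_of_comm (hS : Cfsg.IsRootSubgroupSet S) {N : Subgroup G} (hN : N.Normal)
    (hpart : ∀ E ∈ S, ∃ D ∈ S, Cfsg.IsRankOnePair E D) {P E : Subgroup G} (hP : P ∈ S) (hE : E ∈ S)
    {p r e : G} (hp : p ∈ P) (he : e ∈ E) (hpe : p * e ≠ e * p) (hr : r * e = e * r)
    (hpr : p * r⁻¹ ∈ N) : PairConj S N := by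
  have hy : p * e * p⁻¹ * e⁻¹ ∈ N := by
    have h1 : (p * r⁻¹) * (e * (p * r⁻¹)⁻¹ * e⁻¹) ∈ N :=
      N.mul_mem hpr (hN.conj_mem _ (N.inv_mem hpr) e)
    have h2 : (p * r⁻¹) * (e * (p * r⁻¹)⁻¹ * e⁻¹) = p * (r⁻¹ * e * r) * p⁻¹ * e⁻¹ := by group
    have h3 : r⁻¹ * e * r = e := by
      rw [mul_assoc, ← hr]; group
    rwa [h2, h3] at h1
  have hy1 : p * e * p⁻¹ * e⁻¹ ≠ 1 := by
    intro h
    apply hpe
    have h1 : p * e * p⁻¹ = e := mul_inv_eq_one.mp h
    exact mul_inv_eq_iff_eq_mul.mp h1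
  have hp1 : p ≠ 1 := by
    rintro rfl
    simp at hpe
  have he1 : e ≠ 1 := by
    rintro rfl
    simp at hpe
  rcases hS.pair P hP E hE with h0 | h0 | h0
  · have := cm_mem hp he
    rw [h0, Subgroup.mem_bot] at this
    exact absurd this hy1
  · obtain ⟨m, hm, hTm⟩ := conj_in_N_of_comm hN h0 hp hp1 he he1 hy
    exact ⟨P, hP, E, hE, h0, m, hm, hTm⟩
  · obtain ⟨T, hT, hFT⟩ := hpart _ h0.1
    obtain ⟨m, hm, hTm⟩ := conj_in_N_of_left hN hFT hy (cm_mem hp he) hy1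
    exact ⟨_, h0.1, T, hT, hFT, m, hm, hTm⟩

lemma exists_moved {N : Subgroup G} (hS : Cfsg.IsRootSubgroupSet S) (hN : N.Normal)
    (hpart : ∀ E ∈ S, ∃ D ∈ S, Cfsg.IsRankOnePair E D) (hc : ¬ N ≤ Subgroup.center G) :
    ∃ x ∈ N, ∃ A ∈ S, Cfsg.conjBy A x ≠ A := by
  by_contra H
  push Not at H
  apply hc
  have hnorm : ∀ K : Subgroup G, K ≤ Subgroup.normalizer (N : Set G) := fun K k _ => by
    rw [Subgroup.mem_normalizer_iff]
    intro y
    constructor
    · exact fun hy => hN.conj_mem y hy k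
    · intro hy
      have := hN.conj_mem _ hy k⁻¹
      simpa [mul_assoc] using this
  intro n hn
  rw [Subgroup.mem_center_iff]
  have hle : (⊤ : Subgroup G) ≤ Subgroup.centralizer ({n} : Set G) := by
    rw [← hS.generates]
    refine iSup₂_le ?_
    intro A hA a ha
    obtain ⟨T, hT, hAT⟩ := hpart A hA
    rw [Subgroup.mem_centralizer_singleton_iff]
    exact (hAT.commute_of_normalizes (fun x hx => mem_normalizer_of_conj_le (H x hx A hA))
      (fun x hx => mem_normalizer_of_conj_le (H x hx T hT)) (hnorm A) hn ha).symm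
  intro g
  have := hle (Subgroup.mem_top g)
  rw [Subgroup.mem_centralizer_singleton_iff] at this
  exact this

lemma pairConj_exists {N : Subgroup G} (hS : Cfsg.IsRootSubgroupClass S) (hN : N.Normal)
    (hpart : ∀ E ∈ S, ∃ D ∈ S, Cfsg.IsRankOnePair E D)
    (h2' : ∀ A ∈ S, ∀ C ∈ S, A ≠ C → Cfsg.centralizingMembers S A ≠ Cfsg.centralizingMembers S C)
    (hc : ¬ N ≤ Subgroup.center G) : PairConj S N := by
  classical
  obtain ⟨x, hx, A, hA, hmove⟩ := exists_moved hS.1 hN hpart hc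
  have hB := hS.1.conj_mem A hA x
  rcases hS.1.pair A hA _ hB with h0 | h0 | h0
  · -- commuting case
    have hd := h2' A hA _ hB hmove.symm
    by_cases hE : ∃ E ∈ S, E ≤ Subgroup.centralizer ((Cfsg.conjBy A x : Subgroup G) : Set G) ∧
        ¬ E ≤ Subgroup.centralizer (A : Set G)
    · obtain ⟨E, hES, hE1, hE2⟩ := hE
      obtain ⟨e, he, he'⟩ := SetLike.not_le_iff_exists.mp hE2
      rw [Subgroup.mem_centralizer_iff] at he'
      push Not at he'
      obtain ⟨a, ha, hae⟩ := he'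
      have hb : x * a * x⁻¹ ∈ Cfsg.conjBy A x := conj_mem_conjBy ha
      have h1 := (Subgroup.mem_centralizer_iff.mp (hE1 he)) _ hb
      refine pairConj_of_comm hS.1 hN hpart hA hES ha he (fun h => hae ?_) h1 ?_
      · exact h
      · have : a * (x * a * x⁻¹)⁻¹ = (a * x * a⁻¹) * x⁻¹ := by group
        rw [this]
        exact N.mul_mem (hN.conj_mem x hx a) (N.inv_mem hx)
    · by_cases hE' : ∃ E ∈ S, E ≤ Subgroup.centralizer (A : Set G) ∧
        ¬ E ≤ Subgroup.centralizer ((Cfsg.conjBy A x : Subgroup G) : Set G)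
      · obtain ⟨E, hES, hE1, hE2⟩ := hE'
        obtain ⟨e, he, he'⟩ := SetLike.not_le_iff_exists.mp hE2
        rw [Subgroup.mem_centralizer_iff] at he'
        push Not at he'
        obtain ⟨b, hb, hbe⟩ := he'
        have ha : x⁻¹ * b * x ∈ A := mem_conjBy.mp hb
        have h1 := (Subgroup.mem_centralizer_iff.mp (hE1 he)) _ ha
        refine pairConj_of_comm hS.1 hN hpart hB hES hb he (fun h => hbe ?_) h1 ?_
        · exact h
        · have : b * (x⁻¹ * b * x)⁻¹ = (b * x⁻¹ * b⁻¹) * x := by group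
          rw [this]
          exact N.mul_mem (hN.conj_mem _ (N.inv_mem hx) b) hx
      · exfalso
        apply hd
        push Not at hE hE'
        ext E
        constructor
        · rintro ⟨h1, h2⟩
          exact ⟨h1, hE' E h1 h2⟩
        · rintro ⟨h1, h2⟩
          exact ⟨h1, hE E h1 h2⟩
  · exact ⟨A, hA, _, hB, h0, x, hx, rfl⟩
  · -- commutator case
    obtain ⟨D₀, hD₀, hAD₀⟩ := hpart A hA
    have hl := mem_linePartners_commutator hS.1 hA h0 hAD₀ hD₀
    have hr : ∃ A ∈ S, ∃ B ∈ S, Cfsg.IsRankOnePair A B := ⟨A, hA, D₀, hD₀, hAD₀⟩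
    obtain ⟨D, hD, hFD, hFDA⟩ := exists_commutator_eq hS hr h0.1 hl
    have hcd := hFD.symm
    have hDC : ⁅D, ⁅A, Cfsg.conjBy A x⁆⁆ = A := by rw [Subgroup.commutator_comm]; exact hFDA
    have hBD := rankOne_of_natural hS.1 hA hB hD h0 hcd hDC
    obtain ⟨a, ha, ha1⟩ := hAD₀.exists_ne_one_left
    have hb : x * a * x⁻¹ ∈ Cfsg.conjBy A x := conj_mem_conjBy ha
    have hb1 : x * a * x⁻¹ ≠ 1 := by
      intro h
      apply ha1
      have : a = x⁻¹ * (x * a * x⁻¹) * x := by group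
      rw [this, h]; group
    have hnc : ∃ d ∈ D, x * a * x⁻¹ * d ≠ d * (x * a * x⁻¹) := by
      by_contra hcon
      push Not at hcon
      exact hb1 (hBD.eq_one_of_mem_normalizer hb
        (mem_normalizer_of_conj_le (conjBy_eq_of_commute hcon)))
    obtain ⟨d, hd, hdne⟩ := hnc
    have had : a * d = d * a := by
      have h1 : a ∈ ⁅⁅A, Cfsg.conjBy A x⁆, D⁆ := by rw [hFDA]; exact ha
      exact hFD.comm_right h1 hd
    refine pairConj_of_comm hS.1 hN hpart hB hD hb hd hdne had ?_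
    have : x * a * x⁻¹ * a⁻¹ = x * (a * x⁻¹ * a⁻¹) := by group
    rw [this]
    exact N.mul_mem hx (hN.conj_mem _ (N.inv_mem hx) a)

lemma all_pairConj {N : Subgroup G} (hS : Cfsg.IsRootSubgroupClass S) (hN : N.Normal)
    (h : PairConj S N) {A : Subgroup G} (hA : A ∈ S) :
    ∃ T ∈ S, Cfsg.IsRankOnePair A T ∧ ∃ m ∈ N, T = Cfsg.conjBy A m := by
  obtain ⟨P, hP, T, hT, hPT, m, hm, hTm⟩ := h
  obtain ⟨g, rfl⟩ := hS.2.2 P hP A hA
  refine ⟨_, hS.1.conj_mem T hT g, hPT.conj g, g * m * g⁻¹, hN.conj_mem m hm g, ?_⟩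
  rw [hTm, conjBy_mul, conjBy_mul, conjBy_inv_conjBy]

lemma commutator_le_of_le_sup {N A X : Subgroup G} (hN : N.Normal)
    (hA : ∀ x ∈ A, ∀ y ∈ A, x * y = y * x) (hX : X ≤ N ⊔ A) : ⁅X, X⁆ ≤ N := by
  haveI := hN
  have hdec : ∀ x ∈ X, ∃ n ∈ N, ∃ a ∈ A, x = n * a := by
    intro x hx
    have hx' : x ∈ ((N ⊔ A : Subgroup G) : Set G) := hX hx
    rw [Subgroup.normal_mul, Set.mem_mul] at hx'
    obtain ⟨n, hn, a, ha, rfl⟩ := hx'
    exact ⟨n, hn, a, ha, rfl⟩
  rw [Subgroup.commutator_le]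
  intro x hx y hy
  obtain ⟨n, hn, a, ha, rfl⟩ := hdec x hx
  obtain ⟨n', hn', a', ha', rfl⟩ := hdec y hy
  have hπ : ∀ u ∈ N, QuotientGroup.mk' N u = 1 := fun u hu => (QuotientGroup.eq_one_iff u).mpr hu
  rw [← QuotientGroup.eq_one_iff (N := N)]
  change QuotientGroup.mk' N _ = 1
  rw [commutatorElement_def]
  simp only [map_mul, map_inv, hπ _ hn, hπ _ hn', one_mul]
  have hc : QuotientGroup.mk' N a * QuotientGroup.mk' N a' =
      QuotientGroup.mk' N a' * QuotientGroup.mk' N a := by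
    rw [← map_mul, ← map_mul, hA a ha a' ha']
  rw [hc]
  group

lemma le_sup_of_conj {N A T : Subgroup G} (hN : N.Normal) {m : G} (hm : m ∈ N)
    (hT : T = Cfsg.conjBy A m) : T ≤ N ⊔ A := by
  subst hT
  intro t ht
  have ha : m⁻¹ * t * m ∈ A := mem_conjBy.mp ht
  have e : t = (m * (m⁻¹ * t * m) * m⁻¹ * (m⁻¹ * t * m)⁻¹) * (m⁻¹ * t * m) := by group
  rw [e]
  refine Subgroup.mul_mem _ ((le_sup_left : N ≤ N ⊔ A) ?_) ((le_sup_right : A ≤ N ⊔ A) ha)
  have h1 : m * ((m⁻¹ * t * m) * m⁻¹ * (m⁻¹ * t * m)⁻¹) ∈ N :=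
    N.mul_mem hm (hN.conj_mem _ (N.inv_mem hm) _)
  have h2 : m * (m⁻¹ * t * m) * m⁻¹ * (m⁻¹ * t * m)⁻¹ =
      m * ((m⁻¹ * t * m) * m⁻¹ * (m⁻¹ * t * m)⁻¹) := by group
  rw [h2]
  exact h1

lemma nondeg_of_not_deg (hS : Cfsg.IsRootSubgroupSet S)
    (hpart : ∀ E ∈ S, ∃ D ∈ S, Cfsg.IsRankOnePair E D) (h : ¬ Cfsg.IsDegenerateRootSet S) :
    Cfsg.IsNondegenerateRootSet S := by
  unfold Cfsg.IsDegenerateRootSet at h
  push Not at h
  obtain ⟨C, hC, D, hD, hc⟩ := h
  obtain ⟨P, hP, hCP⟩ := hpart C hC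
  refine ⟨⟨C, hC, ⁅C, D⁆, hc.1, ne_commutator hS hc hCP hP, ?_⟩, ⟨C, hC, P, hP, hCP⟩, C, hC, D, hD, hc⟩
  rw [eq_bot_iff, Subgroup.commutator_le]
  intro a ha f hf
  rw [Subgroup.mem_bot, commutatorElement_eq_one_iff_mul_comm]
  exact (hc.comm_left hf ha).symm

/-- Quasisimplicity criterion for groups generated by abstract root subgroups. Let S be a set of abstract root subgroups of G with more than one member such that: the graph of rank one pairs on S is connected; no two different members of S have the same set of commuting members of S; if S is degenerate then every member of S has more than three elements; and every rank one pair in S is special. Then for every A ∈ S one has G = G' A with A ∩ G' ≠ 1, and the commutator subgroup G' is quasisimple. Moreover G is perfect if S is non-degenerate, or if some rank one pair A, B in S generates a perfect group. -/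
theorem result {G : Type*} [Group G] {S : Set (Subgroup G)} (hS : Cfsg.IsRootSubgroupSet S) (h2 : ∃ A ∈ S, ∃ B ∈ S, A ≠ B)
    (h1 : Cfsg.IsConnectedFamily (Cfsg.FAdj S) S)
    (h2' : ∀ A ∈ S, ∀ C ∈ S, A ≠ C → Cfsg.centralizingMembers S A ≠ Cfsg.centralizingMembers S C)
    (h3 : Cfsg.IsDegenerateRootSet S → ∀ A ∈ S, 3 < ENat.card A)
    (h4 : ∀ A ∈ S, ∀ B ∈ Cfsg.rankOnePartners S A, Cfsg.IsSpecialRankOnePair A B) :
    (∀ A ∈ S, commutator G ⊔ A = ⊤ ∧ A ⊓ commutator G ≠ ⊥) ∧ Cfsg.IsQuasisimple ↥(commutator G) ∧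
    (Cfsg.IsNondegenerateRootSet S → commutator G = ⊤) ∧
    ((∃ A ∈ S, ∃ B ∈ Cfsg.rankOnePartners S A, Group.IsPerfect ↥(A ⊔ B)) → commutator G = ⊤) := by
  classical
  obtain ⟨hconj, A₀, hA₀, hiso⟩ := (Cfsg.Agent.S5032.result hS h2).mp h1
  have hclass : Cfsg.IsRootSubgroupClass S := ⟨hS, hconj⟩
  obtain ⟨D₀, hD₀, hA₀D₀⟩ := exists_partner hiso hA₀
  have hr : ∃ A ∈ S, ∃ B ∈ S, Cfsg.IsRankOnePair A B := ⟨A₀, hA₀, D₀, hD₀, hA₀D₀⟩
  have hpart : ∀ E ∈ S, ∃ D ∈ S, Cfsg.IsRankOnePair E D :=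
    fun E hE => exists_partner_of_class hclass hr hE
  have hcomm : ∀ A ∈ S, ∀ x ∈ A, ∀ y ∈ A, x * y = y * x :=
    fun A hA x hx y hy => comm_of_mem_of_S hS hA hx hy
  have hcore : Cfsg.IsDegenerateRootSet S → ∀ A ∈ S, ∀ T ∈ S, Cfsg.IsRankOnePair A T →
      A ≤ ⁅A ⊔ T, A ⊔ T⁆ := by
    intro hdeg A hA T hT hAT
    exact (special_core hAT (h4 A hA T ⟨hT, hAT⟩).2 (hcomm A hA) (h3 hdeg A hA)).trans
      (diag_commutator_le_commutator A T)
  -- `G` is perfect
  have htop : commutator G = ⊤ := by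
    rw [commutator_def]
    by_cases hdeg : Cfsg.IsDegenerateRootSet S
    · rw [eq_top_iff]
      refine hS.generates.symm.le.trans ?_
      refine iSup₂_le ?_
      intro A hA
      obtain ⟨T, hT, hAT⟩ := hpart A hA
      exact (hcore hdeg A hA T hT hAT).trans (Subgroup.commutator_mono le_top le_top)
    · unfold Cfsg.IsDegenerateRootSet at hdeg
      push Not at hdeg
      obtain ⟨C, hC, D, hD, hc⟩ := hdeg
      have hF : ⁅C, D⁆ ≤ ⁅(⊤ : Subgroup G), ⊤⁆ := Subgroup.commutator_mono le_top le_top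
      rw [eq_top_iff]
      refine hS.generates.symm.le.trans ?_
      refine iSup₂_le ?_
      intro A hA
      obtain ⟨g, rfl⟩ := hconj.2 _ hc.1 A hA
      intro a ha
      have h1 : g⁻¹ * a * g ∈ ⁅C, D⁆ := mem_conjBy.mp ha
      have h2 := (Subgroup.commutator_normal (⊤ : Subgroup G) ⊤).conj_mem _ (hF h1) g
      have e : g * (g⁻¹ * a * g) * g⁻¹ = a := by group
      rwa [e] at h2
  -- normal subgroups
  have hnormal : ∀ N : Subgroup G, N.Normal → N = ⊤ ∨ N ≤ Subgroup.center G := by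
    intro N hN
    by_cases hc : N ≤ Subgroup.center G
    · exact Or.inr hc
    left
    have hpc := pairConj_exists hclass hN hpart h2' hc
    by_cases hdeg : Cfsg.IsDegenerateRootSet S
    · rw [eq_top_iff, ← hS.generates]
      refine iSup₂_le ?_
      intro A hA
      obtain ⟨T, hT, hAT, m, hm, hTm⟩ := all_pairConj hclass hN hpc hA
      have hle : A ⊔ T ≤ N ⊔ A := sup_le le_sup_right (le_sup_of_conj hN hm hTm)
      exact (hcore hdeg A hA T hT hAT).trans (commutator_le_of_le_sup hN (hcomm A hA) hle)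
    · have hnd := nondeg_of_not_deg hS hpart hdeg
      -- an element of `N` in a member
      obtain ⟨T, hT, hAT, m, hm, hTm⟩ := all_pairConj hclass hN hpc hA₀
      obtain ⟨a, ha, ha1⟩ := hAT.exists_ne_one_left
      obtain ⟨C, hC, hCT, hTC⟩ := exists_line_partner_comm hclass hnd hA₀ ⟨hT, hAT⟩
      have htm : m * a * m⁻¹ ∈ T := by rw [hTm]; exact conj_mem_conjBy ha
      have ht1 : m * a * m⁻¹ ≠ 1 := by
        intro h
        apply ha1
        have : a = m⁻¹ * (m * a * m⁻¹) * m := by group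
        rw [this, h]; group
      set t := m * a * m⁻¹ with ht
      have hnc : ∃ c ∈ C, t⁻¹ * c * t⁻¹⁻¹ * c⁻¹ ≠ 1 := by
        by_contra hcon
        push Not at hcon
        have hcl := hTC.2.2.1 t⁻¹ (T.inv_mem htm) (inv_ne_one.mpr ht1)
        have hbot : Subgroup.closure ((fun b : G => t⁻¹ * b * t⁻¹⁻¹ * b⁻¹) '' (C : Set G)) = ⊥ := by
          rw [Subgroup.closure_eq_bot_iff]
          rintro _ ⟨c, hc', rfl⟩
          exact hcon c hc'
        rw [hbot] at hcl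
        exact hS.ne_bot _ hTC.1 hcl.symm
      obtain ⟨c, hc', hne⟩ := hnc
      have hac : a * c = c * a := by
        have h0 := hC.1.2.2
        have := cm_mem ha hc'
        rw [h0, Subgroup.mem_bot] at this
        have h1 : a * c * a⁻¹ = c := mul_inv_eq_one.mp this
        exact mul_inv_eq_iff_eq_mul.mp h1
      have hy : t⁻¹ * c * t⁻¹⁻¹ * c⁻¹ ∈ N := by
        have hu : a * t⁻¹ ∈ N := by
          have : a * t⁻¹ = (a * m * a⁻¹) * m⁻¹ := by rw [ht]; group
          rw [this]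
          exact N.mul_mem (hN.conj_mem m hm a) (N.inv_mem hm)
        have h1 : (a * t⁻¹) * (c * (a * t⁻¹)⁻¹ * c⁻¹) ∈ N :=
          N.mul_mem hu (hN.conj_mem _ (N.inv_mem hu) c)
        have h2 := hN.conj_mem _ h1 a⁻¹
        have e : a⁻¹ * ((a * t⁻¹) * (c * (a * t⁻¹)⁻¹ * c⁻¹)) * a⁻¹⁻¹ =
            t⁻¹ * c * t⁻¹⁻¹ * (a⁻¹ * c⁻¹ * a) := by group
        have e2 : a⁻¹ * c⁻¹ * a = c⁻¹ := by
          have h3 : c⁻¹ * a = a * c⁻¹ := by
            have : a * c⁻¹ * c = c⁻¹ * a * c := by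
              rw [mul_assoc, mul_assoc, hac]; group
            exact (mul_right_cancel this).symm
          rw [mul_assoc, h3]; group
        rwa [e, e2] at h2
      have hyF : t⁻¹ * c * t⁻¹⁻¹ * c⁻¹ ∈ ⁅T, C⁆ := cm_mem (T.inv_mem htm) hc'
      -- every member meets `N`
      have hmeet : ∀ A ∈ S, ∃ y ∈ N, y ∈ A ∧ y ≠ 1 := by
        intro A hA
        obtain ⟨g, rfl⟩ := hconj.2 _ hTC.1 A hA
        refine ⟨g * _ * g⁻¹, hN.conj_mem _ hy g, conj_mem_conjBy hyF, ?_⟩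
        intro h
        apply hne
        have e : t⁻¹ * c * t⁻¹⁻¹ * c⁻¹ = g⁻¹ * (g * (t⁻¹ * c * t⁻¹⁻¹ * c⁻¹) * g⁻¹) * g := by group
        rw [e, h]; group
      have hadj : ∀ P T : Subgroup G, Cfsg.FAdj S P T → ∃ m ∈ N, T = Cfsg.conjBy P m := by
        rintro P T ⟨hP, -, hPT⟩
        obtain ⟨y, hyN, hyP, hy1⟩ := hmeet P hP
        exact conj_in_N_of_left hN hPT hyN hyP hy1
      have hwalk : ∀ E ∈ S, ∃ m ∈ N, E = Cfsg.conjBy A₀ m := by
        intro E hE
        have hw := h1 A₀ hA₀ E hE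
        induction hw with
        | refl => exact ⟨1, N.one_mem, (conjBy_one A₀).symm⟩
        | @tail X Y hab hXY ih =>
          obtain ⟨m₁, hm₁, hm₁X⟩ := ih hXY.1
          obtain ⟨m₂, hm₂, hm₂Y⟩ := hadj X Y hXY
          refine ⟨m₂ * m₁, N.mul_mem hm₂ hm₁, ?_⟩
          rw [conjBy_mul, ← hm₁X, hm₂Y]
      have hle : (⊤ : Subgroup G) ≤ N ⊔ A₀ := by
        rw [← hS.generates]
        refine iSup₂_le ?_
        intro E hE
        obtain ⟨m', hm', hE'⟩ := hwalk E hE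
        exact le_sup_of_conj hN hm' hE'
      have hle2 := commutator_le_of_le_sup hN (hcomm A₀ hA₀) hle
      rw [eq_top_iff, ← htop, commutator_def]
      exact hle2
  have hperf : Group.IsPerfect G := ⟨htop⟩
  haveI hnt : Nontrivial G := by
    obtain ⟨a, -, ha1⟩ := hA₀D₀.exists_ne_one_left
    exact ⟨⟨a, 1, ha1⟩⟩
  have hq : Cfsg.IsQuasisimple G := Cfsg.Agent.Lib.Components.qs_of_forall_normal hperf hnormal
  refine ⟨?_, ?_, fun _ => htop, fun _ => htop⟩
  · intro A hA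
    rw [htop, top_sup_eq, inf_top_eq]
    exact ⟨rfl, hS.ne_bot A hA⟩
  · rw [htop]
    haveI : Nontrivial (⊤ : Subgroup G) := inferInstance
    exact Cfsg.Agent.Lib.Components.qs_of_surjective hq
      ((Subgroup.topEquiv : (⊤ : Subgroup G) ≃* G).symm.toMonoidHom)
      (MulEquiv.surjective _)

end Cfsg.Agent.S5033
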