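import Cfsg.Statements.S5035
import Cfsg.Agent.Lib.Root.Connected
import Mathlib

set_option autoImplicit false
open Cfsg

namespace Cfsg.Agent.S5035
open Cfsg.Agent.Lib.Root

section
variable {G H : Type*} [Group G] [Group H] {S : Set (Subgroup G)}

lemma map_conjBy (f : G →* H) (A : Subgroup G) (g : G) :
    (Cfsg.conjBy A g).map f = Cfsg.conjBy (A.map f) (f g) := by
  ext y
  constructor
  · rintro ⟨x, hx, rfl⟩
    obtain ⟨a, ha, rfl⟩ := hx
    refine ⟨f a, ⟨a, ha, rfl⟩, ?_⟩
    simp [map_mul, MulAut.conj_apply]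
  · rintro ⟨x, ⟨a, ha, rfl⟩, rfl⟩
    refine ⟨g * a * g⁻¹, conj_mem_conjBy ha, ?_⟩
    simp [map_mul, MulAut.conj_apply]

lemma map_closure_cm (f : G →* H) (B : Subgroup G) (a : G) :
    Subgroup.closure ((fun b : H => f a * b * (f a)⁻¹ * b⁻¹) '' ((B.map f : Subgroup H) : Set H)) =
      (Subgroup.closure ((fun b : G => a * b * a⁻¹ * b⁻¹) '' (B : Set G))).map f := by
  rw [MonoidHom.map_closure, Set.image_image]
  congr 1
  ext y
  constructor
  · rintro ⟨_, ⟨b, hb, rfl⟩, rfl⟩
    exact ⟨b, hb, by simp [map_mul]⟩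
  · rintro ⟨b, hb, rfl⟩
    exact ⟨f b, ⟨b, hb, rfl⟩, by simp [map_mul]⟩

lemma map_closure_cm' (f : G →* H) (A : Subgroup G) (b : G) :
    Subgroup.closure ((fun a : H => a * f b * a⁻¹ * (f b)⁻¹) '' ((A.map f : Subgroup H) : Set H)) =
      (Subgroup.closure ((fun a : G => a * b * a⁻¹ * b⁻¹) '' (A : Set G))).map f := by
  rw [MonoidHom.map_closure, Set.image_image]
  congr 1
  ext y
  constructor
  · rintro ⟨_, ⟨a, ha, rfl⟩, rfl⟩
    exact ⟨a, ha, by simp [map_mul]⟩
  · rintro ⟨a, ha, rfl⟩
    exact ⟨f a, ⟨a, ha, rfl⟩, by simp [map_mul]⟩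

lemma rankOneCondition_map (f : G →* H) {A B : Subgroup G} (hc : Cfsg.RankOneCondition A B)
    (hinj : ∀ x ∈ B, f x = 1 → x = 1) : Cfsg.RankOneCondition (A.map f) (B.map f) := by
  rintro _ ⟨a, ha, rfl⟩ ha1
  have ha1' : a ≠ 1 := by
    rintro rfl
    exact ha1 (map_one f)
  obtain ⟨b, hb, hb1, he⟩ := hc a ha ha1'
  refine ⟨f b, ⟨b, hb, rfl⟩, fun h => hb1 (hinj b hb h), ?_⟩
  have := congrArg (Subgroup.map f) he
  rw [map_conjBy, map_conjBy, map_inv, map_inv] at this
  exact this

lemma rankOne_map (f : G →* H) {A B : Subgroup G} (h : Cfsg.IsRankOnePair A B)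
    (hinjA : ∀ x ∈ A, f x = 1 → x = 1) (hinjB : ∀ x ∈ B, f x = 1 → x = 1)
    (hne : A.map f ≠ B.map f) : Cfsg.IsRankOnePair (A.map f) (B.map f) := by
  have h1 := h.nilpotent_left
  have h2 := h.nilpotent_right
  exact ⟨hne, Group.nilpotent_of_surjective (f.subgroupMap A) (f.subgroupMap_surjective A),
    Group.nilpotent_of_surjective (f.subgroupMap B) (f.subgroupMap_surjective B),
    rankOneCondition_map f h.cond_left hinjB, rankOneCondition_map f h.cond_right hinjA⟩

lemma commCase_map (f : G →* H) (hf : Function.Surjective f) {A B : Subgroup G}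
    {S' : Set (Subgroup H)} (hmem : ∀ E ∈ S, E.map f ∈ S') (h : Cfsg.RootCommutatorCase S A B) :
    Cfsg.RootCommutatorCase S' (A.map f) (B.map f) := by
  obtain ⟨h1, h2, h3, h4⟩ := h
  have hmap : ⁅A.map f, B.map f⁆ = ⁅A, B⁆.map f := (Subgroup.map_commutator A B f).symm
  refine ⟨?_, ?_, ?_, ?_⟩
  · rw [hmap]
    exact hmem _ h1
  · rw [hmap, ← Subgroup.map_sup]
    rintro _ ⟨c, hc, rfl⟩ _ ⟨x, hx, rfl⟩
    rw [← map_mul, ← map_mul, h2 c hc x hx]
  · rintro _ ⟨a, ha, rfl⟩ ha1
    have ha1' : a ≠ 1 := by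
      rintro rfl
      exact ha1 (map_one f)
    rw [map_closure_cm, h3 a ha ha1', hmap]
  · rintro _ ⟨b, hb, rfl⟩ hb1
    have hb1' : b ≠ 1 := by
      rintro rfl
      exact hb1 (map_one f)
    rw [map_closure_cm', h4 b hb hb1', hmap]

end

/-- Let S be a set of abstract root subgroups of G whose graph of rank one pairs is connected, and f a homomorphism from G onto a group H. Then either the images of the members of S form a set of abstract root subgroups of H whose graph of rank one pairs is again connected, or H equals the image of a member of S. -/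
theorem result {G H : Type*} [Group G] [Group H] {S : Set (Subgroup G)} (hS : Cfsg.IsRootSubgroupSet S)
    (hc : Cfsg.IsConnectedFamily (Cfsg.FAdj S) S) (f : G →* H) (hf : Function.Surjective f) :
    (Cfsg.IsRootSubgroupSet ((fun A : Subgroup G => A.map f) '' S) ∧
      Cfsg.IsConnectedFamily (Cfsg.FAdj ((fun A : Subgroup G => A.map f) '' S)) ((fun A : Subgroup G => A.map f) '' S)) ∨
    ∃ A ∈ S, A.map f = ⊤ := by
  classical
  have himg : ∀ E ∈ S, E.map f ∈ (fun A : Subgroup G => A.map f) '' S := fun E hE => ⟨E, hE, rfl⟩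
  by_cases hcase : ∃ A ∈ S, ∃ x ∈ A, x ≠ 1 ∧ f x = 1
  · right
    obtain ⟨A, hA, x, hx, hx1, hfx⟩ := hcase
    refine ⟨A, hA, ?_⟩
    have hall : ∀ B ∈ S, (∃ y ∈ B, y ≠ 1 ∧ f y = 1) ∧ B.map f = A.map f := by
      intro B hB
      have hreach := hc A hA B hB
      induction hreach with
      | refl => exact ⟨⟨x, hx, hx1, hfx⟩, rfl⟩
      | tail hab hbc ih =>
        rename_i b c
        obtain ⟨⟨y, hy, hy1, hfy⟩, himgb⟩ := ih hbc.1
        have hp := hbc.2.2
        obtain ⟨u, hu, hu1, hue⟩ := hp.cond_left y hy hy1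
        have h1 := congrArg (Subgroup.map f) hue
        rw [map_conjBy, map_conjBy, map_inv, map_inv, hfy, inv_one] at h1
        have h2 : Cfsg.conjBy (c.map f) 1 = c.map f := conjBy_one _
        rw [h2] at h1
        have h3 : Cfsg.conjBy (c.map f) (f u) = c.map f :=
          conjBy_eq_self_of_mem ⟨u, hu, rfl⟩
        have h4 : c.map f = b.map f := by
          rw [← h3, ← h1, conjBy_conjBy_inv]
        refine ⟨?_, h4.trans himgb⟩
        obtain ⟨w, -, hw⟩ := hp.right_mem_unipotent
        refine ⟨w * y * w⁻¹, ?_, ?_, ?_⟩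
        · rw [hw]
          exact conj_mem_conjBy hy
        · intro h
          apply hy1
          have : y = w⁻¹ * (w * y * w⁻¹) * w := by group
          rw [this, h]
          group
        · simp [map_mul, hfy]
    rw [eq_top_iff]
    intro y _
    obtain ⟨g, rfl⟩ := hf y
    have hg : g ∈ (⨆ B ∈ S, B) := by rw [hS.generates]; trivial
    have hle : (⨆ B ∈ S, B) ≤ (A.map f).comap f := by
      apply iSup₂_le
      intro B hB b hb
      rw [Subgroup.mem_comap, ← (hall B hB).2]
      exact ⟨b, hb, rfl⟩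
    exact hle hg
  · left
    push Not at hcase
    have hinj : ∀ A ∈ S, ∀ x ∈ A, f x = 1 → x = 1 := by
      intro A hA x hx hfx
      by_contra h
      exact hcase A hA x hx h hfx
    set S' := (fun A : Subgroup G => A.map f) '' S with hS'
    have hRS : Cfsg.IsRootSubgroupSet S' := by
      refine ⟨?_, ?_, ?_, ?_, ?_⟩
      · rintro _ ⟨A, hA, rfl⟩
        have := hS.commutative A hA
        refine ⟨⟨?_⟩⟩
        rintro ⟨_, x, hx, rfl⟩ ⟨_, y, hy, rfl⟩
        apply Subtype.ext
        change f x * f y = f y * f x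
        rw [← map_mul, ← map_mul, comm_of_mem_of_S hS hA hx hy]
      · rintro _ ⟨A, hA, rfl⟩ hbot
        obtain ⟨x, hx, hx1⟩ := (Subgroup.bot_or_exists_ne_one _).resolve_left (hS.ne_bot A hA)
        apply hx1
        apply hinj A hA x hx
        have : f x ∈ A.map f := ⟨x, hx, rfl⟩
        change f x ∈ (fun A : Subgroup G => A.map f) A at this
        simpa [hbot] using this
      · rw [eq_top_iff]
        intro y _
        obtain ⟨g, rfl⟩ := hf y
        have hg : g ∈ (⨆ B ∈ S, B) := by rw [hS.generates]; trivial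
        have hle : (⨆ B ∈ S, B) ≤ (⨆ E ∈ S', E).comap f := by
          apply iSup₂_le
          intro B hB b hb
          rw [Subgroup.mem_comap]
          have hle2 : B.map f ≤ ⨆ E ∈ S', E := le_iSup₂_of_le (B.map f) ⟨B, hB, rfl⟩ le_rfl
          exact hle2 ⟨b, hb, rfl⟩
        exact hle hg
      · rintro _ ⟨A, hA, rfl⟩ g
        obtain ⟨x, rfl⟩ := hf g
        exact ⟨_, hS.conj_mem A hA x, map_conjBy f A x⟩
      · rintro _ ⟨A, hA, rfl⟩ _ ⟨B, hB, rfl⟩
        change ⁅A.map f, B.map f⁆ = ⊥ ∨ Cfsg.IsRankOnePair (A.map f) (B.map f) ∨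
          Cfsg.RootCommutatorCase S' (A.map f) (B.map f)
        rcases hS.pair A hA B hB with h0 | h0 | h0
        · left
          rw [← Subgroup.map_commutator, h0, Subgroup.map_bot]
        · by_cases hne : A.map f = B.map f
          · left
            rw [← hne, eq_bot_iff, Subgroup.commutator_le]
            rintro _ ⟨x, hx, rfl⟩ _ ⟨y, hy, rfl⟩
            rw [Subgroup.mem_bot, commutatorElement_eq_one_iff_mul_comm, ← map_mul, ← map_mul,
              comm_of_mem_of_S hS hA hx hy]
          · right; left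
            exact rankOne_map f h0 (hinj A hA) (hinj B hB) hne
        · right; right
          exact commCase_map f hf himg h0
    refine ⟨hRS, ?_⟩
    rintro _ ⟨A, hA, rfl⟩ _ ⟨B, hB, rfl⟩
    change Relation.ReflTransGen (Cfsg.FAdj S') (A.map f) (B.map f)
    have hreach := hc A hA B hB
    induction hreach with
    | refl => exact .refl
    | tail hab hbc ih =>
      rename_i b c
      have ih' := ih hbc.1
      by_cases hne : b.map f = c.map f
      · rw [← hne]; exact ih'
      · exact ih'.tail ⟨himg b hbc.1, himg c hbc.2.1,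
          rankOne_map f hbc.2.2 (hinj b hbc.1) (hinj c hbc.2.1) hne⟩

end Cfsg.Agent.S5035
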