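import Cfsg.Statements.S5037
import Cfsg.Agent.Lib.Root.Incomp
import Mathlib

set_option autoImplicit false
open Cfsg

namespace Cfsg.Agent.S5037

/-- Let S be a class of abstract root subgroups of G that is either degenerate or non-degenerate (so either the commutator case never occurs, or all three cases occur), and A ≠ C members of S. If every member of S commuting with A commutes with C, then A and C have the same commuting members of S; and if every rank one partner of A is a rank one partner of C, then A and C commute and have the same rank one partners. -/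
theorem result {G : Type*} [Group G] {S : Set (Subgroup G)} (hS : Cfsg.IsRootSubgroupClass S)
    (hdn : Cfsg.IsDegenerateRootSet S ∨ Cfsg.IsNondegenerateRootSet S)
    {A C : Subgroup G} (hA : A ∈ S) (hC : C ∈ S) (hAC : A ≠ C) :
    (Cfsg.centralizingMembers S A ⊆ Cfsg.centralizingMembers S C →
      Cfsg.centralizingMembers S A = Cfsg.centralizingMembers S C) ∧
    (Cfsg.rankOnePartners S A ⊆ Cfsg.rankOnePartners S C →
      ⁅A, C⁆ = ⊥ ∧ Cfsg.rankOnePartners S A = Cfsg.rankOnePartners S C) := by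
  obtain ⟨hS1, -, hconj⟩ := hS
  by_cases hp : ∃ P ∈ S, ∃ Q ∈ S, Cfsg.IsRankOnePair P Q
  · have hFp : ∀ E ∈ S, ∃ P ∈ S, Cfsg.IsRankOnePair E P := by
      obtain ⟨P, hP, Q, hQ, hPQ⟩ := hp
      intro E hE
      obtain ⟨g, rfl⟩ := hconj P hP E hE
      exact ⟨Cfsg.conjBy Q g, hS1.conj_mem Q hQ g, hPQ.conj g⟩
    refine ⟨fun h => Cfsg.Agent.Lib.Root.centralizing_core hS1 hFp hA hC h, fun h => ?_⟩
    have hΩ : ∀ F ∈ S, Cfsg.IsRankOnePair A F → Cfsg.IsRankOnePair C F :=
      fun F hF hAF => (h ⟨hF, hAF⟩).2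
    obtain ⟨h1, h2⟩ := Cfsg.Agent.Lib.Root.subset_core hS1 hFp hA hC hΩ
    exact ⟨h1, Set.Subset.antisymm h (fun D hD => ⟨hD.1, h2 D hD.1 hD.2⟩)⟩
  · push Not at hp
    have hdeg : Cfsg.IsDegenerateRootSet S := by
      rcases hdn with h | h
      · exact h
      · obtain ⟨-, ⟨P, hP, Q, hQ, hPQ⟩, -⟩ := h
        exact absurd hPQ (hp P hP Q hQ)
    have hall : ∀ P ∈ S, ∀ Q ∈ S, ⁅P, Q⁆ = ⊥ := by
      intro P hP Q hQ
      rcases hS1.pair P hP Q hQ with h | h | h
      · exact h
      · exact absurd h (hp P hP Q hQ)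
      · exact absurd h (hdeg P hP Q hQ)
    constructor
    · intro _
      ext B
      rw [Cfsg.Agent.Lib.Root.mem_centralizingMembers_iff',
        Cfsg.Agent.Lib.Root.mem_centralizingMembers_iff']
      exact ⟨fun h => ⟨h.1, hall B h.1 C hC⟩, fun h => ⟨h.1, hall B h.1 A hA⟩⟩
    · intro _
      refine ⟨hall A hA C hC, ?_⟩
      ext B
      exact ⟨fun h => absurd h.2 (hp A hA B h.1), fun h => absurd h.2 (hp C hC B h.1)⟩

end Cfsg.Agent.S5037
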