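import Cfsg.Statements.S5041
import Cfsg.Agent.Lib.Root.Gen
import Cfsg.Agent.S5032
import Mathlib

set_option autoImplicit false
open Cfsg

namespace Cfsg.Agent.S5041

open Cfsg.Agent.Lib.Root

/-- Let S be a non-degenerate class of abstract root subgroups of G. Then the graph on S joining A to its line partners, and the commuting graph on S, are both connected. -/
theorem result {G : Type*} [Group G] {S : Set (Subgroup G)} (hS : Cfsg.IsRootSubgroupClass S) (hnd : Cfsg.IsNondegenerateRootSet S) :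
    Cfsg.IsConnectedFamily (Cfsg.EAdj S S) S ∧ Cfsg.IsConnectedFamily (Cfsg.DAdj S) S := by
  obtain ⟨⟨A₀, hA₀, B₀, hB₀, hne, -⟩, hr, hcase⟩ := id hnd
  have hF : Cfsg.IsConnectedFamily (Cfsg.FAdj S) S := by
    refine (Cfsg.Agent.S5032.result hS.1 ⟨A₀, hA₀, B₀, hB₀, hne⟩).mpr ⟨hS.2, ?_⟩
    obtain ⟨A, hA, B, hB, hAB⟩ := hr
    exact ⟨A, hA, fun h => (h.2 B).1 ⟨hA, hB, hAB⟩⟩
  have hstep : ∀ A E, Cfsg.FAdj S A E → Relation.ReflTransGen (Cfsg.EAdj S S) A E := by
    rintro A E ⟨hA, hE, hAE⟩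
    obtain ⟨C, hC, -, hcE⟩ := exists_line_partner_comm hS hnd hA ⟨hE, hAE⟩
    have hCS := hC.1.1
    obtain ⟨P, hP, hEP⟩ := exists_partner_of_class hS hr hE
    obtain ⟨Q, hQ, hCQ⟩ := exists_partner_of_class hS hr hCS
    have h1 := mem_linePartners_commutator hS.1 hE hcE hEP hP
    have h2 := mem_linePartners_commutator hS.1 hCS hcE.symm hCQ hQ
    rw [Subgroup.commutator_comm] at h2
    have hFS := hcE.1
    refine Relation.ReflTransGen.single (show Cfsg.EAdj S S A C from ⟨hA, hCS, hC⟩) |>.tail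
      (show Cfsg.EAdj S S C ⁅E, C⁆ from ⟨hCS, hFS, linePartners_symm hFS h2⟩) |>.tail
      (show Cfsg.EAdj S S ⁅E, C⁆ E from ⟨hFS, hE, h1⟩)
  have hE : Cfsg.IsConnectedFamily (Cfsg.EAdj S S) S := by
    intro A hA B hB
    have h := hF A hA B hB
    clear hF
    induction h with
    | refl => exact .refl
    | tail _ hab ih => exact (ih hab.1).trans (hstep _ _ hab)
  refine ⟨hE, ?_⟩
  intro A hA B hB
  have h := hE A hA B hB
  clear hF hE hstep
  induction h with
  | refl => exact .refl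
  | tail _ hab ih => exact (ih hab.1).tail ⟨hab.1, hab.2.1, hab.2.2.1.2.1.symm, hab.2.2.1.2.2⟩

end Cfsg.Agent.S5041
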