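import Cfsg.Statements.S5042
import Cfsg.Agent.Lib.Root.Gen
import Cfsg.Agent.S5041
import Mathlib

set_option autoImplicit false
open Cfsg

namespace Cfsg.Agent.S5042

open Cfsg.Agent.Lib.Root

/-- Let S be a non-degenerate class of abstract root subgroups of G, A ∈ S and B a rank one partner of A. Then G is generated by the line partners of A together with B. -/
theorem result {G : Type*} [Group G] {S : Set (Subgroup G)} (hS : Cfsg.IsRootSubgroupClass S) (hnd : Cfsg.IsNondegenerateRootSet S)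
    {A B : Subgroup G} (hA : A ∈ S) (hB : B ∈ Cfsg.rankOnePartners S A) :
    (⨆ C ∈ Cfsg.linePartners S A, C) ⊔ B = ⊤ := by
  set M : Subgroup G := (⨆ C ∈ Cfsg.linePartners S A, C) ⊔ B with hM
  have hr := hnd.2.1
  have hBM : B ≤ M := le_sup_right
  have hL : ∀ E ∈ Cfsg.linePartners S A, E ≤ M := fun E hE =>
    le_trans (le_iSup₂_of_le (f := fun C (_ : C ∈ Cfsg.linePartners S A) => C) E hE le_rfl) le_sup_left
  have hstar : ∀ C ∈ Cfsg.linePartners S A, ∃ y ∈ M, C = Cfsg.conjBy A y := fun C hC =>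
    (mem_conj_of_line hS hr hA hB.1 hB.2 hBM hL hC).2
  obtain ⟨C₀, hC₀, -⟩ := exists_line_partner_comm hS hnd hA hB
  have hAM : A ≤ M := (mem_conj_of_line hS hr hA hB.1 hB.2 hBM hL hC₀).1
  have hE := (Cfsg.Agent.S5041.result hS hnd).1
  have hall : ∀ D ∈ S, ∃ y ∈ M, D = Cfsg.conjBy A y := by
    intro D hD
    have h := hE A hA D hD
    induction h with
    | refl => exact ⟨1, M.one_mem, (conjBy_one A).symm⟩
    | @tail X Y _ hab ih =>
      obtain ⟨y, hy, rfl⟩ := ih hab.1
      have h1 : Cfsg.conjBy Y y⁻¹ ∈ Cfsg.linePartners S A := by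
        have := linePartners_conj hS.1 hab.2.2 y⁻¹
        rwa [conjBy_inv_conjBy] at this
      obtain ⟨w, hw, hw2⟩ := hstar _ h1
      refine ⟨y * w, M.mul_mem hy hw, ?_⟩
      rw [conjBy_mul, ← hw2, conjBy_conjBy_inv]
  rw [eq_top_iff, ← hS.1.generates]
  apply iSup₂_le
  intro D hD
  obtain ⟨y, hy, rfl⟩ := hall D hD
  intro x hx
  obtain ⟨a, ha, rfl⟩ := hx
  have := M.mul_mem (M.mul_mem hy (hAM ha)) (M.inv_mem hy)
  simpa using this

end Cfsg.Agent.S5042
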