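import Cfsg.Statements.S5040
import Cfsg.Agent.Lib.Root.Gen
import Cfsg.Agent.S5042
import Mathlib

set_option autoImplicit false
open Cfsg

namespace Cfsg.Agent.S5040

open Cfsg.Agent.Lib.Root

/-- The setwise stabiliser of a family of subgroups under conjugation. -/
def famStab {G : Type*} [Group G] (Δ : Set (Subgroup G)) : Subgroup G where
  carrier := {g | ∀ A, Cfsg.conjBy A g ∈ Δ ↔ A ∈ Δ}
  one_mem' := by
    intro A
    rw [conjBy_one]
  mul_mem' := by
    intro a b ha hb A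
    rw [conjBy_mul, ha, hb]
  inv_mem' := by
    intro a ha A
    rw [← ha (Cfsg.conjBy A a⁻¹), conjBy_conjBy_inv]

lemma mem_famStab_of_fix {G : Type*} [Group G] {S Δ : Set (Subgroup G)}
    (hΔ : Cfsg.IsWeakTISubset S Δ) {D T : Subgroup G} (hD : D ∈ Δ) (hT : T ∈ S) {t : G} (ht : t ∈ T)
    (hfix : Cfsg.conjBy D t = D) : t ∈ famStab Δ := by
  by_cases ht1 : t = 1
  · rw [ht1]; exact Subgroup.one_mem _
  rcases hΔ.2.2.2 t ⟨ht1, T, hT, ht⟩ with h | h
  · intro A
    constructor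
    · intro h1
      rw [← h] at h1
      obtain ⟨A', hA', hA'e⟩ := h1
      rwa [← conjBy_injective t hA'e]
    · intro h1
      rw [← h]
      exact ⟨A, h1, rfl⟩
  · exfalso
    exact Set.disjoint_left.mp h ⟨D, hD, hfix⟩ hD

lemma not_rankOne {G : Type*} [Group G] {S Δ : Set (Subgroup G)} (hS : Cfsg.IsRootSubgroupClass S)
    (hnd : Cfsg.IsNondegenerateRootSet S) (hΔ : Cfsg.IsWeakTISubset S Δ) {A B : Subgroup G}
    (hA : A ∈ Δ) (hB : B ∈ Δ) : ¬ Cfsg.IsRankOnePair A B := by
  intro hAB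
  have hAS := hΔ.1 hA
  have hBS := hΔ.1 hB
  have hstab : famStab Δ = ⊤ := by
    rw [eq_top_iff, ← Cfsg.Agent.S5042.result hS hnd hAS ⟨hBS, hAB⟩]
    apply sup_le
    · apply iSup₂_le
      intro C hC c hc
      apply mem_famStab_of_fix hΔ hA hC.1.1 hc
      apply conjBy_eq_of_commute
      intro x hx
      exact line_comm hC.1.2.2 hx hc |>.symm
    · intro b hb
      exact mem_famStab_of_fix hΔ hB hBS hb (conjBy_eq_self_of_mem hb)
  apply hΔ.2.2.1
  apply Set.Subset.antisymm hΔ.1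
  intro E hE
  obtain ⟨g, rfl⟩ := hS.2.2 A hAS E hE
  have hg : g ∈ famStab Δ := by rw [hstab]; trivial
  exact (hg A).mpr hA

/-- Let S be a non-degenerate class of abstract root subgroups of G and Δ a weak TI-subset of S. Then the members of Δ commute with one another elementwise. -/
theorem result {G : Type*} [Group G] {S : Set (Subgroup G)} (hS : Cfsg.IsRootSubgroupClass S) (hnd : Cfsg.IsNondegenerateRootSet S)
    {Δ : Set (Subgroup G)} (hΔ : Cfsg.IsWeakTISubset S Δ) : Cfsg.IsAbelianFamily Δ := by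
  intro A hA B hB a ha b hb
  have hAS := hΔ.1 hA
  have hBS := hΔ.1 hB
  rcases hS.1.pair A hAS B hBS with h | h | h
  · exact line_comm h ha hb
  · exact absurd h (not_rankOne hS hnd hΔ hA hB)
  · exfalso
    have hr := hnd.2.1
    have hc' := h.symm
    obtain ⟨P, hP, hBP⟩ := exists_partner_of_class hS hr hBS
    have hl := mem_linePartners_commutator hS.1 hBS hc' hBP hP
    obtain ⟨D, hD, hcD, hDc⟩ := exists_commutator_eq hS hr hc'.1 hl
    have hDC : ⁅D, ⁅B, A⁆⁆ = B := by rw [Subgroup.commutator_comm]; exact hDc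
    have hpair : Cfsg.IsRankOnePair A D := rankOne_of_natural hS.1 hBS hAS hD hc' hcD.symm hDC
    have hDstab : D ≤ famStab Δ := by
      intro d hd
      apply mem_famStab_of_fix hΔ hB hD hd
      apply conjBy_eq_of_commute
      intro y hy
      have hy' : y ∈ ⁅D, ⁅B, A⁆⁆ := by rw [hDC]; exact hy
      exact (hcD.symm.comm_left hy' hd).symm
    obtain ⟨a₀, ha₀, ha₀1⟩ := hpair.exists_ne_one_left
    obtain ⟨d, hd, hd1, hrel⟩ := hpair.cond_left a₀ ha₀ ha₀1
    have hA' : Cfsg.conjBy A d⁻¹ ∈ Δ := (hDstab (D.inv_mem hd) A).mpr hA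
    apply not_rankOne hS hnd hΔ hA hA'
    rw [hrel]
    have := hpair.conj a₀⁻¹
    rwa [conjBy_eq_self_of_mem (A.inv_mem ha₀)] at this

end Cfsg.Agent.S5040
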