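import Cfsg.Statements.S5043
import Cfsg.Agent.Lib.Root.TvRoot
import Mathlib

set_option autoImplicit false
open Matrix
open Cfsg

namespace Cfsg.Agent.S5043

open Matrix Cfsg.Agent.Lib.Root

variable {k : Type*} [Field k] {n : ℕ}

local notation "ι" => Fin (n + 3)

/-- The class of the statement. -/
abbrev sig (k : Type*) [Field k] (n : ℕ) : Set (Subgroup (Matrix.SpecialLinearGroup (Fin (n + 3)) k)) :=
  {A : Subgroup (Matrix.SpecialLinearGroup (Fin (n + 3)) k) |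
        ∃ g : Matrix.SpecialLinearGroup (Fin (n + 3)) k,
          A = Cfsg.conjBy (Subgroup.closure {t : Matrix.SpecialLinearGroup (Fin (n + 3)) k |
            ∃ c : k, (t : Matrix (Fin (n + 3)) (Fin (n + 3)) k) = Matrix.transvection 0 1 c}) g}

theorem ei_ne (i : ι) : (Pi.single i (1 : k) : ι → k) ≠ 0 := by
  intro h1
  have := congrFun h1 i
  simp at this

theorem e01 : (Pi.single (1 : ι) (1 : k) : ι → k) ⬝ᵥ (Pi.single (0 : ι) (1 : k) : ι → k) = 0 :=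
  single_dot (F := k) (0 : ι) 1 (by simp [Fin.ext_iff])

theorem std_eq : Subgroup.closure {t : Matrix.SpecialLinearGroup ι k |
    ∃ c : k, (t : Matrix ι ι k) = Matrix.transvection 0 1 c} =
      rootT (Pi.single (0 : ι) (1 : k)) (Pi.single (1 : ι) (1 : k)) e01 := by
  have key : ∀ c : k, Matrix.transvection (0 : ι) 1 c =
      ((tvE (Pi.single (0 : ι) (1 : k)) (Pi.single (1 : ι) (1 : k)) e01 c : Matrix.SpecialLinearGroup ι k) : Matrix ι ι k) := by
    intro c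
    rw [tvE_coe]
    unfold Matrix.transvection
    rw [single_eq_vmv, vmv_smul_left]
  apply le_antisymm
  · rw [Subgroup.closure_le]
    rintro t ⟨c, hc⟩
    refine ⟨c, Subtype.ext ?_⟩
    rw [hc, key]
  · rintro _ ⟨c, rfl⟩
    exact Subgroup.subset_closure ⟨c, (key c).symm⟩

theorem mem_sig_iff {A : Subgroup (Matrix.SpecialLinearGroup ι k)} :
    A ∈ sig k n ↔ ∃ (a b : ι → k) (h : b ⬝ᵥ a = 0), a ≠ 0 ∧ b ≠ 0 ∧ A = rootT a b h := by
  constructor
  · rintro ⟨g, rfl⟩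
    rw [std_eq, rootT_conj]
    exact ⟨_, _, _, sl_mulVec_ne_zero g (ei_ne 0), sl_vecMul_ne_zero g⁻¹ (ei_ne 1), rfl⟩
  · rintro ⟨a, b, h, ha, hb, rfl⟩
    obtain ⟨G, hG1, hG2⟩ := Cfsg.Agent.Lib.Transv.exists_SL_of_pairs (ei_ne (0 : ι)) ha (ei_ne (1 : ι)) hb
      e01 h (by simp)
    refine ⟨G, ?_⟩
    rw [std_eq, rootT_conj]
    have h3 : b ᵥ* (G : Matrix ι ι k) = Pi.single (1 : ι) (1 : k) := by
      funext i
      have h4 := hG2 (Pi.single i 1)
      simp only [mulVec_single_one, dotProduct_single, mul_one] at h4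
      exact h4
    have h5 : (Pi.single (1 : ι) (1 : k) : ι → k) ᵥ* ((G⁻¹ : Matrix.SpecialLinearGroup ι k) : Matrix ι ι k) = b := by
      rw [← h3, vecMul_vecMul, sl_mul_inv, vecMul_one]
    symm
    apply rootT_eq_of_vmv one_ne_zero
    rw [hG1, h5, one_smul]

theorem sig_root : Cfsg.IsRootSubgroupSet (sig k n) where
  commutative := by
    intro A hA
    obtain ⟨a, b, h, _, _, rfl⟩ := mem_sig_iff.mp hA
    exact rootT_isComm a b h
  ne_bot := by
    intro A hA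
    obtain ⟨a, b, h, ha, hb, rfl⟩ := mem_sig_iff.mp hA
    exact rootT_ne_bot ha hb
  generates := by
    rw [eq_top_iff]
    intro M _
    refine Cfsg.Agent.Lib.Classical.sl_transvection_induction (fun g => g ∈ ⨆ A ∈ sig k n, A) ?_ (one_mem _)
      (fun A B hA hB => mul_mem hA hB) M
    intro i j hij a
    have hd : (Pi.single j (1 : k) : ι → k) ⬝ᵥ (Pi.single i (1 : k) : ι → k) = 0 := single_dot i j hij
    have hmem : rootT (Pi.single i (1 : k)) (Pi.single j (1 : k)) hd ∈ sig k n :=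
      mem_sig_iff.mpr ⟨_, _, hd, ei_ne i, ei_ne j, rfl⟩
    have hle : rootT (Pi.single i (1 : k)) (Pi.single j (1 : k)) hd ≤ ⨆ A ∈ sig k n, A :=
      le_iSup₂_of_le _ hmem le_rfl
    apply hle
    refine ⟨a, Subtype.ext ?_⟩
    rw [tvE_coe, Matrix.SpecialLinearGroup.transvection_coe, single_eq_vmv, vmv_smul_left]
  conj_mem := by
    rintro A ⟨g, rfl⟩ h
    exact ⟨h * g, (Lib.Root.conjBy_mul _ h g).symm⟩
  pair := by
    intro A hA B hB
    obtain ⟨v, φ, h0, hv, hφ, rfl⟩ := mem_sig_iff.mp hA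
    obtain ⟨w, ψ, h1, hw, hψ, rfl⟩ := mem_sig_iff.mp hB
    by_cases hα : ψ ⬝ᵥ v = 0
    · by_cases hβ : φ ⬝ᵥ w = 0
      · exact Or.inl (rootT_commutator_bot h0 h1 hα hβ)
      · exact Or.inr (Or.inr (rootT_commCase hα hβ (mem_sig_iff.mpr ⟨v, ψ, hα, hv, hψ, rfl⟩) hv hφ hw hψ))
    · by_cases hβ : φ ⬝ᵥ w = 0
      · exact Or.inr (Or.inr (rootT_commCase hβ hα (mem_sig_iff.mpr ⟨w, φ, hβ, hw, hφ, rfl⟩) hw hψ hv hφ).symm)
      · exact Or.inr (Or.inl (rootT_rankOne hα hβ))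

theorem sig_ne : (sig k n).Nonempty := ⟨_, ⟨1, rfl⟩⟩

theorem sig_class : Cfsg.IsConjClassOfSubgroups (sig k n) := by
  refine ⟨sig_ne, ?_⟩
  rintro A ⟨g₁, rfl⟩ B ⟨g₂, rfl⟩
  refine ⟨g₂ * g₁⁻¹, ?_⟩
  rw [Lib.Root.conjBy_mul, Lib.Root.conjBy_inv_conjBy]

theorem sig_nondeg : Cfsg.IsNondegenerateRootSet (sig k n) := by
  have hi02 : (⟨2, by omega⟩ : ι) ≠ 0 := by simp [Fin.ext_iff]
  have hi12 : (⟨2, by omega⟩ : ι) ≠ 1 := by simp [Fin.ext_iff]
  set i2 : ι := ⟨2, by omega⟩ with hi2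
  have d20 : (Pi.single i2 (1 : k) : ι → k) ⬝ᵥ (Pi.single (0 : ι) (1 : k) : ι → k) = 0 :=
    single_dot (0 : ι) i2 hi02.symm
  have d21 : (Pi.single i2 (1 : k) : ι → k) ⬝ᵥ (Pi.single (1 : ι) (1 : k) : ι → k) = 0 :=
    single_dot (1 : ι) i2 hi12.symm
  have d01 : (Pi.single (0 : ι) (1 : k) : ι → k) ⬝ᵥ (Pi.single (1 : ι) (1 : k) : ι → k) = 0 :=
    single_dot (1 : ι) 0 (by simp [Fin.ext_iff])
  have d11 : (Pi.single (1 : ι) (1 : k) : ι → k) ⬝ᵥ (Pi.single (1 : ι) (1 : k) : ι → k) = 1 := by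
    simp [single_dotProduct]
  have d00 : (Pi.single (0 : ι) (1 : k) : ι → k) ⬝ᵥ (Pi.single (0 : ι) (1 : k) : ι → k) = 1 := by
    simp [single_dotProduct]
  refine ⟨⟨rootT _ _ e01, mem_sig_iff.mpr ⟨_, _, e01, ei_ne _, ei_ne _, rfl⟩,
    rootT _ _ d20, mem_sig_iff.mpr ⟨_, _, d20, ei_ne _, ei_ne _, rfl⟩, ?_, ?_⟩,
    ⟨rootT _ _ e01, mem_sig_iff.mpr ⟨_, _, e01, ei_ne _, ei_ne _, rfl⟩,
    rootT _ _ d01, mem_sig_iff.mpr ⟨_, _, d01, ei_ne _, ei_ne _, rfl⟩, ?_⟩,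
    ⟨rootT _ _ e01, mem_sig_iff.mpr ⟨_, _, e01, ei_ne _, ei_ne _, rfl⟩,
    rootT _ _ d21, mem_sig_iff.mpr ⟨_, _, d21, ei_ne _, ei_ne _, rfl⟩, ?_⟩⟩
  · intro heq
    have h1 : tvE (Pi.single (0 : ι) (1 : k)) (Pi.single (1 : ι) (1 : k)) e01 1 ∈
        rootT (Pi.single (0 : ι) (1 : k)) (Pi.single i2 (1 : k)) d20 := heq ▸ tvE_mem _ _ _ _
    obtain ⟨c, hc⟩ := h1
    have h2 := congrFun (congrFun (congrArg Subtype.val hc) 0) 1
    have h3 := tvE_coe (Pi.single (0 : ι) (1 : k)) (Pi.single (1 : ι) (1 : k)) e01 1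
    have h4 := tvE_coe (Pi.single (0 : ι) (1 : k)) (Pi.single i2 (1 : k)) d20 c
    change ((tvE _ _ _ _ : Matrix.SpecialLinearGroup ι k) : Matrix ι ι k) 0 1 =
      ((tvE _ _ _ _ : Matrix.SpecialLinearGroup ι k) : Matrix ι ι k) 0 1 at h2
    rw [h3, h4] at h2
    have h01 : (0 : ι) ≠ 1 := by simp [Fin.ext_iff]
    simp [vecMulVec_apply, Matrix.one_apply, h01, hi12.symm] at h2
  · exact rootT_commutator_bot _ _ d20 e01
  · exact rootT_rankOne (by rw [d00]; exact one_ne_zero) (by rw [d11]; exact one_ne_zero)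
  · exact rootT_commCase d20 (by rw [d11]; exact one_ne_zero)
      (mem_sig_iff.mpr ⟨_, _, d20, ei_ne _, ei_ne _, rfl⟩) (ei_ne _) (ei_ne _) (ei_ne _) (ei_ne _)

theorem sig_kroot : Cfsg.IsKRootSubgroupSet k (sig k n) := by
  refine ⟨sig_root, ?_⟩
  intro A hA B hB hr
  obtain ⟨v, φ, h0, hv, hφ, rfl⟩ := mem_sig_iff.mp hA
  obtain ⟨w, ψ, h1, hw, hψ, rfl⟩ := mem_sig_iff.mp hB
  by_cases hα : ψ ⬝ᵥ v = 0
  · by_cases hβ : φ ⬝ᵥ w = 0
    · exact absurd (rootT_commutator_bot h0 h1 hα hβ) hr.commutator_ne_bot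
    · exact absurd (rootT_commCase (S := sig k n) hα hβ (mem_sig_iff.mpr ⟨v, ψ, hα, hv, hψ, rfl⟩) hv hφ hw hψ).1
        (Lib.Root.commutator_notMem_of_rankOne sig_root hA hB hr)
  · by_cases hβ : φ ⬝ᵥ w = 0
    · exact absurd (rootT_commCase (S := sig k n) hβ hα (mem_sig_iff.mpr ⟨w, φ, hβ, hw, hφ, rfl⟩) hw hψ hv hφ).symm.1
        (Lib.Root.commutator_notMem_of_rankOne sig_root hA hB hr)
    · exact rootT_psl2 hα hβ

theorem sig_conn : Cfsg.IsConnectedFamily (Cfsg.FAdj (sig k n)) (sig k n) := by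
  intro A hA B hB
  obtain ⟨v, φ, h0, hv, hφ, rfl⟩ := mem_sig_iff.mp hA
  obtain ⟨w, ψ, h1, hw, hψ, rfl⟩ := mem_sig_iff.mp hB
  obtain ⟨u, ρ, h2, a1, a2, a3, a4⟩ := exists_bridge hv hφ hw hψ h0 h1
  have hu : u ≠ 0 := by
    rintro rfl
    simp at a2
  have hρ : ρ ≠ 0 := by
    rintro rfl
    simp at a1
  have hC : rootT u ρ h2 ∈ sig k n := mem_sig_iff.mpr ⟨u, ρ, h2, hu, hρ, rfl⟩
  exact (Relation.ReflTransGen.single ⟨hA, hC, rootT_rankOne a1 a2⟩).trans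
    (Relation.ReflTransGen.single ⟨hC, hB, rootT_rankOne a3 a4⟩)

/-- Let k be a field and n a natural number. In SL_{n+3}(k) (so in every dimension at least 3) the conjugates of the root subgroup of elementary transvections 1 + c E₁₂ (c ∈ k) — that is, the groups of transvections attached to an incident point–hyperplane pair — form a non-degenerate class of abstract k-root subgroups of SL_{n+3}(k) whose graph of rank one pairs is connected. -/
theorem result (k : Type*) [Field k] (n : ℕ) :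
    Cfsg.IsRootSubgroupClass {A : Subgroup (Matrix.SpecialLinearGroup (Fin (n + 3)) k) |
        ∃ g : Matrix.SpecialLinearGroup (Fin (n + 3)) k,
          A = Cfsg.conjBy (Subgroup.closure {t : Matrix.SpecialLinearGroup (Fin (n + 3)) k |
            ∃ c : k, (t : Matrix (Fin (n + 3)) (Fin (n + 3)) k) = Matrix.transvection 0 1 c}) g} ∧
    Cfsg.IsNondegenerateRootSet {A : Subgroup (Matrix.SpecialLinearGroup (Fin (n + 3)) k) |
        ∃ g : Matrix.SpecialLinearGroup (Fin (n + 3)) k,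
          A = Cfsg.conjBy (Subgroup.closure {t : Matrix.SpecialLinearGroup (Fin (n + 3)) k |
            ∃ c : k, (t : Matrix (Fin (n + 3)) (Fin (n + 3)) k) = Matrix.transvection 0 1 c}) g} ∧
    Cfsg.IsKRootSubgroupSet k {A : Subgroup (Matrix.SpecialLinearGroup (Fin (n + 3)) k) |
        ∃ g : Matrix.SpecialLinearGroup (Fin (n + 3)) k,
          A = Cfsg.conjBy (Subgroup.closure {t : Matrix.SpecialLinearGroup (Fin (n + 3)) k |
            ∃ c : k, (t : Matrix (Fin (n + 3)) (Fin (n + 3)) k) = Matrix.transvection 0 1 c}) g} ∧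
    Cfsg.IsConnectedFamily (Cfsg.FAdj {A : Subgroup (Matrix.SpecialLinearGroup (Fin (n + 3)) k) |
        ∃ g : Matrix.SpecialLinearGroup (Fin (n + 3)) k,
          A = Cfsg.conjBy (Subgroup.closure {t : Matrix.SpecialLinearGroup (Fin (n + 3)) k |
            ∃ c : k, (t : Matrix (Fin (n + 3)) (Fin (n + 3)) k) = Matrix.transvection 0 1 c}) g})
      {A : Subgroup (Matrix.SpecialLinearGroup (Fin (n + 3)) k) |
        ∃ g : Matrix.SpecialLinearGroup (Fin (n + 3)) k,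
          A = Cfsg.conjBy (Subgroup.closure {t : Matrix.SpecialLinearGroup (Fin (n + 3)) k |
            ∃ c : k, (t : Matrix (Fin (n + 3)) (Fin (n + 3)) k) = Matrix.transvection 0 1 c}) g} := by
  exact ⟨⟨sig_root, sig_class⟩, sig_nondeg, sig_kroot, sig_conn⟩

end Cfsg.Agent.S5043
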