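import Cfsg.Statements.S5045
import Cfsg.Agent.Lib.Root.Invol
import Mathlib

set_option autoImplicit false
open Cfsg
open Cfsg.Agent.Lib.Root

namespace Cfsg.Agent.S5045

/-- Let G be a finite group generated by a set D of root involutions, and W the set of members of D whose product with every other member of D has even order or is trivial (the isolated vertices of the odd-order-product graph on D). Then W is conjugation-invariant and generates a normal 2-subgroup of G meeting D in exactly W; the commutator of two members of D lying in different connected components of that graph, each with more than one member, lies in the subgroup generated by W; and for a in such a component, every member of D commuting with a, different from a and with product with a in D, lies in that component or in W. -/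
theorem result {G : Type*} [Group G] [Finite G] {D : Set G} (hD : Cfsg.IsRootInvolutionSet D) :
    (∀ w ∈ {w | Cfsg.IsIsolatedElem (Cfsg.OddAdj D) D w}, ∀ g : G, g * w * g⁻¹ ∈ {w | Cfsg.IsIsolatedElem (Cfsg.OddAdj D) D w}) ∧
    (Subgroup.closure {w | Cfsg.IsIsolatedElem (Cfsg.OddAdj D) D w}).Normal ∧
    IsPGroup 2 ↥(Subgroup.closure {w | Cfsg.IsIsolatedElem (Cfsg.OddAdj D) D w}) ∧
    (Subgroup.closure {w | Cfsg.IsIsolatedElem (Cfsg.OddAdj D) D w} : Set G) ∩ D = {w | Cfsg.IsIsolatedElem (Cfsg.OddAdj D) D w} ∧
    (∀ a ∈ D, ∀ b ∈ D, (∃ a' ∈ Cfsg.elemComponentOf (Cfsg.OddAdj D) D a, a' ≠ a) →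
      (∃ b' ∈ Cfsg.elemComponentOf (Cfsg.OddAdj D) D b, b' ≠ b) →
      Cfsg.elemComponentOf (Cfsg.OddAdj D) D a ≠ Cfsg.elemComponentOf (Cfsg.OddAdj D) D b →
        a * b * a⁻¹ * b⁻¹ ∈ Subgroup.closure {w | Cfsg.IsIsolatedElem (Cfsg.OddAdj D) D w}) ∧
    (∀ a ∈ D, (∃ a' ∈ Cfsg.elemComponentOf (Cfsg.OddAdj D) D a, a' ≠ a) →
      Cfsg.productPartners D a ⊆ Cfsg.elemComponentOf (Cfsg.OddAdj D) D a ∪ {w | Cfsg.IsIsolatedElem (Cfsg.OddAdj D) D w}) := by
  classical
  have hWe : {w | Cfsg.IsIsolatedElem (Cfsg.OddAdj D) D w} = riW D := rfl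
  rw [hWe]
  have hN : (Subgroup.closure (riW D)).Normal := riW_normal hD
  have hP : IsPGroup 2 (Subgroup.closure (riW D)) := by
    haveI : Fact (Nat.Prime 2) := ⟨Nat.prime_two⟩
    apply Cfsg.Agent.Lib.Invol.isPGroup_closure_of_pairs 2 _ rfl
    · intro w hw g
      exact riW_conj hD hw g
    · intro a ha b hb
      apply ri_pair_pgroup (ri_sq hD ha.1) (ri_sq hD hb.1)
      rcases hD.pair a ha.1 b hb.1 with h | h | h
      · have h2 : (a * b) * (a * b) = 1 := by
          calc (a * b) * (a * b) = a * (b * a) * b := by group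
            _ = a * (a * b) * b := by rw [h]
            _ = (a * a) * (b * b) := by group
            _ = 1 := by rw [ri_sq hD ha.1, ri_sq hD hb.1, one_mul]
        calc (a * b) ^ 4 = ((a * b) * (a * b)) ^ 2 := by rw [← pow_two, ← pow_mul]
          _ = 1 := by rw [h2, one_pow]
      · by_cases hab : a = b
        · subst hab
          rw [ri_sq hD ha.1, one_pow]
        · exact absurd (⟨ha.1, hb.1, hab, h⟩ : Cfsg.OddAdj D a b) (ha.2 b).1
      · rw [← h.1]
        exact pow_orderOf_eq_one _
  have hpart : ∀ a ∈ D, (∃ a' ∈ Cfsg.elemComponentOf (Cfsg.OddAdj D) D a, a' ≠ a) →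
      Cfsg.productPartners D a ⊆ Cfsg.elemComponentOf (Cfsg.OddAdj D) D a ∪ riW D := by
    intro a ha hne
    obtain ⟨y, hy⟩ := ri_exists_adj_of_comp hne
    exact ri_partners hD ha hy
  refine ⟨fun w hw g => riW_conj hD hw g, hN, hP, ?_, ?_, hpart⟩
  · -- the intersection with `D`
    ext d
    constructor
    · rintro ⟨hd1, hd2⟩
      by_contra hdW
      obtain ⟨x, hx⟩ := ri_exists_adj hd2 hdW
      obtain ⟨g, hg⟩ := ri_conj_of_odd (ri_sq hD hd2) (ri_sq hD hx.2.1) hx.2.2.2
      have hxW : x ∈ Subgroup.closure (riW D) := by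
        rw [hg]
        exact hN.conj_mem d hd1 g
      have hprod : d * x ∈ Subgroup.closure (riW D) := mul_mem hd1 hxW
      obtain ⟨k, hk⟩ := hP ⟨_, hprod⟩
      have h1 : (d * x) ^ 2 ^ k = 1 := by
        have := congrArg Subtype.val hk
        simpa using this
      have h2 := orderOf_dvd_of_pow_eq_one h1
      have h3 : Nat.Coprime (orderOf (d * x)) (2 ^ k) :=
        Nat.Coprime.pow_right _ (Nat.coprime_two_right.mpr hx.2.2.2)
      have h4 : orderOf (d * x) = 1 := Nat.Coprime.eq_one_of_dvd h3 h2
      have h5 : d * x = 1 := orderOf_eq_one_iff.mp h4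
      apply hx.2.2.1
      have := eq_inv_of_mul_eq_one_left h5
      rwa [ri_inv hD hx.2.1] at this
    · intro hd
      exact ⟨Subgroup.subset_closure hd, hd.1⟩
  · -- commutators
    intro a ha b hb hane hbne hcomp
    have haa := ri_sq hD ha
    have hbb := ri_sq hD hb
    have e : a * b * a⁻¹ * b⁻¹ = (a * b) ^ 2 := by
      rw [ri_inv hD ha, ri_inv hD hb, pow_two]
      simp only [mul_assoc]
    rw [e]
    rcases hD.pair a ha b hb with h | h | ⟨h4, hz⟩
    · have h2 : (a * b) ^ 2 = 1 := by
        rw [pow_two]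
        calc (a * b) * (a * b) = a * (b * a) * b := by group
          _ = a * (a * b) * b := by rw [h]
          _ = (a * a) * (b * b) := by group
          _ = 1 := by rw [haa, hbb, one_mul]
      rw [h2]
      exact one_mem _
    · exfalso
      by_cases hab : a = b
      · exact hcomp (by rw [hab])
      · exact hcomp (ri_comp_eq (Relation.ReflTransGen.single ⟨ha, hb, hab, h⟩))
    · apply Subgroup.subset_closure
      have h1 : (a * b) ^ 2 ∈ Cfsg.productPartners D a := ri_four_partner hD ha hb h4 hz
      have h4' : orderOf (b * a) = 4 := by rw [ri_orderOf_swap]; exact h4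
      have hzeq : (b * a) ^ 2 = (a * b) ^ 2 := by
        have h5 : (a * b) ^ 4 = 1 := by rw [← h4]; exact pow_orderOf_eq_one _
        have h6 : (b * a) = (a * b)⁻¹ := by
          rw [mul_inv_rev, ri_inv hD ha, ri_inv hD hb]
        rw [h6, inv_pow]
        have h7 : (a * b) ^ 2 * (a * b) ^ 2 = 1 := by
          rw [← pow_add]; exact h5
        exact (inv_eq_of_mul_eq_one_left h7)
      have h2 : (a * b) ^ 2 ∈ Cfsg.productPartners D b := by
        have := ri_four_partner hD hb ha h4' (by rw [hzeq]; exact hz)
        rwa [hzeq] at this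
      rcases hpart a ha hane h1 with h3 | h3
      · rcases hpart b hb hbne h2 with h5 | h5
        · exfalso
          apply hcomp
          exact ri_comp_eq (h3.2.trans (ri_reach_symm h5.2))
        · exact h5
      · exact h3

end Cfsg.Agent.S5045
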