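import Cfsg.Statements.S5048
import Cfsg.Agent.Lib.Root.Invol
import Cfsg.Agent.Lib.Basic.Core
import Mathlib

set_option autoImplicit false
open Cfsg

namespace Cfsg.Agent.S5048

open Cfsg.Agent.Lib.Root (ri_conj_of_odd)
open Cfsg.Agent.Lib.Basic (le_pCore pCore_isPGroup pCore_normal)

section Aux

variable {G : Type*} [Group G]

lemma sq_closure {S : Set G} (h1 : ∀ x ∈ S, x * x = 1) (h2 : ∀ x ∈ S, ∀ y ∈ S, x * y = y * x) :
    ∀ z ∈ Subgroup.closure S, z * z = 1 := by
  have hc : ∀ z ∈ Subgroup.closure S, ∀ s ∈ S, z * s = s * z := by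
    intro z hz s hs
    induction hz using Subgroup.closure_induction with
    | mem x hx => exact h2 x hx s hs
    | one => simp
    | mul x y _ _ hx hy => rw [mul_assoc, hy, ← mul_assoc, hx, mul_assoc]
    | inv x _ hx =>
      have : x⁻¹ * (x * s) * x⁻¹ = x⁻¹ * (s * x) * x⁻¹ := by rw [hx]
      simpa [mul_assoc] using this.symm
  have hcc : ∀ z ∈ Subgroup.closure S, ∀ w ∈ Subgroup.closure S, z * w = w * z := by
    intro z hz w hw
    induction hw using Subgroup.closure_induction with
    | mem x hx => exact hc z hz x hx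
    | one => simp
    | mul x y _ _ hx hy => rw [← mul_assoc, hx, mul_assoc, hy, mul_assoc]
    | inv x _ hx =>
      have : x⁻¹ * (z * x) * x⁻¹ = x⁻¹ * (x * z) * x⁻¹ := by rw [hx]
      simpa [mul_assoc] using this.symm
  intro z hz
  induction hz using Subgroup.closure_induction with
  | mem x hx => exact h1 x hx
  | one => simp
  | mul x y hx' hy' hx hy =>
    calc x * y * (x * y) = x * (y * x) * y := by group
      _ = x * (x * y) * y := by rw [hcc y hy' x hx']
      _ = (x * x) * (y * y) := by group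
      _ = 1 := by rw [hx, hy, one_mul]
  | inv x _ hx => rw [← mul_inv_rev, hx, inv_one]

end Aux

variable {G : Type*} [Group G] {D : Set G}

lemma self_mul (hD : IsRootInvolutionSet D) {d : G} (hd : d ∈ D) : d * d = 1 := by
  have := pow_orderOf_eq_one d
  rwa [hD.orderOf_eq d hd, pow_two] at this

lemma inv_eq (hD : IsRootInvolutionSet D) {d : G} (hd : d ∈ D) : d⁻¹ = d :=
  inv_eq_of_mul_eq_one_left (self_mul hD hd)

lemma conj_class (hD : IsRootInvolutionSet D) (hc : IsConnectedSet (OddAdj D) D) {a b : G}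
    (ha : a ∈ D) (hb : b ∈ D) : ∃ g : G, b = g * a * g⁻¹ := by
  have h := hc a ha b hb
  induction h with
  | refl => exact ⟨1, by simp⟩
  | tail _ hadj ih =>
    obtain ⟨hb', hc', _, hodd⟩ := hadj
    obtain ⟨g, hg⟩ := ih hb'
    obtain ⟨k, hk⟩ := ri_conj_of_odd (self_mul hD hb') (self_mul hD hc') hodd
    refine ⟨k * g, ?_⟩
    rw [hk, hg]
    group

lemma exists_partner (hD : IsRootInvolutionSet D) (hc : IsConnectedSet (OddAdj D) D)
    (hDD : (D ∩ commutingProducts D).Nonempty) {d : G} (hd : d ∈ D) :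
    ∃ b ∈ D, d * b = b * d ∧ d * b ∈ D := by
  obtain ⟨x, hxD, a, ha, b, hb, hab, _, rfl⟩ := hDD
  obtain ⟨g, rfl⟩ := conj_class hD hc ha hd
  refine ⟨g * b * g⁻¹, hD.conj_mem b hb g, ?_, ?_⟩
  · calc g * a * g⁻¹ * (g * b * g⁻¹) = g * (a * b) * g⁻¹ := by group
      _ = g * (b * a) * g⁻¹ := by rw [hab]
      _ = g * b * g⁻¹ * (g * a * g⁻¹) := by group
  · have := hD.conj_mem _ hxD g
    have e : g * a * g⁻¹ * (g * b * g⁻¹) = g * (a * b) * g⁻¹ := by group
    rw [e]
    exact this

section Normal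

variable {N : Subgroup G} [hN : N.Normal]

/-- Uniformity. -/
lemma unif (hD : IsRootInvolutionSet D) (hND : ∀ d ∈ D, d ∉ N) {y d a : G} (hy : y ∈ D) (hd : d ∈ D)
    (ha : a ∈ D) (hda : d * a ∈ N) (hyd : y * d ∉ N) (hc : y * d = d * y) : y * a = a * y := by
  let π : G →* G ⧸ N := QuotientGroup.mk' N
  have hπ : ∀ x, π x = 1 ↔ x ∈ N := fun x => QuotientGroup.eq_one_iff x
  have hdd : π d * π d = 1 := by rw [← map_mul, self_mul hD hd, map_one]
  have hπa : π a = π d := by
    have h1 : π d * π a = 1 := by rw [← map_mul]; exact (hπ _).2 hda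
    calc π a = π d * π d * π a := by rw [hdd, one_mul]
      _ = π d * (π d * π a) := by group
      _ = π d := by rw [h1, mul_one]
  have hsq : (π (y * a)) ^ 2 = 1 := by
    rw [map_mul, hπa, ← map_mul, ← map_pow, pow_two]
    have : y * d * (y * d) = 1 := by
      calc y * d * (y * d) = y * (d * y) * d := by group
        _ = y * (y * d) * d := by rw [hc]
        _ = (y * y) * (d * d) := by group
        _ = 1 := by rw [self_mul hD hy, self_mul hD hd, one_mul]
    rw [this, map_one]
  rcases hD.pair y hy a ha with h | h | ⟨_, h5⟩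
  · exact h
  · exfalso
    obtain ⟨k, hk⟩ := h
    have h1 : (π (y * a)) ^ (orderOf (y * a)) = 1 := by
      rw [← map_pow, pow_orderOf_eq_one, map_one]
    rw [hk, pow_succ, pow_mul, hsq, one_pow, one_mul, map_mul, hπa, ← map_mul] at h1
    exact hyd ((hπ _).1 h1)
  · exfalso
    apply hND _ h5
    rw [← hπ, map_pow]
    exact hsq

lemma comm_X (hD : IsRootInvolutionSet D) (hc : IsConnectedSet (OddAdj D) D)
    (hDD : (D ∩ commutingProducts D).Nonempty) (hND : ∀ d ∈ D, d ∉ N) {d a : G} (hd : d ∈ D)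
    (ha : a ∈ D) (hda : d * a ∈ N) : d * a = a * d := by
  obtain ⟨b, hb, hdb, hdbD⟩ := exists_partner hD hc hDD hd
  have h1 : b * a = a * b := by
    refine unif hD hND hb hd ha hda ?_ hdb.symm
    rw [← hdb]
    exact hND _ hdbD
  have e1 : (d * b) * d = b := by
    rw [hdb, mul_assoc, self_mul hD hd, mul_one]
  have h2 : (d * b) * a = a * (d * b) := by
    refine unif hD hND hdbD hd ha hda ?_ ?_
    · rw [e1]
      exact hND _ hb
    · rw [e1, ← mul_assoc, self_mul hD hd, one_mul]
  have e2 : d = (d * b) * b := by rw [mul_assoc, self_mul hD hb, mul_one]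
  calc d * a = (d * b) * b * a := by rw [← e2]
    _ = (d * b) * (a * b) := by rw [mul_assoc, h1]
    _ = ((d * b) * a) * b := by group
    _ = (a * (d * b)) * b := by rw [h2]
    _ = a * ((d * b) * b) := by group
    _ = a * d := by rw [← e2]

/-- The subgroup `⟨d a : d, a ∈ D, d a ∈ N⟩`. -/
def bigW (N : Subgroup G) (D : Set G) : Subgroup G := Subgroup.closure {x | ∃ c ∈ D, ∃ a ∈ D, c * a ∈ N ∧ x = c * a}

/-- The subgroup `⟨c a : a ∈ D, c a ∈ N⟩`. -/
def smallU (N : Subgroup G) (D : Set G) (c : G) : Subgroup G := Subgroup.closure {x | ∃ a ∈ D, c * a ∈ N ∧ x = c * a}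

lemma bigW_le : bigW N D ≤ N := by
  refine (Subgroup.closure_le _).mpr ?_
  rintro x ⟨c, _, a, _, h, rfl⟩
  exact h

lemma smallU_le {c : G} (hc : c ∈ D) : smallU N D c ≤ bigW N D := by
  refine (Subgroup.closure_le _).mpr ?_
  rintro x ⟨a, ha, h, rfl⟩
  exact Subgroup.subset_closure ⟨c, hc, a, ha, h, rfl⟩

lemma smallU_sq (hD : IsRootInvolutionSet D) (hc : IsConnectedSet (OddAdj D) D)
    (hDD : (D ∩ commutingProducts D).Nonempty) (hND : ∀ d ∈ D, d ∉ N) {c : G} (hcD : c ∈ D) :
    ∀ z ∈ smallU N D c, z * z = 1 := by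
  apply sq_closure
  · rintro x ⟨a, ha, h, rfl⟩
    have hca := comm_X hD hc hDD hND hcD ha h
    calc c * a * (c * a) = c * (a * c) * a := by group
      _ = c * (c * a) * a := by rw [hca]
      _ = (c * c) * (a * a) := by group
      _ = 1 := by rw [self_mul hD hcD, self_mul hD ha, one_mul]
  · rintro x ⟨a, ha, h, rfl⟩ y ⟨a', ha', h', rfl⟩
    have hca := comm_X hD hc hDD hND hcD ha h
    have hca' := comm_X hD hc hDD hND hcD ha' h'
    have haa : a * a' ∈ N := by
      have h1 : a * c = (c * a)⁻¹ := by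
        rw [mul_inv_rev, inv_eq hD hcD, inv_eq hD ha]
      have : a * a' = (a * c) * (c * a') := by
        calc a * a' = a * (c * c) * a' := by rw [self_mul hD hcD, mul_one]
          _ = (a * c) * (c * a') := by group
      rw [this, h1]
      exact N.mul_mem (N.inv_mem h) h'
    have hh := comm_X hD hc hDD hND ha ha' haa
    calc c * a * (c * a') = c * (a * c) * a' := by group
      _ = c * (c * a) * a' := by rw [← hca]
      _ = a * a' := by rw [← mul_assoc c c, self_mul hD hcD, one_mul]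
      _ = a' * a := hh
      _ = c * (c * a') * a := by rw [← mul_assoc c c, self_mul hD hcD, one_mul]
      _ = c * (a' * c) * a := by rw [hca']
      _ = c * a' * (c * a) := by group

lemma smallU_norm (hD : IsRootInvolutionSet D) (hc : IsConnectedSet (OddAdj D) D)
    (hDD : (D ∩ commutingProducts D).Nonempty) (hND : ∀ d ∈ D, d ∉ N) {c n : G} (hcD : c ∈ D)
    (hn : n ∈ N) {z : G} (hz : z ∈ smallU N D c) : n * z * n⁻¹ ∈ smallU N D c := by
  induction hz using Subgroup.closure_induction with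
  | mem x hx =>
    obtain ⟨a, ha, h, rfl⟩ := hx
    have hc' : n * c * n⁻¹ ∈ D := hD.conj_mem c hcD n
    have ha' : n * a * n⁻¹ ∈ D := hD.conj_mem a ha n
    have h1 : c * (n * c * n⁻¹) ∈ N := by
      have e : c * (n * c * n⁻¹) = (c * n * c⁻¹) * n⁻¹ := by rw [inv_eq hD hcD]; group
      rw [e]
      exact N.mul_mem (hN.conj_mem n hn c) (N.inv_mem hn)
    have h2 : c * (n * a * n⁻¹) ∈ N := by
      have e : c * (n * a * n⁻¹) = (c * a) * (a * n * a⁻¹) * n⁻¹ := by
        rw [inv_eq hD ha]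
        calc c * (n * a * n⁻¹) = c * (a * a) * n * a * n⁻¹ := by
              rw [self_mul hD ha]; group
          _ = c * a * (a * n * a) * n⁻¹ := by group
      rw [e]
      exact N.mul_mem (N.mul_mem h (hN.conj_mem n hn a)) (N.inv_mem hn)
    have hcc := comm_X hD hc hDD hND hcD hc' h1
    have e : n * (c * a) * n⁻¹ = (c * (n * c * n⁻¹)) * (c * (n * a * n⁻¹)) := by
      calc n * (c * a) * n⁻¹ = (n * c * n⁻¹) * (n * a * n⁻¹) := by group
        _ = (c * c) * (n * c * n⁻¹) * (n * a * n⁻¹) := by rw [self_mul hD hcD, one_mul]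
        _ = c * (c * (n * c * n⁻¹)) * (n * a * n⁻¹) := by group
        _ = c * ((n * c * n⁻¹) * c) * (n * a * n⁻¹) := by rw [hcc]
        _ = (c * (n * c * n⁻¹)) * (c * (n * a * n⁻¹)) := by group
    rw [e]
    exact Subgroup.mul_mem _ (Subgroup.subset_closure ⟨_, hc', h1, rfl⟩)
      (Subgroup.subset_closure ⟨_, ha', h2, rfl⟩)
  | one => simp
  | mul x y _ _ hx hy =>
    have : n * (x * y) * n⁻¹ = n * x * n⁻¹ * (n * y * n⁻¹) := by group
    rw [this]
    exact Subgroup.mul_mem _ hx hy
  | inv x _ hx =>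
    have : n * x⁻¹ * n⁻¹ = (n * x * n⁻¹)⁻¹ := by group
    rw [this]
    exact Subgroup.inv_mem _ hx

lemma bigW_normal (hD : IsRootInvolutionSet D) : (bigW N D).Normal := by
  refine ⟨fun z hz g => ?_⟩
  induction hz using Subgroup.closure_induction with
  | mem x hx =>
    obtain ⟨c, hc, a, ha, h, rfl⟩ := hx
    refine Subgroup.subset_closure ⟨g * c * g⁻¹, hD.conj_mem c hc g, g * a * g⁻¹, hD.conj_mem a ha g, ?_, by group⟩
    have e : g * c * g⁻¹ * (g * a * g⁻¹) = g * (c * a) * g⁻¹ := by group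
    rw [e]
    exact hN.conj_mem _ h g
  | one => simp
  | mul x y _ _ hx hy =>
    have : g * (x * y) * g⁻¹ = g * x * g⁻¹ * (g * y * g⁻¹) := by group
    rw [this]
    exact Subgroup.mul_mem _ hx hy
  | inv x _ hx =>
    have : g * x⁻¹ * g⁻¹ = (g * x * g⁻¹)⁻¹ := by group
    rw [this]
    exact Subgroup.inv_mem _ hx

lemma bigW_isPGroup [Finite G] (hD : IsRootInvolutionSet D) (hc : IsConnectedSet (OddAdj D) D)
    (hDD : (D ∩ commutingProducts D).Nonempty) (hND : ∀ d ∈ D, d ∉ N) : IsPGroup 2 (bigW N D) := by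
  have hnorm : ∀ c ∈ D, ((smallU N D c).subgroupOf (bigW N D)).Normal := by
    intro c hcD
    refine ⟨fun n hn g => ?_⟩
    rw [Subgroup.mem_subgroupOf] at hn ⊢
    exact smallU_norm hD hc hDD hND hcD (bigW_le g.2) hn
  have hp : ∀ c ∈ D, IsPGroup 2 ((smallU N D c).subgroupOf (bigW N D)) := by
    intro c hcD x
    refine ⟨1, ?_⟩
    have hx : ((x : bigW N D) : G) ∈ smallU N D c := Subgroup.mem_subgroupOf.mp x.2
    have h1 := smallU_sq hD hc hDD hND hcD _ hx
    apply Subtype.ext
    apply Subtype.ext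
    simpa [pow_two] using h1
  have hle : ∀ c ∈ D, (smallU N D c).subgroupOf (bigW N D) ≤ pCore 2 (bigW N D) :=
    fun c hcD => le_pCore (hnorm c hcD) (hp c hcD)
  have hgen : bigW N D ≤ (pCore 2 (bigW N D)).map (bigW N D).subtype := by
    refine (Subgroup.closure_le _).mpr ?_
    rintro x ⟨c, hcD, a, ha, h, rfl⟩
    have hxA : c * a ∈ bigW N D := Subgroup.subset_closure ⟨c, hcD, a, ha, h, rfl⟩
    refine ⟨⟨c * a, hxA⟩, ?_, rfl⟩
    apply hle c hcD
    rw [Subgroup.mem_subgroupOf]
    exact Subgroup.subset_closure ⟨a, ha, h, rfl⟩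
  intro x
  obtain ⟨y, hy, hyx⟩ := hgen x.2
  obtain ⟨k, hk⟩ := pCore_isPGroup (G := bigW N D) 2 ⟨y, hy⟩
  refine ⟨k, ?_⟩
  have hyx' : y = x := Subtype.ext hyx
  rw [← hyx']
  have := congrArg Subtype.val hk
  simpa using this

/-- A normal subgroup containing no member of `D` lies in `O_{2,Z}(G)`. -/
lemma le_twoZCore [Finite G] (hD : IsRootInvolutionSet D) (hc : IsConnectedSet (OddAdj D) D)
    (hDD : (D ∩ commutingProducts D).Nonempty) (hND : ∀ d ∈ D, d ∉ N) : N ≤ twoZCore G := by
  haveI hWn : (bigW N D).Normal := bigW_normal hD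
  have hW : bigW N D ≤ pCore 2 G := le_pCore hWn (bigW_isPGroup hD hc hDD hND)
  haveI hQ : (pCore 2 G).Normal := pCore_normal 2 G
  intro n hn
  change QuotientGroup.mk' (pCore 2 G) n ∈ Subgroup.center (G ⧸ pCore 2 G)
  let π : G →* G ⧸ pCore 2 G := QuotientGroup.mk' (pCore 2 G)
  have hπ : ∀ x, π x = 1 ↔ x ∈ pCore 2 G := fun x => QuotientGroup.eq_one_iff x
  have hcomm : ∀ d ∈ D, π n * π d = π d * π n := by
    intro d hd
    have h1 : d * (n * d * n⁻¹) ∈ N := by
      have e : d * (n * d * n⁻¹) = (d * n * d⁻¹) * n⁻¹ := by rw [inv_eq hD hd]; group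
      rw [e]
      exact N.mul_mem (hN.conj_mem n hn d) (N.inv_mem hn)
    have h2 : d * (n * d * n⁻¹) ∈ pCore 2 G :=
      hW (Subgroup.subset_closure ⟨d, hd, _, hD.conj_mem d hd n, h1, rfl⟩)
    have h3 := (hπ _).2 h2
    have hdd : π d * π d = 1 := by rw [← map_mul, self_mul hD hd, map_one]
    simp only [map_mul, map_inv] at h3
    calc π n * π d = π d * π d * (π n * π d) := by rw [hdd, one_mul]
      _ = π d * (π d * (π n * π d * (π n)⁻¹)) * π n := by group
      _ = π d * π n := by rw [h3, mul_one]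
  have hall : ∀ g : G, π n * π g = π g * π n := by
    intro g
    have hg : g ∈ Subgroup.closure D := by rw [hD.generates]; trivial
    induction hg using Subgroup.closure_induction with
    | mem x hx => exact hcomm x hx
    | one => simp
    | mul x y _ _ hx hy =>
      rw [map_mul, ← mul_assoc, hx, mul_assoc, hy, mul_assoc]
    | inv x _ hx =>
      rw [map_inv]
      have : (π x)⁻¹ * (π n * π x) * (π x)⁻¹ = (π x)⁻¹ * (π x * π n) * (π x)⁻¹ := by rw [hx]
      simpa [mul_assoc] using this.symm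
  rw [Subgroup.mem_center_iff]
  intro q
  obtain ⟨g, rfl⟩ := QuotientGroup.mk'_surjective (pCore 2 G) q
  exact (hall g).symm

end Normal

lemma not_mem_of_odd [Finite G] (hD : IsRootInvolutionSet D) {d x : G} (hd : d ∈ D) (hx : x ∈ D)
    (hne : d ≠ x) (hodd : Odd (orderOf (d * x))) : d * x ∉ twoZCore G := by
  intro h
  haveI hQ : (pCore 2 G).Normal := pCore_normal 2 G
  let π : G →* G ⧸ pCore 2 G := QuotientGroup.mk' (pCore 2 G)
  have hπ : ∀ y, π y = 1 ↔ y ∈ pCore 2 G := fun y => QuotientGroup.eq_one_iff y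
  have hc : π (d * x) ∈ Subgroup.center (G ⧸ pCore 2 G) := h
  rw [Subgroup.mem_center_iff] at hc
  have h1 := hc (π d)
  have hdd : π d * π d = 1 := by rw [← map_mul, self_mul hD hd, map_one]
  have hxx : π x * π x = 1 := by rw [← map_mul, self_mul hD hx, map_one]
  rw [map_mul] at h1
  have h2 : (π d * π x) * (π d * π x) = 1 := by
    calc (π d * π x) * (π d * π x) = (π d * (π d * π x)) * π x := by
          rw [h1]; group
      _ = (π d * π d) * (π x * π x) := by group
      _ = 1 := by rw [hdd, hxx, one_mul]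
  have h3 : (d * x) ^ 2 ∈ pCore 2 G := by
    rw [← hπ, map_pow, map_mul, pow_two]
    exact h2
  obtain ⟨k, hk⟩ := pCore_isPGroup (G := G) 2 ⟨(d * x) ^ 2, h3⟩
  have hk' : ((d * x) ^ 2) ^ 2 ^ k = 1 := by
    have := congrArg Subtype.val hk
    simpa using this
  have h4 : orderOf (d * x) ∣ 2 * 2 ^ k := by
    apply orderOf_dvd_of_pow_eq_one
    rw [pow_mul]
    exact hk'
  have hcop : Nat.Coprime (orderOf (d * x)) (2 * 2 ^ k) := by
    have : 2 * 2 ^ k = 2 ^ (k + 1) := by ring
    rw [this]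
    exact Nat.Coprime.pow_right _ (Nat.coprime_two_right.mpr hodd)
  have h5 : orderOf (d * x) = 1 := Nat.Coprime.eq_one_of_dvd hcop h4
  rw [orderOf_eq_one_iff] at h5
  apply hne
  have hdi := inv_eq hD hd
  have : x = d⁻¹ := eq_inv_of_mul_eq_one_right h5
  rw [this, hdi]

/-- Let G be a finite group generated by a set D of root involutions whose odd-order-product graph is connected, with some product of two different commuting members of D again in D. Then the largest solvable normal subgroup of G is the preimage of the centre of G/O₂(G), and the quotient of G by it is a simple group. -/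
theorem result {G : Type*} [Group G] [Finite G] {D : Set G} (hD : Cfsg.IsRootInvolutionSet D)
    (hc : Cfsg.IsConnectedSet (Cfsg.OddAdj D) D) (hDD : (D ∩ Cfsg.commutingProducts D).Nonempty) :
    Cfsg.solvableRadical G = Cfsg.twoZCore G ∧ IsSimpleGroup (G ⧸ Cfsg.twoZCore G) := by
  classical
  haveI hZn : (twoZCore G).Normal := inferInstance
  haveI hQ : (pCore 2 G).Normal := pCore_normal 2 G
  -- proper normal subgroups
  have hcl : ∀ N : Subgroup G, N.Normal → N ≠ ⊤ → N ≤ twoZCore G := by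
    intro N hN hne
    haveI := hN
    refine le_twoZCore hD hc hDD ?_
    intro d hd hdN
    apply hne
    rw [eq_top_iff, ← hD.generates, Subgroup.closure_le]
    intro x hx
    obtain ⟨g, rfl⟩ := conj_class hD hc hd hx
    exact hN.conj_mem d hdN g
  -- an odd pair
  obtain ⟨d, x, hd, hx, hne, hodd⟩ : ∃ d x : G, d ∈ D ∧ x ∈ D ∧ d ≠ x ∧ Odd (orderOf (d * x)) := by
    obtain ⟨y, hyD, a, ha, b, hb, hab, hne, rfl⟩ := hDD
    have hab' : a ≠ b := by
      rintro rfl
      exact hne (self_mul hD ha)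
    rcases Relation.ReflTransGen.cases_head (hc a ha b hb) with h | ⟨c, hadj, _⟩
    · exact absurd h hab'
    · exact ⟨a, c, hadj.1, hadj.2.1, hadj.2.2.1, hadj.2.2.2⟩
  have hNC := not_mem_of_odd hD hd hx hne hodd
  have hZtop : twoZCore G ≠ ⊤ := by
    intro h
    apply hNC
    rw [h]
    trivial
  have hsimple : IsSimpleGroup (G ⧸ twoZCore G) := by
    haveI : Nontrivial (G ⧸ twoZCore G) := QuotientGroup.nontrivial_iff.mpr hZtop
    refine ⟨fun H hH => ?_⟩
    by_cases hcom : H.comap (QuotientGroup.mk' (twoZCore G)) = ⊤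
    · right
      rw [eq_top_iff]
      intro y _
      obtain ⟨g, rfl⟩ := QuotientGroup.mk'_surjective (twoZCore G) y
      have : g ∈ H.comap (QuotientGroup.mk' (twoZCore G)) := by rw [hcom]; trivial
      exact this
    · left
      rw [eq_bot_iff]
      intro y hy
      obtain ⟨g, rfl⟩ := QuotientGroup.mk'_surjective (twoZCore G) y
      have h1 := hcl _ (hH.comap _) hcom (show g ∈ H.comap (QuotientGroup.mk' (twoZCore G)) from hy)
      rw [Subgroup.mem_bot]
      exact (QuotientGroup.eq_one_iff g).mpr h1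
  refine ⟨?_, hsimple⟩
  apply le_antisymm
  · refine sSup_le ?_
    rintro N ⟨hN, hsol⟩
    by_cases hNtop : N = ⊤
    · exfalso
      subst hNtop
      haveI : Group.IsSolvable G := Group.isSolvable_of_surjective (f := (⊤ : Subgroup G).subtype) (by
        intro g; exact ⟨⟨g, trivial⟩, rfl⟩)
      haveI : Group.IsSolvable (G ⧸ twoZCore G) := inferInstance
      have hcomm := (IsSimpleGroup.comm_iff_isSolvable (G := G ⧸ twoZCore G)).mpr inferInstance
      obtain ⟨g, hg⟩ := ri_conj_of_odd (self_mul hD hd) (self_mul hD hx) hodd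
      apply hNC
      rw [← QuotientGroup.eq_one_iff]
      have hdd : ((d : G ⧸ twoZCore G)) * d = 1 := by
        rw [← QuotientGroup.mk_mul, self_mul hD hd, QuotientGroup.mk_one]
      rw [QuotientGroup.mk_mul, hg]
      simp only [QuotientGroup.mk_mul, QuotientGroup.mk_inv]
      rw [hcomm ((g : G ⧸ twoZCore G)) d]
      calc (d : G ⧸ twoZCore G) * (d * g * (g : G ⧸ twoZCore G)⁻¹) = d * d := by group
        _ = 1 := hdd
    · exact hcl N hN hNtop
  · refine le_sSup ⟨hZn, ?_⟩
    -- the solvability of `O_{2,Z}(G)`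
    have hle : pCore 2 G ≤ twoZCore G := by
      intro p hp
      change QuotientGroup.mk' (pCore 2 G) p ∈ Subgroup.center (G ⧸ pCore 2 G)
      have : QuotientGroup.mk' (pCore 2 G) p = 1 := (QuotientGroup.eq_one_iff p).mpr hp
      rw [this]
      exact Subgroup.one_mem _
    let g : ↥(twoZCore G) →* ↥(Subgroup.center (G ⧸ pCore 2 G)) :=
      ((QuotientGroup.mk' (pCore 2 G)).comp (twoZCore G).subtype).codRestrict _ (fun z => z.2)
    let f : ↥(pCore 2 G) →* ↥(twoZCore G) := Subgroup.inclusion hle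
    haveI : Group.IsNilpotent ↥(pCore 2 G) := (pCore_isPGroup (G := G) 2).isNilpotent
    haveI : Group.IsSolvable ↥(Subgroup.center (G ⧸ pCore 2 G)) :=
      Group.isSolvable_of_comm (fun a b => Subtype.ext (Subgroup.mem_center_iff.mp a.2 b).symm)
    refine Group.isSolvable_of_ker_le_range f g ?_
    rintro ⟨z, hz⟩ hzk
    have h1 : QuotientGroup.mk' (pCore 2 G) z = 1 := congrArg Subtype.val (MonoidHom.mem_ker.mp hzk)
    exact ⟨⟨z, (QuotientGroup.eq_one_iff z).mp h1⟩, rfl⟩

end Cfsg.Agent.S5048
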