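import Cfsg.Statements.S5049
import Cfsg.Agent.Lib.Basic.Core
import Mathlib

set_option autoImplicit false
open Cfsg

namespace Cfsg.Agent.S5049

/-- Let G be a finite group generated by a set D of odd transpositions (root involutions with no product of order 4), Q = O₂(G), and for a ∈ D let Q_a be the commutator subgroup of Q with a. Then every member of D commuting with a centralizes Q_a; and for b ∈ D with ab of odd order greater than 1, the centralizer of ab in Q is the intersection of the centralizers of a and b in Q. -/
theorem result {G : Type*} [Group G] [Finite G] {D : Set G} (hD : Cfsg.IsOddTranspositionSet D) {a : G} (ha : a ∈ D) :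
    (∀ e ∈ Cfsg.commutingMembers D a, ∀ q ∈ ⁅Cfsg.pCore 2 G, Subgroup.zpowers a⁆, e * q = q * e) ∧
    (∀ b ∈ Cfsg.oddPartners D a,
      Cfsg.pCore 2 G ⊓ Subgroup.centralizer {a * b} = Cfsg.pCore 2 G ⊓ Subgroup.centralizer {a} ⊓ Subgroup.centralizer {b}) := by
  classical
  obtain ⟨hR, h4⟩ := hD
  set Q := Cfsg.pCore 2 G with hQ
  have hQn : Q.Normal := Cfsg.Agent.Lib.Basic.pCore_normal 2
  have hQp : IsPGroup 2 Q := Cfsg.Agent.Lib.Basic.pCore_isPGroup 2
  have hinv : ∀ d ∈ D, d * d = 1 := by
    intro d hd
    rw [← pow_two, ← hR.orderOf_eq d hd]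
    exact pow_orderOf_eq_one d
  have hinv' : ∀ d ∈ D, d⁻¹ = d := fun d hd => inv_eq_of_mul_eq_one_left (hinv d hd)
  -- a 2-element in `D·D`
  have hdich : ∀ x ∈ D, ∀ y ∈ D, (x * y) ^ 2 ∈ Q → x * y = y * x := by
    intro x hx y hy h2
    rcases hR.pair x hx y hy with h | h | h
    · exact h
    · -- odd order
      obtain ⟨k, hk⟩ := hQp ⟨_, h2⟩
      have hk' : ((x * y) ^ 2) ^ 2 ^ k = 1 := by
        have := congrArg Subtype.val hk
        simpa using this
      have hd : orderOf (x * y) ∣ 2 ^ (k + 1) := by
        apply orderOf_dvd_of_pow_eq_one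
        rw [pow_succ', pow_mul]
        exact hk'
      have hc : Nat.Coprime (orderOf (x * y)) (2 ^ (k + 1)) :=
        Nat.Coprime.pow_right _ (Nat.coprime_two_right.mpr h)
      have h1 : orderOf (x * y) = 1 := Nat.Coprime.eq_one_of_dvd hc hd
      have h2' : x * y = 1 := orderOf_eq_one_iff.mp h1
      have h3 : x = y := by
        have := eq_inv_of_mul_eq_one_left h2'
        rw [hinv' y hy] at this
        exact this
      rw [h3]
    · exact absurd h.1 (h4 x hx y hy)
  have hconj : ∀ q : G, ∀ d ∈ D, q * d * q⁻¹ ∈ D := fun q d hd => hR.conj_mem d hd q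
  -- `a` and its `Q`-conjugates commute
  have hacomm : ∀ d ∈ D, ∀ q ∈ Q, d * (q * d * q⁻¹) = (q * d * q⁻¹) * d := by
    intro d hd q hq
    apply hdich d hd _ (hconj q d hd)
    apply Subgroup.pow_mem
    have h1 : d * (q * d * q⁻¹) = (d * q * d⁻¹) * ((d * d) * q⁻¹) := by group
    rw [h1, hinv d hd, one_mul]
    exact Q.mul_mem (hQn.conj_mem q hq d) (Q.inv_mem hq)
  refine ⟨?_, ?_⟩
  · -- first claim
    rintro e ⟨he, hea⟩
    have hecomm : ∀ q ∈ Q, Commute e (q * a * q⁻¹) := by
      intro q hq
      apply hdich e he _ (hconj q a ha)
      rw [← QuotientGroup.eq_one_iff, QuotientGroup.mk_pow, QuotientGroup.mk_mul,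
        QuotientGroup.mk_mul, QuotientGroup.mk_mul, QuotientGroup.mk_inv]
      have hq1 : ((q : G) : G ⧸ Q) = 1 := (QuotientGroup.eq_one_iff q).mpr hq
      rw [hq1, one_mul, inv_one, mul_one, ← QuotientGroup.mk_mul, ← QuotientGroup.mk_pow,
        QuotientGroup.eq_one_iff]
      have h2 : (e * a) ^ 2 = 1 := by
        have hc : Commute e a := hea
        rw [hc.mul_pow, pow_two, pow_two, hinv e he, hinv a ha, one_mul]
      rw [h2]
      exact Q.one_mem
    have hle : ⁅Q, Subgroup.zpowers a⁆ ≤ Subgroup.centralizer ({e} : Set G) := by
      rw [Subgroup.commutator_le]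
      rintro q hq _ ⟨n, rfl⟩
      rw [Subgroup.mem_centralizer_singleton_iff, commutatorElement_def]
      have hc1 : Commute e (q * a ^ n * q⁻¹) := by
        rw [← conj_zpow]
        exact (hecomm q hq).zpow_right n
      have hc2 : Commute e ((a ^ n)⁻¹) := by
        have hc : Commute e a := hea
        exact (hc.zpow_right n).inv_right
      exact ((hc1.mul_right hc2).eq).symm
    intro q hq
    have := hle hq
    rw [Subgroup.mem_centralizer_singleton_iff] at this
    exact this.symm
  · rintro b ⟨hb, hba, hodd⟩
    apply le_antisymm
    · rintro q ⟨hq, hqc⟩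
      have hqc' : q * (a * b) = (a * b) * q :=
        Subgroup.mem_centralizer_singleton_iff.mp hqc
      set a' := q * a * q⁻¹ with ha'
      set b' := q * b * q⁻¹ with hb'
      have hprod : a' * b' = a * b := by
        rw [ha', hb']
        calc q * a * q⁻¹ * (q * b * q⁻¹) = q * (a * b) * q⁻¹ := by group
          _ = a * b := by rw [hqc']; group
      have haa : Commute a a' := hacomm a ha q hq
      have hbb : Commute b b' := hacomm b hb q hq
      set x := a * a' with hx
      have hxb : x = b * b' := by
        have h1 : a * a' * b' = b := by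
          calc a * a' * b' = a * (a' * b') := mul_assoc _ _ _
            _ = a * (a * b) := by rw [hprod]
            _ = (a * a) * b := (mul_assoc _ _ _).symm
            _ = b := by rw [hinv a ha, one_mul]
        calc x = a * a' * (b' * b') := by rw [hinv b' (hconj q b hb), mul_one]
          _ = (a * a' * b') * b' := by group
          _ = b * b' := by rw [h1]
      have hxa : Commute x a := by
        rw [hx]
        exact (Commute.refl a).mul_left haa.symm
      have hxb' : Commute x b := by
        rw [hxb]
        exact (Commute.refl b).mul_left hbb.symm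
      have hxsq : x * x = 1 := by
        rw [hx]
        calc a * a' * (a * a') = a * (a' * a) * a' := by group
          _ = a * (a * a') * a' := by rw [← haa.eq]
          _ = (a * a) * (a' * a') := by group
          _ = 1 := by rw [hinv a ha, hinv a' (hconj q a ha), one_mul]
      have hx1 : x = 1 := by
        by_contra hne
        have hxord : orderOf x = 2 := by
          have : Fact (Nat.Prime 2) := ⟨Nat.prime_two⟩
          exact orderOf_eq_prime (by rw [pow_two]; exact hxsq) hne
        -- `b a'` has order `2 n`
        have hcx : Commute (b * a) x := hxb'.symm.mul_left hxa.symm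
        have hn : orderOf (b * a) = orderOf (a * b) := by
          have h1 := MulEquiv.orderOf_eq (MulAut.conj b) (a * b)
          rw [MulAut.conj_apply] at h1
          rw [← h1]
          congr 1
          rw [hinv' b hb]
          simp only [mul_assoc, hinv b hb, mul_one]
        have hodd' : Odd (orderOf (b * a)) := by rw [hn]; exact hodd
        have hy : b * a' = (b * a) * x := by
          rw [hx]
          calc b * a' = b * ((a * a) * a') := by rw [hinv a ha, one_mul]
            _ = b * a * (a * a') := by group
        have hcop : Nat.Coprime (orderOf (b * a)) (orderOf x) := by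
          rw [hxord]
          exact Nat.coprime_two_right.mpr hodd'
        have hord : orderOf (b * a') = orderOf (b * a) * 2 := by
          rw [hy, hcx.orderOf_mul_eq_mul_orderOf_of_coprime hcop, hxord]
        have hn1 : orderOf (b * a) ≠ 1 := by
          intro h1
          have h2 : b * a = 1 := orderOf_eq_one_iff.mp h1
          have h3 : b = a := by
            have := eq_inv_of_mul_eq_one_left h2
            rwa [hinv' a ha] at this
          exact hba h3
        rcases hR.pair b hb a' (hconj q a ha) with h | h | h
        · -- commuting involutions: order at most two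
          have h2 : (b * a') ^ 2 = 1 := by
            have hc : Commute b a' := h
            rw [hc.mul_pow, pow_two, pow_two, hinv b hb, hinv a' (hconj q a ha), one_mul]
          have h3 := Nat.le_of_dvd (by norm_num) (orderOf_dvd_of_pow_eq_one h2)
          rw [hord] at h3
          have hpos : 0 < orderOf (b * a) := hodd'.pos
          omega
        · rw [hord] at h
          have : Even (orderOf (b * a) * 2) := (even_two.mul_left _)
          exact (Nat.not_even_iff_odd.mpr h) this
        · exact absurd h.1 (h4 b hb a' (hconj q a ha))
      have ha'eq : a' = a := by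
        have := eq_inv_of_mul_eq_one_right hx1
        rwa [hinv' a ha] at this
      have hqa : q * a = a * q := by
        have : q * a * q⁻¹ = a := ha'eq
        exact mul_inv_eq_iff_eq_mul.mp this
      have hqb : q * b = b * q := by
        have h1 : q * (a * b) = a * (q * b) := by rw [← mul_assoc, hqa, mul_assoc]
        rw [h1, mul_assoc] at hqc'
        exact mul_left_cancel hqc'
      refine ⟨⟨hq, ?_⟩, ?_⟩
      · exact Subgroup.mem_centralizer_singleton_iff.mpr hqa
      · exact Subgroup.mem_centralizer_singleton_iff.mpr hqb
    · rintro q ⟨⟨hq, hqa⟩, hqb⟩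
      refine ⟨hq, ?_⟩
      have h1 : Commute q a := Subgroup.mem_centralizer_singleton_iff.mp hqa
      have h2 : Commute q b := Subgroup.mem_centralizer_singleton_iff.mp hqb
      exact Subgroup.mem_centralizer_singleton_iff.mpr (h1.mul_right h2)

end Cfsg.Agent.S5049
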