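import Cfsg.Statements.S5057
import Mathlib

set_option autoImplicit false
open Cfsg

namespace Cfsg.Agent.S5057

/-- The base involution. -/
def t0 : Equiv.Perm (Fin 6) := Equiv.swap 0 1 * Equiv.swap 2 3

/-- Being an even involution. -/
def inv6 (a : Equiv.Perm (Fin 6)) : Prop := a ^ 2 = 1 ∧ a ≠ 1 ∧ Equiv.Perm.sign a = 1

instance : DecidablePred inv6 := fun a => by unfold inv6; infer_instance

/-- The pair condition. -/
def good6 (a b : Equiv.Perm (Fin 6)) : Prop :=
  (a * b) ^ 2 = 1 ∨ (a * b) ^ 3 = 1 ∨ (a * b) ^ 5 = 1 ∨ ((a * b) ^ 4 = 1 ∧ (a * b) ^ 2 ≠ 1)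

instance (a b : Equiv.Perm (Fin 6)) : Decidable (good6 a b) := by unfold good6; infer_instance

theorem key1' : ∀ a : Equiv.Perm (Fin 6), inv6 a → ∀ b : Equiv.Perm (Fin 6), inv6 b → good6 a b := by
  decide +kernel

theorem key1 : ∀ a : Equiv.Perm (Fin 6), a ^ 2 = 1 → a ≠ 1 → Equiv.Perm.sign a = 1 →
    ∀ b : Equiv.Perm (Fin 6), b ^ 2 = 1 → b ≠ 1 → Equiv.Perm.sign b = 1 →
    (a * b) ^ 2 = 1 ∨ (a * b) ^ 3 = 1 ∨ (a * b) ^ 5 = 1 ∨ ((a * b) ^ 4 = 1 ∧ (a * b) ^ 2 ≠ 1) :=
  fun a h1 h2 h3 b h4 h5 h6 => key1' a ⟨h1, h2, h3⟩ b ⟨h4, h5, h6⟩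

theorem key2 : ∀ b : Equiv.Perm (Fin 6), b ^ 2 = 1 → b ≠ 1 → Equiv.Perm.sign b = 1 →
    ∃ g : Equiv.Perm (Fin 6), Equiv.Perm.sign g = 1 ∧ b * g = g * t0 := by
  decide +kernel

theorem t0_even : Equiv.Perm.sign t0 = 1 := by decide +kernel
theorem t0_sq : t0 ^ 2 = 1 := by decide +kernel
theorem t0_ne : t0 ≠ 1 := by decide +kernel

/-- The involutions of the alternating group of degree 6 form a class of root involutions (a single conjugacy class of involutions generating the group, any two of which commute, have product of odd order, or have product of order 4 whose square is again an involution of the class), and the product of any two of them has order at most 5. -/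
theorem result :
    Cfsg.IsRootInvolutionClass {g : ↥(alternatingGroup (Fin 6)) | orderOf g = 2} ∧
    ∀ d ∈ {g : ↥(alternatingGroup (Fin 6)) | orderOf g = 2}, ∀ e ∈ {g : ↥(alternatingGroup (Fin 6)) | orderOf g = 2},
      orderOf (d * e) ≤ 5 := by
  classical
  have hD : ∀ g : alternatingGroup (Fin 6), orderOf g = 2 ↔ g ^ 2 = 1 ∧ g ≠ 1 := by
    intro g
    have : Fact (Nat.Prime 2) := ⟨Nat.prime_two⟩
    constructor
    · intro h
      refine ⟨by rw [← h]; exact pow_orderOf_eq_one g, ?_⟩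
      rintro rfl
      simp at h
    · rintro ⟨h1, h2⟩
      exact orderOf_eq_prime h1 h2
  have hval : ∀ g : alternatingGroup (Fin 6), orderOf g = 2 →
      (g : Equiv.Perm (Fin 6)) ^ 2 = 1 ∧ (g : Equiv.Perm (Fin 6)) ≠ 1 ∧
        Equiv.Perm.sign (g : Equiv.Perm (Fin 6)) = 1 := by
    intro g hg
    obtain ⟨h1, h2⟩ := (hD g).mp hg
    refine ⟨by exact_mod_cast congrArg Subtype.val h1, fun h => h2 (Subtype.ext h), g.2⟩
  let t : alternatingGroup (Fin 6) := ⟨t0, Equiv.Perm.mem_alternatingGroup.mpr t0_even⟩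
  have htord : orderOf t = 2 := by
    rw [hD]
    exact ⟨Subtype.ext t0_sq, fun h => t0_ne (congrArg Subtype.val h)⟩
  have hconjt : ∀ b : alternatingGroup (Fin 6), orderOf b = 2 → ∃ g : alternatingGroup (Fin 6), b = g * t * g⁻¹ := by
    intro b hb
    obtain ⟨h1, h2, h3⟩ := hval b hb
    obtain ⟨g, hg, hbg⟩ := key2 _ h1 h2 h3
    refine ⟨⟨g, Equiv.Perm.mem_alternatingGroup.mpr hg⟩, ?_⟩
    apply Subtype.ext
    change (b : Equiv.Perm (Fin 6)) = g * t0 * g⁻¹
    rw [← hbg]
    simp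
  have hconjmem : ∀ d ∈ {g : ↥(alternatingGroup (Fin 6)) | orderOf g = 2}, ∀ g : alternatingGroup (Fin 6),
      g * d * g⁻¹ ∈ {g : ↥(alternatingGroup (Fin 6)) | orderOf g = 2} := by
    intro d hd g
    have h1 := MulEquiv.orderOf_eq (MulAut.conj g) d
    rw [MulAut.conj_apply] at h1
    rw [Set.mem_ofPred_eq, h1]
    exact hd
  have hcases : ∀ d e : alternatingGroup (Fin 6), orderOf d = 2 → orderOf e = 2 →
      (d * e) ^ 2 = 1 ∨ (d * e) ^ 3 = 1 ∨ (d * e) ^ 5 = 1 ∨ ((d * e) ^ 4 = 1 ∧ (d * e) ^ 2 ≠ 1) := by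
    intro d e hd he
    obtain ⟨h1, h2, h3⟩ := hval d hd
    obtain ⟨h4, h5, h6⟩ := hval e he
    rcases key1 _ h1 h2 h3 _ h4 h5 h6 with h | h | h | ⟨h, h'⟩
    · exact Or.inl (Subtype.ext (by exact_mod_cast h))
    · exact Or.inr (Or.inl (Subtype.ext (by exact_mod_cast h)))
    · exact Or.inr (Or.inr (Or.inl (Subtype.ext (by exact_mod_cast h))))
    · refine Or.inr (Or.inr (Or.inr ⟨Subtype.ext (by exact_mod_cast h), fun h2' => h' ?_⟩))
      exact_mod_cast congrArg Subtype.val h2'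
  have hord4 : ∀ x : alternatingGroup (Fin 6), x ^ 4 = 1 → x ^ 2 ≠ 1 → orderOf x = 4 := by
    intro x h1 h2
    have := orderOf_eq_prime_pow (p := 2) (n := 1) (x := x) (by simpa using h2) (by simpa using h1)
    simpa using this
  have hpair : ∀ a ∈ {g : ↥(alternatingGroup (Fin 6)) | orderOf g = 2}, ∀ b ∈ {g : ↥(alternatingGroup (Fin 6)) | orderOf g = 2},
      a * b = b * a ∨ Odd (orderOf (a * b)) ∨ (orderOf (a * b) = 4 ∧ (a * b) ^ 2 ∈ {g : ↥(alternatingGroup (Fin 6)) | orderOf g = 2}) := by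
    intro a ha b hb
    have ha2 : a * a = 1 := by rw [← pow_two]; exact ((hD a).mp ha).1
    have hb2 : b * b = 1 := by rw [← pow_two]; exact ((hD b).mp hb).1
    rcases hcases a b ha hb with h | h | h | ⟨h, h'⟩
    · left
      have h3 : a * b * (a * b) = 1 := by rw [← pow_two]; exact h
      have h4 : a * b = (a * b)⁻¹ := eq_inv_of_mul_eq_one_left h3
      rw [h4, mul_inv_rev, inv_eq_of_mul_eq_one_left ha2, inv_eq_of_mul_eq_one_left hb2]
    · right; left
      have := orderOf_dvd_of_pow_eq_one h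
      exact Odd.of_dvd_nat (by decide) this
    · right; left
      have := orderOf_dvd_of_pow_eq_one h
      exact Odd.of_dvd_nat (by decide) this
    · right; right
      refine ⟨hord4 _ h h', ?_⟩
      rw [Set.mem_ofPred_eq, hD]
      refine ⟨?_, h'⟩
      rw [← pow_mul]
      exact h
  have hnorm : (Subgroup.normalClosure {g : ↥(alternatingGroup (Fin 6)) | orderOf g = 2}) ≤
      Subgroup.closure {g : ↥(alternatingGroup (Fin 6)) | orderOf g = 2} := by
    rw [Subgroup.normalClosure, Subgroup.closure_le]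
    intro x hx
    obtain ⟨z, hz, hzx⟩ := Group.mem_conjugatesOfSet_iff.mp hx
    obtain ⟨g, rfl⟩ := isConj_iff.mp hzx
    exact Subgroup.subset_closure (hconjmem z hz g)
  have hgen : Subgroup.closure {g : ↥(alternatingGroup (Fin 6)) | orderOf g = 2} = ⊤ := by
    have : IsSimpleGroup (alternatingGroup (Fin 6)) := alternatingGroup.isSimpleGroup (by simp)
    rw [eq_top_iff]
    rcases (Subgroup.normalClosure_normal (s := {g : ↥(alternatingGroup (Fin 6)) | orderOf g = 2})).eq_bot_or_eq_top with h | h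
    · exfalso
      have h1 : t ∈ Subgroup.normalClosure {g : ↥(alternatingGroup (Fin 6)) | orderOf g = 2} :=
        Subgroup.subset_normalClosure htord
      rw [h, Subgroup.mem_bot] at h1
      rw [h1] at htord
      simp at htord
    · rw [← h]
      exact hnorm
  refine ⟨⟨⟨fun d hd => hd, hgen, hconjmem, hpair⟩, ⟨t, htord⟩, ?_⟩, ?_⟩
  · intro a ha b hb
    obtain ⟨g, rfl⟩ := hconjt a ha
    obtain ⟨g', rfl⟩ := hconjt b hb
    refine ⟨g' * g⁻¹, ?_⟩
    group
  · intro d hd e he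
    rcases hcases d e hd he with h | h | h | ⟨h, h'⟩
    · exact (Nat.le_of_dvd (by norm_num) (orderOf_dvd_of_pow_eq_one h)).trans (by norm_num)
    · exact (Nat.le_of_dvd (by norm_num) (orderOf_dvd_of_pow_eq_one h)).trans (by norm_num)
    · exact (Nat.le_of_dvd (by norm_num) (orderOf_dvd_of_pow_eq_one h)).trans (by norm_num)
    · exact (Nat.le_of_dvd (by norm_num) (orderOf_dvd_of_pow_eq_one h)).trans (by norm_num)

end Cfsg.Agent.S5057
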