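import Cfsg.Statements.S5058
import Cfsg.Agent.Lib.Root.TvBasic
import Mathlib

set_option autoImplicit false
open Matrix
open Cfsg

namespace Cfsg.Agent.S5058

open Matrix Cfsg.Agent.Lib.Root Polynomial

section alg

variable {F R : Type*} [Field F] [Ring R] [Algebra F R]

theorem tv_alg1 {A B : R} {τ : F} (hAA : A * A = 0) (hBB : B * B = 0) (hABA : A * B * A = τ • A)
    (hBAB : B * A * B = τ • B) :
    (A + B + A * B) * (A + B + A * B) = A * B + B * A + τ • (A + B + A * B) := by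
  have e1 : A * (A * B) = 0 := by rw [← mul_assoc, hAA, zero_mul]
  have e2 : B * (A * B) = τ • B := by rw [← mul_assoc, hBAB]
  have e3 : A * B * B = 0 := by rw [mul_assoc, hBB, mul_zero]
  have e4 : A * B * (A * B) = τ • (A * B) := by
    rw [← mul_assoc, hABA, smul_mul_assoc]
  simp only [add_mul, mul_add, hAA, hBB, hABA, e1, e2, e3, e4]
  module

theorem tv_alg2 {A B : R} {τ : F} (hAA : A * A = 0) (hBB : B * B = 0) (hABA : A * B * A = τ • A)
    (hBAB : B * A * B = τ • B) :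
    (A + B + A * B) * (A * B + B * A + τ • 1) = (2 * τ) • (A + B + A * B) := by
  have e1 : A * (A * B) = 0 := by rw [← mul_assoc, hAA, zero_mul]
  have e2 : B * (A * B) = τ • B := by rw [← mul_assoc, hBAB]
  have e3 : A * (B * A) = τ • A := by rw [← mul_assoc, hABA]
  have e4 : A * B * (A * B) = τ • (A * B) := by
    rw [← mul_assoc, hABA, smul_mul_assoc]
  have e5 : B * (B * A) = 0 := by rw [← mul_assoc, hBB, zero_mul]
  have e6 : A * B * (B * A) = 0 := by
    rw [mul_assoc, ← mul_assoc B, hBB, zero_mul, mul_zero]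
  simp only [mul_add, add_mul, e1, e2, e3, e4, e5, e6, mul_smul_comm, mul_one]
  module

theorem tv_poly [CharP F 2] {A B : R} {τ : F} (hAA : A * A = 0) (hBB : B * B = 0) (hABA : A * B * A = τ • A)
    (hBAB : B * A * B = τ • B) (M : R) (hM : M = 1 + (A + B + A * B)) :
    (M + 1) * (M * M + τ • M + 1) = 0 := by
  have h2 : ∀ x : R, x + x = 0 := fun x => by
    rw [← two_smul F x, CharTwo.two_eq_zero, zero_smul]
  set N := A + B + A * B with hN
  have h1 : M + 1 = N := by
    rw [hM]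
    calc 1 + N + 1 = N + (1 + 1) := by abel
      _ = N := by rw [h2, add_zero]
  have h3 : M * M + τ • M + 1 = A * B + B * A + τ • 1 := by
    rw [hM]
    have e : (1 + N) * (1 + N) + τ • (1 + N) + 1 =
        (N * N + τ • N) + τ • 1 + (N + N) + (1 + 1) := by
      simp only [mul_add, add_mul, mul_one, one_mul, smul_add]
      abel
    rw [e, h2, h2, add_zero, add_zero, hN, tv_alg1 hAA hBB hABA hBAB]
    have e2 : ∀ x y z : R, x + y + z + z = x + y + (z + z) := fun x y z => by abel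
    rw [← hN]
    calc A * B + B * A + τ • N + τ • N + τ • 1 = A * B + B * A + (τ • N + τ • N) + τ • 1 := by abel
      _ = A * B + B * A + τ • 1 := by rw [h2, add_zero]
  rw [h1, h3, hN, tv_alg2 hAA hBB hABA hBAB, CharTwo.two_eq_zero, zero_mul, zero_smul]

end alg

section sep

variable {F : Type*} [Field F] [CharP F 2]

theorem tv_squarefree {τ : F} (hτ : τ ≠ 0) :
    Squarefree ((X + C 1) * (X ^ 2 + C τ * X + C 1) : F[X]) := by
  apply Polynomial.Separable.squarefree
  have h2 : (2 : F[X]) = 0 := by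
    have : (2 : F[X]) = C (2 : F) := (map_ofNat (C : F →+* F[X]) 2).symm
    rw [this, CharTwo.two_eq_zero, C_0]
  have h1 : (X + C 1 : F[X]).Separable := separable_X_add_C 1
  have h3 : (X ^ 2 + C τ * X + C 1 : F[X]).Separable := by
    unfold Polynomial.Separable
    have hd : derivative (X ^ 2 + C τ * X + C 1 : F[X]) = C τ + 2 * X := by
      simp [derivative_X_pow]
      ring
    rw [hd, h2, zero_mul, add_zero]
    refine ⟨0, C τ⁻¹, ?_⟩
    rw [zero_mul, zero_add, ← C_mul, inv_mul_cancel₀ hτ, C_1]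
  refine h1.mul h3 ?_
  have htu : C τ⁻¹ * C τ = (1 : F[X]) := by
    rw [← C_mul, inv_mul_cancel₀ hτ, C_1]
  refine ⟨C τ⁻¹ * (X + C (1 + τ)), C τ⁻¹, ?_⟩
  simp only [C_add, C_1]
  linear_combination (C τ⁻¹ * (X ^ 2 + X + C τ * X + 1)) * h2 + htu

theorem tv_odd_order {ι : Type*} [Fintype ι] [DecidableEq ι] [Fintype F] {τ : F} (hτ : τ ≠ 0)
    (x : Matrix.SpecialLinearGroup ι F)
    (hM : ((x : Matrix ι ι F) + 1) * ((x : Matrix ι ι F) * (x : Matrix ι ι F) + τ • (x : Matrix ι ι F) + 1) = 0) :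
    Odd (orderOf x) := by
  by_contra hodd
  obtain ⟨k, hk⟩ := Nat.not_odd_iff_even.mp hodd
  have hpos : 0 < orderOf x := orderOf_pos x
  set M := (x : Matrix ι ι F) with hMdef
  have hMk : M ^ (k + k) = 1 := by
    have := pow_orderOf_eq_one x
    rw [hk] at this
    have h2 := congrArg (fun y : Matrix.SpecialLinearGroup ι F => (y : Matrix ι ι F)) this
    simpa [Matrix.SpecialLinearGroup.coe_pow] using h2
  have h2R : ∀ y : Matrix ι ι F, y + y = 0 := fun y => by
    rw [← two_smul F y, CharTwo.two_eq_zero, zero_smul]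
  have hint : IsIntegral F M := Algebra.IsIntegral.isIntegral M
  have hP : aeval M ((X + C 1) * (X ^ 2 + C τ * X + C 1) : F[X]) = 0 := by
    simp only [map_mul, map_add, aeval_X, aeval_C, map_pow, map_one, Algebra.algebraMap_eq_smul_one,
      one_smul]
    rw [pow_two, smul_mul_assoc, one_mul]
    exact hM
  have hm1 : minpoly F M ∣ ((X + C 1) * (X ^ 2 + C τ * X + C 1) : F[X]) := minpoly.dvd F M hP
  have hsq : Squarefree (minpoly F M) := (tv_squarefree hτ).squarefree_of_dvd hm1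
  have hQ : aeval M ((X ^ k - 1) ^ 2 : F[X]) = 0 := by
    simp only [map_pow, map_sub, aeval_X, map_one]
    have e : (M ^ k - 1) ^ 2 = M ^ (k + k) + 1 - (M ^ k + M ^ k) := by
      rw [pow_add, pow_two]
      noncomm_ring
    rw [e, hMk, h2R, h2R, sub_zero]
  have hm2 : minpoly F M ∣ ((X ^ k - 1) ^ 2 : F[X]) := minpoly.dvd F M hQ
  have hm3 : minpoly F M ∣ (X ^ k - 1 : F[X]) :=
    (hsq.dvd_pow_iff_dvd (by norm_num)).mp hm2
  have hk1 : M ^ k = 1 := by
    have h3 : aeval M (X ^ k - 1 : F[X]) = 0 := by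
      obtain ⟨q, hq⟩ := hm3
      rw [hq, map_mul, minpoly.aeval, zero_mul]
    simp only [map_sub, map_pow, aeval_X, map_one] at h3
    exact sub_eq_zero.mp h3
  have hx : x ^ k = 1 := by
    apply Subtype.ext
    rw [Matrix.SpecialLinearGroup.coe_pow]
    exact hk1
  have h4 := orderOf_dvd_of_pow_eq_one hx
  have h5 := Nat.le_of_dvd (by omega) h4
  omega

end sep

section main

variable {F : Type*} [Field F] {n : ℕ}

local notation "ι" => Fin (n + 3)

/-- The set of the statement. -/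
abbrev tvD (F : Type*) [Field F] (n : ℕ) : Set (Matrix.SpecialLinearGroup (Fin (n + 3)) F) :=
  {t : Matrix.SpecialLinearGroup (Fin (n + 3)) F | ∃ c : F, c ≠ 0 ∧
        ∃ g : Matrix.SpecialLinearGroup (Fin (n + 3)) F, ((g⁻¹ * t * g : Matrix.SpecialLinearGroup (Fin (n + 3)) F) :
          Matrix (Fin (n + 3)) (Fin (n + 3)) F) = Matrix.transvection 0 1 c}

theorem e0_ne : (Pi.single (0 : ι) (1 : F) : ι → F) ≠ 0 := by
  intro h1
  have := congrFun h1 0
  simp at this

theorem e1_ne : (Pi.single (1 : ι) (1 : F) : ι → F) ≠ 0 := by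
  intro h1
  have := congrFun h1 1
  simp at this

theorem e_dot : (Pi.single (1 : ι) (1 : F) : ι → F) ⬝ᵥ (Pi.single (0 : ι) (1 : F) : ι → F) = 0 :=
  single_dot (F := F) (0 : ι) 1 (by simp [Fin.ext_iff])

theorem mem_tvD_iff {t : Matrix.SpecialLinearGroup ι F} :
    t ∈ tvD F n ↔ ∃ a b : ι → F, a ≠ 0 ∧ b ≠ 0 ∧ b ⬝ᵥ a = 0 ∧ (t : Matrix ι ι F) = 1 + vecMulVec a b := by
  constructor
  · rintro ⟨c, hc, g, hg⟩
    have h0 : c • (Pi.single (0 : ι) (1 : F) : ι → F) ≠ 0 := smul_ne_zero hc e0_ne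
    refine ⟨(g : Matrix ι ι F) *ᵥ (c • Pi.single (0 : ι) (1 : F)),
      (Pi.single (1 : ι) (1 : F)) ᵥ* ((g⁻¹ : Matrix.SpecialLinearGroup ι F) : Matrix ι ι F),
      sl_mulVec_ne_zero g h0, sl_vecMul_ne_zero g⁻¹ e1_ne, ?_, ?_⟩
    · rw [sl_dot_conj, dotProduct_smul, e_dot, smul_zero]
    · have e : t = g * (g⁻¹ * t * g) * g⁻¹ := by group
      rw [← sl_conj_tv, ← single_eq_vmv]
      have h1 : (1 : Matrix ι ι F) + Matrix.single 0 1 c = ((g⁻¹ * t * g : Matrix.SpecialLinearGroup ι F) : Matrix ι ι F) := by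
        rw [hg]; rfl
      rw [h1]
      conv_lhs => rw [e]
      simp only [Matrix.SpecialLinearGroup.coe_mul]
  · rintro ⟨a, b, ha, hb, hab, ht⟩
    obtain ⟨g, hg⟩ := tv_conj_std ha hb hab
    refine ⟨1, one_ne_zero, g, ?_⟩
    simp only [Matrix.SpecialLinearGroup.coe_mul]
    rw [ht, mul_assoc, ← hg, ← mul_assoc, sl_inv_mul, one_mul]
    have e : Matrix.transvection (0 : ι) 1 (1 : F) = 1 + vecMulVec (Pi.single 0 1) (Pi.single 1 1) := by
      unfold Matrix.transvection
      rw [single_eq_vmv, one_smul]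
    rw [e]

theorem tvD_std_mem : tvSL (Pi.single (0 : ι) (1 : F)) (Pi.single (1 : ι) (1 : F)) e_dot ∈ tvD F n :=
  mem_tvD_iff.mpr ⟨_, _, e0_ne, e1_ne, e_dot, rfl⟩

theorem tvD_conj {t : Matrix.SpecialLinearGroup ι F} (ht : t ∈ tvD F n) (g : Matrix.SpecialLinearGroup ι F) :
    g * t * g⁻¹ ∈ tvD F n := by
  obtain ⟨a, b, ha, hb, hab, h⟩ := mem_tvD_iff.mp ht
  refine mem_tvD_iff.mpr ⟨(g : Matrix ι ι F) *ᵥ a, b ᵥ* ((g⁻¹ : Matrix.SpecialLinearGroup ι F) : Matrix ι ι F),
    sl_mulVec_ne_zero g ha, sl_vecMul_ne_zero g⁻¹ hb, ?_, ?_⟩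
  · rw [sl_dot_conj, hab]
  · simp only [Matrix.SpecialLinearGroup.coe_mul]
    rw [h, sl_conj_tv]

theorem tvD_std_conj {t : Matrix.SpecialLinearGroup ι F} (ht : t ∈ tvD F n) :
    ∃ g : Matrix.SpecialLinearGroup ι F, t = g * tvSL (Pi.single (0 : ι) (1 : F)) (Pi.single (1 : ι) (1 : F)) e_dot * g⁻¹ := by
  obtain ⟨a, b, ha, hb, hab, h⟩ := mem_tvD_iff.mp ht
  obtain ⟨g, hg⟩ := tv_conj_std ha hb hab
  refine ⟨g, ?_⟩
  apply Subtype.ext
  simp only [Matrix.SpecialLinearGroup.coe_mul, tvSL_coe]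
  rw [hg, h, mul_assoc, sl_mul_inv, mul_one]

theorem tvD_sq [CharP F 2] {t : Matrix.SpecialLinearGroup ι F} (ht : t ∈ tvD F n) : t * t = 1 := by
  obtain ⟨a, b, ha, hb, hab, h⟩ := mem_tvD_iff.mp ht
  apply Subtype.ext
  simp only [Matrix.SpecialLinearGroup.coe_mul, Matrix.SpecialLinearGroup.coe_one]
  have h2 : vecMulVec a b + vecMulVec a b = 0 := by
    rw [← two_smul F, CharTwo.two_eq_zero, zero_smul]
  have e : (1 + vecMulVec a b) * (1 + vecMulVec a b) = 1 + (vecMulVec a b + vecMulVec a b) + vecMulVec a b * vecMulVec a b := by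
    noncomm_ring
  rw [h, e, h2, add_zero, tv_vmv_mul, hab, zero_smul, add_zero]

theorem tvD_ne_one {t : Matrix.SpecialLinearGroup ι F} (ht : t ∈ tvD F n) : t ≠ 1 := by
  obtain ⟨a, b, ha, hb, hab, h⟩ := mem_tvD_iff.mp ht
  rintro rfl
  rw [Matrix.SpecialLinearGroup.coe_one] at h
  have : vecMulVec a b = 0 := by
    have h3 := h.symm
    simpa using h3
  rcases vmv_eq_zero_iff.mp this with h4 | h4
  · exact ha h4
  · exact hb h4

theorem tvD_order [CharP F 2] {t : Matrix.SpecialLinearGroup ι F} (ht : t ∈ tvD F n) : orderOf t = 2 :=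
  orderOf_eq_prime (by rw [pow_two]; exact tvD_sq ht) (tvD_ne_one ht)

theorem tvD_closure : Subgroup.closure (tvD F n) = ⊤ := by
  rw [eq_top_iff]
  intro M _
  refine Cfsg.Agent.Lib.Classical.sl_transvection_induction (fun g => g ∈ Subgroup.closure (tvD F n)) ?_ (one_mem _)
    (fun A B hA hB => mul_mem hA hB) M
  intro i j hij a
  by_cases ha : a = 0
  · have : Matrix.SpecialLinearGroup.transvection hij a = 1 := by
      apply Subtype.ext
      simp [ha, Matrix.SpecialLinearGroup.transvection_coe]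
    rw [this]
    exact one_mem _
  · apply Subgroup.subset_closure
    refine mem_tvD_iff.mpr ⟨a • Pi.single i 1, Pi.single j 1, smul_ne_zero ha ?_, ?_, ?_, ?_⟩
    · intro h1
      have := congrFun h1 i
      simp at this
    · intro h1
      have := congrFun h1 j
      simp at this
    · rw [dotProduct_smul, single_dot i j hij, smul_zero]
    · rw [Matrix.SpecialLinearGroup.transvection_coe, single_eq_vmv]

theorem tv_vmv_smul (a b : ι → F) (c : F) : vecMulVec a (c • b) = c • vecMulVec a b := by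
  ext i j
  simp only [vecMulVec_apply, Pi.smul_apply, Matrix.smul_apply, smul_eq_mul]
  ring

theorem tv_pair_cases [CharP F 2] {t₁ t₂ : Matrix.SpecialLinearGroup ι F} (h₁ : t₁ ∈ tvD F n) (h₂ : t₂ ∈ tvD F n) :
    (t₁ * t₂ = t₂ * t₁ ∧ (t₁ * t₂) * (t₁ * t₂) = 1) ∨
    (∃ τ : F, τ ≠ 0 ∧ (((t₁ * t₂ : Matrix.SpecialLinearGroup ι F) : Matrix ι ι F) + 1) *
      (((t₁ * t₂ : Matrix.SpecialLinearGroup ι F) : Matrix ι ι F) * ((t₁ * t₂ : Matrix.SpecialLinearGroup ι F) : Matrix ι ι F) +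
        τ • ((t₁ * t₂ : Matrix.SpecialLinearGroup ι F) : Matrix ι ι F) + 1) = 0) ∨
    (orderOf (t₁ * t₂) = 4 ∧ (t₁ * t₂) ^ 2 ∈ tvD F n) := by
  obtain ⟨v, φ, hv, hφ, h0, ht1⟩ := mem_tvD_iff.mp h₁
  obtain ⟨w, ψ, hw, hψ, h0', ht2⟩ := mem_tvD_iff.mp h₂
  set A := vecMulVec v φ with hA
  set B := vecMulVec w ψ with hB
  have h2R : ∀ y : Matrix ι ι F, y + y = 0 := fun y => by
    rw [← two_smul F y, CharTwo.two_eq_zero, zero_smul]
  have hAA : A * A = 0 := by rw [hA, tv_vmv_mul, h0, zero_smul]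
  have hBB : B * B = 0 := by rw [hB, tv_vmv_mul, h0', zero_smul]
  have hAB : A * B = vecMulVec v ((φ ⬝ᵥ w) • ψ) := by rw [hA, hB, tv_vmv_mul, tv_vmv_smul]
  have hBA : B * A = vecMulVec w ((ψ ⬝ᵥ v) • φ) := by rw [hA, hB, tv_vmv_mul, tv_vmv_smul]
  have hABA : A * B * A = ((ψ ⬝ᵥ v) * (φ ⬝ᵥ w)) • A := by
    rw [hAB, tv_vmv_smul, smul_mul_assoc, hA, tv_vmv_mul, smul_smul, mul_comm]
  have hBAB : B * A * B = ((ψ ⬝ᵥ v) * (φ ⬝ᵥ w)) • B := by
    rw [hBA, tv_vmv_smul, smul_mul_assoc, hB, tv_vmv_mul, smul_smul]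
  have hM : ((t₁ * t₂ : Matrix.SpecialLinearGroup ι F) : Matrix ι ι F) = 1 + (A + B + A * B) := by
    rw [Matrix.SpecialLinearGroup.coe_mul, ht1, ht2]
    noncomm_ring
  by_cases hτ : (ψ ⬝ᵥ v) * (φ ⬝ᵥ w) = 0
  · -- square of the product
    have h1N := tv_alg1 hAA hBB hABA hBAB
    rw [hτ, zero_smul, add_zero] at h1N
    have hsq : (((t₁ * t₂) * (t₁ * t₂) : Matrix.SpecialLinearGroup ι F) : Matrix ι ι F) = 1 + (A * B + B * A) := by
      rw [Matrix.SpecialLinearGroup.coe_mul, hM]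
      set N := A + B + A * B
      have e : (1 + N) * (1 + N) = 1 + N * N + (N + N) := by
        simp only [mul_add, add_mul, mul_one, one_mul]
        abel
      rw [e, h2R, add_zero, h1N]
    have h2' : (t₁ * t₂) ^ 2 = (t₁ * t₂) * (t₁ * t₂) := pow_two _
    by_cases hα : ψ ⬝ᵥ v = 0
    · by_cases hβ : φ ⬝ᵥ w = 0
      · left
        have e1 : A * B = 0 := by rw [hAB, hβ, zero_smul, vecMulVec_zero]
        have e2 : B * A = 0 := by rw [hBA, hα, zero_smul, vecMulVec_zero]
        constructor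
        · apply Subtype.ext
          simp only [Matrix.SpecialLinearGroup.coe_mul]
          rw [ht1, ht2]
          simp only [mul_add, add_mul, mul_one, one_mul, e1, e2]
          abel
        · apply Subtype.ext
          rw [hsq, e1, e2, add_zero, add_zero, Matrix.SpecialLinearGroup.coe_one]
      · right; right
        have e2 : B * A = 0 := by rw [hBA, hα, zero_smul, vecMulVec_zero]
        have hmem : (t₁ * t₂) ^ 2 ∈ tvD F n := by
          rw [h2']
          refine mem_tvD_iff.mpr ⟨v, (φ ⬝ᵥ w) • ψ, hv, smul_ne_zero hβ hψ, ?_, ?_⟩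
          · rw [smul_dotProduct, hα, smul_zero]
          · rw [hsq, e2, add_zero, hAB]
        refine ⟨?_, hmem⟩
        have := orderOf_eq_prime_pow (p := 2) (n := 1) (x := t₁ * t₂) ?_ ?_
        · simpa using this
        · rw [pow_one]
          exact tvD_ne_one hmem
        · have : (t₁ * t₂) ^ 2 ^ (1 + 1) = (t₁ * t₂) ^ 2 * (t₁ * t₂) ^ 2 := by
            rw [← pow_add]; norm_num
          rw [this]
          exact tvD_sq hmem
    · have hβ : φ ⬝ᵥ w = 0 := by
        rcases mul_eq_zero.mp hτ with h | h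
        · exact absurd h hα
        · exact h
      right; right
      have e1 : A * B = 0 := by rw [hAB, hβ, zero_smul, vecMulVec_zero]
      have hmem : (t₁ * t₂) ^ 2 ∈ tvD F n := by
        rw [h2']
        refine mem_tvD_iff.mpr ⟨w, (ψ ⬝ᵥ v) • φ, hw, smul_ne_zero hα hφ, ?_, ?_⟩
        · rw [smul_dotProduct, hβ, smul_zero]
        · rw [hsq, e1, zero_add, hBA]
      refine ⟨?_, hmem⟩
      have := orderOf_eq_prime_pow (p := 2) (n := 1) (x := t₁ * t₂) ?_ ?_
      · simpa using this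
      · rw [pow_one]
        exact tvD_ne_one hmem
      · have : (t₁ * t₂) ^ 2 ^ (1 + 1) = (t₁ * t₂) ^ 2 * (t₁ * t₂) ^ 2 := by
          rw [← pow_add]; norm_num
        rw [this]
        exact tvD_sq hmem
  · right; left
    exact ⟨_, hτ, tv_poly hAA hBB hABA hBAB _ hM⟩

theorem tvD_root [CharP F 2] [Fintype F] : IsRootInvolutionSet (tvD F n) where
  orderOf_eq := fun d hd => tvD_order hd
  generates := tvD_closure
  conj_mem := fun d hd g => tvD_conj hd g
  pair := by
    intro a ha b hb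
    rcases tv_pair_cases ha hb with h | ⟨τ, hτ, h⟩ | h
    · exact Or.inl h.1
    · exact Or.inr (Or.inl (tv_odd_order hτ _ h))
    · exact Or.inr (Or.inr h)

end main

/-- Let F be a finite field of characteristic 2 and n a natural number. Then the transvections of SL_{n+3}(F) (so in every dimension at least 3) (the conjugates of the elementary matrices 1 + c E₁₂, c ≠ 0) form a class of root involutions of SL_{n+3}(F); when F has two elements they form a class of {3,4}⁺-transpositions (every product of odd order has order 1 or 3). -/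
theorem result (F : Type*) [Field F] [Fintype F] [CharP F 2] (n : ℕ) :
    Cfsg.IsRootInvolutionClass {t : Matrix.SpecialLinearGroup (Fin (n + 3)) F | ∃ c : F, c ≠ 0 ∧
        ∃ g : Matrix.SpecialLinearGroup (Fin (n + 3)) F, ((g⁻¹ * t * g : Matrix.SpecialLinearGroup (Fin (n + 3)) F) :
          Matrix (Fin (n + 3)) (Fin (n + 3)) F) = Matrix.transvection 0 1 c} ∧
    (Fintype.card F = 2 → Cfsg.IsThreeFourPlusTranspositionSet {t : Matrix.SpecialLinearGroup (Fin (n + 3)) F | ∃ c : F, c ≠ 0 ∧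
        ∃ g : Matrix.SpecialLinearGroup (Fin (n + 3)) F, ((g⁻¹ * t * g : Matrix.SpecialLinearGroup (Fin (n + 3)) F) :
          Matrix (Fin (n + 3)) (Fin (n + 3)) F) = Matrix.transvection 0 1 c}) := by
  classical
  refine ⟨⟨tvD_root, ⟨_, tvD_std_mem⟩, ?_⟩, fun hcard => ⟨tvD_root, ?_⟩⟩
  · intro a ha b hb
    obtain ⟨g₁, h₁⟩ := tvD_std_conj ha
    obtain ⟨g₂, h₂⟩ := tvD_std_conj hb
    refine ⟨g₂ * g₁⁻¹, ?_⟩
    rw [h₁, h₂]
    group
  · intro a ha b hb hodd
    rcases tv_pair_cases ha hb with ⟨_, h⟩ | ⟨τ, hτ, h⟩ | h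
    · have h2 : (a * b) ^ 2 = 1 := by rw [pow_two]; exact h
      have h3 := orderOf_dvd_of_pow_eq_one h2
      have h4 : Nat.Coprime (orderOf (a * b)) 2 := Nat.coprime_two_right.mpr hodd
      exact Or.inl (Nat.Coprime.eq_one_of_dvd h4 h3)
    · have hτ1 : τ = 1 := by
        have := FiniteField.pow_card_sub_one_eq_one τ hτ
        rw [hcard] at this
        simpa using this
      rw [hτ1, one_smul] at h
      set M := ((a * b : Matrix.SpecialLinearGroup (Fin (n + 3)) F) : Matrix (Fin (n + 3)) (Fin (n + 3)) F) with hM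
      have h2R : ∀ y : Matrix (Fin (n + 3)) (Fin (n + 3)) F, y + y = 0 := fun y => by
        rw [← two_smul F y, CharTwo.two_eq_zero, zero_smul]
      have h3 : M ^ 3 = 1 := by
        have e : (M + 1) * (M * M + M + 1) = M ^ 3 + 1 + ((M * M + M) + (M * M + M)) := by
          rw [pow_succ, pow_two]
          noncomm_ring
        rw [e, h2R, add_zero] at h
        have h4 := h2R 1
        calc M ^ 3 = M ^ 3 + (1 + 1) := by rw [h4, add_zero]
          _ = (M ^ 3 + 1) + 1 := by abel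
          _ = 1 := by rw [h, zero_add]
      have h5 : (a * b) ^ 3 = 1 := by
        apply Subtype.ext
        rw [Matrix.SpecialLinearGroup.coe_pow]
        exact h3
      have h6 := orderOf_dvd_of_pow_eq_one h5
      exact (Nat.dvd_prime Nat.prime_three).mp h6
    · exfalso
      rw [h.1] at hodd
      exact absurd hodd (by decide)

end Cfsg.Agent.S5058
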