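import Cfsg.Statements.S5059
import Cfsg.Agent.Lib.Root.Quadratic
import Mathlib

set_option autoImplicit false
universe u
open Cfsg

namespace Cfsg.Agent.S5059
open Cfsg.Agent.Lib.Root

/-- Let k be a field of characteristic not 2 with k not of order 3, M a finite-dimensional k-vector space and G ≤ GL(M) such that (G, M) is a quadratic pair (M irreducible for G, and G generated by its quadratically acting elements σ whose scalar family 1 + c(σ − 1), c ∈ k, lies in G). Write 𝒬_d for the quadratic elements of G of minimal commutator rank, E(σ) for the subgroup generated by the members of 𝒬_d with the same fixed space and commutator space as σ, and Σ for the set of these subgroups. Then for σ ∈ 𝒬_d the subgroup E(σ) consists exactly of those members together with the identity, it is abelian, and if k has prime characteristic p every element of E(σ) has order dividing p. -/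
theorem result {k : Type u} [Field k] (hk2 : ringChar k ≠ 2) (hk3 : Nat.card k ≠ 3)
    {M : Type u} [AddCommGroup M] [Module k M] [FiniteDimensional k M]
    {G : Subgroup (LinearMap.GeneralLinearGroup k M)} (hG : Cfsg.IsQuadraticPair G)
    {σ : LinearMap.GeneralLinearGroup k M} (hσ : σ ∈ Cfsg.minimalQuadraticElements G) :
    (Cfsg.sameActionSubgroup G σ : Set (LinearMap.GeneralLinearGroup k M)) = Cfsg.sameActionClass G σ ∪ {1} ∧
    IsMulCommutative ↥(Cfsg.sameActionSubgroup G σ) ∧
    (∀ p : ℕ, p.Prime → ringChar k = p → ∀ x ∈ Cfsg.sameActionSubgroup G σ, x ^ p = 1) := by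
  have hE := sameActionSubgroup_eq hσ
  refine ⟨?_, ?_, ?_⟩
  · rw [hE]; rfl
  · refine ⟨⟨fun a b => ?_⟩⟩
    apply Subtype.ext
    have ha : (a : LinearMap.GeneralLinearGroup k M) ∈ classSubgroup hσ := hE ▸ a.2
    have hb : (b : LinearMap.GeneralLinearGroup k M) ∈ classSubgroup hσ := hE ▸ b.2
    change (a : LinearMap.GeneralLinearGroup k M) * b = b * a
    rcases ha with ha | ha
    · rcases hb with hb | hb
      · exact class_commute hσ ha hb
      · rw [show (b : LinearMap.GeneralLinearGroup k M) = 1 from hb, one_mul, mul_one]
    · rw [show (a : LinearMap.GeneralLinearGroup k M) = 1 from ha, one_mul, mul_one]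
  · intro p hp hc x hx
    rw [hE] at hx
    rcases hx with hx | hx
    · apply Units.ext
      rw [class_pow hσ hx p]
      have hp0 : (p : k) = 0 := by
        rw [← hc]
        exact ringChar.Nat.cast_ringChar
      rw [hp0, zero_smul, add_zero]
      rfl
    · rw [show x = 1 from hx, one_pow]

end Cfsg.Agent.S5059
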