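import Cfsg.Statements.S5061
import Cfsg.Agent.Lib.Root.UnipSet
import Mathlib

set_option autoImplicit false
open Cfsg

namespace Cfsg.Agent.S5061

/-- Let M be a finite-dimensional vector space over a field k, G ≤ GL(M), and 𝒲 a set of subgroups of G, invariant under conjugation by G, such that any two members of 𝒲 generate a subgroup acting unipotently on M (for some n all products of n endomorphisms g − 1 from it vanish). Then the subgroup generated by all members of 𝒲 acts unipotently on M and is normal in G. -/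
theorem result {k : Type*} [Field k] {M : Type*} [AddCommGroup M] [Module k M] [FiniteDimensional k M]
    {G : Subgroup (LinearMap.GeneralLinearGroup k M)} {W : Set (Subgroup (LinearMap.GeneralLinearGroup k M))} (hWG : ∀ A ∈ W, A ≤ G)
    (hWW : ∀ A ∈ W, ∀ B ∈ W, Cfsg.IsUnipotentOn (A ⊔ B)) (hWconj : ∀ A ∈ W, ∀ g ∈ G, Cfsg.conjBy A g ∈ W) :
    Cfsg.IsUnipotentOn (⨆ A ∈ W, A) ∧ ∀ g ∈ G, Cfsg.conjBy (⨆ A ∈ W, A) g = ⨆ A ∈ W, A := by
  let ρ : LinearMap.GeneralLinearGroup k M →* Module.End k M :=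
    { toFun := fun g => (g : M →ₗ[k] M), map_one' := rfl, map_mul' := fun _ _ => rfl }
  have conv : ∀ U : Subgroup (LinearMap.GeneralLinearGroup k M),
      Cfsg.IsUnipotentOn U ↔ Cfsg.Agent.Lib.Root.UnipOn ρ U := by
    intro U
    unfold Cfsg.IsUnipotentOn Cfsg.Agent.Lib.Root.UnipOn
    have e0 : ∀ l : List (LinearMap.GeneralLinearGroup k M),
        (List.map (fun g : M →ₗ[k] M => g - 1) (do let a ← l; pure (a : M →ₗ[k] M))).prod =
          (l.map fun g => ρ g - 1).prod := by
      intro l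
      induction l with
      | nil => rfl
      | cons a l ih =>
        simp only [List.map_cons, List.prod_cons, ← ih]
        rfl
    simp only [e0]
  have hU : Cfsg.IsUnipotentOn (⨆ A ∈ W, A) := by
    have hsupG : (⨆ A ∈ W, A) ≤ G := iSup₂_le hWG
    rw [conv]
    exact Cfsg.Agent.Lib.Root.unipOn_family (k := k) (M := M) ρ W
      (fun A hA B hB => (conv _).mp (hWW A hA B hB)) (fun A hA g hg => hWconj A hA g (hsupG hg))
  refine ⟨hU, fun g hg => ?_⟩
  have key : ∀ x ∈ G, Cfsg.conjBy (⨆ A ∈ W, A) x ≤ ⨆ A ∈ W, A := by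
    intro x hx
    have h : Cfsg.conjBy (⨆ A ∈ W, A) x = ⨆ A ∈ W, Cfsg.conjBy A x := by
      simp only [Cfsg.conjBy, Subgroup.map_iSup]
    rw [h]
    exact iSup₂_le fun A hA =>
      le_iSup₂ (f := fun (C : Subgroup (LinearMap.GeneralLinearGroup k M)) (_ : C ∈ W) => C)
        (Cfsg.conjBy A x) (hWconj A hA x hx)
  apply le_antisymm (key g hg)
  have h2 := Cfsg.Agent.Lib.Root.conjBy_le (key g⁻¹ (G.inv_mem hg)) g
  rwa [Cfsg.Agent.Lib.Root.conjBy_conjBy_inv] at h2

end Cfsg.Agent.S5061
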