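import Cfsg.Statements.S5067
import Mathlib

set_option autoImplicit false
open Cfsg

namespace Cfsg.Agent.S5067

/-- Key: commutators of the normal closure. -/
lemma class_lt {P : Type*} [Group P] [Group.IsNilpotent P]
    (hna : ¬ IsMulCommutative P) {E : Subgroup P} (hE : IsMulCommutative ↥E) :
    Group.nilpotencyClass ↥(Subgroup.normalClosure (E : Set P)) < Group.nilpotencyClass P := by
  classical
  set N := Subgroup.normalClosure (E : Set P) with hN
  set γ₂ := (⊤ : Subgroup P).lowerCentralSeries 1 with hγ₂
  set R := (⊤ : Subgroup P).lowerCentralSeries 2 with hR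
  set K := E ⊔ γ₂ with hK
  have hRsucc : R = ⁅γ₂, (⊤ : Subgroup P)⁆ := rfl
  have hγsucc : γ₂ = ⁅(⊤ : Subgroup P), (⊤ : Subgroup P)⁆ := by
    rw [hγ₂]
    rfl
  haveI hRn : R.Normal := inferInstance
  -- N ≤ K
  have hNK : N ≤ K := by
    rw [hN, Subgroup.normalClosure, Subgroup.closure_le]
    intro x hx
    obtain ⟨e, he, hzx⟩ := Group.mem_conjugatesOfSet_iff.mp hx
    obtain ⟨g, rfl⟩ := isConj_iff.mp hzx
    have h1 : g * e * g⁻¹ = (g * e * g⁻¹ * e⁻¹) * e := by group
    rw [h1]
    refine Subgroup.mul_mem _ ((le_sup_right : γ₂ ≤ K) ?_) ((le_sup_left : E ≤ K) he)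
    rw [hγsucc, ← commutatorElement_def]
    exact Subgroup.commutator_mem_commutator (Subgroup.mem_top g) (Subgroup.mem_top e)
  -- commutators in `K`
  let π := QuotientGroup.mk' R
  have hπ : ∀ x y : P, π x * π y = π y * π x ↔ x * y * x⁻¹ * y⁻¹ ∈ R := by
    intro x y
    rw [← map_mul, ← map_mul]
    constructor
    · intro h
      rw [← QuotientGroup.eq_one_iff]
      have h2 : ((x * y * x⁻¹ * y⁻¹ : P) : P ⧸ R) = π (x * y) * (π (y * x))⁻¹ := by
        simp only [π, QuotientGroup.mk'_apply, ← QuotientGroup.mk_inv, ← QuotientGroup.mk_mul]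
        congr 1
        group
      rw [h2, h, mul_inv_cancel]
    · intro h
      have h2 : π (x * y * x⁻¹ * y⁻¹) = 1 := by
        rw [← MonoidHom.mem_ker, QuotientGroup.ker_mk']
        exact h
      have h3 : x * y * x⁻¹ * y⁻¹ * (y * x) = x * y := by group
      rw [← h3, map_mul, h2, one_mul]
  have hcentral : ∀ x ∈ γ₂, ∀ y : P, π x * π y = π y * π x := by
    intro x hx y
    rw [hπ, hRsucc, ← commutatorElement_def]
    exact Subgroup.commutator_mem_commutator hx (Subgroup.mem_top y)
  have hEE : ∀ x ∈ E, ∀ y ∈ E, π x * π y = π y * π x := by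
    intro x hx y hy
    have := hE.is_comm.comm ⟨x, hx⟩ ⟨y, hy⟩
    have h2 : x * y = y * x := congrArg Subtype.val this
    rw [← map_mul, h2, map_mul]
  have hcent : ∀ y : P, Subgroup.comap π (Subgroup.centralizer {π y}) = Subgroup.comap π (Subgroup.centralizer {π y}) := fun _ => rfl
  have hKK : ∀ x ∈ K, ∀ y ∈ K, π x * π y = π y * π x := by
    -- first for y in E
    have h1 : ∀ y ∈ E, K ≤ Subgroup.comap π (Subgroup.centralizer {π y}) := by
      intro y hy
      apply sup_le
      · intro x hx
        rw [Subgroup.mem_comap, Subgroup.mem_centralizer_singleton_iff]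
        exact hEE x hx y hy
      · intro x hx
        rw [Subgroup.mem_comap, Subgroup.mem_centralizer_singleton_iff]
        exact hcentral x hx y
    intro x hx
    have h2 : K ≤ Subgroup.comap π (Subgroup.centralizer {π x}) := by
      apply sup_le
      · intro y hy
        have := h1 y hy hx
        rw [Subgroup.mem_comap, Subgroup.mem_centralizer_singleton_iff] at this ⊢
        exact this.symm
      · intro y hy
        rw [Subgroup.mem_comap, Subgroup.mem_centralizer_singleton_iff]
        exact hcentral y hy x
    intro y hy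
    have := h2 hy
    rw [Subgroup.mem_comap, Subgroup.mem_centralizer_singleton_iff] at this
    exact this.symm
  have hNN : ⁅N, N⁆ ≤ R := by
    rw [Subgroup.commutator_le]
    intro x hx y hy
    rw [commutatorElement_def, ← hπ]
    exact hKK x (hNK hx) y (hNK hy)
  -- induct along the lower central series
  have hind : ∀ k : ℕ, N.lowerCentralSeries (k + 1) ≤ (⊤ : Subgroup P).lowerCentralSeries (k + 2) := by
    intro k
    induction k with
    | zero => exact hNN
    | succ k ih =>
      rw [Subgroup.lowerCentralSeries_succ, Subgroup.lowerCentralSeries_succ (⊤ : Subgroup P)]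
      exact Subgroup.commutator_mono ih le_top
  set c := Group.nilpotencyClass P with hc
  have hc2 : 2 ≤ c := by
    by_contra hlt
    have hle : c ≤ 1 := by omega
    have h1 : (⊤ : Subgroup P).lowerCentralSeries 1 = ⊥ :=
      (Subgroup.lowerCentralSeries_eq_bot_iff_nilpotencyClass_le).mpr hle
    apply hna
    have h2 : commutator P = ⊥ := h1
    exact ⟨⟨fun a b => by
      have := (Subgroup.commutator_eq_bot_iff_le_centralizer.mp h2) (Subgroup.mem_top a)
        b (Subgroup.mem_top b)
      exact this.symm⟩⟩
  obtain ⟨k, hk⟩ : ∃ k, c = k + 2 := ⟨c - 2, by omega⟩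
  have hbot : (⊤ : Subgroup P).lowerCentralSeries (k + 2) = ⊥ :=
    (Subgroup.lowerCentralSeries_eq_bot_iff_nilpotencyClass_le).mpr (by omega)
  have hNbot : (⊤ : Subgroup N).lowerCentralSeries (k + 1) = ⊥ := by
    have h1 := hind k
    rw [hbot, le_bot_iff, ← Subgroup.top_subtype_lowerCentralSeries] at h1
    exact (Subgroup.map_eq_bot_iff_of_injective _ N.subtype_injective).mp h1
  have := (Subgroup.lowerCentralSeries_eq_bot_iff_nilpotencyClass_le).mp hNbot
  omega

/-- Let P be a non-abelian nilpotent p-group (every element of p-power order; P possibly infinite) generated by two abelian subgroups E and F. Then the normal closure of E in P, and likewise that of F, has nilpotency class strictly smaller than that of P. -/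
theorem result {P : Type*} [Group P] {p : ℕ} [Fact p.Prime] (hP : IsPGroup p P) [Group.IsNilpotent P]
    (hna : ¬ IsMulCommutative P) {E F : Subgroup P} (hE : IsMulCommutative ↥E) (hF : IsMulCommutative ↥F) (hgen : E ⊔ F = ⊤) :
    Group.nilpotencyClass ↥(Subgroup.normalClosure (E : Set P)) < Group.nilpotencyClass P ∧
    Group.nilpotencyClass ↥(Subgroup.normalClosure (F : Set P)) < Group.nilpotencyClass P := by
  exact ⟨class_lt hna hE, class_lt hna hF⟩

end Cfsg.Agent.S5067
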