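import Cfsg.Statements.S5070
import Cfsg.Agent.Lib.Root.TvRoot
import Cfsg.Agent.Lib.Classical.Symp
import Mathlib

set_option autoImplicit false
open Matrix
open Cfsg

namespace Cfsg.Agent.S5070

open Matrix Cfsg.Agent.Lib.Root Cfsg.Agent.Lib.Classical Cfsg.Agent.Lib.KnownSimple

variable {F : Type*} [Field F] {m : ℕ}

theorem stT_add (p : Fin m ⊕ Fin m → F) (c d : F) : sympTr p (c + d) = sympTr p c * sympTr p d :=
  Subtype.ext (sympT_add p c d).symm

theorem stT_zero (p : Fin m ⊕ Fin m → F) : sympTr p (0 : F) = 1 := by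
  apply Subtype.ext
  show Cfsg.sympTransvection m p 0 = 1
  simp [Cfsg.sympTransvection]

theorem stT_neg (p : Fin m ⊕ Fin m → F) (c : F) : sympTr p (-c) = (sympTr p c)⁻¹ :=
  eq_inv_of_mul_eq_one_left (by rw [← stT_add, neg_add_cancel, stT_zero])

/-- The root group. -/
def rootS (p : Fin m ⊕ Fin m → F) : Subgroup (Matrix.symplecticGroup (Fin m) F) where
  carrier := {t | ∃ c, t = sympTr p c}
  mul_mem' := by
    rintro _ _ ⟨c, rfl⟩ ⟨d, rfl⟩
    exact ⟨c + d, (stT_add p c d).symm⟩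
  one_mem' := ⟨0, (stT_zero p).symm⟩
  inv_mem' := by
    rintro _ ⟨c, rfl⟩
    exact ⟨-c, (stT_neg p c).symm⟩

theorem stT_mem (p : Fin m ⊕ Fin m → F) (c : F) : sympTr p c ∈ rootS p := ⟨c, rfl⟩

theorem closure_eq (p : Fin m ⊕ Fin m → F) :
    Subgroup.closure {g : ↥(Matrix.symplecticGroup (Fin m) F) | ∃ c : F, ∀ v : Fin m ⊕ Fin m → F,
          (g : Matrix (Fin m ⊕ Fin m) (Fin m ⊕ Fin m) F) *ᵥ v =
            v + (c * (v ⬝ᵥ (Matrix.J (Fin m) F *ᵥ p))) • p} = rootS p := by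
  apply le_antisymm
  · rw [Subgroup.closure_le]
    rintro g ⟨c, hc⟩
    refine ⟨c, Subtype.ext ?_⟩
    apply mat_ext_mulVec
    intro x
    rw [hc x, sympTr_coe, sympT_mulVec]
    rfl
  · rintro _ ⟨c, rfl⟩
    apply Subgroup.subset_closure
    refine ⟨c, fun v => ?_⟩
    rw [sympTr_coe, sympT_mulVec]
    rfl

theorem rootS_comm {p : Fin m ⊕ Fin m → F} {x y : Matrix.symplecticGroup (Fin m) F}
    (hx : x ∈ rootS p) (hy : y ∈ rootS p) : x * y = y * x := by
  obtain ⟨c, rfl⟩ := hx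
  obtain ⟨d, rfl⟩ := hy
  rw [← stT_add, ← stT_add, add_comm]

theorem stT_eq_one {p : Fin m ⊕ Fin m → F} (hp : p ≠ 0) {c : F} (h : sympTr p c = 1) : c = 0 := by
  obtain ⟨z, -, hz⟩ := sympNondeg_top (F := F) (m := m) p Submodule.mem_top hp
  have h1 : (sympTr p c).1 *ᵥ z = z := by
    rw [h]
    exact one_mulVec z
  rw [sympTr_coe, sympT_mulVec] at h1
  have h2 : (c * Cfsg.sympForm m F z p) • p = 0 := by simpa using h1
  rcases smul_eq_zero.mp h2 with h3 | h3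
  · rcases mul_eq_zero.mp h3 with h4 | h4
    · exact h4
    · exfalso
      apply hz
      rw [sympForm_swap, h4, neg_zero]
  · exact absurd h3 hp

theorem rootS_ne_bot {p : Fin m ⊕ Fin m → F} (hp : p ≠ 0) : rootS p ≠ ⊥ := by
  intro h1
  have h2 : sympTr p (1 : F) ∈ rootS p := stT_mem _ _
  rw [h1, Subgroup.mem_bot] at h2
  exact one_ne_zero (stT_eq_one hp h2)

theorem stT_conj (g : Matrix.symplecticGroup (Fin m) F) (p : Fin m ⊕ Fin m → F) (c : F) :
    g * sympTr p c * g⁻¹ = sympTr (g.1 *ᵥ p) c := by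
  rw [mul_inv_eq_iff_eq_mul]
  apply Subtype.ext
  exact sp_mul_sympT g.2 p c

theorem rootS_conj (g : Matrix.symplecticGroup (Fin m) F) (p : Fin m ⊕ Fin m → F) :
    Cfsg.conjBy (rootS p) g = rootS (g.1 *ᵥ p) := by
  ext t
  constructor
  · rintro ⟨y, ⟨c, rfl⟩, rfl⟩
    exact ⟨c, stT_conj g p c⟩
  · rintro ⟨c, rfl⟩
    exact ⟨sympTr p c, stT_mem _ _, stT_conj g p c⟩

theorem stT_commute {p q : Fin m ⊕ Fin m → F} (h : Cfsg.sympForm m F p q = 0) (c d : F) :
    sympTr p c * sympTr q d = sympTr q d * sympTr p c := by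
  have h' : Cfsg.sympForm m F q p = 0 := by rw [sympForm_swap, h, neg_zero]
  apply Subtype.ext
  apply mat_ext_mulVec
  intro x
  show (Cfsg.sympTransvection m p c * Cfsg.sympTransvection m q d) *ᵥ x =
    (Cfsg.sympTransvection m q d * Cfsg.sympTransvection m p c) *ᵥ x
  rw [← mulVec_mulVec, ← mulVec_mulVec, sympT_mulVec, sympT_mulVec, sympT_mulVec, sympT_mulVec]
  simp only [sympForm_add_left, sympForm_smul_left, h, h', mul_zero, add_zero]
  abel

theorem rootS_commutator_bot {p q : Fin m ⊕ Fin m → F} (h : Cfsg.sympForm m F p q = 0) :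
    ⁅rootS p, rootS q⁆ = ⊥ := by
  apply commutator_eq_bot_of_comm
  rintro _ ⟨c, rfl⟩ _ ⟨d, rfl⟩
  exact stT_commute h c d

theorem dot_J (v x : Fin m ⊕ Fin m → F) :
    (Matrix.J (Fin m) F *ᵥ v) ⬝ᵥ x = Cfsg.sympForm m F x v := dot_J_eq_sympForm v x

theorem hP {p q : Fin m ⊕ Fin m → F} {d : F} (hd : Cfsg.sympForm m F p q = d) (hd0 : d ≠ 0) :
    pMat (d⁻¹ • (Matrix.J (Fin m) F *ᵥ q)) ((-d⁻¹) • (Matrix.J (Fin m) F *ᵥ p)) * eMat p q = 1 := by
  apply pMat_mul_eMat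
  · rw [smul_dotProduct, dot_J, hd, smul_eq_mul, inv_mul_cancel₀ hd0]
  · rw [smul_dotProduct, dot_J, sympForm_self, smul_zero]
  · rw [smul_dotProduct, dot_J, sympForm_self, smul_zero]
  · rw [smul_dotProduct, dot_J, sympForm_swap, hd, smul_eq_mul]
    field_simp

theorem tvMat_sp_mulVec {p q : Fin m ⊕ Fin m → F} {d : F} (hd : Cfsg.sympForm m F p q = d) (hd0 : d ≠ 0)
    (X : Matrix.SpecialLinearGroup (Fin 2) F) (u : Fin m ⊕ Fin m → F) :
    tvMat _ _ (hP hd hd0) X *ᵥ u = u +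
      (((X.1 0 0 - 1) * (d⁻¹ * Cfsg.sympForm m F u q) + X.1 0 1 * (-d⁻¹ * Cfsg.sympForm m F u p)) • p +
       (X.1 1 0 * (d⁻¹ * Cfsg.sympForm m F u q) + (X.1 1 1 - 1) * (-d⁻¹ * Cfsg.sympForm m F u p)) • q) := by
  rw [tvMat_apply, eMat_mul_pMat, add_mulVec, one_mulVec]
  simp only [add_mulVec, smul_mulVec, vecMulVec_mulVec, smul_dotProduct, dot_J, Matrix.sub_apply]
  have e1 : (1 : Matrix (Fin 2) (Fin 2) F) 0 0 = 1 := by simp
  have e2 : (1 : Matrix (Fin 2) (Fin 2) F) 0 1 = 0 := by simp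
  have e3 : (1 : Matrix (Fin 2) (Fin 2) F) 1 0 = 0 := by simp
  have e4 : (1 : Matrix (Fin 2) (Fin 2) F) 1 1 = 1 := by simp
  rw [e1, e2, e3, e4]
  simp only [sub_zero]
  congr 1
  ext i
  simp only [Pi.add_apply, Pi.smul_apply, smul_eq_mul, op_smul_eq_smul, Pi.smul_apply, MulOpposite.smul_eq_mul_unop, MulOpposite.unop_op]
  ring

theorem tvMat_sp_mem {p q : Fin m ⊕ Fin m → F} {d : F} (hd : Cfsg.sympForm m F p q = d) (hd0 : d ≠ 0)
    (X : Matrix.SpecialLinearGroup (Fin 2) F) :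
    tvMat _ _ (hP hd hd0) X ∈ Matrix.symplecticGroup (Fin m) F := by
  apply mem_sp_of_preserves
  intro u v
  rw [tvMat_sp_mulVec hd hd0, tvMat_sp_mulVec hd hd0]
  have hdet : X.1 0 0 * X.1 1 1 - X.1 0 1 * X.1 1 0 = 1 := sl2_det X
  have hqp : Cfsg.sympForm m F q p = -d := by rw [sympForm_swap, hd]
  have hup := sympForm_swap p u
  have hvp := sympForm_swap p v
  have huq := sympForm_swap q u
  have hvq := sympForm_swap q v
  simp only [sympForm_add_left, sympForm_add_right, sympForm_smul_left, sympForm_smul_right, sympForm_self, hd,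
    hqp, hup, hvp, huq, hvq]
  generalize Cfsg.sympForm m F u v = w
  generalize hr : Cfsg.sympForm m F u p = r
  generalize hs : Cfsg.sympForm m F u q = s
  generalize hr' : Cfsg.sympForm m F v p = r'
  generalize hs' : Cfsg.sympForm m F v q = s'
  field_simp
  linear_combination (r * s' - r' * s) * d * hdet

/-- The embedding of `SL₂`. -/
noncomputable def spHom {p q : Fin m ⊕ Fin m → F} {d : F} (hd : Cfsg.sympForm m F p q = d) (hd0 : d ≠ 0) :
    Matrix.SpecialLinearGroup (Fin 2) F →* Matrix.symplecticGroup (Fin m) F where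
  toFun X := ⟨tvMat _ _ (hP hd hd0) X, tvMat_sp_mem hd hd0 X⟩
  map_one' := Subtype.ext (map_one _)
  map_mul' X Y := Subtype.ext (map_mul _ X Y)

theorem spHom_inj {p q : Fin m ⊕ Fin m → F} {d : F} (hd : Cfsg.sympForm m F p q = d) (hd0 : d ≠ 0) :
    Function.Injective (spHom hd hd0) := by
  intro X Y hXY
  apply tvMat_inj _ _ (hP hd hd0)
  exact congrArg Subtype.val hXY

theorem spHom_bU {p q : Fin m ⊕ Fin m → F} {d : F} (hd : Cfsg.sympForm m F p q = d) (hd0 : d ≠ 0) (y : F) :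
    spHom hd hd0 (bU y) = sympTr p (y * -d⁻¹) := by
  apply Subtype.ext
  show tvMat _ _ (hP hd hd0) (bU y) = _
  rw [tvMat_bU, vmv_smul_right, smul_smul]
  rfl

theorem spHom_aL {p q : Fin m ⊕ Fin m → F} {d : F} (hd : Cfsg.sympForm m F p q = d) (hd0 : d ≠ 0) (x : F) :
    spHom hd hd0 (aL x) = sympTr q (x * d⁻¹) := by
  apply Subtype.ext
  show tvMat _ _ (hP hd hd0) (aL x) = _
  rw [tvMat_aL, vmv_smul_right, smul_smul]
  rfl

theorem spHom_upper {p q : Fin m ⊕ Fin m → F} {d : F} (hd : Cfsg.sympForm m F p q = d) (hd0 : d ≠ 0) :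
    (Cfsg.upperUnipotentSL2 F).map (spHom hd hd0) = rootS p := by
  ext t
  constructor
  · rintro ⟨X, hX, rfl⟩
    rw [eq_bU hX, spHom_bU]
    exact stT_mem _ _
  · rintro ⟨c, rfl⟩
    refine ⟨bU (c * -d), bU_mem _, ?_⟩
    rw [spHom_bU]
    congr 1
    field_simp

theorem spHom_lower {p q : Fin m ⊕ Fin m → F} {d : F} (hd : Cfsg.sympForm m F p q = d) (hd0 : d ≠ 0) :
    (Cfsg.lowerUnipotentSL2 F).map (spHom hd hd0) = rootS q := by
  ext t
  constructor
  · rintro ⟨X, hX, rfl⟩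
    rw [eq_aL hX, spHom_aL]
    exact stT_mem _ _
  · rintro ⟨c, rfl⟩
    refine ⟨aL (c * d), aL_mem _, ?_⟩
    rw [spHom_aL]
    congr 1
    field_simp

theorem rootS_rankOne {p q : Fin m ⊕ Fin m → F} (h : Cfsg.sympForm m F p q ≠ 0) :
    Cfsg.IsRankOnePair (rootS p) (rootS q) := by
  rw [← spHom_upper rfl h, ← spHom_lower rfl h]
  exact rankOne_map _ (spHom_inj rfl h) isRankOnePair_lower_upper.symm

theorem rootS_psl2 {p q : Fin m ⊕ Fin m → F} (h : Cfsg.sympForm m F p q ≠ 0) :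
    Cfsg.IsPSL2PairOver F (rootS p) (rootS q) := by
  rw [← spHom_upper rfl h, ← spHom_lower rfl h]
  apply psl2_of_hom
  rw [(MonoidHom.ker_eq_bot_iff _).mpr (spHom_inj rfl h)]
  exact bot_le

/-- The class of the statement, in normal form. -/
def sigS (F : Type*) [Field F] (m : ℕ) : Set (Subgroup (Matrix.symplecticGroup (Fin m) F)) :=
  {A | ∃ p : Fin m ⊕ Fin m → F, p ≠ 0 ∧ A = rootS p}

theorem sigS_root : Cfsg.IsRootSubgroupSet (sigS F m) where
  commutative := by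
    rintro A ⟨p, -, rfl⟩
    exact ⟨⟨fun x y => Subtype.ext (rootS_comm x.2 y.2)⟩⟩
  ne_bot := by
    rintro A ⟨p, hp, rfl⟩
    exact rootS_ne_bot hp
  generates := by
    have h := trSubgroup_top (F := F) (m := m)
    rw [eq_top_iff, ← h, trSubgroup, Subgroup.closure_le]
    rintro A ⟨w, -, c, hA⟩
    have hA' : A = sympTr w c := Subtype.ext hA
    by_cases hw : w = 0
    · have : A = 1 := by
        rw [hA']
        apply Subtype.ext
        subst hw
        show Cfsg.sympTransvection m 0 c = 1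
        simp [Cfsg.sympTransvection]
      rw [this]
      exact one_mem _
    · have hle : rootS w ≤ ⨆ A ∈ sigS F m, A := le_iSup₂_of_le _ ⟨w, hw, rfl⟩ le_rfl
      apply hle
      rw [hA']
      exact stT_mem _ _
  conj_mem := by
    rintro A ⟨p, hp, rfl⟩ g
    refine ⟨g.1 *ᵥ p, ?_, rootS_conj g p⟩
    intro h0
    apply hp
    have := sp_inv_mulVec_mulVec g p
    rw [h0, mulVec_zero] at this
    exact this.symm
  pair := by
    rintro A ⟨p, hp, rfl⟩ B ⟨q, hq, rfl⟩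
    by_cases h : Cfsg.sympForm m F p q = 0
    · exact Or.inl (rootS_commutator_bot h)
    · exact Or.inr (Or.inl (rootS_rankOne h))

theorem sigS_class : Cfsg.IsConjClassOfSubgroups (sigS F (m + 1)) := by
  constructor
  · have hp : (Pi.single (Sum.inl 0) 1 : Fin (m + 1) ⊕ Fin (m + 1) → F) ≠ 0 := by
      intro h
      have := congrFun h (Sum.inl 0)
      simp at this
    exact ⟨_, _, hp, rfl⟩
  · rintro A ⟨p, hp, rfl⟩ B ⟨q, hq, rfl⟩
    obtain ⟨t, -, ht⟩ := tr_vec (sympNondeg_top (F := F) (m := m + 1)) (Submodule.mem_top (x := p))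
      (Submodule.mem_top (x := q)) hp hq
    refine ⟨t, ?_⟩
    rw [rootS_conj]
    congr 1
    exact ht.symm

theorem sigS_not_comm (A B : Subgroup (Matrix.symplecticGroup (Fin m) F)) (hA : A ∈ sigS F m) (hB : B ∈ sigS F m) :
    ¬ Cfsg.RootCommutatorCase (sigS F m) A B := by
  obtain ⟨p, hp, rfl⟩ := hA
  obtain ⟨q, hq, rfl⟩ := hB
  intro hc
  by_cases h : Cfsg.sympForm m F p q = 0
  · have := hc.1
    rw [rootS_commutator_bot h] at this
    exact sigS_root.ne_bot _ this rfl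
  · exact Lib.Root.commutator_notMem_of_rankOne sigS_root ⟨p, hp, rfl⟩ ⟨q, hq, rfl⟩ (rootS_rankOne h) hc.1

theorem sigS_kroot : Cfsg.IsKRootSubgroupSet F (sigS F m) := by
  refine ⟨sigS_root, ?_⟩
  rintro A ⟨p, hp, rfl⟩ B ⟨q, hq, rfl⟩ hr
  by_cases h : Cfsg.sympForm m F p q = 0
  · exact absurd (rootS_commutator_bot h) hr.commutator_ne_bot
  · exact rootS_psl2 h

theorem sigS_conn : Cfsg.IsConnectedFamily (Cfsg.FAdj (sigS F m)) (sigS F m) := by
  rintro A ⟨p, hp, rfl⟩ B ⟨q, hq, rfl⟩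
  obtain ⟨z, -, h1, h2⟩ := exists_common_nonorth (sympNondeg_top (F := F) (m := m)) (Submodule.mem_top (x := p))
    (Submodule.mem_top (x := q)) hp hq
  have hz : z ≠ 0 := by
    rintro rfl
    apply h2
    have : (0 : Fin m ⊕ Fin m → F) = (0 : F) • (0 : Fin m ⊕ Fin m → F) := by simp
    rw [this, sympForm_smul_left, zero_mul]
  exact (Relation.ReflTransGen.single ⟨⟨p, hp, rfl⟩, ⟨z, hz, rfl⟩, rootS_rankOne h1⟩).trans
    (Relation.ReflTransGen.single ⟨⟨z, hz, rfl⟩, ⟨q, hq, rfl⟩, rootS_rankOne h2⟩)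

theorem sig_eq (F : Type*) [Field F] (m : ℕ) : {A : Subgroup ↥(Matrix.symplecticGroup (Fin m) F) | ∃ p : Fin m ⊕ Fin m → F, p ≠ 0 ∧
        A = Subgroup.closure {g : ↥(Matrix.symplecticGroup (Fin m) F) | ∃ c : F, ∀ v : Fin m ⊕ Fin m → F,
          (g : Matrix (Fin m ⊕ Fin m) (Fin m ⊕ Fin m) F) *ᵥ v =
            v + (c * (v ⬝ᵥ (Matrix.J (Fin m) F *ᵥ p))) • p}} = sigS F m := by
  ext A
  constructor
  · rintro ⟨p, hp, rfl⟩
    exact ⟨p, hp, closure_eq p⟩
  · rintro ⟨p, hp, rfl⟩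
    exact ⟨p, hp, (closure_eq p).symm⟩

/-- Let F be a field, m a natural number and V = F^{2(m+1)} with the standard non-degenerate alternating form f(u, v) = uᵀ J v. For a non-zero vector p let T(p) be the group of symplectic transvections v ↦ v + c f(v, p) p, c ∈ F. Then the subgroups T(p), p ≠ 0, generate the symplectic group Sp_{2(m+1)}(F) and form a degenerate class of abstract F-root subgroups of it (any two of them either commute elementwise or are the unipotent subgroups of a rank one group that is an image of SL₂(F) with central kernel, never the commutator case), and their graph of rank one pairs is connected. -/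
theorem result (F : Type*) [Field F] (m : ℕ) :
    Cfsg.IsRootSubgroupClass {A : Subgroup ↥(Matrix.symplecticGroup (Fin (m + 1)) F) | ∃ p : Fin (m + 1) ⊕ Fin (m + 1) → F, p ≠ 0 ∧
        A = Subgroup.closure {g : ↥(Matrix.symplecticGroup (Fin (m + 1)) F) | ∃ c : F, ∀ v : Fin (m + 1) ⊕ Fin (m + 1) → F,
          (g : Matrix (Fin (m + 1) ⊕ Fin (m + 1)) (Fin (m + 1) ⊕ Fin (m + 1)) F) *ᵥ v =
            v + (c * (v ⬝ᵥ (Matrix.J (Fin (m + 1)) F *ᵥ p))) • p}} ∧
    Cfsg.IsDegenerateRootSet {A : Subgroup ↥(Matrix.symplecticGroup (Fin (m + 1)) F) | ∃ p : Fin (m + 1) ⊕ Fin (m + 1) → F, p ≠ 0 ∧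
        A = Subgroup.closure {g : ↥(Matrix.symplecticGroup (Fin (m + 1)) F) | ∃ c : F, ∀ v : Fin (m + 1) ⊕ Fin (m + 1) → F,
          (g : Matrix (Fin (m + 1) ⊕ Fin (m + 1)) (Fin (m + 1) ⊕ Fin (m + 1)) F) *ᵥ v =
            v + (c * (v ⬝ᵥ (Matrix.J (Fin (m + 1)) F *ᵥ p))) • p}} ∧
    Cfsg.IsKRootSubgroupSet F {A : Subgroup ↥(Matrix.symplecticGroup (Fin (m + 1)) F) | ∃ p : Fin (m + 1) ⊕ Fin (m + 1) → F, p ≠ 0 ∧
        A = Subgroup.closure {g : ↥(Matrix.symplecticGroup (Fin (m + 1)) F) | ∃ c : F, ∀ v : Fin (m + 1) ⊕ Fin (m + 1) → F,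
          (g : Matrix (Fin (m + 1) ⊕ Fin (m + 1)) (Fin (m + 1) ⊕ Fin (m + 1)) F) *ᵥ v =
            v + (c * (v ⬝ᵥ (Matrix.J (Fin (m + 1)) F *ᵥ p))) • p}} ∧
    Cfsg.IsConnectedFamily (Cfsg.FAdj {A : Subgroup ↥(Matrix.symplecticGroup (Fin (m + 1)) F) | ∃ p : Fin (m + 1) ⊕ Fin (m + 1) → F, p ≠ 0 ∧
        A = Subgroup.closure {g : ↥(Matrix.symplecticGroup (Fin (m + 1)) F) | ∃ c : F, ∀ v : Fin (m + 1) ⊕ Fin (m + 1) → F,
          (g : Matrix (Fin (m + 1) ⊕ Fin (m + 1)) (Fin (m + 1) ⊕ Fin (m + 1)) F) *ᵥ v =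
            v + (c * (v ⬝ᵥ (Matrix.J (Fin (m + 1)) F *ᵥ p))) • p}})
      {A : Subgroup ↥(Matrix.symplecticGroup (Fin (m + 1)) F) | ∃ p : Fin (m + 1) ⊕ Fin (m + 1) → F, p ≠ 0 ∧
        A = Subgroup.closure {g : ↥(Matrix.symplecticGroup (Fin (m + 1)) F) | ∃ c : F, ∀ v : Fin (m + 1) ⊕ Fin (m + 1) → F,
          (g : Matrix (Fin (m + 1) ⊕ Fin (m + 1)) (Fin (m + 1) ⊕ Fin (m + 1)) F) *ᵥ v =
            v + (c * (v ⬝ᵥ (Matrix.J (Fin (m + 1)) F *ᵥ p))) • p}} := by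
  rw [sig_eq]
  exact ⟨⟨sigS_root, sigS_class⟩, fun A hA B hB => sigS_not_comm A B hA hB, sigS_kroot, sigS_conn⟩

end Cfsg.Agent.S5070
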