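import Cfsg.Statements.S5071
import Cfsg.Agent.Lib.Root.SubFam
import Cfsg.Agent.Lib.Classical.UnitComm
import Cfsg.Agent.Lib.Classical.SU2
import Cfsg.Agent.Lib.Classical.HermCount
import Cfsg.Agent.Lib.Classical.HermWitt
import Cfsg.Agent.S5032
import Mathlib

set_option autoImplicit false
open Matrix
open Cfsg

namespace Cfsg.Agent.S5071

open Matrix Cfsg.Agent.Lib.Root Cfsg.Agent.Lib.Classical

variable {F : Type*} [Field F] [Fintype F] {q n : ℕ}

local notation "hh" => Cfsg.hermForm n F q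

/-- The conjugate vector. -/
def cj (q : ℕ) (p : Fin n → F) : Fin n → F := fun j => p j ^ q

theorem cj_dot (p x : Fin n → F) : cj q p ⬝ᵥ x = hh x p := by
  simp only [cj, dotProduct, Cfsg.hermForm]
  exact Finset.sum_congr rfl (fun i _ => mul_comm _ _)

theorem mat_ext {A B : Matrix (Fin n) (Fin n) F} (h : ∀ x : Fin n → F, A *ᵥ x = B *ᵥ x) : A = B := by
  ext i j
  have := congrFun (h (Pi.single j 1)) i
  simpa using this

theorem su_ext' {a b : Cfsg.SU n F q} (h : a.1.1 = b.1.1) : a = b := Subtype.ext (Subtype.ext h)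

theorem ut_det {p : Fin n → F} (hp : hh p p = 0) (c : F) : (Cfsg.unitaryTransvection n q p c).det = 1 := by
  have h : cj q p ⬝ᵥ p = 0 := by rw [cj_dot, hp]
  have := (tvE p (cj q p) h c).2
  rwa [tvE_coe] at this

/-- The transvection as an element of `SU`. -/
def utr (hF : Fintype.card F = q ^ 2) (p : Fin n → F) (hp : hh p p = 0) (c : F) (hc : c + c ^ q = 0) : Cfsg.SU n F q :=
  ⟨⟨Cfsg.unitaryTransvection n q p c, ut_det hp c⟩, fun u v => by
    show hh (Cfsg.unitaryTransvection n q p c *ᵥ u) (Cfsg.unitaryTransvection n q p c *ᵥ v) = hh u v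
    rw [unitaryT_form hF p hp, hc, zero_mul, add_zero]⟩

theorem utr_coe (hF : Fintype.card F = q ^ 2) (p : Fin n → F) (hp : hh p p = 0) (c : F) (hc : c + c ^ q = 0) :
    (utr hF p hp c hc).1.1 = Cfsg.unitaryTransvection n q p c := rfl

theorem ut_mul (hF : Fintype.card F = q ^ 2) {p : Fin n → F} (hp : hh p p = 0) (c d : F) :
    Cfsg.unitaryTransvection n q p c * Cfsg.unitaryTransvection n q p d = Cfsg.unitaryTransvection n q p (c + d) := by
  apply mat_ext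
  intro x
  rw [← mulVec_mulVec, unitaryT_mulVec, unitaryT_mulVec, unitaryT_mulVec, herm_add_left, herm_smul_left, hp]
  ext i
  simp only [Pi.add_apply, Pi.smul_apply, smul_eq_mul]
  ring

theorem ut_zero (p : Fin n → F) : Cfsg.unitaryTransvection n q p 0 = 1 := by
  simp [Cfsg.unitaryTransvection]

theorem skew_add (hF : Fintype.card F = q ^ 2) {c d : F} (hc : c + c ^ q = 0) (hd : d + d ^ q = 0) :
    (c + d) + (c + d) ^ q = 0 := by
  rw [add_pow_q hF]
  linear_combination hc + hd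

theorem neg_pow_q (hF : Fintype.card F = q ^ 2) (c : F) : (-c) ^ q = -c ^ q := by
  rw [← frobQ_apply hF, map_neg, frobQ_apply]

theorem skew_neg (hF : Fintype.card F = q ^ 2) {c : F} (hc : c + c ^ q = 0) : (-c) + (-c) ^ q = 0 := by
  rw [neg_pow_q hF]
  linear_combination -hc

/-- The root group. -/
def rootU (hF : Fintype.card F = q ^ 2) (p : Fin n → F) (hp : hh p p = 0) : Subgroup (Cfsg.SU n F q) where
  carrier := {t | ∃ c, c + c ^ q = 0 ∧ t.1.1 = Cfsg.unitaryTransvection n q p c}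
  mul_mem' := by
    rintro a b ⟨c, hc, hca⟩ ⟨d, hd, hdb⟩
    refine ⟨c + d, skew_add hF hc hd, ?_⟩
    show a.1.1 * b.1.1 = _
    rw [hca, hdb, ut_mul hF hp]
  one_mem' := ⟨0, by simp [zero_pow (show q ≠ 0 by have := two_le_q hF; omega)], (ut_zero p).symm⟩
  inv_mem' := by
    rintro a ⟨c, hc, hca⟩
    refine ⟨-c, skew_neg hF hc, ?_⟩
    have h1 : a * utr hF p hp (-c) (skew_neg hF hc) = 1 := by
      apply su_ext'
      show a.1.1 * Cfsg.unitaryTransvection n q p (-c) = 1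
      rw [hca, ut_mul hF hp, add_neg_cancel, ut_zero]
    rw [inv_eq_of_mul_eq_one_right h1]
    rfl

theorem mem_rootU {hF : Fintype.card F = q ^ 2} {p : Fin n → F} {hp : hh p p = 0} {t : Cfsg.SU n F q} :
    t ∈ rootU hF p hp ↔ ∃ c, c + c ^ q = 0 ∧ t.1.1 = Cfsg.unitaryTransvection n q p c := Iff.rfl

theorem rootU_comm {hF : Fintype.card F = q ^ 2} {p : Fin n → F} {hp : hh p p = 0} {a b : Cfsg.SU n F q}
    (ha : a ∈ rootU hF p hp) (hb : b ∈ rootU hF p hp) : a * b = b * a := by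
  obtain ⟨c, -, hca⟩ := ha
  obtain ⟨d, -, hdb⟩ := hb
  apply su_ext'
  show a.1.1 * b.1.1 = b.1.1 * a.1.1
  rw [hca, hdb, ut_mul hF hp, ut_mul hF hp, add_comm]

theorem exists_left_one (hF : Fintype.card F = q ^ 2) {p : Fin n → F} (hp0 : p ≠ 0) :
    ∃ x, hh x p = 1 := by
  obtain ⟨u, hu⟩ : ∃ u, hh p u ≠ 0 := by
    by_contra hcon
    push Not at hcon
    exact hp0 (herm_nondeg_right hF hcon)
  have hq := two_le_q hF
  have h1 : hh u p ≠ 0 := by
    rw [herm_conj hF p u]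
    exact pow_ne_zero _ hu
  refine ⟨(hh u p)⁻¹ • u, ?_⟩
  rw [herm_smul_left, inv_mul_cancel₀ h1]

theorem closure_eq (hF : Fintype.card F = q ^ 2) {p : Fin n → F} (hp0 : p ≠ 0) (hp : hh p p = 0) :
    Subgroup.closure {g : ↥(Cfsg.SU n F q) |
            (∀ v : Fin n → F, ∃ c : F, ((g : Matrix.SpecialLinearGroup (Fin n) F) : Matrix (Fin n) (Fin n) F) *ᵥ v = v + c • p) ∧
            ∀ v : Fin n → F, Cfsg.hermForm n F q v p = 0 →
              ((g : Matrix.SpecialLinearGroup (Fin n) F) : Matrix (Fin n) (Fin n) F) *ᵥ v = v} = rootU hF p hp := by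
  apply le_antisymm
  · rw [Subgroup.closure_le]
    rintro g ⟨h1, h2⟩
    obtain ⟨x₀, hx₀⟩ := exists_left_one hF hp0
    obtain ⟨l, hl⟩ := h1 x₀
    have key : g.1.1 = Cfsg.unitaryTransvection n q p l := by
      apply mat_ext
      intro v
      rw [unitaryT_mulVec]
      have h3 := h2 (v - (hh v p) • x₀) (by
        rw [sub_eq_add_neg, herm_add_left]
        have : -(hh v p • x₀) = (-hh v p) • x₀ := by simp
        rw [this, herm_smul_left, hx₀]
        ring)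
      rw [mulVec_sub, mulVec_smul, hl] at h3
      have h4 : g.1.1 *ᵥ v = v - (hh v p) • x₀ + (hh v p) • (x₀ + l • p) := by
        rw [← h3]
        abel
      rw [h4]
      ext i
      simp only [Pi.add_apply, Pi.sub_apply, Pi.smul_apply, smul_eq_mul]
      ring
    exact ⟨l, trace_of_su hF hp0 hp g key, key⟩
  · rintro t ⟨c, hc, ht⟩
    apply Subgroup.subset_closure
    refine ⟨fun v => ⟨c * hh v p, ?_⟩, fun v hv => ?_⟩
    · rw [ht, unitaryT_mulVec]
    · rw [ht, unitaryT_mulVec, hv]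
      simp

theorem rootU_ne_bot (hF : Fintype.card F = q ^ 2) {p : Fin n → F} (hp0 : p ≠ 0) (hp : hh p p = 0) :
    rootU hF p hp ≠ ⊥ := by
  obtain ⟨ε, hε, hε2⟩ := exists_skew hF
  intro h0
  have hm : utr hF p hp ε (by rw [hε2]; ring) ∈ rootU hF p hp := ⟨ε, by rw [hε2]; ring, rfl⟩
  rw [h0, Subgroup.mem_bot] at hm
  obtain ⟨x₀, hx₀⟩ := exists_left_one hF hp0
  have h1 : (utr hF p hp ε (by rw [hε2]; ring)).1.1 *ᵥ x₀ = x₀ := by
    rw [hm]
    exact one_mulVec x₀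
  rw [utr_coe, unitaryT_mulVec, hx₀, mul_one] at h1
  have h2 : ε • p = 0 := by simpa using h1
  rcases smul_eq_zero.mp h2 with h3 | h3
  · exact hε h3
  · exact hp0 h3

theorem su_form_mulVec (g : Cfsg.SU n F q) {p : Fin n → F} (hp : hh p p = 0) : hh (g.1.1 *ᵥ p) (g.1.1 *ᵥ p) = 0 := by
  rw [su_form, hp]

theorem su_inv_mulVec (g : Cfsg.SU n F q) (x : Fin n → F) : (g⁻¹).1.1 *ᵥ (g.1.1 *ᵥ x) = x := by
  rw [mulVec_mulVec]
  have : (g⁻¹).1.1 * g.1.1 = 1 := congrArg (fun a : Cfsg.SU n F q => a.1.1) (inv_mul_cancel g)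
  rw [this, one_mulVec]

theorem su_mulVec_inv (g : Cfsg.SU n F q) (x : Fin n → F) : g.1.1 *ᵥ ((g⁻¹).1.1 *ᵥ x) = x := by
  rw [mulVec_mulVec]
  have : g.1.1 * (g⁻¹).1.1 = 1 := congrArg (fun a : Cfsg.SU n F q => a.1.1) (mul_inv_cancel g)
  rw [this, one_mulVec]

theorem su_form_inv (g : Cfsg.SU n F q) (x p : Fin n → F) : hh ((g⁻¹).1.1 *ᵥ x) p = hh x (g.1.1 *ᵥ p) := by
  have := su_form g ((g⁻¹).1.1 *ᵥ x) p
  rw [su_mulVec_inv] at this
  exact this.symm

theorem ut_conj (g : Cfsg.SU n F q) {t : Cfsg.SU n F q} {p : Fin n → F} {c : F}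
    (h : t.1.1 = Cfsg.unitaryTransvection n q p c) :
    (g * t * g⁻¹).1.1 = Cfsg.unitaryTransvection n q (g.1.1 *ᵥ p) c := by
  apply mat_ext
  intro x
  show (g.1.1 * t.1.1 * (g⁻¹).1.1) *ᵥ x = _
  rw [h, ← mulVec_mulVec, ← mulVec_mulVec, unitaryT_mulVec, unitaryT_mulVec, mulVec_add, su_mulVec_inv, mulVec_smul,
    su_form_inv]

theorem rootU_conj (hF : Fintype.card F = q ^ 2) (g : Cfsg.SU n F q) {p : Fin n → F} (hp : hh p p = 0) :
    Cfsg.conjBy (rootU hF p hp) g = rootU hF (g.1.1 *ᵥ p) (su_form_mulVec g hp) := by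
  ext t
  constructor
  · rintro ⟨y, ⟨c, hc, hy⟩, rfl⟩
    exact ⟨c, hc, ut_conj g hy⟩
  · rintro ⟨c, hc, ht⟩
    refine ⟨g⁻¹ * t * g, ⟨c, hc, ?_⟩, by
      show g * (g⁻¹ * t * g) * g⁻¹ = t
      group⟩
    have h1 := ut_conj g⁻¹ ht
    have e : g⁻¹ * t * (g⁻¹)⁻¹ = g⁻¹ * t * g := by group
    rw [e] at h1
    rw [h1, su_inv_mulVec]

theorem ut_commute (hF : Fintype.card F = q ^ 2) {p r : Fin n → F} (h : hh p r = 0) (c d : F) :
    Cfsg.unitaryTransvection n q p c * Cfsg.unitaryTransvection n q r d =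
      Cfsg.unitaryTransvection n q r d * Cfsg.unitaryTransvection n q p c := by
  have h' : hh r p = 0 := by
    rw [herm_conj hF p r, h, zero_pow (by have := two_le_q hF; omega)]
  apply mat_ext
  intro x
  rw [← mulVec_mulVec, ← mulVec_mulVec, unitaryT_mulVec, unitaryT_mulVec, unitaryT_mulVec, unitaryT_mulVec,
    herm_add_left, herm_add_left, herm_smul_left, herm_smul_left, h, h', mul_zero, mul_zero, add_zero, add_zero]
  abel

theorem rootU_commutator_bot (hF : Fintype.card F = q ^ 2) {p r : Fin n → F} (hp : hh p p = 0) (hr : hh r r = 0)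
    (h : hh p r = 0) : ⁅rootU hF p hp, rootU hF r hr⁆ = ⊥ := by
  apply commutator_eq_bot_of_comm
  rintro a ⟨c, -, hca⟩ b ⟨d, -, hdb⟩
  apply su_ext'
  show a.1.1 * b.1.1 = b.1.1 * a.1.1
  rw [hca, hdb, ut_commute hF h]

theorem rootU_smul (hF : Fintype.card F = q ^ 2) {r : Fin n → F} (hr : hh r r = 0) {t : F} (ht : t ≠ 0)
    (hr' : hh (t • r) (t • r) = 0) : rootU hF (t • r) hr' = rootU hF r hr := by
  have hq := two_le_q hF
  have ht' : t ^ q ≠ 0 := pow_ne_zero _ ht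
  have key : ∀ c, Cfsg.unitaryTransvection n q (t • r) c = Cfsg.unitaryTransvection n q r (c * t ^ q * t) := by
    intro c
    apply mat_ext
    intro x
    rw [unitaryT_mulVec, unitaryT_mulVec, herm_smul_right, smul_smul]
    congr 2
    ring
  have hfix : (t ^ q * t) ^ q = t ^ q * t := by
    rw [mul_pow, pow_q_pow_q hF]
    ring
  ext g
  constructor
  · rintro ⟨c, hc, hg⟩
    refine ⟨c * t ^ q * t, ?_, by rw [hg, key]⟩
    rw [mul_assoc, mul_pow, hfix]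
    linear_combination (t ^ q * t) * hc
  · rintro ⟨c, hc, hg⟩
    refine ⟨c * (t ^ q * t)⁻¹, ?_, ?_⟩
    · rw [mul_pow, inv_pow, hfix]
      linear_combination (t ^ q * t)⁻¹ * hc
    · rw [hg, key]
      congr 1
      field_simp

section rank

variable {K : Type*} [Field K] (ι : K →+* F)

local notation "SL2F" => Matrix.SpecialLinearGroup (Fin 2) F
local notation "SL2K" => Matrix.SpecialLinearGroup (Fin 2) K

theorem hPu (hF : Fintype.card F = q ^ 2) {p r : Fin n → F} {ε : F} (hp : hh p p = 0) (hr : hh r r = 0)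
    (hε : ε ≠ 0) (hε2 : ε ^ q = -ε) (hpr : hh p r = ε) :
    pMat (ε⁻¹ • cj q r) ((-ε⁻¹) • cj q p) * eMat p r = 1 := by
  apply pMat_mul_eMat
  · rw [smul_dotProduct, cj_dot, hpr, smul_eq_mul, inv_mul_cancel₀ hε]
  · rw [smul_dotProduct, cj_dot, hr, smul_zero]
  · rw [smul_dotProduct, cj_dot, hp, smul_zero]
  · rw [smul_dotProduct, cj_dot, herm_conj hF p r, hpr, hε2, smul_eq_mul]
    field_simp

theorem tvMat_u_mulVec (hF : Fintype.card F = q ^ 2) {p r : Fin n → F} {ε : F} (hp : hh p p = 0) (hr : hh r r = 0)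
    (hε : ε ≠ 0) (hε2 : ε ^ q = -ε) (hpr : hh p r = ε) (X : SL2F) (u : Fin n → F) :
    tvMat _ _ (hPu hF hp hr hε hε2 hpr) X *ᵥ u = u +
      (((X.1 0 0 - 1) * (ε⁻¹ * hh u r) + X.1 0 1 * (-ε⁻¹ * hh u p)) • p +
       (X.1 1 0 * (ε⁻¹ * hh u r) + (X.1 1 1 - 1) * (-ε⁻¹ * hh u p)) • r) := by
  rw [tvMat_apply, eMat_mul_pMat, add_mulVec, one_mulVec]
  simp only [add_mulVec, smul_mulVec, vecMulVec_mulVec, smul_dotProduct, cj_dot, Matrix.sub_apply]
  have e1 : (1 : Matrix (Fin 2) (Fin 2) F) 0 0 = 1 := by simp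
  have e2 : (1 : Matrix (Fin 2) (Fin 2) F) 0 1 = 0 := by simp
  have e3 : (1 : Matrix (Fin 2) (Fin 2) F) 1 0 = 0 := by simp
  have e4 : (1 : Matrix (Fin 2) (Fin 2) F) 1 1 = 1 := by simp
  rw [e1, e2, e3, e4]
  simp only [sub_zero]
  congr 1
  ext i
  simp only [Pi.add_apply, Pi.smul_apply, smul_eq_mul, op_smul_eq_smul, MulOpposite.smul_eq_mul_unop,
    MulOpposite.unop_op]
  ring

theorem tvMat_u_form (hF : Fintype.card F = q ^ 2) {p r : Fin n → F} {ε : F} (hp : hh p p = 0) (hr : hh r r = 0)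
    (hε : ε ≠ 0) (hε2 : ε ^ q = -ε) (hpr : hh p r = ε) (X : SL2F) (hX : ∀ i j, X.1 i j ^ q = X.1 i j)
    (u v : Fin n → F) :
    hh (tvMat _ _ (hPu hF hp hr hε hε2 hpr) X *ᵥ u) (tvMat _ _ (hPu hF hp hr hε hε2 hpr) X *ᵥ v) = hh u v := by
  rw [tvMat_u_mulVec hF hp hr hε hε2 hpr, tvMat_u_mulVec hF hp hr hε hε2 hpr]
  have hdet : X.1 0 0 * X.1 1 1 - X.1 0 1 * X.1 1 0 = 1 := sl2_det X
  have hq := two_le_q hF
  have he : (ε⁻¹) ^ q = -ε⁻¹ := by
    rw [inv_pow, hε2, inv_neg]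
  have hne : (-ε⁻¹) ^ q = ε⁻¹ := by
    rw [neg_pow_q hF, he, neg_neg]
  have hone : (1 : F) ^ q = 1 := one_pow _
  have hrp : hh r p = -ε := by rw [herm_conj hF p r, hpr, hε2]
  have hc1 := herm_conj hF v r
  have hc2 := herm_conj hF v p
  have hc3 := herm_conj hF u r
  have hc4 := herm_conj hF u p
  simp only [herm_add_left, herm_add_right hF, herm_smul_left, herm_smul_right, hp, hr, hpr, hrp, add_pow_q hF,
    sub_pow_q hF, mul_pow, hX, he, hne, hone]
  simp only [← hc1, ← hc2]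
  generalize hh u r = a
  generalize hh u p = b
  generalize hh r v = A
  generalize hh p v = B
  generalize hh u v = w
  have hεe : ε * ε⁻¹ = 1 := mul_inv_cancel₀ hε
  generalize ε⁻¹ = e at *
  linear_combination (e * (a * B - b * A)) * hdet +
    (e * (a * B - b * A) * ((X.1 0 0 - 1) * (X.1 1 1 - 1) - X.1 0 1 * X.1 1 0)) * hεe

/-- The embedding of `SL₂(K)`. -/
noncomputable def uHom (hF : Fintype.card F = q ^ 2) {p r : Fin n → F} {ε : F} (hp : hh p p = 0) (hr : hh r r = 0)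
    (hε : ε ≠ 0) (hε2 : ε ^ q = -ε) (hpr : hh p r = ε) (hι : ∀ x, ι x ^ q = ι x) : SL2K →* Cfsg.SU n F q where
  toFun X := ⟨⟨tvMat _ _ (hPu hF hp hr hε hε2 hpr) (Matrix.SpecialLinearGroup.map ι X), tvMat_det _ _ _ _⟩, fun u v =>
    tvMat_u_form hF hp hr hε hε2 hpr _ (fun i j => hι (X.1 i j)) u v⟩
  map_one' := by
    apply su_ext'
    show tvMat _ _ _ (Matrix.SpecialLinearGroup.map ι 1) = 1
    rw [map_one, map_one]
  map_mul' X Y := by
    apply su_ext'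
    show tvMat _ _ _ (Matrix.SpecialLinearGroup.map ι (X * Y)) = _
    rw [map_mul, map_mul]
    rfl

theorem uHom_coe (hF : Fintype.card F = q ^ 2) {p r : Fin n → F} {ε : F} (hp : hh p p = 0) (hr : hh r r = 0)
    (hε : ε ≠ 0) (hε2 : ε ^ q = -ε) (hpr : hh p r = ε) (hι : ∀ x, ι x ^ q = ι x) (X : SL2K) :
    (uHom ι hF hp hr hε hε2 hpr hι X).1.1 = tvMat _ _ (hPu hF hp hr hε hε2 hpr) (Matrix.SpecialLinearGroup.map ι X) := rfl

theorem uHom_inj (hF : Fintype.card F = q ^ 2) {p r : Fin n → F} {ε : F} (hp : hh p p = 0) (hr : hh r r = 0)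
    (hε : ε ≠ 0) (hε2 : ε ^ q = -ε) (hpr : hh p r = ε) (hι : ∀ x, ι x ^ q = ι x) :
    Function.Injective (uHom ι hF hp hr hε hε2 hpr hι) := by
  intro X Y hXY
  have h1 : tvMat _ _ (hPu hF hp hr hε hε2 hpr) (Matrix.SpecialLinearGroup.map ι X) =
      tvMat _ _ (hPu hF hp hr hε hε2 hpr) (Matrix.SpecialLinearGroup.map ι Y) :=
    congrArg (fun a : Cfsg.SU n F q => a.1.1) hXY
  have h2 := tvMat_inj _ _ _ h1
  apply Subtype.ext
  ext i j
  have h3 : ι (X.1 i j) = ι (Y.1 i j) := by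
    have := congrFun (congrFun (congrArg Subtype.val h2) i) j
    simpa using this
  exact ι.injective h3

theorem map_bU' (y : K) : Matrix.SpecialLinearGroup.map ι (bU y) = bU (ι y) := by
  apply Subtype.ext
  ext i j
  show ι ((bU y).1 i j) = (bU (ι y)).1 i j
  fin_cases i <;> fin_cases j <;> simp [bU]

theorem map_aL' (y : K) : Matrix.SpecialLinearGroup.map ι (aL y) = aL (ι y) := by
  apply Subtype.ext
  ext i j
  show ι ((aL y).1 i j) = (aL (ι y)).1 i j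
  fin_cases i <;> fin_cases j <;> simp [aL]

theorem uHom_bU (hF : Fintype.card F = q ^ 2) {p r : Fin n → F} {ε : F} (hp : hh p p = 0) (hr : hh r r = 0)
    (hε : ε ≠ 0) (hε2 : ε ^ q = -ε) (hpr : hh p r = ε) (hι : ∀ x, ι x ^ q = ι x) (y : K) :
    (uHom ι hF hp hr hε hε2 hpr hι (bU y)).1.1 = Cfsg.unitaryTransvection n q p (ι y * -ε⁻¹) := by
  rw [uHom_coe, map_bU', tvMat_bU, vmv_smul_right, smul_smul]
  rfl

theorem uHom_aL (hF : Fintype.card F = q ^ 2) {p r : Fin n → F} {ε : F} (hp : hh p p = 0) (hr : hh r r = 0)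
    (hε : ε ≠ 0) (hε2 : ε ^ q = -ε) (hpr : hh p r = ε) (hι : ∀ x, ι x ^ q = ι x) (y : K) :
    (uHom ι hF hp hr hε hε2 hpr hι (aL y)).1.1 = Cfsg.unitaryTransvection n q r (ι y * ε⁻¹) := by
  rw [uHom_coe, map_aL', tvMat_aL, vmv_smul_right, smul_smul]
  rfl

theorem skew_of_fixed (hF : Fintype.card F = q ^ 2) {ε : F} (hε2 : ε ^ q = -ε) {x : F} (hx : x ^ q = x) :
    (x * ε) + (x * ε) ^ q = 0 := by
  rw [mul_pow, hx, hε2]
  ring

theorem inv_skew {ε : F} (hε2 : ε ^ q = -ε) : (ε⁻¹) ^ q = -ε⁻¹ := by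
  rw [inv_pow, hε2, inv_neg]

theorem uHom_upper (hF : Fintype.card F = q ^ 2) {p r : Fin n → F} {ε : F} (hp : hh p p = 0) (hr : hh r r = 0)
    (hε : ε ≠ 0) (hε2 : ε ^ q = -ε) (hpr : hh p r = ε) (hι : ∀ x, ι x ^ q = ι x)
    (hι2 : ∀ y : F, y ^ q = y → ∃ x, ι x = y) :
    (Cfsg.upperUnipotentSL2 K).map (uHom ι hF hp hr hε hε2 hpr hι) = rootU hF p hp := by
  ext t
  constructor
  · rintro ⟨X, hX, rfl⟩
    rw [eq_bU hX]
    refine ⟨ι (X.1 0 1) * -ε⁻¹, ?_, uHom_bU ι hF hp hr hε hε2 hpr hι _⟩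
    rw [mul_pow, hι, neg_pow_q hF, inv_skew hε2]
    ring
  · rintro ⟨c, hc, ht⟩
    have hfix : (-(c * ε)) ^ q = -(c * ε) := by
      rw [neg_pow_q hF, mul_pow, hε2]
      linear_combination ε * hc
    obtain ⟨y, hy⟩ := hι2 _ hfix
    refine ⟨bU y, bU_mem y, ?_⟩
    apply su_ext'
    show (uHom ι hF hp hr hε hε2 hpr hι (bU y)).1.1 = _
    rw [uHom_bU, ht, hy]
    congr 1
    field_simp

theorem uHom_lower (hF : Fintype.card F = q ^ 2) {p r : Fin n → F} {ε : F} (hp : hh p p = 0) (hr : hh r r = 0)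
    (hε : ε ≠ 0) (hε2 : ε ^ q = -ε) (hpr : hh p r = ε) (hι : ∀ x, ι x ^ q = ι x)
    (hι2 : ∀ y : F, y ^ q = y → ∃ x, ι x = y) :
    (Cfsg.lowerUnipotentSL2 K).map (uHom ι hF hp hr hε hε2 hpr hι) = rootU hF r hr := by
  ext t
  constructor
  · rintro ⟨X, hX, rfl⟩
    rw [eq_aL hX]
    refine ⟨ι (X.1 1 0) * ε⁻¹, ?_, uHom_aL ι hF hp hr hε hε2 hpr hι _⟩
    rw [mul_pow, hι, inv_skew hε2]
    ring
  · rintro ⟨c, hc, ht⟩
    have hfix : (c * ε) ^ q = c * ε := by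
      rw [mul_pow, hε2]
      linear_combination -ε * hc
    obtain ⟨y, hy⟩ := hι2 _ hfix
    refine ⟨aL y, aL_mem y, ?_⟩
    apply su_ext'
    show (uHom ι hF hp hr hε hε2 hpr hι (aL y)).1.1 = _
    rw [uHom_aL, ht, hy]
    congr 1
    field_simp

end rank

/-- The fixed field data. -/
theorem exists_fixed_field (hF : Fintype.card F = q ^ 2) :
    ∃ (K : Type) (_ : Field K) (_ : Fintype K) (ι : K →+* F), Fintype.card K = q ∧ (∀ x, ι x ^ q = ι x) ∧
      ∀ y : F, y ^ q = y → ∃ x, ι x = y := by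
  classical
  obtain ⟨K, iK, iF, hK⟩ := exists_field_sqrt hF
  obtain ⟨ι⟩ := exists_embed (K := K) hF hK
  refine ⟨K, iK, iF, ι, hK, ?_, ?_⟩
  · intro x
    rw [← map_pow, ← hK, FiniteField.pow_card]
  · intro y hy
    have h2 := two_le_q hF
    have hSc : (Finset.univ.filter fun x : F => x ^ q = x).card ≤ q := by
      have hne : (Polynomial.X ^ q - Polynomial.X : Polynomial F) ≠ 0 :=
        FiniteField.X_pow_card_sub_X_ne_zero F (by omega)
      have hdeg : (Polynomial.X ^ q - Polynomial.X : Polynomial F).natDegree = q :=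
        FiniteField.X_pow_card_sub_X_natDegree_eq F (by omega)
      have h5 : (Finset.univ.filter fun x : F => x ^ q = x).card ≤ (Polynomial.X ^ q - Polynomial.X : Polynomial F).natDegree := by
        apply Polynomial.card_le_degree_of_subset_roots
        intro x hx
        have hx' : x ^ q = x := by simpa using hx
        rw [Polynomial.mem_roots hne]
        simp [sub_eq_zero, hx']
      rwa [hdeg] at h5
    have hsub : Finset.univ.image ι ⊆ Finset.univ.filter fun x : F => x ^ q = x := by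
      intro x hx
      obtain ⟨a, -, rfl⟩ := Finset.mem_image.mp hx
      refine Finset.mem_filter.mpr ⟨Finset.mem_univ _, ?_⟩
      rw [← map_pow, ← hK, FiniteField.pow_card]
    have hc : (Finset.univ.image ι).card = q := by
      rw [Finset.card_image_of_injective _ ι.injective, Finset.card_univ, hK]
    have heq := Finset.eq_of_subset_of_card_le hsub (by rw [hc]; exact hSc)
    have hy' : y ∈ Finset.univ.image ι := by
      rw [heq]
      exact Finset.mem_filter.mpr ⟨Finset.mem_univ _, hy⟩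
    obtain ⟨a, -, ha⟩ := Finset.mem_image.mp hy'
    exact ⟨a, ha⟩

theorem rootU_data (hF : Fintype.card F = q ^ 2) {K : Type*} [Field K] (ι : K →+* F) (hι : ∀ x, ι x ^ q = ι x)
    (hι2 : ∀ y : F, y ^ q = y → ∃ x, ι x = y) {p r : Fin n → F} (hp : hh p p = 0) (hr : hh r r = 0)
    (h : hh p r ≠ 0) :
    ∃ Φ : Matrix.SpecialLinearGroup (Fin 2) K →* Cfsg.SU n F q, Function.Injective Φ ∧
      (Cfsg.upperUnipotentSL2 K).map Φ = rootU hF p hp ∧ (Cfsg.lowerUnipotentSL2 K).map Φ = rootU hF r hr := by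
  obtain ⟨ε, hε, hε2⟩ := exists_skew hF
  set d := hh p r with hd
  set t := (ε / d) ^ q with ht
  have ht0 : t ≠ 0 := pow_ne_zero _ (div_ne_zero hε h)
  have htq : t ^ q = ε / d := pow_q_pow_q hF _
  have hr' : hh (t • r) (t • r) = 0 := by
    rw [herm_smul_left, herm_smul_right, hr, mul_zero, mul_zero]
  have hpr : hh p (t • r) = ε := by
    rw [herm_smul_right, htq, ← hd]
    field_simp
  refine ⟨uHom ι hF hp hr' hε hε2 hpr hι, uHom_inj ι hF hp hr' hε hε2 hpr hι,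
    uHom_upper ι hF hp hr' hε hε2 hpr hι hι2, ?_⟩
  rw [uHom_lower ι hF hp hr' hε hε2 hpr hι hι2, rootU_smul hF hr ht0]

theorem rootU_rankOne (hF : Fintype.card F = q ^ 2) {p r : Fin n → F} (hp : hh p p = 0) (hr : hh r r = 0)
    (h : hh p r ≠ 0) : Cfsg.IsRankOnePair (rootU hF p hp) (rootU hF r hr) := by
  obtain ⟨K, iK, iF, ι, -, hι, hι2⟩ := exists_fixed_field hF
  obtain ⟨Φ, hinj, hU, hL⟩ := rootU_data hF ι hι hι2 hp hr h
  rw [← hU, ← hL]
  exact rankOne_map Φ hinj isRankOnePair_lower_upper.symm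

theorem rootU_psl2 (hF : Fintype.card F = q ^ 2) {K : Type*} [Field K] (ι : K →+* F) (hι : ∀ x, ι x ^ q = ι x)
    (hι2 : ∀ y : F, y ^ q = y → ∃ x, ι x = y) {p r : Fin n → F} (hp : hh p p = 0) (hr : hh r r = 0)
    (h : hh p r ≠ 0) : Cfsg.IsPSL2PairOver K (rootU hF p hp) (rootU hF r hr) := by
  obtain ⟨Φ, hinj, hU, hL⟩ := rootU_data hF ι hι hι2 hp hr h
  rw [← hU, ← hL]
  apply psl2_of_hom
  rw [(MonoidHom.ker_eq_bot_iff Φ).mpr hinj]
  exact bot_le

/-- The bridge vector. -/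
theorem exists_bridge_u (hF : Fintype.card F = q ^ 2) {p s : Fin n → F} (hp0 : p ≠ 0) (hs0 : s ≠ 0) (hp : hh p p = 0)
    (hps : hh p s = 0) : ∃ r, hh r r = 0 ∧ hh p r ≠ 0 ∧ hh r s ≠ 0 := by
  have hq := two_le_q hF
  obtain ⟨x₁, h₁⟩ : ∃ x, hh p x ≠ 0 := by
    by_contra hcon
    push Not at hcon
    exact hp0 (herm_nondeg_right hF hcon)
  obtain ⟨x₂, h₂⟩ : ∃ x, hh x s ≠ 0 := by
    obtain ⟨x, hx⟩ := exists_left_one (q := q) hF hs0
    exact ⟨x, by rw [hx]; exact one_ne_zero⟩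
  obtain ⟨x, hx1, hx2⟩ : ∃ x, hh p x ≠ 0 ∧ hh x s ≠ 0 := by
    by_cases h3 : hh x₁ s = 0
    · by_cases h4 : hh p x₂ = 0
      · refine ⟨x₁ + x₂, ?_, ?_⟩
        · rw [herm_add_right hF, h4, add_zero]
          exact h₁
        · rw [herm_add_left, h3, zero_add]
          exact h₂
      · exact ⟨x₂, h4, h₂⟩
    · exact ⟨x₁, h₁, h3⟩
  -- the correction
  have hfix : frobQ hF (-hh x x) = -hh x x := by
    rw [map_neg, frobQ_apply, herm_conj hF x x |>.symm]
  obtain ⟨κ, hκ⟩ := exists_trace_eq (frobQ hF) (frobQ_ne_id hF) (frobQ_frobQ hF) _ hfix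
  rw [frobQ_apply] at hκ
  set t := κ / hh p x with ht
  have hxp : hh x p = (hh p x) ^ q := herm_conj hF p x
  have htq : t ^ q * hh x p = κ ^ q := by
    rw [ht, div_pow, hxp]
    field_simp
  have htt : t * hh p x = κ := by
    rw [ht]
    field_simp
  refine ⟨x + t • p, ?_, ?_, ?_⟩
  · simp only [herm_add_left, herm_add_right hF, herm_smul_left, herm_smul_right, hp, mul_zero, add_zero]
    linear_combination hκ + htq + htt
  · rw [herm_add_right hF, herm_smul_right, hp, mul_zero, add_zero]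
    exact hx1
  · rw [herm_add_left, herm_smul_left, hps, mul_zero, add_zero]
    exact hx2

/-- The class in normal form. -/
def sigU (hF : Fintype.card F = q ^ 2) (n : ℕ) : Set (Subgroup (Cfsg.SU n F q)) :=
  {A | ∃ (p : Fin n → F) (_ : p ≠ 0) (hp : Cfsg.hermForm n F q p p = 0), A = rootU hF p hp}

theorem sig_eq (hF : Fintype.card F = q ^ 2) :
    {A : Subgroup ↥(Cfsg.SU n F q) | ∃ p : Fin n → F, p ≠ 0 ∧ Cfsg.hermForm n F q p p = 0 ∧
          A = Subgroup.closure {g : ↥(Cfsg.SU n F q) |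
            (∀ v : Fin n → F, ∃ c : F, ((g : Matrix.SpecialLinearGroup (Fin n) F) : Matrix (Fin n) (Fin n) F) *ᵥ v = v + c • p) ∧
            ∀ v : Fin n → F, Cfsg.hermForm n F q v p = 0 →
              ((g : Matrix.SpecialLinearGroup (Fin n) F) : Matrix (Fin n) (Fin n) F) *ᵥ v = v}} = sigU hF n := by
  ext A
  constructor
  · rintro ⟨p, hp0, hp, rfl⟩
    exact ⟨p, hp0, hp, closure_eq hF hp0 hp⟩
  · rintro ⟨p, hp0, hp, rfl⟩
    exact ⟨p, hp0, hp, (closure_eq hF hp0 hp).symm⟩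

theorem sigU_pair (hF : Fintype.card F = q ^ 2) : ∀ A ∈ sigU hF n, ∀ B ∈ sigU hF n,
    ⁅A, B⁆ = ⊥ ∨ Cfsg.IsRankOnePair A B ∨ Cfsg.RootCommutatorCase (sigU hF n) A B := by
  rintro A ⟨p, hp0, hp, rfl⟩ B ⟨r, hr0, hr, rfl⟩
  by_cases h : hh p r = 0
  · exact Or.inl (rootU_commutator_bot hF hp hr h)
  · exact Or.inr (Or.inl (rootU_rankOne hF hp hr h))

theorem subU_root (hF : Fintype.card F = q ^ 2) : Cfsg.IsRootSubgroupSet (subFam (sigU hF n)) := by
  apply subFam_root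
  · rintro A ⟨p, hp0, hp, rfl⟩
    exact ⟨⟨fun x y => Subtype.ext (rootU_comm x.2 y.2)⟩⟩
  · rintro A ⟨p, hp0, hp, rfl⟩
    exact rootU_ne_bot hF hp0 hp
  · rintro A ⟨p, hp0, hp, rfl⟩ g -
    refine ⟨g.1.1 *ᵥ p, ?_, su_form_mulVec g hp, rootU_conj hF g hp⟩
    intro h0
    apply hp0
    have := su_inv_mulVec g p
    rw [h0, mulVec_zero] at this
    exact this.symm
  · exact sigU_pair hF

theorem sigU_conn (hF : Fintype.card F = q ^ 2) : Cfsg.IsConnectedFamily (Cfsg.FAdj (sigU hF n)) (sigU hF n) := by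
  rintro A ⟨p, hp0, hp, rfl⟩ B ⟨s, hs0, hs, rfl⟩
  by_cases h : hh p s = 0
  · obtain ⟨r, hr, h1, h2⟩ := exists_bridge_u hF hp0 hs0 hp h
    have hr0 : r ≠ 0 := by
      rintro rfl
      apply h2
      have : (0 : Fin n → F) = (0 : F) • (0 : Fin n → F) := by simp
      rw [this, herm_smul_left, zero_mul]
    exact (Relation.ReflTransGen.single ⟨⟨p, hp0, hp, rfl⟩, ⟨r, hr0, hr, rfl⟩, rootU_rankOne hF hp hr h1⟩).trans
      (Relation.ReflTransGen.single ⟨⟨r, hr0, hr, rfl⟩, ⟨s, hs0, hs, rfl⟩, rootU_rankOne hF hr hs h2⟩)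
  · exact Relation.ReflTransGen.single ⟨⟨p, hp0, hp, rfl⟩, ⟨s, hs0, hs, rfl⟩, rootU_rankOne hF hp hs h⟩

/-- An isotropic vector. -/
theorem exists_isotropic (hF : Fintype.card F = q ^ 2) (n : ℕ) :
    ∃ p : Fin (n + 2) → F, p ≠ 0 ∧ Cfsg.hermForm (n + 2) F q p p = 0 := by
  have hq := two_le_q hF
  have hcard := Cfsg.Agent.S0754.result hF (-1) (by simp) (by
    rw [neg_pow_q hF, one_pow])
  have hpos : 0 < Nat.card {x : F // x ^ (q + 1) = -1} := by rw [hcard]; omega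
  obtain ⟨⟨a, ha⟩⟩ := (Nat.card_pos_iff.1 hpos).1
  refine ⟨Pi.single 0 1 + a • Pi.single 1 1, ?_, ?_⟩
  · intro h0
    have := congrFun h0 0
    simp [Pi.single_apply] at this
  · simp only [herm_add_left, herm_add_right hF, herm_smul_left, herm_smul_right,
      herm_right_single _ _ (show q ≠ 0 by omega)]
    have h01 : (1 : Fin (n + 2)) ≠ 0 := by simp [Fin.ext_iff]
    simp [h01, h01.symm, Pi.single_apply, add_comm, add_left_comm, add_assoc]
    rw [pow_succ] at ha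
    linear_combination ha

/-- Let F be a finite field with q² elements, n a natural number, and h the Hermitian form Σ uᵢ vᵢ^q on F^{n+2}. For a non-zero isotropic vector p let T(p) be the group of unitary transvections with centre ⟨p⟩: the elements of SU_{n+2}(q) moving every vector by a multiple of p and fixing every vector perpendicular to p. Let Σ be the set of these T(p) and G₀ the subgroup they generate. Then, viewed inside G₀, the members of Σ form a degenerate class of abstract k-root subgroups of G₀ for some field k with q elements (any two commute or are the unipotent subgroups of a rank one group that is an image of SL₂(k) with central kernel, never the commutator case), and their graph of rank one pairs is connected. -/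
theorem result (F : Type*) [Field F] [Fintype F] (q n : ℕ) (hF : Fintype.card F = q ^ 2) :
    Cfsg.IsRootSubgroupClass ((fun A : Subgroup ↥(Cfsg.SU (n + 2) F q) => A.subgroupOf (⨆ B ∈ {A : Subgroup ↥(Cfsg.SU (n + 2) F q) | ∃ p : Fin (n + 2) → F, p ≠ 0 ∧ Cfsg.hermForm (n + 2) F q p p = 0 ∧
          A = Subgroup.closure {g : ↥(Cfsg.SU (n + 2) F q) |
            (∀ v : Fin (n + 2) → F, ∃ c : F, ((g : Matrix.SpecialLinearGroup (Fin (n + 2)) F) : Matrix (Fin (n + 2)) (Fin (n + 2)) F) *ᵥ v = v + c • p) ∧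
            ∀ v : Fin (n + 2) → F, Cfsg.hermForm (n + 2) F q v p = 0 →
              ((g : Matrix.SpecialLinearGroup (Fin (n + 2)) F) : Matrix (Fin (n + 2)) (Fin (n + 2)) F) *ᵥ v = v}}, B)) ''
      {A : Subgroup ↥(Cfsg.SU (n + 2) F q) | ∃ p : Fin (n + 2) → F, p ≠ 0 ∧ Cfsg.hermForm (n + 2) F q p p = 0 ∧
          A = Subgroup.closure {g : ↥(Cfsg.SU (n + 2) F q) |
            (∀ v : Fin (n + 2) → F, ∃ c : F, ((g : Matrix.SpecialLinearGroup (Fin (n + 2)) F) : Matrix (Fin (n + 2)) (Fin (n + 2)) F) *ᵥ v = v + c • p) ∧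
            ∀ v : Fin (n + 2) → F, Cfsg.hermForm (n + 2) F q v p = 0 →
              ((g : Matrix.SpecialLinearGroup (Fin (n + 2)) F) : Matrix (Fin (n + 2)) (Fin (n + 2)) F) *ᵥ v = v}}) ∧
    Cfsg.IsDegenerateRootSet ((fun A : Subgroup ↥(Cfsg.SU (n + 2) F q) => A.subgroupOf (⨆ B ∈ {A : Subgroup ↥(Cfsg.SU (n + 2) F q) | ∃ p : Fin (n + 2) → F, p ≠ 0 ∧ Cfsg.hermForm (n + 2) F q p p = 0 ∧
          A = Subgroup.closure {g : ↥(Cfsg.SU (n + 2) F q) |
            (∀ v : Fin (n + 2) → F, ∃ c : F, ((g : Matrix.SpecialLinearGroup (Fin (n + 2)) F) : Matrix (Fin (n + 2)) (Fin (n + 2)) F) *ᵥ v = v + c • p) ∧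
            ∀ v : Fin (n + 2) → F, Cfsg.hermForm (n + 2) F q v p = 0 →
              ((g : Matrix.SpecialLinearGroup (Fin (n + 2)) F) : Matrix (Fin (n + 2)) (Fin (n + 2)) F) *ᵥ v = v}}, B)) ''
      {A : Subgroup ↥(Cfsg.SU (n + 2) F q) | ∃ p : Fin (n + 2) → F, p ≠ 0 ∧ Cfsg.hermForm (n + 2) F q p p = 0 ∧
          A = Subgroup.closure {g : ↥(Cfsg.SU (n + 2) F q) |
            (∀ v : Fin (n + 2) → F, ∃ c : F, ((g : Matrix.SpecialLinearGroup (Fin (n + 2)) F) : Matrix (Fin (n + 2)) (Fin (n + 2)) F) *ᵥ v = v + c • p) ∧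
            ∀ v : Fin (n + 2) → F, Cfsg.hermForm (n + 2) F q v p = 0 →
              ((g : Matrix.SpecialLinearGroup (Fin (n + 2)) F) : Matrix (Fin (n + 2)) (Fin (n + 2)) F) *ᵥ v = v}}) ∧
    (∃ (L : Type) (_ : Field L) (_ : Fintype L), Fintype.card L = q ∧ Cfsg.IsKRootSubgroupSet L ((fun A : Subgroup ↥(Cfsg.SU (n + 2) F q) => A.subgroupOf (⨆ B ∈ {A : Subgroup ↥(Cfsg.SU (n + 2) F q) | ∃ p : Fin (n + 2) → F, p ≠ 0 ∧ Cfsg.hermForm (n + 2) F q p p = 0 ∧
          A = Subgroup.closure {g : ↥(Cfsg.SU (n + 2) F q) |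
            (∀ v : Fin (n + 2) → F, ∃ c : F, ((g : Matrix.SpecialLinearGroup (Fin (n + 2)) F) : Matrix (Fin (n + 2)) (Fin (n + 2)) F) *ᵥ v = v + c • p) ∧
            ∀ v : Fin (n + 2) → F, Cfsg.hermForm (n + 2) F q v p = 0 →
              ((g : Matrix.SpecialLinearGroup (Fin (n + 2)) F) : Matrix (Fin (n + 2)) (Fin (n + 2)) F) *ᵥ v = v}}, B)) ''
      {A : Subgroup ↥(Cfsg.SU (n + 2) F q) | ∃ p : Fin (n + 2) → F, p ≠ 0 ∧ Cfsg.hermForm (n + 2) F q p p = 0 ∧
          A = Subgroup.closure {g : ↥(Cfsg.SU (n + 2) F q) |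
            (∀ v : Fin (n + 2) → F, ∃ c : F, ((g : Matrix.SpecialLinearGroup (Fin (n + 2)) F) : Matrix (Fin (n + 2)) (Fin (n + 2)) F) *ᵥ v = v + c • p) ∧
            ∀ v : Fin (n + 2) → F, Cfsg.hermForm (n + 2) F q v p = 0 →
              ((g : Matrix.SpecialLinearGroup (Fin (n + 2)) F) : Matrix (Fin (n + 2)) (Fin (n + 2)) F) *ᵥ v = v}})) ∧
    Cfsg.IsConnectedFamily (Cfsg.FAdj ((fun A : Subgroup ↥(Cfsg.SU (n + 2) F q) => A.subgroupOf (⨆ B ∈ {A : Subgroup ↥(Cfsg.SU (n + 2) F q) | ∃ p : Fin (n + 2) → F, p ≠ 0 ∧ Cfsg.hermForm (n + 2) F q p p = 0 ∧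
          A = Subgroup.closure {g : ↥(Cfsg.SU (n + 2) F q) |
            (∀ v : Fin (n + 2) → F, ∃ c : F, ((g : Matrix.SpecialLinearGroup (Fin (n + 2)) F) : Matrix (Fin (n + 2)) (Fin (n + 2)) F) *ᵥ v = v + c • p) ∧
            ∀ v : Fin (n + 2) → F, Cfsg.hermForm (n + 2) F q v p = 0 →
              ((g : Matrix.SpecialLinearGroup (Fin (n + 2)) F) : Matrix (Fin (n + 2)) (Fin (n + 2)) F) *ᵥ v = v}}, B)) ''
      {A : Subgroup ↥(Cfsg.SU (n + 2) F q) | ∃ p : Fin (n + 2) → F, p ≠ 0 ∧ Cfsg.hermForm (n + 2) F q p p = 0 ∧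
          A = Subgroup.closure {g : ↥(Cfsg.SU (n + 2) F q) |
            (∀ v : Fin (n + 2) → F, ∃ c : F, ((g : Matrix.SpecialLinearGroup (Fin (n + 2)) F) : Matrix (Fin (n + 2)) (Fin (n + 2)) F) *ᵥ v = v + c • p) ∧
            ∀ v : Fin (n + 2) → F, Cfsg.hermForm (n + 2) F q v p = 0 →
              ((g : Matrix.SpecialLinearGroup (Fin (n + 2)) F) : Matrix (Fin (n + 2)) (Fin (n + 2)) F) *ᵥ v = v}})) ((fun A : Subgroup ↥(Cfsg.SU (n + 2) F q) => A.subgroupOf (⨆ B ∈ {A : Subgroup ↥(Cfsg.SU (n + 2) F q) | ∃ p : Fin (n + 2) → F, p ≠ 0 ∧ Cfsg.hermForm (n + 2) F q p p = 0 ∧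
          A = Subgroup.closure {g : ↥(Cfsg.SU (n + 2) F q) |
            (∀ v : Fin (n + 2) → F, ∃ c : F, ((g : Matrix.SpecialLinearGroup (Fin (n + 2)) F) : Matrix (Fin (n + 2)) (Fin (n + 2)) F) *ᵥ v = v + c • p) ∧
            ∀ v : Fin (n + 2) → F, Cfsg.hermForm (n + 2) F q v p = 0 →
              ((g : Matrix.SpecialLinearGroup (Fin (n + 2)) F) : Matrix (Fin (n + 2)) (Fin (n + 2)) F) *ᵥ v = v}}, B)) ''
      {A : Subgroup ↥(Cfsg.SU (n + 2) F q) | ∃ p : Fin (n + 2) → F, p ≠ 0 ∧ Cfsg.hermForm (n + 2) F q p p = 0 ∧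
          A = Subgroup.closure {g : ↥(Cfsg.SU (n + 2) F q) |
            (∀ v : Fin (n + 2) → F, ∃ c : F, ((g : Matrix.SpecialLinearGroup (Fin (n + 2)) F) : Matrix (Fin (n + 2)) (Fin (n + 2)) F) *ᵥ v = v + c • p) ∧
            ∀ v : Fin (n + 2) → F, Cfsg.hermForm (n + 2) F q v p = 0 →
              ((g : Matrix.SpecialLinearGroup (Fin (n + 2)) F) : Matrix (Fin (n + 2)) (Fin (n + 2)) F) *ᵥ v = v}}) := by
  rw [sig_eq hF]
  have hR : Cfsg.IsRootSubgroupSet (subFam (sigU (n := n + 2) hF)) := subU_root hF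
  have hC := subFam_conn (sigU_conn (n := n + 2) hF)
  obtain ⟨p, hp0, hp⟩ := exists_isotropic hF n
  obtain ⟨r, hr, h1, -⟩ := exists_bridge_u hF hp0 hp0 hp hp
  have hr0 : r ≠ 0 := by
    rintro rfl
    apply h1
    have : (0 : Fin (n + 2) → F) = (0 : F) • (0 : Fin (n + 2) → F) := by simp
    rw [this, herm_smul_right, zero_pow (by have := two_le_q hF; omega), zero_mul]
  have hA : rootU hF p hp ∈ sigU (n := n + 2) hF := ⟨p, hp0, hp, rfl⟩
  have hB : rootU hF r hr ∈ sigU (n := n + 2) hF := ⟨r, hr0, hr, rfl⟩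
  have hrk := rootU_rankOne hF hp hr h1
  have h2 : ∃ A ∈ subFam (sigU (n := n + 2) hF), ∃ B ∈ subFam (sigU (n := n + 2) hF), A ≠ B :=
    ⟨_, ⟨_, hA, rfl⟩, _, ⟨_, hB, rfl⟩, (rankOne_subgroupOf (le_famSup hA) (le_famSup hB) hrk).ne⟩
  have hcl := ((Cfsg.Agent.S5032.result hR h2).mp hC).1
  refine ⟨⟨hR, hcl⟩, ?_, ?_, hC⟩
  · rintro _ ⟨_, ⟨u, hu0, hu, rfl⟩, rfl⟩ _ ⟨_, ⟨v, hv0, hv, rfl⟩, rfl⟩ hc
    have hU : rootU hF u hu ∈ sigU (n := n + 2) hF := ⟨u, hu0, hu, rfl⟩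
    have hV : rootU hF v hv ∈ sigU (n := n + 2) hF := ⟨v, hv0, hv, rfl⟩
    by_cases h : Cfsg.hermForm (n + 2) F q u v = 0
    · have := hc.1
      rw [commutator_subgroupOf (le_famSup hU) (le_famSup hV),
        rootU_commutator_bot hF hu hv h, Subgroup.bot_subgroupOf] at this
      exact hR.ne_bot _ this rfl
    · exact Lib.Root.commutator_notMem_of_rankOne hR ⟨_, hU, rfl⟩ ⟨_, hV, rfl⟩
        (rankOne_subgroupOf (le_famSup hU) (le_famSup hV) (rootU_rankOne hF hu hv h)) hc.1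
  · obtain ⟨K, iK, iF, ι, hK, hι, hι2⟩ := exists_fixed_field hF
    refine ⟨K, iK, iF, hK, hR, ?_⟩
    rintro _ ⟨_, ⟨u, hu0, hu, rfl⟩, rfl⟩ _ ⟨_, ⟨v, hv0, hv, rfl⟩, rfl⟩ hrk'
    have hU : rootU hF u hu ∈ sigU (n := n + 2) hF := ⟨u, hu0, hu, rfl⟩
    have hV : rootU hF v hv ∈ sigU (n := n + 2) hF := ⟨v, hv0, hv, rfl⟩
    by_cases h : Cfsg.hermForm (n + 2) F q u v = 0
    · exfalso
      apply hrk'.commutator_ne_bot
      rw [commutator_subgroupOf (le_famSup hU) (le_famSup hV),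
        rootU_commutator_bot hF hu hv h, Subgroup.bot_subgroupOf]
    · exact psl2_sub (le_famSup hU) (le_famSup hV) (rootU_psl2 hF ι hι hι2 hu hv h)

end Cfsg.Agent.S5071
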