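import Cfsg.Statements.S5072
import Cfsg.Agent.Lib.Root.Siegel
import Mathlib

set_option autoImplicit false
open Matrix
open Cfsg

namespace Cfsg.Agent.S5072

open Matrix Cfsg.Agent.Lib.Root Cfsg.Agent.Lib.Root.Siegel

variable {F : Type*} [Field F] {N : ℕ}

/-- The family in normal form. -/
def sigO (F : Type*) [Field F] (N : ℕ) : Set (Subgroup (OGp F N)) :=
  {A | ∃ (p r : Fin N ⊕ Fin N → F) (h : Sing p r), Ind p r ∧ A = rootO h}

theorem sig_eq : {A : Subgroup ↥(Cfsg.isometryGroup F (Cfsg.quadFormPlus N F)) | ∃ p r : Fin N ⊕ Fin N → F, LinearIndependent F ![p, r] ∧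
          Cfsg.quadFormPlus N F p = 0 ∧ Cfsg.quadFormPlus N F r = 0 ∧
          Cfsg.quadFormPlus N F (p + r) = 0 ∧
          A = Subgroup.closure {σ : ↥(Cfsg.isometryGroup F (Cfsg.quadFormPlus N F)) | ∀ v : Fin N ⊕ Fin N → F,
            Cfsg.quadFormPlus N F (v + p) - Cfsg.quadFormPlus N F v - Cfsg.quadFormPlus N F p = 0 →
            Cfsg.quadFormPlus N F (v + r) - Cfsg.quadFormPlus N F v - Cfsg.quadFormPlus N F r = 0 →
              ((σ : Matrix.GeneralLinearGroup (Fin N ⊕ Fin N) F) : Matrix (Fin N ⊕ Fin N) (Fin N ⊕ Fin N) F) *ᵥ v = v}} = sigO F N := by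
  ext A
  constructor
  · rintro ⟨p, r, hli, h1, h2, h3, rfl⟩
    have hs : Sing p r := ⟨h1, h2, by
      show _ - _ - _ = _
      rw [h3, h1, h2]
      ring⟩
    have hi : Ind p r := LinearIndependent.pair_iff.mp hli
    exact ⟨p, r, hs, hi, closure_eq hs hi⟩
  · rintro ⟨p, r, hs, hi, rfl⟩
    refine ⟨p, r, LinearIndependent.pair_iff.mpr hi, hs.qu, hs.qv, ?_, (closure_eq hs hi).symm⟩
    rw [QQ_add, hs.qu, hs.qv, hs.uv]
    ring

theorem sigO_mem {u v : Fin N ⊕ Fin N → F} (h : Sing u v) (hi : Ind u v) : rootO h ∈ sigO F N := ⟨u, v, h, hi, rfl⟩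

theorem sigO_root : Cfsg.IsRootSubgroupSet (subFam (sigO F N)) := by
  apply subFam_root
  · rintro A ⟨p, r, h, -, rfl⟩
    exact ⟨⟨fun x y => Subtype.ext (rootO_comm x.2 y.2)⟩⟩
  · rintro A ⟨p, r, h, hi, rfl⟩
    exact rootO_ne_bot h hi
  · rintro A ⟨p, r, h, hi, rfl⟩ g -
    refine ⟨_, _, h.map g, ?_, rootO_conj g h⟩
    intro α β h0
    apply hi
    have h1 := congrArg (fun v => (g⁻¹).1.1 *ᵥ v) h0
    simp only [mulVec_add, mulVec_smul, oo_inv_mulVec, mulVec_zero] at h1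
    exact h1
  · rintro A ⟨p, r, h, hi, rfl⟩ B ⟨s, t, h', hi', rfl⟩
    by_cases hD : DD p r s t = 0
    · rcases pair_zero (S := sigO F N) (fun u v h hi => sigO_mem h hi) h h' hi hi' hD with h1 | h1
      · exact Or.inl h1
      · exact Or.inr (Or.inr h1)
    · exact Or.inr (Or.inl (rootO_rankOne h h' hD))

theorem sigO_kroot : Cfsg.IsKRootSubgroupSet F (subFam (sigO F N)) := by
  refine ⟨sigO_root, ?_⟩
  rintro _ ⟨_, ⟨p, r, h, hi, rfl⟩, rfl⟩ _ ⟨_, ⟨s, t, h', hi', rfl⟩, rfl⟩ hrk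
  have hA := sigO_mem h hi
  have hB := sigO_mem h' hi'
  by_cases hD : DD p r s t = 0
  · exfalso
    rcases pair_zero (S := sigO F N) (fun u v h hi => sigO_mem h hi) h h' hi hi' hD with h1 | h1
    · apply hrk.commutator_ne_bot
      show ⁅(rootO h).subgroupOf _, (rootO h').subgroupOf _⁆ = ⊥
      rw [commutator_subgroupOf (le_famSup hA) (le_famSup hB), h1]
      exact Subgroup.bot_subgroupOf _
    · exact Lib.Root.commutator_notMem_of_rankOne sigO_root ⟨_, hA, rfl⟩ ⟨_, hB, rfl⟩ hrk (commCase_sub hA hB h1).1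
  · exact psl2_sub (le_famSup hA) (le_famSup hB) (rootO_psl2 h h' hD)

theorem sigO_conn (hN : 3 ≤ N) : Cfsg.IsConnectedFamily (Cfsg.FAdj (sigO F N)) (sigO F N) := by
  rintro A ⟨p, r, h, hi, rfl⟩ B ⟨s, t, h', hi', rfl⟩
  obtain ⟨x, y, hl, hi₃, h1, h2⟩ := exists_common_line hN h h' hi hi'
  exact (Relation.ReflTransGen.single ⟨sigO_mem h hi, sigO_mem hl hi₃, rootO_rankOne h hl h1⟩).trans
    (Relation.ReflTransGen.single ⟨sigO_mem hl hi₃, sigO_mem h' hi', rootO_rankOne hl h' h2⟩)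

/-- Let F be a field, m a natural number and V = F^{2(m+3)} with the hyperbolic quadratic form q(x, y) = Σ xᵢ yᵢ (non-degenerate, Witt index m + 3 ≥ 3). For a singular line ℓ (a 2-dimensional subspace on which q vanishes) let T(ℓ) be the group of isometries of q fixing every vector of ℓ^⊥ (the Siegel transvection group of ℓ), let Σ be the set of these groups and G₀ the subgroup they generate. Then, viewed inside G₀, the members of Σ form a set of abstract F-root subgroups of G₀ (any two commute, or are the unipotent subgroups of a rank one group that is an image of SL₂(F) with central kernel, or satisfy the commutator case), and their graph of rank one pairs is connected. -/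
theorem result (F : Type*) [Field F] (m : ℕ) :
    Cfsg.IsKRootSubgroupSet F ((fun A : Subgroup ↥(Cfsg.isometryGroup F (Cfsg.quadFormPlus (m + 3) F)) => A.subgroupOf (⨆ B ∈ {A : Subgroup ↥(Cfsg.isometryGroup F (Cfsg.quadFormPlus (m + 3) F)) | ∃ p r : Fin (m + 3) ⊕ Fin (m + 3) → F, LinearIndependent F ![p, r] ∧
          Cfsg.quadFormPlus (m + 3) F p = 0 ∧ Cfsg.quadFormPlus (m + 3) F r = 0 ∧
          Cfsg.quadFormPlus (m + 3) F (p + r) = 0 ∧
          A = Subgroup.closure {σ : ↥(Cfsg.isometryGroup F (Cfsg.quadFormPlus (m + 3) F)) | ∀ v : Fin (m + 3) ⊕ Fin (m + 3) → F,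
            Cfsg.quadFormPlus (m + 3) F (v + p) - Cfsg.quadFormPlus (m + 3) F v - Cfsg.quadFormPlus (m + 3) F p = 0 →
            Cfsg.quadFormPlus (m + 3) F (v + r) - Cfsg.quadFormPlus (m + 3) F v - Cfsg.quadFormPlus (m + 3) F r = 0 →
              ((σ : Matrix.GeneralLinearGroup (Fin (m + 3) ⊕ Fin (m + 3)) F) : Matrix (Fin (m + 3) ⊕ Fin (m + 3)) (Fin (m + 3) ⊕ Fin (m + 3)) F) *ᵥ v = v}}, B)) ''
      {A : Subgroup ↥(Cfsg.isometryGroup F (Cfsg.quadFormPlus (m + 3) F)) | ∃ p r : Fin (m + 3) ⊕ Fin (m + 3) → F, LinearIndependent F ![p, r] ∧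
          Cfsg.quadFormPlus (m + 3) F p = 0 ∧ Cfsg.quadFormPlus (m + 3) F r = 0 ∧
          Cfsg.quadFormPlus (m + 3) F (p + r) = 0 ∧
          A = Subgroup.closure {σ : ↥(Cfsg.isometryGroup F (Cfsg.quadFormPlus (m + 3) F)) | ∀ v : Fin (m + 3) ⊕ Fin (m + 3) → F,
            Cfsg.quadFormPlus (m + 3) F (v + p) - Cfsg.quadFormPlus (m + 3) F v - Cfsg.quadFormPlus (m + 3) F p = 0 →
            Cfsg.quadFormPlus (m + 3) F (v + r) - Cfsg.quadFormPlus (m + 3) F v - Cfsg.quadFormPlus (m + 3) F r = 0 →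
              ((σ : Matrix.GeneralLinearGroup (Fin (m + 3) ⊕ Fin (m + 3)) F) : Matrix (Fin (m + 3) ⊕ Fin (m + 3)) (Fin (m + 3) ⊕ Fin (m + 3)) F) *ᵥ v = v}}) ∧
    Cfsg.IsConnectedFamily (Cfsg.FAdj {A : Subgroup ↥(Cfsg.isometryGroup F (Cfsg.quadFormPlus (m + 3) F)) | ∃ p r : Fin (m + 3) ⊕ Fin (m + 3) → F, LinearIndependent F ![p, r] ∧
          Cfsg.quadFormPlus (m + 3) F p = 0 ∧ Cfsg.quadFormPlus (m + 3) F r = 0 ∧
          Cfsg.quadFormPlus (m + 3) F (p + r) = 0 ∧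
          A = Subgroup.closure {σ : ↥(Cfsg.isometryGroup F (Cfsg.quadFormPlus (m + 3) F)) | ∀ v : Fin (m + 3) ⊕ Fin (m + 3) → F,
            Cfsg.quadFormPlus (m + 3) F (v + p) - Cfsg.quadFormPlus (m + 3) F v - Cfsg.quadFormPlus (m + 3) F p = 0 →
            Cfsg.quadFormPlus (m + 3) F (v + r) - Cfsg.quadFormPlus (m + 3) F v - Cfsg.quadFormPlus (m + 3) F r = 0 →
              ((σ : Matrix.GeneralLinearGroup (Fin (m + 3) ⊕ Fin (m + 3)) F) : Matrix (Fin (m + 3) ⊕ Fin (m + 3)) (Fin (m + 3) ⊕ Fin (m + 3)) F) *ᵥ v = v}})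
      {A : Subgroup ↥(Cfsg.isometryGroup F (Cfsg.quadFormPlus (m + 3) F)) | ∃ p r : Fin (m + 3) ⊕ Fin (m + 3) → F, LinearIndependent F ![p, r] ∧
          Cfsg.quadFormPlus (m + 3) F p = 0 ∧ Cfsg.quadFormPlus (m + 3) F r = 0 ∧
          Cfsg.quadFormPlus (m + 3) F (p + r) = 0 ∧
          A = Subgroup.closure {σ : ↥(Cfsg.isometryGroup F (Cfsg.quadFormPlus (m + 3) F)) | ∀ v : Fin (m + 3) ⊕ Fin (m + 3) → F,
            Cfsg.quadFormPlus (m + 3) F (v + p) - Cfsg.quadFormPlus (m + 3) F v - Cfsg.quadFormPlus (m + 3) F p = 0 →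
            Cfsg.quadFormPlus (m + 3) F (v + r) - Cfsg.quadFormPlus (m + 3) F v - Cfsg.quadFormPlus (m + 3) F r = 0 →
              ((σ : Matrix.GeneralLinearGroup (Fin (m + 3) ⊕ Fin (m + 3)) F) : Matrix (Fin (m + 3) ⊕ Fin (m + 3)) (Fin (m + 3) ⊕ Fin (m + 3)) F) *ᵥ v = v}} := by
  rw [sig_eq]
  exact ⟨sigO_kroot, sigO_conn (by omega)⟩

end Cfsg.Agent.S5072
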