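import Cfsg.Statements.S5076
import Cfsg.Agent.Lib.Fusion.GroupFusion

set_option autoImplicit false
open Cfsg

namespace Cfsg.Agent.S5076

/-- The fusion system of a finite group on a Sylow p-subgroup is saturated: every subgroup of the Sylow subgroup is conjugate in the system to one that is fully automized and receptive. -/
theorem result {G : Type*} [Group G] [Finite G] (p : ℕ) [Fact p.Prime] (S : Sylow p G) : (Cfsg.groupFusionSystem (S : Subgroup G)).IsSaturated p := by
  exact Cfsg.Agent.Lib.Fusion.isSaturated_gfs S

end Cfsg.Agent.S5076
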