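import Cfsg.Statements.S5081
import Cfsg.Agent.Lib.Fusion.Essential

set_option autoImplicit false
open Cfsg

namespace Cfsg.Agent.S5081

open Cfsg.Agent.Lib.Fusion Cfsg.FusionSystem

/-- Let F be a saturated fusion system over a finite p-group S, P a proper subgroup of S that is fully normalized, and H the subgroup of Aut_F(P) generated by the automorphisms that extend to maps of the system defined on strictly larger subgroups of S. Then either P is not essential and H is all of Aut_F(P), or P is essential and the image of H in Out_F(P) = Aut_F(P)/Inn(P) is strongly p-embedded there. -/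
theorem result {Ω : Type*} [Group Ω] {S : Subgroup Ω} [Finite S] (p : ℕ) [Fact p.Prime] (hS : IsPGroup p S) (F : Cfsg.FusionSystem S) (hF : F.IsSaturated p) (P : Subgroup Ω) (hPS : P < S) (hPn : F.IsFullyNormalized P) (H : Subgroup (MulAut P)) (hH : H = Subgroup.closure {α : MulAut P | ∃ (Q : Subgroup Ω) (hPQ : P < Q) (φ : Q →* Ω), φ ∈ F.Hom Q ∧ ∀ x : P, φ (Subgroup.inclusion hPQ.le x) = α x}) : (¬ F.IsEssential p P ∧ H = F.autGroup P) ∨ (F.IsEssential p P ∧ ∃ _ : ((Cfsg.Inn P).subgroupOf (F.autGroup P)).Normal, Cfsg.IsStronglyPEmbedded p ((H.subgroupOf (F.autGroup P)).map (QuotientGroup.mk' ((Cfsg.Inn P).subgroupOf (F.autGroup P))))) := by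
  have hH' : H = extAut F P := hH
  subst hH'
  by_cases hess : F.IsEssential p P
  · right
    refine ⟨hess, inferInstance, ?_⟩
    obtain ⟨hcen, -, hN, Y₀, hY₀⟩ := hess
    have hPle := hPS.le
    obtain ⟨hPc, hPa⟩ := fullyNormalized_spec hS hF hPn
    have hPr := receptive_of_fullyCentralized hS hF hPc
    have hc : centralizerIn S P ≤ P := hcen.2 P (isConj_refl hPle)
    obtain ⟨T, hT⟩ := exists_sylow_out hPa
    obtain ⟨-, hY₀ne, T₀, hT₀⟩ := hY₀
    refine ⟨dvd_card_out hS hPa hPS hc, ?_, T, kGeneratedCore_le_image hPr hPle T hT⟩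
    obtain ⟨Y₁, hY₁, hY₁ne⟩ := exists_conj_kGeneratedCore_le (p := p) ⟨T₀, rfl⟩ ⟨T, rfl⟩ hT₀ hY₀ne
    intro htop
    apply hY₁ne
    rw [eq_top_iff, ← htop]
    set q := QuotientGroup.mk' ((Cfsg.Inn P).subgroupOf (F.autGroup P)) with hq
    -- generators of `extAut`
    have hgen : extAut F P ≤ (Y₁.comap q).map (F.autGroup P).subtype := by
      refine (Subgroup.closure_le _).2 ?_
      rintro α ⟨Q, hPQ, φ, hφ, hag⟩
      have hαA : α ∈ F.autGroup P := extAut_le_autGroup hPle (Subgroup.subset_closure ⟨Q, hPQ, φ, hφ, hag⟩)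
      refine ⟨⟨α, hαA⟩, ?_, rfl⟩
      have hQS : Q ≤ S := le_of_hom hφ
      have hQp : IsPGroup p Q := hS.to_le hQS
      have := finite_of_le hQS
      obtain ⟨g, hgN, hgP⟩ := exists_mem_normalizerIn_not_mem hQp hPQ
      have hgS : g ∈ normalizerIn S P := ⟨hQS hgN.1, hgN.2⟩
      -- element `g' = φ g`
      set g' := φ ⟨g, hgN.1⟩ with hg'
      have hg'S : g' ∈ S := val_mem hφ _
      have hact : ∀ x : P, g' * ((α x : P) : Ω) * g'⁻¹ = α ⟨g * x * g⁻¹, conj_mem_of_normalizer hgN.2 x.2⟩ := by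
        intro x
        rw [← hag, ← hag, hg', ← map_inv, ← map_mul, ← map_mul]
        rfl
      have hg'n : g' ∈ Subgroup.normalizer (P : Set Ω) := by
        refine mem_normalizer_of_conj_mem hPle (fun y hy => ?_)
        have := hact (α⁻¹ ⟨y, hy⟩)
        rw [MulAut.apply_inv_self] at this
        rw [show y = ((⟨y, hy⟩ : P) : Ω) from rfl, this]
        exact (α _).2
      have hαcg : (α : MulAut P) * autOfNormalizer hgN.2 * α⁻¹ = autOfNormalizer hg'n := by
        ext y
        have := hact (α⁻¹ y)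
        rw [MulAut.apply_inv_self] at this
        rw [autOfNormalizer_coe, this]
        rfl
      have hcgA := autOfNormalizer_mem_autGroup (F := F) hPle hgS
      have hcg'A := autOfNormalizer_mem_autGroup (F := F) hPle (g := g') ⟨hg'S, hg'n⟩
      have hwT : q ⟨autOfNormalizer hgN.2, hcgA⟩ ∈ (T : Subgroup _) := by
        rw [hT]
        exact ⟨_, autOfNormalizer_mem_autInducedBy _ hgS.1, rfl⟩
      have hw1 : q ⟨autOfNormalizer hgN.2, hcgA⟩ ≠ 1 := by
        intro h1
        rw [hq] at h1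
        simp only [QuotientGroup.coe_mk', QuotientGroup.eq_one_iff] at h1
        exact hgP (mem_of_autOfNormalizer_mem_inn hPle hc hgS h1)
      have hxw : q ⟨α, hαA⟩ * q ⟨autOfNormalizer hgN.2, hcgA⟩ * (q ⟨α, hαA⟩)⁻¹ ∈ (T : Subgroup _) := by
        rw [← map_inv, ← map_mul, ← map_mul]
        rw [hT]
        refine ⟨_, ?_, rfl⟩
        show (α : MulAut P) * autOfNormalizer hgN.2 * α⁻¹ ∈ autInducedBy S P
        rw [hαcg]
        exact autOfNormalizer_mem_autInducedBy _ hg'S
      have hTne : (T : Subgroup (F.autGroup P ⧸ (Cfsg.Inn P).subgroupOf (F.autGroup P))) ≠ ⊥ := by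
        intro h
        rw [h, Subgroup.mem_bot] at hwT
        exact hw1 hwT
      exact mem_of_conj_mem_of_kGeneratedCore_le T.isPGroup' (Sylow.not_dvd_index T) hTne hY₁ hwT hw1 hxw
    intro y hy
    obtain ⟨a, ha, rfl⟩ := hy
    obtain ⟨b, hb, hba⟩ := hgen ha
    have : b = a := Subtype.ext hba
    rw [← this]
    exact hb
  · left
    exact ⟨hess, extAut_eq_of_not_essential hS hF hPS hPn hess⟩

end Cfsg.Agent.S5081
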