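import Cfsg.Statements.S5085
import Cfsg.Agent.Lib.Fusion.NormalBasics

set_option autoImplicit false
open Cfsg

namespace Cfsg.Agent.S5085

open Cfsg.Agent.Lib.Fusion

/-- In any fusion system, a characteristic subgroup of a subgroup that is normal in the system is itself normal in the system. -/
theorem result {Ω : Type*} [Group Ω] {S : Subgroup Ω} (F : Cfsg.FusionSystem S) (Q U : Subgroup Ω) (hQ : F.IsNormal Q) (hUQ : U ≤ Q) (hU : (U.subgroupOf Q).Characteristic) : F.IsNormal U := by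
  refine ⟨hUQ.trans hQ.1, fun P φ hφ => ?_⟩
  obtain ⟨ψ, hψ, hag, him⟩ := hQ.2 P φ hφ
  have h : P ⊔ U ≤ P ⊔ Q := sup_le_sup_left hUQ P
  refine ⟨ψ.comp (Subgroup.inclusion h), restrict_mem hψ h, fun x => hag x, ?_⟩
  rw [map_restrict ψ h le_sup_right]
  -- the automorphism of `Q` induced by `ψ`
  let e : Q ≃* Q := isoRestrict hψ le_sup_right him
  have hce : ((U.subgroupOf Q).map e.toMonoidHom) = U.subgroupOf Q :=
    (Subgroup.characteristic_iff_map_eq.1 hU) e
  ext y
  constructor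
  · rintro ⟨x, hx, rfl⟩
    have hxU : (x : Ω) ∈ U := hx
    have hxQ : (x : Ω) ∈ Q := hUQ hxU
    have : (e ⟨x, hxQ⟩ : Q) ∈ (U.subgroupOf Q).map e.toMonoidHom := ⟨⟨x, hxQ⟩, hxU, rfl⟩
    rw [hce] at this
    exact this
  · intro hy
    have hyQ : y ∈ Q := hUQ hy
    have : (⟨y, hyQ⟩ : Q) ∈ (U.subgroupOf Q).map e.toMonoidHom := by
      rw [hce]; exact hy
    obtain ⟨x, hx, hxy⟩ := this
    exact ⟨Subgroup.inclusion le_sup_right x, hx, congrArg Subtype.val hxy⟩

end Cfsg.Agent.S5085
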