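import Cfsg.Statements.S5087
import Cfsg.Agent.Lib.Fusion.NormalChar

set_option autoImplicit false
open Cfsg

namespace Cfsg.Agent.S5087

/-- In a saturated fusion system over a finite p-group S, a subgroup Q is normal in the system if and only if every subgroup P that equals S or is essential contains Q and every element of Aut_F(P) maps Q onto itself. -/
theorem result {Ω : Type*} [Group Ω] {S : Subgroup Ω} [Finite S] (p : ℕ) [Fact p.Prime] (hS : IsPGroup p S) (F : Cfsg.FusionSystem S) (hF : F.IsSaturated p) (Q : Subgroup Ω) : F.IsNormal Q ↔ ∀ P : Subgroup Ω, (P = S ∨ F.IsEssential p P) → (Q ≤ P ∧ ∀ α ∈ F.autGroup P, (Q.subgroupOf P).map α.toMonoidHom = Q.subgroupOf P) := by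
  open Cfsg.Agent.Lib.Fusion in
  constructor
  · intro h P hP
    have hPS : P ≤ S := by
      rcases hP with rfl | hP
      · exact le_rfl
      · exact hP.1.1
    have hQP : Q ≤ P := by
      rcases hP with rfl | hP
      · exact h.1
      · exact le_of_isNormal hS h hP.1 (isRadical_of_essential hS hP)
    exact ⟨hQP, fun α hα => map_aut_eq_of_stronglyClosed (stronglyClosed_of_isNormal h) hQP hα hPS⟩
  · intro h
    have hQS : Q ≤ S := (h S (Or.inl rfl)).1
    refine isNormal_of_forall_aut hS hF hQS ?_ (fun P hP => ?_)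
    · intro s hs
      have hsn : s ∈ Subgroup.normalizer (S : Set Ω) := Subgroup.le_normalizer hs
      have hα := autOfNormalizer_mem_autGroup (F := F) le_rfl ⟨hs, hsn⟩
      refine mem_normalizer_of_conj_mem hQS (fun x hx => ?_)
      have h2 := (h S (Or.inl rfl)).2 _ hα
      have h3 : (autOfNormalizer hsn) ⟨x, hQS hx⟩ ∈ (Q.subgroupOf S).map (autOfNormalizer hsn).toMonoidHom :=
        ⟨⟨x, hQS hx⟩, hx, rfl⟩
      rw [h2] at h3
      exact h3
    · obtain ⟨hQP, hinv⟩ := h P hP
      refine ⟨hQP, fun α hα => ?_⟩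
      have h2 := hinv α hα
      rw [← Subgroup.map_map, h2]
      ext y
      constructor
      · rintro ⟨x, hx, rfl⟩
        exact hx
      · intro hy
        exact ⟨⟨y, hQP hy⟩, hy, rfl⟩

end Cfsg.Agent.S5087
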