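import Cfsg.Statements.S5088
import Cfsg.Agent.Lib.Fusion.NormalChar

set_option autoImplicit false
open Cfsg
open scoped commutatorElement

namespace Cfsg.Agent.S5088

/-- In a saturated fusion system over a finite p-group, a subgroup Q is normal in the system if and only if there is a chain of subgroups 1 = Q₀ ≤ Q₁ ≤ ⋯ ≤ Qₙ = Q such that each Qᵢ with i ≥ 1 is strongly closed in the system and [Q, Qᵢ] ≤ Qᵢ₋₁. -/
theorem result {Ω : Type*} [Group Ω] {S : Subgroup Ω} [Finite S] (p : ℕ) [Fact p.Prime] (hS : IsPGroup p S) (F : Cfsg.FusionSystem S) (hF : F.IsSaturated p) (Q : Subgroup Ω) : F.IsNormal Q ↔ ∃ (n : ℕ) (Qs : Fin (n + 1) → Subgroup Ω), Qs 0 = ⊥ ∧ Qs (Fin.last n) = Q ∧ Monotone Qs ∧ ∀ i : Fin n, F.StronglyClosed (Qs i.succ) ∧ ⁅Q, Qs i.succ⁆ ≤ Qs (Fin.castSucc i) := by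
  open Cfsg.Agent.Lib.Fusion in
  constructor
  · intro h
    have hQS := h.1
    have := finite_of_le hQS
    obtain ⟨n, hn⟩ := ucs_top (hS.to_le hQS)
    refine ⟨n, fun i => ucs Q i, ucs_zero Q, hn, fun a b hab => ucs_mono Q hab, fun i => ⟨?_, ?_⟩⟩
    · exact stronglyClosed_ucs_of_isNormal h _
    · rw [Subgroup.commutator_le]
      intro g hg x hx
      have hx' : x⁻¹ ∈ ucs Q ((i : ℕ) + 1) := (ucs Q _).inv_mem hx
      have h1 := ucs_commutator hx' hg
      have h2 := (ucs Q (i : ℕ)).inv_mem h1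
      have h3 : ⁅g, x⁆ = ((x⁻¹)⁻¹ * (g * x⁻¹ * g⁻¹))⁻¹ := by
        simp [commutatorElement_def, mul_assoc]
      rw [h3]
      exact h2
  · rintro ⟨n, Qs, h0, hlast, hmono, hch⟩
    have hsc : F.StronglyClosed Q := by
      rcases n with _ | n
      · rw [← hlast]
        have : Fin.last 0 = (0 : Fin 1) := rfl
        rw [this, h0]
        exact stronglyClosed_bot
      · have := (hch (Fin.last n)).1
        rw [Fin.succ_last, hlast] at this
        exact this
    let W : ℕ → Subgroup Ω := fun i => if h : i < n + 1 then Qs ⟨i, h⟩ else Q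
    have hW : ∀ i : Fin (n + 1), W i = Qs i := fun i => by
      show (if h : (i : ℕ) < n + 1 then Qs ⟨i, h⟩ else Q) = Qs i
      rw [dif_pos i.2]
    refine isNormal_of_bot_chain hS hF hsc W n ?_ ?_ ?_ ?_ ?_
    · exact (hW 0).trans h0
    · exact (hW (Fin.last n)).trans hlast
    · intro i hi
      have := (hch ⟨i, hi⟩).1
      have h2 := hW (Fin.succ ⟨i, hi⟩)
      simp only [Fin.val_succ] at h2
      rw [h2]
      exact this
    · intro i hi
      have h1 := hW (Fin.castSucc ⟨i, hi⟩)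
      have h2 := hW (Fin.succ ⟨i, hi⟩)
      simp only [Fin.val_succ, Fin.val_castSucc] at h1 h2
      rw [h1, h2]
      exact hmono (Fin.castSucc_lt_succ).le
    · intro g hg i hi x hx
      have h1 := hW (Fin.castSucc ⟨i, hi⟩)
      have h2 := hW (Fin.succ ⟨i, hi⟩)
      simp only [Fin.val_succ, Fin.val_castSucc] at h1 h2
      rw [h2] at hx
      rw [h1]
      have h3 := (hch ⟨i, hi⟩).2
      have h4 : ⁅g, x⁻¹⁆ ∈ Qs (Fin.castSucc ⟨i, hi⟩) :=
        h3 (Subgroup.commutator_mem_commutator hg ((Qs _).inv_mem hx))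
      have h5 := (Qs (Fin.castSucc ⟨i, hi⟩)).inv_mem h4
      have h6 : x⁻¹ * (g * x * g⁻¹) = ⁅g, x⁻¹⁆⁻¹ := by
        simp [commutatorElement_def, mul_assoc]
      rw [h6]
      exact h5

end Cfsg.Agent.S5088
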