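import Cfsg.Statements.S5089
import Cfsg.Agent.Lib.Fusion.NormalChar

set_option autoImplicit false
open Cfsg

namespace Cfsg.Agent.S5089

/-- A saturated fusion system over a finite p-group has a nontrivial subgroup that is normal in the system (O_p(F) ≠ 1) if and only if some nontrivial abelian subgroup is strongly closed in the system. -/
theorem result {Ω : Type*} [Group Ω] {S : Subgroup Ω} [Finite S] (p : ℕ) [Fact p.Prime] (hS : IsPGroup p S) (F : Cfsg.FusionSystem S) (hF : F.IsSaturated p) : F.core ≠ ⊥ ↔ ∃ Q : Subgroup Ω, Q ≠ ⊥ ∧ IsMulCommutative Q ∧ F.StronglyClosed Q := by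
  open Cfsg.Agent.Lib.Fusion in
  have hcore : F.IsNormal F.core := by
    refine sSup_mem_of_closed {Q | F.IsNormal Q} (fun Q hQ => hQ.1) isNormal_bot (fun A hA B hB => isNormal_sup hA hB)
  constructor
  · intro hne
    have hQS := hcore.1
    have := finite_of_le hQS
    have hp : IsPGroup p F.core := hS.to_le hQS
    have hnt : Nontrivial F.core := (Subgroup.nontrivial_iff_ne_bot _).2 hne
    have hz := hp.center_nontrivial
    refine ⟨ucs F.core 1, ?_, ?_, stronglyClosed_ucs_of_isNormal hcore 1⟩
    · intro hb
      obtain ⟨⟨z, hz0⟩, hz1, hz2⟩ := (Subgroup.nontrivial_iff_exists_ne_one _).1 hz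
      have hmem : (z : Ω) ∈ ucs F.core 1 := by
        refine ⟨⟨z, hz0⟩, ?_, rfl⟩
        rw [Subgroup.upperCentralSeries_one]
        exact hz1
      rw [hb] at hmem
      apply hz2
      apply Subtype.ext
      simpa using hmem
    · constructor
      constructor
      rintro ⟨_, x, hx, rfl⟩ ⟨_, y, hy, rfl⟩
      rw [Subgroup.upperCentralSeries_one] at hx hy
      apply Subtype.ext
      show ((x : F.core) : Ω) * y = y * x
      have := (Subgroup.mem_center_iff.1 hx) y
      exact (congrArg Subtype.val this).symm
  · rintro ⟨Q, hne, hcomm, hsc⟩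
    have hQn : F.IsNormal Q := by
      refine isNormal_of_bot_chain hS hF hsc (fun i => if i = 0 then ⊥ else Q) 1 (by simp) (by simp)
        (fun i hi => ?_) (fun i hi => ?_) ?_
      · simpa using hsc
      · have hi0 : i = 0 := by omega
        subst hi0
        simp
      · intro g hg i hi x hx
        have hi0 : i = 0 := by omega
        subst hi0
        simp at hx
        simp
        have := IsMulCommutative.is_comm.comm (⟨g, hg⟩ : Q) ⟨x, hx⟩
        have h2 : g * x = x * g := congrArg Subtype.val this
        rw [h2]
        group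
    intro hb
    apply hne
    have : Q ≤ F.core := le_sSup hQn
    rw [hb] at this
    exact le_bot_iff.1 this

end Cfsg.Agent.S5089
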