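import Cfsg.Statements.S5104
import Cfsg.Agent.Lib.Fusion.Saturation

set_option autoImplicit false
open Cfsg

namespace Cfsg.Agent.S5104

open Cfsg.Agent.Lib.Fusion Cfsg.FusionSystem

/-- In a saturated fusion system over a finite p-group S, a fully centralized subgroup U with C_S(U) ≤ U is centric. -/
theorem result {Ω : Type*} [Group Ω] {S : Subgroup Ω} [Finite S] (p : ℕ) [Fact p.Prime] (hS : IsPGroup p S) (F : Cfsg.FusionSystem S) (hF : F.IsSaturated p) (U : Subgroup Ω) (hU : F.IsFullyCentralized U) (hC : Cfsg.FusionSystem.centralizerIn S U ≤ U) : F.IsCentric U := by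
  refine ⟨hU.1, fun V hV => ?_⟩
  obtain ⟨e, he⟩ := isConj_iff.1 hV
  have hVS : V ≤ S := he.le_right
  -- `Z(V)` has the order of `Z(U) = C_S(U)`
  have h1 := hU.2 V hV
  have := finite_of_le hU.1
  have := finite_of_le hVS
  -- the map `C_S(U) → V ⊓ C_S(V)` is injective, so `|C_S(V)| ≤ |V ⊓ C_S(V)|`.
  let f : centralizerIn S U → (V ⊓ centralizerIn S V : Subgroup Ω) := fun c =>
    ⟨e ⟨c, hC c.2⟩, (e ⟨c, hC c.2⟩).2, he.le_right (e ⟨c, hC c.2⟩).2, by
      show _ ∈ Subgroup.centralizer (V : Set Ω)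
      rw [Subgroup.mem_centralizer_iff]
      intro y hy
      have hy' : (⟨y, hy⟩ : V) = e (e.symm ⟨y, hy⟩) := by simp
      rw [show y = (e (e.symm ⟨y, hy⟩) : V) from congrArg Subtype.val hy']
      rw [← Subgroup.coe_mul, ← Subgroup.coe_mul, ← map_mul, ← map_mul]
      congr 2
      apply Subtype.ext
      exact comm_of_mem_centralizer c.2.2 (e.symm ⟨y, hy⟩).2 |>.symm⟩
  have hf : Function.Injective f := by
    intro a b hab
    have h2 := e.injective (Subtype.ext (Subtype.mk.inj hab))
    exact Subtype.ext (Subtype.mk.inj h2)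
  have hcard : Nat.card (centralizerIn S V) ≤ Nat.card (V ⊓ centralizerIn S V : Subgroup Ω) := by
    have := finite_of_le (inf_le_left.trans hVS : V ⊓ centralizerIn S V ≤ S)
    exact h1.trans (Nat.card_le_card_of_injective f hf)
  have h3 : V ⊓ centralizerIn S V = centralizerIn S V :=
    eq_of_le_of_card_le (S := S) inf_le_right (centralizerIn_le V) hcard
  rw [← h3]
  exact inf_le_left

end Cfsg.Agent.S5104
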