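import Cfsg.Statements.S5106
import Cfsg.Agent.Lib.Fusion.NormalChar

set_option autoImplicit false
open Cfsg

namespace Cfsg.Agent.S5106

/-- In a saturated fusion system over a finite p-group S, a subgroup R ≤ S is normal in the system if and only if every map of the system whose source is a subgroup of R is the restriction of an element of Aut_F(R). -/
theorem result {Ω : Type*} [Group Ω] {S : Subgroup Ω} [Finite S] (p : ℕ) [Fact p.Prime] (hS : IsPGroup p S) (F : Cfsg.FusionSystem S) (hF : F.IsSaturated p) (R : Subgroup Ω) (hRS : R ≤ S) : F.IsNormal R ↔ ∀ (P : Subgroup Ω) (hPR : P ≤ R) (φ : P →* Ω), φ ∈ F.Hom P → ∃ α ∈ F.autGroup R, ∀ x : P, ((α (Subgroup.inclusion hPR x) : R) : Ω) = φ x := by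
  open Cfsg.Agent.Lib.Fusion in
  have hsc_of : (∀ (P : Subgroup Ω) (hPR : P ≤ R) (φ : P →* Ω), φ ∈ F.Hom P → ∃ α ∈ F.autGroup R, ∀ x : P, ((α (Subgroup.inclusion hPR x) : R) : Ω) = φ x) → ∀ i, F.StronglyClosed (ucs R i) := by
    intro h i
    refine ⟨(ucs_le R i).trans hRS, fun P hP φ hφ x => ?_⟩
    obtain ⟨α, hα, hag⟩ := h P (hP.trans (ucs_le R i)) φ hφ
    rw [← hag x]
    obtain ⟨hxR, hx⟩ := mem_ucs.1 (hP x.2)
    have hchar : (Subgroup.upperCentralSeries R i).Characteristic := inferInstance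
    have hmap := Subgroup.characteristic_iff_map_eq.1 hchar α
    have h2 : α ⟨x, hxR⟩ ∈ (Subgroup.upperCentralSeries R i).map α.toMonoidHom := ⟨_, hx, rfl⟩
    rw [hmap] at h2
    exact ⟨_, h2, rfl⟩
  have hRp : IsPGroup p R := hS.to_le hRS
  have := finite_of_le hRS
  constructor
  · intro h P hPR φ hφ
    obtain ⟨ψ, hψ, hag, him⟩ := h.2 P φ hφ
    have hle : R ≤ P ⊔ R := le_sup_right
    refine ⟨isoRestrict hψ hle him, ?_, fun x => ?_⟩
    · exact (mem_autGroup_iff hRS).2 (isoRestrict_isIso _ _ _)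
    · rw [isoRestrict_coe, ← hag x]
      rfl
  · intro h
    have hsc := hsc_of h
    obtain ⟨n, hn⟩ := ucs_top hRp
    have hR : F.StronglyClosed R := by
      have := hsc n
      rwa [hn] at this
    refine isNormal_of_bot_chain hS hF hR (ucs R) n (ucs_zero R) hn (fun i _ => hsc _) (fun i _ => ucs_mono R (Nat.le_succ i)) ?_
    intro g hg i _ x hx
    exact ucs_commutator hx hg

end Cfsg.Agent.S5106
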