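import Cfsg.Statements.S5112
import Cfsg.Agent.Lib.Fusion.Dihedral

set_option autoImplicit false
open Cfsg

namespace Cfsg.Agent.S5112

/-- If S is a dihedral or generalized quaternion 2-group of order at least 16, then in every saturated fusion system over S (at the prime 2) the automorphism group Aut_F(S) consists of the inner automorphisms of S. -/
theorem result {Ω : Type*} [Group Ω] {S : Subgroup Ω} [Finite S] (n : ℕ) (hn : 4 ≤ n) (hshape : Nonempty (S ≃* DihedralGroup (2 ^ (n - 1))) ∨ Nonempty (S ≃* QuaternionGroup (2 ^ (n - 2)))) (F : Cfsg.FusionSystem S) (hF : F.IsSaturated 2) : F.autGroup S = Cfsg.Inn S := by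
  open Cfsg.Agent.Lib.Fusion in
  have hp2 : IsPGroup 2 (MulAut S) := by
    rcases hshape with ⟨⟨e⟩⟩ | ⟨⟨e⟩⟩
    · exact (isPGroup_mulAut_dihedral hn).of_equiv (MulAut.congr e).symm
    · exact (isPGroup_mulAut_quaternion hn).of_equiv (MulAut.congr e).symm
  have hS : IsPGroup 2 S := by
    have hnz1 : NeZero (2 ^ (n - 1)) := ⟨by positivity⟩
    have hnz2 : NeZero (2 ^ (n - 2)) := ⟨by positivity⟩
    rw [IsPGroup.iff_card]
    rcases hshape with ⟨⟨e⟩⟩ | ⟨⟨e⟩⟩
    · refine ⟨n, ?_⟩
      rw [Nat.card_congr e.toEquiv, DihedralGroup.nat_card, ← pow_succ']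
      congr 1
      omega
    · refine ⟨n, ?_⟩
      rw [Nat.card_congr e.toEquiv, Nat.card_eq_fintype_card, QuaternionGroup.card]
      have : (4 : ℕ) = 2 ^ 2 := by norm_num
      rw [this, ← pow_add]
      congr 1
      omega
  have : Fact (Nat.Prime 2) := ⟨Nat.prime_two⟩
  exact autGroup_eq_inn_of_isPGroup hS hF hp2

end Cfsg.Agent.S5112
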