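import Cfsg.Statements.S5118
import Cfsg.Agent.Lib.Fusion.NormalGroup

set_option autoImplicit false
open Cfsg

namespace Cfsg.Agent.S5118

/-- For a finite group G with Sylow p-subgroup S and a normal subgroup H, the fusion system of H on S ∩ H is a normal subsystem of the fusion system of G on S. -/
theorem result {G : Type*} [Group G] [Finite G] (p : ℕ) [Fact p.Prime] (S : Sylow p G) (H : Subgroup G) [H.Normal] : (Cfsg.fusionSystemOfSubgroup H ((S : Subgroup G) ⊓ H) inf_le_right).IsNormalIn (Cfsg.groupFusionSystem (S : Subgroup G)) p := by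
  exact Cfsg.Agent.Lib.Fusion.isNormalIn_of_normal S H

end Cfsg.Agent.S5118
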