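import Cfsg.Statements.S5164
import Mathlib

set_option autoImplicit false
open Cfsg

namespace Cfsg.Agent.S5164

theorem commute_of_small {α : Type*} [Fintype α] [DecidableEq α] {p : ℕ} [hp : Fact p.Prime]
    (H : Subgroup (Equiv.Perm α)) (hH : IsPGroup p H) (hc : Fintype.card α < p ^ 2)
    {σ τ : Equiv.Perm α} (hσ : σ ∈ H) (hτ : τ ∈ H) : σ * τ = τ * σ := by
  ext x
  obtain ⟨n, hn⟩ := hH.card_orbit x
  have hle : Nat.card (MulAction.orbit H x) ≤ Fintype.card α := by
    rw [← Nat.card_eq_fintype_card]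
    exact Nat.card_mono (Set.toFinite _) (Set.subset_univ _) |>.trans (by simp)
  have hn1 : n ≤ 1 := by
    by_contra hcon
    have h2 : 2 ≤ n := by omega
    have h3 : p ^ 2 ≤ p ^ n := Nat.pow_le_pow_right hp.out.pos h2
    omega
  let f : H →* Equiv.Perm (MulAction.orbit H x) := MulAction.toPermHom H (MulAction.orbit H x)
  have hK : IsPGroup p f.range := hH.of_surjective f.rangeRestrict f.rangeRestrict_surjective
  obtain ⟨k, hk⟩ := IsPGroup.iff_card.mp hK
  have hdvd : Nat.card f.range ∣ Nat.card (Equiv.Perm (MulAction.orbit H x)) := Subgroup.card_subgroup_dvd_card _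
  have hperm : Nat.card (Equiv.Perm (MulAction.orbit H x)) = (p ^ n).factorial := by
    rw [Nat.card_perm, hn]
  have hk1 : k ≤ 1 := by
    by_contra hcon
    have h2 : p ^ 2 ∣ Nat.card f.range := by
      rw [hk]
      exact pow_dvd_pow p (by omega)
    have h3 : p ^ 2 ∣ (p ^ n).factorial := by
      rw [← hperm]
      exact h2.trans hdvd
    have hn' : n = 0 ∨ n = 1 := by omega
    rcases hn' with rfl | rfl
    · simp only [pow_zero, Nat.factorial_one, Nat.dvd_one] at h3
      have := hp.out.one_lt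
      have h4 : 1 < p ^ 2 := Nat.one_lt_pow (by norm_num) this
      omega
    · rw [pow_one] at h3
      obtain ⟨m, hm⟩ : ∃ m, p = m + 1 := ⟨p - 1, by have := hp.out.pos; omega⟩
      have h4 : p.factorial = p * (p - 1).factorial := by
        rw [hm]
        simp [Nat.factorial_succ]
      rw [h4, pow_two] at h3
      have h5 : p ∣ (p - 1).factorial := Nat.dvd_of_mul_dvd_mul_left hp.out.pos h3
      have h6 := (hp.out.dvd_factorial).1 h5
      have := hp.out.pos
      omega
  have hcomm : ∀ a b : f.range, a * b = b * a := by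
    intro a b
    have hk' : k = 0 ∨ k = 1 := by omega
    rcases hk' with rfl | rfl
    · have h1 : Nat.card f.range = 1 := by simpa using hk
      haveI := (Nat.card_eq_one_iff_unique.mp h1).1
      exact Subsingleton.elim _ _
    · have h1 : Nat.card f.range = p := by simpa using hk
      haveI := isCyclic_of_prime_card h1
      exact (IsCyclic.commGroup (α := f.range)).mul_comm a b
  have h1 := hcomm ⟨f ⟨σ, hσ⟩, ⟨_, rfl⟩⟩ ⟨f ⟨τ, hτ⟩, ⟨_, rfl⟩⟩
  have h2 : f ⟨σ, hσ⟩ * f ⟨τ, hτ⟩ = f ⟨τ, hτ⟩ * f ⟨σ, hσ⟩ := congrArg Subtype.val h1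
  have h3 := congrArg (fun g : Equiv.Perm (MulAction.orbit H x) => ((g ⟨x, MulAction.mem_orbit_self x⟩ : MulAction.orbit H x) : α)) h2
  exact h3

theorem sylow_noncomm {G : Type*} [Group G] [Finite G] {p : ℕ} [Fact p.Prime] (S : Sylow p G) (L : Subgroup G) (hL : IsPGroup p L)
    {a b : G} (ha : a ∈ L) (hb : b ∈ L) (hab : a * b ≠ b * a) : ¬ IsMulCommutative S := by
  intro hc
  obtain ⟨P, hP⟩ := hL.exists_le_sylow
  obtain ⟨g, hg⟩ := MulAction.exists_smul_eq G S P
  have key : ∀ x ∈ P, g⁻¹ * x * g ∈ (S : Subgroup G) := by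
    intro x hx
    rw [← hg] at hx
    obtain ⟨y, hy, rfl⟩ := hx
    have : g⁻¹ * (g * y * g⁻¹) * g = y := by group
    show g⁻¹ * (g * y * g⁻¹) * g ∈ _
    rw [this]
    exact hy
  have h1 := mul_comm' (⟨_, key a (hP ha)⟩ : S) ⟨_, key b (hP hb)⟩
  have h2 : g⁻¹ * a * g * (g⁻¹ * b * g) = g⁻¹ * b * g * (g⁻¹ * a * g) := congrArg Subtype.val h1
  apply hab
  have h3 : g⁻¹ * (a * b) * g = g⁻¹ * (b * a) * g := by
    simpa [mul_assoc] using h2
  exact mul_left_cancel (mul_right_cancel h3)

theorem isPGroup_zpowers' {G : Type*} [Group G] {p k : ℕ} {x : G} (h : x ^ (p ^ k) = 1) : IsPGroup p (Subgroup.zpowers x) := by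
  rintro ⟨y, m, rfl⟩
  refine ⟨k, Subtype.ext ?_⟩
  show (x ^ m) ^ (p ^ k) = 1
  rw [← zpow_natCast, zpow_comm, zpow_natCast, h, one_zpow]

section wreath

variable (p : ℕ) [hp : Fact p.Prime]

/-- Translation along the fibres. -/
def tau (f : ZMod p → ZMod p) : Equiv.Perm (ZMod p × ZMod p) where
  toFun x := (x.1, x.2 + f x.1)
  invFun x := (x.1, x.2 - f x.1)
  left_inv x := by simp
  right_inv x := by simp

def sh : Equiv.Perm (ZMod p × ZMod p) where
  toFun x := (x.1 + 1, x.2)
  invFun x := (x.1 - 1, x.2)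
  left_inv x := by simp
  right_inv x := by simp

theorem tau_mul (f g : ZMod p → ZMod p) : tau p f * tau p g = tau p (f + g) := by
  ext x
  · simp [tau]
  · simp only [tau, Equiv.Perm.mul_apply, Equiv.coe_fn_mk, Pi.add_apply]
    ring_nf

theorem tau_zero : tau p 0 = 1 := by
  ext x <;> simp [tau]

theorem tau_inv (f : ZMod p → ZMod p) : (tau p f)⁻¹ = tau p (-f) := by
  rw [inv_eq_iff_mul_eq_one, tau_mul, add_neg_cancel, tau_zero]

theorem tau_pow (f : ZMod p → ZMod p) (k : ℕ) : (tau p f) ^ k = tau p (k • f) := by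
  induction k with
  | zero => simp [tau_zero]
  | succ k ih => rw [pow_succ, ih, tau_mul, succ_nsmul]

def NN : Subgroup (Equiv.Perm (ZMod p × ZMod p)) where
  carrier := {σ | ∃ f, σ = tau p f}
  mul_mem' := by
    rintro _ _ ⟨f, rfl⟩ ⟨g, rfl⟩
    exact ⟨f + g, tau_mul p f g⟩
  one_mem' := ⟨0, (tau_zero p).symm⟩
  inv_mem' := by
    rintro _ ⟨f, rfl⟩
    exact ⟨-f, tau_inv p f⟩

theorem isPGroup_NN : IsPGroup p (NN p) := by
  rintro ⟨σ, f, rfl⟩
  refine ⟨1, Subtype.ext ?_⟩
  show (tau p f) ^ (p ^ 1) = 1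
  rw [pow_one, tau_pow]
  have : p • f = 0 := by
    ext i
    simp
  rw [this, tau_zero]

theorem sh_pow (k : ℕ) (x : ZMod p × ZMod p) : ((sh p) ^ k) x = (x.1 + k, x.2) := by
  induction k generalizing x with
  | zero => simp
  | succ k ih =>
    rw [pow_succ, Equiv.Perm.mul_apply, ih]
    simp only [sh, Equiv.coe_fn_mk, Nat.cast_succ]
    refine Prod.ext ?_ rfl
    simp only
    ring

theorem sh_pow_p : (sh p) ^ (p ^ 1) = 1 := by
  ext x <;> simp [sh_pow]

theorem sh_conj (f : ZMod p → ZMod p) : sh p * tau p f * (sh p)⁻¹ = tau p (fun i => f (i - 1)) := by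
  ext x <;> simp [sh, tau, Equiv.Perm.inv_def]

theorem sh_mem_normalizer : sh p ∈ Subgroup.normalizer (NN p : Set (Equiv.Perm (ZMod p × ZMod p))) := by
  rw [Subgroup.mem_normalizer_iff]
  intro x
  constructor
  · rintro ⟨f, rfl⟩
    exact ⟨_, sh_conj p f⟩
  · rintro ⟨g, hg⟩
    refine ⟨fun i => g (i + 1), ?_⟩
    have h1 := sh_conj p (fun i => g (i + 1))
    have h2 : sh p * tau p (fun i => g (i + 1)) * (sh p)⁻¹ = sh p * x * (sh p)⁻¹ := by
      rw [h1, hg]
      congr 1
      ext i
      simp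
    have h3 := mul_left_cancel (mul_right_cancel h2)
    exact h3.symm

theorem not_comm_wreath : (tau p (fun i => if i = 0 then 1 else 0)) * sh p ≠ sh p * (tau p (fun i => if i = 0 then 1 else 0)) := by
  intro h
  have h1 := congrArg (fun g : Equiv.Perm (ZMod p × ZMod p) => (g ((-1 : ZMod p), (0 : ZMod p))).2) h
  haveI : Fact (1 < p) := ⟨hp.out.one_lt⟩
  have hne : (-1 : ZMod p) ≠ 0 := neg_ne_zero.mpr one_ne_zero
  simp [tau, sh, hne] at h1

end wreath


/-- For n ≥ 6 and a prime p, a nontrivial Sylow p-subgroup of the alternating group of degree n is abelian if and only if n < p². -/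
theorem result (n p : ℕ) (hn : 6 ≤ n) [Fact p.Prime] (S : Sylow p (alternatingGroup (Fin n))) (hS : (S : Subgroup (alternatingGroup (Fin n))) ≠ ⊥) : IsMulCommutative S ↔ n < p ^ 2 := by
  classical
  constructor
  · intro hcomm
    by_contra hlt
    have hle : p ^ 2 ≤ n := not_lt.mp hlt
    rcases eq_or_ne p 2 with rfl | hp2
    · -- the dihedral group of order 8
      let e : Fin 6 ↪ Fin n := Fin.castLEEmb hn
      let h : Equiv.Perm (Fin 6) →* Equiv.Perm (Fin n) := Equiv.Perm.viaEmbeddingHom e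
      let a₆ : Equiv.Perm (Fin 6) := Equiv.swap 0 1 * Equiv.swap 1 2 * Equiv.swap 2 3 * Equiv.swap 4 5
      let b₆ : Equiv.Perm (Fin 6) := Equiv.swap 0 2 * Equiv.swap 4 5
      have hsign : ∀ x : Equiv.Perm (Fin 6), Equiv.Perm.sign x = 1 → h x ∈ alternatingGroup (Fin n) := by
        intro x hx
        rw [Equiv.Perm.mem_alternatingGroup]
        have : h x = x.viaFintypeEmbedding e := by
          refine Equiv.ext fun y => ?_
          by_cases hy : y ∈ Set.range e
          · obtain ⟨z, rfl⟩ := hy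
            rw [Equiv.Perm.viaFintypeEmbedding_apply_image]
            show ((Equiv.Perm.viaEmbedding x e) (e z) : Fin n) = _
            rw [Equiv.Perm.viaEmbedding_apply]
          · rw [Equiv.Perm.viaFintypeEmbedding_apply_notMem_range _ _ hy]
            show ((Equiv.Perm.viaEmbedding x e) y : Fin n) = _
            rw [Equiv.Perm.viaEmbedding_apply_of_notMem _ _ _ hy]
        rw [this, Equiv.Perm.viaFintypeEmbedding_sign, hx]
      have hsa : Equiv.Perm.sign a₆ = 1 := by decide
      have hsb : Equiv.Perm.sign b₆ = 1 := by decide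
      have ha4 : a₆ ^ (2 ^ 2) = 1 := by decide
      have hb2 : b₆ ^ (2 ^ 1) = 1 := by decide
      have hconj : b₆ * a₆ * b₆⁻¹ = a₆⁻¹ := by decide
      have hne : a₆ * b₆ ≠ b₆ * a₆ := by decide
      let a₁ : alternatingGroup (Fin n) := ⟨h a₆, hsign _ hsa⟩
      let b₁ : alternatingGroup (Fin n) := ⟨h b₆, hsign _ hsb⟩
      have ha₁ : a₁ ^ (2 ^ 2) = 1 := Subtype.ext (by
        show (h a₆) ^ (2 ^ 2) = 1
        rw [← map_pow, ha4, map_one])
      have hb₁ : b₁ ^ (2 ^ 1) = 1 := Subtype.ext (by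
        show (h b₆) ^ (2 ^ 1) = 1
        rw [← map_pow, hb2, map_one])
      have hconj₁ : b₁ * a₁ * b₁⁻¹ = a₁⁻¹ := Subtype.ext (by
        show h b₆ * h a₆ * (h b₆)⁻¹ = (h a₆)⁻¹
        rw [← map_inv, ← map_mul, ← map_mul, hconj, map_inv])
      have hne₁ : a₁ * b₁ ≠ b₁ * a₁ := by
        intro he
        apply hne
        have he' : h a₆ * h b₆ = h b₆ * h a₆ := congrArg Subtype.val he
        rw [← map_mul, ← map_mul] at he'
        exact Equiv.Perm.viaEmbeddingHom_injective e he'
      have hnorm : b₁ ∈ Subgroup.normalizer (Subgroup.zpowers a₁ : Set (alternatingGroup (Fin n))) := by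
        rw [Subgroup.mem_normalizer_iff]
        intro x
        constructor
        · rintro ⟨m, rfl⟩
          refine ⟨-m, ?_⟩
          show a₁ ^ (-m) = b₁ * a₁ ^ m * b₁⁻¹
          rw [← conj_zpow, hconj₁, inv_zpow', ]
        · rintro ⟨m, hm⟩
          refine ⟨-m, ?_⟩
          have hm' : a₁ ^ m = b₁ * x * b₁⁻¹ := hm
          have h2 : x = b₁⁻¹ * a₁ ^ m * b₁ := by rw [hm']; group
          have h3 : b₁ * a₁ ^ (-m) * b₁⁻¹ = a₁ ^ m := by
            rw [← conj_zpow, hconj₁, inv_zpow', neg_neg]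
          show a₁ ^ (-m) = x
          rw [h2, ← h3]
          group
      have hP : IsPGroup 2 (Subgroup.zpowers b₁ ⊔ Subgroup.zpowers a₁ : Subgroup (alternatingGroup (Fin n))) :=
        IsPGroup.to_sup_of_normal_right' (isPGroup_zpowers' hb₁) (isPGroup_zpowers' ha₁)
          ((Subgroup.zpowers_le).2 hnorm)
      exact sylow_noncomm S _ hP (Subgroup.mem_sup_right (Subgroup.mem_zpowers a₁)) (Subgroup.mem_sup_left (Subgroup.mem_zpowers b₁)) hne₁ hcomm
    · -- the wreath product
      have hcard : Fintype.card (ZMod p × ZMod p) ≤ Fintype.card (Fin n) := by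
        simp only [Fintype.card_prod, ZMod.card, Fintype.card_fin]
        rw [← pow_two]
        exact hle
      obtain ⟨e⟩ := Function.Embedding.nonempty_of_card_le hcard
      let h : Equiv.Perm (ZMod p × ZMod p) →* Equiv.Perm (Fin n) := Equiv.Perm.viaEmbeddingHom e
      have hP₀ : IsPGroup p (Subgroup.zpowers (sh p) ⊔ NN p : Subgroup (Equiv.Perm (ZMod p × ZMod p))) :=
        IsPGroup.to_sup_of_normal_right' (isPGroup_zpowers' (sh_pow_p p)) (isPGroup_NN p)
          ((Subgroup.zpowers_le).2 (sh_mem_normalizer p))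
      have hP₁ := hP₀.map h
      have hodd : Odd p := (Fact.out : p.Prime).odd_of_ne_two hp2
      have heven : ∀ x ∈ (Subgroup.zpowers (sh p) ⊔ NN p : Subgroup (Equiv.Perm (ZMod p × ZMod p))).map h, x ∈ alternatingGroup (Fin n) := by
        intro x hx
        obtain ⟨k, hk⟩ := hP₁ ⟨x, hx⟩
        have hk' : x ^ (p ^ k) = 1 := congrArg Subtype.val hk
        rw [Equiv.Perm.mem_alternatingGroup]
        have h1 : (Equiv.Perm.sign x) ^ (p ^ k) = 1 := by
          rw [← map_pow, hk', map_one]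
        rcases Int.units_eq_one_or (Equiv.Perm.sign x) with h2 | h2
        · exact h2
        · rw [h2, Odd.neg_one_pow (hodd.pow)] at h1
          exact absurd h1 (by decide)
      let L : Subgroup (alternatingGroup (Fin n)) := ((Subgroup.zpowers (sh p) ⊔ NN p : Subgroup (Equiv.Perm (ZMod p × ZMod p))).map h).comap (alternatingGroup (Fin n)).subtype
      have hL : IsPGroup p L := hP₁.comap_of_injective (alternatingGroup (Fin n)).subtype Subtype.val_injective
      have hmemA : tau p (fun i => if i = 0 then 1 else 0) ∈ (Subgroup.zpowers (sh p) ⊔ NN p : Subgroup (Equiv.Perm (ZMod p × ZMod p))) :=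
        Subgroup.mem_sup_right ⟨_, rfl⟩
      have hmemB : sh p ∈ (Subgroup.zpowers (sh p) ⊔ NN p : Subgroup (Equiv.Perm (ZMod p × ZMod p))) :=
        Subgroup.mem_sup_left (Subgroup.mem_zpowers _)
      have hA := heven _ (Subgroup.mem_map_of_mem h hmemA)
      have hB := heven _ (Subgroup.mem_map_of_mem h hmemB)
      refine sylow_noncomm S L hL (a := ⟨_, hA⟩) (b := ⟨_, hB⟩) (Subgroup.mem_map_of_mem h hmemA) (Subgroup.mem_map_of_mem h hmemB) ?_ hcomm
      intro he
      have he' : h (tau p (fun i => if i = 0 then 1 else 0)) * h (sh p) = h (sh p) * h (tau p (fun i => if i = 0 then 1 else 0)) := congrArg Subtype.val he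
      rw [← map_mul, ← map_mul] at he'
      exact not_comm_wreath p (Equiv.Perm.viaEmbeddingHom_injective e he')
  · intro hlt
    have hcard : Fintype.card (Fin n) < p ^ 2 := by simpa using hlt
    have hP : IsPGroup p ((S : Subgroup (alternatingGroup (Fin n))).map (alternatingGroup (Fin n)).subtype) := S.isPGroup'.map _
    refine ⟨⟨fun a b => Subtype.ext (Subtype.ext ?_)⟩⟩
    exact commute_of_small _ hP hcard (Subgroup.mem_map_of_mem _ a.2) (Subgroup.mem_map_of_mem _ b.2)

end Cfsg.Agent.S5164
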