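import Cfsg.Statements.S5345

set_option autoImplicit false
open Cfsg

namespace Cfsg.Agent.S5345

/-- Let D be a conjugation-invariant generating set of 3-transpositions of a finite group G and T a Sylow 2-subgroup of G. Then the members of D lying in T generate an abelian subgroup, and their number is the width of D (the largest number of pairwise commuting members of D). -/
theorem result {G : Type*} [Group G] [Finite G] {D : Set G} (hD : Cfsg.IsThreeTranspositionGroup D) (T : Sylow 2 G) : IsMulCommutative (Subgroup.closure {d : G | d ∈ D ∧ d ∈ T}) ∧ {d : G | d ∈ D ∧ d ∈ T}.ncard = Cfsg.commutingWidth D := by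
  classical
  obtain ⟨⟨hinv, hprod⟩, hconj, -⟩ := hD
  -- members of D inside a 2-subgroup commute
  have hcommT : ∀ (T : Sylow 2 G), ∀ a b : G, a ∈ D → a ∈ T → b ∈ D → b ∈ T → Commute a b := by
    intro T a b ha haT hb hbT
    have ha2 : a * a = 1 := by
      have := pow_orderOf_eq_one a
      rw [hinv a ha, pow_two] at this; exact this
    have hb2 : b * b = 1 := by
      have := pow_orderOf_eq_one b
      rw [hinv b hb, pow_two] at this; exact this
    have hmem : a * b ∈ (T : Subgroup G) := (T : Subgroup G).mul_mem haT hbT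
    have hsq : (a * b) ^ 2 = 1 := by
      rcases hprod a ha b hb with h | h
      · exact h
      · -- order divides 3 and a power of 2
        obtain ⟨k, hk⟩ := T.isPGroup' ⟨a * b, hmem⟩
        have h1 : (a * b) ^ (2 ^ k) = 1 := by
          have := congrArg Subtype.val hk
          simpa using this
        have hc : Nat.Coprime (2 ^ k) 3 := Nat.Coprime.pow_left _ (by norm_num)
        have := (pow_gcd_eq_one (a := a * b)).mpr ⟨h1, h⟩
        rw [hc.gcd_eq_one, pow_one] at this
        rw [this, one_pow]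
    show a * b = b * a
    rw [pow_two] at hsq
    have h4 : (a * b)⁻¹ = a * b := inv_eq_of_mul_eq_one_left hsq
    rw [← h4, mul_inv_rev, inv_eq_of_mul_eq_one_left ha2, inv_eq_of_mul_eq_one_left hb2]
  have hfin : {d : G | d ∈ D ∧ d ∈ T}.Finite := Set.toFinite _
  have hle : ∀ n ∈ {n : ℕ | ∃ E : Set G, E ⊆ D ∧ E.Finite ∧ (∀ a ∈ E, ∀ b ∈ E, Commute a b) ∧ E.ncard = n},
      n ≤ {d : G | d ∈ D ∧ d ∈ T}.ncard := by
    rintro n ⟨E, hED, hEfin, hEc, rfl⟩
    -- the closure of E is a 2-group
    have hexp : ∀ x ∈ Subgroup.closure E, x ^ 2 = 1 := by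
      intro x hx
      have hcc : ∀ x ∈ Subgroup.closure E, ∀ y ∈ Subgroup.closure E, Commute x y := by
        intro x hx y hy
        exact Subgroup.closure_induction₂ (p := fun x y _ _ => Commute x y) (fun a b ha hb => hEc a ha b hb)
          (fun _ _ => Commute.one_left _) (fun _ _ => Commute.one_right _)
          (fun _ _ _ _ _ _ h1 h2 => h1.mul_left h2) (fun _ _ _ _ _ _ h1 h2 => h1.mul_right h2)
          (fun _ _ _ _ h => h.inv_left) (fun _ _ _ _ h => h.inv_right) hx hy
      induction hx using Subgroup.closure_induction with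
      | mem a ha =>
        have := pow_orderOf_eq_one a
        rwa [hinv a (hED ha)] at this
      | one => simp
      | mul a b ha hb iha ihb =>
        rw [(hcc a ha b hb).mul_pow, iha, ihb, one_mul]
      | inv a ha iha => simp [iha]
    have hp : IsPGroup 2 (Subgroup.closure E) := by
      intro x
      exact ⟨1, by ext; simpa using hexp x.1 x.2⟩
    have : Fact (Nat.Prime 2) := ⟨Nat.prime_two⟩
    obtain ⟨S, hS⟩ := hp.exists_le_sylow
    obtain ⟨g, hg⟩ := MulAction.exists_smul_eq G S T
    -- conjugating by g maps E into D ∩ T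
    have hmaps : Set.InjOn (fun x => g * x * g⁻¹) E := fun a _ b _ h => by
      simpa using h
    have hsub : (fun x => g * x * g⁻¹) '' E ⊆ {d : G | d ∈ D ∧ d ∈ T} := by
      rintro _ ⟨x, hx, rfl⟩
      refine ⟨hconj g x (hED hx), ?_⟩
      have hxS : x ∈ (S : Subgroup G) := hS (Subgroup.subset_closure hx)
      have : g • S = T := hg
      rw [← this]
      exact Subgroup.mem_pointwise_smul_iff_inv_smul_mem.mpr (by simpa [MulAut.conj_apply, mul_assoc] using hxS)
    calc E.ncard = ((fun x => g * x * g⁻¹) '' E).ncard := (Set.InjOn.ncard_image hmaps).symm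
      _ ≤ _ := Set.ncard_le_ncard hsub hfin
  have hmemset : {d : G | d ∈ D ∧ d ∈ T}.ncard ∈ {n : ℕ | ∃ E : Set G, E ⊆ D ∧ E.Finite ∧ (∀ a ∈ E, ∀ b ∈ E, Commute a b) ∧ E.ncard = n} :=
    ⟨_, fun x hx => hx.1, hfin, fun a ha b hb => hcommT T a b ha.1 ha.2 hb.1 hb.2, rfl⟩
  constructor
  · refine ⟨⟨?_⟩⟩
    rintro ⟨x, hx⟩ ⟨y, hy⟩
    apply Subtype.ext
    show x * y = y * x
    exact (Subgroup.closure_induction₂ (p := fun x y _ _ => Commute x y)
      (fun a b ha hb => hcommT T a b ha.1 ha.2 hb.1 hb.2)
      (fun _ _ => Commute.one_left _) (fun _ _ => Commute.one_right _)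
      (fun _ _ _ _ _ _ h1 h2 => h1.mul_left h2) (fun _ _ _ _ _ _ h1 h2 => h1.mul_right h2)
      (fun _ _ _ _ h => h.inv_left) (fun _ _ _ _ h => h.inv_right) hx hy).eq
  · unfold Cfsg.commutingWidth
    apply le_antisymm
    · exact le_csSup ⟨_, hle⟩ hmemset
    · exact csSup_le ⟨_, hmemset⟩ hle

end Cfsg.Agent.S5345
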