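import Cfsg.Statements.S5346
import Cfsg.Agent.Lib.ThreeTrans.ZStarP

set_option autoImplicit false
open Cfsg

namespace Cfsg.Agent.S5346

/-- Let D be a conjugation-invariant generating set of 3-transpositions of a finite group G and d a member of D. Then D has width 1 (no two different members of D commute) if and only if G is the product of the subgroup generated by d with the largest normal 3-subgroup of G. -/
theorem result {G : Type*} [Group G] [Finite G] {D : Set G} (hD : Cfsg.IsThreeTranspositionGroup D) {d : G} (hd : d ∈ D) : Cfsg.commutingWidth D = 1 ↔ Subgroup.zpowers d ⊔ Cfsg.pCore 3 G = ⊤ := by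
  classical
  obtain ⟨⟨hord, h23⟩, hcj, hcl⟩ := hD
  have hinv : ∀ a ∈ D, a * a = 1 := fun a ha => Cfsg.Agent.Lib.ThreeTrans.ZS.invol_mul_self (hord a ha)
  have hdord := hord d hd
  have : Fact (Nat.Prime 3) := ⟨Nat.prime_three⟩
  have : Fact (Nat.Prime 2) := ⟨Nat.prime_two⟩
  constructor
  · intro hw
    -- no two different members commute
    have hbdd : BddAbove {n : ℕ | ∃ E : Set G, E ⊆ D ∧ E.Finite ∧ (∀ a ∈ E, ∀ b ∈ E, Commute a b) ∧ E.ncard = n} := by
      refine ⟨Nat.card G, ?_⟩
      rintro n ⟨E, -, -, -, rfl⟩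
      rw [← Set.ncard_univ]
      exact Set.ncard_le_ncard (Set.subset_univ _) Set.finite_univ
    have hnc : ∀ a ∈ D, ∀ b ∈ D, Commute a b → a = b := by
      intro a ha b hb hab
      by_contra hne
      have h2 : 2 ∈ {n : ℕ | ∃ E : Set G, E ⊆ D ∧ E.Finite ∧ (∀ a ∈ E, ∀ b ∈ E, Commute a b) ∧ E.ncard = n} := by
        refine ⟨{a, b}, ?_, Set.toFinite _, ?_, Set.ncard_pair hne⟩
        · rintro x (rfl | rfl)
          · exact ha
          · exact hb
        · rintro x (rfl | rfl) y (rfl | rfl)
          · exact Commute.refl _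
          · exact hab
          · exact hab.symm
          · exact Commute.refl _
      have h3 := le_csSup hbdd h2
      rw [Cfsg.commutingWidth] at hw
      omega
    -- all products have order a power of three
    have hpow : ∀ a ∈ D, ∀ b ∈ D, ∃ k : ℕ, orderOf (a * b) = 3 ^ k := by
      intro a ha b hb
      by_cases hab : a = b
      · exact ⟨0, by rw [hab, hinv b hb]; simp⟩
      · refine ⟨1, ?_⟩
        rcases h23 a ha b hb with h | h
        · exfalso
          apply hab
          apply hnc a ha b hb
          have h1 : a * b * (a * b) = 1 := by rw [← pow_two]; exact h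
          have e1 : a⁻¹ = a := inv_eq_of_mul_eq_one_left (hinv a ha)
          have e2 : b⁻¹ = b := inv_eq_of_mul_eq_one_left (hinv b hb)
          have h2 : a * b = (a * b)⁻¹ := eq_inv_of_mul_eq_one_left h1
          rw [mul_inv_rev, e1, e2] at h2
          exact h2
        · rw [pow_one]
          refine orderOf_eq_prime h ?_
          intro h1
          apply hab
          have e2 : b⁻¹ = b := inv_eq_of_mul_eq_one_left (hinv b hb)
          have := eq_inv_of_mul_eq_one_left h1
          rwa [e2] at this
    -- `D` is the class of `d`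
    have hconj : ∀ a ∈ D, a ∈ conjugatesOf d := by
      intro a ha
      obtain ⟨k, hk⟩ := hpow d hd a ha
      have hodd : Odd (orderOf (d * a)) := by
        rw [hk]
        exact Odd.pow (by decide)
      obtain ⟨c, -, hc⟩ := Cfsg.Agent.Lib.ThreeTrans.ZS.dih_odd_exists (hinv d hd) (hinv a ha) hodd
      exact isConj_iff.mpr ⟨c, hc⟩
    have hsub : conjugatesOf d ⊆ D := by
      intro a ha
      obtain ⟨g, rfl⟩ := isConj_iff.mp ha
      exact hcj g d hd
    have hmain := Cfsg.Agent.Lib.ThreeTrans.ZS.zstar_odd_prime Nat.prime_three (by norm_num) d hdord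
      (fun a ha b hb => hpow a (hsub ha) b (hsub hb))
    rw [eq_top_iff, ← hcl, Subgroup.closure_le]
    intro a ha
    have h1 := hmain a (hconj a ha) d (IsConj.refl d)
    have e : a = (a * d) * d := by
      rw [mul_assoc, hinv d hd, mul_one]
    change a ∈ Subgroup.zpowers d ⊔ Cfsg.pCore 3 G
    rw [e]
    have h2 : a * d ∈ Subgroup.zpowers d ⊔ Cfsg.pCore 3 G := (le_sup_right : Cfsg.pCore 3 G ≤ _) h1
    have h3 : d ∈ Subgroup.zpowers d ⊔ Cfsg.pCore 3 G :=
      (le_sup_left : Subgroup.zpowers d ≤ _) (Subgroup.mem_zpowers d)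
    exact Subgroup.mul_mem _ h2 h3
  · intro htop
    have hQn : (Cfsg.pCore 3 G).Normal := Cfsg.Agent.Lib.Basic.pCore_normal (G := G) 3
    have hQp : IsPGroup 3 (Cfsg.pCore 3 G) := Cfsg.Agent.Lib.Basic.pCore_isPGroup 3
    have hQ2 : ∀ y ∈ Cfsg.pCore 3 G, y * y = 1 → y = 1 := by
      intro y hy h2
      obtain ⟨n, hn⟩ := IsPGroup.iff_card.mp hQp
      have h3 : orderOf y ∣ 3 ^ n := by
        rw [← hn, ← Subgroup.orderOf_mk y hy]
        exact orderOf_dvd_natCard _
      have h4 : Odd (orderOf y) := by
        obtain ⟨k, -, hk⟩ := (Nat.dvd_prime_pow Nat.prime_three).mp h3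
        rw [hk]
        exact Odd.pow (by decide)
      exact Cfsg.Agent.Lib.ThreeTrans.ZS.mul_eq_one_of_odd_of_sq h4 h2
    -- members of `D` lie in `d O₃(G)`
    have hcoset : ∀ a ∈ D, d * a ∈ Cfsg.pCore 3 G := by
      intro a ha
      have h1 : a ∈ ((Subgroup.zpowers d ⊔ Cfsg.pCore 3 G : Subgroup G) : Set G) := by
        rw [htop]
        trivial
      rw [Subgroup.mul_normal] at h1
      obtain ⟨x, hx, y, hy, rfl⟩ := Set.mem_mul.mp h1
      obtain ⟨i, rfl⟩ := Subgroup.mem_zpowers_iff.mp hx
      rcases Int.even_or_odd i with hi | hi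
      · exfalso
        have h2 : d ^ i = 1 := by
          obtain ⟨m, rfl⟩ := hi
          rw [← two_mul, zpow_mul]
          have : d ^ (2 : ℤ) = 1 := by
            rw [zpow_ofNat, pow_two, hinv d hd]
          rw [this, one_zpow] 
        rw [h2, one_mul] at ha
        have h3 := hQ2 y hy (hinv y ha)
        have h4 := hord y ha
        rw [h3, orderOf_one] at h4
        omega
      · have h2 : d ^ i = d := by
          obtain ⟨m, rfl⟩ := hi
          rw [zpow_add, zpow_mul, zpow_one]
          have : d ^ (2 : ℤ) = 1 := by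
            rw [zpow_ofNat, pow_two, hinv d hd]
          rw [this, one_zpow, one_mul]
        rw [h2, ← mul_assoc, hinv d hd, one_mul]
        exact hy
    have hnc : ∀ a ∈ D, ∀ b ∈ D, Commute a b → a = b := by
      intro a ha b hb hab
      have h1 := hcoset a ha
      have h2 := hcoset b hb
      have e : a * b = (d * a)⁻¹ * (d * b) := by
        have e1 : a⁻¹ = a := inv_eq_of_mul_eq_one_left (hinv a ha)
        have e2 : d⁻¹ = d := inv_eq_of_mul_eq_one_left (hinv d hd)
        rw [mul_inv_rev, e1, e2]
        calc a * b = a * 1 * b := by rw [mul_one]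
          _ = a * (d * d) * b := by rw [hinv d hd]
          _ = a * d * (d * b) := by group
      have h3 : a * b ∈ Cfsg.pCore 3 G := by
        rw [e]
        exact Subgroup.mul_mem _ (Subgroup.inv_mem _ h1) h2
      have h4 : (a * b) * (a * b) = 1 := by
        calc (a * b) * (a * b) = a * (b * a) * b := by group
          _ = a * (a * b) * b := by rw [hab.eq]
          _ = (a * a) * (b * b) := by group
          _ = 1 := by rw [hinv a ha, hinv b hb, one_mul]
      have h5 := hQ2 _ h3 h4
      have e2 : b⁻¹ = b := inv_eq_of_mul_eq_one_left (hinv b hb)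
      have := eq_inv_of_mul_eq_one_left h5
      rwa [e2] at this
    have hgr : IsGreatest {n : ℕ | ∃ E : Set G, E ⊆ D ∧ E.Finite ∧ (∀ a ∈ E, ∀ b ∈ E, Commute a b) ∧ E.ncard = n} 1 := by
      constructor
      · refine ⟨{d}, ?_, Set.toFinite _, ?_, Set.ncard_singleton d⟩
        · rintro x rfl
          exact hd
        · rintro x rfl y rfl
          exact Commute.refl _
      · rintro n ⟨E, hE, hEf, hEc, rfl⟩
        rw [Set.ncard_le_one hEf]
        intro a ha b hb
        exact hnc a (hE ha) b (hE hb) (hEc a ha b hb)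
    exact hgr.csSup_eq

end Cfsg.Agent.S5346
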