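import Cfsg.Statements.S5350
import Cfsg.Agent.Lib.ThreeTrans.TTWidth

set_option autoImplicit false
open Cfsg

namespace Cfsg.Agent.S5350

/-- Let D be a conjugacy class of 3-transpositions generating the finite group G, with at least two members, and d a member of D. Then the set of members w of D whose commuting partners in D (other than w) are exactly those of d (other than d) coincides with the set of members of D lying in the coset of d modulo the largest normal 3-subgroup of G, and also with the orbit of d under conjugation by that normal 3-subgroup. -/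
theorem result {G : Type*} [Group G] [Finite G] {D : Set G} (hD : Cfsg.IsThreeTranspositionClass D) (hD2 : ∃ a ∈ D, ∃ b ∈ D, a ≠ b) {d : G} (hd : d ∈ D) : {w : G | w ∈ D ∧ {y : G | y ∈ D ∧ y ≠ d ∧ Commute d y} = {y : G | y ∈ D ∧ y ≠ w ∧ Commute w y}} = {w : G | w ∈ D ∧ d⁻¹ * w ∈ Cfsg.pCore 3 G} ∧ {w : G | w ∈ D ∧ {y : G | y ∈ D ∧ y ≠ d ∧ Commute d y} = {y : G | y ∈ D ∧ y ≠ w ∧ Commute w y}} = {w : G | ∃ g ∈ Cfsg.pCore 3 G, w = g * d * g⁻¹} := by
  have h := Cfsg.Agent.Lib.ThreeTrans.TL.CD.of_class hD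
  have hsig : ∀ w ∈ D, {y : G | y ∈ D ∧ y ≠ d ∧ Commute d y} = {y : G | y ∈ D ∧ y ≠ w ∧ Commute w y} ↔
      d⁻¹ * w ∈ Cfsg.pCore 3 G := by
    intro w hw
    constructor
    · intro he
      rw [h.inv_eq hd]
      exact Cfsg.Agent.Lib.ThreeTrans.TL.mul_mem_of_NS _ G rfl D hD d hd w hw he
    · intro hm
      rw [h.inv_eq hd] at hm
      exact Cfsg.Agent.Lib.ThreeTrans.TL.NS_eq_of_coset h hd hw hm
  have h1 : {w : G | w ∈ D ∧ {y : G | y ∈ D ∧ y ≠ d ∧ Commute d y} = {y : G | y ∈ D ∧ y ≠ w ∧ Commute w y}} =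
      {w : G | w ∈ D ∧ d⁻¹ * w ∈ Cfsg.pCore 3 G} := by
    ext w
    constructor
    · rintro ⟨hw, he⟩
      exact ⟨hw, (hsig w hw).mp he⟩
    · rintro ⟨hw, he⟩
      exact ⟨hw, (hsig w hw).mpr he⟩
  refine ⟨h1, ?_⟩
  rw [h1]
  haveI : Fact (Nat.Prime 3) := ⟨Nat.prime_three⟩
  have hn := Cfsg.Agent.Lib.Basic.pCore_normal (G := G) 3
  ext w
  constructor
  · rintro ⟨hw, hm⟩
    refine ⟨d * w, ?_, ?_⟩
    · rwa [h.inv_eq hd] at hm
    · by_cases hdw : d = w
      · subst hdw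
        rw [h.inv d hd]; group
      · rw [h.inv_eq hd] at hm
        have h3 : (d * w) ^ 3 = 1 := h.pair3 hd hw hm
        have hb := Cfsg.Agent.Lib.ThreeTrans.braid_of_cube (h.inv d hd) (h.inv w hw) h3
        have e : d * w * d * (d * w)⁻¹ = d * w * d * w⁻¹ * d⁻¹ := by group
        rw [e, h.inv_eq hd, h.inv_eq hw, hb]
        have e2 : w * d * w * w * d = w * d * (w * w) * d := by group
        rw [e2, h.inv w hw, mul_one, mul_assoc, h.inv d hd, mul_one]
  · rintro ⟨g, hg, rfl⟩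
    refine ⟨h.cj g d hd, ?_⟩
    have e : d⁻¹ * (g * d * g⁻¹) = (d⁻¹ * g * d) * g⁻¹ := by group
    rw [e]
    have h2 : d⁻¹ * g * d⁻¹⁻¹ ∈ Cfsg.pCore 3 G := hn.conj_mem g hg d⁻¹
    rw [inv_inv] at h2
    exact mul_mem h2 (inv_mem hg)

end Cfsg.Agent.S5350
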