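import Cfsg.Statements.S5351
import Cfsg.Agent.Lib.ThreeTrans.TTLayer
import Cfsg.Agent.S5347

set_option autoImplicit false
open Cfsg

namespace Cfsg.Agent.S5351

/-- Let D be a conjugacy class of 3-transpositions generating the finite group G, with at least two members. Then for every prime p > 3 the largest normal p-subgroup of G is central, and exactly one of the following holds: the largest normal 2-subgroup of G is not central; the largest normal 3-subgroup of G is not central; the layer of G (the product of its components) is non-trivial. -/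
theorem result {G : Type*} [Group G] [Finite G] {D : Set G} (hD : Cfsg.IsThreeTranspositionClass D) (hD2 : ∃ a ∈ D, ∃ b ∈ D, a ≠ b) : (∀ p : ℕ, p.Prime → 3 < p → Cfsg.pCore p G ≤ Subgroup.center G) ∧ ((¬ Cfsg.pCore 2 G ≤ Subgroup.center G ∧ Cfsg.pCore 3 G ≤ Subgroup.center G ∧ Cfsg.layer G = ⊥) ∨ (Cfsg.pCore 2 G ≤ Subgroup.center G ∧ ¬ Cfsg.pCore 3 G ≤ Subgroup.center G ∧ Cfsg.layer G = ⊥) ∨ (Cfsg.pCore 2 G ≤ Subgroup.center G ∧ Cfsg.pCore 3 G ≤ Subgroup.center G ∧ Cfsg.layer G ≠ ⊥)) := by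
  have h := Cfsg.Agent.Lib.ThreeTrans.TL.CD.of_class hD
  have hp : ∀ p : ℕ, p.Prime → 3 < p → Cfsg.pCore p G ≤ Subgroup.center G := by
    intro p hp hp3
    haveI : Fact p.Prime := ⟨hp⟩
    intro x hx
    apply h.mem_center
    intro d hd
    have hD' : Cfsg.IsThreeTranspositionGroup D := ⟨hD.1, h.cj, h.gen⟩
    exact Cfsg.Agent.S5347.result hD' hp hp3 (Cfsg.pCore p G) (Cfsg.Agent.Lib.Basic.pCore_isPGroup p) hd
      (by rw [Subgroup.normalizer_eq_top_iff.mpr (Cfsg.Agent.Lib.Basic.pCore_normal p)]; exact Subgroup.mem_top d) x hx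
  refine ⟨hp, ?_⟩
  have h23 := Cfsg.Agent.Lib.ThreeTrans.TL.not_both h
  have hE2 := Cfsg.Agent.Lib.ThreeTrans.TL.layer_bot_of_two h
  have hE3 := Cfsg.Agent.Lib.ThreeTrans.TL.layer_bot_of_three h
  have hall := Cfsg.Agent.Lib.ThreeTrans.TL.not_all_central h hD2
  by_cases h2 : Cfsg.pCore 2 G ≤ Subgroup.center G
  · by_cases h3 : Cfsg.pCore 3 G ≤ Subgroup.center G
    · refine Or.inr (Or.inr ⟨h2, h3, fun hE => hall h2 h3 hp hE⟩)
    · exact Or.inr (Or.inl ⟨h2, h3, hE3 h3⟩)
  · rcases h23 with h23 | h23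
    · exact absurd h23 h2
    · exact Or.inl ⟨h2, h23, hE2 h2⟩

end Cfsg.Agent.S5351
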