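import Cfsg.Statements.S5353
import Cfsg.Agent.Lib.ThreeTrans.TTPrim

set_option autoImplicit false
open Cfsg

namespace Cfsg.Agent.S5353

/-- Let D be a conjugacy class of 3-transpositions generating the finite group G, with at least two members, such that the largest normal 2-subgroup and the largest normal 3-subgroup of G are central, and let L be a quasisimple normal subgroup with generalized Fitting subgroup of G equal to L times the centre. If L has index at most 2 then G acts primitively on D by conjugation; and if the commuting graph of D is connected then L has index at most 2. -/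
theorem result {G : Type*} [Group G] [Finite G] {D : Set G} (hD : Cfsg.IsThreeTranspositionClass D) (hD2 : ∃ a ∈ D, ∃ b ∈ D, a ≠ b) (h2 : Cfsg.pCore 2 G ≤ Subgroup.center G) (h3 : Cfsg.pCore 3 G ≤ Subgroup.center G) (L : Subgroup G) [L.Normal] (hL : Cfsg.IsQuasisimple L) (hF : Cfsg.generalizedFittingSubgroup G = L ⊔ Subgroup.center G) : (L.index ≤ 2 → Cfsg.IsPrimitiveUnderConj D) ∧ ((Cfsg.commutingGraph D).Connected → L.index ≤ 2) := by
  open Cfsg.Agent.Lib.ThreeTrans.TL in
  have h := CD.of_class hD
  open Cfsg.Agent.Lib.ThreeTrans.TL in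
  refine ⟨fun hi => ⟨?_, hD2, ?_⟩, fun hc => ?_⟩
  · intro a ha b hb
    obtain ⟨g, rfl⟩ := h.tr a ha b hb
    exact ⟨g, rfl⟩
  · intro B hBD hB
    exact Cfsg.Agent.Lib.ThreeTrans.TL.block_trivial h hD.1 h2 h3 inferInstance hL hF
      (Cfsg.Agent.Lib.ThreeTrans.TL.orbit_of_index h inferInstance hi) hBD hB
  · obtain ⟨a, ha, -⟩ := hD2
    exact Cfsg.Agent.Lib.ThreeTrans.TL.index_le_two_of_coset h inferInstance ha fun x hx =>
      Cfsg.Agent.Lib.ThreeTrans.TL.coset_of_connected h inferInstance hL hc ⟨a, ha⟩ ⟨x, hx⟩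

end Cfsg.Agent.S5353
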