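import Cfsg.Statements.S5355
import Cfsg.Agent.Lib.ThreeTrans.TTS4

set_option autoImplicit false
open Cfsg

namespace Cfsg.Agent.S5355

/-- Let D be a conjugacy class of 3-transpositions generating the finite group G, with at least two members, and d a member of D. Suppose that every member of D commuting with d commutes with exactly the same members of D as d does, and that exactly one member of D other than d commutes with d. Then G is isomorphic to the symmetric group of degree 4. -/
theorem result {G : Type*} [Group G] [Finite G] {D : Set G} (hD : Cfsg.IsThreeTranspositionClass D) (hD2 : ∃ a ∈ D, ∃ b ∈ D, a ≠ b) {d : G} (hd : d ∈ D) (hV : {y : G | y ∈ D ∧ Commute d y} = {v : G | v ∈ D ∧ ∀ e ∈ D, Commute v e ↔ Commute d e}) (hm : {y : G | y ∈ D ∧ Commute d y}.ncard = 2) : Nonempty (G ≃* Equiv.Perm (Fin 4)) := by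
  have h := Cfsg.Agent.Lib.ThreeTrans.TL.CD.of_class hD
  have hself : d ∈ {y : G | y ∈ D ∧ Commute d y} := ⟨hd, Commute.refl d⟩
  obtain ⟨u, v, huv, hs⟩ := Set.ncard_eq_two.mp hm
  have hex : ∃ d', d' ≠ d ∧ {y : G | y ∈ D ∧ Commute d y} = {d, d'} := by
    have hd2 : d ∈ ({u, v} : Set G) := hs ▸ hself
    rcases hd2 with h1 | h1
    · refine ⟨v, ?_, ?_⟩
      · rw [h1]; exact huv.symm
      · rw [hs, h1]
    · have h1' : d = v := h1
      refine ⟨u, ?_, ?_⟩
      · rw [h1']; exact huv
      · rw [hs, h1', Set.pair_comm]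
  obtain ⟨d', hne, hset⟩ := hex
  have hd'm : d' ∈ {y : G | y ∈ D ∧ Commute d y} := by
    rw [hset]; exact Or.inr rfl
  have hd'V := hd'm
  rw [hV] at hd'V
  refine Cfsg.Agent.Lib.ThreeTrans.TL.s4_main h hD.1 hD2 hd
    (d' := d') ⟨hd'm.1, hne, hd'm.2, ?_, hd'V.2⟩
  intro y hy hc
  have : y ∈ {y : G | y ∈ D ∧ Commute d y} := ⟨hy, hc⟩
  rw [hset] at this
  exact this

end Cfsg.Agent.S5355
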