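import Cfsg.Statements.S5358

set_option autoImplicit false
open Cfsg

namespace Cfsg.Agent.S5358

lemma polarVec_dot {n : ℕ} (Q : QuadraticForm (ZMod 3) (Fin n → ZMod 3)) (w x : Fin n → ZMod 3) :
    Cfsg.polarVec (⇑Q) w ⬝ᵥ x = QuadraticMap.polar (⇑Q) w x := by
  have h := LinearMap.pi_apply_eq_sum_univ (QuadraticMap.polarBilin Q w) x
  simp only [QuadraticMap.polarBilin_apply_apply] at h
  rw [h]
  simp only [dotProduct, Cfsg.polarVec, smul_eq_mul]
  apply Finset.sum_congr rfl
  intro j _
  have : (fun i => if j = i then (1 : ZMod 3) else 0) = Pi.single j 1 := by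
    ext i
    simp [Pi.single_apply, eq_comm]
  rw [this, mul_comm]

lemma refl_mulVec {n : ℕ} (Q : QuadraticForm (ZMod 3) (Fin n → ZMod 3)) (w x : Fin n → ZMod 3) :
    (Cfsg.reflectionMatrix (⇑Q) w).mulVec x = x - ((Q w)⁻¹ * QuadraticMap.polarBilin Q w x) • w := by
  unfold Cfsg.reflectionMatrix
  rw [Matrix.sub_mulVec, Matrix.one_mulVec, Matrix.smul_mulVec, Matrix.vecMulVec_mulVec, polarVec_dot]
  ext i
  simp only [Pi.sub_apply, Pi.smul_apply, smul_eq_mul, MulOpposite.smul_eq_mul_unop, MulOpposite.unop_op,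
    QuadraticMap.polarBilin_apply_apply]
  ring

/-- Let Q be a non-degenerate quadratic form on the n-dimensional coordinate space over the field with three elements and u, v vectors of the same non-zero norm Q(u) = Q(v) spanning different lines (v ≠ u and v ≠ −u). Then the reflection matrices of u and v commute if and only if u and v are orthogonal for the polar form of Q. -/
theorem result (n : ℕ) (Q : QuadraticForm (ZMod 3) (Fin n → ZMod 3)) (hQ : (QuadraticMap.polarBilin Q).Nondegenerate) (u v : Fin n → ZMod 3) (hu : Q u ≠ 0) (huv : Q u = Q v) (h1 : v ≠ u) (h2 : v ≠ -u) : Commute (Cfsg.reflectionMatrix (⇑Q) u) (Cfsg.reflectionMatrix (⇑Q) v) ↔ QuadraticMap.polar (⇑Q) u v = 0 := by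
  have hpol : ∀ x y, QuadraticMap.polar (⇑Q) x y = QuadraticMap.polarBilin Q x y := fun _ _ => rfl
  rw [hpol]
  set B := QuadraticMap.polarBilin Q with hB
  have hsym : ∀ x y, B x y = B y x := fun x y => QuadraticMap.polar_comm (⇑Q) x y
  have hself : ∀ x, B x x = 2 * Q x := by
    intro x
    have := QuadraticMap.polar_self Q x
    rw [hpol] at this
    rw [this, two_smul, two_mul]
  set c := (Q u)⁻¹ with hc
  have hc0 : c ≠ 0 := inv_ne_zero hu
  have hv' : (Q v)⁻¹ = c := by rw [← huv]
  have hcq : c * Q v = 1 := by rw [← huv, hc, inv_mul_cancel₀ hu]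
  have hru : ∀ x, (Cfsg.reflectionMatrix (⇑Q) u).mulVec x = x - (c * B u x) • u := fun x => refl_mulVec Q u x
  have hrv : ∀ x, (Cfsg.reflectionMatrix (⇑Q) v).mulVec x = x - (c * B v x) • v := fun x => by
    rw [refl_mulVec, hv']
  constructor
  · intro hcomm
    have heq : (Cfsg.reflectionMatrix (⇑Q) u).mulVec ((Cfsg.reflectionMatrix (⇑Q) v).mulVec v) =
        (Cfsg.reflectionMatrix (⇑Q) v).mulVec ((Cfsg.reflectionMatrix (⇑Q) u).mulVec v) := by
      rw [Matrix.mulVec_mulVec, Matrix.mulVec_mulVec, hcomm.eq]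
    have e1 : c * (2 * Q v) = 2 := by rw [← mul_assoc, mul_comm c 2, mul_assoc, hcq, mul_one]
    have hleft : (Cfsg.reflectionMatrix (⇑Q) u).mulVec ((Cfsg.reflectionMatrix (⇑Q) v).mulVec v) =
        -v + (c * B u v) • u := by
      rw [hrv, hru, hself, map_sub, map_smul]
      ext i
      simp only [Pi.sub_apply, Pi.smul_apply, smul_eq_mul, Pi.add_apply, Pi.neg_apply, e1]
      ring_nf
    have hright : (Cfsg.reflectionMatrix (⇑Q) v).mulVec ((Cfsg.reflectionMatrix (⇑Q) u).mulVec v) =
        -v - (c * B u v) • u + ((c * B u v) * (c * B u v)) • v := by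
      rw [hru, hrv, map_sub, map_smul, hself, hsym v u, smul_eq_mul]
      have e2 : c * (2 * Q v - c * B u v * B u v) = 2 - (c * B u v) * (c * B u v) := by
        rw [mul_sub, e1]; ring
      rw [e2]
      ext i
      simp only [Pi.sub_apply, Pi.smul_apply, smul_eq_mul, Pi.add_apply, Pi.neg_apply]
      ring_nf
    rw [hleft, hright] at heq
    by_contra hne
    have ha0 : c * B u v ≠ 0 := mul_ne_zero hc0 hne
    obtain ⟨a, ha⟩ : ∃ a, a = c * B u v := ⟨_, rfl⟩
    rw [← ha] at heq ha0
    have h3 : (a + a) • u = (a * a) • v := by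
      ext i
      have := congrFun heq i
      simp only [Pi.sub_apply, Pi.smul_apply, smul_eq_mul, Pi.add_apply, Pi.neg_apply] at this ⊢
      linear_combination this
    have hcases : ∀ a : ZMod 3, a ≠ 0 → a = 1 ∨ a = 2 := by decide
    rcases hcases a ha0 with rfl | rfl
    · apply h2
      ext i
      have := congrFun h3 i
      simp only [Pi.smul_apply, smul_eq_mul, Pi.neg_apply] at this ⊢
      have e3 : (1 + 1 : ZMod 3) = -1 := by decide
      have e4 : (1 * 1 : ZMod 3) = 1 := by decide
      rw [e3, e4] at this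
      linear_combination -this
    · apply h1
      ext i
      have := congrFun h3 i
      simp only [Pi.smul_apply, smul_eq_mul] at this ⊢
      have e3 : (2 + 2 : ZMod 3) = 1 := by decide
      have e4 : (2 * 2 : ZMod 3) = 1 := by decide
      rw [e3, e4] at this
      linear_combination -this
  · intro h0
    rw [Commute, SemiconjBy, Matrix.ext_iff_mulVec]
    intro x
    rw [← Matrix.mulVec_mulVec, ← Matrix.mulVec_mulVec, hrv, hru, hru, hrv]
    simp only [map_sub, map_smul, smul_eq_mul, hsym v u, h0]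
    ext i
    simp only [Pi.sub_apply, Pi.smul_apply, smul_eq_mul]
    ring

end Cfsg.Agent.S5358
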