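import Cfsg.Statements.S5363

set_option autoImplicit false
open Cfsg

namespace Cfsg.Agent.S5363

/-- Let D be a conjugation-invariant set of involutions of a finite group G. Then every product of two members of D has odd order or order 2 if and only if, for every a in D and every b in D different from a and commuting with a, the members of D commuting with a b are exactly those commuting with both a and b. -/
theorem result {G : Type*} [Group G] [Finite G] {D : Set G} (hinv : ∀ d ∈ D, orderOf d = 2) (hconj : ∀ g : G, ∀ d ∈ D, g * d * g⁻¹ ∈ D) : (∀ a ∈ D, ∀ b ∈ D, Odd (orderOf (a * b)) ∨ orderOf (a * b) = 2) ↔ ∀ a ∈ D, ∀ b ∈ D, b ≠ a → Commute a b → {y : G | y ∈ D ∧ Commute (a * b) y} = {y : G | y ∈ D ∧ Commute a y} ∩ {y : G | y ∈ D ∧ Commute b y} := by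
  classical
  have hsq : ∀ d ∈ D, d * d = 1 := by
    intro d hd
    have := pow_orderOf_eq_one d
    rw [hinv d hd, pow_two] at this
    exact this
  constructor
  · intro hodd a ha b hb hba hab
    ext y
    simp only [Set.mem_ofPred_eq, Set.mem_inter_iff]
    constructor
    · rintro ⟨hy, hyc⟩
      -- y commutes with t = ab; show y commutes with a
      have ha2 := hsq a ha
      have hb2 := hsq b hb
      have hy2 := hsq y hy
      have hyi : y⁻¹ = y := inv_eq_of_mul_eq_one_left hy2
      have hai : a⁻¹ = a := inv_eq_of_mul_eq_one_left ha2
      have hbi : b⁻¹ = b := inv_eq_of_mul_eq_one_left hb2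
      have hca : Commute a y := by
        rcases hodd a ha y hy with hm | hm
        · by_contra hne
          -- r = (a y)^2 has odd order m > 1
          set u := a * y with hu
          set r := u * u with hr
          have hrord : orderOf r = orderOf u := by
            rw [hr, ← pow_two, orderOf_pow' u (two_ne_zero)]
            have : (orderOf u).gcd 2 = 1 := Nat.Coprime.symm ((Nat.coprime_two_left).mpr hm)
            simp [this]
          have hu1 : u ≠ 1 := by
            intro h1
            apply hne
            have : a = y⁻¹ := by
              rw [eq_inv_iff_mul_eq_one]; exact h1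
            rw [this, hyi]
          have hm1 : orderOf u ≠ 1 := by
            intro h1; exact hu1 (orderOf_eq_one_iff.mp h1)
          -- the conjugates
          set a' := y * a * y⁻¹ with ha'
          set b' := y * b * y⁻¹ with hb'
          have ha'D : a' ∈ D := hconj y a ha
          have hb'D : b' ∈ D := hconj y b hb
          have ha'2 := hsq a' ha'D
          have hb'2 := hsq b' hb'D
          have h1 : a' * b' = a * b := by
            rw [ha', hb', hyi]
            have : y * (a * b) * y = a * b := by
              have h5 : a * b * y = y * (a * b) := hyc.eq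
              rw [← h5, mul_assoc, hy2, mul_one]
            calc y * a * y * (y * b * y) = y * (a * b) * y := by
                    simp only [mul_assoc]; rw [← mul_assoc y y (b * y), hy2, one_mul]
              _ = a * b := this
          have hra : r = a * a' := by
            rw [hr, hu, ha', hyi]; simp only [mul_assoc]
          have hrb : r = b * b' := by
            rw [hra]
            have : a' = a * b * b' := by
              rw [← h1, mul_assoc, hb'2, mul_one]
            calc a * a' = a * (a * b * b') := by rw [← this]
              _ = (a * a) * (b * b') := by simp only [mul_assoc]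
              _ = b * b' := by rw [ha2, one_mul]
          -- a' * b = t * r⁻¹
          have hrinvb : r⁻¹ = b' * b := by
            rw [hrb, mul_inv_rev]
            rw [inv_eq_of_mul_eq_one_left hb2, inv_eq_of_mul_eq_one_left hb'2]
          have hrinva : r⁻¹ = a' * a := by
            rw [hra, mul_inv_rev]
            rw [inv_eq_of_mul_eq_one_left ha2, inv_eq_of_mul_eq_one_left ha'2]
          have hprod : a' * b = (a * b) * r⁻¹ := by
            rw [hrinvb]
            calc a' * b = (a * b * b') * b := by
                    congr 1; rw [← h1, mul_assoc, hb'2, mul_one]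
              _ = a * b * (b' * b) := by simp only [mul_assoc]
          -- t commutes with r
          have htr : Commute (a * b) r⁻¹ := by
            show a * b * r⁻¹ = r⁻¹ * (a * b)
            have h6 : a * b * r⁻¹ = a' * b := hprod.symm
            rw [h6, hrinva]
            have : a * b = b * a := hab.eq
            calc a' * b = a' * (a * a) * b := by rw [ha2, mul_one]
              _ = a' * a * (a * b) := by simp only [mul_assoc]
          have htord : orderOf (a * b) = 2 := by
            apply orderOf_eq_prime
            · rw [pow_two]
              calc a * b * (a * b) = a * (b * a) * b := by simp only [mul_assoc]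
                _ = a * (a * b) * b := by rw [hab.eq]
                _ = (a * a) * (b * b) := by simp only [mul_assoc]
                _ = 1 := by rw [ha2, hb2, one_mul]
            · intro h
              apply hba
              have : a = b⁻¹ := by
                rw [eq_inv_iff_mul_eq_one]; exact h
              rw [this, hbi]
          have hrord' : orderOf r⁻¹ = orderOf u := by
            rw [orderOf_inv, hrord]
          have hcop : Nat.Coprime (orderOf (a * b)) (orderOf r⁻¹) := by
            rw [htord, hrord']
            exact (Nat.coprime_two_left).mpr hm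
          have hfinal := htr.orderOf_mul_eq_mul_orderOf_of_coprime hcop
          rw [htord, hrord', ← hprod] at hfinal
          rcases hodd a' ha'D b hb with h7 | h7
          · rw [hfinal] at h7
            exact (Nat.not_odd_iff_even.mpr (even_two_mul _)) h7
          · rw [hfinal] at h7
            apply hm1
            omega
        · have : (a * y) ^ 2 = 1 := by rw [← hm]; exact pow_orderOf_eq_one _
          show a * y = y * a
          rw [pow_two] at this
          have h4 : (a * y)⁻¹ = a * y := inv_eq_of_mul_eq_one_left this
          rw [← h4, mul_inv_rev, hyi, hai]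
      refine ⟨⟨hy, hca⟩, hy, ?_⟩
      have : b = a * (a * b) := by rw [← mul_assoc, ha2, one_mul]
      rw [this]
      exact hca.mul_left hyc
    · rintro ⟨⟨hy, h1⟩, -, h2⟩
      exact ⟨hy, h1.mul_left h2⟩
  · intro h a ha b hb
    by_contra hcon
    rw [not_or] at hcon
    obtain ⟨hno, hn2⟩ := hcon
    rw [Nat.not_odd_iff_even] at hno
    obtain ⟨k, hk⟩ := hno
    have ha2 := hsq a ha
    have hb2 := hsq b hb
    have hai : a⁻¹ = a := inv_eq_of_mul_eq_one_left ha2
    have hbi : b⁻¹ = b := inv_eq_of_mul_eq_one_left hb2
    set w := a * b with hw
    have hpos : 0 < orderOf w := orderOf_pos w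
    have hk2 : 2 ≤ k := by omega
    set z := w ^ k with hz
    have hz1 : z ≠ 1 := pow_ne_one_of_lt_orderOf (by omega) (by omega)
    have hz2 : z * z = 1 := by
      rw [hz, ← pow_add, ← hk]; exact pow_orderOf_eq_one w
    have hzi : z⁻¹ = z := inv_eq_of_mul_eq_one_left hz2
    have haw : a * w * a⁻¹ = w⁻¹ := by
      rw [hw, hai, mul_inv_rev, hai, hbi, ← mul_assoc, ha2, one_mul]
    have hbw : b * w * b⁻¹ = w⁻¹ := by
      rw [hw, hbi, mul_inv_rev, hai, hbi]
      simp only [mul_assoc, hb2, mul_one]
    have haz : a * z * a⁻¹ = z := by
      rw [hz, ← conj_pow, haw, inv_pow, ← hz, hzi]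
    have hbz : b * z * b⁻¹ = z := by
      rw [hz, ← conj_pow, hbw, inv_pow, ← hz, hzi]
    have hcaz : Commute a z := by
      show a * z = z * a
      rw [mul_inv_eq_iff_eq_mul] at haz
      exact haz
    have hcbz : Commute b z := by
      show b * z = z * b
      rw [mul_inv_eq_iff_eq_mul] at hbz
      exact hbz
    -- a z lies in D
    have hazD : a * z ∈ D := by
      have hal : ∀ l : ℕ, a * w ^ l = (w ^ l)⁻¹ * a := by
        intro l
        have : a * w ^ l * a⁻¹ = (w ^ l)⁻¹ := by rw [← conj_pow, haw, inv_pow]
        rw [mul_inv_eq_iff_eq_mul] at this
        exact this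
      rcases Nat.even_or_odd' k with ⟨l, hl | hl⟩
      · have : a * z = (w ^ l)⁻¹ * a * ((w ^ l)⁻¹)⁻¹ := by
          rw [hz, hl, two_mul, pow_add, ← mul_assoc, hal l, inv_inv]
        rw [this]
        exact hconj _ a ha
      · have : a * z = (w ^ l)⁻¹ * b * ((w ^ l)⁻¹)⁻¹ := by
          rw [hz, hl, inv_inv]
          have e1 : w ^ (2 * l + 1) = w ^ l * (w * w ^ l) := by
            rw [two_mul, pow_add, pow_add, pow_one]; simp only [mul_assoc]
            rw [← pow_succ', pow_succ]
          rw [e1, ← mul_assoc, hal l, mul_assoc, ← mul_assoc a w, hw, ← mul_assoc a a, ha2, one_mul]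
          simp only [mul_assoc]
        rw [this]
        exact hconj _ b hb
    have hne : a * z ≠ a := by
      intro h1
      apply hz1
      exact mul_left_cancel (a := a) (by rw [h1, mul_one])
    have hcomm : Commute a (a * z) := (Commute.refl a).mul_right hcaz
    have hset := h a ha (a * z) hazD hne hcomm
    have haaz : a * (a * z) = z := by rw [← mul_assoc, ha2, one_mul]
    have hbmem : b ∈ {y : G | y ∈ D ∧ Commute (a * (a * z)) y} := by
      refine ⟨hb, ?_⟩
      rw [haaz]
      exact hcbz.symm
    rw [hset] at hbmem
    have hcab : Commute a b := hbmem.1.2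
    have hw2 : w ^ 2 = 1 := by
      rw [pow_two, hw]
      calc a * b * (a * b) = a * (b * a) * b := by simp only [mul_assoc]
        _ = a * (a * b) * b := by rw [hcab.eq]
        _ = (a * a) * (b * b) := by simp only [mul_assoc]
        _ = 1 := by rw [ha2, hb2, one_mul]
    have := orderOf_dvd_of_pow_eq_one hw2
    have := Nat.le_of_dvd (by norm_num) this
    omega

end Cfsg.Agent.S5363
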