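import Cfsg.Statements.S5364

set_option autoImplicit false
open Cfsg

namespace Cfsg.Agent.S5364

/-- Let D be a conjugation-invariant set of involutions of a finite group G and t an involution in the centre of G such that d t does not lie in D for any d in D. If the images of the members of D in G modulo the subgroup generated by t satisfy the 3-transposition order conditions (each has order 2 and any two have product of order at most 3), then so do the members of D. -/
theorem result {G : Type*} [Group G] [Finite G] {D : Set G} (hinv : ∀ d ∈ D, orderOf d = 2) (hconj : ∀ g : G, ∀ d ∈ D, g * d * g⁻¹ ∈ D) (t : G) (ht : orderOf t = 2) (htZ : t ∈ Subgroup.center G) (hDt : ∀ d ∈ D, d * t ∉ D) [(Subgroup.zpowers t).Normal] (himg : Cfsg.IsThreeTranspositionSet ((QuotientGroup.mk : G → G ⧸ Subgroup.zpowers t) '' D)) : Cfsg.IsThreeTranspositionSet D := by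
  classical
  refine ⟨hinv, ?_⟩
  intro d hd e he
  have hd2 : d * d = 1 := by
    have := pow_orderOf_eq_one d
    rw [hinv d hd] at this
    rwa [pow_two] at this
  have he2 : e * e = 1 := by
    have := pow_orderOf_eq_one e
    rw [hinv e he] at this
    rwa [pow_two] at this
  have hdi : d⁻¹ = d := inv_eq_of_mul_eq_one_left hd2
  have hei : e⁻¹ = e := inv_eq_of_mul_eq_one_left he2
  have ht2 : t * t = 1 := by
    have := pow_orderOf_eq_one t
    rw [ht] at this
    rwa [pow_two] at this
  -- an element of the cyclic group ⟨t⟩ is 1 or t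
  have hzp : ∀ x ∈ Subgroup.zpowers t, x = 1 ∨ x = t := by
    intro x hx
    obtain ⟨k, rfl⟩ := hx
    rcases Int.even_or_odd' k with ⟨m, rfl | rfl⟩
    · left
      show t ^ (2 * m) = 1
      rw [zpow_mul]
      have : t ^ (2 : ℤ) = 1 := by
        rw [show (2 : ℤ) = ((2 : ℕ) : ℤ) by rfl, zpow_natCast, pow_two, ht2]
      rw [this, one_zpow]
    · right
      show t ^ (2 * m + 1) = t
      rw [zpow_add, zpow_mul]
      have : t ^ (2 : ℤ) = 1 := by
        rw [show (2 : ℤ) = ((2 : ℕ) : ℤ) by rfl, zpow_natCast, pow_two, ht2]
      rw [this, one_zpow, one_mul, zpow_one]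
  have hcomm : ∀ x : G, t * x = x * t := fun x => by
    have := (Subgroup.mem_center_iff.mp htZ) x
    exact this.symm
  rcases himg.2 _ ⟨d, hd, rfl⟩ _ ⟨e, he, rfl⟩ with h | h
  · -- (de)^2 ∈ ⟨t⟩
    have hmem : (d * e) ^ 2 ∈ Subgroup.zpowers t := by
      rw [← QuotientGroup.eq_one_iff]
      simpa using h
    rcases hzp _ hmem with h1 | h1
    · exact Or.inl h1
    · exfalso
      apply hDt d hd
      have hcalc : d * t = e * d * e⁻¹ := by
        rw [← h1, hei]
        simp only [pow_two, mul_assoc]
        rw [← mul_assoc d d, hd2, one_mul]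
      rw [hcalc]
      exact hconj e d hd
  · have hmem : (d * e) ^ 3 ∈ Subgroup.zpowers t := by
      rw [← QuotientGroup.eq_one_iff]
      simpa using h
    rcases hzp _ hmem with h1 | h1
    · exact Or.inr h1
    · exfalso
      apply hDt d hd
      have hcalc : d * t = (e * d) * e * (e * d)⁻¹ := by
        rw [← h1, mul_inv_rev, hei, hdi]
        simp only [pow_succ, pow_zero, one_mul, mul_assoc]
        rw [← mul_assoc d d, hd2, one_mul]
      rw [hcalc]
      exact hconj _ e he

end Cfsg.Agent.S5364
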