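import Cfsg.Statements.S5367
import Cfsg.Agent.Lib.ThreeTrans.FischerLines

set_option autoImplicit false
open Cfsg

namespace Cfsg.Agent.S5367

/-- Let D be a conjugation-invariant generating set of 3-transpositions of a finite group G. Then the line system on D whose lines are the triples {x, y, y x y⁻¹} for non-commuting members x, y of D is a Fischer space: two points lie on at most one line, lines have three points, and two different meeting lines generate a subspace isomorphic to the dual affine plane of order two or to the affine plane of order three. -/
theorem result {G : Type*} [Group G] [Finite G] {D : Set G} (hD : Cfsg.IsThreeTranspositionGroup D) : Cfsg.IsFischerSpace (Cfsg.threeTranspositionLines D) := by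
  exact Cfsg.Agent.Lib.ThreeTrans.FL.fischer_main (Cfsg.Agent.Lib.ThreeTrans.TT.of_group hD)

end Cfsg.Agent.S5367
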