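import Cfsg.Statements.S5387
import Cfsg.Agent.Lib.Psl34.Cover
import Cfsg.Agent.Lib.KnownSimple.L34Lab.Rep

set_option autoImplicit false
open Cfsg

namespace Cfsg.Agent.S5387

/-- Up to isomorphism there is at most one quasisimple group whose centre is elementary abelian of order 4 and whose central quotient is isomorphic to the projective special linear group of dimension 3 over the field with four elements: any two such groups are isomorphic. -/
theorem result {L₁ L₂ : Type*} [Group L₁] [Finite L₁] [Group L₂] [Finite L₂] (F : Type) [Field F] [Fintype F] (hF : Fintype.card F = 4) (h₁ : Cfsg.IsQuasisimple L₁) (h₂ : Cfsg.IsQuasisimple L₂) (hc₁ : Nat.card (Subgroup.center L₁) = 4) (hc₂ : Nat.card (Subgroup.center L₂) = 4) (he₁ : ∀ x ∈ Subgroup.center L₁, x * x = 1) (he₂ : ∀ x ∈ Subgroup.center L₂, x * x = 1) (e₁ : L₁ ⧸ Subgroup.center L₁ ≃* Matrix.ProjectiveSpecialLinearGroup (Fin 3) F) (e₂ : L₂ ⧸ Subgroup.center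 L₂ ≃* Matrix.ProjectiveSpecialLinearGroup (Fin 3) F) : Nonempty (L₁ ≃* L₂) := by
  classical
  obtain ⟨X₁, _, _, ⟨i₁⟩⟩ := Cfsg.Agent.Lib.Psl34.Cover.down L₁
  obtain ⟨X₂, _, _, ⟨i₂⟩⟩ := Cfsg.Agent.Lib.Psl34.Cover.down L₂
  have hM := Cfsg.Agent.Lib.KnownSimple.L34Lab.result hF
  obtain ⟨E⟩ := Cfsg.Agent.Lib.Psl34.Cover.main hM.2 hM.1 (Cfsg.Agent.Lib.Psl34.Cover.card_A) (Cfsg.Agent.Lib.Psl34.Cover.card_sq)
    i₁ i₂ h₁.1 h₂.1 hc₁ hc₂ he₁ he₂ e₁ e₂
  exact ⟨i₁.symm.trans (E.trans i₂)⟩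

end Cfsg.Agent.S5387
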