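import Cfsg.Statements.S5393
import Cfsg.Agent.Lib.M24X.Irred

set_option autoImplicit false
open Cfsg

namespace Cfsg.Agent.S5393

/-- The length-24 code built from the squares modulo 23 contains the all-ones word, and the code modulo the all-ones word is an irreducible module over the field with two elements for the code's automorphism group: a subspace of the code that contains the all-ones word and is invariant under every coordinate permutation preserving the code is either the span of the all-ones word or the whole code. -/
theorem result : (fun _ : Cfsg.GolayPt => (1 : ZMod 2)) ∈ Cfsg.golayCode ∧ ∀ W : Submodule (ZMod 2) (Cfsg.GolayPt → ZMod 2), (fun _ => (1 : ZMod 2)) ∈ W → W ≤ Cfsg.golayCode → (∀ σ ∈ Cfsg.M24, ∀ w ∈ W, (fun p => w (σ.symm p)) ∈ W) → W = Submodule.span (ZMod 2) {fun _ => (1 : ZMod 2)} ∨ W = Cfsg.golayCode := by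
  refine ⟨?_, fun W h1 hWC hinv => Cfsg.Agent.Lib.M24X.code_irreducible W h1 hWC hinv⟩
  exact Submodule.subset_span (Or.inr rfl)

end Cfsg.Agent.S5393
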