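import Cfsg.Statements.S5394
import Cfsg.Agent.Lib.M24X.Classes

set_option autoImplicit false
open Cfsg

namespace Cfsg.Agent.S5394

/-- The automorphism group of the length-24 code built from the squares modulo 23 has exactly two conjugacy classes of involutions: an involution either fixes exactly the eight points of an octad or has no fixed points, both kinds occur, and any two involutions of the same kind are conjugate in the group. -/
theorem result : (∀ g ∈ Cfsg.M24, orderOf g = 2 → (Finset.univ.filter fun p => g p = p) ∈ Cfsg.octads ∨ ∀ p, g p ≠ p) ∧ (∃ g ∈ Cfsg.M24, orderOf g = 2 ∧ (Finset.univ.filter fun p => g p = p) ∈ Cfsg.octads) ∧ (∃ g ∈ Cfsg.M24, orderOf g = 2 ∧ ∀ p, g p ≠ p) ∧ ∀ g ∈ Cfsg.M24, ∀ h ∈ Cfsg.M24, orderOf g = 2 → orderOf h = 2 → ((∀ p, g p ≠ p) ↔ (∀ p, h p ≠ p)) → ∃ k ∈ Cfsg.M24, k * g * k⁻¹ = h := by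
  open Cfsg.Agent.Lib.M24X Cfsg.Agent.Lib.Golay in
  have hA : perm tA ∈ M24 := perm_mem_M24 isPerm_tA aut_tA
  have hB : perm tB ∈ M24 := perm_mem_M24 isPerm_tB aut_tB
  have ordA : orderOf (perm tA) = 2 := by
    have : Fact (Nat.Prime 2) := ⟨Nat.prime_two⟩
    apply orderOf_eq_prime
    · rw [pow_two, ← perm_mulL isPerm_tA isPerm_tA, ← perm_idL]
      congr 1
    · intro h
      rw [← perm_idL] at h
      exact absurd (perm_inj isPerm_tA isPerm_idL h) (by decide +kernel)
  have ordB : orderOf (perm tB) = 2 := by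
    have : Fact (Nat.Prime 2) := ⟨Nat.prime_two⟩
    apply orderOf_eq_prime
    · rw [pow_two, ← perm_mulL isPerm_tB isPerm_tB, ← perm_idL]
      congr 1
    · intro h
      rw [← perm_idL] at h
      exact absurd (perm_inj isPerm_tB isPerm_idL h) (by decide +kernel)
  have octA : (Finset.univ.filter fun p => perm tA p = p) ∈ Cfsg.octads := by
    rw [fix_eq_finOf isPerm_tA]
    exact finOf_mem_octads (by decide +kernel)
  have fpfB : ∀ p, perm tB p ≠ p := (fpf_iff_card _).mpr tB_card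
  refine ⟨?_, ⟨_, hA, ordA, octA⟩, ⟨_, hB, ordB, fpfB⟩, ?_⟩
  · intro g hg h2
    rcases exists_conj_invol hg h2 with ⟨k, hk, he⟩ | ⟨k, hk, he⟩
    · left
      have := fix_filter_conj k g
      rw [he] at this
      open scoped Pointwise in
      have h3 : (Finset.univ.filter fun p => g p = p) = k⁻¹ • (Finset.univ.filter fun p => perm tA p = p) := by
        rw [this, inv_smul_smul]
      rw [h3]
      exact smul_octad (M24.inv_mem hk) octA
    · right
      rw [fpf_iff_card, ← fix_card_conj k, he, tB_card]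
  · intro g hg h hh o1 o2 hiff
    by_cases hf : ∀ p, g p ≠ p
    · have hf2 := hiff.mp hf
      obtain ⟨k, hk, he⟩ := conj_tB_of_fpf hg o1 ((fpf_iff_card _).mp hf)
      obtain ⟨k2, hk2, he2⟩ := conj_tB_of_fpf hh o2 ((fpf_iff_card _).mp hf2)
      refine ⟨k2⁻¹ * k, M24.mul_mem (M24.inv_mem hk2) hk, ?_⟩
      have : k2⁻¹ * k * g * (k2⁻¹ * k)⁻¹ = k2⁻¹ * (k * g * k⁻¹) * k2 := by group
      rw [this, he, ← he2]
      group
    · have hf2 : ¬ ∀ p, h p ≠ p := fun hc => hf (hiff.mpr hc)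
      obtain ⟨k, hk, he⟩ := conj_tA_of_card hg o1 (fun hc => hf ((fpf_iff_card _).mpr hc))
      obtain ⟨k2, hk2, he2⟩ := conj_tA_of_card hh o2 (fun hc => hf2 ((fpf_iff_card _).mpr hc))
      refine ⟨k2⁻¹ * k, M24.mul_mem (M24.inv_mem hk2) hk, ?_⟩
      have : k2⁻¹ * k * g * (k2⁻¹ * k)⁻¹ = k2⁻¹ * (k * g * k⁻¹) * k2 := by group
      rw [this, he, ← he2]
      group

end Cfsg.Agent.S5394
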