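import Cfsg.Statements.S5395
import Mathlib

set_option autoImplicit false
open Cfsg

namespace Cfsg.Agent.S5395

/-- For a finite extraspecial 2-group E, an automorphism of E that induces the identity on E modulo its centre is inner (so these automorphisms form exactly the inner automorphism group, an elementary abelian 2-group of order |E|/2). -/
theorem result {E : Type*} [Group E] [Finite E] (hE : Cfsg.IsExtraspecial 2 E) (φ : E ≃* E) (hφ : ∀ x : E, φ x * x⁻¹ ∈ Subgroup.center E) : ∃ g : E, ∀ x : E, φ x = g * x * g⁻¹ := by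
  classical
  obtain ⟨⟨hp, hfr, hcomm⟩, hcard⟩ := hE
  let _ : CommGroup (Subgroup.center E) := { (inferInstance : Group (Subgroup.center E)) with mul_comm := mul_comm' }
  have hZnt : Nontrivial (Subgroup.center E) := by
    apply Finite.one_lt_card_iff_nontrivial.mp
    rw [hcard]; norm_num
  obtain ⟨z₀, hz₀⟩ : ∃ z₀ : Subgroup.center E, z₀ ≠ 1 := exists_ne 1
  obtain ⟨ι, hι⟩ := CommGroup.exists_apply_ne_one_of_hasEnoughRootsOfUnity (Subgroup.center E) ℂ hz₀
  have hιinj : Function.Injective ι := by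
    rw [injective_iff_map_eq_one]
    intro z hz
    by_contra h
    obtain ⟨y, -, huniq⟩ := (Nat.card_eq_two_iff' (1 : Subgroup.center E)).mp hcard
    have h1 := huniq z h
    have h2 := huniq z₀ hz₀
    have : z = z₀ := h1.trans h2.symm
    exact hι (this ▸ hz)
  have hcentral : ∀ (z : E), z ∈ Subgroup.center E → ∀ x : E, z * x = x * z := by
    intro z hz x
    exact ((Subgroup.mem_center_iff.mp hz) x).symm
  let f : E →* Subgroup.center E := MonoidHom.mk' (fun x => ⟨φ x * x⁻¹, hφ x⟩) (by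
    intro x y
    apply Subtype.ext
    show φ (x * y) * (x * y)⁻¹ = φ x * x⁻¹ * (φ y * y⁻¹)
    rw [map_mul, mul_inv_rev]
    have h := hcentral _ (hφ y) (x⁻¹)
    calc φ x * φ y * (y⁻¹ * x⁻¹) = φ x * ((φ y * y⁻¹) * x⁻¹) := by group
      _ = φ x * (x⁻¹ * (φ y * y⁻¹)) := by rw [h]
      _ = φ x * x⁻¹ * (φ y * y⁻¹) := by group)
  have hcm : ∀ g x : E, g * x * g⁻¹ * x⁻¹ ∈ Subgroup.center E := by
    intro g x
    rw [← hcomm]
    exact Subgroup.commutator_mem_commutator (Subgroup.mem_top g) (Subgroup.mem_top x)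
  let c : E → (E →* Subgroup.center E) := fun g => MonoidHom.mk' (fun x => ⟨g * x * g⁻¹ * x⁻¹, hcm g x⟩) (by
    intro x y
    apply Subtype.ext
    show g * (x * y) * g⁻¹ * (x * y)⁻¹ = g * x * g⁻¹ * x⁻¹ * (g * y * g⁻¹ * y⁻¹)
    have h := hcentral _ (hcm g y) (x⁻¹)
    calc g * (x * y) * g⁻¹ * (x * y)⁻¹ = (g * x * g⁻¹) * ((g * y * g⁻¹ * y⁻¹) * x⁻¹) := by group
      _ = (g * x * g⁻¹) * (x⁻¹ * (g * y * g⁻¹ * y⁻¹)) := by rw [h]
      _ = g * x * g⁻¹ * x⁻¹ * (g * y * g⁻¹ * y⁻¹) := by group)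
  have hcval : ∀ g x, ((c g x : Subgroup.center E) : E) = g * x * g⁻¹ * x⁻¹ := fun _ _ => rfl
  have hcmul : ∀ g h x, c (g * h) x = c g x * c h x := by
    intro g h x
    apply Subtype.ext
    show g * h * x * (g * h)⁻¹ * x⁻¹ = g * x * g⁻¹ * x⁻¹ * (h * x * h⁻¹ * x⁻¹)
    have hc := hcentral _ (hcm h x) (x * g⁻¹)
    calc g * h * x * (g * h)⁻¹ * x⁻¹ = g * ((h * x * h⁻¹ * x⁻¹) * (x * g⁻¹)) * x⁻¹ := by group
      _ = g * ((x * g⁻¹) * (h * x * h⁻¹ * x⁻¹)) * x⁻¹ := by rw [hc]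
      _ = g * x * g⁻¹ * ((h * x * h⁻¹ * x⁻¹) * x⁻¹) := by group
      _ = g * x * g⁻¹ * (x⁻¹ * (h * x * h⁻¹ * x⁻¹)) := by rw [hcentral _ (hcm h x) (x⁻¹)]
      _ = g * x * g⁻¹ * x⁻¹ * (h * x * h⁻¹ * x⁻¹) := by group
  let Ψ : E →* (E →* ℂˣ) := MonoidHom.mk' (fun g => ι.comp (c g)) (by
    intro g h
    ext x
    simp [hcmul])
  -- the kernel of Ψ
  have hker : Ψ.ker = Subgroup.center E := by
    ext g
    rw [MonoidHom.mem_ker, Subgroup.mem_center_iff]
    constructor
    · intro h x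
      have h1 : ι (c g x) = 1 := by
        have := congrArg (fun χ : E →* ℂˣ => χ x) h
        simpa [Ψ] using this
      have h2 : c g x = 1 := hιinj (by rw [h1, map_one])
      have h3 : g * x * g⁻¹ * x⁻¹ = 1 := congrArg Subtype.val h2
      rw [mul_inv_eq_one, mul_inv_eq_iff_eq_mul] at h3
      exact h3.symm
    · intro h
      ext x
      have h2 : c g x = 1 := by
        apply Subtype.ext
        show g * x * g⁻¹ * x⁻¹ = 1
        rw [← h x]; group
      simp [Ψ, h2]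
  -- cardinalities
  have hT : Nat.card (E →* ℂˣ) = (Subgroup.center E).index := by
    have h1 : Nat.card (E →* ℂˣ) = Nat.card (Abelianization E →* ℂˣ) :=
      Nat.card_congr Abelianization.lift
    have h2 : Nat.card (Abelianization E →* ℂˣ) = Nat.card (Abelianization E) :=
      CommGroup.card_monoidHom_of_hasEnoughRootsOfUnity _ _
    rw [h1, h2, ← hcomm]
    rfl
  have hfin : Finite (E →* ℂˣ) := by
    apply Nat.finite_of_card_ne_zero
    rw [hT]
    exact Subgroup.index_ne_zero_of_finite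
  have hrange : Ψ.range = ⊤ := by
    apply Subgroup.eq_top_of_card_eq
    rw [← Subgroup.index_ker, hker, hT]
  have hmem : ι.comp f ∈ Ψ.range := by rw [hrange]; trivial
  obtain ⟨g, hg⟩ := hmem
  refine ⟨g, fun x => ?_⟩
  have h1 : ι (c g x) = ι (f x) := by
    have := congrArg (fun χ : E →* ℂˣ => χ x) hg
    simpa [Ψ] using this
  have h2 := hιinj h1
  have h3 : g * x * g⁻¹ * x⁻¹ = φ x * x⁻¹ := congrArg Subtype.val h2
  exact (mul_right_cancel h3).symm

end Cfsg.Agent.S5395
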