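import Cfsg.Statements.S5420
import Cfsg.Agent.Lib.Basic.Core

set_option autoImplicit false
open Cfsg

namespace Cfsg.Agent.S5420

lemma elt_trivial {G : Type*} [Group G] [Finite G] (K H : Subgroup G) (hK : Odd (Nat.card K))
    (hH : IsPGroup 2 H) {x : G} (hxK : x ∈ K) (hxH : x ∈ H) : x = 1 := by
  obtain ⟨n, hn⟩ := hH ⟨x, hxH⟩
  have h1 : x ^ (2 ^ n) = 1 := by
    have := congrArg Subtype.val hn
    simpa using this
  have h2 : x ^ (Nat.card K) = 1 := by
    have h3 : ((⟨x, hxK⟩ : K) ^ Nat.card K : K) = 1 := pow_card_eq_one'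
    have h4 := congrArg Subtype.val h3
    rw [Subgroup.coe_pow] at h4
    exact h4
  have hc : Nat.Coprime (2 ^ n) (Nat.card K) :=
    Nat.Coprime.pow_left _ ((Nat.coprime_two_left).mpr hK)
  have := (pow_gcd_eq_one (a := x)).mpr ⟨h1, h2⟩
  rwa [hc.gcd_eq_one, pow_one] at this

/-- Let Q be an extraspecial 2-subgroup of the finite group G whose centralizer in G is its centre Z and which is normal in the centralizer of Z. If Z lies in the largest normal 2-subgroup of G, then Q is a large extraspecial 2-subgroup of G: it normalizes no non-trivial subgroup of G of odd order. -/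
theorem result {G : Type*} [Group G] [Finite G] (Q : Subgroup G) (hL1 : Cfsg.IsExtraspecial 2 ↥Q) (hL2 : Subgroup.centralizer (Q : Set G) = ((Subgroup.center ↥Q).map Q.subtype)) (hL3 : Subgroup.centralizer (((Subgroup.center ↥Q).map Q.subtype) : Set G) ≤ Subgroup.normalizer (Q : Set G)) (hZ : ((Subgroup.center ↥Q).map Q.subtype) ≤ Cfsg.pCore 2 G) : Cfsg.IsLargeExtraspecial Q := by
  classical
  refine ⟨hL1, hL2, hL3, ?_⟩
  intro K hK hQK
  have hQ2 : IsPGroup 2 Q := hL1.1.1
  set Z := (Subgroup.center Q).map Q.subtype with hZdef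
  have hZQ : Z ≤ Q := Subgroup.map_subtype_le _
  have hO2 : IsPGroup 2 (Cfsg.pCore 2 G) := Cfsg.Agent.Lib.Basic.pCore_isPGroup 2
  have hO2n : (Cfsg.pCore 2 G).Normal := @Subgroup.normal_of_characteristic _ _ _ (Cfsg.Agent.Lib.Basic.pCore_characteristic 2)
  -- K centralizes Z
  have hKZ : K ≤ Subgroup.centralizer (Z : Set G) := by
    intro k hk
    rw [Subgroup.mem_centralizer_iff]
    intro z hz
    have hzN := hQK (hZQ hz)
    have h1 : k * z * k⁻¹ * z⁻¹ ∈ Cfsg.pCore 2 G :=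
      (Cfsg.pCore 2 G).mul_mem (hO2n.conj_mem z (hZ hz) k) ((Cfsg.pCore 2 G).inv_mem (hZ hz))
    have h2 : k * z * k⁻¹ * z⁻¹ ∈ K := by
      have h3 : z * k⁻¹ * z⁻¹ ∈ K := by
        have := (Subgroup.mem_normalizer_iff.mp hzN k⁻¹).mp (K.inv_mem hk)
        exact this
      have : k * z * k⁻¹ * z⁻¹ = k * (z * k⁻¹ * z⁻¹) := by group
      rw [this]
      exact K.mul_mem hk h3
    have h3 := elt_trivial K _ hK hO2 h2 h1
    have h4 : k * z * k⁻¹ = z := by
      rwa [mul_inv_eq_one] at h3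
    rw [mul_inv_eq_iff_eq_mul] at h4
    exact h4.symm
  -- K normalizes Q
  have hKN : K ≤ Subgroup.normalizer (Q : Set G) := hKZ.trans hL3
  -- K centralizes Q
  have hKQ : K ≤ Subgroup.centralizer (Q : Set G) := by
    intro k hk
    rw [Subgroup.mem_centralizer_iff]
    intro q hq
    have h1 : k * q * k⁻¹ * q⁻¹ ∈ Q := by
      have h2 := (Subgroup.mem_normalizer_iff.mp (hKN hk) q).mp hq
      exact Q.mul_mem h2 (Q.inv_mem hq)
    have h2 : k * q * k⁻¹ * q⁻¹ ∈ K := by
      have h3 : q * k⁻¹ * q⁻¹ ∈ K := by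
        have := (Subgroup.mem_normalizer_iff.mp (hQK hq) k⁻¹).mp (K.inv_mem hk)
        exact this
      have : k * q * k⁻¹ * q⁻¹ = k * (q * k⁻¹ * q⁻¹) := by group
      rw [this]
      exact K.mul_mem hk h3
    have h3 := elt_trivial K Q hK hQ2 h2 h1
    have h4 : k * q * k⁻¹ = q := by
      rwa [mul_inv_eq_one] at h3
    rw [mul_inv_eq_iff_eq_mul] at h4
    exact h4.symm
  rw [eq_bot_iff]
  intro k hk
  have hkZ : k ∈ Z := by rw [← hL2]; exact hKQ hk
  exact elt_trivial K Q hK hQ2 hk (hZQ hkZ)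

end Cfsg.Agent.S5420
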