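import Cfsg.Statements.S5433

set_option autoImplicit false
open Cfsg

namespace Cfsg.Agent.S5433

/-- Let Q be a large extraspecial 2-subgroup of the finite group G (extraspecial; centralizer equal to its centre; normal in the centralizer of its centre; normalizing no non-trivial subgroup of odd order), and L a normal subgroup of G containing Q. Then G is the product of L and the normalizer of Q. -/
theorem result {G : Type*} [Group G] [Finite G] (Q : Subgroup G) (hQ : Cfsg.IsLargeExtraspecial Q) (L : Subgroup G) [L.Normal] (hQL : Q ≤ L) : L ⊔ Subgroup.normalizer (Q : Set G) = ⊤ := by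
  classical
  have : Fact (Nat.Prime 2) := ⟨Nat.prime_two⟩
  obtain ⟨hE, hL2, hL3, -⟩ := hQ
  have hQ2 : IsPGroup 2 Q := hE.1.1
  have hcard : Nat.card (Subgroup.center Q) = 2 := hE.2
  -- a Sylow 2-subgroup of L containing Q
  have hpQ : IsPGroup 2 (Q.subgroupOf L) := hQ2.comap_of_injective L.subtype L.subtype_injective
  obtain ⟨R, hR⟩ := hpQ.exists_le_sylow
  -- R is nontrivial
  have hRnt : Nontrivial (R : Subgroup L) := by
    have h1 : 1 < Nat.card (Subgroup.center Q) := by rw [hcard]; norm_num
    obtain ⟨⟨q, hqc⟩, hq1⟩ : ∃ q : Subgroup.center Q, q ≠ 1 := by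
      have : Nontrivial (Subgroup.center Q) := Finite.one_lt_card_iff_nontrivial.mp h1
      exact exists_ne 1
    have hq1' : q ≠ 1 := fun h => hq1 (Subtype.ext h)
    refine ⟨⟨⟨⟨q.1, hQL q.2⟩, hR (by
      rw [Subgroup.mem_subgroupOf]; exact q.2)⟩, 1, ?_⟩⟩
    intro h
    apply hq1'
    have h2 := congrArg (fun y : (R : Subgroup L) => ((y : L) : G)) h
    exact Subtype.ext h2
  -- a non-trivial central element of R
  have hcn : Nontrivial (Subgroup.center (R : Subgroup L)) := R.isPGroup'.center_nontrivial
  obtain ⟨x, hx1⟩ : ∃ x : Subgroup.center (R : Subgroup L), x ≠ 1 := exists_ne 1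
  set t : G := (((x : (R : Subgroup L)) : L) : G) with ht
  have ht1 : t ≠ 1 := by
    intro h
    apply hx1
    apply Subtype.ext
    apply Subtype.ext
    apply Subtype.ext
    exact h
  -- t centralizes Q
  have htQ : t ∈ Subgroup.centralizer (Q : Set G) := by
    rw [Subgroup.mem_centralizer_iff]
    intro q hq
    have hqR : (⟨q, hQL hq⟩ : L) ∈ (R : Subgroup L) := hR (by
      rw [Subgroup.mem_subgroupOf]; exact hq)
    have h1 := (Subgroup.mem_center_iff.mp x.2) ⟨⟨q, hQL hq⟩, hqR⟩
    have h2 := congrArg (fun y : (R : Subgroup L) => ((y : L) : G)) h1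
    exact h2
  set Z := (Subgroup.center Q).map Q.subtype with hZdef
  have htZ : t ∈ Z := by rw [← hL2]; exact htQ
  -- every element of Z is 1 or t
  have hZ2 : ∀ z ∈ Z, z = 1 ∨ z = t := by
    rintro z ⟨zz, hzz, rfl⟩
    obtain ⟨tt, htt, htt'⟩ := htZ
    have hcard' := (Nat.card_eq_two_iff' (1 : Subgroup.center Q)).mp hcard
    obtain ⟨y, hy, huniq⟩ := hcard'
    by_cases hz1 : zz = 1
    · left; simp [hz1]
    · right
      have h3 : (⟨zz, hzz⟩ : Subgroup.center Q) = y := huniq _ (by
        intro h; exact hz1 (congrArg Subtype.val h))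
      have h4 : (⟨tt, htt⟩ : Subgroup.center Q) = y := huniq _ (by
        intro h
        apply ht1
        rw [← htt']
        have := congrArg Subtype.val h
        simp only at this
        simp [this])
      have h5 := h3.trans h4.symm
      have h6 : zz = tt := congrArg Subtype.val h5
      rw [h6]
      exact htt'
  -- the normalizer of R lies in the normalizer of Q
  have hkey : Subgroup.normalizer (((R : Subgroup L).map L.subtype : Subgroup G) : Set G) ≤ Subgroup.normalizer (Q : Set G) := by
    intro g hg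
    apply hL3
    rw [Subgroup.mem_centralizer_iff]
    intro z hz
    -- g t g⁻¹ lies in Z
    have htR : t ∈ (R : Subgroup L).map L.subtype := ⟨x.1.1, x.1.2, rfl⟩
    have h1 : g * t * g⁻¹ ∈ (R : Subgroup L).map L.subtype :=
      (Subgroup.mem_normalizer_iff.mp hg t).mp htR
    have h2 : g * t * g⁻¹ ∈ Subgroup.centralizer (Q : Set G) := by
      rw [Subgroup.mem_centralizer_iff]
      intro q hq
      -- g⁻¹ q g ... work in R̃
      obtain ⟨r, hrR, hr⟩ := h1
      have hqR : (⟨q, hQL hq⟩ : L) ∈ (R : Subgroup L) := hR (by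
        rw [Subgroup.mem_subgroupOf]; exact hq)
      -- q' = g⁻¹ q g in R̃ commutes with t
      have h3 : g⁻¹ * q * g ∈ (R : Subgroup L).map L.subtype := by
        have h4 : q ∈ (R : Subgroup L).map L.subtype := ⟨_, hqR, rfl⟩
        have h5 := (Subgroup.mem_normalizer_iff.mp (Subgroup.inv_mem _ hg) q).mp h4
        simpa using h5
      obtain ⟨r', hr'R, hr'⟩ := h3
      have h6 := (Subgroup.mem_center_iff.mp x.2) ⟨r', hr'R⟩
      have h7 : (r' : G) * t = t * r' := congrArg (fun y : (R : Subgroup L) => ((y : L) : G)) h6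
      simp only [Subgroup.coe_subtype] at hr'
      rw [hr'] at h7
      calc q * (g * t * g⁻¹) = g * ((g⁻¹ * q * g) * t) * g⁻¹ := by group
        _ = g * (t * (g⁻¹ * q * g)) * g⁻¹ := by rw [h7]
        _ = g * t * g⁻¹ * q := by group
    have h3 : g * t * g⁻¹ ∈ Z := by rw [← hL2]; exact h2
    have h4 : g * t * g⁻¹ = t := by
      rcases hZ2 _ h3 with h | h
      · exfalso
        apply ht1
        have : g * t * g⁻¹ = g * 1 * g⁻¹ := by rw [h]; group
        have h5 : g * t = g * 1 := by
          exact mul_right_cancel this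
        exact mul_left_cancel h5
      · exact h
    rcases hZ2 z hz with rfl | rfl
    · simp
    · rw [mul_inv_eq_iff_eq_mul] at h4
      exact h4.symm
  rw [eq_top_iff, ← Sylow.normalizer_sup_eq_top R, sup_comm]
  exact sup_le_sup_left hkey L

end Cfsg.Agent.S5433
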