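import Cfsg.Statements.S5437

set_option autoImplicit false
open Cfsg

namespace Cfsg.Agent.S5437

/-- Let I be a set of involutions of the finite group G closed under conjugation, and H a subgroup of G. The following are equivalent: (1) for every member x of I lying in H, the conjugates of x lying in H form a single H-class and the centralizer of x lies in H; (2) for every g outside H, no member of I lies in both H and g H g⁻¹; (3) every member of I lying in H fixes exactly one coset in the action of G on the cosets of H. -/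
theorem result {G : Type*} [Group G] [Finite G] (I : Set G) (hI : ∀ x ∈ I, orderOf x = 2) (hIc : ∀ g : G, ∀ x ∈ I, g * x * g⁻¹ ∈ I) (H : Subgroup G) : ((∀ x ∈ I, x ∈ H → (∀ g : G, g * x * g⁻¹ ∈ H → ∃ h ∈ H, h * x * h⁻¹ = g * x * g⁻¹) ∧ Subgroup.centralizer ({x} : Set G) ≤ H) ↔ (∀ g : G, g ∉ H → ∀ x ∈ I, ¬ (x ∈ H ∧ x ∈ (H : Subgroup G).map (MulAut.conj g).toMonoidHom))) ∧ ((∀ g : G, g ∉ H → ∀ x ∈ I, ¬ (x ∈ H ∧ x ∈ (H : Subgroup G).map (MulAut.conj g).toMonoidHom)) ↔ ∀ x ∈ I, x ∈ H → ∃! c : G ⧸ H, x • c = c) := by
  classical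
  have hmap : ∀ (g x : G), x ∈ (H : Subgroup G).map (MulAut.conj g).toMonoidHom ↔ g⁻¹ * x * g ∈ H := by
    intro g x
    constructor
    · rintro ⟨h, hh, rfl⟩
      simpa [MulAut.conj_apply, mul_assoc] using hh
    · intro h
      exact ⟨_, h, by simp [MulAut.conj_apply, mul_assoc]⟩
  have hfix : ∀ (g x : G), x • (QuotientGroup.mk g : G ⧸ H) = (QuotientGroup.mk g : G ⧸ H) ↔ g⁻¹ * x * g ∈ H := by
    intro g x
    rw [MulAction.Quotient.smul_mk]
    rw [QuotientGroup.eq]
    have : (x • g)⁻¹ * g = g⁻¹ * x⁻¹ * g := by
      simp [smul_eq_mul, mul_assoc]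
    rw [this]
    have e : g⁻¹ * x⁻¹ * g = (g⁻¹ * x * g)⁻¹ := by group
    rw [e, H.inv_mem_iff]
  constructor
  · constructor
    · intro h1 g hg x hx ⟨hxH, hxg⟩
      rw [hmap] at hxg
      set y := g⁻¹ * x * g with hy
      have hyI : y ∈ I := by
        have := hIc g⁻¹ x hx
        simpa [hy] using this
      have hgy : g * y * g⁻¹ = x := by
        rw [hy]; group
      obtain ⟨k, hk, hk'⟩ := (h1 y hyI hxg).1 g (by rw [hgy]; exact hxH)
      apply hg
      have hc : k⁻¹ * g ∈ Subgroup.centralizer ({y} : Set G) := by
        rw [Subgroup.mem_centralizer_iff]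
        intro u hu
        rw [Set.mem_singleton_iff] at hu
        rw [hu]
        have : y = k⁻¹ * (g * y * g⁻¹) * k := by
          rw [← hk']; group
        calc y * (k⁻¹ * g) = (k⁻¹ * (g * y * g⁻¹) * k) * (k⁻¹ * g) := congrArg (· * (k⁻¹ * g)) this
          _ = k⁻¹ * g * y := by group
      have := H.mul_mem hk ((h1 y hyI hxg).2 hc)
      simpa using this
    · intro h2 x hx hxH
      constructor
      · intro g hg
        have hgH : g ∈ H := by
          by_contra hgH
          apply h2 g hgH _ (hIc g x hx)
          refine ⟨hg, ?_⟩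
          rw [hmap]
          simpa [mul_assoc] using hxH
        exact ⟨g, hgH, rfl⟩
      · intro g hg
        rw [Subgroup.mem_centralizer_iff] at hg
        have hgx : g * x * g⁻¹ = x := by
          have := hg x rfl
          rw [this.symm]; group
        by_contra hgH
        apply h2 g hgH x hx
        refine ⟨hxH, ?_⟩
        rw [hmap]
        have : g⁻¹ * x * g = x := by
          conv_lhs => rw [← hgx]
          group
        rw [this]; exact hxH
  · constructor
    · intro h2 x hx hxH
      refine ⟨QuotientGroup.mk 1, ?_, ?_⟩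
      · show x • (QuotientGroup.mk 1 : G ⧸ H) = QuotientGroup.mk 1
        rw [hfix]
        simpa using hxH
      · intro c hc
        induction c using QuotientGroup.induction_on with
        | H g =>
          rw [hfix] at hc
          have hgH : g ∈ H := by
            by_contra hgH
            exact h2 g hgH x hx ⟨hxH, (hmap g x).2 hc⟩
          rw [QuotientGroup.eq]
          simpa using hgH
    · intro h3 g hg x hx ⟨hxH, hxg⟩
      rw [hmap] at hxg
      obtain ⟨c, -, huniq⟩ := h3 x hx hxH
      have h1 := huniq (QuotientGroup.mk g) ((hfix g x).2 hxg)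
      have h2 := huniq (QuotientGroup.mk 1) ((hfix 1 x).2 (by simpa using hxH))
      apply hg
      have := h1.trans h2.symm
      rw [QuotientGroup.eq] at this
      simpa using this

end Cfsg.Agent.S5437
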