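import Cfsg.Statements.S5438

set_option autoImplicit false
open Cfsg

namespace Cfsg.Agent.S5438

lemma conj_mem_smul {p : ℕ} {G : Type*} [Group G] (S : Sylow p G) (g x : G) (hx : x ∈ S) :
    g * x * g⁻¹ ∈ g • S :=
  Subgroup.mem_pointwise_smul_iff_inv_smul_mem.mpr (by
    have h : x ∈ (S : Subgroup G) := hx
    simpa [MulAut.conj_apply, mul_assoc] using h)

lemma zpowers_isPGroup {G : Type*} [Group G] (w : G) (hw : w * w = 1) :
    IsPGroup 2 (Subgroup.zpowers w) := by
  intro y
  refine ⟨1, ?_⟩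
  obtain ⟨y, n, rfl⟩ := y
  ext
  simp only [Subgroup.coe_pow, pow_one, Subgroup.coe_one]
  show (w ^ n) ^ 2 = 1
  rw [← zpow_natCast, ← zpow_mul, mul_comm, zpow_mul, zpow_natCast, pow_two, hw, one_zpow]

/-- Let z be a 2-central involution of the finite group G (an involution central in some Sylow 2-subgroup) and H a subgroup containing z such that the coset H is the only coset of H fixed by z (in the action of G on the cosets of H). Then H has odd index in G, and for every 2-element x of H the conjugates of x lying in H form a single H-class. -/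
theorem result {G : Type*} [Group G] [Finite G] (z : G) (hz : Cfsg.IsTwoCentralInvolution z) (H : Subgroup G) (hzH : z ∈ H) (hfix : ∀ g : G, g⁻¹ * z * g ∈ H → g ∈ H) : Odd H.index ∧ ∀ x ∈ H, (∃ k : ℕ, orderOf x = 2 ^ k) → ∀ g : G, g * x * g⁻¹ ∈ H → ∃ h ∈ H, h * x * h⁻¹ = g * x * g⁻¹ := by
  classical
  have hp2 : Fact (Nat.Prime 2) := ⟨Nat.prime_two⟩
  obtain ⟨hz2, P, hzP, hzc⟩ := hz
  -- P ≤ H
  have hPH : (P : Subgroup G) ≤ H := by
    intro x hx
    apply hfix
    have : x * z = z * x := (hzc x hx)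
    have h2 : x⁻¹ * z * x = z := by
      rw [mul_assoc, inv_mul_eq_iff_eq_mul, this]
    rw [h2]; exact hzH
  constructor
  · -- odd index
    have h1 : H.index ∣ (P : Subgroup G).index := Subgroup.index_dvd_of_le hPH
    have h2 := P.not_dvd_index
    rw [← Nat.not_even_iff_odd, even_iff_two_dvd]
    exact fun h => h2 (h.trans h1)
  · -- control of fusion
    -- every 2-subgroup containing z is inside H
    have hsub : ∀ S : Subgroup G, IsPGroup 2 S → z ∈ S → S ≤ H := by
      intro S hS hzS
      obtain ⟨P', hP'⟩ := hS.exists_le_sylow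
      obtain ⟨b, hb⟩ := MulAction.exists_smul_eq G P P'
      have hb' : b • P = P' := hb
      have hzP' : z ∈ (P' : Subgroup G) := hP' hzS
      rw [← hb'] at hzP'
      have h3 : b⁻¹ * z * b ∈ (P : Subgroup G) := by
        have := Subgroup.mem_pointwise_smul_iff_inv_smul_mem.mp hzP'
        simpa [MulAut.conj_apply, mul_assoc] using this
      have hbH' : b ∈ H := hfix b (hPH h3)
      have hbH : b⁻¹ ∈ H := H.inv_mem hbH'
      intro y hy
      have hyP' : y ∈ (P' : Subgroup G) := hP' hy
      rw [← hb'] at hyP'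
      have h4 : b⁻¹ * y * b ∈ (P : Subgroup G) := by
        have := Subgroup.mem_pointwise_smul_iff_inv_smul_mem.mp hyP'
        simpa [MulAut.conj_apply, mul_assoc] using this
      have h5 := hPH h4
      have h6 := H.mul_mem (H.mul_mem hbH' h5) hbH
      simpa [mul_assoc] using h6
    -- a 2-element of H is H-conjugate into P
    have hinto : ∀ x ∈ H, (∃ k : ℕ, orderOf x = 2 ^ k) → ∃ h ∈ H, h * x * h⁻¹ ∈ (P : Subgroup G) := by
      intro x hxH ⟨k, hk⟩
      let P₁ : Sylow 2 H := P.subtype hPH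
      have hpg : IsPGroup 2 (Subgroup.zpowers (⟨x, hxH⟩ : H)) := by
        intro y
        obtain ⟨y, n, rfl⟩ := y
        refine ⟨k, ?_⟩
        ext
        simp only [Subgroup.coe_pow, Subgroup.coe_one]
        show ((⟨x, hxH⟩ : H) ^ n : H).1 ^ 2 ^ k = 1
        simp only [Subgroup.coe_zpow]
        rw [← zpow_natCast, ← zpow_mul, mul_comm, zpow_mul, zpow_natCast, ← hk, pow_orderOf_eq_one]
        simp
      obtain ⟨S, hS⟩ := hpg.exists_le_sylow
      obtain ⟨h, hh⟩ := MulAction.exists_smul_eq H S P₁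
      refine ⟨h.1, h.2, ?_⟩
      have h1 : (⟨x, hxH⟩ : H) ∈ (S : Subgroup H) := hS (Subgroup.mem_zpowers _)
      have h2 : h * (⟨x, hxH⟩ : H) * h⁻¹ ∈ (P₁ : Subgroup H) := by
        rw [← hh]
        exact conj_mem_smul S h _ h1
      have h3 : ((h * (⟨x, hxH⟩ : H) * h⁻¹ : H) : G) ∈ (P : Subgroup G) := by
        have : (P₁ : Subgroup H) = (P : Subgroup G).subgroupOf H := P.coe_subtype hPH
        rw [this, Subgroup.mem_subgroupOf] at h2
        exact h2
      simpa using h3
    -- the main step for elements of P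
    have hmain : ∀ x y g : G, x ∈ (P : Subgroup G) → y ∈ (P : Subgroup G) → g * x * g⁻¹ = y →
        ∃ h ∈ H, h * x * h⁻¹ = y := by
      intro x y g hxP hyP hgxy
      -- work in the centralizer of y
      set C := Subgroup.centralizer ({y} : Set G) with hC
      have hzC : z ∈ C := by
        rw [hC, Subgroup.mem_centralizer_iff]
        intro u hu
        rw [Set.mem_singleton_iff] at hu
        rw [hu]
        exact (hzc y hyP)
      have hz'C : g * z * g⁻¹ ∈ C := by
        rw [hC, Subgroup.mem_centralizer_iff]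
        intro u hu
        rw [Set.mem_singleton_iff] at hu
        rw [hu, ← hgxy]
        have : x * z = z * x := hzc x hxP
        calc g * x * g⁻¹ * (g * z * g⁻¹) = g * (x * z) * g⁻¹ := by group
          _ = g * (z * x) * g⁻¹ := by rw [this]
          _ = g * z * g⁻¹ * (g * x * g⁻¹) := by group
      have hz22 : z * z = 1 := by
        have := pow_orderOf_eq_one z
        rw [hz2, pow_two] at this
        exact this
      -- a Sylow subgroup of C containing z
      have hpz : IsPGroup 2 (Subgroup.zpowers (⟨z, hzC⟩ : C)) := by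
        apply zpowers_isPGroup
        ext
        simpa using hz22
      obtain ⟨S, hS⟩ := hpz.exists_le_sylow
      have hz'2 : (g * z * g⁻¹) * (g * z * g⁻¹) = 1 := by
        calc (g * z * g⁻¹) * (g * z * g⁻¹) = g * (z * z) * g⁻¹ := by group
          _ = 1 := by rw [hz22]; group
      have hpz' : IsPGroup 2 (Subgroup.zpowers (⟨g * z * g⁻¹, hz'C⟩ : C)) := by
        apply zpowers_isPGroup
        ext
        simpa using hz'2
      obtain ⟨S', hS'⟩ := hpz'.exists_le_sylow
      obtain ⟨n, hn⟩ := MulAction.exists_smul_eq C S' S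
      have hSG : IsPGroup 2 ((S : Subgroup C).map C.subtype) := S.isPGroup'.map C.subtype
      have hzSG : z ∈ (S : Subgroup C).map C.subtype :=
        ⟨⟨z, hzC⟩, hS (Subgroup.mem_zpowers _), rfl⟩
      have hSH := hsub _ hSG hzSG
      have h1 : (⟨g * z * g⁻¹, hz'C⟩ : C) ∈ (S' : Subgroup C) := hS' (Subgroup.mem_zpowers _)
      have h2 : n * (⟨g * z * g⁻¹, hz'C⟩ : C) * n⁻¹ ∈ (S : Subgroup C) := by
        rw [← hn]
        exact conj_mem_smul S' n _ h1
      have h3 : (n : G) * (g * z * g⁻¹) * (n : G)⁻¹ ∈ H := by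
        apply hSH
        exact ⟨_, h2, by simp⟩
      -- so (n g) ∈ H
      have h4 : (n.1 * g) ∈ H := by
        have : ((n.1 * g)⁻¹)⁻¹ ∈ H := by
          apply H.inv_mem
          apply hfix
          convert h3 using 1
          group
        simpa using this
      refine ⟨n.1 * g, h4, ?_⟩
      have hny : n.1 * y * n.1⁻¹ = y := by
        have hmem : n.1 ∈ Subgroup.centralizer ({y} : Set G) := n.2
        rw [Subgroup.mem_centralizer_iff] at hmem
        have h5 := hmem y rfl
        rw [← h5]; group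
      calc n.1 * g * x * (n.1 * g)⁻¹ = n.1 * (g * x * g⁻¹) * n.1⁻¹ := by group
        _ = y := by rw [hgxy, hny]
    intro x hxH hx2 g hg
    -- a 2-element: move both to P
    have hy2 : ∃ k : ℕ, orderOf (g * x * g⁻¹) = 2 ^ k := by
      obtain ⟨k, hk⟩ := hx2
      refine ⟨k, ?_⟩
      rw [← hk]
      exact (SemiconjBy.orderOf_eq g (by
        show g * x = (g * x * g⁻¹) * g
        group)).symm
    obtain ⟨h1, hh1, hx1⟩ := hinto x hxH hx2
    obtain ⟨h2, hh2, hy1⟩ := hinto _ hg hy2
    obtain ⟨h, hh, hhh⟩ := hmain (h1 * x * h1⁻¹) (h2 * (g * x * g⁻¹) * h2⁻¹) (h2 * g * h1⁻¹) hx1 hy1 (by group)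
    refine ⟨h2⁻¹ * h * h1, H.mul_mem (H.mul_mem (H.inv_mem hh2) hh) hh1, ?_⟩
    calc h2⁻¹ * h * h1 * x * (h2⁻¹ * h * h1)⁻¹ = h2⁻¹ * (h * (h1 * x * h1⁻¹) * h⁻¹) * h2 := by group
      _ = h2⁻¹ * (h2 * (g * x * g⁻¹) * h2⁻¹) * h2 := by rw [hhh]
      _ = g * x * g⁻¹ := by group

end Cfsg.Agent.S5438
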