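import Cfsg.Statements.S5439

set_option autoImplicit false
open Cfsg

namespace Cfsg.Agent.S5439

/-- Let I and J be two different conjugacy classes of involutions of the finite group G and H a subgroup such that every member of I ∪ J fixes exactly one coset in the action on the cosets of H, and such that for every a in I ∩ H and every b in (I ∪ J) ∩ H different from a and commuting with it, the centralizer of a b lies in H. Then H = G. -/
theorem result {G : Type*} [Group G] [Finite G] (I J : Set G) (a₀ b₀ : G) (ha₀ : orderOf a₀ = 2) (hb₀ : orderOf b₀ = 2) (hI : I = {x | IsConj a₀ x}) (hJ : J = {x | IsConj b₀ x}) (hIJ : I ≠ J) (H : Subgroup G) (hfix : ∀ x ∈ I ∪ J, ∃! c : G ⧸ H, x • c = c) (hcent : ∀ a ∈ I, a ∈ H → ∀ b ∈ I ∪ J, b ∈ H → a ≠ b → a * b = b * a → Subgroup.centralizer ({a * b} : Set G) ≤ H) : H = ⊤ := by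
  classical
  have hfix' : ∀ (g x : G), x • (QuotientGroup.mk g : G ⧸ H) = (QuotientGroup.mk g : G ⧸ H) ↔ g⁻¹ * x * g ∈ H := by
    intro g x
    rw [MulAction.Quotient.smul_mk]
    rw [QuotientGroup.eq]
    have : (x • g)⁻¹ * g = g⁻¹ * x⁻¹ * g := by
      simp [smul_eq_mul, mul_assoc]
    rw [this]
    have e : g⁻¹ * x⁻¹ * g = (g⁻¹ * x * g)⁻¹ := by group
    rw [e, H.inv_mem_iff]
  have hIsq : ∀ x ∈ I, x * x = 1 := by
    intro x hx
    rw [hI] at hx
    obtain ⟨c, hc⟩ := (hx : IsConj a₀ x)
    have h1 : orderOf x = 2 := by rw [← SemiconjBy.orderOf_eq _ hc, ha₀]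
    have := pow_orderOf_eq_one x
    rw [h1, pow_two] at this
    exact this
  have hJsq : ∀ x ∈ J, x * x = 1 := by
    intro x hx
    rw [hJ] at hx
    obtain ⟨c, hc⟩ := (hx : IsConj b₀ x)
    have h1 : orderOf x = 2 := by rw [← SemiconjBy.orderOf_eq _ hc, hb₀]
    have := pow_orderOf_eq_one x
    rw [h1, pow_two] at this
    exact this
  have hIc : ∀ g x, x ∈ I → g * x * g⁻¹ ∈ I := by
    intro g x hx
    rw [hI] at hx ⊢
    exact IsConj.trans hx (isConj_iff.mpr ⟨g, rfl⟩)
  have hJc : ∀ g x, x ∈ J → g * x * g⁻¹ ∈ J := by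
    intro g x hx
    rw [hJ] at hx ⊢
    exact IsConj.trans hx (isConj_iff.mpr ⟨g, rfl⟩)
  -- I and J are disjoint
  have hdisj : ∀ x, x ∈ I → x ∈ J → False := by
    intro x hxI hxJ
    apply hIJ
    have hxI' : IsConj a₀ x := by rw [hI] at hxI; exact hxI
    have hxJ' : IsConj b₀ x := by rw [hJ] at hxJ; exact hxJ
    have hab : IsConj a₀ b₀ := IsConj.trans hxI' (IsConj.symm hxJ')
    rw [hI, hJ]
    ext y
    exact ⟨fun h => IsConj.trans (IsConj.symm hab) h, fun h => IsConj.trans hab h⟩
  -- an element of I in H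
  have ha₀I : a₀ ∈ I := by rw [hI]; exact IsConj.refl a₀
  have hb₀J : b₀ ∈ J := by rw [hJ]; exact IsConj.refl b₀
  obtain ⟨a, haI, haH⟩ : ∃ a ∈ I, a ∈ H := by
    obtain ⟨c, hc, -⟩ := hfix a₀ (Or.inl ha₀I)
    induction c using QuotientGroup.induction_on with
    | H g =>
      rw [hfix'] at hc
      refine ⟨_, ?_, hc⟩
      have := hIc g⁻¹ a₀ ha₀I
      simpa using this
  -- the centralizer of a lies in H
  have hcentA : Subgroup.centralizer ({a} : Set G) ≤ H := by
    intro g hg
    obtain ⟨c, -, huniq⟩ := hfix a (Or.inl haI)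
    have hcomm : g⁻¹ * a * g = a := by
      rw [Subgroup.mem_centralizer_iff] at hg
      have h5 := hg a rfl
      rw [mul_assoc, h5]; group
    have h1 := huniq (QuotientGroup.mk g) ((hfix' g a).2 (by rw [hcomm]; exact haH))
    have h2 := huniq (QuotientGroup.mk 1) ((hfix' 1 a).2 (by simpa using haH))
    have := h1.trans h2.symm
    rw [QuotientGroup.eq] at this
    simpa using this
  -- main claim: J ⊆ H
  have hJH : ∀ b ∈ J, b ∈ H := by
    intro b hbJ
    have ha2 := hIsq a haI
    have hb2 := hJsq b hbJ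
    have hai : a⁻¹ = a := inv_eq_of_mul_eq_one_left ha2
    have hbi : b⁻¹ = b := inv_eq_of_mul_eq_one_left hb2
    set w := a * b with hw
    have haw : a * w * a⁻¹ = w⁻¹ := by
      rw [hw, hai, mul_inv_rev, hai, hbi, ← mul_assoc, ha2, one_mul]
    have hbw : b * w * b⁻¹ = w⁻¹ := by
      rw [hw, hbi, mul_inv_rev, hai, hbi]
      simp only [mul_assoc, hb2, mul_one]
    have hal : ∀ l : ℕ, a * w ^ l = (w ^ l)⁻¹ * a := by
      intro l
      have : a * w ^ l * a⁻¹ = (w ^ l)⁻¹ := by rw [← conj_pow, haw, inv_pow]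
      rw [mul_inv_eq_iff_eq_mul] at this
      exact this
    -- the identities a * w^(2l) and a * w^(2l+1)
    have heven : ∀ l : ℕ, a * w ^ (2 * l) = (w ^ l)⁻¹ * a * ((w ^ l)⁻¹)⁻¹ := by
      intro l
      rw [two_mul, pow_add, ← mul_assoc, hal l, inv_inv]
    have hodd : ∀ l : ℕ, a * w ^ (2 * l + 1) = (w ^ l)⁻¹ * b * ((w ^ l)⁻¹)⁻¹ := by
      intro l
      rw [inv_inv]
      have e1 : w ^ (2 * l + 1) = w ^ l * (w * w ^ l) := by
        rw [two_mul, pow_add, pow_add, pow_one]; simp only [mul_assoc]
        rw [← pow_succ', pow_succ]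
      rw [e1, ← mul_assoc, hal l, mul_assoc, ← mul_assoc a w, hw, ← mul_assoc a a, ha2, one_mul]
      simp only [mul_assoc]
    -- the order of w is even
    have hnn : orderOf w ≠ 0 := (orderOf_pos w).ne'
    rcases Nat.even_or_odd' (orderOf w) with ⟨m, hm | hm⟩
    · -- z = w^m central involution
      set z := w ^ m with hz
      have hm0 : 0 < m := by omega
      have hz2 : z * z = 1 := by
        rw [hz, ← pow_add, ← two_mul, ← hm]; exact pow_orderOf_eq_one w
      have hz1 : z ≠ 1 := pow_ne_one_of_lt_orderOf (by omega) (by omega)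
      have hzi : z⁻¹ = z := inv_eq_of_mul_eq_one_left hz2
      have haz : a * z * a⁻¹ = z := by
        rw [hz, ← conj_pow, haw, inv_pow, ← hz, hzi]
      have hbz : b * z * b⁻¹ = z := by
        rw [hz, ← conj_pow, hbw, inv_pow, ← hz, hzi]
      have hcaz : a * z = z * a := by
        rw [mul_inv_eq_iff_eq_mul] at haz
        exact haz
      have hcbz : b * z = z * b := by
        rw [mul_inv_eq_iff_eq_mul] at hbz
        exact hbz
      -- b' = a z lies in I ∪ J and commutes with a
      have hbD : a * z ∈ I ∪ J ∧ a * z ≠ a := by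
        constructor
        · rcases Nat.even_or_odd' m with ⟨l, hl | hl⟩
          · left
            rw [hz, hl, heven l]
            exact hIc _ a haI
          · right
            rw [hz, hl, hodd l]
            exact hJc _ b hbJ
        · intro h1
          apply hz1
          exact mul_left_cancel (a := a) (by rw [h1, mul_one])
      have hazH : a * z ∈ H := by
        apply hcentA
        rw [Subgroup.mem_centralizer_iff]
        intro u hu
        rw [Set.mem_singleton_iff] at hu
        rw [hu]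
        rw [mul_assoc, ← hcaz]
      have h2 := hcent a haI haH (a * z) hbD.1 hazH (Ne.symm hbD.2) (by
        rw [mul_assoc, ← hcaz])
      have hzz : a * (a * z) = z := by rw [← mul_assoc, ha2, one_mul]
      rw [hzz] at h2
      apply h2
      rw [Subgroup.mem_centralizer_iff]
      intro u hu
      rw [Set.mem_singleton_iff] at hu
      rw [hu]
      exact hcbz.symm
    · -- odd order: a and b are conjugate
      exfalso
      have h1 := hodd m
      rw [← hm, pow_orderOf_eq_one, mul_one] at h1
      have : a ∈ J := by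
        rw [h1]
        exact hJc _ b hbJ
      exact hdisj a haI this
  -- finally conclude
  rw [eq_top_iff]
  intro g _
  obtain ⟨c, -, huniq⟩ := hfix b₀ (Or.inr hb₀J)
  have h1 := huniq (QuotientGroup.mk g) ((hfix' g b₀).2 (by
    have := hJc g⁻¹ b₀ hb₀J
    simp only [inv_inv] at this
    exact hJH _ this))
  have h2 := huniq (QuotientGroup.mk 1) ((hfix' 1 b₀).2 (by
    have := hJc 1 b₀ hb₀J
    simp only [inv_one] at this ⊢
    exact hJH _ this))
  have := h1.trans h2.symm
  rw [QuotientGroup.eq] at this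
  simpa using this

end Cfsg.Agent.S5439
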