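import Cfsg.Statements.S5459

set_option autoImplicit false
open Cfsg

namespace Cfsg.Agent.S5459

lemma comm_central {L : Type*} [Group L] (y₁ y₂ l m : L) (h1 : ∀ x, x * y₁ = y₁ * x) (h2 : ∀ x, x * y₂ = y₂ * x) :
    (y₁ * l) * (y₂ * m) * (y₁ * l)⁻¹ * (y₂ * m)⁻¹ = l * m * l⁻¹ * m⁻¹ := by
  have e1 : ∀ x, x * y₁⁻¹ = y₁⁻¹ * x := fun x => by
    rw [eq_inv_mul_iff_mul_eq, ← mul_assoc, ← h1, mul_assoc, mul_inv_cancel, mul_one]
  have e2 : ∀ x, x * y₂⁻¹ = y₂⁻¹ * x := fun x => by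
    rw [eq_inv_mul_iff_mul_eq, ← mul_assoc, ← h2, mul_assoc, mul_inv_cancel, mul_one]
  calc (y₁ * l) * (y₂ * m) * (y₁ * l)⁻¹ * (y₂ * m)⁻¹
      = y₁ * (l * y₂) * m * (l⁻¹ * y₁⁻¹) * (m⁻¹ * y₂⁻¹) := by simp only [mul_inv_rev, mul_assoc]
    _ = y₁ * (y₂ * l) * m * (l⁻¹ * y₁⁻¹) * (m⁻¹ * y₂⁻¹) := by rw [h2 l]
    _ = y₁ * y₂ * ((l * m * l⁻¹) * y₁⁻¹) * m⁻¹ * y₂⁻¹ := by simp only [mul_assoc]
    _ = y₁ * y₂ * (y₁⁻¹ * (l * m * l⁻¹)) * m⁻¹ * y₂⁻¹ := by rw [e1]
    _ = y₁ * y₂ * y₁⁻¹ * ((l * m * l⁻¹ * m⁻¹) * y₂⁻¹) := by simp only [mul_assoc]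
    _ = y₁ * y₂ * y₁⁻¹ * (y₂⁻¹ * (l * m * l⁻¹ * m⁻¹)) := by rw [e2]
    _ = y₁ * (y₂ * y₁⁻¹) * y₂⁻¹ * (l * m * l⁻¹ * m⁻¹) := by simp only [mul_assoc]
    _ = y₁ * (y₁⁻¹ * y₂) * y₂⁻¹ * (l * m * l⁻¹ * m⁻¹) := by rw [e1]
    _ = l * m * l⁻¹ * m⁻¹ := by group

/-- Let G be a finite group with a quasisimple normal subgroup L and an involution d such that G is generated by L and d, the centre of L has odd order, and d inverts every element of the centre of L. If the commuting graph on the conjugacy class of the image of d in G modulo the centre of L is connected, then the commuting graph on the conjugacy class of d is connected. -/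
theorem result {G : Type*} [Group G] [Finite G] (L : Subgroup G) [L.Normal] (hL : Cfsg.IsQuasisimple ↥L) (d : G) (hd : orderOf d = 2) (hgen : L ⊔ Subgroup.zpowers d = ⊤) (hodd : Odd (Nat.card ↥(Subgroup.center ↥L))) (hinv : ∀ c ∈ (Subgroup.center ↥L).map L.subtype, d * c * d⁻¹ = c⁻¹) [hn : ((Subgroup.center ↥L).map L.subtype).Normal] (hconn : (Cfsg.commutingGraph (conjugatesOf (QuotientGroup.mk d : G ⧸ (Subgroup.center ↥L).map L.subtype))).Connected) : (Cfsg.commutingGraph (conjugatesOf d)).Connected := by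
  classical
  set Z := (Subgroup.center ↥L).map L.subtype with hZ
  have hZL : Z ≤ L := Subgroup.map_subtype_le _
  -- the order of Z is odd
  have hZcard : Odd (Nat.card Z) := by
    have : Nat.card Z = Nat.card (Subgroup.center ↥L) :=
      Nat.card_congr ((Subgroup.center ↥L).equivMapOfInjective L.subtype L.subtype_injective).toEquiv.symm
    rw [this]; exact hodd
  -- facts on D
  have hDmem : ∀ a, a ∈ conjugatesOf d ↔ ∃ g, g * d * g⁻¹ = a := by
    intro a
    exact isConj_iff (a := d) (b := a)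
  have hinvD : ∀ a ∈ conjugatesOf d, ∀ c ∈ Z, a * c * a⁻¹ = c⁻¹ := by
    intro a ha c hc
    obtain ⟨g, rfl⟩ := (hDmem a).1 ha
    have h1 : g⁻¹ * c * g ∈ Z := by
      have := hn.conj_mem c hc g⁻¹
      simpa using this
    have h2 := hinv _ h1
    calc g * d * g⁻¹ * c * (g * d * g⁻¹)⁻¹ = g * (d * (g⁻¹ * c * g) * d⁻¹) * g⁻¹ := by group
      _ = g * (g⁻¹ * c * g)⁻¹ * g⁻¹ := by rw [h2]
      _ = c⁻¹ := by group
  have hsqD : ∀ a ∈ conjugatesOf d, a * a = 1 := by
    intro a ha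
    obtain ⟨g, rfl⟩ := (hDmem a).1 ha
    have hd2 : d * d = 1 := by
      have := pow_orderOf_eq_one d
      rw [hd, pow_two] at this; exact this
    calc g * d * g⁻¹ * (g * d * g⁻¹) = g * (d * d) * g⁻¹ := by group
      _ = 1 := by rw [hd2]; group
  -- roots in Z
  have hroot : ∀ (k : ℕ), Nat.Coprime (Nat.card Z) k → ∀ t ∈ Z, ∃ z ∈ Z, z ^ k = t := by
    intro k hk t ht
    obtain ⟨z, hz⟩ := (powCoprime hk).surjective ⟨t, ht⟩
    refine ⟨z.1, z.2, ?_⟩
    have := congrArg Subtype.val hz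
    simpa using this
  -- lifting commuting pairs
  have hinvD' : ∀ a ∈ conjugatesOf d, a⁻¹ = a := fun a ha => inv_eq_of_mul_eq_one_left (hsqD a ha)
  have hlift : ∀ (a : G), a ∈ conjugatesOf d → ∀ b₀ : G, b₀ ∈ conjugatesOf d →
      Commute (QuotientGroup.mk a : G ⧸ Z) (QuotientGroup.mk b₀) →
      ∃ b ∈ conjugatesOf d, (QuotientGroup.mk b : G ⧸ Z) = QuotientGroup.mk b₀ ∧ Commute a b := by
    intro a ha b₀ hb₀ hc
    have ht : a * b₀ * (a * b₀) ∈ Z := by
      rw [← QuotientGroup.eq_one_iff]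
      have h1 : (QuotientGroup.mk (a * b₀ * (a * b₀)) : G ⧸ Z) =
          QuotientGroup.mk a * QuotientGroup.mk b₀ * (QuotientGroup.mk a * QuotientGroup.mk b₀) := rfl
      have h2 : (QuotientGroup.mk (a * a) : G ⧸ Z) = QuotientGroup.mk a * QuotientGroup.mk a := rfl
      have h3 : (QuotientGroup.mk (b₀ * b₀) : G ⧸ Z) = QuotientGroup.mk b₀ * QuotientGroup.mk b₀ := rfl
      rw [hsqD a ha, QuotientGroup.mk_one] at h2
      rw [hsqD b₀ hb₀, QuotientGroup.mk_one] at h3
      rw [h1, mul_assoc, ← mul_assoc (QuotientGroup.mk b₀) (QuotientGroup.mk a), ← hc.eq]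
      calc (QuotientGroup.mk a : G ⧸ Z) * (QuotientGroup.mk a * QuotientGroup.mk b₀ * QuotientGroup.mk b₀)
          = (QuotientGroup.mk a * QuotientGroup.mk a) * (QuotientGroup.mk b₀ * QuotientGroup.mk b₀) := by
            simp only [mul_assoc]
        _ = 1 := by rw [← h2, ← h3, one_mul]
    have hcop : Nat.Coprime (Nat.card Z) 4 := by
      have : Nat.Coprime (Nat.card Z) 2 := Nat.Coprime.symm ((Nat.coprime_two_left).mpr hZcard)
      exact Nat.Coprime.pow_right 2 this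
    obtain ⟨z, hz, hz4⟩ := hroot 4 hcop _ ht
    have hbD : z * b₀ * z⁻¹ ∈ conjugatesOf d := by
      obtain ⟨g, hg⟩ := (hDmem b₀).1 hb₀
      refine (hDmem _).2 ⟨z * g, ?_⟩
      rw [← hg]; group
    refine ⟨z * b₀ * z⁻¹, hbD, ?_, ?_⟩
    · have h1 : (QuotientGroup.mk z : G ⧸ Z) = 1 := (QuotientGroup.eq_one_iff z).2 hz
      have h2 : (QuotientGroup.mk (z * b₀ * z⁻¹) : G ⧸ Z) =
          QuotientGroup.mk z * QuotientGroup.mk b₀ * (QuotientGroup.mk z)⁻¹ := rfl
      rw [h2, h1]; simp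
    · -- the computation
      have ha' : ∀ c ∈ Z, a * c = c⁻¹ * a := fun c hc => by
        have := hinvD a ha c hc
        rwa [mul_inv_eq_iff_eq_mul] at this
      have hb' : ∀ c ∈ Z, b₀ * c = c⁻¹ * b₀ := fun c hc => by
        have := hinvD b₀ hb₀ c hc
        rwa [mul_inv_eq_iff_eq_mul] at this
      have hw : ∀ c ∈ Z, (a * b₀) * c = c * (a * b₀) := fun c hc => by
        rw [mul_assoc, hb' c hc, ← mul_assoc, ha' c⁻¹ (Z.inv_mem hc), inv_inv, mul_assoc]
      have hzinv : z⁻¹ ∈ Z := Z.inv_mem hz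
      have hb1 : z * b₀ * z⁻¹ = z * z * b₀ := by
        rw [mul_assoc, hb' z⁻¹ hzinv, inv_inv, mul_assoc]
      have hab : a * (z * b₀ * z⁻¹) = z⁻¹ * z⁻¹ * (a * b₀) := by
        rw [hb1, mul_assoc z z b₀, ← mul_assoc a z, ha' z hz, mul_assoc, ← mul_assoc a z b₀, ha' z hz]
        simp only [mul_assoc]
      have hsq : (a * (z * b₀ * z⁻¹)) * (a * (z * b₀ * z⁻¹)) = 1 := by
        rw [hab]
        have hzz : z⁻¹ * z⁻¹ ∈ Z := Z.mul_mem hzinv hzinv
        calc z⁻¹ * z⁻¹ * (a * b₀) * (z⁻¹ * z⁻¹ * (a * b₀))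
            = z⁻¹ * z⁻¹ * ((a * b₀) * (z⁻¹ * z⁻¹)) * (a * b₀) := by simp only [mul_assoc]
          _ = z⁻¹ * z⁻¹ * ((z⁻¹ * z⁻¹) * (a * b₀)) * (a * b₀) := by rw [hw _ hzz]
          _ = (z ^ 4)⁻¹ * (a * b₀ * (a * b₀)) := by
              simp only [pow_succ, pow_zero, one_mul, mul_inv_rev, mul_assoc]
          _ = 1 := by rw [hz4]; exact inv_mul_cancel _
      show a * (z * b₀ * z⁻¹) = (z * b₀ * z⁻¹) * a
      have h4 : (a * (z * b₀ * z⁻¹))⁻¹ = a * (z * b₀ * z⁻¹) := inv_eq_of_mul_eq_one_left hsq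
      rw [← h4, mul_inv_rev, hinvD' _ ha, hinvD' _ hbD]
  -- lifting paths
  have hpath : ∀ u v : conjugatesOf (QuotientGroup.mk d : G ⧸ Z),
      (Cfsg.commutingGraph (conjugatesOf (QuotientGroup.mk d : G ⧸ Z))).Reachable u v →
      ∀ a : conjugatesOf d, (QuotientGroup.mk a.1 : G ⧸ Z) = u.1 →
      ∃ b : conjugatesOf d, (QuotientGroup.mk b.1 : G ⧸ Z) = v.1 ∧
        (Cfsg.commutingGraph (conjugatesOf d)).Reachable a b := by
    intro u v ⟨p⟩
    induction p with
    | nil => intro a ha; exact ⟨a, ha, SimpleGraph.Reachable.refl _⟩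
    | @cons u w v huw p ih =>
      intro a ha
      -- a lift of w in D
      obtain ⟨g₀, hg₀⟩ := isConj_iff.mp w.2
      induction g₀ using QuotientGroup.induction_on with
      | H g =>
        have hb₀ : g * d * g⁻¹ ∈ conjugatesOf d := (hDmem _).2 ⟨g, rfl⟩
        have hmkb : (QuotientGroup.mk (g * d * g⁻¹) : G ⧸ Z) = w.1 := hg₀
        rw [Cfsg.commutingGraph, SimpleGraph.fromRel_adj] at huw
        have hcomm : Commute (QuotientGroup.mk a.1 : G ⧸ Z) (QuotientGroup.mk (g * d * g⁻¹)) := by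
          rw [ha, hmkb]
          rcases huw.2 with h | h
          · exact h
          · exact h.symm
        obtain ⟨b, hbD, hb1, hb2⟩ := hlift a.1 a.2 _ hb₀ hcomm
        have hadj : (Cfsg.commutingGraph (conjugatesOf d)).Adj a ⟨b, hbD⟩ := by
          rw [Cfsg.commutingGraph, SimpleGraph.fromRel_adj]
          refine ⟨?_, Or.inl hb2⟩
          intro h
          apply huw.1
          apply Subtype.ext
          rw [← ha, ← hmkb, ← hb1]
          exact congrArg _ (congrArg Subtype.val h)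
        obtain ⟨c, hc1, hc2⟩ := ih ⟨b, hbD⟩ (hb1.trans hmkb)
        exact ⟨c, hc1, hadj.reachable.trans hc2⟩
  -- conjugation preserves reachability
  have hcjmem : ∀ (g : G) (a : conjugatesOf d), g * a.1 * g⁻¹ ∈ conjugatesOf d := by
    intro g a
    obtain ⟨h, hh⟩ := (hDmem a.1).1 a.2
    refine (hDmem _).2 ⟨g * h, ?_⟩
    rw [← hh]; group
  let cj : G → conjugatesOf d → conjugatesOf d := fun g a => ⟨g * a.1 * g⁻¹, hcjmem g a⟩
  have hcj : ∀ (g : G) (a b : conjugatesOf d), (Cfsg.commutingGraph (conjugatesOf d)).Reachable a b →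
      (Cfsg.commutingGraph (conjugatesOf d)).Reachable (cj g a) (cj g b) := by
    intro g a b hab
    let f : (Cfsg.commutingGraph (conjugatesOf d)) →g (Cfsg.commutingGraph (conjugatesOf d)) :=
      { toFun := cj g
        map_rel' := by
          intro x y hxy
          rw [Cfsg.commutingGraph, SimpleGraph.fromRel_adj] at hxy ⊢
          refine ⟨?_, ?_⟩
          · intro h
            apply hxy.1
            apply Subtype.ext
            have h1 : g * x.1 * g⁻¹ = g * y.1 * g⁻¹ := congrArg Subtype.val h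
            simpa using h1
          · have hconj : ∀ u v : G, Commute u v → Commute (g * u * g⁻¹) (g * v * g⁻¹) := by
              intro u v huv
              show g * u * g⁻¹ * (g * v * g⁻¹) = g * v * g⁻¹ * (g * u * g⁻¹)
              calc g * u * g⁻¹ * (g * v * g⁻¹) = g * (u * v) * g⁻¹ := by group
                _ = g * (v * u) * g⁻¹ := by rw [huv.eq]
                _ = g * v * g⁻¹ * (g * u * g⁻¹) := by group
            rcases hxy.2 with h | h
            · exact Or.inl (hconj _ _ h)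
            · exact Or.inr (hconj _ _ h) }
    exact hab.map f
  have hcjmul : ∀ (g h : G) (a : conjugatesOf d), cj (g * h) a = cj g (cj h a) := by
    intro g h a
    apply Subtype.ext
    show g * h * a.1 * (g * h)⁻¹ = g * (h * a.1 * h⁻¹) * g⁻¹
    group
  have hcjone : ∀ (a : conjugatesOf d), cj 1 a = a := by
    intro a
    apply Subtype.ext
    show 1 * a.1 * 1⁻¹ = a.1
    group
  let d₀ : conjugatesOf d := ⟨d, IsConj.refl d⟩
  let H : Subgroup G :=
    { carrier := {g | (Cfsg.commutingGraph (conjugatesOf d)).Reachable d₀ (cj g d₀)}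
      mul_mem' := by
        intro g h hg hh
        have h1 := hcj g _ _ hh
        rw [← hcjmul] at h1
        exact SimpleGraph.Reachable.trans hg h1
      one_mem' := by
        show (Cfsg.commutingGraph (conjugatesOf d)).Reachable d₀ (cj 1 d₀)
        rw [hcjone]
      inv_mem' := by
        intro g hg
        have h1 := hcj g⁻¹ _ _ hg
        rw [← hcjmul, inv_mul_cancel, hcjone] at h1
        exact h1.symm }
  have hHmem : ∀ g, g ∈ H ↔ (Cfsg.commutingGraph (conjugatesOf d)).Reachable d₀ (cj g d₀) := fun _ => Iff.rfl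
  -- every g is in H up to Z
  have hK1 : ∀ g : G, ∃ z ∈ Z, z * g ∈ H := by
    intro g
    have hu : (QuotientGroup.mk d : G ⧸ Z) ∈ conjugatesOf (QuotientGroup.mk d : G ⧸ Z) := IsConj.refl _
    have hv : (QuotientGroup.mk (g * d * g⁻¹) : G ⧸ Z) ∈ conjugatesOf (QuotientGroup.mk d : G ⧸ Z) := by
      refine isConj_iff.mpr ⟨QuotientGroup.mk g, rfl⟩
    obtain ⟨b, hb1, hb2⟩ := hpath ⟨_, hu⟩ ⟨_, hv⟩ (hconn.preconnected _ _) d₀ rfl
    have hamem : g * d * g⁻¹ ∈ conjugatesOf d := (hDmem _).2 ⟨g, rfl⟩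
    have hw : (g * d * g⁻¹)⁻¹ * b.1 ∈ Z := QuotientGroup.eq.mp hb1.symm
    have hcop : Nat.Coprime (Nat.card Z) 2 := Nat.Coprime.symm ((Nat.coprime_two_left).mpr hZcard)
    obtain ⟨z, hz, hz2⟩ := hroot 2 hcop _ (Z.inv_mem hw)
    refine ⟨z, hz, ?_⟩
    rw [hHmem]
    have hcjd : cj (z * g) d₀ = b := by
      apply Subtype.ext
      show z * g * d * (z * g)⁻¹ = b.1
      set a := g * d * g⁻¹ with ha
      have h1 : z * g * d * (z * g)⁻¹ = z * a * z⁻¹ := by rw [ha]; group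
      rw [h1]
      -- a inverts z
      have h2 : a * z⁻¹ = z * a := by
        have := hinvD a hamem z⁻¹ (Z.inv_mem hz)
        rw [inv_inv, mul_inv_eq_iff_eq_mul] at this
        exact this
      have h3 : z * a * z⁻¹ = a * (z * z)⁻¹ := by
        rw [← h2, mul_inv_rev, mul_assoc]
      have h4 : (z * z)⁻¹ = a⁻¹ * b.1 := by
        rw [← pow_two, hz2, inv_inv]
      rw [h3, h4, ← mul_assoc, mul_inv_cancel, one_mul]
    rw [hcjd]
    exact hb2
  -- commutators of L are in H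
  have hK2 : ∀ l m : L, (l * m * l⁻¹ * m⁻¹ : L).1 ∈ H := by
    intro l m
    obtain ⟨z₁, hz₁, h₁⟩ := hK1 l.1
    obtain ⟨z₂, hz₂, h₂⟩ := hK1 m.1
    obtain ⟨y₁, hy₁, rfl⟩ := hz₁
    obtain ⟨y₂, hy₂, rfl⟩ := hz₂
    have hc1 : ∀ x : L, x * y₁ = y₁ * x := fun x => (Subgroup.mem_center_iff.mp hy₁ x)
    have hc2 : ∀ x : L, x * y₂ = y₂ * x := fun x => (Subgroup.mem_center_iff.mp hy₂ x)
    rw [← comm_central y₁ y₂ l m hc1 hc2]
    exact H.mul_mem (H.mul_mem (H.mul_mem h₁ h₂) (H.inv_mem h₁)) (H.inv_mem h₂)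
  -- L ≤ H
  have hK3 : ∀ x : L, x.1 ∈ H := by
    have hperf : commutator L = ⊤ := hL.1.commutator_eq_top
    intro x
    have hx : x ∈ commutator L := by rw [hperf]; trivial
    rw [commutator_eq_closure] at hx
    induction hx using Subgroup.closure_induction with
    | mem y hy =>
      obtain ⟨l, m, rfl⟩ := hy
      exact hK2 l m
    | one => exact H.one_mem
    | mul a b _ _ iha ihb => exact H.mul_mem iha ihb
    | inv a _ iha => exact H.inv_mem iha
  -- H = G
  have hK4 : ∀ g : G, g ∈ H := by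
    intro g
    obtain ⟨z, hz, hzg⟩ := hK1 g
    have hzH : z ∈ H := hK3 ⟨z, hZL hz⟩
    have := H.mul_mem (H.inv_mem hzH) hzg
    simpa using this
  rw [SimpleGraph.connected_iff]
  refine ⟨?_, ⟨d₀⟩⟩
  have hall : ∀ a : conjugatesOf d, (Cfsg.commutingGraph (conjugatesOf d)).Reachable d₀ a := by
    intro a
    obtain ⟨g, hg⟩ := (hDmem a.1).1 a.2
    have h1 := hK4 g
    rw [hHmem] at h1
    have : cj g d₀ = a := Subtype.ext hg
    rwa [this] at h1
  intro a b
  exact (hall a).symm.trans (hall b)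

end Cfsg.Agent.S5459
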