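import Cfsg.Statements.S5541
import Mathlib

set_option autoImplicit false
open Cfsg

namespace Cfsg.Agent.S5541

/-- Let ρ be a representation of a group H on a finite-dimensional real vector space U whose only ρ-invariant subspaces are the zero subspace and U, and suppose U carries a non-zero ρ-invariant symmetric bilinear form. Then the following are equivalent: (1) there is a non-zero ρ-equivariant commutative bilinear product on U of which every ρ-equivariant bilinear product is a scalar multiple; (2) there is a non-zero ρ-invariant trilinear form on U that is symmetric under all permutations of its arguments and of which every ρ-invariant trilinear form is a scalar multiple. -/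
theorem result {H : Type*} [Group H] {U : Type*} [AddCommGroup U] [Module ℝ U] [FiniteDimensional ℝ U] (ρ : Representation ℝ H U) (hirr : ∀ W : Submodule ℝ U, (∀ g : H, W.map (ρ g) ≤ W) → W = ⊥ ∨ W = ⊤) (B : LinearMap.BilinForm ℝ U) (hB0 : B ≠ 0) (hBs : ∀ u v, B u v = B v u) (hBi : ∀ (g : H) (u v : U), B (ρ g u) (ρ g v) = B u v) : (∃ m : U →ₗ[ℝ] U →ₗ[ℝ] U, m ≠ 0 ∧ (∀ u v, m u v = m v u) ∧ (∀ (g : H) (u v : U), m (ρ g u) (ρ g v) = ρ g (m u v)) ∧ ∀ m' : U →ₗ[ℝ] U →ₗ[ℝ] U, (∀ (g : H) (u v : U), m' (ρ g u) (ρ g v) = ρ g (m' u v)) → ∃ c : ℝ, m' = c • m) ↔ (∃ t : U →ₗ[ℝ] U →ₗ[ℝ] U →ₗ[ℝ] ℝ, t ≠ 0 ∧ (∀ u v w, t u v w = t v u w ∧ t u v w = t u w v) ∧ (∀ (g : H) (u v w : U), t (ρ g u) (ρ g v) (ρ g w) = t u v w) ∧ ∀ t' : U →ₗ[ℝ] U →ₗ[ℝ] U →ₗ[ℝ] ℝ, (∀ (g : H) (u v w : U), t' (ρ g u) (ρ g v) (ρ g w) = t' u v w) → ∃ c : ℝ, t' = c • t) := by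
  classical
  -- the radical of B is trivial
  have hρinv : ∀ (g : H) (x : U), ρ g⁻¹ (ρ g x) = x := by
    intro g x
    rw [← Module.End.mul_apply, ← map_mul, inv_mul_cancel, map_one, Module.End.one_apply]
  have hρinv' : ∀ (g : H) (x : U), ρ g (ρ g⁻¹ x) = x := by
    intro g x
    rw [← Module.End.mul_apply, ← map_mul, mul_inv_cancel, map_one, Module.End.one_apply]
  have hsep : ∀ x : U, (∀ y : U, B x y = 0) → x = 0 := by
    let R : Submodule ℝ U :=
      { carrier := {x | ∀ y, B x y = 0}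
        add_mem' := by
          intro a b ha hb y
          simp [ha y, hb y]
        zero_mem' := by intro y; simp
        smul_mem' := by
          intro c x hx y
          simp [hx y] }
    have hinvR : ∀ g : H, R.map (ρ g) ≤ R := by
      rintro g _ ⟨x, hx, rfl⟩ y
      have : B (ρ g x) y = B (ρ g x) (ρ g (ρ g⁻¹ y)) := by rw [hρinv']
      rw [this, hBi]
      exact hx _
    rcases hirr R hinvR with h | h
    · intro x hx
      have : x ∈ R := hx
      rw [h] at this
      simpa using this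
    · exfalso
      apply hB0
      ext x y
      have : x ∈ R := by rw [h]; trivial
      simpa using this y
  have hnd : B.Nondegenerate := by
    refine ⟨hsep, ?_⟩
    intro y hy
    apply hsep
    intro x
    rw [hBs]
    exact hy x
  have hleft : ∀ a b : U, (∀ w, B a w = B b w) → a = b := by
    intro a b h
    have : a - b = 0 := by
      apply hsep
      intro y
      rw [map_sub, LinearMap.sub_apply, h y, sub_self]
    exact sub_eq_zero.mp this
  let e := B.toDual hnd
  let mT : (U →ₗ[ℝ] U →ₗ[ℝ] U →ₗ[ℝ] ℝ) → (U →ₗ[ℝ] U →ₗ[ℝ] U) := fun t =>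
    LinearMap.compr₂ t (e.symm : Module.Dual ℝ U →ₗ[ℝ] U)
  have hmT : ∀ t u v w, B (mT t u v) w = t u v w := by
    intro t u v w
    exact LinearMap.BilinForm.apply_toDual_symm_apply (hB := hnd) (t u v) w
  let tM : (U →ₗ[ℝ] U →ₗ[ℝ] U) → (U →ₗ[ℝ] U →ₗ[ℝ] U →ₗ[ℝ] ℝ) := fun m => LinearMap.compr₂ m B
  have htM : ∀ m u v w, tM m u v w = B (m u v) w := fun _ _ _ _ => rfl
  -- equivariant to invariant and back
  have hinvtM : ∀ m : U →ₗ[ℝ] U →ₗ[ℝ] U, (∀ (g : H) (u v : U), m (ρ g u) (ρ g v) = ρ g (m u v)) →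
      ∀ (g : H) (u v w : U), tM m (ρ g u) (ρ g v) (ρ g w) = tM m u v w := by
    intro m hm g u v w
    rw [htM, htM, hm, hBi]
  have heqmT : ∀ t : U →ₗ[ℝ] U →ₗ[ℝ] U →ₗ[ℝ] ℝ,
      (∀ (g : H) (u v w : U), t (ρ g u) (ρ g v) (ρ g w) = t u v w) →
      ∀ (g : H) (u v : U), mT t (ρ g u) (ρ g v) = ρ g (mT t u v) := by
    intro t ht g u v
    apply hleft
    intro w
    rw [hmT]
    have h1 : B (ρ g (mT t u v)) w = B (ρ g (mT t u v)) (ρ g (ρ g⁻¹ w)) := by rw [hρinv']
    rw [h1, hBi, hmT, ← ht g u v (ρ g⁻¹ w), hρinv']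
  have htMmT : ∀ t, tM (mT t) = t := by
    intro t
    ext u v w
    rw [htM, hmT]
  have hmTtM : ∀ m, mT (tM m) = m := by
    intro m
    ext u v
    apply hleft
    intro w
    rw [hmT, htM]
  constructor
  · rintro ⟨m, hm0, hmc, hme, hmspan⟩
    have ht0 : tM m ≠ 0 := by
      intro h
      apply hm0
      rw [← hmTtM m, h]
      ext u v
      apply hleft
      intro w
      rw [hmT]
      simp
    have hspan : ∀ t' : U →ₗ[ℝ] U →ₗ[ℝ] U →ₗ[ℝ] ℝ,
        (∀ (g : H) (u v w : U), t' (ρ g u) (ρ g v) (ρ g w) = t' u v w) → ∃ c : ℝ, t' = c • tM m := by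
      intro t' ht'
      obtain ⟨c, hc⟩ := hmspan (mT t') (heqmT t' ht')
      refine ⟨c, ?_⟩
      ext u v w
      rw [← htMmT t', hc]
      simp [htM]
    have h12 : ∀ u v w, tM m u v w = tM m v u w := by
      intro u v w
      rw [htM, htM, hmc]
    -- the flip
    let tf : U →ₗ[ℝ] U →ₗ[ℝ] U →ₗ[ℝ] ℝ := (LinearMap.lflip (R₀ := ℝ)).toLinearMap ∘ₗ (tM m)
    have htf : ∀ u v w, tf u v w = tM m u w v := fun _ _ _ => rfl
    obtain ⟨c, hc⟩ := hspan tf (by
      intro g u v w
      rw [htf, htf]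
      exact hinvtM m hme g u w v)
    have hcv : ∀ u v w, tM m u w v = c * tM m u v w := by
      intro u v w
      rw [← htf, hc]
      simp
    -- c^2 = 1
    have hc2 : ∀ u v w, tM m u v w = c * c * tM m u v w := by
      intro u v w
      rw [mul_assoc, ← hcv u v w, ← hcv u w v]
    obtain ⟨u₀, v₀, w₀, hne⟩ : ∃ u v w, tM m u v w ≠ 0 := by
      by_contra hno
      push Not at hno
      apply ht0
      ext u v w
      simpa using hno u v w
    have hcc : c * c = 1 := by
      have := hc2 u₀ v₀ w₀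
      have h3 : (c * c - 1) * tM m u₀ v₀ w₀ = 0 := by linear_combination -this
      rcases mul_eq_zero.mp h3 with h4 | h4
      · linarith
      · exact absurd h4 hne
    have hcone : c = 1 := by
      have hfac : (c - 1) * (c + 1) = 0 := by linear_combination hcc
      rcases mul_eq_zero.mp hfac with h4 | h4
      · linarith
      · exfalso
        have hcm : c = -1 := by linarith
        apply hne
        have h5 : ∀ u v w, tM m u w v = - tM m u v w := by
          intro u v w
          rw [hcv, hcm]; ring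
        have h6 : tM m u₀ v₀ w₀ = - tM m u₀ v₀ w₀ := by
          calc tM m u₀ v₀ w₀ = tM m v₀ u₀ w₀ := h12 _ _ _
            _ = - tM m v₀ w₀ u₀ := by rw [h5 v₀ w₀ u₀]
            _ = - tM m w₀ v₀ u₀ := by rw [h12 v₀ w₀ u₀]
            _ = tM m w₀ u₀ v₀ := by rw [h5 w₀ u₀ v₀]; ring
            _ = tM m u₀ w₀ v₀ := h12 _ _ _
            _ = - tM m u₀ v₀ w₀ := h5 _ _ _
        linarith
    refine ⟨tM m, ht0, ?_, hinvtM m hme, hspan⟩
    intro u v w
    refine ⟨h12 u v w, ?_⟩
    rw [hcv, hcone, one_mul]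
  · rintro ⟨t, ht0, hts, hti, htspan⟩
    refine ⟨mT t, ?_, ?_, heqmT t hti, ?_⟩
    · intro h
      apply ht0
      rw [← htMmT t, h]
      ext u v w
      simp [htM]
    · intro u v
      apply hleft
      intro w
      rw [hmT, hmT]
      exact (hts u v w).1
    · intro m' hm'
      obtain ⟨c, hc⟩ := htspan (tM m') (hinvtM m' hm')
      refine ⟨c, ?_⟩
      ext u v
      apply hleft
      intro w
      have h1 : B (m' u v) w = tM m' u v w := rfl
      rw [h1, hc]
      simp [hmT]

end Cfsg.Agent.S5541
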