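import Cfsg.Statements.S5543
import Mathlib

set_option autoImplicit false
open Cfsg

namespace Cfsg.Agent.S5543

/-- Let V be a finite-dimensional real vector space with a commutative bilinear product and a positive-definite symmetric bilinear form that associates with the product and satisfies the Norton inequality (the Majorana setting of the definitions). Let X be a group of linear automorphisms of V in which every element squares to the identity, and suppose every non-identity element x of X is a Majorana involution with an axial vector a(x) of squared length 1, such that for any two distinct non-identity x, y the product a(x) ∘ a(y) equals (1/8)(a(x) + a(y) − a(xy)) (the dihedral subalgebra of type 2A whose third axis belongs to the involution xy). Then X has order at most 4. -/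
theorem result {V : Type*} [AddCommGroup V] [Module ℝ V] [FiniteDimensional ℝ V] (mul : V →ₗ[ℝ] V →ₗ[ℝ] V) (B : LinearMap.BilinForm ℝ V) (hV : Cfsg.Axial.IsMajoranaAmbient mul B) (X : Subgroup (V ≃ₗ[ℝ] V)) (hX : ∀ x ∈ X, x * x = 1) (ax : (V ≃ₗ[ℝ] V) → V) (hax : ∀ x ∈ X, x ≠ 1 → Cfsg.Axial.IsMajoranaPair mul B x (ax x)) (h1 : ∀ x ∈ X, x ≠ 1 → B (ax x) (ax x) = 1) (h2A : ∀ x ∈ X, ∀ y ∈ X, x ≠ 1 → y ≠ 1 → x ≠ y → mul (ax x) (ax y) = (1 / 8 : ℝ) • (ax x + ax y - ax (x * y))) : Nat.card ↥X ≤ 4 := by
  classical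
  by_contra hcard
  push Not at hcard
  -- a new element outside any short list
  have hnew : ∀ S : Finset (V ≃ₗ[ℝ] V), S.card ≤ 4 → ∃ z ∈ X, z ∉ S := by
    intro S hS
    by_contra hno
    push Not at hno
    have h3 : (X : Set (V ≃ₗ[ℝ] V)) ⊆ (S : Set (V ≃ₗ[ℝ] V)) := fun z hz => Finset.mem_coe.mpr (hno z hz)
    have h4 : Nat.card X = (X : Set (V ≃ₗ[ℝ] V)).ncard := rfl
    have h5 := Set.ncard_le_ncard h3 (Finset.finite_toSet S)
    rw [Set.ncard_coe_finset] at h5
    omega
  obtain ⟨x, hxX, hx⟩ := hnew {1} (by simp)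
  simp only [Finset.mem_singleton] at hx
  obtain ⟨y, hyX, hy⟩ := hnew {1, x} (Nat.le_trans (Finset.card_insert_le _ _) (by simp))
  simp only [Finset.mem_insert, Finset.mem_singleton, not_or] at hy
  obtain ⟨z, hzX, hz⟩ := hnew {1, x, y, x * y} (by
    refine Nat.le_trans (Finset.card_insert_le _ _) ?_
    have := Finset.card_le_three (a := x) (b := y) (c := x * y)
    omega)
  simp only [Finset.mem_insert, Finset.mem_singleton, not_or] at hz
  obtain ⟨hy1, hyx⟩ := hy
  obtain ⟨hz1, hzx, hzy, hzxy⟩ := hz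
  -- commutativity
  have hcomm : ∀ g ∈ X, ∀ h ∈ X, g * h = h * g := by
    intro g hg h hh
    have e1 := hX _ (X.mul_mem hg hh)
    have e2 := hX g hg
    have e3 := hX h hh
    calc g * h = g * h * (h * g * (h * g)) := by rw [hX _ (X.mul_mem hh hg), mul_one]
      _ = g * (h * h) * g * (h * g) := by simp only [mul_assoc]
      _ = h * g := by rw [e3, mul_one, e2, one_mul]
  have hcancel : ∀ g ∈ X, ∀ h, g * (g * h) = h := by
    intro g hg h
    rw [← mul_assoc, hX g hg, one_mul]
  -- the elements
  set p := y * z with hp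
  have hpX : p ∈ X := X.mul_mem hyX hzX
  have hxyX : x * y ∈ X := X.mul_mem hxX hyX
  have hxzX : x * z ∈ X := X.mul_mem hxX hzX
  have hxpX : x * p ∈ X := X.mul_mem hxX hpX
  have ne_mul : ∀ g ∈ X, ∀ h, h ≠ g → g * h ≠ 1 := by
    intro g hg h hne h3
    apply hne
    have := hcancel g hg h
    rw [h3, mul_one] at this
    exact this.symm
  have hxy1 : x * y ≠ 1 := ne_mul x hxX y hyx
  have hxz1 : x * z ≠ 1 := ne_mul x hxX z hzx
  have hp1 : p ≠ 1 := ne_mul y hyX z hzy
  have hxp1 : x * p ≠ 1 := by
    apply ne_mul x hxX p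
    intro h3
    apply hzxy
    have h4 : y * (y * z) = y * x := by rw [← hp, h3]
    rw [hcancel y hyX, hcomm y hyX x hxX] at h4
    exact h4
  have hpx : p ≠ x := by
    intro h3
    apply hzxy
    have h4 : y * (y * z) = y * x := by rw [← hp, h3]
    rw [hcancel y hyX, hcomm y hyX x hxX] at h4
    exact h4
  -- the eigenvector lemma
  have heig : ∀ g ∈ X, g ≠ 1 → g ≠ x →
      mul (ax x) (ax g - ax (x * g)) = (1 / 4 : ℝ) • (ax g - ax (x * g)) := by
    intro g hg hg1 hgx
    have e1 := h2A x hxX g hg hx hg1 hgx.symm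
    have e2 := h2A x hxX (x * g) (X.mul_mem hxX hg) hx (ne_mul x hxX g hgx) (by
      intro h3
      apply hg1
      have : x * (x * g) = x * x := by rw [← h3]
      rw [hcancel x hxX, hX x hxX] at this
      exact this)
    rw [hcancel x hxX] at e2
    rw [map_sub, e1, e2]
    module
  have hmaj := hax x hxX hx
  have hfus := hmaj.2.2.1.1.2.2.2
  -- the law on the 1/4-eigenspace
  have hlaw : Cfsg.Axial.monsterLaw (1 / 4 : ℝ) (1 / 32) (1 / 4) (1 / 4) = {1, 0} := by
    unfold Cfsg.Axial.monsterLaw
    rw [if_neg (by norm_num), if_neg (by norm_num), if_pos (by norm_num)]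
  have hS : (1 / 4 : ℝ) ∈ Cfsg.Axial.majoranaSpectrum := by
    simp [Cfsg.Axial.majoranaSpectrum]
  have hu := heig y hyX hy1 hyx
  have hv := heig z hzX hz1 hzx
  have hw := heig p hpX hp1 hpx
  have hmem := hfus (1 / 4) hS (1 / 4) hS (ax y - ax (x * y))
    (by rw [Cfsg.Axial.eigen, Module.End.mem_eigenspace_iff]; exact hu)
    (ax z - ax (x * z))
    (by rw [Cfsg.Axial.eigen, Module.End.mem_eigenspace_iff]; exact hv)
  rw [hlaw] at hmem
  -- the product
  have hprod : mul (ax y - ax (x * y)) (ax z - ax (x * z)) = (-(1 / 4) : ℝ) • (ax p - ax (x * p)) := by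
    have e1 := h2A y hyX z hzX hy1 hz1 (Ne.symm hzy)
    have e2 := h2A y hyX (x * z) hxzX hy1 hxz1 (by
      intro h3
      apply hzxy
      rw [h3, hcancel x hxX])
    have e3 := h2A (x * y) hxyX z hzX hxy1 hz1 (Ne.symm hzxy)
    have e4 := h2A (x * y) hxyX (x * z) hxzX hxy1 hxz1 (by
      intro h3
      apply hzy
      exact (mul_left_cancel h3).symm)
    have g2 : y * (x * z) = x * p := by
      rw [hp, ← mul_assoc, ← mul_assoc, hcomm y hyX x hxX]
    have g3 : (x * y) * z = x * p := by
      rw [hp, mul_assoc]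
    have g4 : (x * y) * (x * z) = p := by
      rw [hp, hcomm x hxX y hyX, mul_assoc, hcancel x hxX]
    rw [g2] at e2
    rw [g3] at e3
    rw [g4] at e4
    rw [← hp] at e1
    simp only [map_sub, LinearMap.sub_apply]
    rw [e1, e2, e3, e4]
    module
  rw [hprod] at hmem
  have hmem' : ax p - ax (x * p) ∈ Cfsg.Axial.eigenSum mul (ax x) {1, 0} := by
    have := Submodule.smul_mem _ (-4 : ℝ) hmem
    rw [smul_smul] at this
    norm_num at this
    exact this
  -- on the eigenSum, T^2 = T
  have hTT : ∀ v ∈ Cfsg.Axial.eigenSum mul (ax x) {1, 0}, mul (ax x) (mul (ax x) v) = mul (ax x) v := by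
    intro v hv
    have hle : Cfsg.Axial.eigenSum mul (ax x) {1, 0} ≤
        LinearMap.ker ((mul (ax x)) ∘ₗ (mul (ax x)) - mul (ax x)) := by
      unfold Cfsg.Axial.eigenSum
      apply iSup₂_le
      intro c hc w hw
      rw [Cfsg.Axial.eigen, Module.End.mem_eigenspace_iff] at hw
      rw [LinearMap.mem_ker, LinearMap.sub_apply, LinearMap.comp_apply, hw]
      simp only [Set.mem_insert_iff, Set.mem_singleton_iff] at hc
      rcases hc with rfl | rfl
      · simp [hw]
      · simp
    have := hle hv
    rw [LinearMap.mem_ker, LinearMap.sub_apply, LinearMap.comp_apply, sub_eq_zero] at this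
    exact this
  have hzero : ax p - ax (x * p) = 0 := by
    have h3 := hTT _ hmem'
    rw [hw, map_smul, hw, smul_smul] at h3
    have h4 : ((1 / 4 * (1 / 4) : ℝ) - 1 / 4) • (ax p - ax (x * p)) = 0 := by
      rw [sub_smul, h3, sub_self]
    rcases smul_eq_zero.mp h4 with h5 | h5
    · norm_num at h5
    · exact h5
  have hpq : ax p = ax (x * p) := sub_eq_zero.mp hzero
  -- final contradiction
  have hpp := (hax p hpX hp1).2.2.1.1.2.1
  have hxx := hmaj.2.2.1.1.2.1
  have hb0 := (hax p hpX hp1).2.2.1.1.1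
  have e5 := h2A p hpX (x * p) hxpX hp1 hxp1 (by
    intro h3
    apply hx
    have : p * (p * 1) = p * (x * p) := by rw [mul_one]; rw [← h3]
    rw [hcancel p hpX] at this
    rw [hcomm x hxX p hpX, hcancel p hpX] at this
    exact this.symm)
  have g5 : p * (x * p) = x := by
    rw [hcomm x hxX p hpX, hcancel p hpX]
  rw [g5, ← hpq, hpp] at e5
  -- e5 : b = (1/8) (b + b - a_x)
  have h8 : (8 : ℝ) • ax p = ax p + ax p - ax x := by
    have := congrArg (fun v => (8 : ℝ) • v) e5
    simp only [smul_smul] at this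
    norm_num at this
    exact this
  have e6 : ax x = (-6 : ℝ) • ax p := by
    have : ax x = ax p + ax p - (8 : ℝ) • ax p := by rw [h8]; abel
    rw [this]; module
  rw [e6, map_smul, map_smul, LinearMap.smul_apply, hpp, smul_smul] at hxx
  have h9 : ax p = 0 := by
    have : ((-6 * -6 : ℝ) + 6) • ax p = 0 := by
      rw [add_smul, hxx]
      module
    norm_num at this
    exact this
  exact hb0 h9

end Cfsg.Agent.S5543
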