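import Cfsg.Statements.S5546
import Cfsg.Agent.Lib.LeechX.Gl23

set_option autoImplicit false
open Cfsg

namespace Cfsg.Agent.S5546

/-- The second Conway group (the stabilizer in the Leech lattice automorphism group of the short vector fixed in the definitions) is isomorphic to a subgroup of the general linear group of degree 23 over the field with 13 elements: there is an injective homomorphism into it. -/
theorem result : ∃ f : ↥Cfsg.Spor.Co2 →* GL (Fin 23) (ZMod 13), Function.Injective f := by
  exact Cfsg.Agent.Lib.LeechX.exists_embedding

end Cfsg.Agent.S5546
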