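import Cfsg.Statements.S5547
import Cfsg.Agent.Lib.Fi78.Main
import Cfsg.Agent.S1696
import Cfsg.Agent.Lib.ToddCox.OpMap

set_option autoImplicit false
open Cfsg

namespace Cfsg.Agent.S5547

/-- The Fischer group Fi₂₂ (the finitely presented 3-transposition group of the definitions) is isomorphic to a subgroup of the general linear group of degree 78 over the field with 13 elements: there is an injective homomorphism into it. -/
theorem result : ∃ f : Cfsg.Spor.Fi22 →* GL (Fin 78) (ZMod 13), Function.Injective f := by
  exact ⟨Cfsg.Agent.Lib.Fi78.repF, Cfsg.Agent.Lib.ToddCox.injective_of_simple Cfsg.Agent.S1696.result.1 _ Cfsg.Agent.Lib.Fi78.repF_ne⟩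

end Cfsg.Agent.S5547
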