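import Cfsg.Statements.S5553
import Cfsg.Agent.Lib.LeechX.Basic

set_option autoImplicit false
open Cfsg

namespace Cfsg.Agent.S5553

/-- The Leech lattice of the definitions has an additive subgroup A containing twice the lattice, of index 2^12 in the lattice, all of whose vectors have squared length divisible by 32: the invariant quadratic form 'squared length over 16 modulo 2' on the lattice modulo twice the lattice (a 24-dimensional space over the field with two elements) vanishes on a 12-dimensional subspace, so it is of plus type. -/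
theorem result : ∃ A : AddSubgroup (Cfsg.GolayPt → ℤ), A ≤ Cfsg.leechLattice ∧ (∀ v ∈ Cfsg.leechLattice, (2 : ℤ) • v ∈ A) ∧ (A.addSubgroupOf Cfsg.leechLattice).index = 2 ^ 12 ∧ ∀ v ∈ A, (32 : ℤ) ∣ Cfsg.sqNorm v := by
  exact ⟨Cfsg.Agent.Lib.LeechX.isoA, Cfsg.Agent.Lib.LeechX.isoA_le,
    fun v hv => Cfsg.Agent.Lib.LeechX.two_smul_mem_isoA hv, Cfsg.Agent.Lib.LeechX.relIndex_isoA,
    fun v hv => Cfsg.Agent.Lib.LeechX.dvd_norm_isoA hv⟩

end Cfsg.Agent.S5553
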