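import Cfsg.Statements.S5599
import Cfsg.Agent.Lib.M24X.Classes

set_option autoImplicit false
open scoped Pointwise
open Cfsg

namespace Cfsg.Agent.S5599

/-- In the automorphism group of the length-24 code, the two-point Mathieu group (permutations of the code's group fixing the extra point and the residue 0) has index 2 in the setwise stabiliser of that pair of points, and an element of the code's group interchanging the two points normalises the two-point group and induces on it, by conjugation, an automorphism that is not inner. -/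
theorem result (g : Equiv.Perm Cfsg.GolayPt) (hg : g ∈ Cfsg.M24) (h₁ : g none = some 0) (h₂ : g (some 0) = none) : Cfsg.Spor.M22.relIndex (Cfsg.M24 ⊓ MulAction.stabilizer (Equiv.Perm Cfsg.GolayPt) ({none, some 0} : Finset Cfsg.GolayPt)) = 2 ∧ (∀ x ∈ Cfsg.Spor.M22, g * x * g⁻¹ ∈ Cfsg.Spor.M22) ∧ ¬ ∃ h ∈ Cfsg.Spor.M22, ∀ x ∈ Cfsg.Spor.M22, g * x * g⁻¹ = h * x * h⁻¹ := by
  open Cfsg.Agent.Lib.M24X Cfsg.Agent.Lib.Golay MulAction Cfsg.Spor in
  classical
  have hM22 : ∀ x : Equiv.Perm Cfsg.GolayPt, x ∈ Cfsg.Spor.M22 ↔ x ∈ Cfsg.M24 ∧ x none = none ∧ x (some 0) = some 0 := by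
    intro x
    simp only [Cfsg.Spor.M22, Cfsg.Spor.M23, Subgroup.mem_inf, mem_stabilizer_iff, Equiv.Perm.smul_def]
    tauto
  let K : Subgroup (Equiv.Perm Cfsg.GolayPt) :=
    Cfsg.M24 ⊓ MulAction.stabilizer (Equiv.Perm Cfsg.GolayPt) ({none, some 0} : Finset Cfsg.GolayPt)
  have hK : ∀ x : Equiv.Perm Cfsg.GolayPt, x ∈ K ↔ x ∈ Cfsg.M24 ∧
      ((x none = none ∧ x (some 0) = some 0) ∨ (x none = some 0 ∧ x (some 0) = none)) := by
    intro x
    simp only [K, Subgroup.mem_inf, mem_stabilizer_iff]
    apply and_congr_right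
    intro _
    constructor
    · intro h
      have h1 : x none ∈ x • ({none, some 0} : Finset Cfsg.GolayPt) :=
        (mem_smul_iff x _ _).mpr (by simp)
      have h2 : x (some 0) ∈ x • ({none, some 0} : Finset Cfsg.GolayPt) :=
        (mem_smul_iff x _ _).mpr (by simp)
      rw [h] at h1 h2
      simp only [Finset.mem_insert, Finset.mem_singleton] at h1 h2
      rcases h1 with h1 | h1 <;> rcases h2 with h2 | h2
      · exact absurd (x.injective (h1.trans h2.symm)) (by simp)
      · exact Or.inl ⟨h1, h2⟩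
      · exact Or.inr ⟨h1, h2⟩
      · exact absurd (x.injective (h1.trans h2.symm)) (by simp)
    · rintro (⟨h1, h2⟩ | ⟨h1, h2⟩)
      · ext y
        simp only [Finset.mem_smul_finset, Finset.mem_insert, Finset.mem_singleton]
        constructor
        · rintro ⟨z, rfl | rfl, rfl⟩
          · exact Or.inl h1
          · exact Or.inr h2
        · rintro (rfl | rfl)
          · exact ⟨none, Or.inl rfl, h1⟩
          · exact ⟨some 0, Or.inr rfl, h2⟩
      · ext y
        simp only [Finset.mem_smul_finset, Finset.mem_insert, Finset.mem_singleton]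
        constructor
        · rintro ⟨z, rfl | rfl, rfl⟩
          · exact Or.inr h1
          · exact Or.inl h2
        · rintro (rfl | rfl)
          · exact ⟨some 0, Or.inr rfl, h2⟩
          · exact ⟨none, Or.inl rfl, h1⟩
  have hgK : g ∈ K := (hK g).mpr ⟨hg, Or.inr ⟨h₁, h₂⟩⟩
  have hgi1 : g⁻¹ none = some 0 := by rw [← h₂]; simp
  have hgi2 : g⁻¹ (some 0) = none := by rw [← h₁]; simp
  refine ⟨?_, ?_, ?_⟩
  · -- the index
    show (Cfsg.Spor.M22.subgroupOf K).index = 2
    rw [Subgroup.index_eq_two_iff]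
    refine ⟨⟨g, hgK⟩, ?_⟩
    intro b
    rw [Subgroup.mem_subgroupOf, Subgroup.mem_subgroupOf]
    obtain ⟨hb1, hb2⟩ := (hK b.1).mp b.2
    simp only [Subgroup.coe_mul, hM22, Equiv.Perm.mul_apply, h₁, h₂]
    rcases hb2 with ⟨h3, h4⟩ | ⟨h3, h4⟩
    · right
      refine ⟨⟨hb1, h3, h4⟩, ?_⟩
      rintro ⟨-, h5, -⟩
      rw [h4] at h5
      simp at h5
    · left
      refine ⟨⟨Cfsg.M24.mul_mem hb1 hg, h4, h3⟩, ?_⟩
      rintro ⟨-, h5, -⟩
      rw [h3] at h5
      simp at h5
  · intro x hx
    obtain ⟨h1, h2, h3⟩ := (hM22 x).mp hx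
    refine (hM22 _).mpr ⟨Cfsg.M24.mul_mem (Cfsg.M24.mul_mem hg h1) (Cfsg.M24.inv_mem hg), ?_, ?_⟩
    · simp only [Equiv.Perm.mul_apply, hgi1, h3, h₂]
    · simp only [Equiv.Perm.mul_apply, hgi2, h2, h₁]
  · rintro ⟨h, hh, hconj⟩
    obtain ⟨hh1, hh2, hh3⟩ := (hM22 h).mp hh
    let k : Equiv.Perm Cfsg.GolayPt := h⁻¹ * g
    have hk : k ∈ Cfsg.M24 := Cfsg.M24.mul_mem (Cfsg.M24.inv_mem hh1) hg
    have hhi2 : h⁻¹ none = none := by
      conv_lhs => rw [← hh2]
      simp
    have hhi3 : h⁻¹ (some 0) = some 0 := by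
      conv_lhs => rw [← hh3]
      simp
    have hk1 : k none = some 0 := by
      simp only [k, Equiv.Perm.mul_apply, h₁, hhi3]
    have hk2 : k (some 0) = none := by
      simp only [k, Equiv.Perm.mul_apply, h₂, hhi2]
    have hcomm : ∀ x ∈ Cfsg.Spor.M22, k * x = x * k := by
      intro x hx
      have := hconj x hx
      have h2 : g * x = h * x * h⁻¹ * g := by
        rw [← this]
        group
      show h⁻¹ * g * x = x * (h⁻¹ * g)
      rw [mul_assoc, h2]
      group
    -- `k` fixes all other points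
    have hfix : ∀ q, q ≠ none → q ≠ some 0 → k q = q := by
      intro q hq1 hq2
      by_contra hne
      have hr1 : k q ≠ none := fun h => hq2 (k.injective (h.trans hk2.symm))
      have hr2 : k q ≠ some 0 := fun h => hq1 (k.injective (h.trans hk1.symm))
      obtain ⟨r', hr'⟩ : ∃ r', r' ∉ ({none, some 0, q, k q} : Finset Cfsg.GolayPt) := by
        by_contra hc
        push Not at hc
        have h3 : ({none, some 0, q, k q} : Finset Cfsg.GolayPt) = Finset.univ :=
          Finset.eq_univ_iff_forall.mpr hc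
        have h4 : ({none, some 0, q, k q} : Finset Cfsg.GolayPt).card ≤ 4 := Finset.card_le_four
        rw [h3] at h4
        exact absurd h4 (by decide)
      simp only [Finset.mem_insert, Finset.mem_singleton, not_or] at hr'
      obtain ⟨r1, r2, r3, r4⟩ := hr'
      obtain ⟨a, ha, a1, a2, a3, a4⟩ := exists_to_base4 (p := none) (q := some 0) (r := q) (s := k q)
        (by simp) (Ne.symm hq1) (Ne.symm hr1) (Ne.symm hq2) (Ne.symm hr2) (Ne.symm hne)
      obtain ⟨b, hb, b1, b2, b3, b4⟩ := exists_to_base4 (p := none) (q := some 0) (r := q) (s := r')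
        (by simp) (Ne.symm hq1) (Ne.symm r1) (Ne.symm hq2) (Ne.symm r2) (Ne.symm r3)
      let x : Equiv.Perm Cfsg.GolayPt := b⁻¹ * a
      have hx : x ∈ Cfsg.Spor.M22 := by
        refine (hM22 x).mpr ⟨Cfsg.M24.mul_mem (Cfsg.M24.inv_mem hb) ha, ?_, ?_⟩
        · simp only [x, Equiv.Perm.mul_apply, a1, ← b1]
          simp
        · simp only [x, Equiv.Perm.mul_apply, a2, ← b2]
          simp
      have hxq : x q = q := by
        simp only [x, Equiv.Perm.mul_apply, a3, ← b3]
        simp
      have hxr : x (k q) = r' := by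
        simp only [x, Equiv.Perm.mul_apply, a4, ← b4]
        simp
      have h5 := congrArg (fun f : Equiv.Perm Cfsg.GolayPt => f q) (hcomm x hx)
      simp only [Equiv.Perm.mul_apply, hxq, hxr] at h5
      exact r4 h5.symm
    have hkne : k ≠ 1 := by
      intro h
      rw [h] at hk1
      simp at hk1
    have hm := moved_card hk hkne
    have hsub : (Finset.univ.filter fun p => k p ≠ p) ⊆ ({none, some 0} : Finset Cfsg.GolayPt) := by
      intro p hp
      rw [Finset.mem_filter] at hp
      simp only [Finset.mem_insert, Finset.mem_singleton]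
      by_contra hc
      push Not at hc
      exact hp.2 (hfix p hc.1 hc.2)
    have := Finset.card_le_card hsub
    have h2 : ({none, some 0} : Finset Cfsg.GolayPt).card ≤ 2 := Finset.card_le_two
    omega

end Cfsg.Agent.S5599
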