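import Cfsg.Statements.S5601
import Cfsg.Agent.Lib.M24X.Classes

set_option autoImplicit false
open scoped Pointwise
open Cfsg

namespace Cfsg.Agent.S5601

/-- The group of the length-24 code has exactly two conjugacy classes of subgroups of order 3: a subgroup of order 3 fixes either exactly 6 of the 24 points or none of them, both cases occur, and two subgroups of order 3 with the same number of fixed points are conjugate. -/
theorem result : (∀ X : Subgroup ↥Cfsg.M24, Nat.card X = 3 → {p : Cfsg.GolayPt | ∀ x ∈ X, ((x : ↥Cfsg.M24) : Equiv.Perm Cfsg.GolayPt) p = p}.ncard = 6 ∨ {p : Cfsg.GolayPt | ∀ x ∈ X, ((x : ↥Cfsg.M24) : Equiv.Perm Cfsg.GolayPt) p = p}.ncard = 0) ∧ (∃ X : Subgroup ↥Cfsg.M24, Nat.card X = 3 ∧ {p : Cfsg.GolayPt | ∀ x ∈ X, ((x : ↥Cfsg.M24) : Equiv.Perm Cfsg.GolayPt) p = p}.ncard = 6) ∧ (∃ X : Subgroup ↥Cfsg.M24, Nat.card X = 3 ∧ {p : Cfsg.GolayPt | ∀ x ∈ X, ((x : ↥Cfsg.M24) : Equiv.Perm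 Cfsg.GolayPt) p = p}.ncard = 0) ∧ ∀ X Y : Subgroup ↥Cfsg.M24, Nat.card X = 3 → Nat.card Y = 3 → {p : Cfsg.GolayPt | ∀ x ∈ X, ((x : ↥Cfsg.M24) : Equiv.Perm Cfsg.GolayPt) p = p}.ncard = {p : Cfsg.GolayPt | ∀ x ∈ Y, ((x : ↥Cfsg.M24) : Equiv.Perm Cfsg.GolayPt) p = p}.ncard → ∃ k : ↥Cfsg.M24, MulAut.conj k • X = Y := by
  open Cfsg.Agent.Lib.M24X Cfsg.Agent.Lib.Golay in
  classical
  -- generators of a group of order three
  have hgen : ∀ X : Subgroup ↥Cfsg.M24, Nat.card X = 3 →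
      ∃ x : ↥Cfsg.M24, orderOf x = 3 ∧ X = Subgroup.zpowers x := by
    intro X hX
    have : Fact (Nat.Prime 3) := ⟨Nat.prime_three⟩
    have : Nontrivial X := Finite.one_lt_card_iff_nontrivial.mp (by rw [hX]; norm_num)
    obtain ⟨y, hy⟩ := exists_ne (1 : X)
    have h3 : y ^ 3 = 1 := by rw [← hX]; exact pow_card_eq_one'
    have ho : orderOf y = 3 := orderOf_eq_prime h3 hy
    refine ⟨y.1, by rw [Subgroup.orderOf_coe]; exact ho, ?_⟩
    symm
    apply Subgroup.eq_of_le_of_card_ge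
    · rw [Subgroup.zpowers_le]
      exact y.2
    · rw [hX, Nat.card_zpowers, Subgroup.orderOf_coe, ho]
  have hordP : ∀ x : ↥Cfsg.M24, orderOf (x : Equiv.Perm Cfsg.GolayPt) = orderOf x := fun x =>
    Subgroup.orderOf_coe x
  -- the fixed point set of a cyclic group
  have hfix : ∀ x : ↥Cfsg.M24,
      {p : Cfsg.GolayPt | ∀ y ∈ Subgroup.zpowers x, ((y : ↥Cfsg.M24) : Equiv.Perm Cfsg.GolayPt) p = p}.ncard =
        (Finset.univ.filter fun p => (x : Equiv.Perm Cfsg.GolayPt) p = p).card := by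
    intro x
    rw [← Set.ncard_coe_finset]
    congr 1
    ext p
    simp only [Set.mem_ofPred_eq, Finset.mem_coe, mem_fix_filter]
    constructor
    · intro h
      exact h x (Subgroup.mem_zpowers x)
    · rintro h y ⟨n, rfl⟩
      have : ((x ^ n : ↥Cfsg.M24) : Equiv.Perm Cfsg.GolayPt) = (x : Equiv.Perm Cfsg.GolayPt) ^ n := by simp
      show ((x ^ n : ↥Cfsg.M24) : Equiv.Perm Cfsg.GolayPt) p = p
      rw [this]
      exact Equiv.Perm.zpow_apply_eq_self_of_apply_eq_self h n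
  have mA : perm a3 ∈ Cfsg.M24 := perm_mem_M24 isPerm_a3 aut_a3
  have mB : perm b3 ∈ Cfsg.M24 := perm_mem_M24 isPerm_b3 aut_b3
  have ordA : orderOf (⟨perm a3, mA⟩ : ↥Cfsg.M24) = 3 := by
    rw [← hordP]
    have : Fact (Nat.Prime 3) := ⟨Nat.prime_three⟩
    apply orderOf_eq_prime
    · show (perm a3) ^ 3 = 1
      rw [pow_succ, pow_two, ← perm_mulL isPerm_a3 isPerm_a3, ← perm_mulL (isPerm_mulL isPerm_a3 isPerm_a3) isPerm_a3, ← perm_idL]
      congr 1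
    · intro h
      have h2 : perm a3 = perm idL := by rw [perm_idL]; exact h
      exact absurd (perm_inj isPerm_a3 isPerm_idL h2) (by decide +kernel)
  have ordB : orderOf (⟨perm b3, mB⟩ : ↥Cfsg.M24) = 3 := by
    rw [← hordP]
    have : Fact (Nat.Prime 3) := ⟨Nat.prime_three⟩
    apply orderOf_eq_prime
    · show (perm b3) ^ 3 = 1
      rw [pow_succ, pow_two, ← perm_mulL isPerm_b3 isPerm_b3, ← perm_mulL (isPerm_mulL isPerm_b3 isPerm_b3) isPerm_b3, ← perm_idL]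
      congr 1
    · intro h
      have h2 : perm b3 = perm idL := by rw [perm_idL]; exact h
      exact absurd (perm_inj isPerm_b3 isPerm_idL h2) (by decide +kernel)
  refine ⟨?_, ⟨Subgroup.zpowers ⟨perm a3, mA⟩, ?_, ?_⟩, ⟨Subgroup.zpowers ⟨perm b3, mB⟩, ?_, ?_⟩, ?_⟩
  · intro X hX
    obtain ⟨x, hx, rfl⟩ := hgen X hX
    rw [hfix]
    rcases exists_conj_ord3 x.2 (by rw [hordP]; exact hx) with ⟨k, hk, he⟩ | ⟨k, hk, he⟩
    · left
      rw [← fix_card_conj k, he, a3_card]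
    · right
      rw [← fix_card_conj k, he, b3_card]
  · rw [Nat.card_zpowers, ordA]
  · rw [hfix]
    exact a3_card
  · rw [Nat.card_zpowers, ordB]
  · rw [hfix]
    exact b3_card
  · intro X Y hX hY hc
    obtain ⟨x, hx, rfl⟩ := hgen X hX
    obtain ⟨y, hy, rfl⟩ := hgen Y hY
    rw [hfix, hfix] at hc
    have hx' : orderOf (x : Equiv.Perm Cfsg.GolayPt) = 3 := by rw [hordP]; exact hx
    have hy' : orderOf (y : Equiv.Perm Cfsg.GolayPt) = 3 := by rw [hordP]; exact hy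
    have key : ∃ c : ↥Cfsg.M24, c * x * c⁻¹ = y := by
      by_cases h0 : (Finset.univ.filter fun p => (x : Equiv.Perm Cfsg.GolayPt) p = p).card = 0
      · obtain ⟨k, hk, he⟩ := conj_b3_of_fpf x.2 hx' h0
        obtain ⟨k2, hk2, he2⟩ := conj_b3_of_fpf y.2 hy' (by rw [← hc]; exact h0)
        refine ⟨⟨k2⁻¹ * k, Cfsg.M24.mul_mem (Cfsg.M24.inv_mem hk2) hk⟩, Subtype.ext ?_⟩
        show k2⁻¹ * k * (x : Equiv.Perm Cfsg.GolayPt) * (k2⁻¹ * k)⁻¹ = y
        have : k2⁻¹ * k * (x : Equiv.Perm Cfsg.GolayPt) * (k2⁻¹ * k)⁻¹ = k2⁻¹ * (k * x * k⁻¹) * k2 := by group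
        rw [this, he, ← he2]
        group
      · obtain ⟨k, hk, he⟩ := conj_a3_of_card x.2 hx' h0
        obtain ⟨k2, hk2, he2⟩ := conj_a3_of_card y.2 hy' (by rw [← hc]; exact h0)
        refine ⟨⟨k2⁻¹ * k, Cfsg.M24.mul_mem (Cfsg.M24.inv_mem hk2) hk⟩, Subtype.ext ?_⟩
        show k2⁻¹ * k * (x : Equiv.Perm Cfsg.GolayPt) * (k2⁻¹ * k)⁻¹ = y
        have : k2⁻¹ * k * (x : Equiv.Perm Cfsg.GolayPt) * (k2⁻¹ * k)⁻¹ = k2⁻¹ * (k * x * k⁻¹) * k2 := by group
        rw [this, he, ← he2]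
        group
    obtain ⟨c, hc2⟩ := key
    refine ⟨c, ?_⟩
    show Subgroup.map (MulAut.conj c).toMonoidHom (Subgroup.zpowers x) = _
    rw [MonoidHom.map_zpowers, ← hc2]
    rfl

end Cfsg.Agent.S5601
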