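import Cfsg.Statements.S5617
import Cfsg.Agent.Lib.M24X.MoreOrbits

set_option autoImplicit false
open scoped Pointwise
open Cfsg

namespace Cfsg.Agent.S5617

/-- The setwise stabiliser, in the group of the length-24 code, of a complementary pair of dodecads has exactly three orbits on the 1771 sextets, of sizes 396, 495 and 880. -/
theorem result (d : Finset Cfsg.GolayPt) (hd : d ∈ Cfsg.dodecads) : ∃ X₁ ∈ Cfsg.sextets, ∃ X₂ ∈ Cfsg.sextets, ∃ X₃ ∈ Cfsg.sextets, (MulAction.orbit ↥(MulAction.stabilizer Cfsg.M24 ({d, Finset.univ \ d} : Finset (Finset Cfsg.GolayPt))) X₁).ncard = 396 ∧ (MulAction.orbit ↥(MulAction.stabilizer Cfsg.M24 ({d, Finset.univ \ d} : Finset (Finset Cfsg.GolayPt))) X₂).ncard = 495 ∧ (MulAction.orbit ↥(MulAction.stabilizer Cfsg.M24 ({d, Finset.univ \ d} : Finset (Finset Cfsg.GolayPt))) X₃).ncard = 880 ∧ Cfsg.sextets = MulAction.orbit ↥(MulAction.stabilizer Cfsg.M24 ({d, Finset.univ \ d} : Finset (Finset Cfsg.GolayPt))) X₁ ∪ MulAction.orbit ↥(MulAction.stabilizer Cfsg.M24 ({d,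 Finset.univ \ d} : Finset (Finset Cfsg.GolayPt))) X₂ ∪ MulAction.orbit ↥(MulAction.stabilizer Cfsg.M24 ({d, Finset.univ \ d} : Finset (Finset Cfsg.GolayPt))) X₃ := by
  open Cfsg.Agent.Lib.M24X Cfsg.Agent.Lib.Golay in
  obtain ⟨g, rfl⟩ := exists_smul_dodecad hd
  have h : ({g • finOf d0, Finset.univ \ (g • finOf d0)} : Finset (Finset Cfsg.GolayPt)) = g • fam [d0, d1] := by
    rw [fam_dp]
    ext s
    constructor
    · intro hs
      rcases Finset.mem_insert.mp hs with rfl | hs
      · exact Finset.smul_mem_smul_finset (Finset.mem_insert_self _ _)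
      · rw [Finset.mem_singleton] at hs
        subst hs
        refine Finset.mem_smul_finset.mpr ⟨Finset.univ \ finOf d0, by simp, ?_⟩
        show (g : Equiv.Perm Cfsg.GolayPt) • (Finset.univ \ finOf d0) = _
        rw [Finset.smul_finset_sdiff, Finset.smul_finset_univ]
        rfl
    · intro hs
      obtain ⟨t, ht, rfl⟩ := Finset.mem_smul_finset.mp hs
      rcases Finset.mem_insert.mp ht with rfl | ht
      · exact Finset.mem_insert_self _ _
      · rw [Finset.mem_singleton] at ht
        subst ht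
        refine Finset.mem_insert_of_mem (Finset.mem_singleton.mpr ?_)
        show (g : Equiv.Perm Cfsg.GolayPt) • (Finset.univ \ finOf d0) = _
        rw [Finset.smul_finset_sdiff, Finset.smul_finset_univ]
        rfl
  rw [h]
  exact cover3_conj (fun g _ hx => smul_sextet g.2 hx) g _ dp_sextets_cover

end Cfsg.Agent.S5617
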