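import Cfsg.Statements.S5620
import Cfsg.Agent.Lib.M24X.SqData

set_option autoImplicit false
open scoped Pointwise
open Cfsg

namespace Cfsg.Agent.S5620

/-- Inside the stabiliser of the dodecad of squares (a Mathieu group of degree 12), the stabiliser of the residue 0 (a point of the dodecad) and the stabiliser of the extra point (a point outside the dodecad) are isomorphic but not conjugate; conjugation by a suitable element of the code's group that maps the dodecad of squares onto its complement carries the first onto the second. -/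
theorem result : Nonempty (↥(Cfsg.Spor.M12 ⊓ MulAction.stabilizer (Equiv.Perm Cfsg.GolayPt) (none : Cfsg.GolayPt)) ≃* ↥Cfsg.Spor.M11) ∧ (¬ ∃ k ∈ Cfsg.Spor.M12, MulAut.conj k • Cfsg.Spor.M11 = Cfsg.Spor.M12 ⊓ MulAction.stabilizer (Equiv.Perm Cfsg.GolayPt) (none : Cfsg.GolayPt)) ∧ ∃ g ∈ Cfsg.M24, g • Cfsg.Spor.squareDodecad = Finset.univ \ Cfsg.Spor.squareDodecad ∧ MulAut.conj g • Cfsg.Spor.M11 = Cfsg.Spor.M12 ⊓ MulAction.stabilizer (Equiv.Perm Cfsg.GolayPt) (none : Cfsg.GolayPt) := by
  open Cfsg.Agent.Lib.M24X Cfsg.Agent.Lib.Golay MulAction Cfsg.Spor in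
  classical
  have hdS : Cfsg.Spor.squareDodecad = finOf dSq := by
    show support₂ (qrWord 0) = _
    have h := wordOf_qrMask 0
    rw [← h, support_wordOf]
    congr 1
  have hconj : ∀ (k y : Equiv.Perm Cfsg.GolayPt) (H : Subgroup (Equiv.Perm Cfsg.GolayPt)),
      y ∈ MulAut.conj k • H ↔ k⁻¹ * y * k ∈ H := by
    intro k y H
    rw [Subgroup.mem_pointwise_smul_iff_inv_smul_mem]
    rw [MulAut.smul_def, ← map_inv, MulAut.conj_apply, inv_inv]
  have hM12 : ∀ x : Equiv.Perm Cfsg.GolayPt, x ∈ Cfsg.Spor.M12 ↔ x ∈ Cfsg.M24 ∧ x • Cfsg.Spor.squareDodecad = Cfsg.Spor.squareDodecad := by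
    intro x
    simp only [Cfsg.Spor.M12, Subgroup.mem_inf, mem_stabilizer_iff]
  have hM11 : ∀ x : Equiv.Perm Cfsg.GolayPt, x ∈ Cfsg.Spor.M11 ↔ x ∈ Cfsg.Spor.M12 ∧ x (some 0) = some 0 := by
    intro x
    simp only [Cfsg.Spor.M11, Subgroup.mem_inf, mem_stabilizer_iff, Equiv.Perm.smul_def]
  have hN : ∀ x : Equiv.Perm Cfsg.GolayPt, x ∈ Cfsg.Spor.M12 ⊓ MulAction.stabilizer (Equiv.Perm Cfsg.GolayPt) (none : Cfsg.GolayPt) ↔
      x ∈ Cfsg.Spor.M12 ∧ x none = none := by
    intro x
    simp only [Subgroup.mem_inf, mem_stabilizer_iff, Equiv.Perm.smul_def]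
  have gp : isPerm gProj = true := by decide +kernel
  have ga : autCheck gProj = true := by decide +kernel
  have gM : perm gProj ∈ Cfsg.M24 := perm_mem_M24 gp ga
  have g0 : perm gProj (some 0) = none := by
    have h : (some 0 : Cfsg.GolayPt) = pt 0 := rfl
    rw [h, perm_pt gp (by norm_num)]
    rfl
  have gd : perm gProj • finOf dSq = Finset.univ \ finOf dSq := by
    have h1 : pull gProj (Nat.xor dSq 16777215) = dSq := by decide +kernel
    have h2 := finOf_pull gp (Nat.xor dSq 16777215)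
    rw [h1] at h2
    have h3 : finOf (Nat.xor dSq 16777215) = Finset.univ \ finOf dSq := by
      ext p
      simp only [Finset.mem_sdiff, Finset.mem_univ, true_and, mem_finOf]
      revert p
      decide +kernel
    rw [← h3, ← h2, smul_inv_smul]
  have hcompl : ∀ x : Equiv.Perm Cfsg.GolayPt, x • (Finset.univ \ finOf dSq) = Finset.univ \ finOf dSq ↔ x • finOf dSq = finOf dSq := by
    intro x
    rw [Finset.smul_finset_sdiff, Finset.smul_finset_univ]
    constructor
    · intro h
      have h2 : Finset.univ \ (Finset.univ \ (x • finOf dSq)) = Finset.univ \ (Finset.univ \ finOf dSq) := by rw [h]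
      simpa using h2
    · intro h
      rw [h]
  have key : MulAut.conj (perm gProj) • Cfsg.Spor.M11 = Cfsg.Spor.M12 ⊓ MulAction.stabilizer (Equiv.Perm Cfsg.GolayPt) (none : Cfsg.GolayPt) := by
    ext y
    rw [hconj, hM11, hN, hM12, hM12, hdS]
    have hgi : (perm gProj)⁻¹ none = some 0 := by rw [← g0]; simp
    constructor
    · rintro ⟨⟨h1, h2⟩, h3⟩
      have hy : y ∈ Cfsg.M24 := by
        have := Cfsg.M24.mul_mem (Cfsg.M24.mul_mem gM h1) (Cfsg.M24.inv_mem gM)
        have h5 : perm gProj * ((perm gProj)⁻¹ * y * perm gProj) * (perm gProj)⁻¹ = y := by group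
        rwa [h5] at this
      refine ⟨⟨hy, ?_⟩, ?_⟩
      · rw [← hcompl, ← gd]
        rw [mul_smul, mul_smul] at h2
        conv_rhs => rw [← h2]
        simp
      · simp only [Equiv.Perm.mul_apply, g0, hgi] at h3
        have := congrArg (perm gProj) h3
        simpa [g0] using this
    · rintro ⟨⟨h1, h2⟩, h3⟩
      refine ⟨⟨Cfsg.M24.mul_mem (Cfsg.M24.mul_mem (Cfsg.M24.inv_mem gM) h1) gM, ?_⟩, ?_⟩
      · rw [mul_smul, mul_smul, gd, (hcompl y).mpr h2, ← gd, inv_smul_smul]
      · simp only [Equiv.Perm.mul_apply, g0, h3, hgi]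
  refine ⟨?_, ?_, ⟨perm gProj, gM, by rw [hdS]; exact gd, key⟩⟩
  · rw [← key]
    exact ⟨(Subgroup.equivSMul (MulAut.conj (perm gProj)) Cfsg.Spor.M11).symm⟩
  · rintro ⟨k, hk, hke⟩
    have up : isPerm uSq = true := by decide +kernel
    have vp : isPerm vSq = true := by decide +kernel
    have memN : ∀ l, isPerm l = true → autCheck l = true → pull l dSq = dSq → Nat.beq (lk l 23) 23 = true →
        perm l ∈ Cfsg.Spor.M12 ⊓ MulAction.stabilizer (Equiv.Perm Cfsg.GolayPt) (none : Cfsg.GolayPt) := by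
      intro l h1 h2 h3 h4
      refine (hN _).mpr ⟨(hM12 _).mpr ⟨perm_mem_M24 h1 h2, ?_⟩, ?_⟩
      · rw [hdS]
        exact (fixed_mask_iff h1 (by decide +kernel)).mpr (by rw [h3]; simp)
      · have h : (none : Cfsg.GolayPt) = pt 23 := rfl
        rw [h, perm_pt h1 (by norm_num), Nat.eq_of_beq_eq_true h4]
    have hu := memN uSq up (by decide +kernel) (by decide +kernel) (by decide +kernel)
    have hv := memN vSq vp (by decide +kernel) (by decide +kernel) (by decide +kernel)
    rw [← hke, hconj, hM11] at hu hv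
    have hfixU : perm uSq (k (some 0)) = k (some 0) := by
      have := congrArg k hu.2
      simpa [Equiv.Perm.mul_apply] using this
    have hfixV : perm vSq (k (some 0)) = k (some 0) := by
      have := congrArg k hv.2
      simpa [Equiv.Perm.mul_apply] using this
    have hz : k (some 0) ∈ finOf dSq := by
      obtain ⟨-, h3⟩ := (hM12 k).mp hk
      rw [hdS] at h3
      rw [← h3]
      exact (mem_smul_iff k _ _).mpr (by decide +kernel)
    have hchk : ∀ z : Cfsg.GolayPt, z ∈ finOf dSq → ¬ (lk uSq (idx z) = idx z ∧ lk vSq (idx z) = idx z) := by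
      decide +kernel
    apply hchk _ hz
    constructor
    · rwa [← perm_fix_iff up]
    · rwa [← perm_fix_iff vp]

end Cfsg.Agent.S5620
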