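import Cfsg.Statements.S5625
import Mathlib

set_option autoImplicit false
open Cfsg

namespace Cfsg.Agent.S5625

open Finset

variable {α : Type*} [Fintype α] [DecidableEq α]

/-- blocks containing a set -/
noncomputable def lam (BF : Finset (Finset α)) (S : Finset α) : ℕ := (BF.filter (S ⊆ ·)).card

lemma step (BF : Finset (Finset α)) (hk : ∀ b ∈ BF, b.card = 8) (hα : Fintype.card α = 24)
    (S : Finset α) (t L : ℕ) (hS : S.card = t) (ht : t ≤ 8)
    (hL : ∀ x ∉ S, lam BF (insert x S) = L) :
    (8 - t) * lam BF S = (24 - t) * L := by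
  classical
  have key := Finset.sum_card_bipartiteAbove_eq_sum_card_bipartiteBelow
    (s := BF.filter (S ⊆ ·)) (t := Sᶜ) (fun (b : Finset α) (x : α) => x ∈ b)
  have h1 : ∀ b ∈ BF.filter (S ⊆ ·),
      (Finset.bipartiteAbove (fun (b : Finset α) (x : α) => x ∈ b) Sᶜ b).card = 8 - t := by
    intro b hb
    rw [mem_filter] at hb
    have : Finset.bipartiteAbove (fun (b : Finset α) (x : α) => x ∈ b) Sᶜ b = b \ S := by
      ext x
      simp [Finset.bipartiteAbove, and_comm]
    rw [this, card_sdiff_of_subset hb.2, hk b hb.1, hS]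
  have h2 : ∀ x ∈ Sᶜ,
      (Finset.bipartiteBelow (fun (b : Finset α) (x : α) => x ∈ b) (BF.filter (S ⊆ ·)) x).card = L := by
    intro x hx
    rw [mem_compl] at hx
    rw [← hL x hx]
    unfold lam
    congr 1
    ext b
    simp only [Finset.bipartiteBelow, mem_filter, insert_subset_iff]
    tauto
  rw [Finset.sum_congr rfl h1, Finset.sum_congr rfl h2] at key
  simp only [sum_const, smul_eq_mul, card_compl, hα, hS] at key
  unfold lam
  rw [mul_comm]
  exact key

lemma count_identity (BF : Finset (Finset α)) (Y : Finset α) (j : ℕ) :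
    ∑ b ∈ BF, ((b ∩ Y).card).choose j = ∑ T ∈ powersetCard j Y, lam BF T := by
  classical
  have key := Finset.sum_card_bipartiteAbove_eq_sum_card_bipartiteBelow
    (s := BF) (t := powersetCard j Y) (fun (b : Finset α) (T : Finset α) => T ⊆ b)
  have h1 : ∀ b ∈ BF,
      (Finset.bipartiteAbove (fun (b : Finset α) (T : Finset α) => T ⊆ b) (powersetCard j Y) b).card
        = ((b ∩ Y).card).choose j := by
    intro b _
    rw [← card_powersetCard]
    congr 1
    ext T
    simp only [Finset.bipartiteAbove, mem_filter, mem_powersetCard, subset_inter_iff]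
    tauto
  rw [Finset.sum_congr rfl h1] at key
  exact key

/-- In any Steiner system S(5, 8, 24) and for any set Y of three points, the blocks meeting Y in exactly 3, 2, 1 and 0 points number 21, 168, 360 and 210 respectively (so there are 759 blocks in all). -/
theorem result (α : Type*) [Fintype α] [DecidableEq α] (hα : Fintype.card α = 24) (B : Set (Finset α)) (hB : Cfsg.IsSteinerSystem 5 8 B) (Y : Finset α) (hY : Y.card = 3) : {b : Finset α | b ∈ B ∧ (b ∩ Y).card = 3}.ncard = 21 ∧ {b : Finset α | b ∈ B ∧ (b ∩ Y).card = 2}.ncard = 168 ∧ {b : Finset α | b ∈ B ∧ (b ∩ Y).card = 1}.ncard = 360 ∧ {b : Finset α | b ∈ B ∧ (b ∩ Y).card = 0}.ncard = 210 := by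
  classical
  set BF : Finset (Finset α) := Finset.univ.filter (· ∈ B) with hBF
  have hmem : ∀ b, b ∈ BF ↔ b ∈ B := by intro b; simp [hBF]
  have hk : ∀ b ∈ BF, b.card = 8 := fun b hb => hB.1 b ((hmem b).1 hb)
  -- the five levels
  have h5 : ∀ S : Finset α, S.card = 5 → lam BF S = 1 := by
    intro S hS
    obtain ⟨b, ⟨hbB, hSb⟩, huniq⟩ := hB.2 S hS
    unfold lam
    rw [card_eq_one]
    refine ⟨b, ?_⟩
    ext c
    simp only [mem_filter, mem_singleton, hmem]
    constructor
    · rintro ⟨h1, h2⟩; exact huniq c ⟨h1, h2⟩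
    · rintro rfl; exact ⟨hbB, hSb⟩
  have hins : ∀ (S : Finset α) (x : α), x ∉ S → (insert x S).card = S.card + 1 := fun S x hx =>
    card_insert_of_notMem hx
  have h4 : ∀ S : Finset α, S.card = 4 → lam BF S = 5 := by
    intro S hS
    have := step BF hk hα S 4 1 hS (by norm_num) (fun x hx => h5 _ (by rw [hins S x hx, hS]))
    omega
  have h3 : ∀ S : Finset α, S.card = 3 → lam BF S = 21 := by
    intro S hS
    have := step BF hk hα S 3 5 hS (by norm_num) (fun x hx => h4 _ (by rw [hins S x hx, hS]))
    omega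
  have h2 : ∀ S : Finset α, S.card = 2 → lam BF S = 77 := by
    intro S hS
    have := step BF hk hα S 2 21 hS (by norm_num) (fun x hx => h3 _ (by rw [hins S x hx, hS]))
    omega
  have h1 : ∀ S : Finset α, S.card = 1 → lam BF S = 253 := by
    intro S hS
    have := step BF hk hα S 1 77 hS (by norm_num) (fun x hx => h2 _ (by rw [hins S x hx, hS]))
    omega
  have h0 : ∀ S : Finset α, S.card = 0 → lam BF S = 759 := by
    intro S hS
    have := step BF hk hα S 0 253 hS (by norm_num) (fun x hx => h1 _ (by rw [hins S x hx, hS]))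
    omega
  -- counting
  set n : ℕ → ℕ := fun k => (BF.filter (fun b => (b ∩ Y).card = k)).card with hn
  have hle : ∀ b ∈ BF, (b ∩ Y).card ∈ Finset.range 4 := by
    intro b _
    have : (b ∩ Y).card ≤ Y.card := card_le_card inter_subset_right
    rw [mem_range]; omega
  have hsum : ∀ j, ∑ b ∈ BF, ((b ∩ Y).card).choose j =
      n 0 * (0 : ℕ).choose j + n 1 * (1 : ℕ).choose j + n 2 * (2 : ℕ).choose j + n 3 * (3 : ℕ).choose j := by
    intro j
    rw [← Finset.sum_fiberwise_of_maps_to hle]
    simp only [Finset.sum_range_succ, Finset.sum_range_zero, zero_add]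
    have : ∀ k, ∑ b ∈ BF.filter (fun b => (b ∩ Y).card = k), ((b ∩ Y).card).choose j = n k * k.choose j := by
      intro k
      rw [Finset.sum_congr rfl (g := fun _ => k.choose j)]
      · simp [hn]
      · intro b hb
        rw [mem_filter] at hb
        rw [hb.2]
    rw [this, this, this, this]
  have hI : ∀ j L, (∀ T : Finset α, T.card = j → lam BF T = L) →
      n 0 * (0 : ℕ).choose j + n 1 * (1 : ℕ).choose j + n 2 * (2 : ℕ).choose j + n 3 * (3 : ℕ).choose j
        = (3 : ℕ).choose j * L := by
    intro j L hL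
    rw [← hsum j, count_identity]
    rw [Finset.sum_congr rfl (g := fun _ => L)]
    · simp [hY]
    · intro T hT
      rw [mem_powersetCard] at hT
      exact hL T hT.2
  have e0 := hI 0 759 h0
  have e1 := hI 1 253 h1
  have e2 := hI 2 77 h2
  have e3 := hI 3 21 h3
  simp only [Nat.choose] at e0 e1 e2 e3
  have hn3 : n 3 = 21 := by omega
  have hn2 : n 2 = 168 := by omega
  have hn1 : n 1 = 360 := by omega
  have hn0 : n 0 = 210 := by omega
  have hset : ∀ k, {b : Finset α | b ∈ B ∧ (b ∩ Y).card = k}.ncard = n k := by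
    intro k
    have : {b : Finset α | b ∈ B ∧ (b ∩ Y).card = k} = ↑(BF.filter (fun b => (b ∩ Y).card = k)) := by
      ext b
      simp [hmem]
    rw [this, Set.ncard_coe_finset]
  rw [hset, hset, hset, hset]
  exact ⟨hn3, hn2, hn1, hn0⟩

end Cfsg.Agent.S5625
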