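import Cfsg.Statements.S5628
import Cfsg.Agent.Lib.Plane4.Ext
-- import your own Cfsg.Agent.* helpers here

set_option autoImplicit false
open Cfsg

namespace Cfsg.Agent.S5628

open scoped Pointwise in
theorem mem_aut_iff {α : Type*} [Fintype α] [DecidableEq α] {L : Set (Finset α)} (g : Equiv.Perm α) :
    g ∈ Cfsg.setSystemAut L ↔ (fun b => b.image g) '' L = L := by
  rw [MulAction.mem_stabilizer_iff]
  have : g • L = (fun b => b.image g) '' L := by
    ext t
    simp only [Set.mem_smul_set, Set.mem_image]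
    constructor
    · rintro ⟨l, hl, rfl⟩
      exact ⟨l, hl, by
        ext y
        simp [Finset.mem_smul_finset, Finset.mem_image, Equiv.Perm.smul_def]⟩
    · rintro ⟨l, hl, rfl⟩
      exact ⟨l, hl, by
        ext y
        simp [Finset.mem_smul_finset, Finset.mem_image, Equiv.Perm.smul_def]⟩
  rw [this]

/-- In a projective plane of order 4 (a Steiner system S(2, 5, 21)), every permutation of the six points of a hyperoval (a 6-set met by no line in more than two points) is the restriction of exactly one automorphism of the plane. In particular the stabiliser of a hyperoval in the automorphism group is isomorphic to the symmetric group of degree 6 acting faithfully on the hyperoval. -/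
theorem result {α : Type*} [Fintype α] [DecidableEq α] (hα : Fintype.card α = 21) (L : Set (Finset α)) (hL : Cfsg.IsSteinerSystem 2 5 L) (H : Finset α) (hH : (H.card = 6 ∧ ∀ l ∈ L, (l ∩ H).card ≤ 2)) (σ : Equiv.Perm ↥H) : ∃! g : Equiv.Perm α, g ∈ Cfsg.setSystemAut L ∧ ∀ p : ↥H, g p = σ p := by
  classical
  have h : Cfsg.Agent.Lib.Plane4.Plane L := ⟨hα, hL⟩
  have hH' : Cfsg.Agent.Lib.Plane4.Hyper L H := ⟨hH.1, hH.2⟩
  obtain ⟨e, he1, he2⟩ := h.extend h hH' hH' σ
  have hmem := mem_aut_iff (L := L)
  refine ⟨e, ⟨(hmem e).mpr he2, he1⟩, ?_⟩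
  rintro g' ⟨hg'1, hg'2⟩
  have hg'3 := (hmem g').mp hg'1
  apply h.eq_of_agree hH'
  · intro l hl
    rw [← hg'3]
    exact ⟨l, hl, rfl⟩
  · intro l hl
    rw [← he2]
    exact ⟨l, hl, rfl⟩
  · intro p hp
    rw [hg'2 ⟨p, hp⟩, he1 ⟨p, hp⟩]

end Cfsg.Agent.S5628
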