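import Mathlib
import Cfsg.Statements.S5632
import Cfsg.Agent.Lib.ClassMax.Transv

set_option autoImplicit false
open Cfsg

namespace Cfsg.Agent.S5632

open Matrix Cfsg.Agent.Lib.ClassMax

/-- For a finite field F and subspaces 0 < W < U of F^n with dim W + dim U = n, the elements of SL_n(F) stabilising both W and U form a subgroup that is not maximal in SL_n(F): some subgroup lies strictly between it and SL_n(F). -/
theorem result {F : Type*} [Field F] [Fintype F] (n : ℕ) (W U : Submodule F (Fin n → F)) (hW0 : W ≠ ⊥) (hWU : W < U) (hdim : Module.finrank F W + Module.finrank F U = n) : ∃ K : Subgroup (Matrix.GeneralLinearGroup (Fin n) F), Cfsg.Geo.subspaceStabilizer W ⊓ Cfsg.Geo.subspaceStabilizer U ⊓ Cfsg.Geo.specialLinear (Fin n) F < K ∧ K < Cfsg.Geo.specialLinear (Fin n) F := by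
  classical
  -- `U` is proper
  have hU1 : U ≠ ⊤ := by
    rintro rfl
    have h1 : Module.finrank F (⊤ : Submodule F (Fin n → F)) = n := by simp
    have h2 : Module.finrank F W ≠ 0 := by
      intro h
      exact hW0 (Submodule.finrank_eq_zero.mp h)
    omega
  have hW1 : W ≠ ⊤ := fun h => hU1 (top_le_iff.mp (h ▸ hWU.le))
  refine ⟨Cfsg.Geo.subspaceStabilizer W ⊓ Cfsg.Geo.specialLinear (Fin n) F, ?_, ?_⟩
  · refine lt_of_le_of_ne ?_ ?_
    · exact le_inf (inf_le_left.trans inf_le_left) inf_le_right
    · intro heq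
      obtain ⟨u, huU, huW⟩ := SetLike.exists_of_lt hWU
      obtain ⟨z, hz⟩ : ∃ z, z ∉ U := by
        by_contra hcon
        push Not at hcon
        exact hU1 (eq_top_iff.mpr fun x _ => hcon x)
      have hu' : u ∉ W ⊔ Submodule.span F {z} := by
        intro hm
        obtain ⟨w, hw, y, hy, rfl⟩ := Submodule.mem_sup.mp hm
        obtain ⟨c, rfl⟩ := Submodule.mem_span_singleton.mp hy
        have hc0 : c ≠ 0 := by
          rintro rfl
          rw [zero_smul, add_zero] at huW
          exact huW hw
        apply hz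
        have h1 : z = c⁻¹ • (w + c • z - w) := by
          rw [add_sub_cancel_left, smul_smul, inv_mul_cancel₀ hc0, one_smul]
        rw [h1]
        exact U.smul_mem _ (U.sub_mem huU (hWU.le hw))
      obtain ⟨φ, hφ, hφu⟩ := exists_dotProduct_of_notMem hu'
      have hφW : ∀ w ∈ W, φ ⬝ᵥ w = 0 := fun w hw => hφ w (Submodule.mem_sup_left hw)
      have hφz : φ ⬝ᵥ z = 0 := hφ z (Submodule.mem_sup_right (Submodule.mem_span_singleton_self z))
      have h1 : tv z φ hφz ∈ Cfsg.Geo.subspaceStabilizer W ⊓ Cfsg.Geo.specialLinear (Fin n) F :=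
        ⟨tv_mem_stabilizer_of_ker hφz hφW, tv_mem_specialLinear _ _ _⟩
      rw [← heq] at h1
      have h2 := h1.1.2
      refine not_mem_subspaceStabilizer huU ?_ h2
      rw [tv_mulVec, hφu, one_smul]
      intro hm
      apply hz
      have := U.sub_mem hm huU
      simpa using this
  · refine lt_of_le_of_ne inf_le_right ?_
    intro heq
    obtain ⟨x, φ, h, hn⟩ := exists_tv_not_stabilizer hW0 hW1
    have h1 : tv x φ h ∈ Cfsg.Geo.specialLinear (Fin n) F := tv_mem_specialLinear _ _ _
    rw [← heq] at h1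
    exact hn h1.1

end Cfsg.Agent.S5632
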