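import Mathlib
import Cfsg.Statements.S5633
import Cfsg.Agent.Lib.ClassMax.Transv

set_option autoImplicit false
open Cfsg

namespace Cfsg.Agent.S5633

open Matrix Cfsg.Agent.Lib.ClassMax

/-- For a finite field F and complementary non-zero subspaces W ⊕ U = F^n with dim W < dim U, the elements of SL_n(F) stabilising both W and U form a subgroup that is not maximal in SL_n(F): some subgroup lies strictly between it and SL_n(F). -/
theorem result {F : Type*} [Field F] [Fintype F] (n : ℕ) (W U : Submodule F (Fin n → F)) (hW0 : W ≠ ⊥) (hWU : W ⊓ U = ⊥) (hWU' : W ⊔ U = ⊤) (hdim : Module.finrank F W < Module.finrank F U) : ∃ K : Subgroup (Matrix.GeneralLinearGroup (Fin n) F), Cfsg.Geo.subspaceStabilizer W ⊓ Cfsg.Geo.subspaceStabilizer U ⊓ Cfsg.Geo.specialLinear (Fin n) F < K ∧ K < Cfsg.Geo.specialLinear (Fin n) F := by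
  classical
  have hU0 : U ≠ ⊥ := by
    rintro rfl
    simp at hdim
  have hW1 : W ≠ ⊤ := by
    rintro rfl
    simp only [top_inf_eq] at hWU
    exact hU0 hWU
  obtain ⟨w, hw, hw0⟩ := Submodule.exists_mem_ne_zero_of_ne_bot hW0
  obtain ⟨u, hu, hu0⟩ := Submodule.exists_mem_ne_zero_of_ne_bot hU0
  have hwU : w ∉ U := by
    intro h
    have : w ∈ W ⊓ U := ⟨hw, h⟩
    rw [hWU] at this
    exact hw0 this
  have huW : u ∉ W := by
    intro h
    have : u ∈ W ⊓ U := ⟨h, hu⟩
    rw [hWU] at this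
    exact hu0 this
  refine ⟨Cfsg.Geo.subspaceStabilizer W ⊓ Cfsg.Geo.specialLinear (Fin n) F, ?_, ?_⟩
  · refine lt_of_le_of_ne ?_ ?_
    · exact le_inf (inf_le_left.trans inf_le_left) inf_le_right
    · intro heq
      obtain ⟨φ, hφ, hφu⟩ := exists_dotProduct_of_notMem huW
      have hφw : φ ⬝ᵥ w = 0 := hφ w hw
      have h1 : tv w φ hφw ∈ Cfsg.Geo.subspaceStabilizer W ⊓ Cfsg.Geo.specialLinear (Fin n) F :=
        ⟨tv_mem_stabilizer_of_ker hφw hφ, tv_mem_specialLinear _ _ _⟩
      rw [← heq] at h1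
      have h2 := h1.1.2
      refine not_mem_subspaceStabilizer hu ?_ h2
      rw [tv_mulVec, hφu, one_smul]
      intro hm
      apply hwU
      have := U.sub_mem hm hu
      simpa using this
  · refine lt_of_le_of_ne inf_le_right ?_
    intro heq
    obtain ⟨x, φ, h, hn⟩ := exists_tv_not_stabilizer hW0 hW1
    have h1 : tv x φ h ∈ Cfsg.Geo.specialLinear (Fin n) F := tv_mem_specialLinear _ _ _
    rw [← heq] at h1
    exact hn h1.1

end Cfsg.Agent.S5633
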