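import Cfsg.Statements.S5642
import Cfsg.Agent.Lib.ClassMax.SympOver

set_option autoImplicit false
open Cfsg

namespace Cfsg.Agent.S5642


/-- For a finite field F and n ≥ 13, let f be a non-degenerate symplectic form on F^n (so n is even). Then the elements of SL_n(F) that are similarities of f (f(gu, gv) = c f(u, v) for a non-zero scalar c depending on g) form a maximal subgroup of SL_n(F). -/
theorem result {F : Type*} [Field F] [Fintype F] (n : ℕ) (hn : 13 ≤ n) (f : (Fin n → F) → (Fin n → F) → F) (hf : Cfsg.Geo.IsSymplecticForm f) : Cfsg.Geo.IsMaximalIn (Cfsg.Geo.specialLinear (Fin n) F) (Cfsg.Geo.similarityGroup f ⊓ Cfsg.Geo.specialLinear (Fin n) F) := by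
  exact Cfsg.Agent.Lib.ClassMax.isMaximalIn_sim_symp hf (by simpa using (by omega : 3 ≤ n))

end Cfsg.Agent.S5642
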