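import Cfsg.Statements.S5643
import Cfsg.Agent.Lib.ClassMax.HermOver

set_option autoImplicit false
open Cfsg

namespace Cfsg.Agent.S5643


/-- For a finite field F and n ≥ 13, let σ be a field automorphism of F of order two and f a non-degenerate unitary form on F^n with respect to σ. Then the elements of SL_n(F) that are similarities of f form a maximal subgroup of SL_n(F). -/
theorem result {F : Type*} [Field F] [Fintype F] (n : ℕ) (hn : 13 ≤ n) (σ : F ≃+* F) (f : (Fin n → F) → (Fin n → F) → F) (hf : Cfsg.Geo.IsUnitaryForm σ f) : Cfsg.Geo.IsMaximalIn (Cfsg.Geo.specialLinear (Fin n) F) (Cfsg.Geo.similarityGroup f ⊓ Cfsg.Geo.specialLinear (Fin n) F) := by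
    exact Cfsg.Agent.Lib.ClassMax.HermOver.isMaximalIn_herm hf (by simpa using hn)

end Cfsg.Agent.S5643
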