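import Cfsg.Statements.S5659
import Cfsg.Agent.Lib.ClassMax.UnitOrth

set_option autoImplicit false
open Cfsg

namespace Cfsg.Agent.S5659


/-- Let F be the field with q² elements, q odd, n ≥ 13, and F₀ the subfield with q elements. Let P be an invertible matrix such that the standard unitary form takes values in F₀ on the F₀-span of the columns of P (so it restricts to a non-degenerate symmetric bilinear form there). Then the elements of SU_n(q) lying in the subfield group of P form a maximal subgroup of SU_n(q). -/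
theorem result {F : Type*} [Field F] [Fintype F] (n q : ℕ) (hF : Fintype.card F = q ^ 2) (hn : 13 ≤ n) (hodd : Odd q) (F₀ : Subfield F) (hcard : Fintype.card F = Nat.card F₀ ^ 2) (P : Matrix.GeneralLinearGroup (Fin n) F) (hP : Cfsg.Geo.IsFormRationalStructure (Cfsg.hermForm n F q) F₀ 1 P) : Cfsg.Geo.IsMaximalIn (Cfsg.GU n F q ⊓ Cfsg.Geo.specialLinear (Fin n) F) (Cfsg.Geo.subfieldSubgroup F₀ P ⊓ (Cfsg.GU n F q ⊓ Cfsg.Geo.specialLinear (Fin n) F)) := by
  classical
  obtain ⟨σ, hf, hσ⟩ := Cfsg.Agent.Lib.ClassMax.UnitCore.hermForm_unitary (n := n) hF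
  have hF₀ : ∀ a : F, a ∈ F₀ ↔ σ a = a := fun a => by
    rw [hσ]
    exact Cfsg.Agent.Lib.ClassMax.UnitCore.mem_subfield_iff_pow hF F₀ hcard a
  have h2 : (2 : F) ≠ 0 := by
    apply Cfsg.Agent.Lib.ClassMax.QuadOver.two_ne_zero_of_odd
    rw [hF]
    exact hodd.pow
  have hR : ∀ u v, Cfsg.Agent.Lib.ClassMax.UnitCore.Rt σ P u → Cfsg.Agent.Lib.ClassMax.UnitCore.Rt σ P v → σ (Cfsg.hermForm n F q u v) = Cfsg.hermForm n F q u v := by
    intro u v hu hv
    have := Cfsg.Agent.Lib.ClassMax.UnitCore.rat_values hF₀ hP u v hu hv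
    simpa using this
  exact Cfsg.Agent.Lib.ClassMax.UnitCore.isMaximal_orth hf hR hF₀ h2 (by simpa using hn)

end Cfsg.Agent.S5659
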