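import Cfsg.Statements.S5674
import Cfsg.Agent.Lib.ClassMax.OmegaStd

set_option autoImplicit false
open Cfsg

namespace Cfsg.Agent.S5674


/-- Let F be a finite field of odd order, m ≥ 6, Q the standard quadratic form x₀² + Σ x_i y_i on F^(2m+1) and Ω the commutator subgroup of its isometry group inside GL_(2m+1)(F). The elements of Ω stabilising a non-zero subspace on which Q vanishes form a maximal subgroup of Ω. -/
theorem result {F : Type*} [Field F] [Fintype F] (hodd : Odd (Fintype.card F)) (m : ℕ) (hm : 6 ≤ m) (W : Submodule F (Unit ⊕ (Fin m ⊕ Fin m) → F)) (hW0 : W ≠ ⊥) (hW : Cfsg.Geo.IsTotallySingularQuad (Cfsg.quadFormOdd m F) W) : Cfsg.Geo.IsMaximalIn (Cfsg.Geo.omegaGL (Cfsg.quadFormOdd m F)) (Cfsg.Geo.subspaceStabilizer W ⊓ Cfsg.Geo.omegaGL (Cfsg.quadFormOdd m F)) := by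
  refine Cfsg.Agent.Lib.ClassMax.OmegaCore.isMaximal_ts (Cfsg.Agent.Lib.ClassMax.OmegaCore.quadFormOdd_nondeg hodd m) ?_ hW0 hW (fun h => ?_)
  · simp only [Fintype.card_sum, Fintype.card_unit, Fintype.card_fin]
    omega
  · exfalso
    simp only [Fintype.card_sum, Fintype.card_unit, Fintype.card_fin] at h
    omega

end Cfsg.Agent.S5674
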