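import Cfsg.Statements.S5691
import Cfsg.Agent.Lib.ClassMax.OmegaLine

set_option autoImplicit false
open Cfsg

namespace Cfsg.Agent.S5691


/-- Let F be a finite field with q elements, n ≥ 13 even, Q a non-degenerate quadratic form on F^n (of either type), and Ω the commutator subgroup of the isometry group of Q, viewed inside GL_n(F). Suppose q is even and v is a vector with Q(v) ≠ 0. Then the elements of Ω stabilising the line spanned by v form a maximal subgroup of Ω. -/
theorem result {F : Type*} [Field F] [Fintype F] {n : ℕ} (hn : 13 ≤ n) (heven : Even n) (Q : (Fin n → F) → F) (hQ : Cfsg.Geo.IsNondegenerateQuadraticForm Q) (hchar : ¬ Odd (Fintype.card F)) (v : (Fin n → F)) (hv : Q v ≠ 0) : Cfsg.Geo.IsMaximalIn (Cfsg.Geo.omegaGL Q) (Cfsg.Geo.subspaceStabilizer (Submodule.span F {v}) ⊓ Cfsg.Geo.omegaGL Q) := by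
  have h2 : (2 : F) = 0 := by
    have h3 : ringChar F = 2 := by
      by_contra h
      exact hchar (Nat.odd_iff.mpr (FiniteField.odd_card_of_char_ne_two h))
    have h4 : ((2 : ℕ) : F) = 0 := (ringChar.spec F 2).mpr (by rw [h3])
    exact_mod_cast h4
  exact Cfsg.Agent.Lib.ClassMax.OmegaCore.isMaximal_line hQ (by simpa using hn) h2 hv

end Cfsg.Agent.S5691
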