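import Cfsg.Statements.S5775
import Cfsg.Agent.Lib.ClassMax.Asch20

set_option autoImplicit false
open Cfsg

namespace Cfsg.Agent.S5775


/-- Every maximal subgroup of SL_3(q) is of one of the listed geometric types or lies in the residual class. Let F be a finite field with q elements and H a maximal subgroup of SL_3(F) (viewed inside GL_3(F)). Then H is the intersection with SL_3(F) of one of: the stabiliser of a proper non-zero subspace; for q ≥ 5, the stabiliser of a decomposition of F^3 into three independent lines; for q ≠ 4, the normaliser of a degree-3 subfield of the matrix algebra; a subfield group for a subfield F₀ with |F| = |F₀|^r, r prime; for q = p ≡ 1 mod 3 prime, the normaliser of an absolutely irreducible 3-subgroup R of exponent 3 with centre of order 3, all of whose characteristic abelian subgroups are cyclic, of order 3^(1+2m) for some m ≥ 1, with F the smallest field of characteristic p containing the cube roots of unity (so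 R is extraspecial of order 27); for q odd, the similarity group of a non-degenerate quadratic form; the similarity group of a non-degenerate unitary form — or else H lies in the residual class of the linear case (modulo scalars H is almost simple, with absolutely irreducible perfect socle preimage realisable over no proper subfield and fixing no non-degenerate quadratic, symplectic or unitary form). -/
theorem result {F : Type*} [Field F] [Fintype F] (H : Subgroup (Matrix.GeneralLinearGroup (Fin 3) F)) (hH : Cfsg.Geo.IsMaximalIn (Cfsg.Geo.specialLinear (Fin 3) F) H) :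
    (∃ W : Submodule F (Fin 3 → F), W ≠ ⊥ ∧ W ≠ ⊤ ∧ H = Cfsg.Geo.subspaceStabilizer W ⊓ Cfsg.Geo.specialLinear (Fin 3) F) ∨
    (5 ≤ Fintype.card F ∧ ∃ D : Fin 3 → Submodule F (Fin 3 → F), Cfsg.Geo.IsMDecomposition 1 D ∧ H = Cfsg.Geo.decompositionStabilizer D ⊓ Cfsg.Geo.specialLinear (Fin 3) F) ∨
    (Fintype.card F ≠ 4 ∧ ∃ K : Subalgebra F (Matrix (Fin 3) (Fin 3) F), Cfsg.Geo.IsFieldSubalgebra 3 K ∧ H = Cfsg.Geo.subalgebraNormalizer K ⊓ Cfsg.Geo.specialLinear (Fin 3) F) ∨
    (∃ (F₀ : Subfield F) (r : ℕ) (P : Matrix.GeneralLinearGroup (Fin 3) F), r.Prime ∧ Fintype.card F = Nat.card F₀ ^ r ∧ H = Cfsg.Geo.subfieldSubgroup F₀ P ⊓ Cfsg.Geo.specialLinear (Fin 3) F) ∨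
    (∃ (p : ℕ) (R : Subgroup (Matrix.GeneralLinearGroup (Fin 3) F)), p.Prime ∧ Fintype.card F = p ∧ p % 3 = 1 ∧ Cfsg.Geo.IsLinearSymplecticTypeData 3 R ∧ H = Cfsg.Geo.subgroupNormalizer R ⊓ Cfsg.Geo.specialLinear (Fin 3) F) ∨
    (Odd (Fintype.card F) ∧ ∃ Q : (Fin 3 → F) → F, Cfsg.Geo.IsNondegenerateQuadraticForm Q ∧ H = Cfsg.Geo.quadSimilarityGroup Q ⊓ Cfsg.Geo.specialLinear (Fin 3) F) ∨
    (∃ (σ : F ≃+* F) (f : (Fin 3 → F) → (Fin 3 → F) → F), Cfsg.Geo.IsUnitaryForm σ f ∧ H = Cfsg.Geo.similarityGroup f ⊓ Cfsg.Geo.specialLinear (Fin 3) F) ∨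
    Cfsg.Geo.InLinearResidualClass H := by
  classical
rcases Cfsg.Agent.Lib.ClassMax.Asch.max_cases (n := 3) (by norm_num) hH with
  h | ⟨t, m, D, hD, hc, h1, h2, hE⟩ | ⟨r, K, hr, hd, hK, hE⟩ | ⟨n₁, n₂, e, P, h1, h2, hc, h3, hE⟩ | ⟨F₀, r, P, hr, hc, hE⟩ |
  ⟨r, m, R, hR, hnr, hE⟩ | ⟨m, t, e, P, h1, h2, hc, hE⟩ | ⟨f, hf, he, h4, hE⟩ | ⟨σ, f, hf, hE⟩ | ⟨ho, Q, hQ, hE⟩ | hres
· exact Or.inl (h)
· have ht := hD.two_le
  have hm := hD.pos
  have hmle : m ≤ 3 := by nlinarith
  have hcases : (m = 1 ∧ t = 3) := by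
    clear hE h1 h2 hD
    interval_cases m <;> omega
  rcases hcases with ⟨rfl, rfl⟩
  · exact Or.inr (Or.inl (⟨h1 rfl, D, hD, hE⟩))
· have hcases : r = 3 := by
    have hr2 := hr.two_le
    have hrle := Nat.le_of_dvd (by norm_num) hd
    clear hE hK
    interval_cases r <;> first | omega | (exfalso; revert hr; norm_num; done) | (exfalso; revert hd; norm_num; done)
  rcases hcases with rfl
  · by_cases hq4 : Fintype.card F = 4
    · obtain ⟨F₀, P, hc2, hle⟩ := Cfsg.Agent.Lib.ClassMax.Asch.fld3_four hq4 hK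
      have hE' := Cfsg.Agent.Lib.ClassMax.Asch.eq_inf_of_le hH (hE.le.trans (hle)) (fun hsl => Cfsg.Agent.Lib.ClassMax.Asch.sl_not_le_sbf (F₀ := F₀) (fun h => by
        rw [h] at hc2
        have h1 : Nat.card (⊤ : Subfield F) = Fintype.card F := (Nat.card_congr Subfield.topEquiv.toEquiv).trans Nat.card_eq_fintype_card
        omega) (by norm_num) P hsl)
      exact Or.inr (Or.inr (Or.inr (Or.inl (⟨F₀, 2, P, Nat.prime_two, by rw [hq4, hc2]; norm_num, hE'⟩))))
    · exact Or.inr (Or.inr (Or.inl (⟨hq4, K, hK, hE⟩)))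
· have hb := Cfsg.Agent.Lib.ClassMax.Asch.tp_bound h1 h2 hc (by norm_num)
  exfalso
  clear hE e P h3
  interval_cases n₁ <;> omega
· exact Or.inr (Or.inr (Or.inr (Or.inl (⟨F₀, r, P, hr, hc, hE⟩))))
· have hrp := hR.symplecticType.prime
  have e1 := Cfsg.Agent.Lib.ClassMax.Asch.r_eq_of_dvd hrp (by norm_num : Nat.Prime 3) (by rw [← hnr] <;> norm_num)
  subst e1
  obtain ⟨p, e, hp, hchar, hcard, hrne, hcase⟩ := Cfsg.Agent.Lib.ClassMax.Asch.six_data (by norm_num) hR
  rcases hcase with ⟨hro, he, hdv, hmin⟩ | ⟨hr2, he1, h4⟩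
  · obtain ⟨rfl, hp1⟩ := Cfsg.Agent.Lib.ClassMax.Asch.arith3 hp hrne he hdv hmin
    exact Or.inr (Or.inr (Or.inr (Or.inr (Or.inl (⟨p, R, hp, by simpa using hcard, hp1, hR, hE⟩)))))
  · omega
· have hb := Cfsg.Agent.Lib.ClassMax.Asch.tw_cases h1 h2 hc (by norm_num)
  omega
· exact absurd he (by decide)
· exact Or.inr (Or.inr (Or.inr (Or.inr (Or.inr (Or.inr (Or.inl (⟨σ, f, hf, hE⟩)))))))
· exact Or.inr (Or.inr (Or.inr (Or.inr (Or.inr (Or.inl (⟨ho, Q, hQ, hE⟩))))))
· exact Or.inr (Or.inr (Or.inr (Or.inr (Or.inr (Or.inr (Or.inr (hres)))))))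

end Cfsg.Agent.S5775
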