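import Cfsg.Statements.S5781
import Cfsg.Agent.Lib.ClassMax.Asch23

set_option autoImplicit false
open Cfsg

namespace Cfsg.Agent.S5781


/-- Every maximal subgroup of SL_4(q) is of one of the listed geometric types or lies in the residual class. Let F be a finite field with q elements and H a maximal subgroup of SL_4(F) (inside GL_4(F)). Then H is the intersection with SL_4(F) of one of: the stabiliser of a proper non-zero subspace; for q ≥ 7, the stabiliser of a decomposition into four independent lines; for q ≥ 4, the stabiliser of a decomposition into two independent planes; the normaliser of a degree-2 subfield of the matrix algebra; a subfield group for a subfield F₀ with |F| = |F₀|^r, r prime; for q = p ≡ 1 mod 4 prime, the normaliser of an absolutely irreducible 2-subgroup R of exponent 4 with centre of order 4, all of whose characteristic abelian subgroups are cyclic, of order 2^(2+2m) for some m (here |R| = 64), with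 4 dividing p − 1; for q odd, the similarity group of a non-degenerate quadratic form; the similarity group of a non-degenerate symplectic form; the similarity group of a non-degenerate unitary form — or else H lies in the residual class of the linear case. -/
theorem result {F : Type*} [Field F] [Fintype F] (H : Subgroup (Matrix.GeneralLinearGroup (Fin 4) F)) (hH : Cfsg.Geo.IsMaximalIn (Cfsg.Geo.specialLinear (Fin 4) F) H) :
    (∃ W : Submodule F (Fin 4 → F), W ≠ ⊥ ∧ W ≠ ⊤ ∧ H = Cfsg.Geo.subspaceStabilizer W ⊓ Cfsg.Geo.specialLinear (Fin 4) F) ∨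
    (7 ≤ Fintype.card F ∧ ∃ D : Fin 4 → Submodule F (Fin 4 → F), Cfsg.Geo.IsMDecomposition 1 D ∧ H = Cfsg.Geo.decompositionStabilizer D ⊓ Cfsg.Geo.specialLinear (Fin 4) F) ∨
    (4 ≤ Fintype.card F ∧ ∃ D : Fin 2 → Submodule F (Fin 4 → F), Cfsg.Geo.IsMDecomposition 2 D ∧ H = Cfsg.Geo.decompositionStabilizer D ⊓ Cfsg.Geo.specialLinear (Fin 4) F) ∨
    (∃ K : Subalgebra F (Matrix (Fin 4) (Fin 4) F), Cfsg.Geo.IsFieldSubalgebra 2 K ∧ H = Cfsg.Geo.subalgebraNormalizer K ⊓ Cfsg.Geo.specialLinear (Fin 4) F) ∨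
    (∃ (F₀ : Subfield F) (r : ℕ) (P : Matrix.GeneralLinearGroup (Fin 4) F), r.Prime ∧ Fintype.card F = Nat.card F₀ ^ r ∧ H = Cfsg.Geo.subfieldSubgroup F₀ P ⊓ Cfsg.Geo.specialLinear (Fin 4) F) ∨
    (∃ (p : ℕ) (R : Subgroup (Matrix.GeneralLinearGroup (Fin 4) F)), p.Prime ∧ Fintype.card F = p ∧ p % 4 = 1 ∧ Cfsg.Geo.IsLinearSymplecticTypeData 2 R ∧ H = Cfsg.Geo.subgroupNormalizer R ⊓ Cfsg.Geo.specialLinear (Fin 4) F) ∨
    (Odd (Fintype.card F) ∧ ∃ Q : (Fin 4 → F) → F, Cfsg.Geo.IsNondegenerateQuadraticForm Q ∧ H = Cfsg.Geo.quadSimilarityGroup Q ⊓ Cfsg.Geo.specialLinear (Fin 4) F) ∨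
    (∃ f : (Fin 4 → F) → (Fin 4 → F) → F, Cfsg.Geo.IsSymplecticForm f ∧ H = Cfsg.Geo.similarityGroup f ⊓ Cfsg.Geo.specialLinear (Fin 4) F) ∨
    (∃ (σ : F ≃+* F) (f : (Fin 4 → F) → (Fin 4 → F) → F), Cfsg.Geo.IsUnitaryForm σ f ∧ H = Cfsg.Geo.similarityGroup f ⊓ Cfsg.Geo.specialLinear (Fin 4) F) ∨
    Cfsg.Geo.InLinearResidualClass H := by
  classical
rcases Cfsg.Agent.Lib.ClassMax.Asch.max_cases (n := 4) (by norm_num) hH with
  h | ⟨t, m, D, hD, hc, h1, h2, hE⟩ | ⟨r, K, hr, hd, hK, hE⟩ | ⟨n₁, n₂, e, P, h1, h2, hc, h3, hE⟩ | ⟨F₀, r, P, hr, hc, hE⟩ |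
  ⟨r, m, R, hR, hnr, hE⟩ | ⟨m, t, e, P, h1, h2, hc, hE⟩ | ⟨f, hf, he, h4, hE⟩ | ⟨σ, f, hf, hE⟩ | ⟨ho, Q, hQ, hE⟩ | hres
· exact Or.inl (h)
· have ht := hD.two_le
  have hm := hD.pos
  have hmle : m ≤ 4 := by nlinarith
  have hcases : (m = 1 ∧ t = 4) ∨ (m = 2 ∧ t = 2) := by
    clear hE h1 h2 hD
    interval_cases m <;> omega
  rcases hcases with ⟨rfl, rfl⟩ | ⟨rfl, rfl⟩
  · have h5 := h1 rfl
    by_cases hq5 : Fintype.card F = 5
    · obtain ⟨R, hR, hle⟩ := Cfsg.Agent.Lib.ClassMax.Asch.mono_five hq5 hD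
      have hE' := Cfsg.Agent.Lib.ClassMax.Asch.eq_inf_of_le hH (hE.le.trans hle) (Cfsg.Agent.Lib.ClassMax.Asch.sl_not_le_six (by norm_num) hR)
      exact Or.inr (Or.inr (Or.inr (Or.inr (Or.inr (Or.inl (⟨5, R, by norm_num, hq5, by norm_num, hR, hE'⟩))))))
    · have hq6 : Fintype.card F ≠ 6 := by
        intro h6
        have hpp : IsPrimePow (Fintype.card F) := Fintype.isPrimePow_card_of_field
        rw [h6] at hpp
        exact absurd hpp (by decide)
      exact Or.inr (Or.inl (⟨by omega, D, hD, hE⟩))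
  · by_cases hq3 : Fintype.card F = 3
    · obtain ⟨f, hf, hle⟩ := Cfsg.Agent.Lib.ClassMax.Asch.plane_three hq3 hD
      have hE' := Cfsg.Agent.Lib.ClassMax.Asch.eq_inf_of_le hH (hE.le.trans hle) (Cfsg.Agent.Lib.ClassMax.Asch.sl_not_le_symp (by norm_num) hf)
      exact Or.inr (Or.inr (Or.inr (Or.inr (Or.inr (Or.inr (Or.inr (Or.inl (⟨f, hf, hE'⟩))))))))
    · have h3 := h2 rfl
      exact Or.inr (Or.inr (Or.inl (⟨by omega, D, hD, hE⟩)))
· have hcases : r = 2 := by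
    have hr2 := hr.two_le
    have hrle := Nat.le_of_dvd (by norm_num) hd
    clear hE hK
    interval_cases r <;> first | omega | (exfalso; revert hr; norm_num; done) | (exfalso; revert hd; norm_num; done)
  rcases hcases with rfl
  · exact Or.inr (Or.inr (Or.inr (Or.inl (⟨K, hK, hE⟩))))
· have hb := Cfsg.Agent.Lib.ClassMax.Asch.tp_bound h1 h2 hc (by norm_num)
  exfalso
  clear hE e P h3
  interval_cases n₁ <;> omega
· exact Or.inr (Or.inr (Or.inr (Or.inr (Or.inl (⟨F₀, r, P, hr, hc, hE⟩)))))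
· have hrp := hR.symplecticType.prime
  have e1 := Cfsg.Agent.Lib.ClassMax.Asch.r_eq_of_dvd hrp (by norm_num : Nat.Prime 2) (by rw [← hnr] <;> norm_num)
  subst e1
  obtain ⟨p, e, hp, hchar, hcard, hrne, hcase⟩ := Cfsg.Agent.Lib.ClassMax.Asch.six_data (by norm_num) hR
  rcases hcase with ⟨hro, he, hdv, hmin⟩ | ⟨hr2, he1, h4⟩
  · exact absurd hro (by decide)
  · subst he1
    have hp1 : p % 4 = 1 := by
      have := hp.pos
      omega
    exact Or.inr (Or.inr (Or.inr (Or.inr (Or.inr (Or.inl (⟨p, R, hp, by simpa using hcard, hp1, hR, hE⟩))))))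
· have hb := Cfsg.Agent.Lib.ClassMax.Asch.tw_cases h1 h2 hc (by norm_num)
  omega
· exact Or.inr (Or.inr (Or.inr (Or.inr (Or.inr (Or.inr (Or.inr (Or.inl (⟨f, hf, hE⟩))))))))
· exact Or.inr (Or.inr (Or.inr (Or.inr (Or.inr (Or.inr (Or.inr (Or.inr (Or.inl (⟨σ, f, hf, hE⟩)))))))))
· exact Or.inr (Or.inr (Or.inr (Or.inr (Or.inr (Or.inr (Or.inl (⟨ho, Q, hQ, hE⟩)))))))
· exact Or.inr (Or.inr (Or.inr (Or.inr (Or.inr (Or.inr (Or.inr (Or.inr (Or.inr (hres)))))))))

end Cfsg.Agent.S5781
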