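import Cfsg.Statements.S5799
import Cfsg.Agent.Lib.ClassMax.Asch19

set_option autoImplicit false
open Cfsg

namespace Cfsg.Agent.S5799


/-- Every maximal subgroup of SL_6(q) is of one of the listed geometric types or lies in the residual class. Let F be a finite field with q elements (p its characteristic) and H a maximal subgroup of SL_6(F) (inside GL_6(F)). Then H is the intersection with SL_6(F) of one of: the stabiliser of a proper non-zero subspace; for q ≥ 5, the stabiliser of a decomposition into 6 independent 1-spaces; for q ≥ 3, the stabiliser of a decomposition into 3 independent 2-spaces; the stabiliser of a decomposition into 2 independent 3-spaces; the normaliser of a degree-2 subfield of the matrix algebra; the normaliser of a degree-3 subfield of the matrix algebra; for q ≥ 3, the stabiliser of a tensor decomposition F^2 ⊗ F^3; a subfield group for a subfield F₀ with |F| = |F₀|^r, r prime; for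 q odd, the similarity group of a non-degenerate quadratic form; the similarity group of a non-degenerate symplectic form; the similarity group of a non-degenerate unitary form — or else H lies in the residual class of the linear case (modulo scalars H is almost simple, with absolutely irreducible perfect socle preimage realisable over no proper subfield and fixing no non-degenerate quadratic, symplectic or unitary form). -/
theorem result {F : Type*} [Field F] [Fintype F] (H : Subgroup (Matrix.GeneralLinearGroup (Fin 6) F)) (hH : Cfsg.Geo.IsMaximalIn (Cfsg.Geo.specialLinear (Fin 6) F) H) :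
    (∃ W : Submodule F (Fin 6 → F), W ≠ ⊥ ∧ W ≠ ⊤ ∧ H = Cfsg.Geo.subspaceStabilizer W ⊓ Cfsg.Geo.specialLinear (Fin 6) F) ∨
    (5 ≤ Fintype.card F ∧ ∃ D : Fin 6 → Submodule F (Fin 6 → F), Cfsg.Geo.IsMDecomposition 1 D ∧ H = Cfsg.Geo.decompositionStabilizer D ⊓ Cfsg.Geo.specialLinear (Fin 6) F) ∨
    (3 ≤ Fintype.card F ∧ ∃ D : Fin 3 → Submodule F (Fin 6 → F), Cfsg.Geo.IsMDecomposition 2 D ∧ H = Cfsg.Geo.decompositionStabilizer D ⊓ Cfsg.Geo.specialLinear (Fin 6) F) ∨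
    (∃ D : Fin 2 → Submodule F (Fin 6 → F), Cfsg.Geo.IsMDecomposition 3 D ∧ H = Cfsg.Geo.decompositionStabilizer D ⊓ Cfsg.Geo.specialLinear (Fin 6) F) ∨
    (∃ K : Subalgebra F (Matrix (Fin 6) (Fin 6) F), Cfsg.Geo.IsFieldSubalgebra 2 K ∧ H = Cfsg.Geo.subalgebraNormalizer K ⊓ Cfsg.Geo.specialLinear (Fin 6) F) ∨
    (∃ K : Subalgebra F (Matrix (Fin 6) (Fin 6) F), Cfsg.Geo.IsFieldSubalgebra 3 K ∧ H = Cfsg.Geo.subalgebraNormalizer K ⊓ Cfsg.Geo.specialLinear (Fin 6) F) ∨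
    (3 ≤ Fintype.card F ∧ ∃ (e : Fin 6 ≃ Fin 2 × Fin 3) (P : Matrix.GeneralLinearGroup (Fin 6) F), H = Cfsg.Geo.tensorProductSubgroup 2 3 e P ⊓ Cfsg.Geo.specialLinear (Fin 6) F) ∨
    (∃ (F₀ : Subfield F) (r : ℕ) (P : Matrix.GeneralLinearGroup (Fin 6) F), r.Prime ∧ Fintype.card F = Nat.card F₀ ^ r ∧ H = Cfsg.Geo.subfieldSubgroup F₀ P ⊓ Cfsg.Geo.specialLinear (Fin 6) F) ∨
    (Odd (Fintype.card F) ∧ ∃ Q : (Fin 6 → F) → F, Cfsg.Geo.IsNondegenerateQuadraticForm Q ∧ H = Cfsg.Geo.quadSimilarityGroup Q ⊓ Cfsg.Geo.specialLinear (Fin 6) F) ∨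
    (∃ f : (Fin 6 → F) → (Fin 6 → F) → F, Cfsg.Geo.IsSymplecticForm f ∧ H = Cfsg.Geo.similarityGroup f ⊓ Cfsg.Geo.specialLinear (Fin 6) F) ∨
    (∃ (σ : F ≃+* F) (f : (Fin 6 → F) → (Fin 6 → F) → F), Cfsg.Geo.IsUnitaryForm σ f ∧ H = Cfsg.Geo.similarityGroup f ⊓ Cfsg.Geo.specialLinear (Fin 6) F) ∨
    Cfsg.Geo.InLinearResidualClass H := by
  classical
rcases Cfsg.Agent.Lib.ClassMax.Asch.max_cases (n := 6) (by norm_num) hH with
  h | ⟨t, m, D, hD, hc, h1, h2, hE⟩ | ⟨r, K, hr, hd, hK, hE⟩ | ⟨n₁, n₂, e, P, h1, h2, hc, h3, hE⟩ | ⟨F₀, r, P, hr, hc, hE⟩ |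
  ⟨r, m, R, hR, hnr, hE⟩ | ⟨m, t, e, P, h1, h2, hc, hE⟩ | ⟨f, hf, he, h4, hE⟩ | ⟨σ, f, hf, hE⟩ | ⟨ho, Q, hQ, hE⟩ | hres
· exact Or.inl (h)
· have ht := hD.two_le
  have hm := hD.pos
  have hmle : m ≤ 6 := by nlinarith
  have hcases : (m = 1 ∧ t = 6) ∨ (m = 2 ∧ t = 3) ∨ (m = 3 ∧ t = 2) := by
    clear hE h1 h2 hD
    interval_cases m <;> omega
  rcases hcases with ⟨rfl, rfl⟩ | ⟨rfl, rfl⟩ | ⟨rfl, rfl⟩
  · exact Or.inr (Or.inl (⟨h1 rfl, D, hD, hE⟩))
  · exact Or.inr (Or.inr (Or.inl (⟨h2 rfl, D, hD, hE⟩)))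
  · exact Or.inr (Or.inr (Or.inr (Or.inl (⟨D, hD, hE⟩))))
· have hcases : r = 2 ∨ r = 3 := by
    have hr2 := hr.two_le
    have hrle := Nat.le_of_dvd (by norm_num) hd
    clear hE hK
    interval_cases r <;> first | omega | (exfalso; revert hr; norm_num; done) | (exfalso; revert hd; norm_num; done)
  rcases hcases with rfl | rfl
  · exact Or.inr (Or.inr (Or.inr (Or.inr (Or.inl (⟨K, hK, hE⟩)))))
  · exact Or.inr (Or.inr (Or.inr (Or.inr (Or.inr (Or.inl (⟨K, hK, hE⟩))))))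
· have hb := Cfsg.Agent.Lib.ClassMax.Asch.tp_bound h1 h2 hc (by norm_num)
  have hcases : (n₁ = 2 ∧ n₂ = 3) := by
    clear hE e P h3
    interval_cases n₁ <;> omega
  rcases hcases with ⟨rfl, rfl⟩
  · exact Or.inr (Or.inr (Or.inr (Or.inr (Or.inr (Or.inr (Or.inl (⟨h3 rfl, e, P, hE⟩)))))))
· exact Or.inr (Or.inr (Or.inr (Or.inr (Or.inr (Or.inr (Or.inr (Or.inl (⟨F₀, r, P, hr, hc, hE⟩))))))))
· have hrp := hR.symplecticType.prime
  have e1 := Cfsg.Agent.Lib.ClassMax.Asch.r_eq_of_dvd hrp (by norm_num : Nat.Prime 2) (by rw [← hnr] <;> norm_num)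
  have e2 := Cfsg.Agent.Lib.ClassMax.Asch.r_eq_of_dvd hrp (by norm_num : Nat.Prime 3) (by rw [← hnr] <;> norm_num)
  omega
· have hb := Cfsg.Agent.Lib.ClassMax.Asch.tw_cases h1 h2 hc (by norm_num)
  omega
· exact Or.inr (Or.inr (Or.inr (Or.inr (Or.inr (Or.inr (Or.inr (Or.inr (Or.inr (Or.inl (⟨f, hf, hE⟩))))))))))
· exact Or.inr (Or.inr (Or.inr (Or.inr (Or.inr (Or.inr (Or.inr (Or.inr (Or.inr (Or.inr (Or.inl (⟨σ, f, hf, hE⟩)))))))))))
· exact Or.inr (Or.inr (Or.inr (Or.inr (Or.inr (Or.inr (Or.inr (Or.inr (Or.inl (⟨ho, Q, hQ, hE⟩)))))))))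
· exact Or.inr (Or.inr (Or.inr (Or.inr (Or.inr (Or.inr (Or.inr (Or.inr (Or.inr (Or.inr (Or.inr (hres)))))))))))

end Cfsg.Agent.S5799
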