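import Cfsg.Statements.S5808
import Cfsg.Agent.Lib.ClassMax.Asch19

set_option autoImplicit false
open Cfsg

namespace Cfsg.Agent.S5808


/-- Every maximal subgroup of SL_7(q) is of one of the listed geometric types or lies in the residual class. Let F be a finite field with q elements (p its characteristic) and H a maximal subgroup of SL_7(F) (inside GL_7(F)). Then H is the intersection with SL_7(F) of one of: the stabiliser of a proper non-zero subspace; for q ≥ 5, the stabiliser of a decomposition into 7 independent 1-spaces; the normaliser of a degree-7 subfield of the matrix algebra; a subfield group for a subfield F₀ with |F| = |F₀|^r, r prime; for q = p prime with p ≡ 1 mod 7, or q = p³ with p ≡ 2 or 4 mod 7, the normaliser of an absolutely irreducible 7-subgroup R of exponent 7 and order 7^(1+2m) with centre of order 7, all of whose characteristic abelian subgroups are cyclic, F being the smallest field of characteristic p containing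 the seventh roots of unity (here R is extraspecial of order 343); for q odd, the similarity group of a non-degenerate quadratic form; the similarity group of a non-degenerate unitary form — or else H lies in the residual class of the linear case (modulo scalars H is almost simple, with absolutely irreducible perfect socle preimage realisable over no proper subfield and fixing no non-degenerate quadratic, symplectic or unitary form). -/
theorem result {F : Type*} [Field F] [Fintype F] (H : Subgroup (Matrix.GeneralLinearGroup (Fin 7) F)) (hH : Cfsg.Geo.IsMaximalIn (Cfsg.Geo.specialLinear (Fin 7) F) H) :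
    (∃ W : Submodule F (Fin 7 → F), W ≠ ⊥ ∧ W ≠ ⊤ ∧ H = Cfsg.Geo.subspaceStabilizer W ⊓ Cfsg.Geo.specialLinear (Fin 7) F) ∨
    (5 ≤ Fintype.card F ∧ ∃ D : Fin 7 → Submodule F (Fin 7 → F), Cfsg.Geo.IsMDecomposition 1 D ∧ H = Cfsg.Geo.decompositionStabilizer D ⊓ Cfsg.Geo.specialLinear (Fin 7) F) ∨
    (∃ K : Subalgebra F (Matrix (Fin 7) (Fin 7) F), Cfsg.Geo.IsFieldSubalgebra 7 K ∧ H = Cfsg.Geo.subalgebraNormalizer K ⊓ Cfsg.Geo.specialLinear (Fin 7) F) ∨
    (∃ (F₀ : Subfield F) (r : ℕ) (P : Matrix.GeneralLinearGroup (Fin 7) F), r.Prime ∧ Fintype.card F = Nat.card F₀ ^ r ∧ H = Cfsg.Geo.subfieldSubgroup F₀ P ⊓ Cfsg.Geo.specialLinear (Fin 7) F) ∨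
    ((∃ p : ℕ, p.Prime ∧ CharP F p ∧ ((Fintype.card F = p ∧ p % 7 = 1) ∨ (Fintype.card F = p ^ 3 ∧ (p % 7 = 2 ∨ p % 7 = 4)))) ∧ ∃ R : Subgroup (Matrix.GeneralLinearGroup (Fin 7) F), Cfsg.Geo.IsLinearSymplecticTypeData 7 R ∧ H = Cfsg.Geo.subgroupNormalizer R ⊓ Cfsg.Geo.specialLinear (Fin 7) F) ∨
    (Odd (Fintype.card F) ∧ ∃ Q : (Fin 7 → F) → F, Cfsg.Geo.IsNondegenerateQuadraticForm Q ∧ H = Cfsg.Geo.quadSimilarityGroup Q ⊓ Cfsg.Geo.specialLinear (Fin 7) F) ∨
    (∃ (σ : F ≃+* F) (f : (Fin 7 → F) → (Fin 7 → F) → F), Cfsg.Geo.IsUnitaryForm σ f ∧ H = Cfsg.Geo.similarityGroup f ⊓ Cfsg.Geo.specialLinear (Fin 7) F) ∨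
    Cfsg.Geo.InLinearResidualClass H := by
  classical
rcases Cfsg.Agent.Lib.ClassMax.Asch.max_cases (n := 7) (by norm_num) hH with
  h | ⟨t, m, D, hD, hc, h1, h2, hE⟩ | ⟨r, K, hr, hd, hK, hE⟩ | ⟨n₁, n₂, e, P, h1, h2, hc, h3, hE⟩ | ⟨F₀, r, P, hr, hc, hE⟩ |
  ⟨r, m, R, hR, hnr, hE⟩ | ⟨m, t, e, P, h1, h2, hc, hE⟩ | ⟨f, hf, he, h4, hE⟩ | ⟨σ, f, hf, hE⟩ | ⟨ho, Q, hQ, hE⟩ | hres
· exact Or.inl (h)
· have ht := hD.two_le
  have hm := hD.pos
  have hmle : m ≤ 7 := by nlinarith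
  have hcases : (m = 1 ∧ t = 7) := by
    clear hE h1 h2 hD
    interval_cases m <;> omega
  rcases hcases with ⟨rfl, rfl⟩
  · exact Or.inr (Or.inl (⟨h1 rfl, D, hD, hE⟩))
· have hcases : r = 7 := by
    have hr2 := hr.two_le
    have hrle := Nat.le_of_dvd (by norm_num) hd
    clear hE hK
    interval_cases r <;> first | omega | (exfalso; revert hr; norm_num; done) | (exfalso; revert hd; norm_num; done)
  rcases hcases with rfl
  · exact Or.inr (Or.inr (Or.inl (⟨K, hK, hE⟩)))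
· have hb := Cfsg.Agent.Lib.ClassMax.Asch.tp_bound h1 h2 hc (by norm_num)
  exfalso
  clear hE e P h3
  interval_cases n₁ <;> omega
· exact Or.inr (Or.inr (Or.inr (Or.inl (⟨F₀, r, P, hr, hc, hE⟩))))
· have hrp := hR.symplecticType.prime
  have e1 := Cfsg.Agent.Lib.ClassMax.Asch.r_eq_of_dvd hrp (by norm_num : Nat.Prime 7) (by rw [← hnr] <;> norm_num)
  subst e1
  obtain ⟨p, e, hp, hchar, hcard, hrne, hcase⟩ := Cfsg.Agent.Lib.ClassMax.Asch.six_data (by norm_num) hR
  rcases hcase with ⟨hro, he, hdv, hmin⟩ | ⟨hr2, he1, h4⟩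
  · rcases Cfsg.Agent.Lib.ClassMax.Asch.arith7 hp hrne he hdv hmin with ⟨rfl, hp1⟩ | ⟨rfl, hp1⟩
    · exact Or.inr (Or.inr (Or.inr (Or.inr (Or.inl (⟨⟨p, hp, hchar, Or.inl ⟨by simpa using hcard, hp1⟩⟩, R, hR, hE⟩)))))
    · exact Or.inr (Or.inr (Or.inr (Or.inr (Or.inl (⟨⟨p, hp, hchar, Or.inr ⟨hcard, hp1⟩⟩, R, hR, hE⟩)))))
  · omega
· have hb := Cfsg.Agent.Lib.ClassMax.Asch.tw_cases h1 h2 hc (by norm_num)
  omega
· exact absurd he (by decide)
· exact Or.inr (Or.inr (Or.inr (Or.inr (Or.inr (Or.inr (Or.inl (⟨σ, f, hf, hE⟩)))))))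
· exact Or.inr (Or.inr (Or.inr (Or.inr (Or.inr (Or.inl (⟨ho, Q, hQ, hE⟩))))))
· exact Or.inr (Or.inr (Or.inr (Or.inr (Or.inr (Or.inr (Or.inr (hres)))))))

end Cfsg.Agent.S5808
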