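import Cfsg.Statements.S5877
import Mathlib
import Cfsg.Agent.Lib.ClassMax.ExtraEig7

set_option autoImplicit false
open Cfsg

namespace Cfsg.Agent.S5877

open Cfsg.Agent.Lib.ClassMax.ExtraEig Module


/-- Eigenspaces of elements normalising an absolutely irreducible extraspecial group. Let F be a finite field, r a prime, and R ≤ GL_n(F) an absolutely irreducible extraspecial r-group (an r-group whose centre equals its derived subgroup and has order r) of exponent r or 4. Let g ∈ GL_n(F) normalise the product of R with the scalar matrices, have prime order ϖ and not be scalar, and let W be the eigenspace of g for any c ∈ F (W may be the zero subspace). Then dim W ≤ 3n/4 if ϖ = 2, dim W ≤ 2n/3 if ϖ = 3, and dim W ≤ n/2 if ϖ > 3; moreover if ϖ = 3 and 3 does not divide n then dim W ≤ n/2. -/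
theorem result {F : Type*} [Field F] [Fintype F] {n r ϖ : ℕ} (R : Subgroup (Matrix.GeneralLinearGroup (Fin n) F)) (hr : r.Prime) (hR : IsPGroup r R) (hZ : Nat.card (Subgroup.center R) = r) (hext : commutator R = Subgroup.center R) (hexp : Monoid.exponent R = r ∨ Monoid.exponent R = 4) (hirr : Cfsg.Geo.ActsAbsolutelyIrreducibly (Cfsg.Geo.matrixSet R)) (g : Matrix.GeneralLinearGroup (Fin n) F) (hg : g ∈ Cfsg.Geo.subgroupNormalizer (R ⊔ Cfsg.Geo.scalars (Fin n) F)) (hϖ : ϖ.Prime) (hord : orderOf g = ϖ) (hns : g ∉ Cfsg.Geo.scalars (Fin n) F) (c : F) :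
    (ϖ = 2 → 4 * Module.finrank F (Module.End.eigenspace (Matrix.toLin' (g : Matrix (Fin n) (Fin n) F)) c) ≤ 3 * n) ∧
    (ϖ = 3 → 3 * Module.finrank F (Module.End.eigenspace (Matrix.toLin' (g : Matrix (Fin n) (Fin n) F)) c) ≤ 2 * n) ∧
    (3 < ϖ → 2 * Module.finrank F (Module.End.eigenspace (Matrix.toLin' (g : Matrix (Fin n) (Fin n) F)) c) ≤ n) ∧
    (ϖ = 3 → ¬ 3 ∣ n → 2 * Module.finrank F (Module.End.eigenspace (Matrix.toLin' (g : Matrix (Fin n) (Fin n) F)) c) ≤ n) := by
  classical
  have hfin : finrank F (Fin n → F) = n := Module.finrank_fin_fun F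
  let Λ : Matrix.GeneralLinearGroup (Fin n) F →* End F (Fin n → F) :=
    { toFun := fun x => Matrix.toLin' (x : Matrix (Fin n) (Fin n) F)
      map_one' := by
        show Matrix.toLin' ((1 : Matrix.GeneralLinearGroup (Fin n) F) : Matrix (Fin n) (Fin n) F) = 1
        rw [Units.val_one, Matrix.toLin'_one]
        rfl
      map_mul' := by
        intro x y
        show Matrix.toLin' ((x * y : Matrix.GeneralLinearGroup (Fin n) F) : Matrix (Fin n) (Fin n) F) = _
        rw [Units.val_mul, Matrix.toLin'_mul]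
        rfl }
  have hΛ : ∀ x, Λ x = Matrix.toLin' (x : Matrix (Fin n) (Fin n) F) := fun _ => rfl
  have hΛinj : Function.Injective Λ := by
    intro x y hxy
    apply Units.ext
    exact Matrix.toLin'.injective hxy
  let ρ : R →* End F (Fin n → F) := Λ.comp R.subtype
  have hρ : ∀ x : R, ρ x = Λ x := fun _ => rfl
  -- non-scalar
  have hns' : ∀ c : F, Λ g ≠ c • 1 := by
    intro c hc
    apply hns
    have e1 : (g : Matrix (Fin n) (Fin n) F) = c • 1 := by
      apply Matrix.toLin'.injective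
      rw [map_smul, Matrix.toLin'_one]
      exact hc
    rw [Cfsg.Geo.mem_scalars_iff]
    by_cases hc0 : c = 0
    · have h0 : (g : Matrix (Fin n) (Fin n) F) = 0 := by rw [e1, hc0, zero_smul]
      have h1 : (1 : Matrix (Fin n) (Fin n) F) = 0 := by
        have := g.mul_inv
        rw [h0, zero_mul] at this
        exact this.symm
      haveI : Subsingleton (Matrix (Fin n) (Fin n) F) := subsingleton_of_zero_eq_one h1.symm
      exact ⟨1, Subsingleton.elim _ _⟩
    · exact ⟨Units.mk0 c hc0, e1⟩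
  have h10 : (1 : End F (Fin n → F)) ≠ 0 := by
    intro h1
    apply hns' 0
    rw [zero_smul]
    have : Λ g = Λ g * 1 := (mul_one _).symm
    rw [this, h1, mul_zero]
  -- Schur
  have hschur : ∀ T : End F (Fin n → F), (∀ x : R, T * ρ x = ρ x * T) → ∃ c : F, T = c • 1 := by
    intro T hT
    obtain ⟨c, hc⟩ := hirr.2 (LinearMap.toMatrix' T) (by
      rintro _ ⟨x, hx, rfl⟩
      apply Matrix.toLin'.injective
      rw [Matrix.toLin'_mul, Matrix.toLin'_mul, Matrix.toLin'_toMatrix']
      exact hT ⟨x, hx⟩)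
    refine ⟨c, ?_⟩
    have e : T = Matrix.toLin' (LinearMap.toMatrix' T) := (Matrix.toLin'_toMatrix' T).symm
    rw [e, hc, map_smul, Matrix.toLin'_one]
    rfl
  -- commutators
  have hcomm' : ∀ x y : R, ∃ ζ : F, ζ ^ r = 1 ∧ ρ (x * y * x⁻¹ * y⁻¹) = ζ • 1 ∧ ρ x * ρ y = ζ • (ρ y * ρ x) := by
    intro x y
    have hz : x * y * x⁻¹ * y⁻¹ ∈ Subgroup.center R := by
      rw [← hext, commutator_def, ← commutatorElement_def]
      exact Subgroup.commutator_mem_commutator (Subgroup.mem_top x) (Subgroup.mem_top y)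
    set z := x * y * x⁻¹ * y⁻¹ with hzd
    obtain ⟨ζ, hζ⟩ := hschur (ρ z) (by
      intro w
      rw [← map_mul, ← map_mul]
      congr 1
      exact (Subgroup.mem_center_iff.mp hz w).symm)
    have hzr : z ^ r = 1 := by
      have h1 := pow_card_eq_one' (G := Subgroup.center R) (x := ⟨z, hz⟩)
      rw [hZ] at h1
      exact congrArg Subtype.val h1
    refine ⟨ζ, ?_, hζ, ?_⟩
    · have e1 : ρ (z ^ r) = ζ ^ r • 1 := by
        rw [map_pow, hζ, smul_pow, one_pow]
      rw [hzr, map_one] at e1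
      apply smul_one_cancel h10
      rw [← e1, one_smul]
    · have e : x * y = z * (y * x) := by rw [hzd]; group
      rw [← map_mul, e, map_mul, hζ, smul_mul_assoc, one_mul, map_mul]
  -- normalisation
  have hg1 : Λ g ^ ϖ = 1 := by
    rw [← map_pow, ← hord, pow_orderOf_eq_one, map_one]
  have hnormal : ∀ x : R, ∃ (y : R) (κ : F), κ ≠ 0 ∧ Λ g * ρ x = κ • (ρ y * Λ g) := by
    intro x
    have hx : (x : Matrix.GeneralLinearGroup (Fin n) F) ∈ R ⊔ Cfsg.Geo.scalars (Fin n) F :=
      (le_sup_left : R ≤ R ⊔ Cfsg.Geo.scalars (Fin n) F) x.2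
    have h1 := (Subgroup.mem_normalizer_iff.mp hg _).mp hx
    have h2 : g * x * g⁻¹ ∈ ((R ⊔ Cfsg.Geo.scalars (Fin n) F : Subgroup _) : Set (Matrix.GeneralLinearGroup (Fin n) F)) := h1
    rw [Subgroup.mul_normal] at h2
    obtain ⟨y, hy, z, hz, hyz⟩ := Set.mem_mul.mp h2
    obtain ⟨c, hc⟩ := (Cfsg.Geo.mem_scalars_iff z).mp hz
    have e1 : g * x = y * z * g := by
      rw [hyz]
      group
    refine ⟨⟨y, hy⟩, c, c.ne_zero, ?_⟩
    have e2 := congrArg Λ e1
    rw [map_mul, map_mul, map_mul] at e2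
    have e3 : Λ z = (c : F) • 1 := by
      rw [hΛ, hc, map_smul, Matrix.toLin'_one]
      rfl
    rw [e3, mul_smul_comm, mul_one, smul_mul_assoc] at e2
    exact e2
  -- a non-commuting pair
  have hnc : ∃ x y : R, x * y ≠ y * x := by
    by_contra hall
    push Not at hall
    have hbot : commutator R = ⊥ := by
      rw [commutator_def, eq_bot_iff, Subgroup.commutator_le]
      intro a _ b _
      rw [Subgroup.mem_bot, commutatorElement_eq_one_iff_mul_comm]
      exact hall a b
    rw [hbot] at hext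
    rw [← hext] at hZ
    have : Nat.card (⊥ : Subgroup R) = 1 := Subgroup.card_bot
    rw [this] at hZ
    exact hr.one_lt.ne hZ
  obtain ⟨x₁, y₁, hxy⟩ := hnc
  obtain ⟨θ, hθr, hθz, hθ⟩ := hcomm' x₁ y₁
  have hnc' : ρ x₁ * ρ y₁ ≠ ρ y₁ * ρ x₁ := by
    intro h
    apply hxy
    apply Subtype.ext
    apply hΛinj
    show ρ (x₁ * y₁) = ρ (y₁ * x₁)
    rw [map_mul, map_mul]
    exact h
  have hθ1 : θ ≠ 1 := by
    rintro rfl
    rw [one_smul] at hθ
    exact hnc' hθ
  have hθp := prim_of_prime hr hθr hθ1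
  have hrn : r ∣ n := by
    have e1 : ((x₁ : Matrix.GeneralLinearGroup (Fin n) F) : Matrix (Fin n) (Fin n) F) * ((y₁ : Matrix.GeneralLinearGroup (Fin n) F) : Matrix (Fin n) (Fin n) F) =
        θ • (((y₁ : Matrix.GeneralLinearGroup (Fin n) F) : Matrix (Fin n) (Fin n) F) * ((x₁ : Matrix.GeneralLinearGroup (Fin n) F) : Matrix (Fin n) (Fin n) F)) := by
      apply Matrix.toLin'.injective
      rw [map_smul, Matrix.toLin'_mul, Matrix.toLin'_mul]
      exact hθ
    have e2 := congrArg Matrix.det e1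
    rw [Matrix.det_smul, Matrix.det_mul, Matrix.det_mul, Fintype.card_fin] at e2
    have hdx : ((x₁ : Matrix.GeneralLinearGroup (Fin n) F) : Matrix (Fin n) (Fin n) F).det ≠ 0 :=
      ((Matrix.isUnit_iff_isUnit_det _).mp (x₁ : Matrix.GeneralLinearGroup (Fin n) F).isUnit).ne_zero
    have hdy : ((y₁ : Matrix.GeneralLinearGroup (Fin n) F) : Matrix (Fin n) (Fin n) F).det ≠ 0 :=
      ((Matrix.isUnit_iff_isUnit_det _).mp (y₁ : Matrix.GeneralLinearGroup (Fin n) F).isUnit).ne_zero
    have e3 : θ ^ n = 1 := by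
      have hne : ((x₁ : Matrix.GeneralLinearGroup (Fin n) F) : Matrix (Fin n) (Fin n) F).det * ((y₁ : Matrix.GeneralLinearGroup (Fin n) F) : Matrix (Fin n) (Fin n) F).det ≠ 0 := mul_ne_zero hdx hdy
      apply mul_right_cancel₀ hne
      rw [one_mul]
      rw [mul_comm (((y₁ : Matrix.GeneralLinearGroup (Fin n) F) : Matrix (Fin n) (Fin n) F).det)] at e2
      exact e2.symm
    exact hθp.dvd_of_pow_eq_one _ e3
  have hexp2 : ϖ = r → 5 ≤ ϖ → ∀ x : R, x ^ ϖ = 1 := by
    rintro rfl hϖ5
    have hodd : ϖ ≠ 2 := by omega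
    rcases hexp with h | h
    · intro x
      rw [← h]
      exact Monoid.pow_exponent_eq_one x
    · exfalso
      have hall : ∀ x : R, x = 1 := by
        intro x
        obtain ⟨k, hk⟩ := hR x
        have h4 : x ^ 4 = 1 := by
          rw [← h]
          exact Monoid.pow_exponent_eq_one x
        have hcop : Nat.Coprime 4 (ϖ ^ k) := by
          apply Nat.Coprime.pow_right
          rw [show (4 : ℕ) = 2 ^ 2 from rfl]
          apply Nat.Coprime.pow_left
          exact (Nat.coprime_primes Nat.prime_two hϖ).mpr (Ne.symm hodd)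
        have h5 : orderOf x ∣ Nat.gcd 4 (ϖ ^ k) := Nat.dvd_gcd (orderOf_dvd_of_pow_eq_one h4) (orderOf_dvd_of_pow_eq_one hk)
        rw [hcop.gcd_eq_one, Nat.dvd_one, orderOf_eq_one_iff] at h5
        exact h5
      exact hxy (by rw [hall x₁, hall y₁])
  have hfinal := final_abstract hr hϖ hcomm' hschur hg1 hns' hnormal hexp2 ⟨x₁, y₁, hnc'⟩ (by rw [hfin]; exact hrn) c
  rw [hfin] at hfinal
  exact hfinal

end Cfsg.Agent.S5877
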