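import Cfsg.Statements.S5944

set_option autoImplicit false
open Cfsg

namespace Cfsg.Agent.S5944


/-- For n ≠ 4, every proper subgroup of the symmetric group S_n other than the alternating group A_n has index at least n. -/
theorem result (n : ℕ) (hn : n ≠ 4) (H : Subgroup (Equiv.Perm (Fin n))) (hH : H ≠ ⊤) (hA : H ≠ alternatingGroup (Fin n)) : n ≤ H.index := by
  by_contra hlt
  push Not at hlt
  have hi0 : H.index ≠ 0 := Subgroup.index_ne_zero_of_finite
  have hi1 : H.index ≠ 1 := fun h => hH (Subgroup.index_eq_one.mp h)
  have hnotrans : H.index ≠ 2 := fun h => hA (Equiv.Perm.eq_alternatingGroup_of_index_eq_two h)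
  have h5 : 5 ≤ n := by omega
  have hnt : Nontrivial (Fin n) := Fin.nontrivial_iff_two_le.mpr (by omega)
  by_cases hN : H.normalCore = ⊥
  · have hinj : Function.Injective (MulAction.toPermHom (Equiv.Perm (Fin n)) (Equiv.Perm (Fin n) ⧸ H)) := by
      rw [← MonoidHom.ker_eq_bot_iff, ← Subgroup.normalCore_eq_ker, hN]
    have hcard := Nat.card_le_card_of_injective _ hinj
    have h1 : Nat.card (Equiv.Perm (Fin n)) = n.factorial := by simp [Nat.card_eq_fintype_card, Fintype.card_perm]
    classical
    haveI : Fintype (Equiv.Perm (Fin n) ⧸ H) := Fintype.ofFinite _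
    have h2 : Nat.card (Equiv.Perm (Equiv.Perm (Fin n) ⧸ H)) = H.index.factorial := by
      rw [Nat.card_eq_fintype_card, Fintype.card_perm, Subgroup.index, Nat.card_eq_fintype_card]
    rw [h1, h2] at hcard
    have h3 : H.index.factorial < n.factorial := Nat.factorial_lt (by omega) |>.mpr hlt
    omega
  · have hle : alternatingGroup (Fin n) ≤ H.normalCore := by
      apply Equiv.Perm.alternatingGroup_le_of_normal (by simpa using h5)
      rw [Subgroup.nontrivial_iff_ne_bot]
      exact hN
    have hle2 : alternatingGroup (Fin n) ≤ H := hle.trans (Subgroup.normalCore_le H)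
    have hdvd := Subgroup.index_dvd_of_le hle2
    rw [alternatingGroup.index_eq_two] at hdvd
    have := (Nat.dvd_prime Nat.prime_two).mp hdvd
    omega

end Cfsg.Agent.S5944
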