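import Cfsg.Statements.S5945
import Cfsg.Agent.Lib.ClassMax.SymSix

set_option autoImplicit false
open Cfsg

namespace Cfsg.Agent.S5945

open scoped Pointwise


/-- The symmetric group S_6 has exactly 12 subgroups of index 6; each of them is isomorphic to S_5, and at least one of them is not the stabilizer of any point. -/
theorem result : Nat.card {H : Subgroup (Equiv.Perm (Fin 6)) // H.index = 6} = 12 ∧ (∀ H : Subgroup (Equiv.Perm (Fin 6)), H.index = 6 → Nonempty (H ≃* Equiv.Perm (Fin 5))) ∧ ∃ H : Subgroup (Equiv.Perm (Fin 6)), H.index = 6 ∧ ∀ a : Fin 6, H ≠ MulAction.stabilizer (Equiv.Perm (Fin 6)) a := by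
  classical
  open Cfsg.Agent.Lib.ClassMax.SymAut Cfsg.Agent.Lib.ClassMax.SymSix in
  have hK : ∀ i : Fin 6, (MulAction.stabilizer (Equiv.Perm (Fin 6)) (T i)).index = 6 := by
    intro i
    rw [MulAction.index_stabilizer]
    have h1 : MulAction.orbit (Equiv.Perm (Fin 6)) (T i) = MulAction.orbit (Equiv.Perm (Fin 6)) T0 :=
      MulAction.orbit_smul (gg i) T0
    rw [h1]
    have := index_K0
    rwa [K0, MulAction.index_stabilizer] at this
  have hS : ∀ a : Fin 6, (MulAction.stabilizer (Equiv.Perm (Fin 6)) a).index = 6 := by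
    intro a
    rw [index_stabilizer_perm]
    simp
  refine ⟨?_, ?_, K0, index_K0, K0_ne⟩
  · let F : Fin 6 ⊕ Fin 6 → {H : Subgroup (Equiv.Perm (Fin 6)) // H.index = 6} :=
      Sum.elim (fun a => ⟨MulAction.stabilizer (Equiv.Perm (Fin 6)) a, hS a⟩)
        (fun i => ⟨MulAction.stabilizer (Equiv.Perm (Fin 6)) (T i), hK i⟩)
    have hF : Function.Bijective F := by
      constructor
      · rintro (a | i) (b | j) h
        · have h1 : MulAction.stabilizer (Equiv.Perm (Fin 6)) a =
              MulAction.stabilizer (Equiv.Perm (Fin 6)) b := congrArg Subtype.val h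
          by_contra hab
          have hab' : a ≠ b := fun e => hab (by rw [e])
          have hdec : ∀ a b : Fin 6, ∃ c : Fin 6, c ≠ a ∧ c ≠ b := by decide
          obtain ⟨c, hca, hcb⟩ := hdec a b
          have h2 : Equiv.swap b c ∈ MulAction.stabilizer (Equiv.Perm (Fin 6)) a := by
            rw [MulAction.mem_stabilizer_iff]
            exact Equiv.swap_apply_of_ne_of_ne hab' hca.symm
          rw [h1, MulAction.mem_stabilizer_iff] at h2
          have h3 : Equiv.swap b c b = b := h2
          rw [Equiv.swap_apply_left] at h3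
          exact hcb h3
        · exfalso
          have h1 : MulAction.stabilizer (Equiv.Perm (Fin 6)) a =
              MulAction.stabilizer (Equiv.Perm (Fin 6)) (T j) := congrArg Subtype.val h
          have h2 : gg j * h0 * (gg j)⁻¹ ∈ MulAction.stabilizer (Equiv.Perm (Fin 6)) a := by
            rw [h1]; exact h_T_self j
          exact h_fix j a h2
        · exfalso
          have h1 : MulAction.stabilizer (Equiv.Perm (Fin 6)) b =
              MulAction.stabilizer (Equiv.Perm (Fin 6)) (T i) := (congrArg Subtype.val h).symm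
          have h2 : gg i * h0 * (gg i)⁻¹ ∈ MulAction.stabilizer (Equiv.Perm (Fin 6)) b := by
            rw [h1]; exact h_T_self i
          exact h_fix i b h2
        · have h1 : MulAction.stabilizer (Equiv.Perm (Fin 6)) (T i) =
              MulAction.stabilizer (Equiv.Perm (Fin 6)) (T j) := congrArg Subtype.val h
          have h2 : gg i * w0 * (gg i)⁻¹ ∈ MulAction.stabilizer (Equiv.Perm (Fin 6)) (T j) := by
            rw [← h1]; exact w_T_self i
          rw [w_T i j h2]
      · rintro ⟨H, hH⟩
        rcases dichotomy (by simp) K0 index_K0 K0_ne H hH with ⟨x, rfl⟩ | ⟨g, rfl⟩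
        · exact ⟨Sum.inl x, rfl⟩
        · obtain ⟨j, hj⟩ := orbit_T g 0
          rw [T_zero] at hj
          refine ⟨Sum.inr j, Subtype.ext ?_⟩
          change MulAction.stabilizer (Equiv.Perm (Fin 6)) (T j) = _
          rw [← hj, MulAction.stabilizer_smul_eq_stabilizer_map_conj]
          rfl
    rw [← Nat.card_congr (Equiv.ofBijective F hF)]
    simp
  · intro H hH
    exact Cfsg.Agent.Lib.ClassMax.SymSix.nonempty_mulEquiv H 5 (by simp) (by simpa using hH) (by simp)

end Cfsg.Agent.S5945
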