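import Cfsg.Statements.S5949
import Cfsg.Agent.Lib.ClassMax.EluFix

set_option autoImplicit false
open scoped MatrixGroups
open Cfsg

namespace Cfsg.Agent.S5949

open Module Matrix Polynomial Cfsg.Agent.Lib.ClassMax.EluFix Cfsg.Agent.Lib.ClassMax.EluBlock Cfsg.Agent.Lib.ClassMax.EluOrder Cfsg.Agent.Lib.ClassMax.EluConj

section aux

variable {F : Type*} [Field F] [Fintype F]

theorem exists_nonpower {r n : ℕ} [Fact r.Prime] (hn0 : n ≠ 0) (hrq : ¬ r ∣ Fintype.card F) (hrq1 : r ∣ Fintype.card F - 1)
    (hh : ¬ (padicValNat r n ≤ padicValNat r (Fintype.card F - 1) ∧ (r = 2 → Even n → Fintype.card F % 4 = 1))) :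
    r ∣ n ∧ ∃ c : F, (∀ y : F, y ^ r ≠ c) ∧ ((-1) ^ r * (-c)) ^ (n / r) = 1 := by
  classical
  have hr : r.Prime := Fact.out
  have hq2 : 1 < Fintype.card F := Fintype.one_lt_card
  have hq1 : Fintype.card F - 1 ≠ 0 := by omega
  by_cases h2 : r = 2 ∧ Even n ∧ Fintype.card F % 4 ≠ 1
  · obtain ⟨rfl, hev, hq4⟩ := h2
    refine ⟨even_iff_two_dvd.mp hev, -1, ?_, by simp⟩
    have hq3 : Fintype.card F % 4 = 3 := by omega
    intro y hy
    have h3 : IsSquare (-1 : F) := ⟨y, by rw [← hy]; ring⟩
    rw [FiniteField.isSquare_neg_one_iff] at h3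
    exact h3 hq3
  · have hlt : padicValNat r (Fintype.card F - 1) < padicValNat r n := by
      by_contra hle
      push Not at hle
      apply hh
      refine ⟨hle, fun hr2 hev => ?_⟩
      by_contra h4
      exact h2 ⟨hr2, hev, h4⟩
    set a := padicValNat r (Fintype.card F - 1) with ha
    have ha1 : 1 ≤ a := one_le_padicValNat_of_dvd hq1 hrq1
    have hrn : r ^ (a + 1) ∣ n := (padicValNat_dvd_iff_le hn0).mpr hlt
    have hrn1 : r ∣ n := (dvd_pow_self r (by omega)).trans hrn
    have hpowdvd : r ^ a ∣ n / r := by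
      obtain ⟨s, hs⟩ := hrn
      rw [hs, pow_succ, mul_assoc, mul_comm r, ← mul_assoc, Nat.mul_div_cancel _ hr.pos]
      exact dvd_mul_right _ _
    have hca : r ^ a ∣ Nat.card Fˣ := by
      rw [Nat.card_eq_fintype_card, Fintype.card_units]
      exact pow_padicValNat_dvd
    obtain ⟨γ, hγ⟩ := IsCyclic.exists_generator (α := Fˣ)
    have hordγ : orderOf γ = Nat.card Fˣ := orderOf_eq_card_of_forall_mem_zpowers hγ
    have hord : orderOf (γ ^ (orderOf γ / r ^ a)) = r ^ a :=
      orderOf_pow_orderOf_div (by rw [hordγ]; exact Nat.card_pos.ne') (by rw [hordγ]; exact hca)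
    set e' : Fˣ := γ ^ (orderOf γ / r ^ a) with he'
    have hnp : ∀ y : F, y ^ r ≠ (e' : F) := by
      intro y hy
      have hy0 : y ≠ 0 := by
        rintro rfl
        rw [zero_pow hr.ne_zero] at hy
        exact e'.ne_zero hy.symm
      let y' : Fˣ := Units.mk0 y hy0
      have hy' : y' ^ r = e' := Units.ext (by simpa [y'] using hy)
      have h5 : y' ^ r ^ (a + 1) = 1 := by
        rw [pow_succ', pow_mul, hy', ← hord, pow_orderOf_eq_one]
      have h6 : ¬ y' ^ r ^ a = 1 := by
        intro h7
        obtain ⟨a', ha'⟩ : ∃ a', a = a' + 1 := ⟨a - 1, by omega⟩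
        have h8 : e' ^ r ^ a' = 1 := by
          rw [← hy', ← pow_mul, ← pow_succ', ← ha']
          exact h7
        have h9 := orderOf_dvd_of_pow_eq_one h8
        rw [hord, ha'] at h9
        have h10 := Nat.pow_dvd_pow_iff_le_right hr.one_lt |>.mp h9
        omega
      have h7 : orderOf y' = r ^ (a + 1) := orderOf_eq_prime_pow h6 h5
      have h8 := orderOf_dvd_natCard y'
      rw [h7, Nat.card_eq_fintype_card, Fintype.card_units] at h8
      have h9 := (padicValNat_dvd_iff_le hq1).mp h8
      omega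
    have hepow : (e' : F) ^ (n / r) = 1 := by
      have h3 : e' ^ (n / r) = 1 := by
        apply orderOf_dvd_iff_pow_eq_one.mp
        rw [hord]
        exact hpowdvd
      rw [← Units.val_pow_eq_pow_val, h3, Units.val_one]
    refine ⟨hrn1, ?_⟩
    by_cases hr2 : r = 2
    · subst hr2
      have hev : Even n := even_iff_two_dvd.mpr hrn1
      have hq4 : Fintype.card F % 4 = 1 := by
        by_contra h4
        exact h2 ⟨rfl, hev, h4⟩
      have hsq : IsSquare (-1 : F) := by
        rw [FiniteField.isSquare_neg_one_iff]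
        omega
      obtain ⟨s, hs⟩ := hsq
      refine ⟨-(e' : F), ?_, ?_⟩
      · intro y hy
        apply hnp (s * y)
        rw [mul_pow, pow_two s, ← hs, hy]
        ring
      · simpa using hepow
    · have hodd : Odd r := hr.odd_of_ne_two hr2
      refine ⟨(e' : F), hnp, ?_⟩
      rw [hodd.neg_one_pow]
      simpa using hepow

theorem pow_one_of_val {r n : ℕ} [Fact r.Prime] (hn0 : n ≠ 0) (hrn : r ∣ n) (hrq1 : r ∣ Fintype.card F - 1)
    (hv : padicValNat r n ≤ padicValNat r (Fintype.card F - 1)) {e : F} (he0 : e ≠ 0) (he : e ^ (n / r) = 1) :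
    e ^ ((Fintype.card F - 1) / r) = 1 := by
  have hr : r.Prime := Fact.out
  have hq2 : 1 < Fintype.card F := Fintype.one_lt_card
  have hq1 : Fintype.card F - 1 ≠ 0 := by omega
  obtain ⟨t, rfl⟩ := hrn
  have ht0 : t ≠ 0 := by
    rintro rfl
    simp at hn0
  rw [Nat.mul_div_cancel_left _ hr.pos] at he
  have hq : e ^ (Fintype.card F - 1) = 1 := FiniteField.pow_card_sub_one_eq_one e he0
  have hg : e ^ Nat.gcd t (Fintype.card F - 1) = 1 := pow_gcd_eq_one.mpr ⟨he, hq⟩
  set g := Nat.gcd t (Fintype.card F - 1) with hgdef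
  have hgt : g ∣ t := Nat.gcd_dvd_left _ _
  obtain ⟨h, hh⟩ : g ∣ Fintype.card F - 1 := Nat.gcd_dvd_right _ _
  have hg0 : g ≠ 0 := by
    intro h0
    rw [h0, zero_mul] at hh
    omega
  have hh0 : h ≠ 0 := by
    intro h0
    rw [h0, mul_zero] at hh
    omega
  have hv1 : padicValNat r (r * t) = 1 + padicValNat r t := by
    rw [padicValNat.mul hr.ne_zero ht0, padicValNat_self]
  have hv2 : padicValNat r (Fintype.card F - 1) = padicValNat r g + padicValNat r h := by
    rw [hh, padicValNat.mul hg0 hh0]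
  have hv3 : padicValNat r g ≤ padicValNat r t :=
    (padicValNat_dvd_iff_le ht0).mp (pow_padicValNat_dvd.trans hgt)
  have hv4 : 1 ≤ padicValNat r h := by omega
  obtain ⟨h', rfl⟩ := dvd_of_one_le_padicValNat hv4
  have e1 : (Fintype.card F - 1) / r = g * h' := by
    rw [hh, show g * (r * h') = r * (g * h') by ring, Nat.mul_div_cancel_left _ hr.pos]
  rw [e1, pow_mul, hg, one_pow]

theorem dvd_of_inv {r n : ℕ} {c : F} (hirr : Irreducible (X ^ r - C c)) {A : Matrix (Fin n) (Fin n) F} (hA : A ^ r = c • 1)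
    {W : Submodule F (Fin n → F)} (hW : Inv (Matrix.toLinAlgEquiv' A) W) : r ∣ finrank F W := by
  have hz : aeval (Matrix.toLinAlgEquiv' A) (X ^ r - C c) = 0 := by
    rw [aeval_toLin]
    have : aeval A (X ^ r - C c) = 0 := by
      rw [map_sub, map_pow, aeval_X, hA, aeval_C, Algebra.algebraMap_eq_smul_one, sub_self]
    rw [this, map_zero]
  have h1 := natDegree_dvd_finrank hirr ((Matrix.toLinAlgEquiv' A).restrict hW) (by
    apply LinearMap.ext
    intro u
    apply Subtype.ext
    rw [aeval_restrict _ hW, hz]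
    rfl)
  rwa [natDegree_X_pow_sub_C] at h1

end aux

set_option maxHeartbeats 2000000 in

/-- Elements of prime order of PSL_n(q) with no fixed `m`-space. Here `T = PSL_n(F)` for a field `F` with `q = p^f` elements (`n ≥ 2`, `(n, q) ≠ (2, 2), (2, 3)`); an element of `T` of prime order `r` is represented by a matrix `x` of determinant 1 with `x^r` scalar and `x` not scalar; `i` denotes the multiplicative order of `q` modulo `r` (when `r ≠ p`), and `(a)_r` the `r`-part of `a`. Let `1 ≤ m ≤ n/2` and let `r` be a prime dividing the number of `m`-dimensional subspaces of `F^n`. Then every element of `T` of order `r` fixes some `m`-dimensional subspace (the action on `m`-spaces is `r`-elusive) if and only if `r ≠ p` and either (i) `i = 1` and (`r ∣ m`, or `(q−1)_r ≥ (n)_r` where in addition `q ≡ 1 (mod 4)` is required when `r = 2` and `n` is even), or (ii) `2 ≤ i ≤ m` and `n mod i ≥ m mod i`. -/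
theorem result {F : Type*} [Field F] [Fintype F] {p : ℕ} [Fact p.Prime] [CharP F p] {q : ℕ} (hq : Fintype.card F = q)
    (n m : ℕ) (hn : 2 ≤ n) (hT : (n, q) ≠ (2, 2) ∧ (n, q) ≠ (2, 3)) (hm : 1 ≤ m) (hmn : 2 * m ≤ n)
    (r : ℕ) [Fact r.Prime] (hrΩ : r ∣ Nat.card {W : Submodule F (Fin n → F) // Module.finrank F ↥W = m}) :
    (∀ x : Matrix.SpecialLinearGroup (Fin n) F,
      (∃ c : F, ((x ^ r : Matrix.SpecialLinearGroup (Fin n) F) : Matrix (Fin n) (Fin n) F) = c • (1 : Matrix (Fin n) (Fin n) F)) →
      (∀ c : F, (x : Matrix (Fin n) (Fin n) F) ≠ c • (1 : Matrix (Fin n) (Fin n) F)) →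
      ∃ W : Submodule F (Fin n → F), Module.finrank F ↥W = m ∧ W.map (Matrix.toLin' (x : Matrix (Fin n) (Fin n) F)) ≤ W) ↔
    (r ≠ p ∧
      ((orderOf (q : ZMod r) = 1 ∧ (r ∣ m ∨ (padicValNat r n ≤ padicValNat r (q - 1) ∧ (r = 2 → Even n → q % 4 = 1)))) ∨
       (2 ≤ orderOf (q : ZMod r) ∧ orderOf (q : ZMod r) ≤ m ∧ m % orderOf (q : ZMod r) ≤ n % orderOf (q : ZMod r)))) := by
    classical
  subst hq
  have hr : r.Prime := Fact.out
  have hpp : p.Prime := Fact.out
  have hmle : m ≤ n := by omega
  have hq2 : 1 < Fintype.card F := Fintype.one_lt_card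
  have hq0 : 0 < Fintype.card F := Fintype.card_pos
  have hn0 : 0 < n := by omega
  haveI : Nonempty (Fin n) := ⟨⟨0, hn0⟩⟩
  obtain ⟨kk, hkk0, hkk⟩ := FiniteField.card F p
  have hpq : p ∣ Fintype.card F := by
    rw [hkk]
    exact dvd_pow_self p kk.pos.ne'
  have hrp : r ≠ p := by
    rintro rfl
    exact not_char_dvd_count hr hpq n m hmle hrΩ
  have hrq : ¬ r ∣ Fintype.card F := by
    intro h
    rw [hkk] at h
    exact hrp ((Nat.prime_dvd_prime_iff_eq hr hpp).mp (hr.dvd_of_dvd_pow h))
  have hi0 : 0 < orderOf ((Fintype.card F : ℕ) : ZMod r) := order_pos hrq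
  have hone : orderOf ((Fintype.card F : ℕ) : ZMod r) = 1 ↔ r ∣ Fintype.card F - 1 := by
    rw [orderOf_eq_one_iff, ← pow_one ((Fintype.card F : ℕ) : ZMod r), pow_eq_one_iff_dvd hq0, pow_one]
  constructor
  · intro hall
    refine ⟨hrp, ?_⟩
    by_cases hi1 : orderOf ((Fintype.card F : ℕ) : ZMod r) = 1
    · left
      refine ⟨hi1, ?_⟩
      by_contra hne
      obtain ⟨hrm, hcond⟩ := not_or.mp hne
      obtain ⟨hrn, c, hc, hdet⟩ := exists_nonpower hn0.ne' hrq (hone.mp hi1) hcond
      have hirr := X_pow_sub_C_irreducible_of_prime hr hc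
      obtain ⟨X₀, h1, h2⟩ := exists_irr_model hr.pos hrn hirr
      let x : Matrix.SpecialLinearGroup (Fin n) F := ⟨X₀, by rw [h2, hdet]⟩
      obtain ⟨W, hW, hinv⟩ := hall x ⟨c, by rw [Matrix.SpecialLinearGroup.coe_pow]; exact h1⟩ (by
        intro z hz
        have hz' : X₀ = z • 1 := hz
        apply hc z
        rw [hz', _root_.smul_pow, one_pow] at h1
        have h3 := congrFun (congrFun h1 ⟨0, hn0⟩) ⟨0, hn0⟩
        simpa using h3)
      apply hrm
      rw [← hW]
      exact dvd_of_inv hirr h1 (inv_iff.mpr hinv)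
    · right
      have hrq1 : ¬ r ∣ Fintype.card F - 1 := fun h => hi1 (hone.mpr h)
      set i := orderOf ((Fintype.card F : ℕ) : ZMod r) with hidef
      have hi2 : 2 ≤ i := by omega
      by_cases hk : m % i ≤ n % i
      · refine ⟨hi2, ?_, hk⟩
        by_contra him
        push Not at him
        rw [Nat.mod_eq_of_lt him] at hk
        exact not_dvd_count hrq n m hmle him hk hrΩ
      · exfalso
        have ht : 0 < n / i := by
          by_contra h0
          have h1 : n / i = 0 := Nat.eq_zero_of_not_pos h0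
          have h2 : n < i := by
            rcases Nat.div_eq_zero_iff.mp h1 with h3 | h3
            · omega
            · exact h3
          rw [Nat.mod_eq_of_lt h2] at hk
          have := Nat.mod_le m i
          omega
        obtain ⟨X₀, f, hdet, hXr, hf, hfd, hz, hcop, hker, hk'⟩ := exists_block_model (n := n) (t := n / i) (k := n % i) hrq hrq1 (Nat.div_add_mod n i).symm ht
        rw [← hidef] at hfd hker
        let x : Matrix.SpecialLinearGroup (Fin n) F := ⟨X₀, hdet⟩
        obtain ⟨W, hW, hinv⟩ := hall x ⟨1, by rw [Matrix.SpecialLinearGroup.coe_pow, one_smul]; exact hXr⟩ (by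
          intro z hz
          have hz' : X₀ = z • 1 := hz
          have hpos : 0 < i * (n / i) := Nat.mul_pos hi0 ht
          have hne : LinearMap.ker (Matrix.toLin' (aeval X₀ f)) ≠ ⊥ := by
            intro h
            rw [h, finrank_bot] at hker
            omega
          obtain ⟨v, hv, hv0⟩ := (Submodule.ne_bot_iff _).mp hne
          have hf1 : aeval (z • (1 : Matrix (Fin n) (Fin n) F)) f = f.eval z • 1 := by
            have h3 : aeval (algebraMap F (Matrix (Fin n) (Fin n) F) z) f = algebraMap F _ (aeval z f) := aeval_algebraMap_apply _ z f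
            rw [Algebra.algebraMap_eq_smul_one, coe_aeval_eq_eval, Algebra.algebraMap_eq_smul_one] at h3
            exact h3
          rw [LinearMap.mem_ker, Matrix.toLin'_apply, hz', hf1, Matrix.smul_mulVec, Matrix.one_mulVec] at hv
          have hroot : f.eval z = 0 := (smul_eq_zero.mp hv).resolve_right hv0
          have hdeg := Polynomial.degree_eq_one_of_irreducible_of_root hf hroot
          have h1 : f.natDegree = 1 := natDegree_eq_of_degree_eq_some hdeg
          omega)
        have hT : aeval (Matrix.toLinAlgEquiv' X₀) ((X - C (1 : F)) * f) = 0 := by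
          rw [aeval_toLin, hz, map_zero]
        obtain ⟨a, b, h1, h2⟩ := dim_split hf hcop hT (inv_iff.mpr hinv)
        rw [aeval_toLin] at h2
        rw [hW, hfd] at h1
        have hlt := Nat.mod_lt n hi0
        apply hk
        have h3 : a < i := by omega
        rw [h1, Nat.add_mul_mod_self_right, Nat.mod_eq_of_lt h3]
        omega
  · rintro ⟨-, h⟩ x ⟨c, hc⟩ -
    set A : Matrix (Fin n) (Fin n) F := (x : Matrix (Fin n) (Fin n) F) with hAdef
    have hA : A ^ r = c • 1 := by
      rw [← hc, Matrix.SpecialLinearGroup.coe_pow]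
    have hdetA : A.det = 1 := x.2
    have hc0 : c ≠ 0 := by
      rintro rfl
      have h3 := congrArg Matrix.det hA
      rw [Matrix.det_pow, hdetA, zero_smul, Matrix.det_zero] at h3
      simp at h3
    by_cases hpow : ∃ c' : F, c' ^ r = c
    · obtain ⟨c', hc'⟩ := hpow
      have hc'0 : c' ≠ 0 := by
        rintro rfl
        rw [zero_pow hr.ne_zero] at hc'
        exact hc0 hc'.symm
      have hT : (c'⁻¹ • A) ^ r = 1 := by
        rw [_root_.smul_pow, hA, smul_smul, inv_pow, hc', inv_mul_cancel₀ hc0, one_smul]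
      have hcases : orderOf ((Fintype.card F : ℕ) : ZMod r) = 1 ∨ m % orderOf ((Fintype.card F : ℕ) : ZMod r) ≤ n % orderOf ((Fintype.card F : ℕ) : ZMod r) := by
        rcases h with ⟨h1, -⟩ | ⟨-, -, h2⟩
        · exact Or.inl h1
        · exact Or.inr h2
      obtain ⟨W, hW, hinv⟩ := exists_fixed_power hrq hmle _ hT hcases
      refine ⟨W, hW, inv_iff.mp (inv_unsmul (inv_ne_zero hc'0) hinv)⟩
    · push Not at hpow
      have hirr := X_pow_sub_C_irreducible_of_prime hr hpow
      have hi1 : orderOf ((Fintype.card F : ℕ) : ZMod r) = 1 := by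
        by_contra hne
        have hrq1 : ¬ r ∣ Fintype.card F - 1 := fun h' => hne (hone.mpr h')
        obtain ⟨β, -, hβ⟩ := exists_root hr hrq1 hc0
        exact hpow β hβ
      rcases h with ⟨-, hrm | hcond⟩ | ⟨h2, -⟩
      · obtain ⟨W, hW, hinv⟩ := exists_fixed_irr hr.pos hrm hmle hirr A hA
        exact ⟨W, hW, inv_iff.mp hinv⟩
      · exfalso
        obtain ⟨hv, h2⟩ := hcond
        obtain ⟨hrn, hdet⟩ := det_irr hr.pos hirr hA
        rw [hdetA] at hdet
        have he0 : (-1 : F) ^ r * (-c) ≠ 0 := mul_ne_zero (pow_ne_zero _ (by simp)) (neg_ne_zero.mpr hc0)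
        have h3 := pow_one_of_val hn0.ne' hrn (hone.mp hi1) hv he0 hdet.symm
        obtain ⟨y, hy⟩ := exists_root_of_pow hr (hone.mp hi1) he0 h3
        by_cases hr2 : r = 2
        · subst hr2
          have hq4 := h2 rfl (even_iff_two_dvd.mpr hrn)
          have hsq : IsSquare (-1 : F) := by
            rw [FiniteField.isSquare_neg_one_iff]
            omega
          obtain ⟨s, hs⟩ := hsq
          apply hpow (s * y)
          rw [mul_pow, hy, pow_two s, ← hs]
          ring
        · have hodd : Odd r := hr.odd_of_ne_two hr2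
          apply hpow y
          rw [hy, hodd.neg_one_pow]
          ring
      · omega

end Cfsg.Agent.S5949
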