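import Cfsg.Statements.S5950
import Cfsg.Agent.Lib.ClassMax.EluCompl
import Cfsg.Agent.S5949

set_option autoImplicit false
open scoped MatrixGroups
open Cfsg

namespace Cfsg.Agent.S5950

open Module Matrix Polynomial Cfsg.Agent.Lib.ClassMax.EluCompl

set_option maxHeartbeats 1000000 in

/-- Elements of prime order of PSL_n(q) fixing no decomposition `F^n = U ⊕ W` with `dim U = m`. Here `T = PSL_n(F)` for a field `F` with `q = p^f` elements (`n ≥ 2`, `(n, q) ≠ (2, 2), (2, 3)`); an element of `T` of prime order `r` is represented by a matrix `x` of determinant 1 with `x^r` scalar and `x` not scalar; `i` denotes the multiplicative order of `q` modulo `r` (when `r ≠ p`), and `(a)_r` the `r`-part of `a`. Let `n ≥ 3`, `1 ≤ m < n/2`, and let `r` be a prime dividing the number of such decompositions (unordered pairs `{U, W}` of complementary subspaces with `dim U = m`; since `m ≠ n − m` these are the ordered pairs with `dim U = m`). Then every element of `T` of order `r` fixes such a pair (fixes both `U` and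 `W` for some complementary `U, W` with `dim U = m`) if and only if one of: (i) `r = p > 2` and every partition of `n` into parts of size at most `p` contains, as a sub-multiset, a partition of `m`; (ii) `r = p = 2` and `n` is odd or `m` is even; (iii) `r ≠ p`, `i = 1`, and `r ∣ m` or `(q−1)_r ≥ (n)_r` (with `q ≡ 1 (mod 4)` required when `r = 2` and `n` is even); (iv) `r ≠ p`, `2 ≤ i ≤ m` and `n mod i ≥ m mod i`. -/
theorem result {F : Type*} [Field F] [Fintype F] {p : ℕ} [Fact p.Prime] [CharP F p] {q : ℕ} (hq : Fintype.card F = q)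
    (n m : ℕ) (hn : 3 ≤ n) (hm : 1 ≤ m) (hmn : 2 * m < n)
    (r : ℕ) [Fact r.Prime]
    (hrΩ : r ∣ Nat.card {P : Submodule F (Fin n → F) × Submodule F (Fin n → F) // IsCompl P.1 P.2 ∧ Module.finrank F ↥P.1 = m}) :
    (∀ x : Matrix.SpecialLinearGroup (Fin n) F,
      (∃ c : F, ((x ^ r : Matrix.SpecialLinearGroup (Fin n) F) : Matrix (Fin n) (Fin n) F) = c • (1 : Matrix (Fin n) (Fin n) F)) →
      (∀ c : F, (x : Matrix (Fin n) (Fin n) F) ≠ c • (1 : Matrix (Fin n) (Fin n) F)) →
      ∃ U W : Submodule F (Fin n → F), IsCompl U W ∧ Module.finrank F ↥U = m ∧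
        U.map (Matrix.toLin' (x : Matrix (Fin n) (Fin n) F)) ≤ U ∧ W.map (Matrix.toLin' (x : Matrix (Fin n) (Fin n) F)) ≤ W) ↔
    ((r = p ∧ 2 < p ∧ (∀ μ : Multiset ℕ, (∀ a ∈ μ, 0 < a ∧ a ≤ p) → μ.sum = n → ∃ ν : Multiset ℕ, ν ≤ μ ∧ ν.sum = m)) ∨
     (r = p ∧ p = 2 ∧ (Odd n ∨ Even m)) ∨
     (r ≠ p ∧
      ((orderOf (q : ZMod r) = 1 ∧ (r ∣ m ∨ (padicValNat r n ≤ padicValNat r (q - 1) ∧ (r = 2 → Even n → q % 4 = 1)))) ∨
       (2 ≤ orderOf (q : ZMod r) ∧ orderOf (q : ZMod r) ≤ m ∧ m % orderOf (q : ZMod r) ≤ n % orderOf (q : ZMod r))))) := by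
    classical
  subst hq
  have hr : r.Prime := Fact.out
  have hpp : p.Prime := Fact.out
  have hmle : m ≤ n := by omega
  have hn0 : 0 < n := by omega
  have hq2 : 1 < Fintype.card F := Fintype.one_lt_card
  haveI : Nonempty (Fin n) := ⟨⟨0, hn0⟩⟩
  obtain ⟨kk, hkk0, hkk⟩ := FiniteField.card F p
  rw [card_pairs (F := F) n m hmle] at hrΩ
  have hscalar : ∀ (x : Matrix.SpecialLinearGroup (Fin n) F) (c : F), ((x ^ r : Matrix.SpecialLinearGroup (Fin n) F) : Matrix (Fin n) (Fin n) F) = c • (1 : Matrix (Fin n) (Fin n) F) →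
      (x : Matrix (Fin n) (Fin n) F) ^ r = c • 1 ∧ c ≠ 0 := by
    intro x c hc
    have hA : (x : Matrix (Fin n) (Fin n) F) ^ r = c • 1 := by
      rw [← hc, Matrix.SpecialLinearGroup.coe_pow]
    refine ⟨hA, ?_⟩
    rintro rfl
    have h3 := congrArg Matrix.det hA
    rw [Matrix.det_pow, x.2, zero_smul, Matrix.det_zero] at h3
    simp at h3
  by_cases hrp : r = p
  · subst hrp
    constructor
    · intro hall
      have hsub := sub_of_all (p := r) hn0 hmle hall
      by_cases h2 : r = 2
      · right; left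
        refine ⟨rfl, h2, ?_⟩
        by_contra hcon
        push Not at hcon
        obtain ⟨h3, h4⟩ := hcon
        have hnev : Even n := Nat.not_odd_iff_even.mp h3
        obtain ⟨s, hs⟩ := hnev
        obtain ⟨ν, h5, h6⟩ := hsub (Multiset.replicate s 2) (by
            intro a ha
            rw [Multiset.eq_of_mem_replicate ha, h2]
            omega) (by simp; omega)
        obtain ⟨k, -, rfl⟩ := Multiset.le_replicate_iff.mp h5
        apply h4
        rw [← h6]
        simp
      · left
        have h3 : 2 ≤ r := hr.two_le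
        exact ⟨rfl, by omega, fun μ h4 h5 => hsub μ h4 h5⟩
    · intro h x ⟨c, hc⟩ _
      obtain ⟨hA, hc0⟩ := hscalar x c hc
      obtain ⟨μ, h1, h2, h3⟩ := Cfsg.Agent.Lib.ClassMax.EluCompl.jordan_pair hn0 (x : Matrix (Fin n) (Fin n) F) hA hc0
      have hν : ∃ ν ≤ μ, ν.sum = m := by
        rcases h with ⟨-, -, h4⟩ | ⟨-, h4, h5⟩ | ⟨h4, -⟩
        · exact h4 μ h1 h2
        · apply sub_of_two μ
          · intro a ha
            have := h1 a ha
            rw [h4] at this
            exact this
          · rw [h2]; exact hmle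
          · rw [h2]; exact h5
        · exact absurd rfl h4
      obtain ⟨ν, h4, h5⟩ := hν
      obtain ⟨U, W, g1, g2, g3, g4⟩ := h3 ν h4
      exact ⟨U, W, g1, by rw [g2, h5], g3, g4⟩
  · have hrq : ¬ r ∣ Fintype.card F := by
      intro h
      rw [hkk] at h
      exact hrp ((Nat.prime_dvd_prime_iff_eq hr hpp).mp (hr.dvd_of_dvd_pow h))
    have hrN : r ∣ Nat.card {W : Submodule F (Fin n → F) // finrank F W = m} := by
      rcases hr.dvd_mul.mp hrΩ with h | h
      · exact h
      · exact absurd (hr.dvd_of_dvd_pow h) hrq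
    have key := Cfsg.Agent.S5949.result rfl n m (by omega) (by
      constructor
      · intro h
        have := congrArg Prod.fst h
        simp at this
        omega
      · intro h
        have := congrArg Prod.fst h
        simp at this
        omega) hm hmn.le r hrN
    constructor
    · intro hall
      right; right
      refine ⟨hrp, (key.mp ?_).2⟩
      intro x hx hns
      obtain ⟨U, W, -, h1, h2, -⟩ := hall x hx hns
      exact ⟨U, h1, h2⟩
    · rintro (⟨h, -⟩ | ⟨h, -⟩ | h)
      · exact absurd h hrp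
      · exact absurd h hrp
      · intro x hx hns
        obtain ⟨U, h1, h2⟩ := key.mpr h x hx hns
        obtain ⟨c, hc⟩ := hx
        obtain ⟨hA, hc0⟩ := hscalar x c hc
        have hrF : (r : F) ≠ 0 := by
          intro h0
          have h3 : p ∣ r := (CharP.cast_eq_zero_iff F p r).mp h0
          exact hrp ((Nat.prime_dvd_prime_iff_eq hpp hr).mp h3).symm
        obtain ⟨W, h3, h4⟩ := exists_invariant_compl hrF (x : Matrix (Fin n) (Fin n) F) hA hc0 h2
        exact ⟨U, W, h3, h1, h2, h4⟩

end Cfsg.Agent.S5950
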