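import Cfsg.Statements.S5951
import Cfsg.Agent.Lib.ClassMax.EluFix
import Cfsg.Agent.Lib.ClassMax.EluFlag
import Cfsg.Agent.S5949

set_option autoImplicit false
open scoped MatrixGroups
open Cfsg

namespace Cfsg.Agent.S5951

open Module Matrix Polynomial Cfsg.Agent.Lib.ClassMax.EluFix Cfsg.Agent.Lib.ClassMax.EluBlock Cfsg.Agent.Lib.ClassMax.EluOrder Cfsg.Agent.Lib.ClassMax.EluConj Cfsg.Agent.Lib.ClassMax.EluFlag Cfsg.Agent.S5949

set_option maxHeartbeats 2000000 in

/-- Elements of prime order of PSL_n(q) fixing no pair of subspaces `U < W` with `dim U = m`, `dim W = n − m`. Here `T = PSL_n(F)` for a field `F` with `q = p^f` elements (`n ≥ 2`, `(n, q) ≠ (2, 2), (2, 3)`); an element of `T` of prime order `r` is represented by a matrix `x` of determinant 1 with `x^r` scalar and `x` not scalar; `i` denotes the multiplicative order of `q` modulo `r` (when `r ≠ p`), and `(a)_r` the `r`-part of `a`. Let `1 ≤ m < n/2` and let `r` be a prime dividing the number of such pairs. Then every element of `T` of order `r` fixes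 such a pair (both `U` and `W`) if and only if `r ≠ p` and either (i) `i = 1` and (`r ∣ m`, or `(q−1)_r ≥ (n)_r` with `q ≡ 1 (mod 4)` required when `r = 2` and `n` is even), or (ii) `2 ≤ i ≤ m` and `n mod i ≥ 2 (m mod i)`. -/
theorem result {F : Type*} [Field F] [Fintype F] {p : ℕ} [Fact p.Prime] [CharP F p] {q : ℕ} (hq : Fintype.card F = q)
    (n m : ℕ) (hn : 2 ≤ n) (hT : (n, q) ≠ (2, 2) ∧ (n, q) ≠ (2, 3)) (hm : 1 ≤ m) (hmn : 2 * m < n)
    (r : ℕ) [Fact r.Prime]
    (hrΩ : r ∣ Nat.card {P : Submodule F (Fin n → F) × Submodule F (Fin n → F) //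
        P.1 ≤ P.2 ∧ Module.finrank F ↥P.1 = m ∧ Module.finrank F ↥P.2 = n - m}) :
    (∀ x : Matrix.SpecialLinearGroup (Fin n) F,
      (∃ c : F, ((x ^ r : Matrix.SpecialLinearGroup (Fin n) F) : Matrix (Fin n) (Fin n) F) = c • (1 : Matrix (Fin n) (Fin n) F)) →
      (∀ c : F, (x : Matrix (Fin n) (Fin n) F) ≠ c • (1 : Matrix (Fin n) (Fin n) F)) →
      ∃ U W : Submodule F (Fin n → F), U ≤ W ∧ Module.finrank F ↥U = m ∧ Module.finrank F ↥W = n - m ∧
        U.map (Matrix.toLin' (x : Matrix (Fin n) (Fin n) F)) ≤ U ∧ W.map (Matrix.toLin' (x : Matrix (Fin n) (Fin n) F)) ≤ W) ↔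
    (r ≠ p ∧
      ((orderOf (q : ZMod r) = 1 ∧ (r ∣ m ∨ (padicValNat r n ≤ padicValNat r (q - 1) ∧ (r = 2 → Even n → q % 4 = 1)))) ∨
       (2 ≤ orderOf (q : ZMod r) ∧ orderOf (q : ZMod r) ≤ m ∧ 2 * (m % orderOf (q : ZMod r)) ≤ n % orderOf (q : ZMod r)))) := by
    classical
  subst hq
  have hr : r.Prime := Fact.out
  have hpp : p.Prime := Fact.out
  have hmle : m ≤ n := by omega
  have hq2 : 1 < Fintype.card F := Fintype.one_lt_card
  have hq0 : 0 < Fintype.card F := Fintype.card_pos
  have hn0 : 0 < n := by omega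
  haveI : Nonempty (Fin n) := ⟨⟨0, hn0⟩⟩
  obtain ⟨kk, hkk0, hkk⟩ := FiniteField.card F p
  have hpq : p ∣ Fintype.card F := by
    rw [hkk]
    exact dvd_pow_self p kk.pos.ne'
  have hcount := card_flags (F := F) n m (n - m)
  rw [count_comm (F := F) n m hmle] at hcount
  rw [hcount] at hrΩ
  have hrp : r ≠ p := by
    rintro rfl
    rcases hr.dvd_mul.mp hrΩ with h | h
    · exact not_char_dvd_count hr hpq n m hmle h
    · exact not_char_dvd_count hr hpq (n - m) m (by omega) h
  have hrq : ¬ r ∣ Fintype.card F := by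
    intro h
    rw [hkk] at h
    exact hrp ((Nat.prime_dvd_prime_iff_eq hr hpp).mp (hr.dvd_of_dvd_pow h))
  have hi0 : 0 < orderOf ((Fintype.card F : ℕ) : ZMod r) := order_pos hrq
  have hone : orderOf ((Fintype.card F : ℕ) : ZMod r) = 1 ↔ r ∣ Fintype.card F - 1 := by
    rw [orderOf_eq_one_iff, ← pow_one ((Fintype.card F : ℕ) : ZMod r), pow_eq_one_iff_dvd hq0, pow_one]
  constructor
  · intro hall
    refine ⟨hrp, ?_⟩
    by_cases hi1 : orderOf ((Fintype.card F : ℕ) : ZMod r) = 1
    · left
      refine ⟨hi1, ?_⟩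
      by_contra hne
      obtain ⟨hrm, hcond⟩ := not_or.mp hne
      obtain ⟨hrn, c, hc, hdet⟩ := exists_nonpower hn0.ne' hrq (hone.mp hi1) hcond
      have hirr := X_pow_sub_C_irreducible_of_prime hr hc
      obtain ⟨X₀, h1, h2⟩ := exists_irr_model hr.pos hrn hirr
      let x : Matrix.SpecialLinearGroup (Fin n) F := ⟨X₀, by rw [h2, hdet]⟩
      obtain ⟨U, W, -, hU, -, hinv, -⟩ := hall x ⟨c, by rw [Matrix.SpecialLinearGroup.coe_pow]; exact h1⟩ (by
        intro z hz
        have hz' : X₀ = z • 1 := hz
        apply hc z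
        rw [hz', _root_.smul_pow, one_pow] at h1
        have h3 := congrFun (congrFun h1 ⟨0, hn0⟩) ⟨0, hn0⟩
        simpa using h3)
      apply hrm
      rw [← hU]
      exact dvd_of_inv hirr h1 (inv_iff.mpr hinv)
    · right
      have hrq1 : ¬ r ∣ Fintype.card F - 1 := fun h => hi1 (hone.mpr h)
      set i := orderOf ((Fintype.card F : ℕ) : ZMod r) with hidef
      have hi2 : 2 ≤ i := by omega
      by_cases hk : 2 * (m % i) ≤ n % i
      · refine ⟨hi2, ?_, hk⟩
        by_contra him
        push Not at him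
        rw [Nat.mod_eq_of_lt him] at hk
        have hmk : m ≤ n % i := by omega
        have hsub : (n - m) % i = n % i - m := by
          have h1 := Nat.div_add_mod n i
          have h2 : n - m = (n % i - m) + i * (n / i) := by omega
          rw [h2, Nat.add_mul_mod_self_left, Nat.mod_eq_of_lt]
          have := Nat.mod_lt n hi0
          omega
        rcases hr.dvd_mul.mp hrΩ with h | h
        · exact not_dvd_count hrq n m hmle him hmk h
        · refine not_dvd_count hrq (n - m) m (by omega) him ?_ h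
          rw [← hidef, hsub]
          omega
      · exfalso
        have ht : 0 < n / i := by
          by_contra h0
          have h1 : n / i = 0 := Nat.eq_zero_of_not_pos h0
          have h2 : n < i := by
            rcases Nat.div_eq_zero_iff.mp h1 with h3 | h3
            · omega
            · exact h3
          rw [Nat.mod_eq_of_lt h2, Nat.mod_eq_of_lt (by omega : m < i)] at hk
          omega
        obtain ⟨X₀, f, hdet, hXr, hf, hfd, hz, hcop, hker, hk'⟩ := exists_block_model (n := n) (t := n / i) (k := n % i) hrq hrq1 (Nat.div_add_mod n i).symm ht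
        rw [← hidef] at hfd hker
        let x : Matrix.SpecialLinearGroup (Fin n) F := ⟨X₀, hdet⟩
        obtain ⟨U, W, hUW, hU, hW, hinvU, hinvW⟩ := hall x ⟨1, by rw [Matrix.SpecialLinearGroup.coe_pow, one_smul]; exact hXr⟩ (by
          intro z hz
          have hz' : X₀ = z • 1 := hz
          have hpos : 0 < i * (n / i) := Nat.mul_pos hi0 ht
          have hne : LinearMap.ker (Matrix.toLin' (aeval X₀ f)) ≠ ⊥ := by
            intro h
            rw [h, finrank_bot] at hker
            omega
          obtain ⟨v, hv, hv0⟩ := (Submodule.ne_bot_iff _).mp hne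
          have hf1 : aeval (z • (1 : Matrix (Fin n) (Fin n) F)) f = f.eval z • 1 := by
            have h3 : aeval (algebraMap F (Matrix (Fin n) (Fin n) F) z) f = algebraMap F _ (aeval z f) := aeval_algebraMap_apply _ z f
            rw [Algebra.algebraMap_eq_smul_one, coe_aeval_eq_eval, Algebra.algebraMap_eq_smul_one] at h3
            exact h3
          rw [LinearMap.mem_ker, Matrix.toLin'_apply, hz', hf1, Matrix.smul_mulVec, Matrix.one_mulVec] at hv
          have hroot : f.eval z = 0 := (smul_eq_zero.mp hv).resolve_right hv0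
          have hdeg := Polynomial.degree_eq_one_of_irreducible_of_root hf hroot
          have h1 : f.natDegree = 1 := natDegree_eq_of_degree_eq_some hdeg
          omega)
        have hT : aeval (Matrix.toLinAlgEquiv' X₀) ((X - C (1 : F)) * f) = 0 := by
          rw [aeval_toLin, hz, map_zero]
        obtain ⟨b, h1⟩ := dim_split' hf hcop hT (inv_iff.mpr hinvU)
        obtain ⟨b', h2⟩ := dim_split' hf hcop hT (inv_iff.mpr hinvW)
        have hKU : finrank F ((U ⊓ LinearMap.ker (aeval (Matrix.toLinAlgEquiv' X₀) (X - C (1 : F))) : Submodule F (Fin n → F))) ≤ finrank F ((W ⊓ LinearMap.ker (aeval (Matrix.toLinAlgEquiv' X₀) (X - C (1 : F))) : Submodule F (Fin n → F))) :=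
          Submodule.finrank_mono (inf_le_inf_right _ hUW)
        have hKW : finrank F ((W ⊓ LinearMap.ker (aeval (Matrix.toLinAlgEquiv' X₀) (X - C (1 : F))) : Submodule F (Fin n → F))) ≤ finrank F (LinearMap.ker (aeval (Matrix.toLinAlgEquiv' X₀) (X - C (1 : F)))) :=
          Submodule.finrank_mono inf_le_right
        rw [aeval_toLin] at hKU hKW h1 h2
        rw [hU, hfd] at h1
        rw [hW, hfd] at h2
        generalize finrank F ((U ⊓ LinearMap.ker (Matrix.toLin' (aeval X₀ (X - C (1 : F)))) : Submodule F (Fin n → F))) = a at hKU h1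
        generalize finrank F ((W ⊓ LinearMap.ker (Matrix.toLin' (aeval X₀ (X - C (1 : F)))) : Submodule F (Fin n → F))) = a' at hKU hKW h2
        have hlt := Nat.mod_lt n hi0
        have ha : a' ≤ n % i := hKW.trans hk'
        have hm' : m % i = a := by
          rw [h1, Nat.add_mul_mod_self_right, Nat.mod_eq_of_lt (by omega)]
        have hnsum : n = (a + a') + (b + b') * i := by
          have h5 : n = m + (n - m) := by omega
          rw [add_mul]
          omega
        apply hk
        rw [hm']
        have hkk' : (a + a') % i = n % i := by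
          conv_rhs => rw [hnsum, Nat.add_mul_mod_self_right]
        by_cases hlt2 : a + a' < i
        · rw [Nat.mod_eq_of_lt hlt2] at hkk'
          omega
        · exfalso
          rw [Nat.mod_eq_sub_mod (by omega), Nat.mod_eq_of_lt (by omega)] at hkk'
          omega
  · rintro ⟨-, h⟩ x ⟨c, hc⟩ -
    set A : Matrix (Fin n) (Fin n) F := (x : Matrix (Fin n) (Fin n) F) with hAdef
    have hA : A ^ r = c • 1 := by
      rw [← hc, Matrix.SpecialLinearGroup.coe_pow]
    have hdetA : A.det = 1 := x.2
    have hc0 : c ≠ 0 := by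
      rintro rfl
      have h3 := congrArg Matrix.det hA
      rw [Matrix.det_pow, hdetA, zero_smul, Matrix.det_zero] at h3
      simp at h3
    by_cases hpow : ∃ c' : F, c' ^ r = c
    · obtain ⟨c', hc'⟩ := hpow
      have hc'0 : c' ≠ 0 := by
        rintro rfl
        rw [zero_pow hr.ne_zero] at hc'
        exact hc0 hc'.symm
      have hT : (c'⁻¹ • A) ^ r = 1 := by
        rw [_root_.smul_pow, hA, smul_smul, inv_pow, hc', inv_mul_cancel₀ hc0, one_smul]
      have hcases : orderOf ((Fintype.card F : ℕ) : ZMod r) = 1 ∨ 2 * (m % orderOf ((Fintype.card F : ℕ) : ZMod r)) ≤ n % orderOf ((Fintype.card F : ℕ) : ZMod r) := by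
        rcases h with ⟨h1, -⟩ | ⟨-, -, h2⟩
        · exact Or.inl h1
        · exact Or.inr h2
      obtain ⟨U, W, h1, h2, h3, h4, h5⟩ := exists_flag_power hrq hmn _ hT hcases
      exact ⟨U, W, h1, h2, h3, inv_iff.mp (inv_unsmul (inv_ne_zero hc'0) h4), inv_iff.mp (inv_unsmul (inv_ne_zero hc'0) h5)⟩
    · push Not at hpow
      have hirr := X_pow_sub_C_irreducible_of_prime hr hpow
      have hi1 : orderOf ((Fintype.card F : ℕ) : ZMod r) = 1 := by
        by_contra hne
        have hrq1 : ¬ r ∣ Fintype.card F - 1 := fun h' => hne (hone.mpr h')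
        obtain ⟨β, -, hβ⟩ := exists_root hr hrq1 hc0
        exact hpow β hβ
      rcases h with ⟨-, hrm | hcond⟩ | ⟨h2, -⟩
      · obtain ⟨hrn, -⟩ := det_irr hr.pos hirr hA
        obtain ⟨U, W, h1, h2, h3, h4, h5⟩ := exists_flag_irr hr.pos hrm hrn hmn hirr A hA
        exact ⟨U, W, h1, h2, h3, inv_iff.mp h4, inv_iff.mp h5⟩
      · exfalso
        obtain ⟨hv, h2⟩ := hcond
        obtain ⟨hrn, hdet⟩ := det_irr hr.pos hirr hA
        rw [hdetA] at hdet
        have he0 : (-1 : F) ^ r * (-c) ≠ 0 := mul_ne_zero (pow_ne_zero _ (by simp)) (neg_ne_zero.mpr hc0)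
        have h3 := pow_one_of_val hn0.ne' hrn (hone.mp hi1) hv he0 hdet.symm
        obtain ⟨y, hy⟩ := exists_root_of_pow hr (hone.mp hi1) he0 h3
        by_cases hr2 : r = 2
        · subst hr2
          have hq4 := h2 rfl (even_iff_two_dvd.mpr hrn)
          have hsq : IsSquare (-1 : F) := by
            rw [FiniteField.isSquare_neg_one_iff]
            omega
          obtain ⟨s, hs⟩ := hsq
          apply hpow (s * y)
          rw [mul_pow, hy, pow_two s, ← hs]
          ring
        · have hodd : Odd r := hr.odd_of_ne_two hr2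
          apply hpow y
          rw [hy, hodd.neg_one_pow]
          ring
      · omega

end Cfsg.Agent.S5951
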