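import Mathlib
import Cfsg.Statements.S5952

set_option autoImplicit false
open Cfsg

namespace Cfsg.Agent.S5952

variable {F V : Type*} [Field F] [AddCommGroup V] [Module F V] [FiniteDimensional F V]

lemma exists_sub_finrank (C : Submodule F V) (k : ℕ) (hk : k ≤ Module.finrank F C) :
    ∃ C' : Submodule F V, C' ≤ C ∧ Module.finrank F C' = k := by
  classical
  obtain ⟨g, hg⟩ := exists_linearIndependent_of_le_finrank (R := F) (M := C) hk
  refine ⟨(Submodule.span F (Set.range g)).map C.subtype, ?_, ?_⟩
  · rintro _ ⟨x, _, rfl⟩
    exact x.2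
  · rw [LinearEquiv.finrank_eq (Submodule.equivMapOfInjective C.subtype C.injective_subtype _).symm,
      finrank_span_eq_card hg]
    simp

/-- Dimension of a sum of some of the members of an independent family with a part of the first. -/
lemma finrank_sup_biSup {s a : ℕ} (C : Submodule F V) (U : Fin s → Submodule F V)
    (hUdim : ∀ j, Module.finrank F ↥(U j) = a)
    (hind : iSupIndep (fun o : Option (Fin s) => o.elim C U))
    (C' : Submodule F V) (hC' : C' ≤ C) (T : Finset (Fin s)) :
    Module.finrank F ↥(C' ⊔ ⨆ j ∈ T, U j) = Module.finrank F C' + T.card * a := by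
  classical
  induction T using Finset.induction_on with
  | empty =>
    have h0 : (⨆ j ∈ (∅ : Finset (Fin s)), U j) = ⊥ := by simp
    rw [h0, sup_bot_eq, Finset.card_empty, zero_mul, add_zero]
  | insert j T hj ih =>
    have h1 : C' ⊔ ⨆ i ∈ insert j T, U i = U j ⊔ (C' ⊔ ⨆ i ∈ T, U i) := by
      rw [Finset.iSup_insert, sup_left_comm]
    have hdisj : Disjoint (U j) (C' ⊔ ⨆ i ∈ T, U i) := by
      have h2 := hind.disjoint_biSup (x := some j) (y := insert none (some '' (T : Set (Fin s)))) (by
        simp only [Set.mem_insert_iff, Set.mem_image, Finset.mem_coe, reduceCtorEq, false_or, Option.some.injEq,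
          exists_eq_right]
        exact hj)
      refine h2.mono_right ?_
      apply sup_le
      · exact hC'.trans (le_iSup₂_of_le (f := fun (i : Option (Fin s)) (_ : i ∈ insert none (some '' (T : Set (Fin s)))) => i.elim C U) none (by simp) le_rfl)
      · apply iSup₂_le
        intro i hi
        exact le_iSup₂_of_le (f := fun (i : Option (Fin s)) (_ : i ∈ insert none (some '' (T : Set (Fin s)))) => i.elim C U) (some i) (by simp [hi]) le_rfl
    have h3 := Submodule.finrank_sup_add_finrank_inf_eq (U j) (C' ⊔ ⨆ i ∈ T, U i)
    rw [hdisj.eq_bot, finrank_bot, add_zero, ih, hUdim] at h3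
    rw [h1, h3, Finset.card_insert_of_notMem hj]
    ring

/-- Invariant subspaces of a sum of the `U j` have dimension a multiple of `a`. -/
lemma dvd_finrank_of_le {s a : ℕ} (f : V →ₗ[F] V) (U : Fin s → Submodule F V)
    (hUinv : ∀ j, (U j).map f ≤ U j) (hUdim : ∀ j, Module.finrank F ↥(U j) = a)
    (hUirr : ∀ j, ∀ W : Submodule F V, W ≤ U j → W.map f ≤ W → W = ⊥ ∨ W = U j)
    (hind : iSupIndep U) (T : Finset (Fin s)) :
    ∀ W : Submodule F V, W ≤ ⨆ j ∈ T, U j → W.map f ≤ W → a ∣ Module.finrank F W := by
  classical
  induction T using Finset.induction_on with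
  | empty =>
    intro W hW _
    simp only [Finset.notMem_empty, iSup_false, iSup_bot, le_bot_iff] at hW
    rw [hW]; simp
  | insert j T hj ih =>
    intro W hW hinv
    set P := ⨆ i ∈ T, U i with hP
    have hPinv : P.map f ≤ P := by
      rw [hP, Submodule.map_iSup]
      apply iSup_le
      intro i
      rw [Submodule.map_iSup]
      apply iSup_le
      intro hi
      exact (hUinv i).trans (le_iSup₂_of_le (f := fun i (_ : i ∈ T) => U i) i hi le_rfl)
    -- `W ⊓ P` has dimension a multiple of `a`
    have h1 : a ∣ Module.finrank F ↥(W ⊓ P) := by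
      apply ih _ inf_le_right
      exact (Submodule.map_inf_le f).trans (inf_le_inf hinv hPinv)
    have hW' : W ≤ U j ⊔ P := by
      rw [Finset.iSup_insert] at hW
      exact hW
    set X := (W ⊔ P) ⊓ U j with hX
    have hXinv : X.map f ≤ X := by
      refine (Submodule.map_inf_le f).trans (inf_le_inf ?_ (hUinv j))
      rw [Submodule.map_sup]
      exact sup_le_sup hinv hPinv
    have hdisj : Disjoint (U j) P := hind.disjoint_biSup (x := j) (y := (T : Set (Fin s))) (by simpa using hj)
    have hmod : W ⊔ P = P ⊔ X := by
      have h2 : (P ⊔ U j) ⊓ (W ⊔ P) = P ⊔ (U j ⊓ (W ⊔ P)) := sup_inf_assoc_of_le _ le_sup_right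
      rw [hX, inf_comm (W ⊔ P), ← h2, inf_eq_right.mpr]
      rw [sup_comm P]
      exact sup_le hW' le_sup_right
    have hPX : P ⊓ X = ⊥ := by
      have : P ⊓ X ≤ P ⊓ U j := inf_le_inf_left _ inf_le_right
      rw [inf_comm P (U j), hdisj.eq_bot] at this
      exact le_bot_iff.mp this
    have h3 := Submodule.finrank_sup_add_finrank_inf_eq W P
    have h4 := Submodule.finrank_sup_add_finrank_inf_eq P X
    rw [hPX, finrank_bot, add_zero, ← hmod] at h4
    have h5 : Module.finrank F W = Module.finrank F ↥(W ⊓ P) + Module.finrank F X := by omega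
    rw [h5]
    refine dvd_add h1 ?_
    rcases hUirr j X inf_le_right hXinv with h6 | h6
    · rw [h6]; simp
    · rw [h6, hUdim]

/-- Which dimensions of invariant subspaces a semisimple linear map has. Let `V` be a finite-dimensional vector space over a field `F` and `f` an invertible semisimple linear map of `V`. Suppose `V` is the internal direct sum of the fixed space `C_V(f)` (the eigenspace for 1) and subspaces `U_1, …, U_s`, each `f`-invariant of dimension `a ≥ 1` on which `f` acts irreducibly (no `f`-invariant subspaces other than 0 and `U_j`). Let `0 < m < dim V` and `ℓ = m mod a`. Then `f` leaves some `m`-dimensional subspace invariant if and only if `dim C_V(f) ≥ m`, or `a ≤ m` and `dim C_V(f) ≥ ℓ`. -/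
theorem result {F V : Type*} [Field F] [AddCommGroup V] [Module F V]
    [FiniteDimensional F V] (f : V →ₗ[F] V) (hf : Function.Bijective f) (hss : Module.End.IsSemisimple f)
    {s a : ℕ} (ha : 1 ≤ a) (U : Fin s → Submodule F V)
    (hUinv : ∀ j, (U j).map f ≤ U j) (hUdim : ∀ j, Module.finrank F ↥(U j) = a)
    (hUirr : ∀ j, ∀ W : Submodule F V, W ≤ U j → W.map f ≤ W → W = ⊥ ∨ W = U j)
    (hdec : DirectSum.IsInternal (fun o : Option (Fin s) => o.elim (Module.End.eigenspace f 1) U))
    (m : ℕ) (hm : 0 < m) (hmV : m < Module.finrank F V) :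
    (∃ W : Submodule F V, Module.finrank F ↥W = m ∧ W.map f ≤ W) ↔
    (m ≤ Module.finrank F ↥(Module.End.eigenspace f 1) ∨
      (a ≤ m ∧ m % a ≤ Module.finrank F ↥(Module.End.eigenspace f 1))) := by
  classical
  set C := Module.End.eigenspace f 1 with hC
  have hCmem : ∀ v, v ∈ C ↔ f v = v := by
    intro v
    rw [hC, Module.End.mem_eigenspace_iff, one_smul]
  have hind := hdec.submodule_iSupIndep
  have htop := hdec.submodule_iSup_eq_top
  have hindU : iSupIndep U := by
    rw [iSupIndep_def] at hind ⊢
    intro j
    refine (hind (some j)).mono_right ?_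
    apply iSup_le
    intro i
    apply iSup_le
    intro hi
    exact le_iSup₂_of_le (f := fun (o : Option (Fin s)) (_ : o ≠ some j) => o.elim C U) (some i)
      (by simpa using hi) le_rfl
  have hsup : C ⊔ ⨆ j, U j = ⊤ := by
    rw [eq_top_iff, ← htop]
    apply iSup_le
    intro o
    cases o with
    | none => exact le_sup_left
    | some j => exact le_sup_of_le_right (le_iSup U j)
  have hdimV : Module.finrank F V = Module.finrank F C + s * a := by
    have h1 := finrank_sup_biSup C U hUdim hind C le_rfl Finset.univ
    have h0 : (⨆ j ∈ (Finset.univ : Finset (Fin s)), U j) = ⨆ j, U j := by simp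
    rw [h0, hsup, finrank_top, Finset.card_univ, Fintype.card_fin] at h1
    exact h1
  constructor
  · rintro ⟨W, hWm, hWinv⟩
    -- rank-nullity for `f - 1` on `W`
    let g : V →ₗ[F] V := f - LinearMap.id
    have hg : ∀ v, g v = f v - v := fun v => rfl
    have hrange : W.map g ≤ ⨆ j ∈ (Finset.univ : Finset (Fin s)), U j := by
      have h1 : ∀ v : V, g v ∈ ⨆ j, U j := by
        intro v
        have hv : v ∈ C ⊔ ⨆ j, U j := by rw [hsup]; trivial
        obtain ⟨c, hc, u, hu, rfl⟩ := Submodule.mem_sup.mp hv
        have hUi : (⨆ j, U j).map f ≤ ⨆ j, U j := by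
          rw [Submodule.map_iSup]
          exact iSup_mono hUinv
        rw [map_add, hg c, (hCmem c).mp hc, sub_self, zero_add, hg u]
        exact Submodule.sub_mem _ (hUi ⟨u, hu, rfl⟩) hu
      rintro _ ⟨w, _, rfl⟩
      simpa using h1 w
    have hinv2 : (W.map g).map f ≤ W.map g := by
      rintro _ ⟨_, ⟨w, hw, rfl⟩, rfl⟩
      refine ⟨f w, hWinv ⟨w, hw, rfl⟩, ?_⟩
      show g (f w) = f (g w)
      rw [hg, hg, map_sub]
    obtain ⟨k, hk⟩ := dvd_finrank_of_le f U hUinv hUdim hUirr hindU Finset.univ _ hrange hinv2
    have hrn := LinearMap.finrank_range_add_finrank_ker (g.domRestrict W)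
    rw [LinearMap.range_domRestrict, hk, hWm] at hrn
    set K' := LinearMap.ker (g.domRestrict W) with hK'
    have hK'C : Module.finrank F K' ≤ Module.finrank F C := by
      let ι : K' →ₗ[F] C :=
        { toFun := fun x => ⟨(x : W), by
            rw [hCmem]
            have h2 : g (x : W) = 0 := x.2
            rw [hg] at h2
            exact sub_eq_zero.mp h2⟩
          map_add' := fun _ _ => rfl
          map_smul' := fun _ _ => rfl }
      apply LinearMap.finrank_le_finrank_of_injective (f := ι)
      intro x y hxy
      apply Subtype.ext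
      apply Subtype.ext
      have h := congrArg (fun z : C => (z : V)) hxy
      exact h
    by_cases hk0 : k = 0
    · left
      rw [hk0, mul_zero, zero_add] at hrn
      omega
    · right
      have hakm : a ≤ m := by
        have : a * 1 ≤ a * k := Nat.mul_le_mul_left a (Nat.one_le_iff_ne_zero.mpr hk0)
        omega
      refine ⟨hakm, ?_⟩
      have : m % a = Module.finrank F K' % a := by
        rw [← hrn, Nat.mul_add_mod]
      rw [this]
      exact (Nat.mod_le _ _).trans hK'C
  · -- construction
    have hconstr : ∀ (C' : Submodule F V) (T : Finset (Fin s)), C' ≤ C →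
        Module.finrank F C' + T.card * a = m →
        ∃ W : Submodule F V, Module.finrank F ↥W = m ∧ W.map f ≤ W := by
      intro C' T hC' hdim
      refine ⟨C' ⊔ ⨆ j ∈ T, U j, ?_, ?_⟩
      · rw [finrank_sup_biSup C U hUdim hind C' hC' T, hdim]
      · rw [Submodule.map_sup]
        apply sup_le_sup
        · rintro _ ⟨x, hx, rfl⟩
          show f x ∈ C'
          rw [(hCmem x).mp (hC' hx)]
          exact hx
        · rw [Submodule.map_iSup]
          apply iSup_mono
          intro i
          rw [Submodule.map_iSup]
          apply iSup_mono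
          intro _
          exact hUinv i
    rintro (h | ⟨h1, h2⟩)
    · obtain ⟨C', hC', hdim⟩ := exists_sub_finrank C m h
      exact hconstr C' ∅ hC' (by simpa using hdim)
    · by_cases hks : m / a ≤ s
      · obtain ⟨C', hC', hdim⟩ := exists_sub_finrank C _ h2
        obtain ⟨T, hT⟩ : ∃ T : Finset (Fin s), T.card = m / a :=
          Finset.exists_subset_card_eq (s := Finset.univ) (by simpa using hks) |>.imp fun _ h => h.2
        refine hconstr C' T hC' ?_
        rw [hdim, hT, add_comm, mul_comm]
        exact Nat.div_add_mod m a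
      · push Not at hks
        have h3 : s * a ≤ m := by
          have h4 : (m / a) * a ≤ m := Nat.div_mul_le_self m a
          have h5 : s * a ≤ (m / a) * a := Nat.mul_le_mul_right a hks.le
          omega
        obtain ⟨C', hC', hdim⟩ := exists_sub_finrank C (m - s * a) (by omega)
        refine hconstr C' Finset.univ hC' ?_
        rw [hdim, Finset.card_univ, Fintype.card_fin]
        omega

end Cfsg.Agent.S5952
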