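import Cfsg.Statements.S5958
import Cfsg.Agent.Lib.ClassMax.EluImpr2

set_option autoImplicit false
open scoped MatrixGroups
open Cfsg

namespace Cfsg.Agent.S5958

open Module Matrix Polynomial Cfsg.Geo Cfsg.Agent.Lib.ClassMax.EluFix Cfsg.Agent.Lib.ClassMax.EluBlock Cfsg.Agent.Lib.ClassMax.EluOrder Cfsg.Agent.Lib.ClassMax.EluConj Cfsg.Agent.Lib.ClassMax.EluImpr Cfsg.Agent.Lib.ClassMax.EluImpr2

set_option maxHeartbeats 2000000 in

/-- Elements of odd prime order of PSL_n(q) and imprimitive subgroups. Here `T = PSL_n(F)` for a field `F` with `q = p^f` elements (`n ≥ 2`, `(n, q) ≠ (2, 2), (2, 3)`), `n = a·t` with `t ≥ 2`, and Ω is the set of direct-sum decompositions of `F^n` into `t` subspaces of dimension `a` (unordered; their number is the number of ordered ones divided by `t!`), whose stabilizers are the imprimitive subgroups of type GL_a(q) ≀ S_t (maximal except in some small cases; maximality is not assumed); an element of `T` of prime order `r` (a matrix `x` of determinant 1 with `x^r` scalar, `x` not scalar) fixes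 a point of Ω when it permutes the summands of some such decomposition. Let `r ≠ p` be an odd prime dividing the number of such decompositions, let `c` be the multiplicative order of `q` modulo `r`, and write `k = n mod c`, `ℓ = a mod c`. Then every element of `T` of order `r` stabilizes such a decomposition if and only if either `a = 1`, `c = r − 1 > 1` and `n ≤ k·r`, or `c ≤ a` and `k = t·ℓ`. -/
theorem result {F : Type*} [Field F] [Fintype F] {p : ℕ} [Fact p.Prime] [CharP F p] {q : ℕ} (hq : Fintype.card F = q)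
    (n a t : ℕ) (hn : 2 ≤ n) (hT : (n, q) ≠ (2, 2) ∧ (n, q) ≠ (2, 3)) (hat : n = a * t) (ha : 1 ≤ a) (ht : 2 ≤ t)
    (r : ℕ) [Fact r.Prime] (hr2 : r ≠ 2) (hrp : r ≠ p) (hΩ : r ∣ Nat.card {D : Fin t → Submodule F (Fin n → F) // Cfsg.Geo.IsMDecomposition a D} / Nat.factorial t)
    (c : ℕ) (hc : c = orderOf (q : ZMod r)) :
    (∀ x : Matrix.SpecialLinearGroup (Fin n) F,
      (∃ z : F, ((x ^ r : Matrix.SpecialLinearGroup (Fin n) F) : Matrix (Fin n) (Fin n) F) = z • (1 : Matrix (Fin n) (Fin n) F)) →
      (∀ z : F, (x : Matrix (Fin n) (Fin n) F) ≠ z • (1 : Matrix (Fin n) (Fin n) F)) →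
      ∃ D : Fin t → Submodule F (Fin n → F), Cfsg.Geo.IsMDecomposition a D ∧
        ∃ σ : Equiv.Perm (Fin t), ∀ j, (D j).map (Matrix.toLin' (x : Matrix (Fin n) (Fin n) F)) = D (σ j)) ↔
    ((a = 1 ∧ 1 < c ∧ c = r - 1 ∧ n ≤ (n % c) * r) ∨ (c ≤ a ∧ n % c = t * (a % c))) := by
    classical
  subst hq
  subst hc
  have hr : r.Prime := Fact.out
  have hpp : p.Prime := Fact.out
  have hq0 : 0 < Fintype.card F := Fintype.card_pos
  have hq2 : 1 < Fintype.card F := Fintype.one_lt_card
  have hn0 : 0 < n := by omega
  haveI : Nonempty (Fin n) := ⟨⟨0, hn0⟩⟩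
  obtain ⟨kk, hkk0, hkk⟩ := FiniteField.card F p
  have hrq : ¬ r ∣ Fintype.card F := by
    intro h
    rw [hkk] at h
    exact hrp ((Nat.prime_dvd_prime_iff_eq hr hpp).mp (hr.dvd_of_dvd_pow h))
  have hcast : (r : F) ≠ 0 := ratFree_cast_ne hr hrq
  have hi0 : 0 < orderOf ((Fintype.card F : ℕ) : ZMod r) := order_pos hrq
  have hone : orderOf ((Fintype.card F : ℕ) : ZMod r) = 1 ↔ r ∣ Fintype.card F - 1 := by
    rw [orderOf_eq_one_iff, ← pow_one ((Fintype.card F : ℕ) : ZMod r), pow_eq_one_iff_dvd hq0, pow_one]
  have hcn := order_le_of_dvd_count hrq hat ha ht hΩ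
  have hdimV : finrank F (Fin n → F) = t * a := by
    rw [finrank_fin_fun, hat, mul_comm]
  have hX1 : ∀ X₀ : Matrix (Fin n) (Fin n) F, (Matrix.toLinAlgEquiv' X₀ : Module.End F (Fin n → F)) - 1 = Matrix.toLin' (X₀ - 1) := by
    intro X₀
    rw [map_sub, Matrix.toLin'_one]
    rfl
  have hpowT : ∀ X₀ : Matrix (Fin n) (Fin n) F, X₀ ^ r = 1 → (Matrix.toLinAlgEquiv' X₀ : Module.End F (Fin n → F)) ^ r = 1 := by
    intro X₀ h
    rw [← map_pow, h, map_one]
  have hinjT : ∀ T : Module.End F (Fin n → F), T ^ r = 1 → Function.Injective T := by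
    intro T hT v w hvw
    have h1 : (T ^ r) v = (T ^ r) w := by
      obtain ⟨m, hm⟩ : ∃ m, r = m + 1 := ⟨r - 1, by have := hr.pos; omega⟩
      rw [hm, pow_succ, Module.End.mul_apply, Module.End.mul_apply]
      congr 1
    rw [hT] at h1
    exact h1
  constructor
  · intro hall
    by_cases hc1 : orderOf ((Fintype.card F : ℕ) : ZMod r) = 1
    · right
      rw [hc1]
      exact ⟨ha, by simp [Nat.mod_one]⟩
    · have hrq1 : ¬ r ∣ Fintype.card F - 1 := fun h => hc1 (hone.mpr h)
      have hdata : ∀ X₀ : Matrix (Fin n) (Fin n) F, X₀.det = 1 → X₀ ^ r = 1 → X₀ ≠ 1 →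
          ∃ (D : Fin t → Submodule F (Fin n → F)) (σ : Equiv.Perm (Fin t)), IsMDecomposition a D ∧ ∀ j, (D j).map (Matrix.toLinAlgEquiv' X₀ : Module.End F (Fin n → F)) = D (σ j) := by
        intro X₀ h1 h2 h3
        let x : Matrix.SpecialLinearGroup (Fin n) F := ⟨X₀, h1⟩
        obtain ⟨D, hD, σ, hσ⟩ := hall x ⟨1, by rw [Matrix.SpecialLinearGroup.coe_pow, one_smul]; exact h2⟩ (by
          intro z hz
          have hz' : X₀ = z • 1 := hz
          apply h3
          rw [hz', _root_.smul_pow, one_pow] at h2
          have h4 := congrFun (congrFun h2 ⟨0, hn0⟩) ⟨0, hn0⟩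
          simp only [Matrix.smul_apply, Matrix.one_apply_eq, smul_eq_mul, mul_one] at h4
          rw [hz', root_unity_trivial hr hrq1 h4, one_smul])
        exact ⟨D, σ, hD, hσ⟩
      have hsmall : ∀ (T : Module.End F (Fin n → F)), T ^ r = 1 → a < orderOf ((Fintype.card F : ℕ) : ZMod r) →
          ∀ (W : Submodule F (Fin n → F)), Inv T W → finrank F W = a → ∀ v ∈ W, T v = v := by
        intro T hT hac W hW hd v hv
        obtain ⟨b, hb⟩ := dim_split_pow hrq hT hW
        have hb0 : b = 0 := by
          by_contra h0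
          have h1 : orderOf ((Fintype.card F : ℕ) : ZMod r) ≤ b * orderOf ((Fintype.card F : ℕ) : ZMod r) := Nat.le_mul_of_pos_left _ (by omega)
          omega
        rw [hb0, zero_mul, add_zero] at hb
        have h2 : W ⊓ LinearMap.ker (T - 1) = W := Submodule.eq_of_le_of_finrank_eq inf_le_left hb.symm
        have h3 : v ∈ LinearMap.ker (T - 1) := (inf_le_right : W ⊓ LinearMap.ker (T - 1) ≤ _) (by rw [h2]; exact hv)
        rw [LinearMap.mem_ker, LinearMap.sub_apply, Module.End.one_apply, sub_eq_zero] at h3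
        exact h3
      have hmodel : ∃ X₀ : Matrix (Fin n) (Fin n) F, X₀.det = 1 ∧ X₀ ^ r = 1 ∧ X₀ ≠ 1 ∧
          finrank F (LinearMap.ker ((Matrix.toLinAlgEquiv' X₀ : Module.End F (Fin n → F)) - 1)) ≤ n % orderOf ((Fintype.card F : ℕ) : ZMod r) := by
        have ht0 : 0 < n / orderOf ((Fintype.card F : ℕ) : ZMod r) := Nat.div_pos hcn hi0
        obtain ⟨X₀, f, hdet, hXr, hf, hfd, hz, hcop, hker, hk'⟩ := exists_block_model (n := n) (t := n / orderOf ((Fintype.card F : ℕ) : ZMod r)) (k := n % orderOf ((Fintype.card F : ℕ) : ZMod r)) hrq hrq1 (Nat.div_add_mod n _).symm ht0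
        refine ⟨X₀, hdet, hXr, ?_, ?_⟩
        · rintro rfl
          have hpos : 0 < orderOf ((Fintype.card F : ℕ) : ZMod r) * (n / orderOf ((Fintype.card F : ℕ) : ZMod r)) := Nat.mul_pos hi0 ht0
          have hne : LinearMap.ker (Matrix.toLin' (aeval (1 : Matrix (Fin n) (Fin n) F) f)) ≠ ⊥ := by
            intro h
            rw [h, finrank_bot] at hker
            omega
          obtain ⟨v, hv, hv0⟩ := (Submodule.ne_bot_iff _).mp hne
          have hf1 : aeval (1 : Matrix (Fin n) (Fin n) F) f = f.eval 1 • 1 := by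
            have h3 : aeval (algebraMap F (Matrix (Fin n) (Fin n) F) 1) f = algebraMap F _ (aeval (1 : F) f) := aeval_algebraMap_apply _ 1 f
            rw [map_one, coe_aeval_eq_eval, Algebra.algebraMap_eq_smul_one] at h3
            exact h3
          rw [LinearMap.mem_ker, Matrix.toLin'_apply, hf1, Matrix.smul_mulVec, Matrix.one_mulVec] at hv
          have hroot : f.eval 1 = 0 := (smul_eq_zero.mp hv).resolve_right hv0
          have hdeg := Polynomial.degree_eq_one_of_irreducible_of_root hf hroot
          have h1 : f.natDegree = 1 := natDegree_eq_of_degree_eq_some hdeg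
          omega
        · rw [hX1]
          have h5 : aeval X₀ (X - C (1 : F)) = X₀ - 1 := by simp
          rw [h5] at hk'
          exact hk'
      have hlt := Nat.mod_lt n hi0
      by_cases hca : orderOf ((Fintype.card F : ℕ) : ZMod r) ≤ a
      · right
        refine ⟨hca, ?_⟩
        obtain ⟨X₀, hdet, hXr, hne, hker⟩ := hmodel
        obtain ⟨D, σ, hD, hσ⟩ := hdata X₀ hdet hXr hne
        set T : Module.End F (Fin n → F) := Matrix.toLinAlgEquiv' X₀ with hT
        have hTr : T ^ r = 1 := hpowT X₀ hXr
        have hfix : ∀ j, σ j = j := by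
          intro j
          by_contra hj
          have h1 := le_of_moved hr hD.indep hD.iSup_eq_top hD.finrank_eq hD.pos hσ hTr hj
          omega
        have hinvj : ∀ j, Inv T (D j) := by
          intro j v hv
          have h1 : T v ∈ (D j).map T := Submodule.mem_map_of_mem hv
          rw [hσ, hfix] at h1
          exact h1
        have haj : ∀ j, finrank F ((D j ⊓ LinearMap.ker (T - 1) : Submodule F (Fin n → F))) = a % orderOf ((Fintype.card F : ℕ) : ZMod r) := by
          intro j
          obtain ⟨b, hb⟩ := dim_split_pow hrq hTr (hinvj j)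
          have h1 : finrank F ((D j ⊓ LinearMap.ker (T - 1) : Submodule F (Fin n → F))) ≤ finrank F (LinearMap.ker (T - 1)) :=
            Submodule.finrank_mono inf_le_right
          rw [hD.finrank_eq] at hb
          rw [hb, Nat.add_mul_mod_self_right, Nat.mod_eq_of_lt (by omega)]
        have hsum := sum_le hD.indep hD.iSup_eq_top (fun j => D j ⊓ LinearMap.ker (T - 1)) (fun j => inf_le_left) (LinearMap.ker (T - 1)) (fun j => inf_le_right)
        rw [Finset.sum_congr rfl (fun j _ => haj j), Finset.sum_const, Finset.card_univ, Fintype.card_fin, smul_eq_mul] at hsum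
        have hlt2 : t * (a % orderOf ((Fintype.card F : ℕ) : ZMod r)) < orderOf ((Fintype.card F : ℕ) : ZMod r) := by omega
        have h1 : n = t * (a % orderOf ((Fintype.card F : ℕ) : ZMod r)) + orderOf ((Fintype.card F : ℕ) : ZMod r) * (t * (a / orderOf ((Fintype.card F : ℕ) : ZMod r))) := by
          have h2 := Nat.div_add_mod a (orderOf ((Fintype.card F : ℕ) : ZMod r))
          calc n = t * a := by rw [hat, mul_comm]
            _ = t * (orderOf ((Fintype.card F : ℕ) : ZMod r) * (a / orderOf ((Fintype.card F : ℕ) : ZMod r)) + a % orderOf ((Fintype.card F : ℕ) : ZMod r)) := by rw [h2]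
            _ = _ := by ring
        rw [h1, Nat.add_mul_mod_self_left, Nat.mod_eq_of_lt hlt2]
      · left
        push Not at hca
        obtain ⟨X₁, hdet, hXr, hne, hrank, -⟩ := exists_block_elt hrq hrq1 hcn
        obtain ⟨D, σ, hD, hσ⟩ := hdata X₁ hdet hXr hne
        set T₁ : Module.End F (Fin n → F) := Matrix.toLinAlgEquiv' X₁ with hT₁
        have hT₁r : T₁ ^ r = 1 := hpowT X₁ hXr
        have hex : ∃ j, σ j ≠ j := by
          by_contra hcon
          push Not at hcon
          apply hne
          have htop : (⊤ : Submodule F (Fin n → F)) ≤ LinearMap.ker (T₁ - 1) := by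
            rw [← hD.iSup_eq_top]
            apply iSup_le
            intro j v hv
            have hinv : Inv T₁ (D j) := by
              intro w hw
              have h1 : T₁ w ∈ (D j).map T₁ := Submodule.mem_map_of_mem hw
              rw [hσ, hcon] at h1
              exact h1
            have h2 := hsmall T₁ hT₁r hca (D j) hinv (hD.finrank_eq j) v hv
            rw [LinearMap.mem_ker, LinearMap.sub_apply, Module.End.one_apply, h2, sub_self]
          have h3 : T₁ - 1 = 0 := by
            apply LinearMap.ext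
            intro v
            exact htop Submodule.mem_top
          have h4 : T₁ = 1 := sub_eq_zero.mp h3
          apply (Matrix.toLinAlgEquiv' (R := F) (n := Fin n)).injective
          rw [map_one]
          exact h4
        obtain ⟨j, hj⟩ := hex
        have hrb := rank_bound hr hD.indep hD.iSup_eq_top hD.finrank_eq hD.pos hσ hT₁r hj
        rw [hX1] at hrb
        have hdvd : orderOf ((Fintype.card F : ℕ) : ZMod r) ∣ r - 1 := ZMod.orderOf_dvd_card_sub_one (by
          rwa [Ne, ZMod.natCast_eq_zero_iff])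
        have hr2' : 2 ≤ r := hr.two_le
        have hcle : orderOf ((Fintype.card F : ℕ) : ZMod r) ≤ r - 1 := Nat.le_of_dvd (by omega) hdvd
        have hle : (r - 1) * a ≤ orderOf ((Fintype.card F : ℕ) : ZMod r) := hrb.trans hrank
        have ha1 : a = 1 := by
          by_contra h0
          have h2 : 2 ≤ a := by omega
          have h3 : (r - 1) * 2 ≤ (r - 1) * a := Nat.mul_le_mul_left _ h2
          omega
        have hceq : orderOf ((Fintype.card F : ℕ) : ZMod r) = r - 1 := by
          rw [ha1, mul_one] at hle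
          omega
        refine ⟨ha1, by omega, hceq, ?_⟩
        obtain ⟨X₀, hdet', hXr', hne', hker⟩ := hmodel
        obtain ⟨D', σ', hD', hσ'⟩ := hdata X₀ hdet' hXr' hne'
        set T : Module.End F (Fin n → F) := Matrix.toLinAlgEquiv' X₀ with hT
        have hTr : T ^ r = 1 := hpowT X₀ hXr'
        have hb := bound_orbits hr hD'.indep hD'.iSup_eq_top hD'.finrank_eq hD'.pos hσ' hTr hcast (by
          intro j hj v hv
          have hinv : Inv T (D' j) := by
            intro w hw
            have h1 : T w ∈ (D' j).map T := Submodule.mem_map_of_mem hw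
            rw [hσ', hj] at h1
            exact h1
          exact hsmall T hTr hca (D' j) hinv (hD'.finrank_eq j) v hv)
        have h4 : r * finrank F (LinearMap.ker (T - 1)) ≤ r * (n % orderOf ((Fintype.card F : ℕ) : ZMod r)) := Nat.mul_le_mul_left _ hker
        have h5 : t * a = n := by rw [hat, mul_comm]
        rw [mul_comm (n % _) r]
        omega
  · intro h x ⟨z, hz⟩ hns
    set A : Matrix (Fin n) (Fin n) F := (x : Matrix (Fin n) (Fin n) F) with hAdef
    have hA : A ^ r = z • 1 := by
      rw [← hz, Matrix.SpecialLinearGroup.coe_pow]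
    have hdetA : A.det = 1 := x.2
    have hz0 : z ≠ 0 := by
      rintro rfl
      have h3 := congrArg Matrix.det hA
      rw [Matrix.det_pow, hdetA, zero_smul, Matrix.det_zero] at h3
      simp at h3
    by_cases hpow : ∃ w : F, w ^ r = z
    · obtain ⟨w, hw⟩ := hpow
      have hw0 : w ≠ 0 := by
        rintro rfl
        rw [zero_pow hr.ne_zero] at hw
        exact hz0 hw.symm
      set A' : Matrix (Fin n) (Fin n) F := w⁻¹ • A with hA'
      have hA'r : A' ^ r = 1 := by
        rw [hA', _root_.smul_pow, hA, smul_smul, inv_pow, hw, inv_mul_cancel₀ hz0, one_smul]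
      have hAA' : A = w • A' := by
        rw [hA', smul_smul, mul_inv_cancel₀ hw0, one_smul]
      have hmapA : ∀ W : Submodule F (Fin n → F), W.map (Matrix.toLin' A) = W.map (Matrix.toLin' A') := by
        intro W
        rw [hAA', map_smul, Submodule.map_smul _ _ _ hw0]
      rcases h with ⟨ha1, hc1, hc2, hc3⟩ | ⟨hc1, hc2⟩
      · subst ha1
        have hnt : n = t := by simpa using hat
        subst hnt
        have h3 : 3 ≤ r := by
          have := hr.two_le
          omega
        rw [hc2] at hc3
        obtain ⟨D, g1, g2, g3, σ, hσ⟩ := exists_parts_perm h3 hrq hc2 hc3 A' hA'r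
        exact ⟨D, ⟨ht, one_pos, g1, g2, g3⟩, σ, fun j => by rw [hmapA]; exact hσ j⟩
      · have hlt := Nat.mod_lt n hi0
        have hT' := hpowT A' hA'r
        obtain ⟨D, g1, g2, g3, g4⟩ := exists_invariant_parts_power hrq hT' hdimV (by omega)
        refine ⟨D, ⟨ht, ha, g2, g3, g4⟩, 1, fun j => ?_⟩
        rw [hmapA]
        apply Submodule.eq_of_le_of_finrank_eq
        · rintro _ ⟨v, hv, rfl⟩
          exact g1 j v hv
        · have h5 : Function.Injective (Matrix.toLin' A') := hinjT _ hT'
          rw [← LinearEquiv.finrank_eq (Submodule.equivMapOfInjective _ h5 _)]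
          rfl
    · push Not at hpow
      have hirr := X_pow_sub_C_irreducible_of_prime hr hpow
      have hTr : (Matrix.toLinAlgEquiv' A : Module.End F (Fin n → F)) ^ r = z • 1 := by
        rw [← map_pow, hA, map_smul, map_one]
      obtain ⟨D, g1, g2, g3, σ, hσ⟩ := exists_parts_irr hr hirr hTr hz0 hdimV
      exact ⟨D, ⟨ht, ha, g1, g2, g3⟩, σ, hσ⟩

end Cfsg.Agent.S5958
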