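import Cfsg.Statements.S5959
import Cfsg.Agent.Lib.ClassMax.JordanType

set_option autoImplicit false
open scoped MatrixGroups
open Cfsg

namespace Cfsg.Agent.S5959


/-- Elements of order `p` of PSL_n(q) and imprimitive subgroups: a necessary condition. Here `T = PSL_n(F)` for a field `F` with `q = p^f` elements (`n ≥ 2`, `(n, q) ≠ (2, 2), (2, 3)`), `n = a·t` with `t ≥ 2`, and Ω is the set of direct-sum decompositions of `F^n` into `t` subspaces of dimension `a` (unordered; their number is the number of ordered ones divided by `t!`), whose stabilizers are the imprimitive subgroups of type GL_a(q) ≀ S_t (maximal except in some small cases; maximality is not assumed); an element of `T` of prime order `r` (a matrix `x` of determinant 1 with `x^r` scalar, `x` not scalar) fixes a point of Ω when it permutes the summands of some such decomposition. Suppose `p > 2` divides the number of such decompositions. If every element of `T` of order `p` stabilizes such a decomposition, then every partition of `n` into parts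 of size at most `p` in which the part `p` occurs fewer than `a` times contains (as a sub-multiset) a partition of `a`. -/
theorem result {F : Type*} [Field F] [Fintype F] {p : ℕ} [Fact p.Prime] [CharP F p] {q : ℕ} (hq : Fintype.card F = q)
    (n a t : ℕ) (hn : 2 ≤ n) (hT : (n, q) ≠ (2, 2) ∧ (n, q) ≠ (2, 3)) (hat : n = a * t) (ha : 1 ≤ a) (ht : 2 ≤ t)
    (hp : 2 < p) (hΩ : p ∣ Nat.card {D : Fin t → Submodule F (Fin n → F) // Cfsg.Geo.IsMDecomposition a D} / Nat.factorial t)
    (h : ∀ x : Matrix.SpecialLinearGroup (Fin n) F,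
      (∃ z : F, ((x ^ p : Matrix.SpecialLinearGroup (Fin n) F) : Matrix (Fin n) (Fin n) F) = z • (1 : Matrix (Fin n) (Fin n) F)) →
      (∀ z : F, (x : Matrix (Fin n) (Fin n) F) ≠ z • (1 : Matrix (Fin n) (Fin n) F)) →
      ∃ D : Fin t → Submodule F (Fin n → F), Cfsg.Geo.IsMDecomposition a D ∧
        ∃ σ : Equiv.Perm (Fin t), ∀ j, (D j).map (Matrix.toLin' (x : Matrix (Fin n) (Fin n) F)) = D (σ j)) :
    (∀ μ : Multiset ℕ, (∀ b ∈ μ, 0 < b ∧ b ≤ p) → μ.sum = n → μ.count p < a → ∃ ν : Multiset ℕ, ν ≤ μ ∧ ν.sum = a) := by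
  classical
  intro μ hμ hsum hcount
  haveI : NeZero n := ⟨by omega⟩
  haveI : Nonempty (Fin n) := ⟨⟨0, by omega⟩⟩
  have hpp : p.Prime := Fact.out
  by_cases htriv : ∀ b ∈ μ, b = 1
  · -- all parts are 1
    have hμ1 : μ = Multiset.replicate (Multiset.card μ) 1 := Multiset.eq_replicate_card.mpr htriv
    have hcard : Multiset.card μ = n := by
      rw [← hsum, hμ1]
      simp
    refine ⟨Multiset.replicate a 1, ?_, by simp⟩
    rw [hμ1, hcard, Multiset.replicate_le_replicate]
    rw [hat]
    exact Nat.le_mul_of_pos_right _ (by omega)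
  push Not at htriv
  obtain ⟨b₀, hb₀, hb₀1⟩ := htriv
  have hb₀2 : 2 ≤ b₀ := by
    have := (hμ b₀ hb₀).1
    omega
  obtain ⟨N, hN⟩ := Cfsg.Agent.Lib.ClassMax.JordanType.exists_model_fin F μ hsum
  -- `N ^ p = 0`
  have hNp : N ^ p = 0 := by
    have h1 := hN p
    have h2 : (μ.map (fun e => e - p)).sum = 0 := by
      rw [Multiset.sum_eq_zero_iff]
      intro x hx
      obtain ⟨e, he, rfl⟩ := Multiset.mem_map.mp hx
      have := (hμ e he).2
      omega
    rw [h2] at h1
    have h3 := Submodule.finrank_eq_zero.mp h1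
    exact LinearMap.range_eq_bot.mp h3
  -- the matrix
  set B : Matrix (Fin n) (Fin n) F := LinearMap.toMatrix' N with hB
  have hBlin : Matrix.toLin' B = N := Matrix.toLin'_toMatrix' N
  have hBp : B ^ p = 0 := by
    apply (Matrix.toLin' (R := F) (m := Fin n) (n := Fin n)).injective
    rw [Matrix.toLin'_pow, hBlin, hNp, map_zero]
  set A : Matrix (Fin n) (Fin n) F := 1 + B with hA
  have hAp : A ^ p = 1 := by
    have h1 : Commute (1 : Matrix (Fin n) (Fin n) F) B := Commute.one_left B
    rw [hA, add_pow_char_of_commute p h1, hBp, one_pow, add_zero]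
  have hdet : A.det = 1 := by
    have h1 : A.det ^ p = 1 := by
      rw [← Matrix.det_pow, hAp, Matrix.det_one]
    have h2 : (A.det - 1) ^ p = 0 := by
      rw [sub_pow_char, h1, one_pow, sub_self]
    exact sub_eq_zero.mp (pow_eq_zero_iff hpp.ne_zero |>.mp h2)
  let x : Matrix.SpecialLinearGroup (Fin n) F := ⟨A, hdet⟩
  have hxA : (x : Matrix (Fin n) (Fin n) F) = A := rfl
  have hx1 : ((x ^ p : Matrix.SpecialLinearGroup (Fin n) F) : Matrix (Fin n) (Fin n) F) = (1 : F) • (1 : Matrix (Fin n) (Fin n) F) := by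
    rw [Matrix.SpecialLinearGroup.coe_pow, hxA, hAp, one_smul]
  have hNrange : N ≠ 0 := by
    intro h0
    have h1 := hN 1
    rw [pow_one, h0, LinearMap.range_zero, finrank_bot] at h1
    have h2 : (μ.map (fun e => e - 1)).sum = 0 := h1.symm
    rw [Multiset.sum_eq_zero_iff] at h2
    have h3 := h2 (b₀ - 1) (Multiset.mem_map.mpr ⟨b₀, hb₀, rfl⟩)
    omega
  have hx2 : ∀ z : F, (x : Matrix (Fin n) (Fin n) F) ≠ z • (1 : Matrix (Fin n) (Fin n) F) := by
    intro z hz
    rw [hxA, hA] at hz
    have h1 : B = (z - 1) • (1 : Matrix (Fin n) (Fin n) F) := by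
      rw [sub_smul, one_smul, ← hz]; abel
    have h2 : (z - 1) ^ p • (1 : Matrix (Fin n) (Fin n) F) = 0 := by
      have h3 : ((z - 1) • (1 : Matrix (Fin n) (Fin n) F)) ^ p = 0 := by rw [← h1]; exact hBp
      rwa [smul_pow, one_pow] at h3
    have h3 : (z - 1) ^ p = 0 := by
      have h4 := congrFun (congrFun h2 ⟨0, by omega⟩) ⟨0, by omega⟩
      simpa using h4
    have h4 : z - 1 = 0 := pow_eq_zero_iff hpp.ne_zero |>.mp h3
    apply hNrange
    rw [← hBlin, h1, h4, zero_smul]
    simp
  obtain ⟨D, hD, σ, hσ⟩ := h x ⟨1, hx1⟩ hx2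
  set L : (Fin n → F) →ₗ[F] (Fin n → F) := Matrix.toLin' A with hL
  have hLN : L = 1 + N := by
    rw [hL, hA, ← hBlin, map_add, Matrix.toLin'_one]
    rfl
  have hNL : N = L - 1 := by rw [hLN]; abel
  have hLp : L ^ p = 1 := by
    rw [hL, ← Matrix.toLin'_pow, hAp, Matrix.toLin'_one]
    rfl
  have hLinj : Function.Injective L := by
    intro u v huv
    have h1 : (L ^ p) u = (L ^ p) v := by
      obtain ⟨k, hk⟩ : ∃ k, p = k + 1 := ⟨p - 1, by have := hpp.pos; omega⟩
      rw [hk, pow_succ, Module.End.mul_apply, Module.End.mul_apply, huv]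
    rwa [hLp, Module.End.one_apply, Module.End.one_apply] at h1
  have hne_bot : ∀ i, D i ≠ ⊥ := by
    intro i hi
    have := hD.finrank_eq i
    rw [hi, finrank_bot] at this
    omega
  have hDinj : Function.Injective D := hD.indep.injective hne_bot
  have hσ' : ∀ j, (D j).map L = D (σ j) := hσ
  -- every block is fixed
  have hfix : ∀ j, σ j = j := by
    intro j
    by_contra hj
    have hpow : ∀ k j', (D j').map (L ^ k) = D ((σ ^ k) j') := by
      intro k j'
      induction k with
      | zero =>
        rw [pow_zero, pow_zero, Module.End.one_eq_id, Submodule.map_id]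
        rfl
      | succ k ih =>
        rw [pow_succ' L, Module.End.mul_eq_comp, Submodule.map_comp, ih, hσ', pow_succ' σ, Equiv.Perm.mul_apply]
    have hper : Function.IsPeriodicPt σ p j := by
      have h1 := hpow p j
      rw [hLp, Module.End.one_eq_id, Submodule.map_id] at h1
      have h2 := hDinj h1
      show (σ)^[p] j = j
      rw [Equiv.Perm.iterate_eq_pow]
      exact h2.symm
    have hmin : Function.minimalPeriod σ j = p := by
      have h1 := hper.minimalPeriod_dvd
      rcases (Nat.dvd_prime hpp).mp h1 with h2 | h2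
      · exfalso
        apply hj
        have h3 := Function.isPeriodicPt_minimalPeriod σ j
        rw [h2] at h3
        exact h3
      · exact h2
    have hdist : ∀ i < p - 1, (σ ^ i) j ≠ (σ ^ (p - 1)) j := by
      intro i hi hij
      have h1 := Function.iterate_injOn_Iio_minimalPeriod (f := σ) (x := j)
      rw [hmin] at h1
      have h2 : i = p - 1 := h1 (by
        show i < p
        omega) (by
        show p - 1 < p
        have := hpp.pos
        omega) (by
        show (σ)^[i] j = (σ)^[p - 1] j
        rw [Equiv.Perm.iterate_eq_pow, Equiv.Perm.iterate_eq_pow]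
        exact hij)
      omega
    have hinjN : ∀ v ∈ D j, ((L - 1) ^ (p - 1)) v = 0 → v = 0 := fun v hv h0 =>
      Cfsg.Agent.Lib.ClassMax.JordanType.cycle_injective D hD.indep L hLinj σ hσ' j (p - 1) hdist hv h0
    -- the rank bound
    have h1 : Module.finrank F ↥(D j) ≤ Module.finrank F ↥(LinearMap.range (N ^ (p - 1))) := by
      rw [← hNL] at hinjN
      apply LinearMap.finrank_le_finrank_of_injective (f := ((N ^ (p - 1)).domRestrict (D j)).codRestrict (LinearMap.range (N ^ (p - 1))) (fun v => ⟨_, rfl⟩))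
      intro u v huv
      have h2 : (N ^ (p - 1)) (u : Fin n → F) = (N ^ (p - 1)) (v : Fin n → F) := congrArg Subtype.val huv
      apply Subtype.ext
      have h3 := hinjN ((u : Fin n → F) - v) ((D j).sub_mem u.2 v.2) (by rw [map_sub, h2, sub_self])
      exact sub_eq_zero.mp h3
    rw [hD.finrank_eq j, hN (p - 1), Cfsg.Agent.Lib.ClassMax.JordanType.map_sub_top μ hpp.pos (fun e he => (hμ e he).2)] at h1
    omega
  -- the direct summand
  set j₀ : Fin t := ⟨0, by omega⟩ with hj₀
  set W := D j₀ with hW
  set W' := ⨆ i, ⨆ (_ : i ≠ j₀), D i with hW'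
  have hc : IsCompl W W' := by
    refine ⟨hD.indep j₀, ?_⟩
    rw [codisjoint_iff, hW, hW', ← hD.iSup_eq_top]
    exact (iSup_split_single D j₀).symm
  have hLW : ∀ i, (D i).map L ≤ D i := fun i => by rw [hσ', hfix]
  have hNinv : ∀ U : Submodule F (Fin n → F), U.map L ≤ U → U.map N ≤ U := by
    intro U hU
    rintro _ ⟨u, hu, rfl⟩
    rw [hNL]
    simp only [LinearMap.sub_apply, Module.End.one_apply]
    exact U.sub_mem (hU ⟨u, hu, rfl⟩) hu
  have hLW' : W'.map L ≤ W' := by
    rw [hW']
    simp only [Submodule.map_iSup]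
    apply iSup₂_le
    intro i hi
    exact (hLW i).trans (le_iSup₂_of_le i hi le_rfl)
  obtain ⟨ν, h1, h2⟩ := Cfsg.Agent.Lib.ClassMax.JordanType.exists_sub_multiset N μ hN hNp hμ hc (hNinv _ (hLW j₀)) (hNinv _ hLW')
  exact ⟨ν, h1, h2.trans (hD.finrank_eq j₀)⟩

end Cfsg.Agent.S5959
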