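import Cfsg.Statements.S5961
import Cfsg.Agent.Lib.ClassMax.EluSpBlock2

set_option autoImplicit false
open scoped MatrixGroups
open Cfsg

namespace Cfsg.Agent.S5961

open Module Matrix Polynomial Cfsg.Geo Cfsg.Agent.Lib.ClassMax Cfsg.Agent.Lib.ClassMax.ElusiveSp Cfsg.Agent.Lib.ClassMax.EluFix Cfsg.Agent.Lib.ClassMax.EluBlock Cfsg.Agent.Lib.ClassMax.EluOrder Cfsg.Agent.Lib.ClassMax.EluConj Cfsg.Agent.Lib.ClassMax.EluImpr Cfsg.Agent.Lib.ClassMax.EluImpr2 Cfsg.Agent.Lib.ClassMax.EluSpBlock Cfsg.Agent.Lib.ClassMax.EluSpBlock2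

set_option maxHeartbeats 2000000 in

/-- Elements of odd prime order of PSp_n(q) and imprimitive subgroups. Here `T = PSp_n(q)`, `n = 2d ≥ 4`, `(n, q) ≠ (4, 2)`, realised through the symplectic matrices over the field `F` with `q` elements and the standard alternating form; `n = a·t` with `a` even and `t ≥ 2`, and Ω is the (nonempty) set of orthogonal decompositions of `F^n` into `t` nondegenerate subspaces of dimension `a` (unordered; counted as ordered ones divided by `t!`), whose stabilizers are the imprimitive subgroups of type Sp_a(q) ≀ S_t (maximality is not assumed); an element of `T` of prime order `r` (a symplectic matrix `x` with `x^r` scalar, `x` not scalar) fixes a point of Ω when it permutes the summands of some such decomposition. Let `r ≠ p` be an odd prime dividing the number of such decompositions, let `i` be the multiplicative order of `q` modulo `r`, `c = i` if `i` is even and `c = 2i` if `i` is odd, and write `k = n mod c`, `ℓ = a mod c`. Then every element of `T` of order `r` stabilizes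 such a decomposition if and only if `c ≤ a` and `k = t·ℓ`. -/
theorem result {F : Type*} [Field F] [Fintype F] {p : ℕ} [Fact p.Prime] [CharP F p] {q : ℕ} (hq : Fintype.card F = q)
    (d : ℕ) (hd : 2 ≤ d) (hT : (d, q) ≠ (2, 2))
    (a t : ℕ) (hat : 2 * d = a * t) (ha : 2 ≤ a) (hae : Even a) (ht : 2 ≤ t)
    (r : ℕ) [Fact r.Prime] (hr2 : r ≠ 2) (hrp : r ≠ p) (hΩ : r ∣ Nat.card {D : Fin t → Submodule F (Fin d ⊕ Fin d → F) // (Cfsg.Geo.IsMDecomposition a D ∧ (∀ j, ∀ u ∈ D j, u ≠ 0 → ∃ v ∈ D j, Cfsg.sympForm d F u v ≠ 0) ∧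
          (∀ j j', j ≠ j' → ∀ u ∈ D j, ∀ v ∈ D j', Cfsg.sympForm d F u v = 0))} / Nat.factorial t)
    (i c : ℕ) (hi : i = orderOf (q : ZMod r)) (hc : c = if Even i then i else 2 * i) :
    (∀ x : ↥(Matrix.symplecticGroup (Fin d) F),
      (∃ z : F, ((x ^ r : ↥(Matrix.symplecticGroup (Fin d) F)) : Matrix (Fin d ⊕ Fin d) (Fin d ⊕ Fin d) F) = z • (1 : Matrix (Fin d ⊕ Fin d) (Fin d ⊕ Fin d) F)) →
      (∀ z : F, (x : Matrix (Fin d ⊕ Fin d) (Fin d ⊕ Fin d) F) ≠ z • (1 : Matrix (Fin d ⊕ Fin d) (Fin d ⊕ Fin d) F)) →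
      ∃ D : Fin t → Submodule F (Fin d ⊕ Fin d → F), (Cfsg.Geo.IsMDecomposition a D ∧ (∀ j, ∀ u ∈ D j, u ≠ 0 → ∃ v ∈ D j, Cfsg.sympForm d F u v ≠ 0) ∧
          (∀ j j', j ≠ j' → ∀ u ∈ D j, ∀ v ∈ D j', Cfsg.sympForm d F u v = 0)) ∧
        ∃ σ : Equiv.Perm (Fin t), ∀ j, (D j).map (Matrix.toLin' (x : Matrix (Fin d ⊕ Fin d) (Fin d ⊕ Fin d) F)) = D (σ j)) ↔
    (c ≤ a ∧ (2 * d) % c = t * (a % c)) := by
    classical
  subst hq
  subst hi
  have hc' : c = blockDim F r := hc
  clear hc
  subst hc'
  have hr : r.Prime := Fact.out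
  have hpp : p.Prime := Fact.out
  obtain ⟨kk, hkk0, hkk⟩ := FiniteField.card F p
  have hrq : ¬ r ∣ Fintype.card F := by
    intro h
    rw [hkk] at h
    exact hrp ((Nat.prime_dvd_prime_iff_eq hr hpp).mp (hr.dvd_of_dvd_pow h))
  have hc0 := blockDim_pos (F := F) (r := r) hrq
  have hV : finrank F (Fin d ⊕ Fin d → F) = 2 * d := by
    rw [finrank_pi]
    simp only [Fintype.card_sum, Fintype.card_fin]
    ring
  have hf := sympForm_isSymplectic (m := d) (F := F)
  obtain ⟨k₀, hk₀⟩ : ∃ k₀, r = 2 * k₀ + 1 := by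
    rcases hr.eq_two_or_odd' with h | ⟨k₀, h⟩
    · exact absurd h hr2
    · exact ⟨k₀, h⟩
  have hzroot : ∀ z : F, z * z = 1 → z ^ r = 1 → z = 1 := by
    intro z h1 h2
    rw [hk₀, pow_succ, pow_mul, sq, h1, one_pow, one_mul] at h2
    exact h2
  -- a pair of vectors with non-zero form value
  obtain ⟨u₀, v₀, huv⟩ : ∃ u₀ v₀ : Fin d ⊕ Fin d → F, Cfsg.sympForm d F u₀ v₀ ≠ 0 := by
    haveI : Nonempty (Fin d) := ⟨⟨0, by omega⟩⟩
    have h0 : (Pi.single (Sum.inl ⟨0, by omega⟩) 1 : Fin d ⊕ Fin d → F) ≠ 0 := by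
      intro h
      have := congrFun h (Sum.inl ⟨0, by omega⟩)
      simp at this
    obtain ⟨-, y, hy⟩ := hf.nondegenerate _ h0
    exact ⟨_, y, hy⟩
  have hscal : ∀ z : F, (∀ u v, Cfsg.sympForm d F (z • u) (z • v) = Cfsg.sympForm d F u v) → z * z = 1 := by
    intro z h
    have h1 := h u₀ v₀
    rw [hf.bilinear.smul_left, hf.bilinear.smul_right, ← mul_assoc] at h1
    have h2 : (z * z - 1) * Cfsg.sympForm d F u₀ v₀ = 0 := by
      rw [sub_mul, h1, one_mul, sub_self]
    exact sub_eq_zero.mp ((mul_eq_zero.mp h2).resolve_right huv)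
  constructor
  · intro hall
    have hcd : blockDim F r ≤ 2 * d := blockDim_le_of_dvd_count hrq hat ha hae ht hΩ
    have hdata : ∀ T : Module.End F (Fin d ⊕ Fin d → F), T ^ r = 1 → (∀ u v, Cfsg.sympForm d F (T u) (T v) = Cfsg.sympForm d F u v) → T ≠ 1 →
        ∃ (D : Fin t → Submodule F (Fin d ⊕ Fin d → F)) (σ : Equiv.Perm (Fin t)), OD F d a D ∧ ∀ j, (D j).map T = D (σ j) := by
      intro T hT hiso hne
      obtain ⟨x, hx⟩ := exists_sp_of_iso T hiso
      obtain ⟨D, hD, σ, hσ⟩ := hall x ⟨1, by
        rw [one_smul]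
        show x.1 ^ r = 1
        apply (Matrix.toLinAlgEquiv' (R := F) (n := Fin d ⊕ Fin d)).injective
        rw [map_pow, map_one]
        have : Matrix.toLinAlgEquiv' (R := F) x.1 = T := hx
        rw [this, hT]⟩ (by
        intro z hz
        have hTz : ∀ v, T v = z • v := by
          intro v
          rw [← hx, Matrix.toLin'_apply, hz, Matrix.smul_mulVec, Matrix.one_mulVec]
        have hzz : z * z = 1 := hscal z (fun u v => by rw [← hTz, ← hTz, hiso])
        have hzr : z ^ r = 1 := by
          have h1 : ∀ (k : ℕ) v, (T ^ k) v = z ^ k • v := by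
            intro k
            induction k with
            | zero => intro v; simp
            | succ k ih =>
              intro v
              rw [pow_succ', Module.End.mul_apply, ih, hTz, smul_smul, pow_succ']
          have h2 := h1 r u₀
          rw [hT, Module.End.one_apply] at h2
          have h3 : (z ^ r - 1) • u₀ = 0 := by
            rw [sub_smul, ← h2, one_smul, sub_self]
          rcases smul_eq_zero.mp h3 with h4 | h4
          · exact sub_eq_zero.mp h4
          · exfalso
            apply huv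
            rw [h4]
            have := hf.bilinear.smul_left 0 (0 : Fin d ⊕ Fin d → F) v₀
            simpa using this
        have hz1 := hzroot z hzz hzr
        apply hne
        apply LinearMap.ext
        intro v
        rw [hTz, hz1, one_smul]
        rfl)
      rw [hx] at hσ
      exact ⟨D, σ, hD, hσ⟩
    by_cases hca : blockDim F r ≤ a
    · refine ⟨hca, ?_⟩
      have hlt := Nat.mod_lt (2 * d) hc0
      obtain ⟨T, hTr, hiso, hker⟩ := exists_iso_model (F := F) (d := d) hrq (s := 2 * d / blockDim F r) (k := 2 * d % blockDim F r) (Nat.div_add_mod _ _).symm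
      have hne : T ≠ 1 := by
        rintro rfl
        rw [sub_self, LinearMap.ker_zero, finrank_top, hV] at hker
        omega
      obtain ⟨D, σ, hD, hσ⟩ := hdata T hTr hiso hne
      have hfix : ∀ j, σ j = j := by
        intro j
        by_contra hj
        have h1 := le_of_moved hr hD.1.indep hD.1.iSup_eq_top hD.1.finrank_eq hD.1.pos hσ hTr hj
        omega
      have hinvj : ∀ j, Inv T (D j) := by
        intro j v hv
        have h1 : T v ∈ (D j).map T := Submodule.mem_map_of_mem hv
        rw [hσ, hfix] at h1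
        exact h1
      have hnd : ∀ j, Nd (B₀ F d) (D j) := hD.2.1
      have haj : ∀ j, finrank F ((D j ⊓ LinearMap.ker (T - 1) : Submodule F (Fin d ⊕ Fin d → F))) = a % blockDim F r := by
        intro j
        have h1 := dim_parts (B := B₀ F d) halt₀ hrq hTr hiso (hnd j) (hinvj j)
        have h2 := nd_phi_part (B := B₀ F d) halt₀ hrq hTr hiso (hnd j) (hinvj j)
        have h3 : Inv T (D j ⊓ LinearMap.ker (aeval T (Phi F r))) := fun u hu => ⟨hinvj j u hu.1, inv_ker T _ u hu.2⟩
        obtain ⟨b, hb⟩ := blockDim_dvd (B := B₀ F d) halt₀ hrq h2 h3 inf_le_right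
        have h4 : finrank F ((D j ⊓ LinearMap.ker (T - 1) : Submodule F (Fin d ⊕ Fin d → F))) ≤ finrank F (LinearMap.ker (T - 1)) :=
          Submodule.finrank_mono inf_le_right
        rw [hD.1.finrank_eq, hb] at h1
        rw [← h1, Nat.add_mul_mod_self_left, Nat.mod_eq_of_lt (by omega)]
      have hsum := sum_le hD.1.indep hD.1.iSup_eq_top (fun j => D j ⊓ LinearMap.ker (T - 1)) (fun j => inf_le_left) (LinearMap.ker (T - 1)) (fun j => inf_le_right)
      rw [Finset.sum_congr rfl (fun j _ => haj j), Finset.sum_const, Finset.card_univ, Fintype.card_fin, smul_eq_mul] at hsum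
      have hlt2 : t * (a % blockDim F r) < blockDim F r := by omega
      have h1 : 2 * d = t * (a % blockDim F r) + blockDim F r * (t * (a / blockDim F r)) := by
        have h2 := Nat.div_add_mod a (blockDim F r)
        calc 2 * d = t * a := by rw [hat, mul_comm]
          _ = t * (blockDim F r * (a / blockDim F r) + a % blockDim F r) := by rw [h2]
          _ = _ := by ring
      rw [h1, Nat.add_mul_mod_self_left, Nat.mod_eq_of_lt hlt2]
    · exfalso
      push Not at hca
      have hs : 2 * d = blockDim F r * 1 + (2 * d - blockDim F r) := by omega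
      obtain ⟨T, hTr, hiso, hker⟩ := exists_iso_model (F := F) (d := d) hrq hs
      have hne : T ≠ 1 := by
        rintro rfl
        rw [sub_self, LinearMap.ker_zero, finrank_top, hV] at hker
        omega
      obtain ⟨D, σ, hD, hσ⟩ := hdata T hTr hiso hne
      have hex : ∃ j, σ j ≠ j := by
        by_contra hcon
        push Not at hcon
        have hle : (⊤ : Submodule F (Fin d ⊕ Fin d → F)) ≤ LinearMap.ker (T - 1) := by
          rw [← hD.1.iSup_eq_top]
          apply iSup_le
          intro j
          have hinv : Inv T (D j) := by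
            intro v hv
            have h1 : T v ∈ (D j).map T := Submodule.mem_map_of_mem hv
            rw [hσ, hcon] at h1
            exact h1
          have hnd : Nd (B₀ F d) (D j) := hD.2.1 j
          have h1 := dim_parts (B := B₀ F d) halt₀ hrq hTr hiso hnd hinv
          have h2 := nd_phi_part (B := B₀ F d) halt₀ hrq hTr hiso hnd hinv
          have h3 : Inv T (D j ⊓ LinearMap.ker (aeval T (Phi F r))) := fun u hu => ⟨hinv u hu.1, inv_ker T _ u hu.2⟩
          obtain ⟨b, hb⟩ := blockDim_dvd (B := B₀ F d) halt₀ hrq h2 h3 inf_le_right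
          rw [hD.1.finrank_eq] at h1
          have hb0 : b = 0 := by
            by_contra h0
            have h4 : blockDim F r ≤ blockDim F r * b := Nat.le_mul_of_pos_right _ (by omega)
            omega
          rw [hb0, mul_zero] at hb
          rw [hb, add_zero] at h1
          have h5 : finrank F ((D j ⊓ LinearMap.ker (T - 1) : Submodule F (Fin d ⊕ Fin d → F))) = finrank F (D j) := by
            rw [h1, hD.1.finrank_eq]
          have h6 := Submodule.eq_of_le_of_finrank_eq (inf_le_left : D j ⊓ LinearMap.ker (T - 1) ≤ D j) h5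
          exact h6 ▸ inf_le_right
        have h7 : LinearMap.ker (T - 1) = ⊤ := top_le_iff.mp hle
        rw [h7, finrank_top, hV] at hker
        omega
      obtain ⟨j, hj⟩ := hex
      have hrb := rank_bound hr hD.1.indep hD.1.iSup_eq_top hD.1.finrank_eq hD.1.pos hσ hTr hj
      have hnull := LinearMap.finrank_range_add_finrank_ker (T - 1)
      rw [hker, hV] at hnull
      have hdvd : orderOf ((Fintype.card F : ℕ) : ZMod r) ∣ r - 1 := ZMod.orderOf_dvd_card_sub_one (by
        rwa [Ne, ZMod.natCast_eq_zero_iff])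
      have hcr : blockDim F r ∣ r - 1 := by
        unfold blockDim
        split_ifs with he
        · exact hdvd
        · have h6 : Nat.Coprime (orderOf ((Fintype.card F : ℕ) : ZMod r)) 2 := by
            rw [Nat.coprime_two_right]
            exact Nat.not_even_iff_odd.mp he
          rw [mul_comm]
          exact h6.mul_dvd_of_dvd_of_dvd hdvd ⟨k₀, by omega⟩
      have hr0 : 0 < r - 1 := by
        have := hr.two_le
        omega
      have hcle := Nat.le_of_dvd hr0 hcr
      have h3 : (r - 1) * 2 ≤ (r - 1) * a := Nat.mul_le_mul_left _ ha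
      omega
  · rintro ⟨hca, hmod⟩ x ⟨z, hz⟩ hns
    set A : Matrix (Fin d ⊕ Fin d) (Fin d ⊕ Fin d) F := x.1 with hAdef
    have hA : A ^ r = z • 1 := hz
    have hzz : z * z = 1 := by
      apply hscal
      intro u v
      have h1 := Cfsg.Agent.Lib.Classical.sp_form (x ^ r) u v
      have h2 : ∀ w : Fin d ⊕ Fin d → F, ((x ^ r : ↥(Matrix.symplecticGroup (Fin d) F)) : Matrix (Fin d ⊕ Fin d) (Fin d ⊕ Fin d) F) *ᵥ w = z • w := by
        intro w
        rw [hz, Matrix.smul_mulVec, Matrix.one_mulVec]
      rw [h2, h2] at h1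
      exact h1
    have hz0 : z ≠ 0 := by
      rintro rfl
      simp at hzz
    have hzr : z ^ r * z = 1 := by
      rw [hk₀, pow_succ, pow_mul, sq, hzz, one_pow, one_mul, hzz]
    set A' : Matrix (Fin d ⊕ Fin d) (Fin d ⊕ Fin d) F := z • A with hA'
    have hA'r : A' ^ r = 1 := by
      rw [hA', _root_.smul_pow, hA, smul_smul, hzr, one_smul]
    have hAA' : A = z • A' := by
      rw [hA', smul_smul, hzz, one_smul]
    set T : Module.End F (Fin d ⊕ Fin d → F) := Matrix.toLinAlgEquiv' A' with hT
    have hTv : ∀ v, T v = z • (A *ᵥ v) := by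
      intro v
      show A' *ᵥ v = _
      rw [hA', Matrix.smul_mulVec]
    have hTr : T ^ r = 1 := by
      rw [hT, ← map_pow, hA'r, map_one]
    have hiso : ∀ u v, Cfsg.sympForm d F (T u) (T v) = Cfsg.sympForm d F u v := by
      intro u v
      rw [hTv, hTv, hf.bilinear.smul_left, hf.bilinear.smul_right, ← mul_assoc, hzz, one_mul]
      exact Cfsg.Agent.Lib.Classical.sp_form x u v
    have hdim : finrank F (⊤ : Submodule F (Fin d ⊕ Fin d → F)) = t * a := by
      rw [finrank_top, hV, hat, mul_comm]
    have hlt : t * (a % blockDim F r) < blockDim F r := by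
      rw [← hmod]
      exact Nat.mod_lt _ hc0
    obtain ⟨D, g1, g2, g3, g4, g5, g6⟩ := exists_orth_decomp (B := B₀ F d) halt₀ hr2 hrq hTr hiso hae (by omega) t ⊤ nd₀ (fun _ _ => trivial) hdim hlt
    refine ⟨D, ⟨⟨ht, by omega, g3, g5, g6⟩, g1, g4⟩, 1, fun j => ?_⟩
    have hinj : Function.Injective (Matrix.toLin' A) := by
      intro v w hvw
      have h1 := Cfsg.Agent.Lib.Classical.sp_inv_mulVec_mulVec x v
      have h2 := Cfsg.Agent.Lib.Classical.sp_inv_mulVec_mulVec x w
      rw [← h1, ← h2]
      have h3 : A *ᵥ v = A *ᵥ w := hvw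
      show _ *ᵥ (A *ᵥ v) = _ *ᵥ (A *ᵥ w)
      rw [h3]
    apply Submodule.eq_of_le_of_finrank_eq
    · rintro _ ⟨v, hv, rfl⟩
      have h1 : A *ᵥ v = z • T v := by
        rw [hTv, smul_smul, hzz, one_smul]
      show A *ᵥ v ∈ D j
      rw [h1]
      exact (D j).smul_mem _ (g2 j v hv)
    · rw [← LinearEquiv.finrank_eq (Submodule.equivMapOfInjective _ hinj _)]
      rfl

end Cfsg.Agent.S5961
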