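import Cfsg.Statements.S5962
import Cfsg.Agent.Lib.ClassMax.ElusiveSp

set_option autoImplicit false
open scoped MatrixGroups
open Cfsg

namespace Cfsg.Agent.S5962


/-- Involutions of PSp_n(q), q odd, and the subgroups GL_{n/2}(q).2. Here `T = PSp_n(q)`, `n = 2d ≥ 4`, `q` odd, realised through the symplectic matrices over the field `F` with `q` elements; Ω is the set of unordered pairs `{U, W}` of complementary totally isotropic `d`-spaces (`F^n = U ⊕ W`), whose stabilizers are the subgroups of type GL_d(q).2 (maximal except in some small cases; maximality is not assumed); an element of `T` of prime order `r` (a symplectic matrix `x` with `x^r` scalar, `x` not scalar) fixes such a pair when it fixes or interchanges `U` and `W`. If the number of such pairs is even, every involution of `T` fixes one of them (the action is 2-elusive). -/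
theorem result {F : Type*} [Field F] [Fintype F] {p : ℕ} [Fact p.Prime] [CharP F p] {q : ℕ} (hq : Fintype.card F = q)
    (d : ℕ) (hd : 2 ≤ d) (hT : (d, q) ≠ (2, 2)) (hodd : Odd q)
    (hΩ : 2 ∣ Nat.card {P : Submodule F (Fin d ⊕ Fin d → F) × Submodule F (Fin d ⊕ Fin d → F) // IsCompl P.1 P.2 ∧ (∀ u ∈ P.1, ∀ v ∈ P.1, Cfsg.sympForm d F u v = 0) ∧ (∀ u ∈ P.2, ∀ v ∈ P.2, Cfsg.sympForm d F u v = 0)} / 2)
    (x : ↥(Matrix.symplecticGroup (Fin d) F))
    (hx1 : ∃ z : F, ((x ^ 2 : ↥(Matrix.symplecticGroup (Fin d) F)) : Matrix (Fin d ⊕ Fin d) (Fin d ⊕ Fin d) F) = z • (1 : Matrix (Fin d ⊕ Fin d) (Fin d ⊕ Fin d) F))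
    (hx2 : ∀ z : F, (x : Matrix (Fin d ⊕ Fin d) (Fin d ⊕ Fin d) F) ≠ z • (1 : Matrix (Fin d ⊕ Fin d) (Fin d ⊕ Fin d) F)) :
    ∃ U W : Submodule F (Fin d ⊕ Fin d → F), IsCompl U W ∧ (∀ u ∈ U, ∀ v ∈ U, Cfsg.sympForm d F u v = 0) ∧ (∀ u ∈ W, ∀ v ∈ W, Cfsg.sympForm d F u v = 0) ∧
        ((U.map (Matrix.toLin' (x : Matrix (Fin d ⊕ Fin d) (Fin d ⊕ Fin d) F)) = U ∧ W.map (Matrix.toLin' (x : Matrix (Fin d ⊕ Fin d) (Fin d ⊕ Fin d) F)) = W) ∨
         (U.map (Matrix.toLin' (x : Matrix (Fin d ⊕ Fin d) (Fin d ⊕ Fin d) F)) = W ∧ W.map (Matrix.toLin' (x : Matrix (Fin d ⊕ Fin d) (Fin d ⊕ Fin d) F)) = U)) := by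
  classical
  obtain ⟨z, hz⟩ := hx1
  obtain ⟨hiso, hinj, hxx, hz0⟩ := Cfsg.Agent.Lib.ClassMax.ElusiveSp.symp_data x (by omega) hz
  have h2 : (2 : F) ≠ 0 := by
    apply Ring.two_ne_zero
    intro h
    have h3 := FiniteField.even_card_iff_char_two.mp h
    rw [hq] at h3
    exact (Nat.not_even_iff_odd.mpr hodd) (Nat.even_iff.mpr h3)
  set L : (Fin d ⊕ Fin d → F) →ₗ[F] (Fin d ⊕ Fin d → F) := Matrix.toLin' (x : Matrix (Fin d ⊕ Fin d) (Fin d ⊕ Fin d) F) with hL
  set B := Cfsg.Agent.Lib.ClassMax.ElusiveSp.sympB d F with hB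
  have hnd : Cfsg.Agent.Lib.ClassMax.ElusiveSp.Nd B ⊤ := Cfsg.Agent.Lib.ClassMax.ElusiveSp.sympB_nd
  have halt : ∀ v, B v v = 0 := Cfsg.Agent.Lib.ClassMax.ElusiveSp.sympB_alt
  have hzz : z * z = 1 := by
    have hne : (Pi.single (Sum.inl ⟨0, by omega⟩) 1 : Fin d ⊕ Fin d → F) ≠ 0 := by
      intro h
      have h3 := congrFun h (Sum.inl ⟨0, by omega⟩)
      simp at h3
    obtain ⟨v, -, hv⟩ := hnd _ trivial hne
    have h3 : B (L (L (Pi.single (Sum.inl ⟨0, by omega⟩) 1))) (L (L v)) = B (Pi.single (Sum.inl ⟨0, by omega⟩) 1) v := by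
      rw [hiso, hiso]
    rw [hxx, hxx, map_smul, map_smul, LinearMap.smul_apply, smul_eq_mul, smul_eq_mul] at h3
    have h6 : (z * z - 1) * B (Pi.single (Sum.inl ⟨0, by omega⟩) 1) v = 0 := by
      linear_combination h3
    have h7 := (mul_eq_zero.mp h6).resolve_right hv
    linear_combination h7
  have hz1 : z = 1 ∨ z = -1 := by
    have : (z - 1) * (z + 1) = 0 := by linear_combination hzz
    rcases mul_eq_zero.mp this with h | h
    · left; linear_combination h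
    · right; linear_combination h
  have hconv : ∀ U W : Submodule F (Fin d ⊕ Fin d → F), IsCompl U W → (∀ u ∈ U, ∀ v ∈ U, B u v = 0) → (∀ u ∈ W, ∀ v ∈ W, B u v = 0) →
      ((U.map L = U ∧ W.map L = W) ∨ (U.map L = W ∧ W.map L = U)) →
      ∃ U W : Submodule F (Fin d ⊕ Fin d → F), IsCompl U W ∧ (∀ u ∈ U, ∀ v ∈ U, Cfsg.sympForm d F u v = 0) ∧ (∀ u ∈ W, ∀ v ∈ W, Cfsg.sympForm d F u v = 0) ∧
        ((U.map L = U ∧ W.map L = W) ∨ (U.map L = W ∧ W.map L = U)) :=
    fun U W h1 h3 h4 h5 => ⟨U, W, h1, h3, h4, h5⟩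
  rcases hz1 with rfl | rfl
  · have hBx : ∀ v, B v (L v) = 0 := by
      intro v
      have h3 := hiso v (L v)
      rw [hxx, one_smul] at h3
      have h4 : B (L v) v = - B v (L v) := Cfsg.Agent.Lib.ClassMax.ElusiveSp.skew halt _ _
      have h5 : (2 : F) * B v (L v) = 0 := by
        linear_combination h4 - h3
      exact (mul_eq_zero.mp h5).resolve_left h2
    obtain ⟨U, W, h1, h3, h4, h5, h6⟩ := Cfsg.Agent.Lib.ClassMax.ElusiveSp.exists_lagrangian_fix halt L hiso hz0 hxx hnd hinj hBx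
    exact hconv U W h1 h3 h4 (Or.inl ⟨h5, h6⟩)
  · by_cases hi : ∃ i : F, i * i = -1
    · obtain ⟨i, hi⟩ := hi
      obtain ⟨U, W, h1, h3, h4, h5, h6⟩ := Cfsg.Agent.Lib.ClassMax.ElusiveSp.exists_lagrangian_eigen halt L hiso hi h2 hxx
      exact hconv U W h1 h3 h4 (Or.inl ⟨h5, h6⟩)
    · have hne : ∀ v, v ≠ 0 → ∀ c : F, L v ≠ c • v := by
        intro v hv c hc
        apply hi
        refine ⟨c, ?_⟩
        have h3 := hxx v
        rw [hc, map_smul, hc, smul_smul] at h3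
        have h4 : (c * c + 1) • v = 0 := by
          rw [add_smul, h3]; simp
        have h5 := (smul_eq_zero.mp h4).resolve_right hv
        linear_combination h5
      obtain ⟨U, W, h1, h3, h4, h5, h6⟩ := Cfsg.Agent.Lib.ClassMax.ElusiveSp.exists_lagrangian_swap halt L hiso hz0 hxx hnd hinj hne
      exact hconv U W h1 h3 h4 (Or.inr ⟨h5, h6⟩)

end Cfsg.Agent.S5962
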