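import Cfsg.Statements.S5963
import Cfsg.Agent.Lib.ClassMax.EluSpPair

set_option autoImplicit false
open scoped MatrixGroups
open Cfsg

namespace Cfsg.Agent.S5963

open Module Matrix Polynomial Cfsg.Geo Cfsg.Agent.Lib.ClassMax Cfsg.Agent.Lib.ClassMax.ElusiveSp Cfsg.Agent.Lib.ClassMax.EluFix Cfsg.Agent.Lib.ClassMax.EluSpBlock Cfsg.Agent.Lib.ClassMax.EluSpBlock2 Cfsg.Agent.Lib.ClassMax.EluSpPair

set_option maxHeartbeats 2000000 in

/-- Derangements of odd prime order of PSp_n(q), q odd, on pairs of complementary totally isotropic subspaces. Here `T = PSp_n(q)`, `n = 2d ≥ 4`, `q` odd, realised through the symplectic matrices over the field `F` with `q` elements; Ω is the set of unordered pairs `{U, W}` of complementary totally isotropic `d`-spaces (`F^n = U ⊕ W`), whose stabilizers are the subgroups of type GL_d(q).2 (maximal except in some small cases; maximality is not assumed); an element of `T` of prime order `r` (a symplectic matrix `x` with `x^r`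 scalar, `x` not scalar) fixes such a pair when it fixes or interchanges `U` and `W`. For every odd prime `r ≠ p` dividing the number of such pairs, some element of `T` of order `r` fixes no such pair (the action is never `r`-elusive for odd `r ≠ p`). -/
theorem result {F : Type*} [Field F] [Fintype F] {p : ℕ} [Fact p.Prime] [CharP F p] {q : ℕ} (hq : Fintype.card F = q)
    (d : ℕ) (hd : 2 ≤ d) (hT : (d, q) ≠ (2, 2)) (hodd : Odd q)
    (r : ℕ) [Fact r.Prime] (hr2 : r ≠ 2) (hrp : r ≠ p) (hΩ : r ∣ Nat.card {P : Submodule F (Fin d ⊕ Fin d → F) × Submodule F (Fin d ⊕ Fin d → F) // IsCompl P.1 P.2 ∧ (∀ u ∈ P.1, ∀ v ∈ P.1, Cfsg.sympForm d F u v = 0) ∧ (∀ u ∈ P.2, ∀ v ∈ P.2, Cfsg.sympForm d F u v = 0)} / 2) :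
    ∃ x : ↥(Matrix.symplecticGroup (Fin d) F),
      (∃ z : F, ((x ^ r : ↥(Matrix.symplecticGroup (Fin d) F)) : Matrix (Fin d ⊕ Fin d) (Fin d ⊕ Fin d) F) = z • (1 : Matrix (Fin d ⊕ Fin d) (Fin d ⊕ Fin d) F)) ∧
      (∀ z : F, (x : Matrix (Fin d ⊕ Fin d) (Fin d ⊕ Fin d) F) ≠ z • (1 : Matrix (Fin d ⊕ Fin d) (Fin d ⊕ Fin d) F)) ∧
      ¬ (∃ U W : Submodule F (Fin d ⊕ Fin d → F), IsCompl U W ∧ (∀ u ∈ U, ∀ v ∈ U, Cfsg.sympForm d F u v = 0) ∧ (∀ u ∈ W, ∀ v ∈ W, Cfsg.sympForm d F u v = 0) ∧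
        ((U.map (Matrix.toLin' (x : Matrix (Fin d ⊕ Fin d) (Fin d ⊕ Fin d) F)) = U ∧ W.map (Matrix.toLin' (x : Matrix (Fin d ⊕ Fin d) (Fin d ⊕ Fin d) F)) = W) ∨
         (U.map (Matrix.toLin' (x : Matrix (Fin d ⊕ Fin d) (Fin d ⊕ Fin d) F)) = W ∧ W.map (Matrix.toLin' (x : Matrix (Fin d ⊕ Fin d) (Fin d ⊕ Fin d) F)) = U))) := by
    classical
  subst hq
  have hr : r.Prime := Fact.out
  have hpp : p.Prime := Fact.out
  obtain ⟨kk, hkk0, hkk⟩ := FiniteField.card F p
  have hrq : ¬ r ∣ Fintype.card F := by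
    intro h
    rw [hkk] at h
    exact hrp ((Nat.prime_dvd_prime_iff_eq hr hpp).mp (hr.dvd_of_dvd_pow h))
  have hd0 : 0 < d := by omega
  obtain ⟨he, hcd⟩ := order_of_dvd_LP hr2 hd0 hrq hΩ
  have hc0 := blockDim_pos (F := F) (r := r) hrq
  have hblock : blockDim F r = orderOf ((Fintype.card F : ℕ) : ZMod r) := by
    unfold blockDim
    rw [if_pos he]
  have hs : 2 * d = blockDim F r * 1 + (2 * d - blockDim F r) := by omega
  obtain ⟨T, hTr, hiso, hker⟩ := exists_iso_model (F := F) (d := d) hrq hs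
  have hne : T ≠ 1 := by
    rintro rfl
    rw [sub_self, LinearMap.ker_zero, finrank_top, finrank_V] at hker
    omega
  obtain ⟨x, hx, h1, h2⟩ := sp_elt_of_iso hr2 hd0 T hTr hiso hne
  refine ⟨x, h1, h2, ?_⟩
  rintro ⟨U, W, hP, hU, hW, ⟨hm1, hm2⟩ | ⟨hm1, hm2⟩⟩
  · rw [hx] at hm1 hm2
    have hiU : Inv T U := by
      intro u hu
      rw [← hm1]
      exact Submodule.mem_map_of_mem hu
    have hiW : Inv T W := by
      intro u hu
      rw [← hm2]
      exact Submodule.mem_map_of_mem hu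
    exact no_fixed_pair hrq he hTr hiso (by omega) hP hU hW hiU hiW
  · rw [hx] at hm1 hm2
    obtain ⟨k₀, hk₀⟩ : ∃ k₀, r = 2 * k₀ + 1 := by
      rcases hr.eq_two_or_odd' with h | ⟨k₀, h⟩
      · exact absurd h hr2
      · exact ⟨k₀, h⟩
    have hstep : ∀ (m : ℕ), ∀ u ∈ U, (T ^ (2 * m)) u ∈ U ∧ (T ^ (2 * m + 1)) u ∈ W := by
      intro m u hu
      induction m with
      | zero =>
        refine ⟨by simpa using hu, ?_⟩
        rw [mul_zero, zero_add, pow_one, ← hm1]
        exact Submodule.mem_map_of_mem hu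
      | succ m ih =>
        have h3 : (T ^ (2 * (m + 1))) u ∈ U := by
          have e : 2 * (m + 1) = (2 * m + 1) + 1 := by ring
          rw [e, pow_succ', Module.End.mul_apply, ← hm2]
          exact Submodule.mem_map_of_mem ih.2
        refine ⟨h3, ?_⟩
        rw [pow_succ', Module.End.mul_apply, ← hm1]
        exact Submodule.mem_map_of_mem h3
    have hle : U ≤ W := by
      intro u hu
      have h3 := (hstep k₀ u hu).2
      rw [← hk₀, hTr] at h3
      exact h3
    have hbot : U = ⊥ := by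
      have h3 := hP.inf_eq_bot
      rwa [inf_eq_left.mpr hle] at h3
    have hL := lagPair_of_LP (P := (U, W)) ⟨hP, hU, hW⟩
    have h4 := hL.finU
    simp only at h4
    rw [hbot, finrank_bot] at h4
    omega

end Cfsg.Agent.S5963
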