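import Cfsg.Statements.S5964
import Cfsg.Agent.Lib.ClassMax.EluInv
import Cfsg.Agent.Lib.ClassMax.EluNil
import Cfsg.Agent.Lib.ClassMax.EluSub

set_option autoImplicit false
open scoped MatrixGroups
open Cfsg

namespace Cfsg.Agent.S5964

open Cfsg.Agent.Lib.ClassMax.SubfieldCore Cfsg.Agent.Lib.ClassMax.EluInv Cfsg.Agent.Lib.ClassMax.EluSub Module


/-- In the quadratic extension every element of the subfield is a square. -/
theorem sq_of_sub {F : Type*} [Field F] [Fintype F] (F₀ : Subfield F) {q₀ : ℕ} (hF₀ : Nat.card ↥F₀ = q₀) (hodd : Odd q₀)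
    (hq : Fintype.card F = q₀ ^ 2) (hc2 : ringChar F ≠ 2) (u : F) (hu : u ∈ F₀) : IsSquare u := by
  classical
  by_cases hu0 : u = 0
  · rw [hu0]; exact IsSquare.zero
  rw [FiniteField.isSquare_iff hc2 hu0, hq]
  haveI : Finite ↥F₀ := inferInstance
  letI : Fintype ↥F₀ := Fintype.ofFinite _
  have h1 : (⟨u, hu⟩ : F₀) ^ (q₀ - 1) = 1 := by
    have hne : (⟨u, hu⟩ : F₀) ≠ 0 := fun h => hu0 (congrArg Subtype.val h)
    have := FiniteField.pow_card_sub_one_eq_one _ hne
    rwa [← Nat.card_eq_fintype_card, hF₀] at this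
  have h2 : u ^ (q₀ - 1) = 1 := by
    have := congrArg Subtype.val h1
    simpa using this
  obtain ⟨t, rfl⟩ := hodd
  have e : (2 * t + 1) ^ 2 / 2 = (2 * t + 1 - 1) * (t + 1) := by
    have : (2 * t + 1) ^ 2 = 2 * ((2 * t) * (t + 1)) + 1 := by ring
    rw [this]
    simp
    omega
  rw [e, pow_mul, h2, one_pow]


/-- The index of the subfield subgroup is odd when `q` and `k` are odd. -/
theorem index_odd {F : Type*} [Field F] [Fintype F] {q : ℕ} (hq : Fintype.card F = q) {n : ℕ} (hn : 2 ≤ n)
    (F₀ : Subfield F) {k q₀ : ℕ} (hF₀ : Nat.card ↥F₀ = q₀) (hqk : q = q₀ ^ k) (hodd : Odd q) (hk : Odd k) :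
    ¬ 2 ∣ ((Cfsg.Geo.subfieldSubgroup F₀ 1).comap (Matrix.SpecialLinearGroup.toGL : Matrix.SpecialLinearGroup (Fin n) F →* GL (Fin n) F)).index := by
  classical
  haveI : NeZero n := ⟨by omega⟩
  haveI : Nonempty (Fin n) := ⟨⟨0, by omega⟩⟩
  letI : Fintype ↥F₀ := Fintype.ofFinite _
  have hq₀odd : Odd q₀ := by
    rw [hqk] at hodd
    exact (Nat.odd_pow_iff (by
      have := hk.pos; omega)).mp hodd
  have hq₀2 : 2 ≤ q₀ := by
    rw [← hF₀]
    exact Finite.one_lt_card
  have hcq₀ : Fintype.card ↥F₀ = q₀ := by rw [← Nat.card_eq_fintype_card, hF₀]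
  set H := (Cfsg.Geo.subfieldSubgroup F₀ 1).comap (Matrix.SpecialLinearGroup.toGL : Matrix.SpecialLinearGroup (Fin n) F →* GL (Fin n) F) with hH
  let ι : Matrix.SpecialLinearGroup (Fin n) ↥F₀ →* Matrix.SpecialLinearGroup (Fin n) F := Matrix.SpecialLinearGroup.map F₀.subtype
  have hιinj : Function.Injective ι := by
    intro a b hab
    apply Subtype.ext
    ext i j
    have := congrArg (fun y : Matrix.SpecialLinearGroup (Fin n) F => (y : Matrix (Fin n) (Fin n) F) i j) hab
    exact this
  have hL : ι.range ≤ H := by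
    rintro _ ⟨g, rfl⟩
    rw [hH, mem_sub_iff]
    refine ⟨1, one_ne_zero, fun i j => ?_⟩
    rw [one_smul]
    exact ((g : Matrix (Fin n) (Fin n) ↥F₀) i j).2
  have hdvd : H.index ∣ ι.range.index := Subgroup.index_dvd_of_le hL
  have hcL : Nat.card ι.range = Nat.card (Matrix.SpecialLinearGroup (Fin n) ↥F₀) := Nat.card_congr (MonoidHom.ofInjective hιinj).toEquiv.symm
  have h1 : ι.range.index * Nat.card (Matrix.SpecialLinearGroup (Fin n) ↥F₀) = Nat.card (Matrix.SpecialLinearGroup (Fin n) F) := by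
    rw [← hcL]
    exact Subgroup.index_mul_card _
  have h2 := Cfsg.Agent.Lib.Classical.card_GL_eq_mul_card_SL (F := F) (Fin n)
  have h3 := Cfsg.Agent.Lib.Classical.card_GL_eq_mul_card_SL (F := ↥F₀) (Fin n)
  rw [Matrix.card_GL_field, Nat.card_eq_fintype_card, hq] at h2
  rw [Matrix.card_GL_field, Nat.card_eq_fintype_card, hcq₀] at h3
  -- the odd cofactors
  have hf : ∀ i : Fin n, ∃ R : ℕ, Odd R ∧ q ^ n - q ^ (i : ℕ) = (q₀ ^ n - q₀ ^ (i : ℕ)) * R := by
    intro i
    rw [hqk]
    exact factor_odd hq₀odd hq₀2 hk i.2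
  choose R hRodd hR using hf
  have hprod : (∏ i : Fin n, (q ^ n - q ^ (i : ℕ))) = (∏ i : Fin n, (q₀ ^ n - q₀ ^ (i : ℕ))) * ∏ i, R i := by
    rw [← Finset.prod_mul_distrib]
    exact Finset.prod_congr rfl (fun i _ => hR i)
  have hRR : Odd (∏ i, R i) := by
    apply Finset.prod_induction _ Odd (fun a b ha hb => ha.mul hb) odd_one
    exact fun i _ => hRodd i
  -- q - 1 = (q₀ - 1) * G
  obtain ⟨G, hGodd, hG⟩ : ∃ G : ℕ, Odd G ∧ q - 1 = (q₀ - 1) * G := by
    obtain ⟨G, hG1, hG2⟩ := factor_odd (n := 1) (i := 0) hq₀odd hq₀2 hk (by omega)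
    refine ⟨G, hG1, ?_⟩
    simpa [hqk] using hG2
  have hq₀1 : 0 < q₀ - 1 := by omega
  have hpos : 0 < Nat.card (Matrix.SpecialLinearGroup (Fin n) ↥F₀) := Nat.card_pos
  have hkey : G * ι.range.index = ∏ i, R i := by
    have h5 : (q₀ - 1) * Nat.card (Matrix.SpecialLinearGroup (Fin n) ↥F₀) * (G * ι.range.index) = (q₀ - 1) * Nat.card (Matrix.SpecialLinearGroup (Fin n) ↥F₀) * ∏ i, R i := by
      calc (q₀ - 1) * Nat.card (Matrix.SpecialLinearGroup (Fin n) ↥F₀) * (G * ι.range.index)
          = ((q₀ - 1) * G) * (ι.range.index * Nat.card (Matrix.SpecialLinearGroup (Fin n) ↥F₀)) := by ring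
        _ = (q - 1) * Nat.card (Matrix.SpecialLinearGroup (Fin n) F) := by rw [← hG, h1]
        _ = ∏ i : Fin n, (q ^ n - q ^ (i : ℕ)) := h2.symm
        _ = (∏ i : Fin n, (q₀ ^ n - q₀ ^ (i : ℕ))) * ∏ i, R i := hprod
        _ = _ := by rw [h3]
    exact Nat.eq_of_mul_eq_mul_left (Nat.mul_pos hq₀1 hpos) h5
  intro hd
  have h6 : 2 ∣ ∏ i, R i := by
    rw [← hkey]
    exact Dvd.dvd.mul_left (hd.trans hdvd) _
  exact (Nat.not_even_iff_odd.mpr hRR) (even_iff_two_dvd.mpr h6)

/-- An element of a prescribed power killing all `2`-parts which is not a square. -/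
theorem exists_nonsquare_pow {F : Type*} [Field F] [Fintype F] (hc2 : ringChar F ≠ 2) {m : ℕ}
    (hm : 2 ^ padicValNat 2 (Fintype.card F - 1) ∣ m) : ∃ y : F, y ^ m = 1 ∧ ¬ IsSquare y := by
  classical
  set q := Fintype.card F with hq
  have h2 : (2 : F) ≠ 0 := Ring.two_ne_zero hc2
  have hq2 : q % 2 = 1 := FiniteField.odd_card_of_char_ne_two hc2
  have hq1 : 2 ≤ q := Fintype.one_lt_card
  obtain ⟨g, hg⟩ := IsCyclic.exists_generator (α := Fˣ)
  have hord : orderOf g = q - 1 := by
    rw [orderOf_eq_card_of_forall_mem_zpowers hg, Nat.card_eq_fintype_card, Fintype.card_units]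
  set a := padicValNat 2 (q - 1) with ha
  have hq1' : q - 1 ≠ 0 := by omega
  obtain ⟨u, hu⟩ : 2 ^ a ∣ q - 1 := pow_padicValNat_dvd
  have huodd : Odd u := by
    rw [← Nat.not_even_iff_odd, even_iff_two_dvd]
    rintro ⟨t, rfl⟩
    have : 2 ^ (a + 1) ∣ q - 1 := ⟨t, by rw [hu]; ring⟩
    exact pow_succ_padicValNat_not_dvd hq1' this
  have hg1 : ∀ t : ℕ, q - 1 ∣ t → (g : F) ^ t = 1 := by
    intro t ht
    have : g ^ t = 1 := orderOf_dvd_iff_pow_eq_one.mp (by rw [hord]; exact ht)
    have := congrArg Units.val this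
    simpa using this
  refine ⟨(g : F) ^ u, ?_, ?_⟩
  · rw [← pow_mul]
    apply hg1
    obtain ⟨w, rfl⟩ := hm
    rw [hu]
    exact ⟨w, by ring⟩
  · intro hsq
    have hne : (g : F) ^ u ≠ 0 := pow_ne_zero _ g.ne_zero
    have h3 := (FiniteField.isSquare_iff hc2 hne).mp hsq
    rw [← pow_mul, mul_comm, pow_mul] at h3
    have hhalf : (g : F) ^ (q / 2) = -1 := by
      rcases FiniteField.pow_dichotomy hc2 g.ne_zero with h | h
      · exfalso
        have h4 : g ^ (q / 2) = 1 := Units.ext (by simpa using h)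
        have h5 := orderOf_dvd_of_pow_eq_one h4
        rw [hord] at h5
        have := Nat.le_of_dvd (by omega) h5
        omega
      · exact h
    rw [hhalf, huodd.neg_one_pow] at h3
    have : (2 : F) = 0 := by linear_combination -h3
    exact h2 this


/-- Involutions of PSL_n(q) and subfield subgroups. Here `T = PSL_n(F)` for a field `F` with `q = p^f` elements (`n ≥ 2`, `(n, q) ≠ (2, 2), (2, 3)`), `F₀` is the subfield with `q₀` elements where `q = q₀^k` for a prime `k`, and `H` is the subgroup of matrices of determinant 1 lying in the subfield group of `F₀` (invertible matrices over `F₀` times scalars) — a maximal subgroup of type GL_n(q₀) (the case `n = 2`, `q₀ = 2` is excluded); Ω is the set of `T`-conjugates of `H` (cosets of `H`), so an element of `T` of prime order `r` (a matrix `x` of determinant 1 with `x^r` scalar, `x` not scalar) fixes a point of Ω when some conjugate of `x` by a matrix of determinant 1 lies in `H`. Suppose the index of `H` is even. Then every involution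 of `T` is conjugate in `T` into `H` if and only if either `q` is even, or `k = 2` and `(n)_2 ≤ (q − 1)_2`. (For `q` odd and `k` odd the index of `H` is odd, so that case does not arise.) -/
theorem result {F : Type*} [Field F] [Fintype F] {p : ℕ} [Fact p.Prime] [CharP F p] {q : ℕ} (hq : Fintype.card F = q)
    (n : ℕ) (hn : 2 ≤ n) (hT : (n, q) ≠ (2, 2) ∧ (n, q) ≠ (2, 3))
    (F₀ : Subfield F) (k q₀ : ℕ) (hk : k.Prime) (hF₀ : Nat.card ↥F₀ = q₀) (hqk : q = q₀ ^ k) (hC5 : ¬ (n = 2 ∧ q₀ = 2)) (hΩ : 2 ∣ ((Cfsg.Geo.subfieldSubgroup F₀ 1).comap (Matrix.SpecialLinearGroup.toGL : Matrix.SpecialLinearGroup (Fin n) F →* GL (Fin n) F)).index) :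
    (∀ x : Matrix.SpecialLinearGroup (Fin n) F,
      (∃ z : F, ((x ^ 2 : Matrix.SpecialLinearGroup (Fin n) F) : Matrix (Fin n) (Fin n) F) = z • (1 : Matrix (Fin n) (Fin n) F)) →
      (∀ z : F, (x : Matrix (Fin n) (Fin n) F) ≠ z • (1 : Matrix (Fin n) (Fin n) F)) →
      ∃ P : Matrix.SpecialLinearGroup (Fin n) F, P⁻¹ * x * P ∈ ((Cfsg.Geo.subfieldSubgroup F₀ 1).comap (Matrix.SpecialLinearGroup.toGL : Matrix.SpecialLinearGroup (Fin n) F →* GL (Fin n) F))) ↔
    (Odd q → (k = 2 ∧ padicValNat 2 n ≤ padicValNat 2 (q - 1))) := by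
    classical
  have hpp : p.Prime := Fact.out
  have hn0 : 0 < n := by omega
  haveI : NeZero n := ⟨by omega⟩
  haveI : Nonempty (Fin n) := ⟨⟨0, by omega⟩⟩
  have hneg : ∀ (hq₀ : Odd q₀), k = 2 → IsSquare (-1 : F) := by
    intro hq₀ hk2
    rw [FiniteField.isSquare_neg_one_iff, hq, hqk, hk2]
    obtain ⟨t, rfl⟩ := hq₀
    have : (2 * t + 1) ^ 2 = 4 * (t * t + t) + 1 := by ring
    rw [this]
    omega
  have hq₀odd : Odd q → Odd q₀ := by
    intro h
    rw [hqk] at h
    exact (Nat.odd_pow_iff hk.ne_zero).mp h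
  constructor
  · intro hall hoddq
    have hc2 : ringChar F ≠ 2 := by
      intro h
      have h3 := FiniteField.even_card_iff_char_two.mp h
      rw [hq] at h3
      exact (Nat.not_even_iff_odd.mpr hoddq) (Nat.even_iff.mpr h3)
    have h2 : (2 : F) ≠ 0 := Ring.two_ne_zero hc2
    have hk2 : k = 2 := by
      by_contra hk2
      exact index_odd hq hn F₀ hF₀ hqk hoddq (hk.odd_of_ne_two hk2) hΩ
    refine ⟨hk2, ?_⟩
    by_contra hlt
    push Not at hlt
    have hn2 : 2 ∣ n := dvd_of_one_le_padicValNat (by omega)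
    obtain ⟨m, rfl⟩ := hn2
    have hm0 : m ≠ 0 := by omega
    have hvm : padicValNat 2 (q - 1) ≤ padicValNat 2 m := by
      rw [padicValNat.mul (by norm_num) hm0] at hlt
      simp at hlt
      omega
    have hdvdm : 2 ^ padicValNat 2 (Fintype.card F - 1) ∣ m := by
      rw [hq]
      exact (pow_dvd_pow 2 hvm).trans pow_padicValNat_dvd
    obtain ⟨y, hy1, hy2⟩ := exists_nonsquare_pow hc2 hdvdm
    set z : F := -y with hzdef
    have hnz : ∀ c : F, c * c ≠ z := by
      intro c hc
      obtain ⟨i, hi⟩ := hneg (hq₀odd hoddq) hk2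
      apply hy2
      refine ⟨i * c, ?_⟩
      have : y = -z := by rw [hzdef, neg_neg]
      rw [this, ← hc]
      linear_combination (c * c) * hi
    obtain ⟨e⟩ := exists_equiv_two (n := 2 * m) m rfl
    set A : Matrix (Fin (2 * m)) (Fin (2 * m)) F := kronModel (compSq z) e with hA
    have hdet : A.det = 1 := by
      rw [hA, kronModel_det, compSq_det, hzdef, neg_neg, hy1]
    have hAA : A * A = z • 1 := kron_compSq_sq z e
    let x : Matrix.SpecialLinearGroup (Fin (2 * m)) F := ⟨A, hdet⟩
    have hx2 : ((x ^ 2 : Matrix.SpecialLinearGroup (Fin (2 * m)) F) : Matrix (Fin (2 * m)) (Fin (2 * m)) F) = z • 1 := by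
      rw [Matrix.SpecialLinearGroup.coe_pow, pow_two]
      exact hAA
    have hxs : ∀ c : F, (x : Matrix (Fin (2 * m)) (Fin (2 * m)) F) ≠ c • 1 := by
      intro c hc
      have hc' : A = c • 1 := hc
      rw [hc'] at hAA
      have h3 := congrFun (congrFun hAA 0) 0
      simp at h3
      exact hnz c h3
    obtain ⟨P, hP⟩ := hall x ⟨z, hx2⟩ hxs
    rw [mem_sub_iff] at hP
    obtain ⟨c, hc, hrat⟩ := hP
    set B : Matrix (Fin (2 * m)) (Fin (2 * m)) F := ((P⁻¹ * x * P : Matrix.SpecialLinearGroup (Fin (2 * m)) F) : Matrix (Fin (2 * m)) (Fin (2 * m)) F) with hB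
    have hBB : B * B = z • 1 := by
      have h3 : (P⁻¹ * x * P) * (P⁻¹ * x * P) = P⁻¹ * (x * x) * P := by group
      have h4 : B * B = ((P⁻¹ : Matrix.SpecialLinearGroup (Fin (2 * m)) F) : Matrix (Fin (2 * m)) (Fin (2 * m)) F) * (A * A) * (P : Matrix (Fin (2 * m)) (Fin (2 * m)) F) :=
        congrArg (fun y : Matrix.SpecialLinearGroup (Fin (2 * m)) F => (y : Matrix (Fin (2 * m)) (Fin (2 * m)) F)) h3
      rw [h4, hAA]
      simp only [Matrix.mul_smul, Matrix.smul_mul, mul_one]
      congr 1
      have h5 : ((P⁻¹ * P : Matrix.SpecialLinearGroup (Fin (2 * m)) F) : Matrix (Fin (2 * m)) (Fin (2 * m)) F) = 1 := by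
        rw [inv_mul_cancel]; rfl
      exact h5
    have hMM : (c • B) * (c • B) = (c * c * z) • 1 := by
      rw [Matrix.smul_mul, Matrix.mul_smul, hBB, smul_smul, smul_smul]
    have hrat2 := hrat.mul hrat
    rw [hMM] at hrat2
    have hmem : c * c * z ∈ F₀ := by
      have := hrat2 0 0
      simpa using this
    obtain ⟨b, hb⟩ := sq_of_sub F₀ hF₀ (hq₀odd hoddq) (by rw [hq, hqk, hk2]) hc2 _ hmem
    apply hnz (b / c)
    field_simp
    linear_combination -hb
  · intro hR x hxz hns
    obtain ⟨z, hz⟩ := hxz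
    set A : Matrix (Fin n) (Fin n) F := (x : Matrix (Fin n) (Fin n) F) with hA
    have hAA : A * A = z • 1 := by
      rw [← hz, Matrix.SpecialLinearGroup.coe_pow, pow_two]
    have hdet : A.det = 1 := x.2
    have hz0 : z ≠ 0 := by
      rintro rfl
      have h3 := congrArg Matrix.det hAA
      rw [Matrix.det_mul, hdet, zero_smul, Matrix.det_zero] at h3
      simp at h3
    by_cases hoddq : Odd q
    · obtain ⟨hk2, hv⟩ := hR hoddq
      have hc2 : ringChar F ≠ 2 := by
        intro h
        have h3 := FiniteField.even_card_iff_char_two.mp h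
        rw [hq] at h3
        exact (Nat.not_even_iff_odd.mpr hoddq) (Nat.even_iff.mpr h3)
      have h2 : (2 : F) ≠ 0 := Ring.two_ne_zero hc2
      by_cases hsq : ∃ c : F, c * c = z
      · obtain ⟨c, rfl⟩ := hsq
        have hc : c ≠ 0 := fun h => hz0 (by rw [h]; ring)
        have hj : finrank F (LinearMap.ker (Matrix.toLin' (A + c • 1))) ≤ n := by
          have := finrank_split h2 hc A hAA
          omega
        obtain ⟨P, hP, hAP⟩ := conj_split hn0 h2 hc A (c • diagModel n (finrank F (LinearMap.ker (Matrix.toLin' (A + c • 1)))) F) hAA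
          (scaled_diagModel_sq _ c) (by rw [finrank_ker_diagModel h2 hc hj])
        apply conj_mem F₀ x P _ hP hAP (c := c⁻¹) (inv_ne_zero hc)
        rw [smul_smul, inv_mul_cancel₀ hc, one_smul]
        intro i j
        unfold diagModel
        by_cases hij : i = j
        · subst hij
          rw [Matrix.diagonal_apply_eq]
          split_ifs
          · exact F₀.neg_mem F₀.one_mem
          · exact F₀.one_mem
        · rw [Matrix.diagonal_apply_ne _ hij]
          exact F₀.zero_mem
      · exfalso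
        push Not at hsq
        obtain ⟨m, hm⟩ := even_of_nonsq hsq A hAA
        have hm2 : n = 2 * m := by omega
        have hdetm := det_nonsq hsq hm2 hn0 A hAA
        rw [hdet] at hdetm
        set w : F := -z with hw
        have hwns : ¬ IsSquare w := by
          rintro ⟨b, hb⟩
          obtain ⟨i, hi⟩ := hneg (hq₀odd hoddq) hk2
          apply hsq (i * b)
          have : z = -w := by rw [hw, neg_neg]
          rw [this, hb]
          linear_combination (-(b * b)) * hi
        have hw0 : w ≠ 0 := by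
          rw [hw]; exact neg_ne_zero.mpr hz0
        have hhalf : w ^ (q / 2) = -1 := by
          rcases FiniteField.pow_dichotomy hc2 hw0 with h | h
          · exfalso
            apply hwns
            rw [FiniteField.isSquare_iff hc2 hw0]
            exact h
          · rw [← hq]; exact h
        have hm0 : m ≠ 0 := by omega
        have hq1 : q - 1 ≠ 0 := by
          have := hoddq.pos
          have h5 : 1 < q := by
            rw [← hq]; exact Fintype.one_lt_card
          omega
        -- the 2-parts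
        obtain ⟨m', hm'⟩ : 2 ^ padicValNat 2 m ∣ m := pow_padicValNat_dvd
        have hm'odd : Odd m' := by
          rw [← Nat.not_even_iff_odd, even_iff_two_dvd]
          rintro ⟨t, rfl⟩
          have : 2 ^ (padicValNat 2 m + 1) ∣ m := ⟨t, by
            calc m = 2 ^ padicValNat 2 m * (2 * t) := hm'
              _ = _ := by ring⟩
          exact pow_succ_padicValNat_not_dvd hm0 this
        obtain ⟨u, hu⟩ : 2 ^ padicValNat 2 (q - 1) ∣ q - 1 := pow_padicValNat_dvd
        have hvn : padicValNat 2 m + 1 ≤ padicValNat 2 (q - 1) := by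
          rw [hm2, padicValNat.mul (by norm_num) hm0] at hv
          simp at hv
          omega
        obtain ⟨t, ht⟩ : ∃ t, padicValNat 2 (q - 1) = padicValNat 2 m + 1 + t := ⟨_, (Nat.add_sub_cancel' hvn).symm⟩
        have hqhalf : q / 2 = 2 ^ (padicValNat 2 m + t) * u := by
          have h5 : q - 1 = 2 * (2 ^ (padicValNat 2 m + t) * u) := by
            calc q - 1 = 2 ^ padicValNat 2 (q - 1) * u := hu
              _ = 2 ^ (padicValNat 2 m + 1 + t) * u := by rw [← ht]
              _ = _ := by ring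
          have h6 := hoddq.pos
          omega
        have h7 : w ^ ((q / 2) * m') = -1 := by
          rw [pow_mul, hhalf, hm'odd.neg_one_pow]
        have h8 : (q / 2) * m' = m * (2 ^ t * u) := by
          rw [hqhalf]
          conv_rhs => rw [hm']
          ring
        rw [h8, pow_mul, ← hdetm, one_pow] at h7
        have : (2 : F) = 0 := by linear_combination h7
        exact h2 this
    · -- characteristic two
      have hc2 : ringChar F = 2 := by
        rw [FiniteField.even_card_iff_char_two, hq]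
        exact Nat.even_iff.mp (Nat.not_odd_iff_even.mp hoddq)
      have h20 : (2 : F) = 0 := by
        have := ringChar.spec F 2
        rw [hc2] at this
        exact_mod_cast this.mpr dvd_rfl
      obtain ⟨c, rfl⟩ := FiniteField.isSquare_of_char_two hc2 z
      have hc : c ≠ 0 := fun h => hz0 (by rw [h]; ring)
      set N : Matrix (Fin n) (Fin n) F := c⁻¹ • A - 1 with hN
      have hNN : N * N = 0 := by
        have e1 : (c⁻¹ • A) * (c⁻¹ • A) = 1 := by
          rw [Matrix.smul_mul, Matrix.mul_smul, hAA, smul_smul, smul_smul]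
          have : c⁻¹ * c⁻¹ * (c * c) = 1 := by field_simp
          rw [this, one_smul]
        rw [hN, sub_mul, mul_sub, mul_sub, e1, mul_one, one_mul, mul_one]
        have e2 : (c⁻¹ • A) + (c⁻¹ • A) = 0 := by
          rw [← two_smul F, h20, zero_smul]
        have e3 : (1 : Matrix (Fin n) (Fin n) F) + 1 = 0 := by
          rw [← two_smul F, h20, zero_smul]
        calc 1 - c⁻¹ • A - (c⁻¹ • A - 1) = (1 + 1) - (c⁻¹ • A + c⁻¹ • A) := by abel
          _ = 0 := by rw [e2, e3, sub_zero]
      have hN0 : N ≠ 0 := by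
        intro h
        apply hns c
        have h3 : c⁻¹ • A = 1 := sub_eq_zero.mp h
        rw [← h3, smul_smul, mul_inv_cancel₀ hc, one_smul]
      have hNp : N ^ 2 = 0 := by rw [pow_two, hNN]
      obtain ⟨P₀, M, hP₀, hNP, hM⟩ := Cfsg.Agent.Lib.ClassMax.EluNil.exists_rational_model N hNp
      obtain ⟨a, ha⟩ := FiniteField.isSquare_of_char_two hc2 (P₀.det)⁻¹
      have hL2 : (Matrix.toLin' N) ^ (1 + 1) = 0 := by
        rw [← Matrix.toLin'_pow, hNp, map_zero]
      have hL1 : (Matrix.toLin' N) ^ 1 ≠ 0 := by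
        rw [pow_one]
        intro h
        apply hN0
        exact (Matrix.toLin' (R := F) (m := Fin n) (n := Fin n)).injective (by rw [h, map_zero])
      obtain ⟨c₁, hc₁, hdc⟩ := Cfsg.Agent.Lib.ClassMax.EluNil.exists_comm_det_block (Matrix.toLin' N) hL2 hL1 a
      set C : Matrix (Fin n) (Fin n) F := LinearMap.toMatrix' c₁ with hC
      have hCN : C * N = N * C := by
        apply (Matrix.toLin' (R := F) (m := Fin n) (n := Fin n)).injective
        rw [Matrix.toLin'_mul, Matrix.toLin'_mul, hC, Matrix.toLin'_toMatrix']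
        apply LinearMap.ext
        intro v
        exact hc₁ v
      set P : Matrix (Fin n) (Fin n) F := C * P₀ with hP
      have hPd : P.det = 1 := by
        rw [hP, Matrix.det_mul, hC, LinearMap.det_toMatrix', hdc, pow_two, ← ha, inv_mul_cancel₀ hP₀]
      have hNP2 : N * P = P * M := by
        rw [hP, ← mul_assoc, ← hCN, mul_assoc, hNP, mul_assoc]
      have hAN : A = c • (N + 1) := by
        rw [hN, sub_add_cancel, smul_smul, mul_inv_cancel₀ hc, one_smul]
      have hAP : A * P = P * (c • (M + 1)) := by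
        rw [hAN, Matrix.smul_mul, add_mul, one_mul, hNP2, Matrix.mul_smul, mul_add, mul_one]
      apply conj_mem F₀ x P _ hPd hAP (c := c⁻¹) (inv_ne_zero hc)
      rw [smul_smul, inv_mul_cancel₀ hc, one_smul]
      apply RatM.add
      · intro i j
        rcases hM i j with h | h <;> rw [h]
        · exact F₀.zero_mem
        · exact F₀.one_mem
      · exact ratM_one

end Cfsg.Agent.S5964
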