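import Cfsg.Statements.S5966
import Cfsg.Agent.Lib.ClassMax.EluQuad
import Cfsg.Agent.Lib.ClassMax.EluSub

set_option autoImplicit false
open scoped MatrixGroups
open Cfsg

namespace Cfsg.Agent.S5966

open Module Matrix Cfsg.Agent.Lib.ClassMax.SubfieldCore Cfsg.Agent.Lib.ClassMax.EluSub Cfsg.Agent.Lib.ClassMax.EluQuad

section blocks

variable {R : Type*} [Field R] {n b : ℕ}

/-- The model of type `2^b`. -/
def blockN (R : Type*) [Field R] (e : Fin n ≃ Fin b ⊕ Fin b) : Matrix (Fin n) (Fin n) R :=
  (Matrix.fromBlocks 0 0 1 0).submatrix e e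

/-- A partner of the model. -/
def blockW (R : Type*) [Field R] (e : Fin n ≃ Fin b ⊕ Fin b) : Matrix (Fin n) (Fin n) R :=
  (Matrix.fromBlocks 0 1 0 0).submatrix e e

theorem blockN_sq (e : Fin n ≃ Fin b ⊕ Fin b) : blockN R e * blockN R e = 0 := by
  unfold blockN
  rw [Matrix.submatrix_mul_equiv, Matrix.fromBlocks_multiply]
  simp

theorem blockN_swap (e : Fin n ≃ Fin b ⊕ Fin b) : blockW R e * blockN R e + blockN R e * blockW R e = 1 := by
  classical
  have h1 : (Matrix.fromBlocks 0 1 0 0 * Matrix.fromBlocks 0 0 1 0 : Matrix (Fin b ⊕ Fin b) (Fin b ⊕ Fin b) R) + Matrix.fromBlocks 0 0 1 0 * Matrix.fromBlocks 0 1 0 0 = 1 := by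
    rw [Matrix.fromBlocks_multiply, Matrix.fromBlocks_multiply]
    simp [Matrix.fromBlocks_add]
  unfold blockN blockW
  rw [Matrix.submatrix_mul_equiv, Matrix.submatrix_mul_equiv]
  ext a c
  have h2 := congrFun (congrFun h1 (e a)) (e c)
  simp only [Matrix.add_apply, Matrix.submatrix_apply] at h2 ⊢
  rw [h2]
  simp [Matrix.one_apply]

theorem rank_of_swap (N W : Matrix (Fin n) (Fin n) R) (hNN : N * N = 0) (h : W * N + N * W = 1) :
    2 * finrank R (LinearMap.range (Matrix.toLin' N)) = n := by
  have h3 := LinearMap.finrank_range_add_finrank_ker (Matrix.toLin' N)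
  rw [Module.finrank_fin_fun] at h3
  have h4 : LinearMap.range (Matrix.toLin' N) = LinearMap.ker (Matrix.toLin' N) := by
    apply le_antisymm
    · rintro _ ⟨v, rfl⟩
      rw [LinearMap.mem_ker, Matrix.toLin'_apply, Matrix.toLin'_apply, Matrix.mulVec_mulVec, hNN, Matrix.zero_mulVec]
    · intro v hv
      rw [LinearMap.mem_ker, Matrix.toLin'_apply] at hv
      refine ⟨W *ᵥ v, ?_⟩
      rw [Matrix.toLin'_apply, Matrix.mulVec_mulVec]
      have h5 : (W * N + N * W) *ᵥ v = v := by rw [h, Matrix.one_mulVec]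
      rw [Matrix.add_mulVec, ← Matrix.mulVec_mulVec, hv, Matrix.mulVec_zero, zero_add] at h5
      exact h5
  rw [h4] at h3 ⊢
  omega

theorem det_comm_square (e : Fin n ≃ Fin b ⊕ Fin b) (W : Matrix (Fin n) (Fin n) R) (hW : W * blockN R e = blockN R e * W) :
    IsSquare W.det := by
  set W' : Matrix (Fin b ⊕ Fin b) (Fin b ⊕ Fin b) R := W.submatrix e.symm e.symm with hW'
  have hWW : W = W'.submatrix e e := by
    ext a c
    simp [hW']
  have h1 : W' * Matrix.fromBlocks 0 0 1 0 = Matrix.fromBlocks 0 0 1 0 * W' := by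
    have h2 : (W' * Matrix.fromBlocks 0 0 1 0).submatrix e e = (Matrix.fromBlocks 0 0 1 0 * W').submatrix e e := by
      rw [← Matrix.submatrix_mul_equiv _ _ e e e, ← Matrix.submatrix_mul_equiv _ _ e e e, ← hWW]
      exact hW
    ext a c
    have := congrFun (congrFun h2 (e.symm a)) (e.symm c)
    simpa using this
  have hdet : W.det = W'.det := by
    rw [hW', Matrix.det_submatrix_equiv_self]
  obtain ⟨A, B, C, D, hABCD⟩ : ∃ A B C D, W' = Matrix.fromBlocks A B C D := ⟨_, _, _, _, (Matrix.fromBlocks_toBlocks W').symm⟩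
  rw [hABCD, Matrix.fromBlocks_multiply, Matrix.fromBlocks_multiply] at h1
  simp only [mul_zero, add_zero, zero_mul, zero_add, mul_one, one_mul] at h1
  obtain ⟨h11, h12, h21, h22⟩ := Matrix.fromBlocks_inj.mp h1
  rw [hdet, hABCD, h11, Matrix.det_fromBlocks_zero₁₂, h21]
  exact ⟨_, rfl⟩

end blocks

theorem rank_map_le {F : Type*} [Field F] (F₀ : Subfield F) {n : ℕ} (M : Matrix (Fin n) (Fin n) F₀) :
    finrank F (LinearMap.range (Matrix.toLin' (M.map F₀.subtype))) ≤ finrank F₀ (LinearMap.range (Matrix.toLin' M)) := by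
  classical
  set C₀ := LinearMap.range (Matrix.toLin' M) with hC₀
  let b₀ := Module.finBasis F₀ C₀
  let ι : (Fin n → F₀) → (Fin n → F) := fun v i => (v i : F)
  have hι : ∀ x : C₀, ι x ∈ Submodule.span F (Set.range (fun i => ι (b₀ i : Fin n → F₀))) := by
    intro x
    have e : ι x = ∑ i, ((b₀.repr x i : F₀) : F) • ι (b₀ i : Fin n → F₀) := by
      have h0 := congrArg (Subtype.val) (b₀.sum_repr x)
      rw [AddSubmonoidClass.coe_finset_sum] at h0
      ext j
      have h1 := congrFun h0 j
      rw [Finset.sum_apply] at h1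
      simp only [ι, Finset.sum_apply, Pi.smul_apply, smul_eq_mul]
      rw [← h1]
      simp [Submodule.coe_smul]
    rw [e]
    apply Submodule.sum_mem
    intro i _
    exact Submodule.smul_mem _ _ (Submodule.subset_span ⟨i, rfl⟩)
  have hle : LinearMap.range (Matrix.toLin' (M.map F₀.subtype)) ≤ Submodule.span F (Set.range (fun i => ι (b₀ i : Fin n → F₀))) := by
    rintro _ ⟨u, rfl⟩
    have e : Matrix.toLin' (M.map F₀.subtype) u = ∑ j, u j • ι (Matrix.toLin' M (Pi.single j 1)) := by
      ext i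
      simp [ι, Matrix.toLin'_apply, Matrix.mulVec, dotProduct, Finset.sum_apply, mul_comm]
    rw [e]
    apply Submodule.sum_mem
    intro j _
    apply Submodule.smul_mem
    exact hι ⟨_, ⟨_, rfl⟩⟩
  have h1 := Submodule.finrank_mono hle
  have h2 := finrank_range_le_card (R := F) (fun i => ι (b₀ i : Fin n → F₀))
  simp only [Fintype.card_fin] at h2
  exact h1.trans h2

theorem sq_of_sub {F : Type*} [Field F] [Fintype F] (F₀ : Subfield F) {q₀ : ℕ} (hF₀ : Nat.card ↥F₀ = q₀) (hodd : Odd q₀)
    (hq : Fintype.card F = q₀ ^ 2) (hc2 : ringChar F ≠ 2) (u : F) (hu : u ∈ F₀) : IsSquare u := by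
  classical
  by_cases hu0 : u = 0
  · rw [hu0]; exact IsSquare.zero
  rw [FiniteField.isSquare_iff hc2 hu0, hq]
  haveI : Finite ↥F₀ := inferInstance
  letI : Fintype ↥F₀ := Fintype.ofFinite _
  have h1 : (⟨u, hu⟩ : F₀) ^ (q₀ - 1) = 1 := by
    have hne : (⟨u, hu⟩ : F₀) ≠ 0 := fun h => hu0 (congrArg Subtype.val h)
    have := FiniteField.pow_card_sub_one_eq_one _ hne
    rwa [← Nat.card_eq_fintype_card, hF₀] at this
  have h2 : u ^ (q₀ - 1) = 1 := by
    have := congrArg Subtype.val h1
    simpa using this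
  obtain ⟨t, rfl⟩ := hodd
  have e : (2 * t + 1) ^ 2 / 2 = (2 * t + 1 - 1) * (t + 1) := by
    have : (2 * t + 1) ^ 2 = 2 * ((2 * t) * (t + 1)) + 1 := by ring
    rw [this]
    simp
    omega
  rw [e, pow_mul, h2, one_pow]

/-- A cube root of an element of a subfield lies in the subfield. -/
theorem cube_root_mem {F : Type*} [Field F] [Finite F] [CharP F 3] (F₀ : Subfield F) {u : F} (hu : u ^ 3 ∈ F₀) : u ∈ F₀ := by
  haveI : Fact (Nat.Prime 3) := ⟨by norm_num⟩
  have hinj : Function.Injective (fun b : F₀ => b ^ 3) := by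
    intro a b hab
    have h1 : (a : F) ^ 3 = (b : F) ^ 3 := by
      have := congrArg Subtype.val hab
      simpa using this
    apply Subtype.ext
    exact frobenius_inj F 3 h1
  obtain ⟨b, hb⟩ := (Finite.injective_iff_surjective.mp hinj) ⟨u ^ 3, hu⟩
  have h2 : (b : F) ^ 3 = u ^ 3 := by
    have := congrArg Subtype.val hb
    simpa using this
  have h3 := frobenius_inj F 3 h2
  rw [← h3]
  exact b.2

/-- A non-square of the field lying in a subfield of odd index. -/
theorem exists_nonsq_sub {F : Type*} [Field F] [Fintype F] (hc2 : ringChar F ≠ 2) (F₀ : Subfield F) {k q₀ : ℕ} (hF₀ : Nat.card ↥F₀ = q₀)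
    (hqk : Fintype.card F = q₀ ^ k) (hk : Odd k) : ∃ δ ∈ F₀, ¬ IsSquare δ := by
  classical
  letI : Fintype ↥F₀ := Fintype.ofFinite _
  have h2F : (2 : F) ≠ 0 := Ring.two_ne_zero hc2
  have h2 : (2 : F₀) ≠ 0 := by
    intro h
    apply h2F
    have := congrArg (F₀.subtype) h
    rwa [map_ofNat, map_zero] at this
  have hc0 : ringChar F₀ ≠ 2 := by
    intro h
    apply h2
    have := (ringChar.spec F₀ 2).mpr (by rw [h])
    exact_mod_cast this
  obtain ⟨a, ha⟩ := FiniteField.exists_nonsquare hc0
  have ha0 : a ≠ 0 := by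
    rintro rfl
    exact ha IsSquare.zero
  have hcq₀ : Fintype.card ↥F₀ = q₀ := by rw [← Nat.card_eq_fintype_card, hF₀]
  have hdich : a ^ (q₀ / 2) = -1 := by
    rcases FiniteField.pow_dichotomy hc0 ha0 with h | h
    · exfalso
      apply ha
      rw [FiniteField.isSquare_iff hc0 ha0]
      exact h
    · rwa [hcq₀] at h
  have hq₀odd : q₀ % 2 = 1 := by
    rw [← hcq₀]
    exact FiniteField.odd_card_of_char_ne_two hc0
  have hq₀2 : 2 ≤ q₀ := by
    rw [← hcq₀]
    exact Fintype.one_lt_card
  obtain ⟨R, hR, hRe⟩ := factor_odd (n := 1) (i := 0) (Nat.odd_iff.mpr hq₀odd) hq₀2 hk (by omega)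
  simp only [pow_one, pow_zero] at hRe
  refine ⟨(a : F), a.2, ?_⟩
  intro hsq
  have ha0' : (a : F) ≠ 0 := fun h => ha0 (Subtype.ext h)
  rw [FiniteField.isSquare_iff hc2 ha0', hqk] at hsq
  have h3 : q₀ ^ k / 2 = (q₀ / 2) * R := by
    have h4 : q₀ - 1 = 2 * (q₀ / 2) := by omega
    have h5 : q₀ ^ k - 1 = 2 * ((q₀ / 2) * R) := by rw [hRe, h4]; ring
    have h6 : 1 ≤ q₀ ^ k := Nat.one_le_pow _ _ (by omega)
    omega
  rw [h3, pow_mul] at hsq
  have h7 : (a : F) ^ (q₀ / 2) = -1 := by
    have := congrArg Subtype.val hdich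
    simpa using this
  rw [h7, hR.neg_one_pow] at hsq
  apply h2F
  linear_combination -hsq

/-- The centraliser of an endomorphism of square zero on a space of odd dimension has all determinants. -/
theorem exists_comm_det_odd {F : Type*} [Field F] {V : Type*} [AddCommGroup V] [Module F V] [FiniteDimensional F V]
    (N : Module.End F V) (hN : N * N = 0) (hodd : Odd (finrank F V)) (a : F) :
    ∃ C : Module.End F V, (∀ v, C (N v) = N (C v)) ∧ LinearMap.det C = a := by
  classical
  obtain ⟨s, Φ, h1, h2⟩ := Cfsg.Agent.Lib.ClassMax.EluNil.sq_zero_normal N hN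
  have hs : 0 < s := by
    obtain ⟨t, ht⟩ := hodd
    omega
  let j₀ : Fin s := ⟨0, hs⟩
  let g : (Fin s → F) →ₗ[F] (Fin s → F) := Matrix.toLin' (Matrix.diagonal (fun i => if i = j₀ then a else 1))
  have hg : LinearMap.det g = a := by
    rw [LinearMap.det_toLin', Matrix.det_diagonal, Finset.prod_ite_eq']
    simp
  let c₁ := (LinearMap.id : (Fin (finrank F (LinearMap.range N)) → F) →ₗ[F] _).prodMap
    ((LinearMap.id : (Fin (finrank F (LinearMap.range N)) → F) →ₗ[F] _).prodMap g)
  have hc₁ : LinearMap.det c₁ = a := by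
    rw [LinearMap.det_prodMap, LinearMap.det_prodMap, LinearMap.det_id, hg]
    simp
  refine ⟨(Φ.symm : _ →ₗ[F] V) ∘ₗ c₁ ∘ₗ (Φ : V →ₗ[F] _), ?_, ?_⟩
  · intro v
    apply Φ.injective
    rw [h1]
    simp only [LinearMap.comp_apply, LinearEquiv.coe_coe, LinearEquiv.apply_symm_apply]
    rw [h1]
    simp [c₁]
  · have := LinearMap.det_conj c₁ Φ.symm
    rw [hc₁] at this
    exact this


/-- Elements of order 3 of PSL_n(q) in characteristic 3 and subfield subgroups. Here `T = PSL_n(F)` for a field `F` with `q` elements, `q` a power of 3 (`n ≥ 2`, `(n, q) ≠ (2, 2), (2, 3)`), `F₀` is the subfield with `q₀` elements where `q = q₀^k` for a prime `k`, and `H` is the subgroup of matrices of determinant 1 lying in the subfield group of `F₀` (invertible matrices over `F₀` times scalars) — a maximal subgroup of type GL_n(q₀) (the case `n = 2`, `q₀ = 2` is excluded); Ω is the set of `T`-conjugates of `H` (cosets of `H`), so an element of `T` of prime order `r` (a matrix `x` of determinant 1 with `x^r` scalar,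 `x` not scalar) fixes a point of Ω when some conjugate of `x` by a matrix of determinant 1 lies in `H`. Suppose 3 divides the index of `H`. Then every element of `T` of order 3 is conjugate in `T` into `H` if and only if `n` is odd, or `n` is even and `k > 2`. -/
theorem result {F : Type*} [Field F] [Fintype F] [CharP F 3] {q : ℕ} (hq : Fintype.card F = q)
    (n : ℕ) (hn : 2 ≤ n) (hT : (n, q) ≠ (2, 3))
    (F₀ : Subfield F) (k q₀ : ℕ) (hk : k.Prime) (hF₀ : Nat.card ↥F₀ = q₀) (hqk : q = q₀ ^ k) (hC5 : ¬ (n = 2 ∧ q₀ = 2)) (hΩ : 3 ∣ ((Cfsg.Geo.subfieldSubgroup F₀ 1).comap (Matrix.SpecialLinearGroup.toGL : Matrix.SpecialLinearGroup (Fin n) F →* GL (Fin n) F)).index) :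
    (∀ x : Matrix.SpecialLinearGroup (Fin n) F,
      (∃ z : F, ((x ^ 3 : Matrix.SpecialLinearGroup (Fin n) F) : Matrix (Fin n) (Fin n) F) = z • (1 : Matrix (Fin n) (Fin n) F)) →
      (∀ z : F, (x : Matrix (Fin n) (Fin n) F) ≠ z • (1 : Matrix (Fin n) (Fin n) F)) →
      ∃ P : Matrix.SpecialLinearGroup (Fin n) F, P⁻¹ * x * P ∈ ((Cfsg.Geo.subfieldSubgroup F₀ 1).comap (Matrix.SpecialLinearGroup.toGL : Matrix.SpecialLinearGroup (Fin n) F →* GL (Fin n) F))) ↔
    (Odd n ∨ (Even n ∧ 2 < k)) := by
    classical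
  have hn0 : 0 < n := by omega
  have hN0 : n ≠ 0 := by omega
  haveI : Nonempty (Fin n) := ⟨⟨0, hn0⟩⟩
  haveI : Fact (Nat.Prime 3) := ⟨by norm_num⟩
  have h30 : (3 : F) = 0 := by exact_mod_cast CharP.cast_eq_zero F 3
  have h2 : (2 : F) ≠ 0 := by
    intro h
    have : (1 : F) = 0 := by linear_combination h30 - h
    exact one_ne_zero this
  have hc2 : ringChar F ≠ 2 := by
    rw [ringChar.eq F 3]
    norm_num
  have hq2 : Odd q := by
    rw [← hq, Nat.odd_iff]
    exact FiniteField.odd_card_of_char_ne_two hc2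
  have hcube : ∀ u : F, ∃ a : F, a ^ 3 = u := fun u => (Finite.injective_iff_surjective.mp (frobenius_inj F 3)) u
  constructor
  · intro hall
    by_contra hcon
    push Not at hcon
    obtain ⟨hneg, hk2⟩ := hcon
    have hev : Even n := Nat.not_odd_iff_even.mp hneg
    have hk2' : k = 2 := by
      have := hk.two_le
      have := hk2 hev
      omega
    subst hk2'
    obtain ⟨b, hb⟩ := hev
    have hb0 : 0 < b := by omega
    let e : Fin n ≃ Fin b ⊕ Fin b := Fintype.equivOfCardEq (by simp; omega)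
    let i₀ : Fin n := ⟨0, hn0⟩
    obtain ⟨δ, hδ⟩ := FiniteField.exists_nonsquare hc2
    have hδ0 : δ ≠ 0 := by
      rintro rfl
      exact hδ IsSquare.zero
    set D : Matrix (Fin n) (Fin n) F := Matrix.diagonal (fun i => if i = i₀ then δ else 1) with hD
    set Di : Matrix (Fin n) (Fin n) F := Matrix.diagonal (fun i => if i = i₀ then δ⁻¹ else 1) with hDi
    have hDD : D * Di = 1 := by
      rw [hD, hDi, Matrix.diagonal_mul_diagonal, ← Matrix.diagonal_one]
      congr 1
      ext i
      by_cases h : i = i₀ <;> simp [h, hδ0]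
    have hDD' : Di * D = 1 := by
      rw [hD, hDi, Matrix.diagonal_mul_diagonal, ← Matrix.diagonal_one]
      congr 1
      ext i
      by_cases h : i = i₀ <;> simp [h, hδ0]
    have hDidet : Di.det = δ⁻¹ := by
      rw [hDi, Matrix.det_diagonal, Finset.prod_ite_eq']
      simp
    set N₀ : Matrix (Fin n) (Fin n) F := blockN F e with hN₀
    have hN₀N₀ : N₀ * N₀ = 0 := blockN_sq e
    have hswap : blockW F e * N₀ + N₀ * blockW F e = 1 := blockN_swap e
    have hN₀0 : N₀ ≠ 0 := by
      intro h
      rw [h, mul_zero, zero_mul, add_zero] at hswap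
      have := congrFun (congrFun hswap i₀) i₀
      simp at this
    set N₁ : Matrix (Fin n) (Fin n) F := D * N₀ * Di with hN₁
    have hN₁N₁ : N₁ * N₁ = 0 := by
      calc N₁ * N₁ = D * N₀ * (Di * D) * N₀ * Di := by simp only [hN₁, mul_assoc]
        _ = D * (N₀ * N₀) * Di := by rw [hDD', mul_one]; simp only [mul_assoc]
        _ = 0 := by rw [hN₀N₀]; simp
    set A : Matrix (Fin n) (Fin n) F := 1 + N₁ with hA
    have hA3 : A * A * A = 1 := by
      have e3 : (3 : F) • N₁ = 0 := by rw [h30, zero_smul]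
      have e4 : N₁ + N₁ + N₁ = 0 := by
        rw [← e3]
        rw [show (3 : F) = 1 + 1 + 1 by norm_num, add_smul, add_smul, one_smul]
      have e5 : N₁ * N₁ * N₁ = 0 := by rw [hN₁N₁, zero_mul]
      calc A * A * A = 1 + (N₁ + N₁ + N₁) + ((N₁ * N₁ + N₁ * N₁ + N₁ * N₁) + N₁ * N₁ * N₁) := by
            simp only [hA, add_mul, mul_add, one_mul, mul_one]
            abel
        _ = 1 := by rw [e4, e5, hN₁N₁]; simp
    have hdet : A.det = 1 := by
      have h3 := congrArg Matrix.det hA3
      rw [Matrix.det_mul, Matrix.det_mul, Matrix.det_one] at h3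
      have h4 : (A.det - 1) ^ 3 = 0 := by
        rw [sub_pow_char, one_pow]
        rw [sub_eq_zero, pow_succ, pow_two]
        exact h3
      exact sub_eq_zero.mp (pow_eq_zero_iff (by norm_num) |>.mp h4)
    let x : Matrix.SpecialLinearGroup (Fin n) F := ⟨A, hdet⟩
    have hx3 : ((x ^ 3 : Matrix.SpecialLinearGroup (Fin n) F) : Matrix (Fin n) (Fin n) F) = (1 : F) • 1 := by
      rw [Matrix.SpecialLinearGroup.coe_pow, pow_succ, pow_two, one_smul]
      exact hA3
    have hxs : ∀ z : F, (x : Matrix (Fin n) (Fin n) F) ≠ z • 1 := by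
      intro z hz
      have hz' : A = z • 1 := hz
      have hN₁s : N₁ = (z - 1) • 1 := by
        rw [sub_smul, one_smul, ← hz', hA]
        abel
      have h3 := hN₁N₁
      rw [hN₁s, Matrix.smul_mul, Matrix.mul_smul, one_mul, smul_smul] at h3
      have h4 := congrFun (congrFun h3 i₀) i₀
      simp at h4
      have h5 : z = 1 := sub_eq_zero.mp h4
      apply hN₀0
      have h6 : N₁ = 0 := by rw [hN₁s, h5, sub_self, zero_smul]
      calc N₀ = (Di * D) * N₀ * (Di * D) := by rw [hDD', one_mul, mul_one]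
        _ = Di * N₁ * D := by simp only [hN₁, mul_assoc]
        _ = 0 := by rw [h6]; simp
    obtain ⟨P, hP⟩ := hall x ⟨1, hx3⟩ hxs
    rw [mem_sub_iff] at hP
    obtain ⟨c, hc, hrat⟩ := hP
    set Pi' : Matrix (Fin n) (Fin n) F := ((P⁻¹ : Matrix.SpecialLinearGroup (Fin n) F) : Matrix (Fin n) (Fin n) F) with hPi'
    set PM : Matrix (Fin n) (Fin n) F := (P : Matrix (Fin n) (Fin n) F) with hPM
    have hPP : PM * Pi' = 1 := by
      have h : ((P * P⁻¹ : Matrix.SpecialLinearGroup (Fin n) F) : Matrix (Fin n) (Fin n) F) = 1 := by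
        rw [mul_inv_cancel]; rfl
      exact h
    have hPP' : Pi' * PM = 1 := by
      have h : ((P⁻¹ * P : Matrix.SpecialLinearGroup (Fin n) F) : Matrix (Fin n) (Fin n) F) = 1 := by
        rw [inv_mul_cancel]; rfl
      exact h
    have hPdet : PM.det = 1 := P.2
    set y : Matrix (Fin n) (Fin n) F := ((P⁻¹ * x * P : Matrix.SpecialLinearGroup (Fin n) F) : Matrix (Fin n) (Fin n) F) with hy
    have hyA : y = Pi' * A * PM := rfl
    have hy3 : y * y * y = 1 := by
      have h1 : y * y = Pi' * (A * A) * PM := by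
        calc y * y = Pi' * A * (PM * Pi') * A * PM := by simp only [hyA, mul_assoc]
          _ = _ := by rw [hPP, mul_one]; simp only [mul_assoc]
      calc y * y * y = Pi' * (A * A) * (PM * Pi') * A * PM := by rw [h1, hyA]; simp only [mul_assoc]
        _ = Pi' * (A * A * A) * PM := by rw [hPP, mul_one]; simp only [mul_assoc]
        _ = 1 := by rw [hA3, mul_one, hPP']
    have hc3 : c ^ 3 ∈ F₀ := by
      have h3 := (hrat.mul hrat).mul hrat i₀ i₀
      have e3 : (c • y) * (c • y) * (c • y) = (c ^ 3) • 1 := by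
        simp only [Matrix.smul_mul, Matrix.mul_smul, smul_smul]
        rw [hy3]
        congr 1
        ring
      rw [e3] at h3
      simpa using h3
    have hcF : c ∈ F₀ := cube_root_mem F₀ hc3
    have hyrat : RatM F₀ y := by
      have := RatM.smul (F₀.inv_mem hcF) hrat
      rwa [smul_smul, inv_mul_cancel₀ hc, one_smul] at this
    set N₂ : Matrix (Fin n) (Fin n) F := y - 1 with hN₂
    have hN₂rat : RatM F₀ N₂ := hyrat.sub ratM_one
    set G : Matrix (Fin n) (Fin n) F := Pi' * D with hG
    set G' : Matrix (Fin n) (Fin n) F := Di * PM with hG'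
    have hGG : G * G' = 1 := by
      calc G * G' = Pi' * (D * Di) * PM := by simp only [hG, hG', mul_assoc]
        _ = 1 := by rw [hDD, mul_one, hPP']
    have hGG' : G' * G = 1 := by
      calc G' * G = Di * (PM * Pi') * D := by simp only [hG, hG', mul_assoc]
        _ = 1 := by rw [hPP, mul_one, hDD']
    have hN₂G : N₂ = G * N₀ * G' := by
      rw [hN₂, hyA, hA, mul_add, add_mul, mul_one, hPP', hN₁]
      simp only [hG, hG', mul_assoc]
      abel
    have hN₂N₂ : N₂ * N₂ = 0 := by
      calc N₂ * N₂ = G * N₀ * (G' * G) * N₀ * G' := by simp only [hN₂G, mul_assoc]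
        _ = G * (N₀ * N₀) * G' := by rw [hGG', mul_one]; simp only [mul_assoc]
        _ = 0 := by rw [hN₀N₀]; simp
    -- ranks
    have hr₀ : 2 * finrank F (LinearMap.range (Matrix.toLin' N₀)) = n := rank_of_swap N₀ (blockW F e) hN₀N₀ hswap
    have hr₂ : finrank F (LinearMap.range (Matrix.toLin' N₂)) = finrank F (LinearMap.range (Matrix.toLin' N₀)) := by
      have h3 := LinearMap.finrank_range_add_finrank_ker (Matrix.toLin' N₂)
      have h4 := LinearMap.finrank_range_add_finrank_ker (Matrix.toLin' N₀)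
      rw [hN₂G, finrank_ker_conj G G' N₀ hGG hGG'] at h3
      rw [hN₂G]
      omega
    set N₂' : Matrix (Fin n) (Fin n) F₀ := liftM N₂ hN₂rat with hN₂'
    have hmap : N₂'.map F₀.subtype = N₂ := map_liftM N₂ hN₂rat
    have hminj : ∀ X Y : Matrix (Fin n) (Fin n) F₀, X.map F₀.subtype = Y.map F₀.subtype → X = Y := by
      intro X Y h
      ext i j
      have := congrFun (congrFun h i) j
      simpa using this
    have hmapmul : ∀ X Y : Matrix (Fin n) (Fin n) F₀, (X * Y).map F₀.subtype = X.map F₀.subtype * Y.map F₀.subtype := by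
      intro X Y
      exact Matrix.map_mul
    have hN₂'N₂' : N₂' * N₂' = 0 := by
      apply hminj
      rw [hmapmul, hmap, hN₂N₂]
      ext i j
      simp
    set N₀' : Matrix (Fin n) (Fin n) F₀ := blockN F₀ e with hN₀'
    have hN₀'map : N₀'.map F₀.subtype = N₀ := by
      rw [hN₀', hN₀]
      unfold blockN
      ext a c
      simp only [Matrix.map_apply, Matrix.submatrix_apply]
      rcases e a with a' | a' <;> rcases e c with c' | c' <;> simp [Matrix.one_apply]
    have hr₀' : 2 * finrank F₀ (LinearMap.range (Matrix.toLin' N₀')) = n :=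
      rank_of_swap N₀' (blockW F₀ e) (blockN_sq e) (blockN_swap e)
    have hr₂' : 2 * finrank F₀ (LinearMap.range (Matrix.toLin' N₂')) ≤ n := by
      have h3 := LinearMap.finrank_range_add_finrank_ker (Matrix.toLin' N₂')
      have h4 : LinearMap.range (Matrix.toLin' N₂') ≤ LinearMap.ker (Matrix.toLin' N₂') := by
        rintro _ ⟨v, rfl⟩
        rw [LinearMap.mem_ker, Matrix.toLin'_apply, Matrix.toLin'_apply, Matrix.mulVec_mulVec, hN₂'N₂', Matrix.zero_mulVec]
      have h5 := Submodule.finrank_mono h4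
      rw [Module.finrank_fin_fun] at h3
      omega
    have hr₂'' := rank_map_le F₀ N₂'
    rw [hmap, hr₂] at hr₂''
    have hreq : finrank F₀ (LinearMap.range (Matrix.toLin' N₂')) = finrank F₀ (LinearMap.range (Matrix.toLin' N₀')) := by omega
    have hNl : (Matrix.toLin' N₂' : Module.End F₀ (Fin n → F₀)) * Matrix.toLin' N₂' = 0 := by
      have h3 : Matrix.toLin' (N₂' * N₂') = 0 := by rw [hN₂'N₂', map_zero]
      rwa [Matrix.toLin'_mul] at h3
    have hNl' : (Matrix.toLin' N₀' : Module.End F₀ (Fin n → F₀)) * Matrix.toLin' N₀' = 0 := by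
      have h3 : Matrix.toLin' (N₀' * N₀') = 0 := by rw [blockN_sq, map_zero]
      rwa [Matrix.toLin'_mul] at h3
    obtain ⟨Q, hQ⟩ := Cfsg.Agent.Lib.ClassMax.EluSymp.conj_sq_zero (Matrix.toLin' N₂') (Matrix.toLin' N₀') hNl hNl' hreq
    set T' : Matrix (Fin n) (Fin n) F₀ := LinearMap.toMatrix' (Q.symm : (Fin n → F₀) →ₗ[F₀] (Fin n → F₀)) with hT'
    have hNT' : N₂' * T' = T' * N₀' := by
      apply (Matrix.toLin' (R := F₀) (m := Fin n) (n := Fin n)).injective
      rw [Matrix.toLin'_mul, Matrix.toLin'_mul, hT', Matrix.toLin'_toMatrix']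
      apply LinearMap.ext
      intro v
      have h3 := hQ (Q.symm v)
      rw [LinearEquiv.apply_symm_apply] at h3
      show Matrix.toLin' N₂' (Q.symm v) = Q.symm (Matrix.toLin' N₀' v)
      rw [← h3, LinearEquiv.symm_apply_apply]
    have hT'det : T'.det ≠ 0 := by
      rw [hT', LinearMap.det_toMatrix']
      exact (LinearEquiv.isUnit_det' Q.symm).ne_zero
    set T : Matrix (Fin n) (Fin n) F := T'.map F₀.subtype with hT
    have hNT : N₂ * T = T * N₀ := by
      rw [← hmap, ← hN₀'map, hT, ← hmapmul, ← hmapmul, hNT']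
    have hTdet : T.det = ((T'.det : F₀) : F) := by
      rw [hT]
      exact (F₀.subtype.map_det T').symm
    have hTsq : IsSquare T.det := by
      rw [hTdet]
      apply sq_of_sub F₀ hF₀ _ (by rw [hq, hqk]) hc2 _ (T'.det).2
      rw [hqk] at hq2
      exact (Nat.odd_pow_iff (by norm_num)).mp hq2
    have hT0 : T.det ≠ 0 := by
      rw [hTdet]
      intro h
      exact hT'det (Subtype.ext h)
    have hW : (G' * T) * N₀ = N₀ * (G' * T) := by
      rw [mul_assoc, ← hNT, hN₂G]
      calc G' * (G * N₀ * G' * T) = (G' * G) * N₀ * (G' * T) := by simp only [mul_assoc]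
        _ = _ := by rw [hGG', one_mul]
    have hWsq := det_comm_square e (G' * T) hW
    rw [Matrix.det_mul, hG', Matrix.det_mul, hDidet, hPdet, mul_one] at hWsq
    apply hδ
    obtain ⟨r, hr⟩ := hWsq
    obtain ⟨s, hs⟩ := hTsq
    have hr0 : r ≠ 0 := by
      rintro rfl
      rw [mul_zero] at hr
      exact (mul_ne_zero (inv_ne_zero hδ0) hT0) hr
    refine ⟨s / r, ?_⟩
    field_simp
    have : δ⁻¹ * (s * s) = r * r := by rw [← hs]; exact hr
    field_simp at this
    linear_combination -this
  · intro hR x hxz hns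
    obtain ⟨z, hz⟩ := hxz
    set A : Matrix (Fin n) (Fin n) F := (x : Matrix (Fin n) (Fin n) F) with hA
    have hA3 : A * A * A = z • 1 := by
      rw [← hz, Matrix.SpecialLinearGroup.coe_pow, pow_succ, pow_two]
    have hdet : A.det = 1 := x.2
    have hz0 : z ≠ 0 := by
      rintro rfl
      have h3 := congrArg Matrix.det hA3
      rw [Matrix.det_mul, Matrix.det_mul, hdet, zero_smul, Matrix.det_zero] at h3
      simp at h3
    obtain ⟨c, rfl⟩ := hcube z
    have hc : c ≠ 0 := fun h => hz0 (by rw [h]; ring)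
    set B' : Matrix (Fin n) (Fin n) F := c⁻¹ • A with hB'
    have hB3 : B' ^ 3 = 1 := by
      rw [pow_succ, pow_two, hB']
      simp only [Matrix.smul_mul, Matrix.mul_smul, smul_smul]
      rw [hA3, smul_smul]
      have : c⁻¹ * (c⁻¹ * c⁻¹) * c ^ 3 = 1 := by field_simp
      rw [this, one_smul]
    set N : Matrix (Fin n) (Fin n) F := B' - 1 with hN
    have hN3 : N ^ 3 = 0 := by
      rw [hN, sub_pow_char_of_commute 3 (Commute.one_right _), hB3, one_pow, sub_self]
    have hN0' : N ≠ 0 := by
      intro h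
      apply hns c
      have h3 : c⁻¹ • A = 1 := sub_eq_zero.mp h
      rw [← h3, smul_smul, mul_inv_cancel₀ hc, one_smul]
    obtain ⟨P₀, M, hP₀, hNP, hM⟩ := Cfsg.Agent.Lib.ClassMax.EluNil.exists_rational_model N hN3
    have hMrat : RatM F₀ M := by
      intro i j
      rcases hM i j with h | h <;> rw [h]
      · exact F₀.zero_mem
      · exact F₀.one_mem
    have hfinish : ∀ (P₁ M₁ : Matrix (Fin n) (Fin n) F) (C₁ : Module.End F (Fin n → F)), N * P₁ = P₁ * M₁ → RatM F₀ M₁ →
        (∀ v, C₁ (Matrix.toLin' N v) = Matrix.toLin' N (C₁ v)) → LinearMap.det C₁ = (P₁.det)⁻¹ → P₁.det ≠ 0 →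
        ∃ P : Matrix.SpecialLinearGroup (Fin n) F, P⁻¹ * x * P ∈ ((Cfsg.Geo.subfieldSubgroup F₀ 1).comap (Matrix.SpecialLinearGroup.toGL : Matrix.SpecialLinearGroup (Fin n) F →* GL (Fin n) F)) := by
      intro P₁ M₁ C₁ hN₁ hrat₁ hcomm hd₁ hP₁0
      set C' : Matrix (Fin n) (Fin n) F := LinearMap.toMatrix' C₁ with hC
      have hCN : C' * N = N * C' := by
        apply (Matrix.toLin' (R := F) (m := Fin n) (n := Fin n)).injective
        rw [Matrix.toLin'_mul, Matrix.toLin'_mul, hC, Matrix.toLin'_toMatrix']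
        apply LinearMap.ext
        intro v
        exact hcomm v
      set P : Matrix (Fin n) (Fin n) F := C' * P₁ with hP
      have hPd : P.det = 1 := by
        rw [hP, Matrix.det_mul, hC, LinearMap.det_toMatrix', hd₁, inv_mul_cancel₀ hP₁0]
      have hNP2 : N * P = P * M₁ := by
        rw [hP, ← mul_assoc, ← hCN, mul_assoc, hN₁, mul_assoc]
      have hAN : A = c • (N + 1) := by
        rw [hN, sub_add_cancel, hB', smul_smul, mul_inv_cancel₀ hc, one_smul]
      have hAP : A * P = P * (c • (M₁ + 1)) := by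
        rw [hAN, Matrix.smul_mul, add_mul, one_mul, hNP2, Matrix.mul_smul, mul_add, mul_one]
      apply conj_mem F₀ x P _ hPd hAP (c := c⁻¹) (inv_ne_zero hc)
      rw [smul_smul, inv_mul_cancel₀ hc, one_smul]
      exact hrat₁.add ratM_one
    by_cases hN2 : N * N = 0
    · have hNl : (Matrix.toLin' N : Module.End F (Fin n → F)) * Matrix.toLin' N = 0 := by
        have h3 : Matrix.toLin' (N * N) = 0 := by rw [hN2, map_zero]
        rwa [Matrix.toLin'_mul] at h3
      by_cases hoddn : Odd n
      · obtain ⟨C₁, hC₁, hdC⟩ := exists_comm_det_odd (Matrix.toLin' N) hNl (by rw [finrank_fin_fun]; exact hoddn) (P₀.det)⁻¹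
        exact hfinish P₀ M C₁ hNP hMrat hC₁ hdC hP₀
      · -- `k` is odd
        have hk' : Odd k := by
          rcases hR with h | ⟨-, h⟩
          · exact absurd h hoddn
          · exact hk.odd_of_ne_two (by omega)
        have hL2 : (Matrix.toLin' N) ^ (1 + 1) = 0 := by
          rw [pow_two]; exact hNl
        have hL1 : (Matrix.toLin' N) ^ 1 ≠ 0 := by
          rw [pow_one]
          intro h
          apply hN0'
          exact (Matrix.toLin' (R := F) (m := Fin n) (n := Fin n)).injective (by rw [h, map_zero])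
        obtain ⟨δ, hδF, hδ⟩ := exists_nonsq_sub hc2 F₀ hF₀ (by rw [hq, hqk]) hk'
        have hδ0 : δ ≠ 0 := by
          rintro rfl
          exact hδ IsSquare.zero
        by_cases hsq : IsSquare (P₀.det)⁻¹
        · obtain ⟨a, ha⟩ := hsq
          obtain ⟨C₁, hC₁, hdC⟩ := Cfsg.Agent.Lib.ClassMax.EluNil.exists_comm_det_block (Matrix.toLin' N) hL2 hL1 a
          exact hfinish P₀ M C₁ hNP hMrat hC₁ (by rw [hdC, pow_two, ← ha]) hP₀
        · let i₀ : Fin n := ⟨0, hn0⟩
          set D : Matrix (Fin n) (Fin n) F := Matrix.diagonal (fun i => if i = i₀ then δ else 1) with hD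
          set Di : Matrix (Fin n) (Fin n) F := Matrix.diagonal (fun i => if i = i₀ then δ⁻¹ else 1) with hDi
          have hDD : D * Di = 1 := by
            rw [hD, hDi, Matrix.diagonal_mul_diagonal, ← Matrix.diagonal_one]
            congr 1
            ext i
            by_cases h : i = i₀ <;> simp [h, hδ0]
          have hDdet : D.det = δ := by
            rw [hD, Matrix.det_diagonal, Finset.prod_ite_eq']
            simp
          have hDrat : RatM F₀ D := by
            intro i j
            rw [hD]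
            by_cases hij : i = j
            · subst hij
              rw [Matrix.diagonal_apply_eq]
              split_ifs
              · exact hδF
              · exact F₀.one_mem
            · rw [Matrix.diagonal_apply_ne _ hij]
              exact F₀.zero_mem
          have hDirat : RatM F₀ Di := by
            intro i j
            rw [hDi]
            by_cases hij : i = j
            · subst hij
              rw [Matrix.diagonal_apply_eq]
              split_ifs
              · exact F₀.inv_mem hδF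
              · exact F₀.one_mem
            · rw [Matrix.diagonal_apply_ne _ hij]
              exact F₀.zero_mem
          have hP₁0 : (P₀ * D).det ≠ 0 := by
            rw [Matrix.det_mul, hDdet]
            exact mul_ne_zero hP₀ hδ0
          have hNP₁ : N * (P₀ * D) = (P₀ * D) * (Di * M * D) := by
            calc N * (P₀ * D) = (N * P₀) * D := by rw [mul_assoc]
              _ = P₀ * M * D := by rw [hNP]
              _ = P₀ * (D * Di) * M * D := by rw [hDD, mul_one]
              _ = _ := by simp only [mul_assoc]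
          have hsq₁ : IsSquare ((P₀ * D).det)⁻¹ := by
            rw [Matrix.det_mul, hDdet]
            have hu0 : (P₀.det)⁻¹ ≠ 0 := inv_ne_zero hP₀
            have hp : ∀ u : F, u ≠ 0 → ¬ IsSquare u → u ^ (Fintype.card F / 2) = -1 := by
              intro u hu hb
              rcases FiniteField.pow_dichotomy hc2 hu with h | h
              · exfalso
                exact hb ((FiniteField.isSquare_iff hc2 hu).mpr h)
              · exact h
            rw [FiniteField.isSquare_iff hc2 (inv_ne_zero (mul_ne_zero hP₀ hδ0)), mul_inv, mul_pow, hp _ hu0 hsq]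
            have hδi : (δ⁻¹) ^ (Fintype.card F / 2) = -1 := by
              apply hp _ (inv_ne_zero hδ0)
              intro h
              apply hδ
              have := h.inv
              rwa [inv_inv] at this
            rw [hδi]
            ring
          obtain ⟨a, ha⟩ := hsq₁
          obtain ⟨C₁, hC₁, hdC⟩ := Cfsg.Agent.Lib.ClassMax.EluNil.exists_comm_det_block (Matrix.toLin' N) hL2 hL1 a
          exact hfinish (P₀ * D) (Di * M * D) C₁ hNP₁ ((hDirat.mul hMrat).mul hDrat) hC₁ (by rw [hdC, pow_two, ← ha]) hP₁0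
    · have hL3 : (Matrix.toLin' N) ^ (2 + 1) = 0 := by
        rw [← Matrix.toLin'_pow, hN3, map_zero]
      have hL2 : (Matrix.toLin' N) ^ 2 ≠ 0 := by
        intro h
        apply hN2
        rw [← Matrix.toLin'_pow] at h
        rw [← pow_two]
        exact (Matrix.toLin' (R := F) (m := Fin n) (n := Fin n)).injective (by rw [h, map_zero])
      obtain ⟨a, ha⟩ := hcube (P₀.det)⁻¹
      obtain ⟨C₁, hC₁, hdC⟩ := Cfsg.Agent.Lib.ClassMax.EluNil.exists_comm_det_block (Matrix.toLin' N) hL3 hL2 a
      exact hfinish P₀ M C₁ hNP hMrat hC₁ (by rw [hdC, ha]) hP₀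

end Cfsg.Agent.S5966
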