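import Cfsg.Statements.S5967
import Cfsg.Agent.Lib.ClassMax.EluInv
import Cfsg.Agent.Lib.ClassMax.EluSymp
import Cfsg.Agent.Lib.ClassMax.EluVal

set_option autoImplicit false
open scoped MatrixGroups
open Cfsg

namespace Cfsg.Agent.S5967

open Module Matrix Cfsg.Agent.Lib.ClassMax.ElusiveSp Cfsg.Agent.Lib.ClassMax.EluSymp Cfsg.Agent.Lib.ClassMax.EluInv Cfsg.Agent.Lib.ClassMax.EluVal

theorem conj_mem_sim {F : Type*} [Field F] {n : ℕ} (f : (Fin n → F) → (Fin n → F) → F) (x : Matrix.SpecialLinearGroup (Fin n) F)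
    (P B₀ : Matrix (Fin n) (Fin n) F) (hP : P.det = 1) (hxP : (x : Matrix (Fin n) (Fin n) F) * P = P * B₀) {μ : F} (hμ : μ ≠ 0)
    (hB : ∀ u v, f (B₀ *ᵥ u) (B₀ *ᵥ v) = μ * f u v) :
    ∃ P' : Matrix.SpecialLinearGroup (Fin n) F, P'⁻¹ * x * P' ∈
      (Cfsg.Geo.similarityGroup f).comap (Matrix.SpecialLinearGroup.toGL : Matrix.SpecialLinearGroup (Fin n) F →* GL (Fin n) F) := by
  let P' : Matrix.SpecialLinearGroup (Fin n) F := ⟨P, hP⟩
  refine ⟨P', ?_⟩
  rw [Subgroup.mem_comap]
  have hinv : ((P'⁻¹ : Matrix.SpecialLinearGroup (Fin n) F) : Matrix (Fin n) (Fin n) F) * P = 1 := by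
    have h : ((P'⁻¹ * P' : Matrix.SpecialLinearGroup (Fin n) F) : Matrix (Fin n) (Fin n) F) = 1 := by
      rw [inv_mul_cancel]; rfl
    exact h
  have : ((P'⁻¹ * x * P' : Matrix.SpecialLinearGroup (Fin n) F) : Matrix (Fin n) (Fin n) F) = B₀ := by
    show ((P'⁻¹ : Matrix.SpecialLinearGroup (Fin n) F) : Matrix (Fin n) (Fin n) F) * (x : Matrix (Fin n) (Fin n) F) * P = B₀
    rw [mul_assoc, hxP, ← mul_assoc, hinv, one_mul]
  refine ⟨Units.mk0 μ hμ, fun u v => ?_⟩
  show f (((P'⁻¹ * x * P' : Matrix.SpecialLinearGroup (Fin n) F) : Matrix (Fin n) (Fin n) F) *ᵥ u) (((P'⁻¹ * x * P' : Matrix.SpecialLinearGroup (Fin n) F) : Matrix (Fin n) (Fin n) F) *ᵥ v) = μ * f u v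
  rw [this]
  exact hB u v

theorem no_reflection {F : Type*} [Field F] {n : ℕ} (hn : 3 ≤ n) (h2 : (2 : F) ≠ 0) (g : LinearMap.BilinForm F (Fin n → F))
    (halt : ∀ v, g v v = 0) (hnd : ∀ v, v ≠ 0 → ∃ y, g v y ≠ 0) (c μ : F) (hc : c ≠ 0)
    (h : ∀ u v, g (c • (diagModel n 1 F *ᵥ u)) (c • (diagModel n 1 F *ᵥ v)) = μ * g u v) : False := by
  classical
  let i₀ : Fin n := ⟨0, by omega⟩
  let i₁ : Fin n := ⟨1, by omega⟩
  let i₂ : Fin n := ⟨2, by omega⟩
  set e₀ : Fin n → F := Pi.single i₀ 1 with he₀
  have hD₀ : diagModel n 1 F *ᵥ e₀ = - e₀ := by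
    ext i
    rw [diagModel, Matrix.mulVec_diagonal]
    by_cases hi : i = i₀
    · subst hi
      simp [he₀, i₀]
    · have hi' : ¬ (i : ℕ) < 1 := by
        intro h'
        apply hi
        apply Fin.ext
        show (i : ℕ) = 0
        omega
      simp [he₀, hi, hi']
  have hDW : ∀ u : Fin n → F, u i₀ = 0 → diagModel n 1 F *ᵥ u = u := by
    intro u hu
    ext i
    rw [diagModel, Matrix.mulVec_diagonal]
    by_cases hi : i = i₀
    · subst hi
      simp [hu]
    · have hi' : ¬ (i : ℕ) < 1 := by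
        intro h'
        apply hi
        apply Fin.ext
        show (i : ℕ) = 0
        omega
      simp [hi']
  have hWW : ∀ u v : Fin n → F, u i₀ = 0 → v i₀ = 0 → (c * c - μ) * g u v = 0 := by
    intro u v hu hv
    have := h u v
    rw [hDW u hu, hDW v hv] at this
    simp only [map_smul, LinearMap.smul_apply, smul_eq_mul] at this
    linear_combination this
  have hW0 : ∀ u : Fin n → F, u i₀ = 0 → (- (c * c) - μ) * g e₀ u = 0 := by
    intro u hu
    have := h e₀ u
    rw [hD₀, hDW u hu] at this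
    simp only [map_smul, map_neg, LinearMap.smul_apply, LinearMap.neg_apply, smul_eq_mul] at this
    linear_combination this
  have hdec : ∀ y : Fin n → F, ∃ y' : Fin n → F, y' i₀ = 0 ∧ y = y i₀ • e₀ + y' := by
    intro y
    refine ⟨y - y i₀ • e₀, by simp [he₀], by abel⟩
  have hcc : c * c ≠ 0 := mul_ne_zero hc hc
  by_cases hμ : μ = c * c
  · have h3 : ∀ y, g e₀ y = 0 := by
      intro y
      obtain ⟨y', hy', e⟩ := hdec y
      have h4 := hW0 y' hy'
      rw [hμ] at h4
      have h5 : g e₀ y' = 0 := by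
        have h6 : (- (2 * (c * c))) * g e₀ y' = 0 := by linear_combination h4
        exact (mul_eq_zero.mp h6).resolve_left (neg_ne_zero.mpr (mul_ne_zero h2 hcc))
      rw [e, map_add, map_smul, halt, h5]
      simp
    have he₀0 : e₀ ≠ 0 := by
      intro h0
      have := congrFun h0 i₀
      simp [he₀] at this
    obtain ⟨y, hy⟩ := hnd e₀ he₀0
    exact hy (h3 y)
  · have hne : c * c - μ ≠ 0 := fun h0 => hμ (by linear_combination -h0)
    have hW : ∀ u v : Fin n → F, u i₀ = 0 → v i₀ = 0 → g u v = 0 := fun u v hu hv =>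
      (mul_eq_zero.mp (hWW u v hu hv)).resolve_left hne
    have hi01 : i₁ ≠ i₀ := by simp [i₁, i₀, Fin.ext_iff]
    have hi02 : i₂ ≠ i₀ := by simp [i₂, i₀, Fin.ext_iff]
    have hi12 : i₁ ≠ i₂ := by simp [i₁, i₂, Fin.ext_iff]
    set e₁ : Fin n → F := Pi.single i₁ 1 with he₁
    set e₂ : Fin n → F := Pi.single i₂ 1 with he₂
    have he₁0 : e₁ i₀ = 0 := by simp [he₁, Pi.single_eq_of_ne hi01.symm]
    have he₂0 : e₂ i₀ = 0 := by simp [he₂, Pi.single_eq_of_ne hi02.symm]
    set a := g e₁ e₀ with ha
    set b := g e₂ e₀ with hb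
    set v : Fin n → F := b • e₁ - a • e₂ with hv
    have hv0 : v i₀ = 0 := by simp [hv, he₁0, he₂0]
    have hvy : ∀ y, g v y = 0 := by
      intro y
      obtain ⟨y', hy', e⟩ := hdec y
      rw [e, map_add, map_smul, hW v y' hv0 hy']
      simp only [hv, map_sub, map_smul, LinearMap.sub_apply, LinearMap.smul_apply, smul_eq_mul, ← ha, ← hb]
      ring
    have hv00 : v = 0 := by
      by_contra h0
      obtain ⟨y, hy⟩ := hnd v h0
      exact hy (hvy y)
    have ha0 : a = 0 := by
      have := congrFun hv00 i₂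
      simp [hv, he₁, he₂, Pi.single_eq_of_ne hi12.symm] at this
      exact this
    have he₁y : ∀ y, g e₁ y = 0 := by
      intro y
      obtain ⟨y', hy', e⟩ := hdec y
      rw [e, map_add, map_smul, hW e₁ y' he₁0 hy', ← ha, ha0]
      simp
    have he₁n : e₁ ≠ 0 := by
      intro h0
      have := congrFun h0 i₁
      simp [he₁] at this
    obtain ⟨y, hy⟩ := hnd e₁ he₁n
    exact hy (he₁y y)


/-- Involutions of PSL_n(q) and the symplectic-type subgroups. Here `T = PSL_n(F)` for a field `F` with `q` elements, `n ≥ 4` even, `f` is a nondegenerate alternating form on `F^n`, and `H` is the subgroup of matrices of determinant 1 preserving `f` up to a scalar — a maximal subgroup of type Sp_n(q); Ω is the set of `T`-conjugates of `H` (cosets of `H`), so an element of `T` of prime order `r` (a matrix `x` of determinant 1 with `x^r` scalar, `x` not scalar) fixes a point of Ω when some conjugate of `x` by a matrix of determinant 1 preserves `f` up to a scalar. Suppose the index of `H` is even. Then every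 involution of `T` is conjugate in `T` into `H` if and only if `(q − 1)_2 ≤ (n)_2`. -/
theorem result {F : Type*} [Field F] [Fintype F] {p : ℕ} [Fact p.Prime] [CharP F p] {q : ℕ} (hq : Fintype.card F = q)
    (n : ℕ) (hn : 4 ≤ n) (he : Even n) (f : (Fin n → F) → (Fin n → F) → F) (hf : Cfsg.Geo.IsSymplecticForm f)
    (hΩ : 2 ∣ ((Cfsg.Geo.similarityGroup f).comap (Matrix.SpecialLinearGroup.toGL : Matrix.SpecialLinearGroup (Fin n) F →* GL (Fin n) F)).index) :
    (∀ x : Matrix.SpecialLinearGroup (Fin n) F,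
      (∃ z : F, ((x ^ 2 : Matrix.SpecialLinearGroup (Fin n) F) : Matrix (Fin n) (Fin n) F) = z • (1 : Matrix (Fin n) (Fin n) F)) →
      (∀ z : F, (x : Matrix (Fin n) (Fin n) F) ≠ z • (1 : Matrix (Fin n) (Fin n) F)) →
      ∃ P : Matrix.SpecialLinearGroup (Fin n) F, P⁻¹ * x * P ∈ ((Cfsg.Geo.similarityGroup f).comap (Matrix.SpecialLinearGroup.toGL : Matrix.SpecialLinearGroup (Fin n) F →* GL (Fin n) F))) ↔
    padicValNat 2 (q - 1) ≤ padicValNat 2 n := by
    classical
  have hn0 : 0 < n := by omega
  have hN0 : n ≠ 0 := by omega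
  have hcq : Fintype.card F - 1 = q - 1 := by rw [hq]
  constructor
  · intro hall
    by_contra hlt
    push Not at hlt
    have hq' : padicValNat 2 n < padicValNat 2 (Fintype.card F - 1) := by rw [hq]; exact hlt
    have h2 : (2 : F) ≠ 0 := two_ne_zero_of_val (by omega)
    obtain ⟨c, hc, hcn⟩ := exists_pow_eq_neg_one hN0 hq'
    set A : Matrix (Fin n) (Fin n) F := c • diagModel n 1 F with hA
    have hdet : A.det = 1 := by
      rw [hA, Matrix.det_smul, det_diagModel (by omega), Fintype.card_fin, hcn]; ring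
    let x : Matrix.SpecialLinearGroup (Fin n) F := ⟨A, hdet⟩
    have hx2 : ((x ^ 2 : Matrix.SpecialLinearGroup (Fin n) F) : Matrix (Fin n) (Fin n) F) = (c * c) • 1 := by
      rw [Matrix.SpecialLinearGroup.coe_pow, pow_two]
      exact scaled_diagModel_sq 1 c
    have hxs : ∀ z : F, (x : Matrix (Fin n) (Fin n) F) ≠ z • 1 := by
      intro z hz
      have hz' : A = z • 1 := hz
      have h0 := congrFun (congrFun hz' ⟨0, by omega⟩) ⟨0, by omega⟩
      have h1 := congrFun (congrFun hz' ⟨1, by omega⟩) ⟨1, by omega⟩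
      simp [hA, diagModel] at h0 h1
      apply mul_ne_zero h2 hc
      linear_combination h1 - h0
    obtain ⟨P, hP⟩ := hall x ⟨_, hx2⟩ hxs
    obtain ⟨μ, hμ⟩ := hP
    set Pi' : Matrix (Fin n) (Fin n) F := ((P⁻¹ : Matrix.SpecialLinearGroup (Fin n) F) : Matrix (Fin n) (Fin n) F) with hPi'
    have hPP : (P : Matrix (Fin n) (Fin n) F) * Pi' = 1 := by
      have h : ((P * P⁻¹ : Matrix.SpecialLinearGroup (Fin n) F) : Matrix (Fin n) (Fin n) F) = 1 := by
        rw [mul_inv_cancel]; rfl
      exact h
    have hPP' : Pi' * (P : Matrix (Fin n) (Fin n) F) = 1 := by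
      have h : ((P⁻¹ * P : Matrix.SpecialLinearGroup (Fin n) F) : Matrix (Fin n) (Fin n) F) = 1 := by
        rw [inv_mul_cancel]; rfl
      exact h
    obtain ⟨B, hB⟩ : ∃ B : LinearMap.BilinForm F (Fin n → F), ∀ u v, B u v = f u v :=
      ⟨formOf f hf.bilinear, fun _ _ => rfl⟩
    let g : LinearMap.BilinForm F (Fin n → F) := B.compl₁₂ (Matrix.toLin' Pi') (Matrix.toLin' Pi')
    have hg : ∀ u v, g u v = f (Pi' *ᵥ u) (Pi' *ᵥ v) := fun u v => hB _ _
    apply no_reflection (n := n) (by omega) h2 g (fun v => by rw [hg]; exact hf.alternating _) ?_ c (μ : F) hc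
    · intro u v
      have h3 := hμ (Pi' *ᵥ u) (Pi' *ᵥ v)
      have h4 : ∀ w : Fin n → F, (((Matrix.SpecialLinearGroup.toGL (P⁻¹ * x * P) : GL (Fin n) F) : Matrix (Fin n) (Fin n) F)) *ᵥ (Pi' *ᵥ w) = Pi' *ᵥ (c • (diagModel n 1 F *ᵥ w)) := by
        intro w
        rw [Matrix.mulVec_mulVec]
        have e1 : (((Matrix.SpecialLinearGroup.toGL (P⁻¹ * x * P) : GL (Fin n) F) : Matrix (Fin n) (Fin n) F)) * Pi' = Pi' * A := by
          show Pi' * A * (P : Matrix (Fin n) (Fin n) F) * Pi' = Pi' * A
          rw [mul_assoc, hPP, mul_one]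
        rw [e1, ← Matrix.mulVec_mulVec, hA, Matrix.smul_mulVec]
      rw [h4, h4] at h3
      rw [hg, hg]
      exact h3
    · intro v hv
      have hv' : Pi' *ᵥ v ≠ 0 := by
        intro h0
        apply hv
        have := congrArg (fun w => (P : Matrix (Fin n) (Fin n) F) *ᵥ w) h0
        simpa [Matrix.mulVec_mulVec, hPP] using this
      obtain ⟨-, y, hy⟩ := hf.nondegenerate _ hv'
      refine ⟨(P : Matrix (Fin n) (Fin n) F) *ᵥ y, ?_⟩
      rw [hg, Matrix.mulVec_mulVec, hPP', Matrix.one_mulVec]
      exact hy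
  · intro hv x hxz hns
    obtain ⟨z, hz⟩ := hxz
    set A : Matrix (Fin n) (Fin n) F := (x : Matrix (Fin n) (Fin n) F) with hA
    have hAA : A * A = z • 1 := by
      rw [← hz, Matrix.SpecialLinearGroup.coe_pow, pow_two]
    have hdet : A.det = 1 := x.2
    have hz0 : z ≠ 0 := by
      rintro rfl
      have h3 := congrArg Matrix.det hAA
      haveI : Nonempty (Fin n) := ⟨⟨0, hn0⟩⟩
      rw [Matrix.det_mul, hdet, zero_smul, Matrix.det_zero] at h3
      simp at h3
    obtain ⟨B, hB⟩ : ∃ B : LinearMap.BilinForm F (Fin n → F), ∀ u v, B u v = f u v :=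
      ⟨formOf f hf.bilinear, fun _ _ => rfl⟩
    have halt : ∀ v, B v v = 0 := fun v => by rw [hB]; exact hf.alternating v
    have hnd : Nd B ⊤ := by
      intro u _ hu
      obtain ⟨-, y, hy⟩ := hf.nondegenerate u hu
      exact ⟨y, trivial, by rw [hB]; exact hy⟩
    obtain ⟨s, hs, hspan⟩ := exists_family_of_form halt hnd
    have hcard : n = 2 * s.card := by
      have := finrank_family halt hs hspan
      simpa using this
    have hsmul : ∀ (c : F) (a b : Fin n → F), f (c • a) (c • b) = c * c * f a b := by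
      intro c a b
      rw [hf.bilinear.smul_left, hf.bilinear.smul_right, mul_assoc]
    by_cases hodd : Odd q
    · have hc2 : ringChar F ≠ 2 := char_ne_two_of_odd (by rw [hq]; exact hodd)
      have h2 : (2 : F) ≠ 0 := Ring.two_ne_zero hc2
      by_cases hsq : ∃ c : F, c * c = z
      · obtain ⟨c, rfl⟩ := hsq
        have hc : c ≠ 0 := fun h => hz0 (by rw [h]; ring)
        have hj : finrank F (LinearMap.ker (Matrix.toLin' (A + c • 1))) ≤ n := by
          have := finrank_split h2 hc A hAA
          omega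
        have hjeven : Even (finrank F (LinearMap.ker (Matrix.toLin' (A + c • 1)))) := by
          by_contra hodd'
          rw [Nat.not_even_iff_odd] at hodd'
          have h3 := det_split hn0 h2 hc A hAA
          rw [hdet, hodd'.neg_one_pow] at h3
          have h4 : c ^ n = -1 := by linear_combination h3
          have h5 := val_lt_of_pow_eq_neg_one h2 hN0 hc h4
          rw [hq] at h5
          omega
        obtain ⟨m, hm⟩ := hjeven
        obtain ⟨T, hTs, hTc⟩ := Finset.exists_subset_card_eq (s := s) (n := m) (by omega)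
        have hT : Fam B T := fam_subset hs hTs
        set R : Matrix (Fin n) (Fin n) F := LinearMap.toMatrix' (reflMap B T) with hR
        have hRl : Matrix.toLin' R = reflMap B T := Matrix.toLin'_toMatrix' _
        have hRR : R * R = 1 := by
          apply (Matrix.toLin' (R := F) (m := Fin n) (n := Fin n)).injective
          rw [Matrix.toLin'_mul, hRl, Matrix.toLin'_one]
          exact LinearMap.ext (fun v => reflMap_sq halt hT v)
        have hsq2 : (c • R) * (c • R) = (c * c) • 1 := by
          rw [Matrix.smul_mul, Matrix.mul_smul, hRR, smul_smul]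
        have hkerR : Matrix.toLin' (c • R + c • 1) = c • reflMap B T + c • LinearMap.id := by
          rw [map_add, map_smul, map_smul, hRl, Matrix.toLin'_one]
        obtain ⟨P, hP, hAP⟩ := conj_split hn0 h2 hc A (c • R) hAA hsq2 (by
          rw [hkerR, finrank_ker_reflMap halt hT h2 hc, hTc]; omega)
        apply conj_mem_sim f x P (c • R) hP hAP (mul_ne_zero hc hc)
        intro u v
        rw [Matrix.smul_mulVec, Matrix.smul_mulVec, hsmul, hR, LinearMap.toMatrix'_mulVec, LinearMap.toMatrix'_mulVec, ← hB, ← hB,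
          reflMap_form halt hT]
      · push Not at hsq
        set L : Matrix (Fin n) (Fin n) F := LinearMap.toMatrix' (swapMap B s z) with hL
        have hLl : Matrix.toLin' L = swapMap B s z := Matrix.toLin'_toMatrix' _
        have hLL : L * L = z • 1 := by
          apply (Matrix.toLin' (R := F) (m := Fin n) (n := Fin n)).injective
          rw [Matrix.toLin'_mul, hLl, map_smul, Matrix.toLin'_one]
          exact LinearMap.ext (fun v => by simpa using swapMap_sq halt hs hspan z v)
        obtain ⟨P, hP, hAP⟩ := conj_nonsq hn0 hsq A L hAA hLL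
        apply conj_mem_sim f x P L hP hAP (neg_ne_zero.mpr hz0)
        intro u v
        rw [hL, LinearMap.toMatrix'_mulVec, LinearMap.toMatrix'_mulVec, ← hB, ← hB, swapMap_form halt hs hspan]
    · -- characteristic two
      have hc2 : ringChar F = 2 := by
        rw [FiniteField.even_card_iff_char_two, hq]
        exact Nat.even_iff.mp (Nat.not_odd_iff_even.mp hodd)
      have h20 : (2 : F) = 0 := by
        have := ringChar.spec F 2
        rw [hc2] at this
        exact_mod_cast this.mpr dvd_rfl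
      obtain ⟨c, rfl⟩ := FiniteField.isSquare_of_char_two hc2 z
      have hc : c ≠ 0 := fun h => hz0 (by rw [h]; ring)
      set N : Matrix (Fin n) (Fin n) F := c⁻¹ • A - 1 with hN
      have hNN : N * N = 0 := by
        have e1 : (c⁻¹ • A) * (c⁻¹ • A) = 1 := by
          rw [Matrix.smul_mul, Matrix.mul_smul, hAA, smul_smul, smul_smul]
          have : c⁻¹ * c⁻¹ * (c * c) = 1 := by field_simp
          rw [this, one_smul]
        rw [hN, sub_mul, mul_sub, mul_sub, e1, mul_one, one_mul, mul_one]
        have e2 : (c⁻¹ • A) + (c⁻¹ • A) = 0 := by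
          rw [← two_smul F, h20, zero_smul]
        have e3 : (1 : Matrix (Fin n) (Fin n) F) + 1 = 0 := by
          rw [← two_smul F, h20, zero_smul]
        calc 1 - c⁻¹ • A - (c⁻¹ • A - 1) = (1 + 1) - (c⁻¹ • A + c⁻¹ • A) := by abel
          _ = 0 := by rw [e2, e3, sub_zero]
      have hN0' : N ≠ 0 := by
        intro h
        apply hns c
        have h3 : c⁻¹ • A = 1 := sub_eq_zero.mp h
        rw [← h3, smul_smul, mul_inv_cancel₀ hc, one_smul]
      have hNp : N ^ 2 = 0 := by rw [pow_two, hNN]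
      have hL2 : (Matrix.toLin' N) ^ (1 + 1) = 0 := by
        rw [← Matrix.toLin'_pow, hNp, map_zero]
      have hL1 : (Matrix.toLin' N) ^ 1 ≠ 0 := by
        rw [pow_one]
        intro h
        apply hN0'
        exact (Matrix.toLin' (R := F) (m := Fin n) (n := Fin n)).injective (by rw [h, map_zero])
      have hNl : (Matrix.toLin' N : Module.End F (Fin n → F)) * Matrix.toLin' N = 0 := by
        have : (Matrix.toLin' N : Module.End F (Fin n → F)) ^ 2 = 0 := hL2
        rwa [pow_two] at this
      have hr : 2 * finrank F (LinearMap.range (Matrix.toLin' N)) ≤ n := by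
        have h3 := LinearMap.finrank_range_add_finrank_ker (Matrix.toLin' N)
        have h4 : LinearMap.range (Matrix.toLin' N) ≤ LinearMap.ker (Matrix.toLin' N) := by
          rintro _ ⟨v, rfl⟩
          exact LinearMap.congr_fun hNl v
        have h5 := Submodule.finrank_mono h4
        rw [Module.finrank_fin_fun] at h3
        omega
      obtain ⟨T, hTs, hTc⟩ := Finset.exists_subset_card_eq (s := s) (n := finrank F (LinearMap.range (Matrix.toLin' N))) (by omega)
      have hT : Fam B T := fam_subset hs hTs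
      have hN'N' : (shearMap B T : Module.End F (Fin n → F)) * shearMap B T = 0 :=
        LinearMap.ext (shearMap_sq halt hT)
      obtain ⟨Q, hQ⟩ := conj_sq_zero (Matrix.toLin' N) (shearMap B T) hNl hN'N' (by rw [finrank_range_shearMap halt hT, hTc])
      set P₀ : Matrix (Fin n) (Fin n) F := LinearMap.toMatrix' (Q.symm : (Fin n → F) →ₗ[F] (Fin n → F)) with hP₀d
      set M' : Matrix (Fin n) (Fin n) F := LinearMap.toMatrix' (shearMap B T) with hM'
      have hNP : N * P₀ = P₀ * M' := by
        apply (Matrix.toLin' (R := F) (m := Fin n) (n := Fin n)).injective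
        rw [Matrix.toLin'_mul, Matrix.toLin'_mul, hP₀d, hM', Matrix.toLin'_toMatrix', Matrix.toLin'_toMatrix']
        apply LinearMap.ext
        intro v
        have h3 := hQ (Q.symm v)
        rw [LinearEquiv.apply_symm_apply] at h3
        show Matrix.toLin' N (Q.symm v) = Q.symm (shearMap B T v)
        rw [← h3, LinearEquiv.symm_apply_apply]
      have hP₀ : P₀.det ≠ 0 := by
        rw [hP₀d, LinearMap.det_toMatrix']
        exact (LinearEquiv.isUnit_det' Q.symm).ne_zero
      obtain ⟨a, ha⟩ := FiniteField.isSquare_of_char_two hc2 (P₀.det)⁻¹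
      obtain ⟨c₁, hc₁, hdc⟩ := Cfsg.Agent.Lib.ClassMax.EluNil.exists_comm_det_block (Matrix.toLin' N) hL2 hL1 a
      set C : Matrix (Fin n) (Fin n) F := LinearMap.toMatrix' c₁ with hC
      have hCN : C * N = N * C := by
        apply (Matrix.toLin' (R := F) (m := Fin n) (n := Fin n)).injective
        rw [Matrix.toLin'_mul, Matrix.toLin'_mul, hC, Matrix.toLin'_toMatrix']
        apply LinearMap.ext
        intro v
        exact hc₁ v
      set P : Matrix (Fin n) (Fin n) F := C * P₀ with hP
      have hPd : P.det = 1 := by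
        rw [hP, Matrix.det_mul, hC, LinearMap.det_toMatrix', hdc, pow_two, ← ha, inv_mul_cancel₀ hP₀]
      have hNP2 : N * P = P * M' := by
        rw [hP, ← mul_assoc, ← hCN, mul_assoc, hNP, mul_assoc]
      have hAN : A = c • (N + 1) := by
        rw [hN, sub_add_cancel, smul_smul, mul_inv_cancel₀ hc, one_smul]
      have hAP : A * P = P * (c • (M' + 1)) := by
        rw [hAN, Matrix.smul_mul, add_mul, one_mul, hNP2, Matrix.mul_smul, mul_add, mul_one]
      apply conj_mem_sim f x P (c • (M' + 1)) hPd hAP (mul_ne_zero hc hc)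
      intro u v
      have h5 : ∀ w : Fin n → F, (M' + 1) *ᵥ w = (LinearMap.id + shearMap B T : (Fin n → F) →ₗ[F] (Fin n → F)) w := by
        intro w
        rw [Matrix.add_mulVec, Matrix.one_mulVec, hM', LinearMap.toMatrix'_mulVec]
        simp [add_comm]
      rw [Matrix.smul_mulVec, Matrix.smul_mulVec, hsmul, h5, h5, ← hB, ← hB, shearMap_form halt hT]

end Cfsg.Agent.S5967
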