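import Cfsg.Statements.S5968
import Cfsg.Agent.Lib.ClassMax.EluSimForm
import Cfsg.Agent.Lib.ClassMax.EluThree
import Cfsg.Agent.Lib.ClassMax.EluBlock
import Cfsg.Agent.Lib.ClassMax.EluOrder
import Cfsg.Agent.Lib.ClassMax.EluTensor

set_option autoImplicit false
open scoped MatrixGroups
open Cfsg

namespace Cfsg.Agent.S5968

open Module Matrix Polynomial Cfsg.Geo Cfsg.Agent.Lib.ClassMax Cfsg.Agent.Lib.ClassMax.EluSimForm Cfsg.Agent.Lib.ClassMax.EluBlock Cfsg.Agent.Lib.ClassMax.EluOrder Cfsg.Agent.Lib.ClassMax.EluQuad Cfsg.Agent.Lib.ClassMax.EluTensor Cfsg.Agent.Lib.ClassMax.EluThree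

section aux
variable {F : Type*} [Field F] {n : ℕ}

theorem conj_data {f : (Fin n → F) → (Fin n → F) → F} (x P : Matrix.SpecialLinearGroup (Fin n) F)
    (hP : P⁻¹ * x * P ∈ (similarityGroup f).comap (Matrix.SpecialLinearGroup.toGL : Matrix.SpecialLinearGroup (Fin n) F →* GL (Fin n) F)) :
    ∃ (c : Fˣ) (Q Q' : Matrix (Fin n) (Fin n) F), Q * Q' = 1 ∧ Q' * Q = 1 ∧
      ∀ u v, f ((Q * (x : Matrix (Fin n) (Fin n) F) * Q') *ᵥ u) ((Q * (x : Matrix (Fin n) (Fin n) F) * Q') *ᵥ v) = c * f u v := by
  rw [Subgroup.mem_comap] at hP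
  obtain ⟨c, hc⟩ := hP
  refine ⟨c, ((P⁻¹ : Matrix.SpecialLinearGroup (Fin n) F) : Matrix (Fin n) (Fin n) F), (P : Matrix (Fin n) (Fin n) F), ?_, ?_, hc⟩
  · have h : ((P⁻¹ * P : Matrix.SpecialLinearGroup (Fin n) F) : Matrix (Fin n) (Fin n) F) = 1 := by
      rw [inv_mul_cancel]; rfl
    exact h
  · have h : ((P * P⁻¹ : Matrix.SpecialLinearGroup (Fin n) F) : Matrix (Fin n) (Fin n) F) = 1 := by
      rw [mul_inv_cancel]; rfl
    exact h

theorem conj_pow' {Q Q' X : Matrix (Fin n) (Fin n) F} (h1 : Q * Q' = 1) (h2 : Q' * Q = 1) (k : ℕ) : (Q * X * Q') ^ k = Q * X ^ k * Q' := by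
  induction k with
  | zero => simp [h1]
  | succ k ih =>
    rw [pow_succ, ih, pow_succ]
    calc Q * X ^ k * Q' * (Q * X * Q') = Q * X ^ k * (Q' * Q) * X * Q' := by simp only [mul_assoc]
      _ = _ := by rw [h2, mul_one]; simp only [mul_assoc]

theorem conj_sub {Q Q' X : Matrix (Fin n) (Fin n) F} (h1 : Q * Q' = 1) (μ : F) : Q * X * Q' - μ • 1 = Q * (X - μ • 1) * Q' := by
  rw [mul_sub, sub_mul, Matrix.mul_smul, Matrix.smul_mul, mul_one, h1]

theorem conj_ker {Q Q' X : Matrix (Fin n) (Fin n) F} (h1 : Q * Q' = 1) (h2 : Q' * Q = 1) (μ : F) :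
    finrank F (LinearMap.ker (toLin' (Q * X * Q' - μ • 1))) = finrank F (LinearMap.ker (toLin' (X - μ • 1))) := by
  rw [conj_sub h1, finrank_ker_conj Q Q' _ h1 h2]

theorem diag_dim (d : Fin n → F) (μ : F) :
    finrank F (LinearMap.ker (toLin' (Matrix.diagonal d - μ • 1))) = Nat.card {k // d k = μ} := by
  have e : Matrix.diagonal d - μ • 1 = Matrix.diagonal (fun k => d k - μ) := by
    rw [Matrix.smul_one_eq_diagonal, ← Matrix.diagonal_sub]
  rw [e, finrank_ker_diagonal]
  simp only [sub_eq_zero]

/-- The model diagonal. -/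
def dg (i₀ i₁ i₂ : Fin n) (a b : F) : Fin n → F := by
  classical
  exact fun k => (if k = i₀ then a else 1) * (if k = i₁ then b else 1) * (if k = i₂ then b else 1)

theorem dg_zero {i₀ i₁ i₂ : Fin n} (h01 : i₀ ≠ i₁) (h02 : i₀ ≠ i₂) (h12 : i₁ ≠ i₂) (a b : F) : dg i₀ i₁ i₂ a b i₀ = a := by
  simp [dg, h01, h02, h12]

theorem dg_one {i₀ i₁ i₂ : Fin n} (h01 : i₀ ≠ i₁) (h02 : i₀ ≠ i₂) (h12 : i₁ ≠ i₂) (a b : F) : dg i₀ i₁ i₂ a b i₁ = b := by
  simp [dg, h01.symm, h02, h12]

theorem dg_two {i₀ i₁ i₂ : Fin n} (h01 : i₀ ≠ i₁) (h02 : i₀ ≠ i₂) (h12 : i₁ ≠ i₂) (a b : F) : dg i₀ i₁ i₂ a b i₂ = b := by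
  simp [dg, h02.symm, h12.symm]

theorem dg_else {i₀ i₁ i₂ k : Fin n} (h0 : k ≠ i₀) (h1 : k ≠ i₁) (h2 : k ≠ i₂) (a b : F) : dg i₀ i₁ i₂ a b k = 1 := by
  simp [dg, h0, h1, h2]

theorem dg_det {i₀ i₁ i₂ : Fin n} (a b : F) : (Matrix.diagonal (dg i₀ i₁ i₂ a b)).det = a * b * b := by
  classical
  rw [Matrix.det_diagonal]
  unfold dg
  rw [Finset.prod_mul_distrib, Finset.prod_mul_distrib]
  simp

open Classical in
theorem dg_card {i₀ i₁ i₂ : Fin n} (h01 : i₀ ≠ i₁) (h02 : i₀ ≠ i₂) (h12 : i₁ ≠ i₂) (a b μ : F) :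
    Nat.card {k // dg i₀ i₁ i₂ a b k = μ} = (if a = μ then 1 else 0) + (if b = μ then 2 else 0) + (if (1 : F) = μ then n - 3 else 0) := by
  classical
  rw [Nat.card_eq_fintype_card, Fintype.card_subtype, Finset.card_filter]
  set S : Finset (Fin n) := {i₀, i₁, i₂} with hS
  have hcard : S.card = 3 := by
    rw [hS, Finset.card_insert_of_notMem, Finset.card_pair h12]
    simp [h01, h02]
  have hrest : (Finset.univ \ S).card = n - 3 := by
    rw [Finset.card_sdiff_of_subset (Finset.subset_univ S), Finset.card_univ, Fintype.card_fin, hcard]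
  rw [← Finset.sum_sdiff (Finset.subset_univ S)]
  have h1 : ∑ k ∈ Finset.univ \ S, (if dg i₀ i₁ i₂ a b k = μ then 1 else 0) = (if (1 : F) = μ then n - 3 else 0) := by
    have : ∀ k ∈ Finset.univ \ S, (if dg i₀ i₁ i₂ a b k = μ then 1 else 0) = if (1 : F) = μ then 1 else 0 := by
      intro k hk
      have hk' : k ∉ S := (Finset.mem_sdiff.mp hk).2
      simp only [hS, Finset.mem_insert, Finset.mem_singleton, not_or] at hk'
      rw [dg_else hk'.1 hk'.2.1 hk'.2.2]
    rw [Finset.sum_congr rfl this, Finset.sum_const, hrest, smul_eq_mul]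
    split_ifs <;> simp
  have h2 : ∑ k ∈ S, (if dg i₀ i₁ i₂ a b k = μ then 1 else 0) = (if a = μ then 1 else 0) + (if b = μ then 2 else 0) := by
    rw [hS, Finset.sum_insert (by simp [h01, h02]), Finset.sum_pair h12, dg_zero h01 h02 h12, dg_one h01 h02 h12, dg_two h01 h02 h12]
    by_cases h : b = μ <;> simp [h]
  rw [h1, h2]
  ring

theorem ker_add_two {M : Matrix (Fin n) (Fin n) F} {u₁ u₂ : Fin n → F} (h : ∀ v, ∃ c d : F, M *ᵥ v = c • u₁ + d • u₂) :
    n ≤ finrank F (LinearMap.ker (Matrix.toLin' M)) + 2 := by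
  have h1 := LinearMap.finrank_range_add_finrank_ker (Matrix.toLin' M)
  rw [finrank_fin_fun] at h1
  have h2 : LinearMap.range (Matrix.toLin' M) ≤ Submodule.span F (Set.range ![u₁, u₂]) := by
    rintro _ ⟨v, rfl⟩
    obtain ⟨c, d, hc⟩ := h v
    rw [Matrix.toLin'_apply, hc]
    apply Submodule.add_mem
    · exact Submodule.smul_mem _ _ (Submodule.subset_span ⟨0, rfl⟩)
    · exact Submodule.smul_mem _ _ (Submodule.subset_span ⟨1, rfl⟩)
  have h3 := Submodule.finrank_mono h2
  have h4 : finrank F (Submodule.span F (Set.range ![u₁, u₂])) ≤ 2 := by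
    have := finrank_range_le_card (R := F) ![u₁, u₂]
    simpa [Set.finrank] using this
  omega

end aux

set_option maxHeartbeats 2000000 in

/-- Derangements of odd prime order of PSL_n(q) on the cosets of a symplectic-type subgroup. Here `T = PSL_n(F)` for a field `F` with `q` elements, `n ≥ 4` even, `f` is a nondegenerate alternating form on `F^n`, and `H` is the subgroup of matrices of determinant 1 preserving `f` up to a scalar — a maximal subgroup of type Sp_n(q); Ω is the set of `T`-conjugates of `H` (cosets of `H`), so an element of `T` of prime order `r` (a matrix `x` of determinant 1 with `x^r` scalar, `x` not scalar) fixes a point of Ω when some conjugate of `x` by a matrix of determinant 1 preserves `f` up to a scalar. For every odd prime `r` dividing the index of `H`, with `(n, r) ≠ (6, 3)`, there is an element of `T` of order `r` with no conjugate in `H`. (For `n = 6`, `r = 3` this can fail: when `(q − 1)_3 = 3` every element of order 3 is conjugate into `H`.) -/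
theorem result {F : Type*} [Field F] [Fintype F] {p : ℕ} [Fact p.Prime] [CharP F p] {q : ℕ} (hq : Fintype.card F = q)
    (n : ℕ) (hn : 4 ≤ n) (he : Even n) (f : (Fin n → F) → (Fin n → F) → F) (hf : Cfsg.Geo.IsSymplecticForm f)
    (r : ℕ) [Fact r.Prime] (hr2 : r ≠ 2) (hgap : ¬ (n = 6 ∧ r = 3)) (hΩ : r ∣ ((Cfsg.Geo.similarityGroup f).comap (Matrix.SpecialLinearGroup.toGL : Matrix.SpecialLinearGroup (Fin n) F →* GL (Fin n) F)).index) :
    ∃ x : Matrix.SpecialLinearGroup (Fin n) F,
      (∃ z : F, ((x ^ r : Matrix.SpecialLinearGroup (Fin n) F) : Matrix (Fin n) (Fin n) F) = z • (1 : Matrix (Fin n) (Fin n) F)) ∧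
      (∀ z : F, (x : Matrix (Fin n) (Fin n) F) ≠ z • (1 : Matrix (Fin n) (Fin n) F)) ∧
      ∀ P : Matrix.SpecialLinearGroup (Fin n) F, P⁻¹ * x * P ∉ ((Cfsg.Geo.similarityGroup f).comap (Matrix.SpecialLinearGroup.toGL : Matrix.SpecialLinearGroup (Fin n) F →* GL (Fin n) F)) := by
    classical
  subst hq
  obtain ⟨m, hm⟩ := he
  have hr : r.Prime := Fact.out
  have hpp : p.Prime := Fact.out
  have hn0 : 0 < n := by omega
  haveI : Nonempty (Fin n) := ⟨⟨0, hn0⟩⟩
  have hq2 : 1 < Fintype.card F := Fintype.one_lt_card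
  let i₀ : Fin n := ⟨0, by omega⟩
  let i₁ : Fin n := ⟨1, by omega⟩
  let i₂ : Fin n := ⟨2, by omega⟩
  let i₃ : Fin n := ⟨3, by omega⟩
  have h01 : i₀ ≠ i₁ := by simp [i₀, i₁, Fin.ext_iff]
  have h02 : i₀ ≠ i₂ := by simp [i₀, i₂, Fin.ext_iff]
  have h12 : i₁ ≠ i₂ := by simp [i₁, i₂, Fin.ext_iff]
  have h13 : i₃ ≠ i₁ := by simp [i₁, i₃, Fin.ext_iff]
  have h03 : i₃ ≠ i₀ := by simp [i₀, i₃, Fin.ext_iff]
  have h23 : i₃ ≠ i₂ := by simp [i₂, i₃, Fin.ext_iff]
  by_cases hrq : r ∣ Fintype.card F
  · -- the unipotent case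
    have hrp : r = p := by
      obtain ⟨t, -, ht⟩ := FiniteField.card F p
      rw [ht] at hrq
      exact (Nat.prime_dvd_prime_iff_eq hr hpp).mp (hr.dvd_of_dvd_pow hrq)
    subst hrp
    have hr3 : 3 ≤ r := by
      have := hr.two_le
      omega
    have hrq1 : ¬ r ∣ Fintype.card F - 1 := by
      intro h
      have h2 : r ∣ 1 := by
        have := (Nat.dvd_sub hrq h)
        rwa [Nat.sub_sub_self (by omega)] at this
      exact hr.one_lt.ne' (Nat.dvd_one.mp h2)
    set A : Matrix (Fin n) (Fin n) F := Matrix.single i₀ i₁ 1 with hA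
    set B : Matrix (Fin n) (Fin n) F := Matrix.single i₁ i₂ 1 with hB
    set C : Matrix (Fin n) (Fin n) F := Matrix.single i₀ i₂ 1 with hC
    have hAB : A * B = C := by
      rw [hA, hB, hC, Matrix.single_mul_single_same, one_mul]
    have hAA : A * A = 0 := Matrix.single_mul_single_of_ne _ _ _ _ h01.symm _
    have hAC : A * C = 0 := Matrix.single_mul_single_of_ne _ _ _ _ h01.symm _
    have hBA : B * A = 0 := Matrix.single_mul_single_of_ne _ _ _ _ h02.symm _
    have hBB : B * B = 0 := Matrix.single_mul_single_of_ne _ _ _ _ h12.symm _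
    have hBC : B * C = 0 := Matrix.single_mul_single_of_ne _ _ _ _ h02.symm _
    have hCA : C * A = 0 := Matrix.single_mul_single_of_ne _ _ _ _ h02.symm _
    have hCB : C * B = 0 := Matrix.single_mul_single_of_ne _ _ _ _ h12.symm _
    have hCC : C * C = 0 := Matrix.single_mul_single_of_ne _ _ _ _ h02.symm _
    set N : Matrix (Fin n) (Fin n) F := A + B + C with hN
    have hN2 : N ^ 2 = C := by
      rw [pow_two, hN]
      simp only [add_mul, mul_add, hAA, hAB, hAC, hBA, hBB, hBC, hCA, hCB, hCC]
      simp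
    have hN3 : N ^ 3 = 0 := by
      rw [pow_succ, hN2, hN]
      simp only [mul_add, hCA, hCB, hCC]
      simp
    have hC0 : C ≠ 0 := by
      intro h
      have := congrFun (congrFun h i₀) i₂
      simp [hC, Matrix.single_apply] at this
    have hdet : (1 + N).det = 1 := by
      have e : 1 + N = Matrix.transvection i₀ i₁ 1 * Matrix.transvection i₁ i₂ 1 := by
        simp only [Matrix.transvection]
        rw [← hA, ← hB]
        have : (1 + A) * (1 + B) = 1 + A + B + A * B := by noncomm_ring
        rw [this, hAB, hN]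
        abel
      rw [e, Matrix.det_mul, Matrix.det_transvection_of_ne _ _ h01, Matrix.det_transvection_of_ne _ _ h12, one_mul]
    have hpow : (1 + N) ^ r = 1 := by
      rw [add_pow_char_of_commute r (Commute.one_left N), one_pow]
      have : N ^ r = N ^ 3 * N ^ (r - 3) := by
        rw [← pow_add]
        congr 1
        omega
      rw [this, hN3, zero_mul, add_zero]
    let x : Matrix.SpecialLinearGroup (Fin n) F := ⟨1 + N, hdet⟩
    refine ⟨x, ⟨1, ?_⟩, ?_, ?_⟩
    · rw [Matrix.SpecialLinearGroup.coe_pow, one_smul]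
      exact hpow
    · intro z hz
      have hz' : 1 + N = z • 1 := hz
      have e1 := congrFun (congrFun hz' i₀) i₁
      have e2 := congrFun (congrFun hz' i₀) i₂
      have e3 := congrFun (congrFun hz' i₀) i₀
      simp [hN, hA, hB, hC, Matrix.single_apply, Matrix.one_apply, h01, h02, h12, h01.symm, h02.symm, h12.symm] at e1
    · intro P hP
      obtain ⟨c, Q, Q', hQ1, hQ2, hc⟩ := conj_data x P hP
      have hxv : (x : Matrix (Fin n) (Fin n) F) = 1 + N := rfl
      rw [hxv] at hc
      set G := Q * (1 + N) * Q' with hG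
      have hGr : G ^ r = (1 : F) • 1 := by
        rw [hG, conj_pow' hQ1 hQ2, hpow, mul_one, hQ1, one_smul]
      have hcr := mult_root hf hn0 hc hGr
      rw [one_pow] at hcr
      have hc1 : (c : F) = 1 := root_unity_trivial hr hrq1 hcr
      rw [hc1] at hc
      have hG1 : G - 1 = Q * N * Q' := by
        rw [hG, mul_add, add_mul, mul_one, hQ1, add_sub_cancel_left]
      refine no_J3 hf (G := G) (fun u v => by rw [hc, one_mul]) ?_ ?_ ?_
      · rw [hG1, conj_pow' hQ1 hQ2, hN3, mul_zero, zero_mul]
      · rw [hG1, conj_pow' hQ1 hQ2, hN2]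
        intro h
        apply hC0
        calc C = (Q' * Q) * C * (Q' * Q) := by rw [hQ2, one_mul, mul_one]
          _ = Q' * (Q * C * Q') * Q := by simp only [mul_assoc]
          _ = 0 := by rw [h, mul_zero, zero_mul]
      · rw [hG1, finrank_ker_conj Q Q' N hQ1 hQ2]
        apply ker_add_two (u₁ := Pi.single i₀ 1) (u₂ := Pi.single i₁ 1)
        intro v
        refine ⟨v i₁ + v i₂, v i₂, ?_⟩
        ext k
        simp only [hN, hA, hB, hC, Matrix.add_mulVec, Matrix.single_mulVec, Pi.add_apply, Pi.smul_apply, smul_eq_mul, Pi.single_apply, one_mul, Function.update_apply, Pi.zero_apply]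
        split_ifs <;> ring
  · have hcastr : (r : F) ≠ 0 := ratFree_cast_ne hr hrq
    by_cases hrq1 : r ∣ Fintype.card F - 1
    · -- the split case
      obtain ⟨ζ, hζ0, hζr, hζ1, hζ2⟩ := exists_order_elt hr2 hrq1
      have hord : ∀ k, ζ ^ k = 1 → r ∣ k := by
        have hζo : orderOf ζ = r := orderOf_eq_prime hζr hζ1
        intro k hk
        rw [← hζo]
        exact orderOf_dvd_of_pow_eq_one hk
      have hdet : (Matrix.diagonal (dg i₀ i₁ i₂ (ζ ^ 2) ζ⁻¹)).det = 1 := by
        rw [dg_det]
        field_simp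
      have hpow : (Matrix.diagonal (dg i₀ i₁ i₂ (ζ ^ 2) ζ⁻¹)) ^ r = 1 := by
        rw [Matrix.diagonal_pow, ← Matrix.diagonal_one]
        congr 1
        funext k
        show (dg i₀ i₁ i₂ (ζ ^ 2) ζ⁻¹ k) ^ r = 1
        have hrr : (ζ ^ 2) ^ r = 1 := by rw [← pow_mul, mul_comm, pow_mul, hζr, one_pow]
        have hri : (ζ⁻¹) ^ r = 1 := by rw [inv_pow, hζr, inv_one]
        by_cases k0 : k = i₀
        · rw [k0, dg_zero h01 h02 h12, hrr]
        · by_cases k1 : k = i₁
          · rw [k1, dg_one h01 h02 h12, hri]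
          · by_cases k2 : k = i₂
            · rw [k2, dg_two h01 h02 h12, hri]
            · rw [dg_else k0 k1 k2, one_pow]
      let x : Matrix.SpecialLinearGroup (Fin n) F := ⟨Matrix.diagonal (dg i₀ i₁ i₂ (ζ ^ 2) ζ⁻¹), hdet⟩
      refine ⟨x, ⟨1, ?_⟩, ?_, ?_⟩
      · rw [Matrix.SpecialLinearGroup.coe_pow, one_smul]
        exact hpow
      · intro z hz
        have hz' : Matrix.diagonal (dg i₀ i₁ i₂ (ζ ^ 2) ζ⁻¹) = z • 1 := hz
        have e1 := congrFun (congrFun hz' i₁) i₁
        have e2 := congrFun (congrFun hz' i₃) i₃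
        rw [Matrix.diagonal_apply_eq, dg_one h01 h02 h12] at e1
        rw [Matrix.diagonal_apply_eq, dg_else h03 h13 h23] at e2
        simp only [Matrix.smul_apply, Matrix.one_apply_eq, smul_eq_mul, mul_one] at e1 e2
        apply hζ1
        rw [← e2] at e1
        exact inv_eq_one.mp e1
      · intro P hP
        obtain ⟨c, Q, Q', hQ1, hQ2, hc⟩ := conj_data x P hP
        have hxv : (x : Matrix (Fin n) (Fin n) F) = Matrix.diagonal (dg i₀ i₁ i₂ (ζ ^ 2) ζ⁻¹) := rfl
        rw [hxv] at hc
        set G := Q * Matrix.diagonal (dg i₀ i₁ i₂ (ζ ^ 2) ζ⁻¹) * Q' with hG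
        have hD : ∀ μ : F, finrank F (LinearMap.ker (toLin' (G - μ • 1))) =
            (if ζ ^ 2 = μ then 1 else 0) + (if ζ⁻¹ = μ then 2 else 0) + (if (1 : F) = μ then n - 3 else 0) := by
          intro μ
          rw [hG, conj_ker hQ1 hQ2, diag_dim, dg_card h01 h02 h12]
        have hc0 : (c : F) ≠ 0 := c.ne_zero
        have hmult := fun (μ κ : F) (hμ : μ ≠ 0) (hκ0 : κ ≠ 0) (hκ : μ * κ = c) => ker_eq_mult hf hc hμ hκ0 hκ
        have hζi : ζ⁻¹ ≠ 0 := inv_ne_zero hζ0
        have h1i : (1 : F) ≠ ζ⁻¹ := fun h => hζ1 (by rw [← inv_inv ζ, ← h, inv_one])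
        have hζ21 : ζ ^ 2 ≠ 1 := fun h => hζ2 (eq_inv_of_mul_eq_one_left (by rw [← pow_two]; exact h))
        by_cases hr3' : r = 3
        · subst hr3'
          have hz2 : ζ ^ 2 = ζ⁻¹ := by
            field_simp
            linear_combination hζr
          have hn6 : n ≠ 6 := fun h => hgap ⟨h, rfl⟩
          have e1 := hmult 1 c one_ne_zero hc0 (one_mul _)
          rw [hD, hD] at e1
          have h1ne : ζ ^ 2 ≠ 1 := hζ21
          rw [hz2] at e1
          simp only [h1i.symm, if_false, if_true, zero_add] at e1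
          by_cases hcz : ζ⁻¹ = (c : F)
          · by_cases hc1 : (1 : F) = c
            · exact absurd (hc1.trans hcz.symm) h1i
            · simp only [if_pos hcz, if_neg hc1] at e1
              omega
          · by_cases hc1 : (1 : F) = c
            · have e2 := hmult ζ⁻¹ ζ hζi hζ0 (by rw [inv_mul_cancel₀ hζ0]; exact hc1)
              rw [hD, hD, hz2] at e2
              have h3 : ζ⁻¹ ≠ ζ := hζ2.symm
              have h4 : (1 : F) ≠ ζ := hζ1.symm
              simp only [if_true, h3, h4, h1i, if_false] at e2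
              omega
            · simp only [if_neg hcz, if_neg hc1] at e1
              omega
        · -- r ≥ 5
          have hr5 : 5 ≤ r := by
            by_contra h
            have h4 : r = 4 ∨ r = 3 ∨ r = 2 ∨ r < 2 := by omega
            rcases h4 with h4 | h4 | h4 | h4
            · rw [h4] at hr; exact absurd hr (by norm_num)
            · exact hr3' h4
            · exact hr2 h4
            · exact absurd hr.two_le (by omega)
          have hnot : ∀ k, k = 1 ∨ k = 2 ∨ k = 3 ∨ k = 4 ∨ k = 6 → ζ ^ k ≠ 1 := by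
            intro k hk h
            have h5 := hord k h
            have hk0 : 0 < k := by omega
            have h6 := Nat.le_of_dvd hk0 h5
            have h7 : k = 6 ∧ (r = 5 ∨ r = 6) := by omega
            obtain ⟨rfl, h8⟩ := h7
            rcases h8 with h8 | h8
            · rw [h8] at h5; exact absurd h5 (by norm_num)
            · rw [h8] at hr; exact absurd hr (by norm_num)
          have e1 := hmult ζ⁻¹ (c * ζ) hζi (mul_ne_zero hc0 hζ0) (by field_simp)
          rw [hD, hD] at e1
          have hz3 : ζ ^ 2 ≠ ζ⁻¹ := by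
            intro h
            apply hnot 3 (by omega)
            field_simp at h
            rw [pow_succ, pow_two, ← pow_two]
            calc _ = ζ ^ 3 := by ring
              _ = 1 := h
          simp only [hz3, h1i, if_false, if_true, zero_add, add_zero] at e1
          have hcz : ζ⁻¹ = c * ζ := by
            by_contra hne
            rw [if_neg hne] at e1
            by_cases h5 : ζ ^ 2 = c * ζ
            · by_cases h6 : (1 : F) = c * ζ
              · exact hζ21 (h5.trans h6.symm)
              · rw [if_pos h5, if_neg h6] at e1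
                omega
            · rw [if_neg h5] at e1
              by_cases h6 : (1 : F) = c * ζ
              · rw [if_pos h6] at e1
                have : Odd (n - 3) := by
                  rw [Nat.odd_iff]
                  omega
                rw [Nat.odd_iff] at this
                omega
              · rw [if_neg h6] at e1
                omega
          have hcv : (c : F) = ζ⁻¹ * ζ⁻¹ := by
            field_simp at hcz ⊢
            linear_combination -hcz
          have e2 := hmult (ζ ^ 2) ((ζ⁻¹) ^ 4) (pow_ne_zero _ hζ0) (pow_ne_zero _ hζi) (by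
            rw [hcv]; field_simp)
          rw [hD, hD] at e2
          have n1 : ζ ^ 2 ≠ (ζ⁻¹) ^ 4 := by
            intro h
            apply hnot 6 (by omega)
            field_simp at h
            calc ζ ^ 6 = ζ ^ 6 := rfl
              _ = 1 := by linear_combination h
          have n2 : ζ⁻¹ ≠ (ζ⁻¹) ^ 4 := by
            intro h
            apply hnot 3 (by omega)
            field_simp at h
            linear_combination h
          have n3 : (1 : F) ≠ (ζ⁻¹) ^ 4 := by
            intro h
            apply hnot 4 (by omega)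
            field_simp at h
            exact h
          have n4 : ζ⁻¹ ≠ ζ ^ 2 := hz3.symm
          have n5 : (1 : F) ≠ ζ ^ 2 := hζ21.symm
          simp only [n1, n2, n3, n4, n5, if_true, if_false] at e2
          omega
    · -- the non-split case
      have hq0 : 0 < Fintype.card F := Fintype.card_pos
      obtain ⟨j, hj, hjr⟩ := dvd_of_index hf hm hrq hΩ
      have hi : orderOf ((Fintype.card F : ℕ) : ZMod r) ∣ 2 * j + 1 :=
        orderOf_dvd_of_pow_eq_one ((pow_eq_one_iff_dvd hq0).mpr hjr)
      set i := orderOf ((Fintype.card F : ℕ) : ZMod r) with hidef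
      have hiodd : Odd i := Odd.of_dvd_nat ⟨j, rfl⟩ hi
      have hile : i ≤ 2 * j + 1 := Nat.le_of_dvd (by omega) hi
      have hin : i ≤ n := by omega
      have hi1 : i ≠ 1 := by
        intro h
        have h3 : ((Fintype.card F : ℕ) : ZMod r) ^ 1 = 1 := by
          rw [← h, hidef]
          exact pow_orderOf_eq_one _
        exact hrq1 (by simpa using (pow_eq_one_iff_dvd hq0).mp h3)
      obtain ⟨X₀, hdet, hpow, hX1, hrk, f₀, hf₀, hdeg, hker⟩ := exists_block_elt (n := n) hrq hrq1 hin
      rw [← hidef] at hrk hdeg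
      have hker1 : finrank F (LinearMap.ker (toLin' (X₀ - 1))) + i ≤ n := by
        set T : Module.End F (Fin n → F) := Matrix.toLinAlgEquiv' X₀ with hT
        have hconv : ∀ (p' : F[X]), aeval T p' = Matrix.toLin' (aeval X₀ p') := by
          intro p'
          exact aeval_algHom_apply (Matrix.toLinAlgEquiv' (R := F) (n := Fin n)) X₀ p'
        have hcop : IsCoprime (X - C (1 : F)) f₀ := by
          rw [(irreducible_X_sub_C (1 : F)).coprime_iff_not_dvd]
          intro h
          have h1 := natDegree_le_of_dvd ((irreducible_X_sub_C (1 : F)).dvd_symm hf₀ h) (X_sub_C_ne_zero (1 : F))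
          rw [hdeg, natDegree_X_sub_C] at h1
          have h0 : i ≠ 0 := by
            rintro h0
            rw [h0] at hiodd
            exact absurd hiodd (by decide)
          omega
        have hdis := Polynomial.disjoint_ker_aeval_of_isCoprime T hcop
        have hadd := Submodule.finrank_add_finrank_le_of_disjoint hdis
        rw [finrank_fin_fun, hconv, hconv, hker, hdeg] at hadd
        have e : aeval X₀ (X - C (1 : F)) = X₀ - 1 := by simp
        rwa [e] at hadd
      have hrank : finrank F (LinearMap.range (toLin' (X₀ - 1))) = i := by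
        have h3 := LinearMap.finrank_range_add_finrank_ker (toLin' (X₀ - 1))
        rw [finrank_fin_fun] at h3
        omega
      let x : Matrix.SpecialLinearGroup (Fin n) F := ⟨X₀, hdet⟩
      refine ⟨x, ⟨1, ?_⟩, ?_, ?_⟩
      · rw [Matrix.SpecialLinearGroup.coe_pow, one_smul]
        exact hpow
      · intro z hz
        have hz' : X₀ = z • 1 := hz
        have hk0 : LinearMap.ker (toLin' (X₀ - 1)) ≠ ⊥ := by
          intro h
          have h3 := LinearMap.finrank_range_add_finrank_ker (toLin' (X₀ - 1))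
          rw [finrank_fin_fun, h, finrank_bot] at h3
          omega
        obtain ⟨v, hv, hv0⟩ := (Submodule.ne_bot_iff _).mp hk0
        rw [LinearMap.mem_ker, Matrix.toLin'_apply, Matrix.sub_mulVec, Matrix.one_mulVec, sub_eq_zero, hz', Matrix.smul_mulVec, Matrix.one_mulVec] at hv
        have hz1 : z = 1 := by
          have h3 : (z - 1) • v = 0 := by rw [sub_smul, one_smul, hv, sub_self]
          exact sub_eq_zero.mp ((smul_eq_zero.mp h3).resolve_right hv0)
        apply hX1
        rw [hz', hz1, one_smul]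
      · intro P hP
        obtain ⟨c, Q, Q', hQ1, hQ2, hc⟩ := conj_data x P hP
        have hxv : (x : Matrix (Fin n) (Fin n) F) = X₀ := rfl
        rw [hxv] at hc
        set G := Q * X₀ * Q' with hG
        have hGr : G ^ r = 1 := by
          rw [hG, conj_pow' hQ1 hQ2, hpow, mul_one, hQ1]
        have hcr := mult_root hf hn0 hc (z := 1) (by rw [hGr, one_smul])
        rw [one_pow] at hcr
        have hc1 : (c : F) = 1 := root_unity_trivial hr hrq1 hcr
        rw [hc1] at hc
        have hev := even_rank hf (G := G) (fun u v => by rw [hc, one_mul]) hcastr hGr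
        have hG1 : G - 1 = Q * (X₀ - 1) * Q' := by
          have h := conj_sub (X := X₀) hQ1 (1 : F)
          rwa [one_smul] at h
        have h3 := LinearMap.finrank_range_add_finrank_ker (toLin' (G - 1))
        rw [finrank_fin_fun, hG1, finrank_ker_conj Q Q' _ hQ1 hQ2, ← hG1] at h3
        have h4 := LinearMap.finrank_range_add_finrank_ker (toLin' (X₀ - 1))
        rw [finrank_fin_fun, hrank] at h4
        have h5 : finrank F (LinearMap.range (toLin' (G - 1))) = i := by omega
        rw [h5] at hev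
        exact (Nat.not_even_iff_odd.mpr hiodd) hev

end Cfsg.Agent.S5968
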