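import Cfsg.Statements.S5969
import Cfsg.Agent.Lib.ClassMax.EluQuad
import Cfsg.Agent.Lib.ClassMax.EluVal

set_option autoImplicit false
open scoped MatrixGroups
open Cfsg

namespace Cfsg.Agent.S5969

open Module Matrix Cfsg.Agent.Lib.ClassMax.EluInv Cfsg.Agent.Lib.ClassMax.EluQuad Cfsg.Agent.Lib.ClassMax.EluVal Cfsg.Geo

theorem conj_mem_norm {F : Type*} [Field F] {n : ℕ} {K : Subalgebra F (Matrix (Fin n) (Fin n) F)} (hK : IsFieldSubalgebra 2 K)
    {θ : Matrix (Fin n) (Fin n) F} (hθ : θ ∈ K) {t d : F} (hq : θ * θ = t • θ - d • 1) (hns : ∀ c : F, θ ≠ c • 1)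
    (hmem : ∀ k, k ∈ K ↔ ∃ a b : F, k = a • 1 + b • θ) (x : Matrix.SpecialLinearGroup (Fin n) F)
    (P B : Matrix (Fin n) (Fin n) F) (hP : P.det = 1) (hxP : (x : Matrix (Fin n) (Fin n) F) * P = P * B)
    (hB : B * θ = θ * B ∨ B * θ = (t • 1 - θ) * B) :
    ∃ P' : Matrix.SpecialLinearGroup (Fin n) F, P'⁻¹ * x * P' ∈
      (subalgebraNormalizer K).comap (Matrix.SpecialLinearGroup.toGL : Matrix.SpecialLinearGroup (Fin n) F →* GL (Fin n) F) := by
  let P' : Matrix.SpecialLinearGroup (Fin n) F := ⟨P, hP⟩
  refine ⟨P', ?_⟩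
  rw [Subgroup.mem_comap]
  have hinv : ((P'⁻¹ : Matrix.SpecialLinearGroup (Fin n) F) : Matrix (Fin n) (Fin n) F) * P = 1 := by
    have h : ((P'⁻¹ * P' : Matrix.SpecialLinearGroup (Fin n) F) : Matrix (Fin n) (Fin n) F) = 1 := by
      rw [inv_mul_cancel]; rfl
    exact h
  have : ((P'⁻¹ * x * P' : Matrix.SpecialLinearGroup (Fin n) F) : Matrix (Fin n) (Fin n) F) = B := by
    show ((P'⁻¹ : Matrix.SpecialLinearGroup (Fin n) F) : Matrix (Fin n) (Fin n) F) * (x : Matrix (Fin n) (Fin n) F) * P = B
    rw [mul_assoc, hxP, ← mul_assoc, hinv, one_mul]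
  apply mem_norm hK hθ hq hns hmem
  show ((P'⁻¹ * x * P' : Matrix.SpecialLinearGroup (Fin n) F) : Matrix (Fin n) (Fin n) F) * θ = θ * ((P'⁻¹ * x * P' : Matrix.SpecialLinearGroup (Fin n) F) : Matrix (Fin n) (Fin n) F) ∨
    ((P'⁻¹ * x * P' : Matrix.SpecialLinearGroup (Fin n) F) : Matrix (Fin n) (Fin n) F) * θ = (t • 1 - θ) * ((P'⁻¹ * x * P' : Matrix.SpecialLinearGroup (Fin n) F) : Matrix (Fin n) (Fin n) F)
  rw [this]
  exact hB

theorem no_conj {F : Type*} [Field F] [Finite F] {n : ℕ} {K : Subalgebra F (Matrix (Fin n) (Fin n) F)} (hK : IsFieldSubalgebra 2 K)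
    {θ : Matrix (Fin n) (Fin n) F} (hθ : θ ∈ K) {t d : F} (hq : θ * θ = t • θ - d • 1) (hns : ∀ c : F, θ ≠ c • 1) (hn : 3 ≤ n)
    (x : Matrix.SpecialLinearGroup (Fin n) F) (A₀ : Matrix (Fin n) (Fin n) F) {c : F} (hc : c ≠ 0)
    (hx : (x : Matrix (Fin n) (Fin n) F) = c • A₀) (hne : A₀ ≠ 1) (e : Fin n → F)
    (hline : ∀ u : Fin n → F, ∃ a : F, (A₀ - 1) *ᵥ u = a • e) (P : Matrix.SpecialLinearGroup (Fin n) F)
    (hP : P⁻¹ * x * P ∈ (subalgebraNormalizer K).comap (Matrix.SpecialLinearGroup.toGL : Matrix.SpecialLinearGroup (Fin n) F →* GL (Fin n) F)) : False := by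
  classical
  rw [Subgroup.mem_comap] at hP
  set Pi' : Matrix (Fin n) (Fin n) F := ((P⁻¹ : Matrix.SpecialLinearGroup (Fin n) F) : Matrix (Fin n) (Fin n) F) with hPi'
  set PM : Matrix (Fin n) (Fin n) F := (P : Matrix (Fin n) (Fin n) F) with hPM
  have hPP : PM * Pi' = 1 := by
    have h : ((P * P⁻¹ : Matrix.SpecialLinearGroup (Fin n) F) : Matrix (Fin n) (Fin n) F) = 1 := by
      rw [mul_inv_cancel]; rfl
    exact h
  have hPP' : Pi' * PM = 1 := by
    have h : ((P⁻¹ * P : Matrix.SpecialLinearGroup (Fin n) F) : Matrix (Fin n) (Fin n) F) = 1 := by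
      rw [inv_mul_cancel]; rfl
    exact h
  set w : Matrix (Fin n) (Fin n) F := Pi' * A₀ * PM with hw
  have hcoe : ((Matrix.SpecialLinearGroup.toGL (P⁻¹ * x * P) : GL (Fin n) F) : Matrix (Fin n) (Fin n) F) = c • w := by
    show Pi' * (x : Matrix (Fin n) (Fin n) F) * PM = c • w
    rw [hx, hw, Matrix.mul_smul, Matrix.smul_mul]
  have hcases := norm_cases hK hθ hq hns _ hP
  rw [hcoe] at hcases
  have hw' : w * θ = θ * w ∨ w * θ = (t • 1 - θ) * w := by
    rcases hcases with h | h
    · left
      rw [Matrix.smul_mul, Matrix.mul_smul] at h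
      exact smul_right_injective _ hc h
    · right
      rw [Matrix.smul_mul, Matrix.mul_smul] at h
      exact smul_right_injective _ hc h
  have h3 := line_bound hK hθ hq hns w hw' (Pi' *ᵥ e) (by
    intro u
    obtain ⟨a, ha⟩ := hline (PM *ᵥ u)
    refine ⟨a, ?_⟩
    have e1 : w - 1 = Pi' * (A₀ - 1) * PM := by
      rw [mul_sub, sub_mul, mul_one, hPP']
    rw [e1, ← Matrix.mulVec_mulVec, ← Matrix.mulVec_mulVec, ha, Matrix.mulVec_smul]) (by
    intro h1
    apply hne
    calc A₀ = PM * (Pi' * A₀ * PM) * Pi' := by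
          calc A₀ = (PM * Pi') * A₀ * (PM * Pi') := by rw [hPP, one_mul, mul_one]
            _ = _ := by simp only [mul_assoc]
      _ = 1 := by rw [← hw, h1, mul_one, hPP])
  omega


/-- Involutions of PSL_n(q) and extension-field subgroups of degree 2. Here `T = PSL_n(F)` for a field `F` with `q = p^f` elements (`n ≥ 2`, `(n, q) ≠ (2, 2), (2, 3)`), `k` is a prime dividing `n`, `K` is a subalgebra of the `n × n` matrices that is a field of degree `k` over `F` (an extension-field structure F_{q^k} on `F^n`), and `H` is the subgroup of matrices of determinant 1 normalizing `K` — a subgroup of type GL_{n/k}(q^k) (maximal except in some small cases; maximality is not assumed); Ω is the set of cosets of `H` in `T`, so an element of `T` of prime order `r` (a matrix `x` of determinant 1 with `x^r` scalar, `x` not scalar) fixes a point of Ω when some conjugate of `x` by a matrix of determinant 1 normalizes `K`. Take `k = 2` and suppose the index of `H` is even. Then every involution of `T` is conjugate in `T` into `H` if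 and only if `n = 2`, or `q` is odd and `(q − 1)_2 ≤ (n)_2`. -/
theorem result {F : Type*} [Field F] [Fintype F] {p : ℕ} [Fact p.Prime] [CharP F p] {q : ℕ} (hq : Fintype.card F = q)
    (n : ℕ) (hn : 2 ≤ n) (hT : (n, q) ≠ (2, 2) ∧ (n, q) ≠ (2, 3))
    (k : ℕ) (hk : k.Prime) (hkn : k ∣ n) (K : Subalgebra F (Matrix (Fin n) (Fin n) F)) (hK : Cfsg.Geo.IsFieldSubalgebra k K) (hk2 : k = 2) (hΩ : 2 ∣ ((Cfsg.Geo.subalgebraNormalizer K).comap (Matrix.SpecialLinearGroup.toGL : Matrix.SpecialLinearGroup (Fin n) F →* GL (Fin n) F)).index) :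
    (∀ x : Matrix.SpecialLinearGroup (Fin n) F,
      (∃ z : F, ((x ^ 2 : Matrix.SpecialLinearGroup (Fin n) F) : Matrix (Fin n) (Fin n) F) = z • (1 : Matrix (Fin n) (Fin n) F)) →
      (∀ z : F, (x : Matrix (Fin n) (Fin n) F) ≠ z • (1 : Matrix (Fin n) (Fin n) F)) →
      ∃ P : Matrix.SpecialLinearGroup (Fin n) F, P⁻¹ * x * P ∈ ((Cfsg.Geo.subalgebraNormalizer K).comap (Matrix.SpecialLinearGroup.toGL : Matrix.SpecialLinearGroup (Fin n) F →* GL (Fin n) F))) ↔
    (n = 2 ∨ (Odd q ∧ padicValNat 2 (q - 1) ≤ padicValNat 2 n)) := by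
    classical
  subst hk2
  have hn0 : 0 < n := by omega
  have hN0 : n ≠ 0 := by omega
  obtain ⟨θ, hθ, t, d, hq', hns, hmem⟩ := exists_generator hK
  obtain ⟨m, hm⟩ := exists_half hK hθ hq' hns
  constructor
  · intro hall
    by_contra hcon
    push Not at hcon
    obtain ⟨hn2, hodd⟩ := hcon
    have hn3 : 3 ≤ n := by omega
    let i₀ : Fin n := ⟨0, by omega⟩
    let i₁ : Fin n := ⟨1, by omega⟩
    have hi01 : i₀ ≠ i₁ := by simp [i₀, i₁, Fin.ext_iff]
    by_cases hoddq : Odd q
    · have hlt := hodd hoddq
      have hq'' : padicValNat 2 n < padicValNat 2 (Fintype.card F - 1) := by rw [hq]; exact hlt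
      have h2 : (2 : F) ≠ 0 := two_ne_zero_of_val (by omega)
      obtain ⟨c, hc, hcn⟩ := exists_pow_eq_neg_one hN0 hq''
      set A : Matrix (Fin n) (Fin n) F := c • diagModel n 1 F with hA
      have hdet : A.det = 1 := by
        rw [hA, Matrix.det_smul, det_diagModel (by omega), Fintype.card_fin, hcn]; ring
      let x : Matrix.SpecialLinearGroup (Fin n) F := ⟨A, hdet⟩
      have hx2 : ((x ^ 2 : Matrix.SpecialLinearGroup (Fin n) F) : Matrix (Fin n) (Fin n) F) = (c * c) • 1 := by
        rw [Matrix.SpecialLinearGroup.coe_pow, pow_two]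
        exact scaled_diagModel_sq 1 c
      have hxs : ∀ z : F, (x : Matrix (Fin n) (Fin n) F) ≠ z • 1 := by
        intro z hz
        have hz' : A = z • 1 := hz
        have h0 := congrFun (congrFun hz' i₀) i₀
        have h1 := congrFun (congrFun hz' i₁) i₁
        simp [hA, diagModel, i₀, i₁] at h0 h1
        apply mul_ne_zero h2 hc
        linear_combination h1 - h0
      obtain ⟨P, hP⟩ := hall x ⟨_, hx2⟩ hxs
      refine no_conj hK hθ hq' hns hn3 x (diagModel n 1 F) hc rfl ?_ (Pi.single i₀ 1) ?_ P hP
      · intro h1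
        have h3 := congrFun (congrFun h1 i₀) i₀
        simp [diagModel, i₀] at h3
        apply h2
        linear_combination -h3
      · intro u
        refine ⟨-2 * u i₀, ?_⟩
        ext i
        rw [Matrix.sub_mulVec, Matrix.one_mulVec, Pi.sub_apply, diagModel, Matrix.mulVec_diagonal]
        by_cases hi : i = i₀
        · subst hi
          simp [i₀]
          ring
        · have hi' : ¬ (i : ℕ) < 1 := by
            intro h'
            apply hi
            apply Fin.ext
            show (i : ℕ) = 0
            omega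
          simp [hi, hi']
    · have hc2 : ringChar F = 2 := by
        rw [FiniteField.even_card_iff_char_two, hq]
        exact Nat.even_iff.mp (Nat.not_odd_iff_even.mp hoddq)
      have h20 : (2 : F) = 0 := by
        have := ringChar.spec F 2
        rw [hc2] at this
        exact_mod_cast this.mpr dvd_rfl
      set A : Matrix (Fin n) (Fin n) F := Matrix.transvection i₀ i₁ (1 : F) with hA
      have hdet : A.det = 1 := Matrix.det_transvection_of_ne _ _ hi01 _
      let x : Matrix.SpecialLinearGroup (Fin n) F := ⟨A, hdet⟩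
      have hAA : A * A = 1 := by
        rw [hA, Matrix.transvection_mul_transvection_same _ _ hi01]
        have : (1 : F) + 1 = 0 := by linear_combination h20
        rw [this, Matrix.transvection_zero]
      have hx2 : ((x ^ 2 : Matrix.SpecialLinearGroup (Fin n) F) : Matrix (Fin n) (Fin n) F) = (1 : F) • 1 := by
        rw [Matrix.SpecialLinearGroup.coe_pow, pow_two, one_smul]
        exact hAA
      have hA01 : A i₀ i₁ = 1 := by
        simp [hA, Matrix.transvection, Matrix.one_apply_ne hi01, Matrix.single]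
      have hxs : ∀ z : F, (x : Matrix (Fin n) (Fin n) F) ≠ z • 1 := by
        intro z hz
        have hz' : A = z • 1 := hz
        have h0 := congrFun (congrFun hz' i₀) i₁
        rw [hA01] at h0
        simp [Matrix.one_apply_ne hi01] at h0
      obtain ⟨P, hP⟩ := hall x ⟨_, hx2⟩ hxs
      refine no_conj hK hθ hq' hns hn3 x A one_ne_zero (one_smul _ _).symm ?_ (Pi.single i₀ 1) ?_ P hP
      · intro h1
        have h3 := congrFun (congrFun h1 i₀) i₁
        rw [hA01, Matrix.one_apply_ne hi01] at h3
        exact one_ne_zero h3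
      · intro u
        refine ⟨u i₁, ?_⟩
        rw [hA, Matrix.transvection, add_sub_cancel_left]
        ext i
        by_cases hi : i = i₀
        · subst hi
          simp [Matrix.mulVec, dotProduct, Matrix.single_apply]
        · simp [Matrix.mulVec, dotProduct, Matrix.single_apply, hi, Ne.symm hi]
  · intro hR x hxz hns'
    obtain ⟨z, hz⟩ := hxz
    set A : Matrix (Fin n) (Fin n) F := (x : Matrix (Fin n) (Fin n) F) with hA
    have hAA : A * A = z • 1 := by
      rw [← hz, Matrix.SpecialLinearGroup.coe_pow, pow_two]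
    have hdet : A.det = 1 := x.2
    have hz0 : z ≠ 0 := by
      rintro rfl
      have h3 := congrArg Matrix.det hAA
      haveI : Nonempty (Fin n) := ⟨⟨0, hn0⟩⟩
      rw [Matrix.det_mul, hdet, zero_smul, Matrix.det_zero] at h3
      simp at h3
    obtain ⟨Q, hQ, hθQ⟩ := exists_model hK hθ hq' hns hm
    have hQu : IsUnit Q.det := IsUnit.mk0 _ hQ
    have hQ1 : Q * Q⁻¹ = 1 := Matrix.mul_nonsing_inv Q hQu
    have hQ2 : Q⁻¹ * Q = 1 := Matrix.nonsing_inv_mul Q hQu
    set kC : Matrix (Fin n) (Fin n) F := kronModel (compQ t d) (prodEquiv m hm) with hkC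
    have hθQ' : Q⁻¹ * θ = kC * Q⁻¹ := by
      calc Q⁻¹ * θ = Q⁻¹ * θ * (Q * Q⁻¹) := by rw [hQ1, mul_one]
        _ = Q⁻¹ * (θ * Q) * Q⁻¹ := by simp only [mul_assoc]
        _ = (Q⁻¹ * Q) * kC * Q⁻¹ := by rw [hθQ]; simp only [mul_assoc]
        _ = _ := by rw [hQ2, one_mul]
    -- the semilinear model
    set S : Matrix (Fin n) (Fin n) F := Q * kronModel (semQ t) (prodEquiv m hm) * Q⁻¹ with hS
    have hSS : S * S = 1 := by
      have h1 : kronModel (semQ t) (prodEquiv m hm) * kronModel (semQ t) (prodEquiv m hm) = 1 := by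
        rw [kronModel_mul, semQ_sq]
        simpa using kronModel_smul_one (1 : F) (prodEquiv m hm)
      calc S * S = Q * kronModel (semQ t) (prodEquiv m hm) * (Q⁻¹ * Q) * kronModel (semQ t) (prodEquiv m hm) * Q⁻¹ := by
            simp only [hS, mul_assoc]
        _ = Q * (kronModel (semQ t) (prodEquiv m hm) * kronModel (semQ t) (prodEquiv m hm)) * Q⁻¹ := by
            rw [hQ2, mul_one]; simp only [mul_assoc]
        _ = 1 := by rw [h1, mul_one, hQ1]
    have hSθ : S * θ = (t • 1 - θ) * S := by
      have h1 : kronModel (semQ t) (prodEquiv m hm) * kC = (t • 1 - kC) * kronModel (semQ t) (prodEquiv m hm) := by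
        rw [hkC, kronModel_mul, semQ_comp, ← kronModel_mul]
        congr 1
        have e2 : ∀ C D : Matrix (Fin 2) (Fin 2) F, kronModel (C - D) (prodEquiv m hm) = kronModel C (prodEquiv m hm) - kronModel D (prodEquiv m hm) := by
          intro C D
          ext a b
          simp [kronModel, Matrix.kroneckerMap_apply, sub_mul]
        rw [e2, kronModel_smul_one]
      calc S * θ = Q * kronModel (semQ t) (prodEquiv m hm) * (Q⁻¹ * θ) := by simp only [hS, mul_assoc]
        _ = Q * (kronModel (semQ t) (prodEquiv m hm) * kC) * Q⁻¹ := by rw [hθQ']; simp only [mul_assoc]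
        _ = Q * (t • 1 - kC) * kronModel (semQ t) (prodEquiv m hm) * Q⁻¹ := by rw [h1]; simp only [mul_assoc]
        _ = (t • 1 - θ) * S := by
            rw [mul_sub, Matrix.mul_smul, mul_one, ← hθQ, hS]
            simp only [sub_mul, Matrix.smul_mul, one_mul, mul_assoc]
    by_cases hoddq : Odd q
    · have hc2 : ringChar F ≠ 2 := char_ne_two_of_odd (by rw [hq]; exact hoddq)
      have h2 : (2 : F) ≠ 0 := Ring.two_ne_zero hc2
      by_cases hsq : ∃ c : F, c * c = z
      · obtain ⟨c, rfl⟩ := hsq
        have hc : c ≠ 0 := fun h => hz0 (by rw [h]; ring)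
        have hj : finrank F (LinearMap.ker (Matrix.toLin' (A + c • 1))) ≤ n := by
          have := finrank_split h2 hc A hAA
          omega
        by_cases hjeven : Even (finrank F (LinearMap.ker (Matrix.toLin' (A + c • 1))))
        · obtain ⟨i, hi⟩ := hjeven
          set D : Matrix (Fin n) (Fin n) F := diagModel n (2 * i) F with hD
          set M : Matrix (Fin n) (Fin n) F := Q * D * Q⁻¹ with hM
          have hMM : M * M = 1 := by
            calc M * M = Q * D * (Q⁻¹ * Q) * D * Q⁻¹ := by simp only [hM, mul_assoc]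
              _ = Q * (D * D) * Q⁻¹ := by rw [hQ2, mul_one]; simp only [mul_assoc]
              _ = 1 := by rw [hD, diagModel_sq, mul_one, hQ1]
          have hMθ : M * θ = θ * M := by
            calc M * θ = Q * D * (Q⁻¹ * θ) := by simp only [hM, mul_assoc]
              _ = Q * (D * kC) * Q⁻¹ := by rw [hθQ']; simp only [mul_assoc]
              _ = (Q * kC) * D * Q⁻¹ := by rw [hD, hkC, diag_comm_kron]; simp only [mul_assoc]
              _ = θ * M := by rw [← hθQ, hM]; simp only [mul_assoc]
          have hBB : (c • M) * (c • M) = (c * c) • 1 := by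
            rw [Matrix.smul_mul, Matrix.mul_smul, hMM, smul_smul]
          have hker : c • M + c • 1 = Q * (c • D + c • 1) * Q⁻¹ := by
            rw [mul_add, add_mul, Matrix.mul_smul, Matrix.smul_mul, Matrix.mul_smul, Matrix.smul_mul, mul_one, hQ1]
          obtain ⟨P, hP, hAP⟩ := conj_split hn0 h2 hc A (c • M) hAA hBB (by
            rw [hker, finrank_ker_conj Q Q⁻¹ _ hQ1 hQ2, hD, finrank_ker_diagModel h2 hc (by omega)]
            omega)
          apply conj_mem_norm hK hθ hq' hns hmem x P (c • M) hP hAP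
          left
          rw [Matrix.smul_mul, Matrix.mul_smul, hMθ]
        · -- the dimension is odd: `n = 2`
          rw [Nat.not_even_iff_odd] at hjeven
          have h3 := det_split hn0 h2 hc A hAA
          rw [hdet, hjeven.neg_one_pow] at h3
          have h4 : c ^ n = -1 := by linear_combination h3
          have h5 := val_lt_of_pow_eq_neg_one h2 hN0 hc h4
          rw [hq] at h5
          have hn2 : n = 2 := by
            rcases hR with h | ⟨-, h⟩
            · exact h
            · omega
          have hm1 : m = 1 := by omega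
          subst hm1
          have hdS : S.det = -1 := by
            rw [hS, Matrix.det_mul, Matrix.det_mul, kronModel_det, semQ_det, pow_one]
            have : Q.det * (Q⁻¹).det = 1 := by rw [← Matrix.det_mul, hQ1, Matrix.det_one]
            linear_combination (-1 : F) * this
          have hBB : (c • S) * (c • S) = (c * c) • 1 := by
            rw [Matrix.smul_mul, Matrix.mul_smul, hSS, smul_smul]
          have hBdet : (c • S).det = 1 := by
            rw [Matrix.det_smul, Fintype.card_fin, h4, hdS]; ring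
          have h6 := det_split hn0 h2 hc (c • S) hBB
          rw [hBdet, h4] at h6
          have hjodd' : Odd (finrank F (LinearMap.ker (Matrix.toLin' (c • S + c • 1)))) := by
            by_contra h7
            rw [Nat.not_odd_iff_even] at h7
            rw [h7.neg_one_pow] at h6
            apply h2
            linear_combination h6
          have hj' : finrank F (LinearMap.ker (Matrix.toLin' (c • S + c • 1))) ≤ n := by
            have := finrank_split h2 hc (c • S) hBB
            omega
          obtain ⟨P, hP, hAP⟩ := conj_split hn0 h2 hc A (c • S) hAA hBB (by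
            obtain ⟨u, hu⟩ := hjeven
            obtain ⟨u', hu'⟩ := hjodd'
            omega)
          apply conj_mem_norm hK hθ hq' hns hmem x P (c • S) hP hAP
          right
          rw [Matrix.smul_mul, Matrix.mul_smul, hSθ]
      · push Not at hsq
        obtain ⟨w, hw, hww⟩ := exists_sqrt hc2 hK hθ hq' hns hsq
        obtain ⟨P, hP, hAP⟩ := conj_nonsq hn0 hsq A w hAA hww
        exact conj_mem_norm hK hθ hq' hns hmem x P w hP hAP (Or.inl (hK.comm w hw θ hθ))
    · -- characteristic two
      have hn2 : n = 2 := by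
        rcases hR with h | ⟨h, -⟩
        · exact h
        · exact absurd h hoddq
      have hc2 : ringChar F = 2 := by
        rw [FiniteField.even_card_iff_char_two, hq]
        exact Nat.even_iff.mp (Nat.not_odd_iff_even.mp hoddq)
      have h20 : (2 : F) = 0 := by
        have := ringChar.spec F 2
        rw [hc2] at this
        exact_mod_cast this.mpr dvd_rfl
      obtain ⟨c, rfl⟩ := FiniteField.isSquare_of_char_two hc2 z
      have hc : c ≠ 0 := fun h => hz0 (by rw [h]; ring)
      set N : Matrix (Fin n) (Fin n) F := c⁻¹ • A - 1 with hN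
      have e3 : (1 : Matrix (Fin n) (Fin n) F) + 1 = 0 := by
        rw [← two_smul F, h20, zero_smul]
      have hNN : N * N = 0 := by
        have e1 : (c⁻¹ • A) * (c⁻¹ • A) = 1 := by
          rw [Matrix.smul_mul, Matrix.mul_smul, hAA, smul_smul, smul_smul]
          have : c⁻¹ * c⁻¹ * (c * c) = 1 := by field_simp
          rw [this, one_smul]
        rw [hN, sub_mul, mul_sub, mul_sub, e1, mul_one, one_mul, mul_one]
        have e2 : (c⁻¹ • A) + (c⁻¹ • A) = 0 := by
          rw [← two_smul F, h20, zero_smul]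
        calc 1 - c⁻¹ • A - (c⁻¹ • A - 1) = (1 + 1) - (c⁻¹ • A + c⁻¹ • A) := by abel
          _ = 0 := by rw [e2, e3, sub_zero]
      have hN0' : N ≠ 0 := by
        intro h
        apply hns' c
        have h3 : c⁻¹ • A = 1 := sub_eq_zero.mp h
        rw [← h3, smul_smul, mul_inv_cancel₀ hc, one_smul]
      set N' : Matrix (Fin n) (Fin n) F := S - 1 with hN'
      have hNN' : N' * N' = 0 := by
        rw [hN', sub_mul, mul_sub, mul_sub, hSS, mul_one, one_mul, mul_one]
        have e2 : S + S = 0 := by
          rw [← two_smul F, h20, zero_smul]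
        calc 1 - S - (S - 1) = (1 + 1) - (S + S) := by abel
          _ = 0 := by rw [e2, e3, sub_zero]
      have hN'0 : N' ≠ 0 := by
        intro h
        have hS1 : S = 1 := sub_eq_zero.mp h
        rw [hS1, one_mul, mul_one] at hSθ
        apply disc_ne hK hθ hq' hns
        rw [two_smul, sub_eq_zero.mpr (by
          calc t • (1 : Matrix (Fin n) (Fin n) F) = (t • 1 - θ) + θ := by abel
            _ = θ + θ := by rw [← hSθ])]
      have hrk : ∀ M : Matrix (Fin n) (Fin n) F, M * M = 0 → M ≠ 0 → finrank F (LinearMap.range (Matrix.toLin' M)) = 1 := by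
        intro M hMM hM0
        have h3 := LinearMap.finrank_range_add_finrank_ker (Matrix.toLin' M)
        have h4 : LinearMap.range (Matrix.toLin' M) ≤ LinearMap.ker (Matrix.toLin' M) := by
          rintro _ ⟨v, rfl⟩
          rw [LinearMap.mem_ker, Matrix.toLin'_apply, Matrix.toLin'_apply, Matrix.mulVec_mulVec, hMM, Matrix.zero_mulVec]
        have h5 := Submodule.finrank_mono h4
        rw [Module.finrank_fin_fun] at h3
        have h6 : finrank F (LinearMap.range (Matrix.toLin' M)) ≠ 0 := by
          intro h0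
          have h7 := Submodule.finrank_eq_zero.mp h0
          apply hM0
          apply (Matrix.toLin' (R := F) (m := Fin n) (n := Fin n)).injective
          rw [map_zero]
          exact LinearMap.range_eq_bot.mp h7
        omega
      obtain ⟨P, hP, hNP⟩ := sl_conj_sq_zero (FiniteField.isSquare_of_char_two hc2) N N' hNN hNN' hN0' (by rw [hrk N hNN hN0', hrk N' hNN' hN'0])
      have hAN : A = c • (N + 1) := by
        rw [hN, sub_add_cancel, smul_smul, mul_inv_cancel₀ hc, one_smul]
      have hSN : N' + 1 = S := by rw [hN', sub_add_cancel]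
      have hAP : A * P = P * (c • S) := by
        rw [hAN, ← hSN, Matrix.smul_mul, add_mul, one_mul, hNP, Matrix.mul_smul, mul_add, mul_one]
      apply conj_mem_norm hK hθ hq' hns hmem x P (c • S) hP hAP
      right
      rw [Matrix.smul_mul, Matrix.mul_smul, hSθ]

end Cfsg.Agent.S5969
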