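import Cfsg.Statements.S5970
import Cfsg.Agent.Lib.ClassMax.EluBlock
import Cfsg.Agent.Lib.ClassMax.EluSinger

set_option autoImplicit false
open scoped MatrixGroups
open Cfsg

namespace Cfsg.Agent.S5970

open Module Matrix Polynomial Cfsg.Agent.Lib.ClassMax.EluSinger Cfsg.Agent.Lib.ClassMax.EluBlock Cfsg.Agent.Lib.ClassMax.EluOrder Cfsg.Agent.Lib.ClassMax.EluConj Cfsg.Agent.Lib.ClassMax.EluQuad Cfsg.Geo


/-- Elements of order `n` of PSL_n(q), `n` prime, and the normalizer of a Singer cycle. Here `T = PSL_n(F)` for a field `F` with `q = p^f` elements (`n ≥ 2`, `(n, q) ≠ (2, 2), (2, 3)`), `k` is a prime dividing `n`, `K` is a subalgebra of the `n × n` matrices that is a field of degree `k` over `F` (an extension-field structure F_{q^k} on `F^n`), and `H` is the subgroup of matrices of determinant 1 normalizing `K` — a subgroup of type GL_{n/k}(q^k) (maximal except in some small cases; maximality is not assumed); Ω is the set of cosets of `H` in `T`, so an element of `T` of prime order `r` (a matrix `x`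 of determinant 1 with `x^r` scalar, `x` not scalar) fixes a point of Ω when some conjugate of `x` by a matrix of determinant 1 normalizes `K`. Take `k = n > 3` prime with `n ≠ p` (so `H` is the normalizer of a Singer cycle), and suppose `n` divides the index of `H`. Then every element of `T` of order `n` is conjugate in `T` into `H` if and only if the multiplicative order of `q` modulo `n` is `n − 1`. -/
theorem result {F : Type*} [Field F] [Fintype F] {p : ℕ} [Fact p.Prime] [CharP F p] {q : ℕ} (hq : Fintype.card F = q)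
    (n : ℕ) (hn : 2 ≤ n) (hT : (n, q) ≠ (2, 2) ∧ (n, q) ≠ (2, 3))
    (k : ℕ) (hk : k.Prime) (hkn : k ∣ n) (K : Subalgebra F (Matrix (Fin n) (Fin n) F)) (hK : Cfsg.Geo.IsFieldSubalgebra k K) (hkn' : k = n) (hn3 : 3 < n) (hnp : n ≠ p) (hΩ : n ∣ ((Cfsg.Geo.subalgebraNormalizer K).comap (Matrix.SpecialLinearGroup.toGL : Matrix.SpecialLinearGroup (Fin n) F →* GL (Fin n) F)).index) :
    (∀ x : Matrix.SpecialLinearGroup (Fin n) F,
      (∃ z : F, ((x ^ n : Matrix.SpecialLinearGroup (Fin n) F) : Matrix (Fin n) (Fin n) F) = z • (1 : Matrix (Fin n) (Fin n) F)) →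
      (∀ z : F, (x : Matrix (Fin n) (Fin n) F) ≠ z • (1 : Matrix (Fin n) (Fin n) F)) →
      ∃ P : Matrix.SpecialLinearGroup (Fin n) F, P⁻¹ * x * P ∈ ((Cfsg.Geo.subalgebraNormalizer K).comap (Matrix.SpecialLinearGroup.toGL : Matrix.SpecialLinearGroup (Fin n) F →* GL (Fin n) F))) ↔
    orderOf (q : ZMod n) = n - 1 := by
    classical
  subst hkn'
  haveI : Fact k.Prime := ⟨hk⟩
  have hk0 : 0 < k := hk.pos
  have hk5 : 5 ≤ k := by
    by_contra h
    have h4 : k = 4 := by omega
    rw [h4] at hk
    exact absurd hk (by norm_num)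
  haveI : Nonempty (Fin k) := ⟨⟨0, hk0⟩⟩
  have hpp : p.Prime := Fact.out
  have hkq : ¬ k ∣ Fintype.card F := by
    obtain ⟨m, -, hm⟩ := FiniteField.card F p
    rw [hm]
    intro h
    exact hnp ((Nat.prime_dvd_prime_iff_eq hk hpp).mp (hk.dvd_of_dvd_pow h))
  subst hq
  constructor
  · intro hall
    by_contra hne
    have hq0 : ((Fintype.card F : ℕ) : ZMod k) ≠ 0 := by
      rwa [Ne, ZMod.natCast_eq_zero_iff]
    obtain ⟨c, hc⟩ := ZMod.orderOf_dvd_card_sub_one hq0
    set i := orderOf ((Fintype.card F : ℕ) : ZMod k) with hi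
    have hc0 : c ≠ 0 := by
      rintro rfl
      omega
    have hc1 : c ≠ 1 := by
      rintro rfl
      omega
    have hi2 : 2 * i ≤ k - 1 := by
      have : 2 ≤ c := by omega
      rw [hc]
      nlinarith
    obtain ⟨X₀, hdet, hXr, hX1, hrk⟩ : ∃ X₀ : Matrix (Fin k) (Fin k) F, X₀.det = 1 ∧ X₀ ^ k = 1 ∧ X₀ ≠ 1 ∧
        finrank F (LinearMap.range (Matrix.toLin' (X₀ - 1))) ≤ k - 2 := by
      by_cases hkq1 : k ∣ Fintype.card F - 1
      · obtain ⟨ζ, h0, h1, h2, h3⟩ := exists_order_elt (by omega) hkq1
        obtain ⟨X₀, h4, h5, h6, h7, -⟩ := exists_diag_elt (n := k) (by omega) h0 h1 h2 h3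
        exact ⟨X₀, h4, h5, h6, by omega⟩
      · obtain ⟨X₀, h4, h5, h6, h7, -⟩ := exists_block_elt (n := k) hkq hkq1 (by omega)
        exact ⟨X₀, h4, h5, h6, by omega⟩
    have hkerX : 2 ≤ finrank F (LinearMap.ker (Matrix.toLin' (X₀ - 1))) := by
      have h3 := LinearMap.finrank_range_add_finrank_ker (Matrix.toLin' (X₀ - 1))
      rw [finrank_fin_fun] at h3
      omega
    let x : Matrix.SpecialLinearGroup (Fin k) F := ⟨X₀, hdet⟩
    have hxr : ((x ^ k : Matrix.SpecialLinearGroup (Fin k) F) : Matrix (Fin k) (Fin k) F) = (1 : F) • 1 := by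
      rw [Matrix.SpecialLinearGroup.coe_pow, one_smul]
      exact hXr
    have hxs : ∀ z : F, (x : Matrix (Fin k) (Fin k) F) ≠ z • 1 := by
      intro z hz
      have hz' : X₀ = z • 1 := hz
      have hbot : LinearMap.ker (Matrix.toLin' (X₀ - 1)) ≠ ⊥ := by
        intro h
        rw [h, finrank_bot] at hkerX
        omega
      obtain ⟨v, hv, hv0⟩ := (Submodule.ne_bot_iff _).mp hbot
      rw [LinearMap.mem_ker, Matrix.toLin'_apply, Matrix.sub_mulVec, Matrix.one_mulVec, sub_eq_zero, hz', Matrix.smul_mulVec, Matrix.one_mulVec] at hv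
      have hz1 : z = 1 := by
        have h3 : (z - 1) • v = 0 := by rw [sub_smul, one_smul, hv, sub_self]
        exact sub_eq_zero.mp ((smul_eq_zero.mp h3).resolve_right hv0)
      apply hX1
      rw [hz', hz1, one_smul]
    obtain ⟨P, hP⟩ := hall x ⟨1, hxr⟩ hxs
    rw [Subgroup.mem_comap] at hP
    set Pi' : Matrix (Fin k) (Fin k) F := ((P⁻¹ : Matrix.SpecialLinearGroup (Fin k) F) : Matrix (Fin k) (Fin k) F) with hPi'
    set PM : Matrix (Fin k) (Fin k) F := (P : Matrix (Fin k) (Fin k) F) with hPM
    have hPP : PM * Pi' = 1 := by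
      have h : ((P * P⁻¹ : Matrix.SpecialLinearGroup (Fin k) F) : Matrix (Fin k) (Fin k) F) = 1 := by
        rw [mul_inv_cancel]; rfl
      exact h
    have hPP' : Pi' * PM = 1 := by
      have h : ((P⁻¹ * P : Matrix.SpecialLinearGroup (Fin k) F) : Matrix (Fin k) (Fin k) F) = 1 := by
        rw [inv_mul_cancel]; rfl
      exact h
    have hcoe : ((Matrix.SpecialLinearGroup.toGL (P⁻¹ * x * P) : GL (Fin k) F) : Matrix (Fin k) (Fin k) F) = Pi' * X₀ * PM := rfl
    have hone := eq_one_of_fixed hk hK _ hP (by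
      rw [hcoe]
      have e1 : Pi' * X₀ * PM - 1 = Pi' * (X₀ - 1) * PM := by
        rw [mul_sub, sub_mul, mul_one, hPP']
      rw [e1, finrank_ker_conj Pi' PM _ hPP' hPP]
      exact hkerX)
    rw [hcoe] at hone
    apply hX1
    calc X₀ = PM * (Pi' * X₀ * PM) * Pi' := by
          calc X₀ = (PM * Pi') * X₀ * (PM * Pi') := by rw [hPP, one_mul, mul_one]
            _ = _ := by simp only [mul_assoc]
      _ = 1 := by rw [hone, mul_one, hPP]
  · intro hord x hxz hns
    have hkq1 : ¬ k ∣ Fintype.card F - 1 := by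
      intro h
      have hq1 : 1 ≤ Fintype.card F := Fintype.card_pos
      have h2 : ((Fintype.card F : ℕ) : ZMod k) = 1 := by
        have h3 : (((Fintype.card F - 1 : ℕ) : ZMod k)) = 0 := (ZMod.natCast_eq_zero_iff _ _).mpr h
        rw [Nat.cast_sub hq1] at h3
        simpa [sub_eq_zero] using h3
      rw [h2, orderOf_one] at hord
      omega
    obtain ⟨z, hz⟩ := hxz
    set A : Matrix (Fin k) (Fin k) F := (x : Matrix (Fin k) (Fin k) F) with hA
    have hAk : A ^ k = z • 1 := by
      rw [← hz, Matrix.SpecialLinearGroup.coe_pow]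
    have hdet : A.det = 1 := x.2
    have hz0 : z ≠ 0 := by
      rintro rfl
      have h3 := congrArg Matrix.det hAk
      rw [Matrix.det_pow, hdet, zero_smul, Matrix.det_zero] at h3
      simp at h3
    obtain ⟨β, hβ, hβk⟩ := exists_root hk hkq1 hz0
    set A₁ : Matrix (Fin k) (Fin k) F := β⁻¹ • A with hA₁
    have hA₁k : A₁ ^ k = 1 := by
      rw [hA₁, _root_.smul_pow, hAk, smul_smul, inv_pow, hβk, inv_mul_cancel₀ hz0, one_smul]
    have hA₁1 : A₁ ≠ 1 := by
      intro h
      apply hns β
      rw [← h, hA₁, smul_smul, mul_inv_cancel₀ hβ, one_smul]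
    obtain ⟨S, S', hSS, hSS', hSl, hsurj, hS1, hSk, -⟩ := exists_frob hK hn
    set Φ : F[X] := ∑ j ∈ Finset.range k, X ^ j with hΦ
    have hΦX : (X - C (1 : F)) * Φ = X ^ k - 1 := by
      rw [mul_comm, C_1]
      exact geom_sum_mul X k
    have hirr : Irreducible Φ := geom_irreducible (by omega) hkq hord
    have hdegΦ : Φ.natDegree = k - 1 := natDegree_geom hk0
    have hr0 : (k : F) ≠ 0 := ratFree_cast_ne hk hkq
    have hcop : IsCoprime (X - C (1 : F)) Φ := by
      rw [(irreducible_X_sub_C (1 : F)).coprime_iff_not_dvd]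
      rw [dvd_iff_isRoot]
      simp only [IsRoot, hΦ, eval_finset_sum, eval_pow, eval_X, one_pow, Finset.sum_const, Finset.card_range, nsmul_eq_mul, mul_one]
      exact hr0
    have hne : (X - C (1 : F)) ≠ Φ := by
      intro h
      have h3 := hcop
      rw [← h] at h3
      exact absurd (isCoprime_self.mp h3) (irreducible_X_sub_C (1 : F)).not_isUnit
    have hzero : ∀ M : Matrix (Fin k) (Fin k) F, M ^ k = 1 → aeval M ((X - C (1 : F)) * Φ) = 0 := by
      intro M hM
      rw [hΦX]
      simp [hM]
    have hdim : ∀ M : Matrix (Fin k) (Fin k) F, M ^ k = 1 → M ≠ 1 →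
        finrank F (LinearMap.ker (Matrix.toLin' (aeval M (X - C (1 : F))))) = 1 ∧ finrank F (LinearMap.ker (Matrix.toLin' (aeval M Φ))) = k - 1 := by
      intro M hM hM1
      set A' : Module.End F (Fin k → F) := Matrix.toLinAlgEquiv' M with hA'
      have hconv : ∀ (p' : F[X]), aeval A' p' = Matrix.toLin' (aeval M p') := by
        intro p'
        exact aeval_algHom_apply (Matrix.toLinAlgEquiv' (R := F) (n := Fin k)) M p'
      have hz' : aeval A' ((X - C (1 : F)) * Φ) = 0 := by
        rw [hconv, hzero M hM, map_zero]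
      have hcompl := ker_isCompl A' hcop hz'
      have hsum := Submodule.finrank_add_eq_of_isCompl hcompl
      rw [finrank_fin_fun] at hsum
      have hinv := ker_aeval_invariant A' Φ
      have hdvd : Φ.natDegree ∣ finrank F (LinearMap.ker (aeval A' Φ)) := by
        apply natDegree_dvd_finrank hirr (A'.restrict hinv)
        apply LinearMap.ext
        intro u
        apply Subtype.ext
        rw [aeval_restrict A' hinv Φ u]
        exact u.2
      have hpos : finrank F (LinearMap.ker (aeval A' Φ)) ≠ 0 := by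
        intro h0
        have h1 : LinearMap.ker (aeval A' Φ) = ⊥ := Submodule.finrank_eq_zero.mp h0
        have h2 : LinearMap.ker (aeval A' (X - C (1 : F))) = ⊤ := by
          have := hcompl.sup_eq_top
          rwa [h1, sup_bot_eq] at this
        apply hM1
        have h3 : aeval A' (X - C (1 : F)) = 0 := LinearMap.ker_eq_top.mp h2
        rw [hconv] at h3
        have h4 : aeval M (X - C (1 : F)) = 0 := (Matrix.toLin' (R := F) (m := Fin k) (n := Fin k)).injective (by rw [h3, map_zero])
        simp only [map_sub, aeval_X, aeval_C, map_one] at h4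
        exact sub_eq_zero.mp h4
      rw [hdegΦ] at hdvd
      obtain ⟨t, ht⟩ := hdvd
      have ht1 : t = 1 := by
        have ht0 : t ≠ 0 := by
          rintro rfl
          omega
        by_contra h
        have : 2 ≤ t := by omega
        have h5 : 2 * (k - 1) ≤ (k - 1) * t := by nlinarith
        omega
      rw [ht1, mul_one] at ht
      rw [← hconv, ← hconv, ht]
      omega
    obtain ⟨P, hP, hAP⟩ := exists_sl_conj_matrix ({X - C (1 : F), Φ} : Finset F[X]) (by
        intro f hf
        rcases Finset.mem_insert.mp hf with rfl | hf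
        · exact irreducible_X_sub_C _
        · rw [Finset.mem_singleton.mp hf]; exact hirr) (by
        intro f hf g hg hfg
        rcases Finset.mem_insert.mp hf with rfl | hf
        · rcases Finset.mem_insert.mp hg with rfl | hg
          · exact absurd rfl hfg
          · rw [Finset.mem_singleton.mp hg]; exact hcop
        · rw [Finset.mem_singleton.mp hf] at hfg ⊢
          rcases Finset.mem_insert.mp hg with rfl | hg
          · exact hcop.symm
          · rw [Finset.mem_singleton.mp hg] at hfg ⊢; exact absurd rfl hfg) hk0 A₁ S (by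
        rw [Finset.prod_pair hne]
        exact hzero A₁ hA₁k) (by
        rw [Finset.prod_pair hne]
        exact hzero S hSk) (by
        intro f hf
        rcases Finset.mem_insert.mp hf with rfl | hf
        · rw [(hdim A₁ hA₁k hA₁1).1, (hdim S hSk hS1).1]
        · rw [Finset.mem_singleton.mp hf, (hdim A₁ hA₁k hA₁1).2, (hdim S hSk hS1).2])
    let P' : Matrix.SpecialLinearGroup (Fin k) F := ⟨P, hP⟩
    refine ⟨P', ?_⟩
    rw [Subgroup.mem_comap]
    apply mem_norm_frob hSl hsurj _ (β := β)
    have hinv : ((P'⁻¹ : Matrix.SpecialLinearGroup (Fin k) F) : Matrix (Fin k) (Fin k) F) * P = 1 := by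
      have h : ((P'⁻¹ * P' : Matrix.SpecialLinearGroup (Fin k) F) : Matrix (Fin k) (Fin k) F) = 1 := by
        rw [inv_mul_cancel]; rfl
      exact h
    have hAP' : A * P = P * (β • S) := by
      have : A = β • A₁ := by rw [hA₁, smul_smul, mul_inv_cancel₀ hβ, one_smul]
      rw [this, Matrix.smul_mul, hAP, Matrix.mul_smul]
    show ((P'⁻¹ : Matrix.SpecialLinearGroup (Fin k) F) : Matrix (Fin k) (Fin k) F) * A * P = β • S
    rw [mul_assoc, hAP', ← mul_assoc, hinv, one_mul]

end Cfsg.Agent.S5970
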