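import Cfsg.Statements.S5971
import Cfsg.Agent.Lib.ClassMax.EluThree
import Cfsg.Agent.Lib.ClassMax.EluTensor
import Cfsg.Agent.Lib.Classical.Card

set_option autoImplicit false
open scoped MatrixGroups
open Cfsg

namespace Cfsg.Agent.S5971

open Module Matrix Polynomial Cfsg.Agent.Lib.ClassMax.EluSinger Cfsg.Agent.Lib.ClassMax.EluBlock Cfsg.Agent.Lib.ClassMax.EluOrder Cfsg.Agent.Lib.ClassMax.EluConj Cfsg.Agent.Lib.ClassMax.EluQuad Cfsg.Agent.Lib.ClassMax.EluThree Cfsg.Agent.Lib.ClassMax.EluTensor Cfsg.Geo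

section tri
variable {F : Type*} [Field F] [DecidableEq F[X]]

theorem tri_irr (e₀ e₁ e₂ : F) : ∀ f ∈ ({X - C e₀, X - C e₁, X - C e₂} : Finset F[X]), Irreducible f := by
  intro f hf
  simp only [Finset.mem_insert, Finset.mem_singleton] at hf
  rcases hf with rfl | rfl | rfl <;> exact irreducible_X_sub_C _

theorem tri_cop (e₀ e₁ e₂ : F) : ∀ f ∈ ({X - C e₀, X - C e₁, X - C e₂} : Finset F[X]), ∀ g ∈ ({X - C e₀, X - C e₁, X - C e₂} : Finset F[X]), f ≠ g → IsCoprime f g := by
  have key : ∀ a b : F, a ≠ b → IsCoprime (X - C a) (X - C b) := fun a b hab => isCoprime_X_sub_C_of_isUnit_sub (sub_ne_zero.mpr hab).isUnit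
  intro f hf g hg hfg
  simp only [Finset.mem_insert, Finset.mem_singleton] at hf hg
  rcases hf with rfl | rfl | rfl <;> rcases hg with rfl | rfl | rfl
  all_goals first | exact absurd rfl hfg | exact key _ _ (fun h => hfg (by rw [h]))

theorem tri_prod {e₀ e₁ e₂ : F} (h01 : e₀ ≠ e₁) (h02 : e₀ ≠ e₂) (h12 : e₁ ≠ e₂) :
    ∏ f ∈ ({X - C e₀, X - C e₁, X - C e₂} : Finset F[X]), f = (X - C e₀) * (X - C e₁) * (X - C e₂) := by
  have inj : ∀ a b : F, X - C a = X - C b → a = b := by
    intro a b h
    have h1 := congrArg (eval a) h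
    simp only [eval_sub, eval_X, eval_C, sub_self] at h1
    exact sub_eq_zero.mp h1.symm
  rw [Finset.prod_insert, Finset.prod_pair, mul_assoc]
  · exact fun h => h12 (inj _ _ h)
  · simp only [Finset.mem_insert, Finset.mem_singleton, not_or]
    exact ⟨fun h => h01 (inj _ _ h), fun h => h02 (inj _ _ h)⟩

theorem tri_sum {n : ℕ} {M : Matrix (Fin n) (Fin n) F} {e₀ e₁ e₂ : F} (h01 : e₀ ≠ e₁) (h02 : e₀ ≠ e₂) (h12 : e₁ ≠ e₂)
    (hM : aeval M ((X - C e₀) * (X - C e₁) * (X - C e₂)) = 0) :
    finrank F (LinearMap.ker (Matrix.toLin' (aeval M (X - C e₀)))) + finrank F (LinearMap.ker (Matrix.toLin' (aeval M (X - C e₁))))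
      + finrank F (LinearMap.ker (Matrix.toLin' (aeval M (X - C e₂)))) = n := by
  have key : ∀ a b : F, a ≠ b → IsCoprime (X - C a) (X - C b) := fun a b hab => isCoprime_X_sub_C_of_isUnit_sub (sub_ne_zero.mpr hab).isUnit
  set A' : Module.End F (Fin n → F) := Matrix.toLinAlgEquiv' M with hA'
  have hconv : ∀ (p' : F[X]), aeval A' p' = Matrix.toLin' (aeval M p') := by
    intro p'
    exact aeval_algHom_apply (Matrix.toLinAlgEquiv' (R := F) (n := Fin n)) M p'
  have h1 := finrank_ker_mul_coprime A' (g := (X - C e₀) * (X - C e₁)) (h := X - C e₂) (IsCoprime.mul_left (key _ _ h02) (key _ _ h12))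
  have h2 := finrank_ker_mul_coprime A' (g := X - C e₀) (h := X - C e₁) (key _ _ h01)
  rw [h2, hconv, hconv, hconv, hconv] at h1
  rw [← h1, hM, map_zero, LinearMap.ker_zero, finrank_top, finrank_fin_fun]

theorem aeval_diag {n : ℕ} (d : Fin n → F) (e : F) : aeval (Matrix.diagonal d) (X - C e) = Matrix.diagonal (fun k => d k - e) := by
  rw [map_sub, aeval_X, aeval_C, Matrix.algebraMap_eq_diagonal, ← Matrix.diagonal_sub]
  rfl

theorem det_of_dims {M : Matrix (Fin 3) (Fin 3) F} {e₀ e₁ e₂ : F} (h01 : e₀ ≠ e₁) (h02 : e₀ ≠ e₂) (h12 : e₁ ≠ e₂)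
    (hM : aeval M ((X - C e₀) * (X - C e₁) * (X - C e₂)) = 0)
    (d0 : finrank F (LinearMap.ker (Matrix.toLin' (aeval M (X - C e₀)))) = 2)
    (d1 : finrank F (LinearMap.ker (Matrix.toLin' (aeval M (X - C e₁)))) = 1)
    (d2 : finrank F (LinearMap.ker (Matrix.toLin' (aeval M (X - C e₂)))) = 0) : M.det = e₀ ^ 2 * e₁ := by
  classical
  set D : Matrix (Fin 3) (Fin 3) F := Matrix.diagonal ![e₀, e₀, e₁] with hD
  have hdim : ∀ e, finrank F (LinearMap.ker (Matrix.toLin' (aeval D (X - C e)))) = (if e₀ = e then 2 else 0) + (if e₁ = e then 1 else 0) := by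
    intro e
    rw [hD, aeval_diag, finrank_ker_diagonal, Nat.card_eq_fintype_card, Fintype.card_subtype, Finset.card_filter, Fin.sum_univ_three]
    simp only [Matrix.cons_val_zero, Matrix.cons_val_one, Matrix.cons_val, sub_eq_zero]
    by_cases h : e₀ = e <;> by_cases h' : e₁ = e <;> simp [h, h']
  have hDz : aeval D ((X - C e₀) * (X - C e₁) * (X - C e₂)) = 0 := by
    rw [map_mul, map_mul, hD, aeval_diag, aeval_diag, aeval_diag, Matrix.diagonal_mul_diagonal, Matrix.diagonal_mul_diagonal]
    ext i j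
    by_cases h : i = j
    · subst h
      fin_cases i <;> simp
    · simp [Matrix.diagonal_apply, h]
  obtain ⟨P, hP, hAP⟩ := exists_conj_matrix ({X - C e₀, X - C e₁, X - C e₂} : Finset F[X]) (tri_irr _ _ _) (tri_cop _ _ _) M D
    (by rw [tri_prod h01 h02 h12]; exact hM) (by rw [tri_prod h01 h02 h12]; exact hDz) (by
      intro f hf
      simp only [Finset.mem_insert, Finset.mem_singleton] at hf
      rcases hf with rfl | rfl | rfl
      · rw [hdim, d0]; simp [h01, h01.symm]
      · rw [hdim, d1]; simp [h01, h01.symm]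
      · rw [hdim, d2]; simp [h02, h12, h02.symm, h12.symm])
  have h1 := congrArg Matrix.det hAP
  rw [Matrix.det_mul, Matrix.det_mul, mul_comm] at h1
  have h2 := mul_left_cancel₀ hP h1
  rw [h2, hD, Matrix.det_diagonal, Fin.prod_univ_three]
  simp only [Matrix.cons_val_zero, Matrix.cons_val_one, Matrix.cons_val]
  ring

theorem two_le_ker {M : Matrix (Fin 3) (Fin 3) F} {u : Fin 3 → F} (h : ∀ v, ∃ c : F, M *ᵥ v = c • u) :
    2 ≤ finrank F (LinearMap.ker (Matrix.toLin' M)) := by
  have h1 := LinearMap.finrank_range_add_finrank_ker (Matrix.toLin' M)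
  rw [finrank_fin_fun] at h1
  have h2 : LinearMap.range (Matrix.toLin' M) ≤ Submodule.span F {u} := by
    rintro _ ⟨v, rfl⟩
    obtain ⟨c, hc⟩ := h v
    rw [Matrix.toLin'_apply, hc]
    exact Submodule.smul_mem _ _ (Submodule.mem_span_singleton_self u)
  have h3 := Submodule.finrank_mono h2
  have h4 : finrank F (Submodule.span F {u}) ≤ 1 := by
    have := finrank_span_le_card (R := F) ({u} : Set (Fin 3 → F))
    simpa using this
  omega

theorem scalar_of_conj {K : Subalgebra F (Matrix (Fin 3) (Fin 3) F)} (hK : IsFieldSubalgebra 3 K)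
    (x P : Matrix.SpecialLinearGroup (Fin 3) F)
    (hP : P⁻¹ * x * P ∈ ((subalgebraNormalizer K).comap (Matrix.SpecialLinearGroup.toGL : Matrix.SpecialLinearGroup (Fin 3) F →* GL (Fin 3) F)))
    {μ : F} (hμ : μ ≠ 0) (hfix : 2 ≤ finrank F (LinearMap.ker (Matrix.toLin' ((x : Matrix (Fin 3) (Fin 3) F) - μ • 1)))) :
    (x : Matrix (Fin 3) (Fin 3) F) = μ • 1 := by
  rw [Subgroup.mem_comap] at hP
  set Pi' : Matrix (Fin 3) (Fin 3) F := ((P⁻¹ : Matrix.SpecialLinearGroup (Fin 3) F) : Matrix (Fin 3) (Fin 3) F) with hPi'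
  set PM : Matrix (Fin 3) (Fin 3) F := (P : Matrix (Fin 3) (Fin 3) F) with hPM
  set X₀ : Matrix (Fin 3) (Fin 3) F := (x : Matrix (Fin 3) (Fin 3) F) with hX₀
  have hPP : PM * Pi' = 1 := by
    have h : ((P * P⁻¹ : Matrix.SpecialLinearGroup (Fin 3) F) : Matrix (Fin 3) (Fin 3) F) = 1 := by
      rw [mul_inv_cancel]; rfl
    exact h
  have hPP' : Pi' * PM = 1 := by
    have h : ((P⁻¹ * P : Matrix.SpecialLinearGroup (Fin 3) F) : Matrix (Fin 3) (Fin 3) F) = 1 := by
      rw [inv_mul_cancel]; rfl
    exact h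
  have hcoe : ((Matrix.SpecialLinearGroup.toGL (P⁻¹ * x * P) : GL (Fin 3) F) : Matrix (Fin 3) (Fin 3) F) = Pi' * X₀ * PM := rfl
  have e1 : Pi' * X₀ * PM - μ • 1 = Pi' * (X₀ - μ • 1) * PM := by
    rw [mul_sub, sub_mul, Matrix.mul_smul, Matrix.smul_mul, mul_one, hPP']
  have hone := eq_smul_of_fixed Nat.prime_three hK _ hP hμ (by
    rw [hcoe, e1, finrank_ker_conj Pi' PM _ hPP' hPP]
    exact hfix)
  rw [hcoe] at hone
  calc X₀ = PM * (Pi' * X₀ * PM) * Pi' := by
        calc X₀ = (PM * Pi') * X₀ * (PM * Pi') := by rw [hPP, one_mul, mul_one]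
          _ = _ := by simp only [mul_assoc]
    _ = μ • 1 := by rw [hone, Matrix.mul_smul, Matrix.smul_mul, mul_one, hPP]

theorem not_nine_dvd {q : ℕ} (hq : q % 9 = 2 ∨ q % 9 = 5) (hq2 : 2 ≤ q) : ¬ 9 ∣ ∏ i : Fin 3, (q ^ 3 - q ^ (i : ℕ)) := by
  rw [Fin.prod_univ_three, ← ZMod.natCast_eq_zero_iff]
  have h1 : 1 ≤ q ^ 3 := Nat.one_le_pow _ _ (by omega)
  have h2 : q ^ 1 ≤ q ^ 3 := Nat.pow_le_pow_right (by omega) (by norm_num)
  have h3 : q ^ 2 ≤ q ^ 3 := Nat.pow_le_pow_right (by omega) (by norm_num)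
  simp only [Fin.val_zero, Fin.val_one, Fin.val_two, pow_zero]
  rw [Nat.cast_mul, Nat.cast_mul, Nat.cast_sub h1, Nat.cast_sub h2, Nat.cast_sub h3]
  push_cast
  have h4 : (q : ZMod 9) = ((q % 9 : ℕ) : ZMod 9) := (ZMod.natCast_mod q 9).symm
  rw [h4]
  rcases hq with h | h <;> rw [h] <;> decide

theorem six_cases (d0 d1 d2 : ℕ) (h : d0 + d1 + d2 = 3) (h0 : d0 ≠ 3) (h1 : d1 ≠ 3) (h2 : d2 ≠ 3) (hne : ¬ (d0 = 1 ∧ d1 = 1 ∧ d2 = 1)) :
    (d0 = 2 ∧ d1 = 1 ∧ d2 = 0) ∨ (d0 = 2 ∧ d1 = 0 ∧ d2 = 1) ∨ (d0 = 1 ∧ d1 = 2 ∧ d2 = 0) ∨ (d0 = 0 ∧ d1 = 2 ∧ d2 = 1) ∨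
      (d0 = 1 ∧ d1 = 0 ∧ d2 = 2) ∨ (d0 = 0 ∧ d1 = 1 ∧ d2 = 2) := by
  omega

theorem three_ones (d0 d1 d2 : ℕ) (h : d0 + d1 + d2 = 3) (h0 : d0 ≤ 1) (h1 : d1 ≤ 1) (h2 : d2 ≤ 1) : d0 = 1 ∧ d1 = 1 ∧ d2 = 1 := by
  omega

theorem order_two_three : orderOf (2 : ZMod 3) = 2 := orderOf_eq_prime (by decide) (by decide)

end tri

set_option maxHeartbeats 2000000 in

/-- Elements of order 3 of PSL_3(q) and the normalizer of a Singer cycle. Here `T = PSL_n(F)` for a field `F` with `q = p^f` elements (`n ≥ 2`, `(n, q) ≠ (2, 2), (2, 3)`), `k` is a prime dividing `n`, `K` is a subalgebra of the `n × n` matrices that is a field of degree `k` over `F` (an extension-field structure F_{q^k} on `F^n`), and `H` is the subgroup of matrices of determinant 1 normalizing `K` — a subgroup of type GL_{n/k}(q^k) (maximal except in some small cases; maximality is not assumed); Ω is the set of cosets of `H` in `T`, so an element of `T` of prime order `r` (a matrix `x` of determinant 1 with `x^r` scalar, `x` not scalar)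 fixes a point of Ω when some conjugate of `x` by a matrix of determinant 1 normalizes `K`. Take `n = k = 3` and suppose 3 divides the index of `H`. Then every element of `T` of order 3 is conjugate in `T` into `H` if and only if `q ≡ 4, 7` or `8 (mod 9)`. -/
theorem result {F : Type*} [Field F] [Fintype F] {p : ℕ} [Fact p.Prime] [CharP F p] {q : ℕ} (hq : Fintype.card F = q)
    (n : ℕ) (hn : n = 3) (k : ℕ) (hk : k.Prime) (hkn : k ∣ n) (K : Subalgebra F (Matrix (Fin n) (Fin n) F)) (hK : Cfsg.Geo.IsFieldSubalgebra k K) (hk3 : k = 3) (hΩ : 3 ∣ ((Cfsg.Geo.subalgebraNormalizer K).comap (Matrix.SpecialLinearGroup.toGL : Matrix.SpecialLinearGroup (Fin n) F →* GL (Fin n) F)).index) :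
    (∀ x : Matrix.SpecialLinearGroup (Fin n) F,
      (∃ z : F, ((x ^ 3 : Matrix.SpecialLinearGroup (Fin n) F) : Matrix (Fin n) (Fin n) F) = z • (1 : Matrix (Fin n) (Fin n) F)) →
      (∀ z : F, (x : Matrix (Fin n) (Fin n) F) ≠ z • (1 : Matrix (Fin n) (Fin n) F)) →
      ∃ P : Matrix.SpecialLinearGroup (Fin n) F, P⁻¹ * x * P ∈ ((Cfsg.Geo.subalgebraNormalizer K).comap (Matrix.SpecialLinearGroup.toGL : Matrix.SpecialLinearGroup (Fin n) F →* GL (Fin n) F))) ↔
    (q % 9 = 4 ∨ q % 9 = 7 ∨ q % 9 = 8) := by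
    classical
  subst hn
  subst hk3
  subst hq
  haveI : Fact (Nat.Prime 3) := ⟨Nat.prime_three⟩
  have hpp : p.Prime := Fact.out
  have hq2 : 2 ≤ Fintype.card F := Fintype.one_lt_card
  constructor
  · intro hall
    by_contra hne
    have hcases : 3 ∣ Fintype.card F ∨ Fintype.card F % 9 = 1 ∨ Fintype.card F % 9 = 2 ∨ Fintype.card F % 9 = 5 := by omega
    rcases hcases with h3 | h1 | h25
    · -- characteristic three
      have hp3 : p = 3 := by
        obtain ⟨m, -, hm⟩ := FiniteField.card F p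
        rw [hm] at h3
        exact ((Nat.prime_dvd_prime_iff_eq Nat.prime_three hpp).mp (Nat.prime_three.dvd_of_dvd_pow h3)).symm
      have h3F : (1 + 1 + 1 : F) = 0 := by
        have h := CharP.cast_eq_zero F p
        rw [hp3] at h
        have h' : ((3 : ℕ) : F) = 1 + 1 + 1 := by norm_num
        rw [← h', h]
      let x : Matrix.SpecialLinearGroup (Fin 3) F := ⟨Matrix.transvection 0 1 1, Matrix.det_transvection_of_ne 0 1 (by decide) 1⟩
      have hx3 : ((x ^ 3 : Matrix.SpecialLinearGroup (Fin 3) F) : Matrix (Fin 3) (Fin 3) F) = (1 : F) • 1 := by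
        rw [Matrix.SpecialLinearGroup.coe_pow, one_smul]
        show (Matrix.transvection (0 : Fin 3) 1 (1 : F)) ^ 3 = 1
        have h01 : (0 : Fin 3) ≠ 1 := by decide
        rw [pow_succ, pow_two, Matrix.transvection_mul_transvection_same _ _ h01, Matrix.transvection_mul_transvection_same _ _ h01, h3F, Matrix.transvection_zero]
      have hker : ∀ v : Fin 3 → F, ∃ c : F, ((x : Matrix (Fin 3) (Fin 3) F) - (1 : F) • 1) *ᵥ v = c • (Pi.single 0 1 : Fin 3 → F) := by
        intro v
        refine ⟨v 1, ?_⟩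
        have e : (x : Matrix (Fin 3) (Fin 3) F) - (1 : F) • 1 = Matrix.single 0 1 1 := by
          show Matrix.transvection (0 : Fin 3) 1 (1 : F) - (1 : F) • 1 = _
          rw [Matrix.transvection, one_smul, add_sub_cancel_left]
        rw [e]
        ext i
        fin_cases i <;> simp [Matrix.mulVec, dotProduct, Fin.sum_univ_three, Matrix.single_apply]
      have hns : ∀ z : F, (x : Matrix (Fin 3) (Fin 3) F) ≠ z • (1 : Matrix (Fin 3) (Fin 3) F) := by
        intro z hz
        have h := congrFun (congrFun hz 0) 1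
        have h' := congrFun (congrFun hz 0) 0
        simp [x, Matrix.transvection, Matrix.single_apply] at h
      obtain ⟨P, hP⟩ := hall x ⟨1, hx3⟩ hns
      exact hns 1 (scalar_of_conj hK x P hP one_ne_zero (two_le_ker hker))
    · -- nine divides q - 1
      have h9 : 9 ∣ Nat.card Fˣ := by
        rw [Nat.card_eq_fintype_card, Fintype.card_units]
        omega
      obtain ⟨γ, hγ⟩ := IsCyclic.exists_generator (α := Fˣ)
      have hordγ : orderOf γ = Nat.card Fˣ := orderOf_eq_card_of_forall_mem_zpowers hγ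
      have hordpos : orderOf γ ≠ 0 := by
        rw [hordγ]
        exact Nat.card_pos.ne'
      have hord9 : orderOf (γ ^ (orderOf γ / 9)) = 9 := orderOf_pow_orderOf_div hordpos (by rw [hordγ]; exact h9)
      set a : F := ((γ ^ (orderOf γ / 9) : Fˣ) : F) with ha
      have ha0 : a ≠ 0 := Units.ne_zero _
      have ha9 : a ^ 9 = 1 := by
        have h9' := pow_orderOf_eq_one (γ ^ (orderOf γ / 9))
        rw [hord9] at h9'
        rw [ha, ← Units.val_pow_eq_pow_val, h9', Units.val_one]
      have ha3 : a ^ 3 ≠ 1 := by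
        intro h
        have h5 : ((γ ^ (orderOf γ / 9) : Fˣ)) ^ 3 = 1 := Units.ext (by rw [Units.val_pow_eq_pow_val]; exact h)
        have h6 := orderOf_dvd_of_pow_eq_one h5
        rw [hord9] at h6
        omega
      let d : Fin 3 → F := ![a, a, (a⁻¹) ^ 2]
      have hdet : (Matrix.diagonal d).det = 1 := by
        rw [Matrix.det_diagonal, Fin.prod_univ_three]
        simp only [d, Matrix.cons_val_zero, Matrix.cons_val_one, Matrix.cons_val]
        field_simp
      let x : Matrix.SpecialLinearGroup (Fin 3) F := ⟨Matrix.diagonal d, hdet⟩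
      have hx3 : ((x ^ 3 : Matrix.SpecialLinearGroup (Fin 3) F) : Matrix (Fin 3) (Fin 3) F) = (a ^ 3) • 1 := by
        rw [Matrix.SpecialLinearGroup.coe_pow]
        show (Matrix.diagonal d) ^ 3 = _
        rw [Matrix.diagonal_pow, Matrix.smul_one_eq_diagonal]
        congr 1
        funext k
        have e : ((a⁻¹) ^ 2) ^ 3 = a ^ 3 := by
          have : a ^ 9 * (a⁻¹) ^ 6 = a ^ 3 := by
            field_simp
          rw [ha9, one_mul] at this
          rw [← this]
          ring
        fin_cases k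
        · simp [d]
        · simp [d]
        · exact e
      have hker : ∀ v : Fin 3 → F, ∃ c : F, ((x : Matrix (Fin 3) (Fin 3) F) - a • 1) *ᵥ v = c • (Pi.single 2 1 : Fin 3 → F) := by
        intro v
        refine ⟨((a⁻¹) ^ 2 - a) * v 2, ?_⟩
        have e : (x : Matrix (Fin 3) (Fin 3) F) - a • 1 = Matrix.diagonal (fun k => d k - a) := by
          show Matrix.diagonal d - a • 1 = _
          rw [Matrix.smul_one_eq_diagonal, ← Matrix.diagonal_sub]
        rw [e]
        ext i
        rw [Matrix.mulVec_diagonal]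
        fin_cases i <;> simp [d]
      have hns : ∀ z : F, (x : Matrix (Fin 3) (Fin 3) F) ≠ z • (1 : Matrix (Fin 3) (Fin 3) F) := by
        intro z hz
        have h0 := congrFun (congrFun hz 0) 0
        have h2 := congrFun (congrFun hz 2) 2
        have h0' : a = z := by simpa [x, d] using h0
        have h2' : (a⁻¹) ^ 2 = z := by simpa [x, d] using h2
        apply ha3
        rw [← h0'] at h2'
        have h5 : a ^ 2 * (a⁻¹) ^ 2 = 1 := by field_simp
        rw [h2'] at h5
        calc a ^ 3 = a ^ 2 * a := by ring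
          _ = 1 := h5
      obtain ⟨P, hP⟩ := hall x ⟨_, hx3⟩ hns
      exact hns a (scalar_of_conj hK x P hP ha0 (two_le_ker hker))
    · -- Sylow counting
      have hq1 : ¬ 3 ∣ Fintype.card F - 1 := by omega
      obtain ⟨S, S', hSS, hSS', hSl, hsurj, hS1, hS3, -⟩ := exists_frob hK (by norm_num : 2 ≤ 3)
      have hdetS : S.det = 1 := root_unity_trivial Nat.prime_three hq1 (by rw [← Matrix.det_pow, hS3, Matrix.det_one])
      let y : Matrix.SpecialLinearGroup (Fin 3) F := ⟨S, hdetS⟩
      set H := ((subalgebraNormalizer K).comap (Matrix.SpecialLinearGroup.toGL : Matrix.SpecialLinearGroup (Fin 3) F →* GL (Fin 3) F)) with hH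
      have hyH : y ∈ H := by
        rw [hH, Subgroup.mem_comap]
        exact mem_norm_frob hSl hsurj _ (β := 1) (by rw [one_smul]; rfl)
      have hy3 : y ^ 3 = 1 := Subtype.ext (by rw [Matrix.SpecialLinearGroup.coe_pow]; exact hS3)
      have hy1 : y ≠ 1 := fun h => hS1 (congrArg Subtype.val h)
      have hord : orderOf y = 3 := orderOf_eq_prime hy3 hy1
      have h3H : 3 ∣ Nat.card H := by
        have := orderOf_dvd_natCard (⟨y, hyH⟩ : H)
        rwa [Subgroup.orderOf_mk, hord] at this
      have hcard := Subgroup.card_mul_index H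
      have h9 : 9 ∣ Nat.card (Matrix.SpecialLinearGroup (Fin 3) F) := by
        rw [← hcard]
        exact mul_dvd_mul h3H hΩ
      have hGL := Cfsg.Agent.Lib.Classical.card_GL_eq_mul_card_SL (F := F) (Fin 3)
      have h9' : 9 ∣ Nat.card (GL (Fin 3) F) := by
        rw [hGL]
        exact h9.mul_left _
      rw [Matrix.card_GL_field] at h9'
      exact not_nine_dvd h25 hq2 h9'
  · intro hq x hxz hns
    rcases hq with h47 | h47 | h8
    rotate_left 2
    · have hkq : ¬ 3 ∣ Fintype.card F := by omega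
      have hord : orderOf ((Fintype.card F : ℕ) : ZMod 3) = 3 - 1 := by
        have h2 : ((Fintype.card F : ℕ) : ZMod 3) = 2 := by
          have h4 : ((Fintype.card F : ℕ) : ZMod 3) = ((Fintype.card F % 3 : ℕ) : ZMod 3) := (ZMod.natCast_mod _ 3).symm
          have h5 : Fintype.card F % 3 = 2 := by omega
          rw [h4, h5]
          rfl
        rw [h2]
        exact order_two_three
      exact conj_of_full_order Nat.prime_three le_rfl hK hkq hord (by norm_num) x hxz hns
    all_goals
      have hq4 : Fintype.card F % 9 = 4 ∨ Fintype.card F % 9 = 7 := by omega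
      clear h47
      obtain ⟨z, hz⟩ := hxz
      set A : Matrix (Fin 3) (Fin 3) F := (x : Matrix (Fin 3) (Fin 3) F) with hA
      have hA3 : A ^ 3 = z • 1 := by
        rw [← hz, Matrix.SpecialLinearGroup.coe_pow]
      have hdet : A.det = 1 := x.2
      have hz0 : z ≠ 0 := by
        rintro rfl
        have h3 := congrArg Matrix.det hA3
        rw [Matrix.det_pow, hdet, zero_smul, Matrix.det_zero] at h3
        simp at h3
      obtain ⟨ω, hω0, hω3, hω1, hω2⟩ := exists_order_elt (r := 3) (by norm_num) (by omega : 3 ∣ Fintype.card F - 1)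
      have hω21 : ω ^ 2 ≠ 1 := by
        intro h
        exact hω2 (eq_inv_of_mul_eq_one_left (by rw [← pow_two]; exact h))
      have hω2ω : ω ^ 2 ≠ ω := by
        intro h
        apply hω1
        have : ω * ω = ω := by rw [← pow_two]; exact h
        exact mul_left_cancel₀ hω0 (by rw [this, mul_one])
      have hcube : ∀ b : F, b ^ 3 ≠ ω := by
        intro b hb
        have hb0 : b ≠ 0 := by
          rintro rfl
          rw [zero_pow (by norm_num)] at hb
          exact hω0 hb.symm
        have hb9 : b ^ 9 = 1 := by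
          have : b ^ 9 = (b ^ 3) ^ 3 := by ring
          rw [this, hb, hω3]
        have h1 := FiniteField.pow_card_sub_one_eq_one b hb0
        have h2 : orderOf b ∣ 9 := orderOf_dvd_of_pow_eq_one hb9
        have h3 : orderOf b ∣ Fintype.card F - 1 := orderOf_dvd_of_pow_eq_one h1
        have h4 : ¬ orderOf b ∣ 3 := by
          intro h5
          apply hω1
          rw [← hb, orderOf_dvd_iff_pow_eq_one.mp h5]
        have h9 : orderOf b = 9 := by
          have : orderOf b ∈ Nat.divisors 9 := by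
            rw [Nat.mem_divisors]
            exact ⟨h2, by norm_num⟩
          have h10 : Nat.divisors 9 = {1, 3, 9} := by decide
          rw [h10] at this
          simp only [Finset.mem_insert, Finset.mem_singleton] at this
          rcases this with h | h | h
          · exact absurd (by rw [h]; exact one_dvd _) h4
          · exact absurd (by rw [h]) h4
          · exact h
        rw [h9] at h3
        omega
      by_cases hc : ∃ c : F, c ^ 3 = z
      · obtain ⟨c, hc⟩ := hc
        have hc0 : c ≠ 0 := by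
          rintro rfl
          rw [zero_pow (by norm_num)] at hc
          exact hz0 hc.symm
        have hne1 : c ^ 3 * ω ≠ 1 := by
          intro h
          apply hcube c⁻¹
          rw [inv_pow]
          field_simp
          rw [h] 
        have hne2 : c ^ 3 * ω ^ 2 ≠ 1 := by
          intro h
          apply hcube c
          calc c ^ 3 = c ^ 3 * ω ^ 3 := by rw [hω3, mul_one]
            _ = (c ^ 3 * ω ^ 2) * ω := by ring
            _ = ω := by rw [h, one_mul]
        set A₁ : Matrix (Fin 3) (Fin 3) F := c⁻¹ • A with hA₁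
        have hA₁3 : A₁ ^ 3 = 1 := by
          rw [hA₁, _root_.smul_pow, hA3, smul_smul, inv_pow, hc, inv_mul_cancel₀ hz0, one_smul]
        have hdetA : c ^ 3 * A₁.det = 1 := by
          have hAc : A = c • A₁ := by rw [hA₁, smul_smul, mul_inv_cancel₀ hc0, one_smul]
          calc c ^ 3 * A₁.det = (c • A₁).det := by
                have h := Matrix.det_smul A₁ c
                rw [Fintype.card_fin] at h
                exact h.symm
            _ = A.det := by rw [← hAc]
            _ = 1 := hdet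
        obtain ⟨S, S', hSS, hSS', hSl, hsurj, hS1, hS3, v₀, hv₀, hSv⟩ := exists_frob hK (by norm_num : 2 ≤ 3)
        let gS : GL (Fin 3) F := ⟨S, S', hSS, hSS'⟩
        have hgS : gS ∈ subalgebraNormalizer K := mem_norm_frob hSl hsurj gS (β := 1) (by rw [one_smul])
        have h1ω : 1 + ω + ω ^ 2 = 0 := by
          have h : (ω - 1) * (1 + ω + ω ^ 2) = 0 := by
            have : (ω - 1) * (1 + ω + ω ^ 2) = ω ^ 3 - 1 := by ring
            rw [this, hω3, sub_self]
          exact (mul_eq_zero.mp h).resolve_left (sub_ne_zero.mpr hω1)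
        have hprod : (X - C (1 : F)) * (X - C ω) * (X - C (ω ^ 2)) = X ^ 3 - 1 := by
          have e1 : 1 + (C ω : F[X]) + C (ω ^ 2) = 0 := by
            rw [← C_1, ← C_add, ← C_add, h1ω, C_0]
          have e3 : (C ω : F[X]) * C (ω ^ 2) = 1 := by
            rw [← C_mul]
            have : ω * ω ^ 2 = 1 := by rw [← hω3]; ring
            rw [this, C_1]
          rw [C_1]
          linear_combination (-X ^ 2 + X) * e1 + (X - 1) * e3
        have e01 : (1 : F) ≠ ω := hω1.symm
        have e02 : (1 : F) ≠ ω ^ 2 := hω21.symm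
        have e12 : ω ≠ ω ^ 2 := hω2ω.symm
        have hz1 : ∀ M : Matrix (Fin 3) (Fin 3) F, M ^ 3 = 1 → aeval M ((X - C (1 : F)) * (X - C ω) * (X - C (ω ^ 2))) = 0 := by
          intro M hM
          rw [hprod]
          simp [hM]
        have hA₁z := hz1 A₁ hA₁3
        have hSz := hz1 S hS3
        have heval : ∀ (M : Matrix (Fin 3) (Fin 3) F) (μ : F), aeval M (X - C μ) = M - μ • 1 := by
          intro M μ
          rw [map_sub, aeval_X, aeval_C, Algebra.algebraMap_eq_smul_one]
        have hSdim : ∀ μ : F, μ ≠ 0 → finrank F (LinearMap.ker (Matrix.toLin' (aeval S (X - C μ)))) ≤ 1 := by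
          intro μ hμ
          by_contra h
          push Not at h
          rw [heval] at h
          have hS : S = μ • 1 := eq_smul_of_fixed Nat.prime_three hK gS hgS hμ h
          rw [hS, Matrix.smul_mulVec, Matrix.one_mulVec] at hSv
          have hμ1 : μ = 1 := by
            have : (μ - 1) • v₀ = 0 := by rw [sub_smul, one_smul, hSv, sub_self]
            exact sub_eq_zero.mp ((smul_eq_zero.mp this).resolve_right hv₀)
          exact hS1 (by rw [hS, hμ1, one_smul])
        have hSsum := tri_sum e01 e02 e12 hSz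
        have hs0 := hSdim 1 one_ne_zero
        have hs1 := hSdim ω hω0
        have hs2 := hSdim (ω ^ 2) (pow_ne_zero _ hω0)
        have hAsum := tri_sum e01 e02 e12 hA₁z
        have hAdim : ∀ μ : F, finrank F (LinearMap.ker (Matrix.toLin' (aeval A₁ (X - C μ)))) ≠ 3 := by
          intro μ h
          have h1 : LinearMap.ker (Matrix.toLin' (aeval A₁ (X - C μ))) = ⊤ :=
            Submodule.eq_top_of_finrank_eq (by rw [h, finrank_fin_fun])
          have h2 : Matrix.toLin' (aeval A₁ (X - C μ)) = 0 := LinearMap.ker_eq_top.mp h1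
          have h3 : aeval A₁ (X - C μ) = 0 := (Matrix.toLin' (R := F) (m := Fin 3) (n := Fin 3)).injective (by rw [h2, map_zero])
          rw [heval, sub_eq_zero] at h3
          apply hns (c * μ)
          calc A = c • A₁ := by rw [hA₁, smul_smul, mul_inv_cancel₀ hc0, one_smul]
            _ = _ := by rw [h3, smul_smul]
        have hA0 := hAdim 1
        have hA1 := hAdim ω
        have hA2 := hAdim (ω ^ 2)
        have hall1 : finrank F (LinearMap.ker (Matrix.toLin' (aeval A₁ (X - C (1 : F))))) = 1 ∧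
            finrank F (LinearMap.ker (Matrix.toLin' (aeval A₁ (X - C ω)))) = 1 ∧
            finrank F (LinearMap.ker (Matrix.toLin' (aeval A₁ (X - C (ω ^ 2))))) = 1 := by
          by_contra hne
          have h6 := six_cases _ _ _ hAsum hA0 hA1 hA2 hne
          have hω4 : ω ^ 4 = ω := by
            calc ω ^ 4 = ω ^ 3 * ω := by ring
              _ = ω := by rw [hω3, one_mul]
          rcases h6 with ⟨h0, h1, h2⟩ | ⟨h0, h1, h2⟩ | ⟨h0, h1, h2⟩ | ⟨h0, h1, h2⟩ | ⟨h0, h1, h2⟩ | ⟨h0, h1, h2⟩
          · have h := det_of_dims e01 e02 e12 hA₁z h0 h1 h2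
            rw [h, one_pow, one_mul] at hdetA
            exact hne1 hdetA
          · have h := det_of_dims e02 e01 e12.symm (by rw [show (X - C (1 : F)) * (X - C (ω ^ 2)) * (X - C ω) = (X - C (1 : F)) * (X - C ω) * (X - C (ω ^ 2)) by ring]; exact hA₁z) h0 h2 h1
            rw [h, one_pow, one_mul] at hdetA
            exact hne2 hdetA
          · have h := det_of_dims e01.symm e12 e02 (by rw [show (X - C ω) * (X - C (1 : F)) * (X - C (ω ^ 2)) = (X - C (1 : F)) * (X - C ω) * (X - C (ω ^ 2)) by ring]; exact hA₁z) h1 h0 h2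
            rw [h, mul_one] at hdetA
            exact hne2 hdetA
          · have h := det_of_dims e12 e01.symm e02.symm (by rw [show (X - C ω) * (X - C (ω ^ 2)) * (X - C (1 : F)) = (X - C (1 : F)) * (X - C ω) * (X - C (ω ^ 2)) by ring]; exact hA₁z) h1 h2 h0
            rw [h, show ω ^ 2 * ω ^ 2 = ω ^ 4 by ring, hω4] at hdetA
            exact hne1 hdetA
          · have h := det_of_dims e02.symm e12.symm e01 (by rw [show (X - C (ω ^ 2)) * (X - C (1 : F)) * (X - C ω) = (X - C (1 : F)) * (X - C ω) * (X - C (ω ^ 2)) by ring]; exact hA₁z) h2 h0 h1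
            rw [h, show (ω ^ 2) ^ 2 * 1 = ω ^ 4 by ring, hω4] at hdetA
            exact hne1 hdetA
          · have h := det_of_dims e12.symm e02.symm e01.symm (by rw [show (X - C (ω ^ 2)) * (X - C ω) * (X - C (1 : F)) = (X - C (1 : F)) * (X - C ω) * (X - C (ω ^ 2)) by ring]; exact hA₁z) h2 h1 h0
            rw [h, show (ω ^ 2) ^ 2 * ω = ω ^ 4 * ω by ring, hω4, ← pow_two] at hdetA
            exact hne2 hdetA
        obtain ⟨hd0, hd1, hd2⟩ := hall1
        obtain ⟨hS1', hS2', hS3'⟩ := three_ones _ _ _ hSsum hs0 hs1 hs2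
        obtain ⟨P, hP, hAP⟩ := exists_sl_conj_matrix ({X - C (1 : F), X - C ω, X - C (ω ^ 2)} : Finset F[X]) (tri_irr _ _ _) (tri_cop _ _ _) (by norm_num) A₁ S
          (by rw [tri_prod e01 e02 e12]; exact hA₁z) (by rw [tri_prod e01 e02 e12]; exact hSz) (by
            intro f hf
            simp only [Finset.mem_insert, Finset.mem_singleton] at hf
            rcases hf with rfl | rfl | rfl
            · rw [hd0, hS1']
            · rw [hd1, hS2']
            · rw [hd2, hS3'])
        let P' : Matrix.SpecialLinearGroup (Fin 3) F := ⟨P, hP⟩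
        refine ⟨P', ?_⟩
        rw [Subgroup.mem_comap]
        apply mem_norm_frob hSl hsurj _ (β := c)
        have hinv : ((P'⁻¹ : Matrix.SpecialLinearGroup (Fin 3) F) : Matrix (Fin 3) (Fin 3) F) * P = 1 := by
          have h : ((P'⁻¹ * P' : Matrix.SpecialLinearGroup (Fin 3) F) : Matrix (Fin 3) (Fin 3) F) = 1 := by
            rw [inv_mul_cancel]; rfl
          exact h
        have hAP' : A * P = P * (c • S) := by
          have : A = c • A₁ := by rw [hA₁, smul_smul, mul_inv_cancel₀ hc0, one_smul]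
          rw [this, Matrix.smul_mul, hAP, Matrix.mul_smul]
        show ((P'⁻¹ : Matrix.SpecialLinearGroup (Fin 3) F) : Matrix (Fin 3) (Fin 3) F) * A * P = c • S
        rw [mul_assoc, hAP', ← mul_assoc, hinv, one_mul]
      · exfalso
        push Not at hc
        have hirr : Irreducible (X ^ 3 - C z) := X_pow_sub_C_irreducible_of_prime Nat.prime_three hc
        have hzero : aeval A (X ^ 3 - C z) = 0 := by
          rw [map_sub, map_pow, aeval_X, aeval_C, hA3, Algebra.algebraMap_eq_smul_one, sub_self]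
        have hmonic : (X ^ 3 - C z).Monic := monic_X_pow_sub_C z (by norm_num)
        have hmin := minpoly.eq_of_irreducible_of_monic hirr hzero hmonic
        have hdvd : minpoly F A ∣ A.charpoly := Matrix.minpoly_dvd_charpoly A
        have hchar : A.charpoly = X ^ 3 - C z :=
          eq_of_monic_of_dvd_of_natDegree_le hmonic A.charpoly_monic (by rw [hmin]; exact hdvd)
            (by rw [Matrix.charpoly_natDegree_eq_dim, natDegree_X_pow_sub_C]; simp)
        have hd := Matrix.det_eq_sign_charpoly_coeff A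
        rw [hdet, hchar] at hd
        simp at hd
        exact hc 1 (by rw [one_pow]; linear_combination hd)

end Cfsg.Agent.S5971
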