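import Cfsg.Statements.S5975
import Cfsg.Agent.Lib.ClassMax.SelfField2
import Mathlib

set_option autoImplicit false
open scoped MatrixGroups
open scoped Matrix
open Cfsg

namespace Cfsg.Agent.S5975

open Module Polynomial Matrix Cfsg.Geo Cfsg.Agent.Lib.ClassMax Cfsg.Agent.Lib.ClassMax.ElusiveSp Cfsg.Agent.Lib.ClassMax.EluSymp
  Cfsg.Agent.Lib.ClassMax.SpGU Cfsg.Agent.Lib.KnownSimple Cfsg.Agent.Lib.ClassMax.SkewFrame Cfsg.Agent.Lib.ClassMax.EluSpBlock Cfsg.Agent.Lib.ClassMax.EluSpBlock2 Cfsg.Agent.Lib.ClassMax.SelfField


/-- Elements of prime order of PSp_n(q) and the field-extension subgroups of type Sp_{n/k}(q^k). Here `T = PSp_{2d}(F)` for a field `F` with `q` elements (`d ≥ 2`, `(d, q) ≠ (2, 2)`), realised through the matrices preserving the standard alternating form `f`; `k` is a prime and `K` is a subalgebra of the `2d × 2d` matrices that is a field of degree `k` over `F` whose elements are self-adjoint for `f` and satisfy `f(a v, v) = 0` (so `F^{2d}` becomes a vector space over `K ≅ F_{q^k}` on which `f` is the trace of a `K`-bilinear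 alternating form); `H` is the subgroup of `T` normalizing `K` — the symplectic maps that are `K`-linear or `K`-semilinear, a subgroup of type Sp_{2d/k}(q^k) (maximality is not assumed). Ω is the set of cosets of `H` in `T`, so an element of `T` of prime order `r` (`x ∈ T` with `x^r` scalar, `x` not scalar) fixes a point of Ω exactly when some `T`-conjugate of `x` normalizes `K`. Let `r` be a prime dividing the index of `H`. Then every element of `T` of order `r` fixes a point of Ω if and only if `r = 2`, `d = 2`, `k = 2` and `q` is odd. -/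
theorem result {F : Type*} [Field F] [Fintype F] {p : ℕ} [Fact p.Prime] [CharP F p] {q : ℕ} (hq : Fintype.card F = q)
    (d : ℕ) (hd : 2 ≤ d) (hT : (d, q) ≠ (2, 2)) (k : ℕ) (hk : k.Prime)
    (K : Subalgebra F (Matrix (Fin d ⊕ Fin d) (Fin d ⊕ Fin d) F)) (hK : Cfsg.Geo.IsFieldSubalgebra k K)
    (hKf : Cfsg.Geo.IsSelfAdjointFor (Cfsg.sympForm d F) K) (hKalt : ∀ a ∈ K, ∀ v : Fin d ⊕ Fin d → F, Cfsg.sympForm d F (a *ᵥ v) v = 0)
    (r : ℕ) [Fact r.Prime]
    (hΩ : r ∣ (Cfsg.Geo.subalgebraNormalizer K).relIndex (Cfsg.spGL d F)) :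
    (∀ x ∈ Cfsg.spGL d F, (∃ z : F, ((x ^ r : GL (Fin d ⊕ Fin d) F) : Matrix (Fin d ⊕ Fin d) (Fin d ⊕ Fin d) F) = z • (1 : Matrix (Fin d ⊕ Fin d) (Fin d ⊕ Fin d) F)) →
      (∀ z : F, (x : Matrix (Fin d ⊕ Fin d) (Fin d ⊕ Fin d) F) ≠ z • (1 : Matrix (Fin d ⊕ Fin d) (Fin d ⊕ Fin d) F)) →
      ∃ g ∈ Cfsg.spGL d F, g⁻¹ * x * g ∈ Cfsg.Geo.subalgebraNormalizer K) ↔
    (r = 2 ∧ d = 2 ∧ k = 2 ∧ Odd q) := by
  classical
  subst hq
  have hr : r.Prime := Fact.out
  have hd0 : 0 < d := by omega
  have hkdvd : k ∣ d := by
    have h1 := two_dvd_of_stable hd0 hK hKf hKalt (M := ⊤) (fun a _ w _ => trivial) (sympB_nd (d := d) (F := F))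
    rw [finrank_top, finrank_pi, Fintype.card_sum, Fintype.card_fin] at h1
    rw [← two_mul] at h1
    exact Nat.dvd_of_mul_dvd_mul_left (by omega) h1
  constructor
  · intro hall
    by_cases hrq : r ∣ Fintype.card F
    · -- a transvection
      exfalso
      have hrp : (r : F) = 0 := by
        obtain ⟨n, hp, hcard⟩ := FiniteField.card F p
        rw [hcard] at hrq
        have h5 := hr.dvd_of_dvd_pow hrq
        rw [(Nat.prime_dvd_prime_iff_eq hr hp).mp h5]
        exact CharP.cast_eq_zero F p
      let v₀ : Fin d ⊕ Fin d → F := Pi.single (Sum.inl ⟨0, hd0⟩) 1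
      have hv₀ : v₀ ≠ 0 := by
        intro h
        have := congrFun h (Sum.inl ⟨0, hd0⟩)
        simp [v₀] at this
      obtain ⟨w, hw⟩ : ∃ w, Cfsg.sympForm d F w v₀ ≠ 0 := by
        by_contra hcon
        push Not at hcon
        exact hv₀ (sympForm_right_eq_zero hcon)
      have hxpow : ∀ n : ℕ, stv v₀ (1 : F) ^ n = stv v₀ (n : F) := by
        intro n
        induction n with
        | zero => simp [stv_zero_right]
        | succ n ih =>
          rw [pow_succ, ih, stv_mul]
          push_cast
          rfl
      have hxr : stv v₀ (1 : F) ^ r = 1 := by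
        rw [hxpow, hrp, stv_zero_right]
      have hxns : ∀ z : F, ((stv v₀ (1 : F) : GL (Fin d ⊕ Fin d) F) : Matrix (Fin d ⊕ Fin d) (Fin d ⊕ Fin d) F) ≠ z • (1 : Matrix (Fin d ⊕ Fin d) (Fin d ⊕ Fin d) F) := by
        intro z hz
        have h5 : ∀ v, v + ((1 : F) * Cfsg.sympForm d F v v₀) • v₀ = z • v := by
          intro v
          rw [← stv_apply, hz, Matrix.smul_mulVec, Matrix.one_mulVec]
        have h6 := h5 v₀
        rw [sympForm_self, mul_zero, zero_smul, add_zero] at h6
        have h7 : (1 - z) • v₀ = 0 := by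
          rw [sub_smul, one_smul, ← h6, sub_self]
        have h8 : z = 1 := by
          rcases smul_eq_zero.mp h7 with h9 | h9
          · linear_combination -h9
          · exact absurd h9 hv₀
        subst h8
        have h9 := h5 w
        rw [one_smul, one_mul] at h9
        have h10 : Cfsg.sympForm d F w v₀ • v₀ = 0 := by simpa using h9
        rcases smul_eq_zero.mp h10 with h11 | h11
        · exact hw h11
        · exact hv₀ h11
      obtain ⟨g, hg, hgx⟩ := hall _ (stv_mem_spGL v₀ 1) ⟨1, by rw [hxr, Units.val_one, one_smul]⟩ hxns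
      set x := stv v₀ (1 : F) with hx
      -- the rank of `x - 1`
      have hR : finrank F (LinearMap.range (Matrix.toLin' (x : Matrix (Fin d ⊕ Fin d) (Fin d ⊕ Fin d) F) - 1)) ≤ 1 := by
        have hle : LinearMap.range (Matrix.toLin' (x : Matrix (Fin d ⊕ Fin d) (Fin d ⊕ Fin d) F) - 1) ≤ Submodule.span F {v₀} := by
          rintro _ ⟨v, rfl⟩
          rw [LinearMap.sub_apply, Matrix.toLin'_apply, Module.End.one_apply, hx, stv_apply, add_sub_cancel_left]
          exact Submodule.smul_mem _ _ (Submodule.mem_span_singleton_self _)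
        exact (Submodule.finrank_mono hle).trans (finrank_span_le_card _ |>.trans (by simp))
      have hrn := LinearMap.finrank_range_add_finrank_ker (Matrix.toLin' (x : Matrix (Fin d ⊕ Fin d) (Fin d ⊕ Fin d) F) - 1)
      have hdimV : finrank F (Fin d ⊕ Fin d → F) = d + d := by simp [finrank_pi]
      rw [hdimV] at hrn
      set y := g⁻¹ * x * g with hy
      have hfixy := finrank_ker_conj x g
      rw [← hy] at hfixy
      have hrn2 := LinearMap.finrank_range_add_finrank_ker (Matrix.toLin' (y : Matrix (Fin d ⊕ Fin d) (Fin d ⊕ Fin d) F) - 1)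
      rw [hdimV] at hrn2
      have hcomm : ∀ a ∈ K, (y : Matrix (Fin d ⊕ Fin d) (Fin d ⊕ Fin d) F) * a = a * (y : Matrix (Fin d ⊕ Fin d) (Fin d ⊕ Fin d) F) :=
        fun a ha => comm_of_fix hK hgx (by omega) ha
      have hst : ∀ a ∈ K, ∀ w ∈ LinearMap.range (Matrix.toLin' (y : Matrix (Fin d ⊕ Fin d) (Fin d ⊕ Fin d) F) - 1), a *ᵥ w ∈ LinearMap.range (Matrix.toLin' (y : Matrix (Fin d ⊕ Fin d) (Fin d ⊕ Fin d) F) - 1) := by
        rintro a ha _ ⟨u, rfl⟩
        refine ⟨a *ᵥ u, ?_⟩
        simp only [LinearMap.sub_apply, Matrix.toLin'_apply, Module.End.one_apply]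
        rw [Matrix.mulVec_sub, Matrix.mulVec_mulVec, Matrix.mulVec_mulVec, hcomm a ha]
      have hk1 := dvd_of_stable hd0 hK hst
      have hne : finrank F (LinearMap.range (Matrix.toLin' (y : Matrix (Fin d ⊕ Fin d) (Fin d ⊕ Fin d) F) - 1)) ≠ 0 := by
        intro h0
        have h1 : finrank F (LinearMap.ker (Matrix.toLin' (x : Matrix (Fin d ⊕ Fin d) (Fin d ⊕ Fin d) F) - 1)) = d + d := by omega
        have h2 : LinearMap.ker (Matrix.toLin' (x : Matrix (Fin d ⊕ Fin d) (Fin d ⊕ Fin d) F) - 1) = ⊤ := by
          apply Submodule.eq_top_of_finrank_eq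
          rw [h1, hdimV]
        apply hxns 1
        apply Cfsg.Agent.Lib.Classical.mat_ext_mulVec
        intro v
        have h3 : v ∈ LinearMap.ker (Matrix.toLin' (x : Matrix (Fin d ⊕ Fin d) (Fin d ⊕ Fin d) F) - 1) := by
          rw [h2]
          trivial
        rw [LinearMap.mem_ker, LinearMap.sub_apply, Module.End.one_apply, sub_eq_zero, Matrix.toLin'_apply] at h3
        rw [h3, one_smul, Matrix.one_mulVec]
      have h1 : finrank F (LinearMap.range (Matrix.toLin' (y : Matrix (Fin d ⊕ Fin d) (Fin d ⊕ Fin d) F) - 1)) = 1 := by omega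
      rw [h1, Nat.dvd_one] at hk1
      exact hk.one_lt.ne' hk1
    · -- the elements of order `r` prime to the characteristic
      have hcpos := blockDim_pos (F := F) (r := r) hrq
      obtain ⟨c', hc'⟩ := even_blockDim (F := F) (r := r) hrq
      have hle : blockDim F r ≤ 2 * d := by
        apply blockDim_le_of_dvd hrq
        rw [Cfsg.Agent.Lib.Classical.card_sp rfl d, ← card_spGL_eq]
        exact hΩ.trans (Subgroup.relIndex_dvd_card _ _)
      by_cases hkc : k ∣ c'
      · exfalso
        obtain ⟨j, hj0, hjd, hkj, hrj⟩ := exists_factor_of_index hd0 hK hKf hKalt hr hrq hkdvd hΩ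
        have h1 := blockDim_dvd_of (F := F) hrj
        rw [hc', ← two_mul] at h1
        exact hkj (hkc.trans (Nat.dvd_of_mul_dvd_mul_left (by omega) h1))
      · obtain ⟨T, hTr, hiso, hfix⟩ := exists_iso_model (d := d) hrq (s := 1) (k := 2 * d - blockDim F r) (by omega)
        obtain ⟨x, hx, hxT⟩ := SkewSp.gl_of_iso T hiso
        have hXT : Matrix.toLin' (x : Matrix (Fin d ⊕ Fin d) (Fin d ⊕ Fin d) F) = T := by
          apply LinearMap.ext
          intro v
          rw [Matrix.toLin'_apply, hxT]
        have hxpow : ∀ (n : ℕ) (v : Fin d ⊕ Fin d → F), ((x ^ n : GL (Fin d ⊕ Fin d) F) : Matrix (Fin d ⊕ Fin d) (Fin d ⊕ Fin d) F) *ᵥ v = (T ^ n) v := by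
          intro n v
          induction n generalizing v with
          | zero => simp
          | succ n ih =>
            rw [pow_succ, Units.val_mul, ← Matrix.mulVec_mulVec, hxT, ih, pow_succ, Module.End.mul_apply]
        have hxr : x ^ r = 1 := by
          apply Units.ext
          apply Cfsg.Agent.Lib.Classical.mat_ext_mulVec
          intro v
          rw [hxpow, hTr, Units.val_one, Matrix.one_mulVec, Module.End.one_apply]
        have hxns : ∀ z : F, (x : Matrix (Fin d ⊕ Fin d) (Fin d ⊕ Fin d) F) ≠ z • (1 : Matrix (Fin d ⊕ Fin d) (Fin d ⊕ Fin d) F) := by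
          intro z hz
          have hT1 : ∀ v, T v = z • v := by
            intro v
            rw [← hxT, hz, Matrix.smul_mulVec, Matrix.one_mulVec]
          have hTn : ∀ (n : ℕ) (v : Fin d ⊕ Fin d → F), (T ^ n) v = z ^ n • v := by
            intro n v
            induction n with
            | zero => simp
            | succ n ih => rw [pow_succ, Module.End.mul_apply, hT1, map_smul, ih, smul_smul, pow_succ, mul_comm]
          obtain ⟨u, hu⟩ : ∃ u : Fin d ⊕ Fin d → F, u ≠ 0 := ⟨Pi.single (Sum.inl ⟨0, hd0⟩) 1, by
            intro h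
            have := congrFun h (Sum.inl ⟨0, hd0⟩)
            simp at this⟩
          obtain ⟨v, -, hv⟩ := sympB_nd (d := d) (F := F) u trivial hu
          have hzz : z * z = 1 := by
            have h1 : sympB d F (T u) (T v) = sympB d F u v := hiso u v
            rw [hT1, hT1, map_smul, map_smul, LinearMap.smul_apply, smul_eq_mul, smul_eq_mul] at h1
            have h3 : (z * z - 1) * sympB d F u v = 0 := by linear_combination h1
            have h5 := (mul_eq_zero.mp h3).resolve_right hv
            linear_combination h5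
          have hz1 : z = 1 := by
            by_cases hr2 : r = 2
            · subst hr2
              rw [blockDim_two hrq] at hfix
              have h1 : LinearMap.ker (T - 1) ≠ ⊥ := by
                intro h
                rw [h, finrank_bot] at hfix
                omega
              obtain ⟨w, hw, hw0⟩ := Submodule.exists_mem_ne_zero_of_ne_bot h1
              rw [LinearMap.mem_ker, LinearMap.sub_apply, Module.End.one_apply, hT1, sub_eq_zero] at hw
              have h3 : (z - 1) • w = 0 := by
                rw [sub_smul, one_smul, hw, sub_self]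
              rcases smul_eq_zero.mp h3 with h5 | h5
              · linear_combination h5
              · exact absurd h5 hw0
            · have hzr : z ^ r = 1 := by
                have h1 := hTn r u
                rw [hTr, Module.End.one_apply] at h1
                have h3 : (1 - z ^ r) • u = 0 := by
                  rw [sub_smul, one_smul, ← h1, sub_self]
                rcases smul_eq_zero.mp h3 with h5 | h5
                · linear_combination -h5
                · exact absurd h5 hu
              obtain ⟨t, ht⟩ := hr.odd_of_ne_two hr2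
              rw [ht, pow_succ, pow_mul, sq, hzz, one_pow, one_mul] at hzr
              exact hzr
          subst hz1
          have h1 : LinearMap.ker (T - 1) = ⊤ := by
            rw [LinearMap.ker_eq_top]
            apply LinearMap.ext
            intro v
            rw [LinearMap.sub_apply, hT1, one_smul, Module.End.one_apply, sub_self, LinearMap.zero_apply]
          rw [h1, finrank_top, finrank_pi, Fintype.card_sum, Fintype.card_fin] at hfix
          omega
        obtain ⟨g, hg, hgx⟩ := hall x hx ⟨1, by rw [hxr, Units.val_one, one_smul]⟩ hxns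
        set y := g⁻¹ * x * g with hy
        have hyr : y ^ r = 1 := by
          rw [hy, show g⁻¹ * x * g = g⁻¹ * x * g⁻¹⁻¹ by rw [inv_inv], conj_pow, hxr]
          simp
        have hysp : y ∈ Cfsg.spGL d F := (Cfsg.spGL d F).mul_mem ((Cfsg.spGL d F).mul_mem ((Cfsg.spGL d F).inv_mem hg) hx) hg
        have hfixY : finrank F (LinearMap.ker (Matrix.toLin' (y : Matrix (Fin d ⊕ Fin d) (Fin d ⊕ Fin d) F) - 1)) = 2 * d - blockDim F r := by
          rw [hy, finrank_ker_conj, hXT, hfix]
        have hfalse : (∀ a ∈ K, (y : Matrix (Fin d ⊕ Fin d) (Fin d ⊕ Fin d) F) * a = a * (y : Matrix (Fin d ⊕ Fin d) (Fin d ⊕ Fin d) F)) → False := by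
          intro hc
          have h1 := phi_dvd hd0 hK hKf hKalt hrq hysp hyr hc (by rw [hfixY]; omega)
          rw [hc', ← two_mul] at h1
          exact hkc (Nat.dvd_of_mul_dvd_mul_left (by omega) h1)
        by_cases hrk : r = k
        · by_cases hr2 : r = 2
          · have hc2 : blockDim F r = 2 := by
              subst hr2
              exact blockDim_two hrq
            by_cases hd2 : d = 2
            · refine ⟨hr2, hd2, by omega, ?_⟩
              rw [hr2] at hrq
              rw [Nat.odd_iff]
              omega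
            · exfalso
              apply hfalse
              intro a ha
              exact comm_of_fix hK hgx (by omega) ha
          · exfalso
            have h1 := Nat.le_of_dvd (by have := hr.two_le; omega) (blockDim_dvd_sub (F := F) hr2 hrq)
            have h2 := Nat.le_of_dvd hd0 hkdvd
            apply hfalse
            intro a ha
            exact comm_of_fix hK hgx (by have := hr.two_le; omega) ha
        · exfalso
          apply hfalse
          intro a ha
          exact comm_of_pow hd0 hK hgx ((Nat.coprime_primes hr hk).mpr hrk) hyr ha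
  · rintro ⟨rfl, rfl, rfl, hodd⟩ x hx ⟨z, hz⟩ hns
    have hc2 : ringChar F ≠ 2 := by
      intro h
      have h5 := FiniteField.even_card_iff_char_two.mp h
      rw [Nat.odd_iff] at hodd
      omega
    exact SelfField2.exists_conj_two (Ring.two_ne_zero hc2) hK hKf hKalt hx hz hns

end Cfsg.Agent.S5975
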