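import Cfsg.Statements.S5976
import Cfsg.Agent.Lib.ClassMax.SkewSp
import Cfsg.Agent.Lib.ClassMax.SkewBlock

set_option autoImplicit false
open scoped MatrixGroups
open Cfsg

namespace Cfsg.Agent.S5976

open Module Polynomial Matrix Cfsg.Geo Cfsg.Agent.Lib.ClassMax Cfsg.Agent.Lib.ClassMax.ElusiveSp Cfsg.Agent.Lib.ClassMax.EluSymp
  Cfsg.Agent.Lib.ClassMax.SpGU Cfsg.Agent.Lib.KnownSimple Cfsg.Agent.Lib.ClassMax.SkewFrame Cfsg.Agent.Lib.ClassMax.EluSpBlock Cfsg.Agent.Lib.ClassMax.EluSpBlock2 Cfsg.Agent.Lib.ClassMax.EluOrder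

/-- The arithmetic splitting of the order of the symplectic group. -/
theorem order_split (q d : ℕ) (hq : 0 < q) :
    q ^ (d ^ 2) * ∏ i ∈ Finset.range d, (q ^ (2 * (i + 1)) - 1) =
      (q ^ (d * (d - 1) / 2) * ∏ i ∈ Finset.range d, (if Even i then q ^ (i + 1) + 1 else q ^ (i + 1) - 1)) *
      (q ^ (d ^ 2 - d * (d - 1) / 2) * ∏ i ∈ Finset.range d, (if Even i then q ^ (i + 1) - 1 else q ^ (i + 1) + 1)) := by
  have h1 : d * (d - 1) / 2 ≤ d ^ 2 := by
    refine (Nat.div_le_self _ _).trans ?_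
    rw [sq]
    exact Nat.mul_le_mul_left _ (Nat.sub_le _ _)
  have h2 : q ^ (d ^ 2) = q ^ (d * (d - 1) / 2) * q ^ (d ^ 2 - d * (d - 1) / 2) := by
    rw [← pow_add]
    congr 1
    omega
  rw [h2, mul_mul_mul_comm, ← Finset.prod_mul_distrib]
  congr 1
  apply Finset.prod_congr rfl
  intro i _
  have h3 : 1 ≤ q ^ (i + 1) := Nat.one_le_pow _ _ hq
  obtain ⟨t, ht⟩ : ∃ t, q ^ (i + 1) = t + 1 := ⟨q ^ (i + 1) - 1, by omega⟩
  have h4 : q ^ (2 * (i + 1)) = (q ^ (i + 1)) ^ 2 := by
    rw [mul_comm, pow_mul]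
  rw [h4, ht]
  split_ifs
  · simp only [Nat.add_sub_cancel]
    have : (t + 1) ^ 2 - 1 = t * t + 2 * t := by
      have : (t + 1) ^ 2 = t * t + 2 * t + 1 := by ring
      omega
    rw [this]
    ring
  · simp only [Nat.add_sub_cancel]
    have : (t + 1) ^ 2 - 1 = t * t + 2 * t := by
      have : (t + 1) ^ 2 = t * t + 2 * t + 1 := by ring
      omega
    rw [this]
    ring

/-- The prime dividing the index. -/
theorem order_of_dvd {q d r : ℕ} (hr : r.Prime) (hr2 : r ≠ 2) (hrq : ¬ r ∣ q) (hq : 0 < q) (hd : 0 < d)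
    (h : r ∣ q ^ (d ^ 2 - d * (d - 1) / 2) * ∏ i ∈ Finset.range d, (if Even i then q ^ (i + 1) - 1 else q ^ (i + 1) + 1)) :
    orderOf ((q : ℕ) : ZMod r) % 4 ≠ 2 := by
  haveI : Fact r.Prime := ⟨hr⟩
  intro h4
  rcases (hr.dvd_mul).mp h with h1 | h1
  · exact hrq (hr.dvd_of_dvd_pow h1)
  · obtain ⟨i, -, h2⟩ := (Prime.dvd_finset_prod_iff hr.prime _).mp h1
    set i₀ := orderOf ((q : ℕ) : ZMod r) with hi₀
    split_ifs at h2 with he
    · -- an odd power congruent to one
      have h3 : ((q : ℕ) : ZMod r) ^ (i + 1) = 1 := (pow_eq_one_iff_dvd hq).mpr h2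
      have h5 := orderOf_dvd_of_pow_eq_one h3
      rw [← hi₀] at h5
      obtain ⟨t, ht⟩ := h5
      obtain ⟨k, hk⟩ := he
      have h6 : i₀ % 2 = 0 := by omega
      have h7 : i₀ = 2 * (i₀ / 2) := by omega
      rw [h7] at ht
      have : (i + 1) % 2 = 0 := by
        rw [ht, mul_assoc]
        exact Nat.mul_mod_right _ _
      omega
    · -- an even power congruent to minus one
      have h3 : ((q : ℕ) : ZMod r) ^ (i + 1) = -1 := by
        have h5 : (((q ^ (i + 1) + 1 : ℕ) : ℕ) : ZMod r) = 0 := (ZMod.natCast_eq_zero_iff _ _).mpr h2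
        push_cast at h5
        linear_combination h5
      have h5 : ((q : ℕ) : ZMod r) ^ (2 * (i + 1)) = 1 := by
        rw [mul_comm, pow_mul, h3]
        ring
      have h6 := orderOf_dvd_of_pow_eq_one h5
      rw [← hi₀] at h6
      obtain ⟨t, ht⟩ := h6
      obtain ⟨b, hb⟩ : ∃ b, i₀ = 4 * b + 2 := ⟨i₀ / 4, by omega⟩
      have h7 : i + 1 = (2 * b + 1) * t := by
        rw [hb] at ht
        have : 2 * (i + 1) = 2 * ((2 * b + 1) * t) := by rw [ht]; ring
        omega
      have h8 : Even t := by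
        rw [Nat.not_even_iff_odd] at he
        have h9 : Even (i + 1) := he.add_one
        rw [h7] at h9
        rcases Nat.even_mul.mp h9 with h10 | h10
        · exfalso
          rw [Nat.even_iff] at h10
          omega
        · exact h10
      obtain ⟨c, hc⟩ := h8
      have h9 : i + 1 = i₀ * c := by
        rw [h7, hc, hb]
        ring
      have h10 : ((q : ℕ) : ZMod r) ^ (i + 1) = 1 := by
        rw [h9, pow_mul, hi₀, pow_orderOf_eq_one, one_pow]
      rw [h3] at h10
      have h11 : (2 : ZMod r) = 0 := by linear_combination -h10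
      have h12 : ((2 : ℕ) : ZMod r) = 0 := by exact_mod_cast h11
      rw [ZMod.natCast_eq_zero_iff] at h12
      exact hr2 ((Nat.prime_dvd_prime_iff_eq hr Nat.prime_two).mp h12)

variable {F : Type*} [Field F] [Fintype F] {d : ℕ}

theorem card_spGL' : Nat.card (Cfsg.spGL d F) = Fintype.card F ^ (d ^ 2) * ∏ i ∈ Finset.range d, (Fintype.card F ^ (2 * (i + 1)) - 1) := by
  classical
  rw [← Cfsg.Agent.Lib.Classical.card_sp rfl d]
  have e1 := Nat.card_congr (Cfsg.Agent.Lib.Classical.spEquivPres (F := F) d).toEquiv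
  rw [e1]
  exact Nat.card_congr (Cfsg.Agent.Lib.Classical.presEquiv (Cfsg.sympForm d F)).toEquiv

/-- The index of the normaliser divides the complementary factor. -/
theorem idx_dvd {p : ℕ} [Fact p.Prime] [CharP F p] (hd : 0 < d) {K : Subalgebra F (Matrix (Fin d ⊕ Fin d) (Fin d ⊕ Fin d) F)} (hK : IsFieldSubalgebra 2 K)
    {κ : Matrix (Fin d ⊕ Fin d) (Fin d ⊕ Fin d) F} {δ : F} (hs : SK κ δ) (hk : ∀ k, k ∈ K ↔ ∃ a b : F, k = a • 1 + b • κ) :
    (subalgebraNormalizer K).relIndex (Cfsg.spGL d F) ∣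
      Fintype.card F ^ (d ^ 2 - d * (d - 1) / 2) * ∏ i ∈ Finset.range d, (if Even i then Fintype.card F ^ (i + 1) - 1 else Fintype.card F ^ (i + 1) + 1) := by
  have hq : 0 < Fintype.card F := Fintype.card_pos
  obtain ⟨t, ht⟩ := SkewGU.card_gu_dvd (p := p) hd hK hs hk
  have h := Subgroup.card_mul_index ((subalgebraNormalizer K).subgroupOf (Cfsg.spGL d F))
  have h1 : Nat.card ↥((subalgebraNormalizer K).subgroupOf (Cfsg.spGL d F)) = Nat.card ↥(subalgebraNormalizer K ⊓ Cfsg.spGL d F) := by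
    rw [← Subgroup.inf_subgroupOf_right]
    exact Nat.card_congr (Subgroup.subgroupOfEquivOfLe inf_le_right).toEquiv
  rw [h1, ht, card_spGL', order_split _ _ hq] at h
  set A := Fintype.card F ^ (d * (d - 1) / 2) * ∏ i ∈ Finset.range d, (if Even i then Fintype.card F ^ (i + 1) + 1 else Fintype.card F ^ (i + 1) - 1) with hA
  have hApos : 0 < A := by
    apply Nat.mul_pos (pow_pos hq _)
    apply Finset.prod_pos
    intro i _
    have : 1 < Fintype.card F ^ (i + 1) := Nat.one_lt_pow (by omega) Fintype.one_lt_card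
    split_ifs <;> omega
  rw [mul_assoc] at h
  have h2 := Nat.eq_of_mul_eq_mul_left hApos h
  exact ⟨t, by rw [← h2]; exact mul_comm _ _⟩

/-- The conjugate of the generator by an isometry. -/
theorem conj_gen {κ : Matrix (Fin d ⊕ Fin d) (Fin d ⊕ Fin d) F} {δ : F} (hs : SK κ δ) {g : GL (Fin d ⊕ Fin d) F} (hg : g ∈ Cfsg.spGL d F) :
    ∃ S : Module.End F (Fin d ⊕ Fin d → F), (∀ u v, Cfsg.sympForm d F (S u) v = - Cfsg.sympForm d F u (S v)) ∧ (∀ v, S (S v) = δ • v) ∧
      ∀ x : GL (Fin d ⊕ Fin d) F, ((g⁻¹ * x * g : GL (Fin d ⊕ Fin d) F) : Matrix (Fin d ⊕ Fin d) (Fin d ⊕ Fin d) F) * κ = κ * ((g⁻¹ * x * g : GL (Fin d ⊕ Fin d) F) : Matrix (Fin d ⊕ Fin d) (Fin d ⊕ Fin d) F) →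
        ∀ v, (x : Matrix (Fin d ⊕ Fin d) (Fin d ⊕ Fin d) F) *ᵥ (S v) = S ((x : Matrix (Fin d ⊕ Fin d) (Fin d ⊕ Fin d) F) *ᵥ v) := by
  let S : Module.End F (Fin d ⊕ Fin d → F) := Matrix.toLin' ((g : Matrix (Fin d ⊕ Fin d) (Fin d ⊕ Fin d) F) * κ * ((g⁻¹ : GL (Fin d ⊕ Fin d) F) : Matrix (Fin d ⊕ Fin d) (Fin d ⊕ Fin d) F))
  have hS : ∀ v, S v = (g : Matrix (Fin d ⊕ Fin d) (Fin d ⊕ Fin d) F) *ᵥ (κ *ᵥ (((g⁻¹ : GL (Fin d ⊕ Fin d) F) : Matrix (Fin d ⊕ Fin d) (Fin d ⊕ Fin d) F) *ᵥ v)) := by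
    intro v
    rw [Matrix.mulVec_mulVec, Matrix.mulVec_mulVec]
    rfl
  have hiso : ∀ u v, Cfsg.sympForm d F ((g : Matrix (Fin d ⊕ Fin d) (Fin d ⊕ Fin d) F) *ᵥ u) ((g : Matrix (Fin d ⊕ Fin d) (Fin d ⊕ Fin d) F) *ᵥ v) = Cfsg.sympForm d F u v := fun u v => hg u v
  refine ⟨S, ?_, ?_, ?_⟩
  · intro u v
    have hu : u = (g : Matrix (Fin d ⊕ Fin d) (Fin d ⊕ Fin d) F) *ᵥ (((g⁻¹ : GL (Fin d ⊕ Fin d) F) : Matrix (Fin d ⊕ Fin d) (Fin d ⊕ Fin d) F) *ᵥ u) := (SkewSp.gl_mulVec_inv g u).symm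
    have hv : v = (g : Matrix (Fin d ⊕ Fin d) (Fin d ⊕ Fin d) F) *ᵥ (((g⁻¹ : GL (Fin d ⊕ Fin d) F) : Matrix (Fin d ⊕ Fin d) (Fin d ⊕ Fin d) F) *ᵥ v) := (SkewSp.gl_mulVec_inv g v).symm
    rw [hS, hS]
    conv_lhs => rw [hv]
    conv_rhs => rw [hu]
    rw [hiso, hiso, hs.skew]
  · intro v
    rw [hS, hS, SkewSp.gl_inv_mulVec, hs.sq, Matrix.mulVec_smul, SkewSp.gl_mulVec_inv]
  · intro x hx v
    rw [hS, hS]
    have h1 := congrArg (fun M => M *ᵥ (((g⁻¹ : GL (Fin d ⊕ Fin d) F) : Matrix (Fin d ⊕ Fin d) (Fin d ⊕ Fin d) F) *ᵥ v)) hx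
    simp only [Units.val_mul, ← Matrix.mulVec_mulVec] at h1
    rw [SkewSp.gl_mulVec_inv] at h1
    have h2 := congrArg (fun w => (g : Matrix (Fin d ⊕ Fin d) (Fin d ⊕ Fin d) F) *ᵥ w) h1
    simp only [SkewSp.gl_mulVec_inv] at h2
    exact h2


/-- Elements of prime order of PSp_n(q), q odd, and the subgroups of type GU_{n/2}(q). Here `T = PSp_{2d}(F)` for a field `F` with `q` elements, `q` odd, `d ≥ 2`, realised through the matrices preserving the standard alternating form `f`; `K` is a subalgebra of the `2d × 2d` matrices that is a field of degree 2 over `F`, closed under taking adjoints for `f` but not consisting of self-adjoint elements (so `F^{2d}` becomes a `d`-dimensional space over `K ≅ F_{q²}` on which `f` is the trace of a multiple of a non-degenerate hermitian form); `H` is the subgroup of `T` normalizing `K` — the symplectic maps that are `K`-linear or `K`-semilinear, a subgroup of type GU_d(q) (maximality is not assumed). Ω is the set of cosets of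 `H` in `T`, so an element of `T` of prime order `r` (`x ∈ T` with `x^r` scalar, `x` not scalar) fixes a point of Ω exactly when some `T`-conjugate of `x` normalizes `K`. Let `r` be a prime dividing the index of `H`. Then every element of `T` of order `r` fixes a point of Ω if and only if `r = 2`. -/
theorem result {F : Type*} [Field F] [Fintype F] {p : ℕ} [Fact p.Prime] [CharP F p] {q : ℕ} (hq : Fintype.card F = q)
    (hodd : Odd q) (d : ℕ) (hd : 2 ≤ d)
    (K : Subalgebra F (Matrix (Fin d ⊕ Fin d) (Fin d ⊕ Fin d) F)) (hK : Cfsg.Geo.IsFieldSubalgebra 2 K)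
    (hKf : Cfsg.Geo.IsAdjointClosedFor (Cfsg.sympForm d F) K) (hKns : ¬ Cfsg.Geo.IsSelfAdjointFor (Cfsg.sympForm d F) K)
    (r : ℕ) [Fact r.Prime]
    (hΩ : r ∣ (Cfsg.Geo.subalgebraNormalizer K).relIndex (Cfsg.spGL d F)) :
    (∀ x ∈ Cfsg.spGL d F, (∃ z : F, ((x ^ r : GL (Fin d ⊕ Fin d) F) : Matrix (Fin d ⊕ Fin d) (Fin d ⊕ Fin d) F) = z • (1 : Matrix (Fin d ⊕ Fin d) (Fin d ⊕ Fin d) F)) →
      (∀ z : F, (x : Matrix (Fin d ⊕ Fin d) (Fin d ⊕ Fin d) F) ≠ z • (1 : Matrix (Fin d ⊕ Fin d) (Fin d ⊕ Fin d) F)) →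
      ∃ g ∈ Cfsg.spGL d F, g⁻¹ * x * g ∈ Cfsg.Geo.subalgebraNormalizer K) ↔ r = 2 := by
  classical
  subst hq
  have hr : r.Prime := Fact.out
  have hc2 : ringChar F ≠ 2 := by
    intro h
    have h5 := FiniteField.even_card_iff_char_two.mp h
    rw [Nat.odd_iff] at hodd
    omega
  have h2 : (2 : F) ≠ 0 := Ring.two_ne_zero hc2
  have hd0 : 0 < d := by omega
  obtain ⟨κ, δ, hs, hk⟩ := SpGU.exists_sk hd0 h2 hK hKf hKns
  constructor
  · intro hall
    by_contra hr2
    have hrodd : Odd r := hr.odd_of_ne_two hr2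
    by_cases hrq : r ∣ Fintype.card F
    · -- a transvection
      have hrp : (r : F) = 0 := by
        obtain ⟨n, hp, hcard⟩ := FiniteField.card F p
        rw [hcard] at hrq
        have h5 := hr.dvd_of_dvd_pow hrq
        rw [(Nat.prime_dvd_prime_iff_eq hr hp).mp h5]
        exact CharP.cast_eq_zero F p
      let v₀ : Fin d ⊕ Fin d → F := Pi.single (Sum.inl ⟨0, hd0⟩) 1
      have hv₀ : v₀ ≠ 0 := by
        intro h
        have := congrFun h (Sum.inl ⟨0, hd0⟩)
        simp [v₀] at this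
      obtain ⟨w, hw⟩ : ∃ w, Cfsg.sympForm d F w v₀ ≠ 0 := by
        by_contra hcon
        push Not at hcon
        exact hv₀ (sympForm_right_eq_zero hcon)
      have hxpow : ∀ n : ℕ, stv v₀ (1 : F) ^ n = stv v₀ (n : F) := by
        intro n
        induction n with
        | zero => simp [stv_zero_right]
        | succ n ih =>
          rw [pow_succ, ih, stv_mul]
          push_cast
          rfl
      have hxr : stv v₀ (1 : F) ^ r = 1 := by
        rw [hxpow, hrp, stv_zero_right]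
      have hxns : ∀ z : F, ((stv v₀ (1 : F) : GL (Fin d ⊕ Fin d) F) : Matrix (Fin d ⊕ Fin d) (Fin d ⊕ Fin d) F) ≠ z • (1 : Matrix (Fin d ⊕ Fin d) (Fin d ⊕ Fin d) F) := by
        intro z hz
        have h5 : ∀ v, v + ((1 : F) * Cfsg.sympForm d F v v₀) • v₀ = z • v := by
          intro v
          rw [← stv_apply, hz, Matrix.smul_mulVec, Matrix.one_mulVec]
        have h6 := h5 v₀
        rw [sympForm_self, mul_zero, zero_smul, add_zero] at h6
        have h7 : (1 - z) • v₀ = 0 := by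
          rw [sub_smul, one_smul, ← h6, sub_self]
        have h8 : z = 1 := by
          rcases smul_eq_zero.mp h7 with h9 | h9
          · linear_combination -h9
          · exact absurd h9 hv₀
        subst h8
        have h9 := h5 w
        rw [one_smul, one_mul] at h9
        have h10 : Cfsg.sympForm d F w v₀ • v₀ = 0 := by simpa using h9
        rcases smul_eq_zero.mp h10 with h11 | h11
        · exact hw h11
        · exact hv₀ h11
      obtain ⟨g, hg, hgx⟩ := hall _ (stv_mem_spGL v₀ 1) ⟨1, by rw [hxr, Units.val_one, one_smul]⟩ hxns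
      obtain ⟨S, hSk, hSq, hSc⟩ := conj_gen hs hg
      have hy : (g⁻¹ * stv v₀ (1 : F) * g) ^ r = 1 := by
        rw [show g⁻¹ * stv v₀ (1 : F) * g = g⁻¹ * stv v₀ (1 : F) * g⁻¹⁻¹ by rw [inv_inv], conj_pow, hxr]
        simp
      have hcomm := SkewSp.comm_of_norm hs hd0 hk hgx hrodd hy
      have hSc' := hSc _ hcomm
      have h5 : ∀ v, Cfsg.sympForm d F (S v) v₀ • v₀ = Cfsg.sympForm d F v v₀ • S v₀ := by
        intro v
        have h6 := hSc' v
        rw [stv_apply, stv_apply, map_add, map_smul, one_mul, one_mul] at h6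
        exact add_left_cancel h6
      obtain ⟨l, hl⟩ : ∃ l : F, S v₀ = l • v₀ := by
        refine ⟨(Cfsg.sympForm d F w v₀)⁻¹ * Cfsg.sympForm d F (S w) v₀, ?_⟩
        rw [mul_smul, h5 w, smul_smul, inv_mul_cancel₀ hw, one_smul]
      have h6 := hSq v₀
      rw [hl, map_smul, hl, smul_smul] at h6
      have h7 : (l * l - δ) • v₀ = 0 := by
        rw [sub_smul, h6, sub_self]
      rcases smul_eq_zero.mp h7 with h8 | h8
      · exact hs.ns ⟨l, by linear_combination -h8⟩
      · exact hv₀ h8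
    · let B := sympB d F
      have halt : ∀ v, B v v = 0 := sympB_alt (d := d) (F := F)
      have hnd : Nd B ⊤ := sympB_nd (d := d) (F := F)
      have hrM := hΩ.trans (idx_dvd (p := p) hd0 hK hs hk)
      have h4 := order_of_dvd hr hr2 hrq Fintype.card_pos hd0 hrM
      have hle : blockDim F r ≤ 2 * d := by
        apply blockDim_le_of_dvd hrq
        rw [Cfsg.Agent.Lib.Classical.card_sp rfl d, ← card_spGL']
        exact hΩ.trans (Subgroup.relIndex_dvd_card _ _)
      obtain ⟨T, hTr, hiso, hfix⟩ := exists_iso_model (d := d) hrq (s := 1) (k := 2 * d - blockDim F r) (by omega)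
      have hdim : finrank F (LinearMap.ker (aeval T (Phi F r))) = blockDim F r := by
        have h1 := dim_parts (B := B) (T := T) halt hrq hTr hiso (U := ⊤) hnd (fun u _ => trivial)
        have e : ∀ W : Submodule F (Fin d ⊕ Fin d → F), finrank F ↥((⊤ : Submodule F (Fin d ⊕ Fin d → F)) ⊓ W) = finrank F W := fun W => by rw [top_inf_eq]
        rw [e, e] at h1
        rw [hfix, finrank_top, finrank_pi, Fintype.card_sum, Fintype.card_fin] at h1
        omega
      obtain ⟨x, hx, hxT⟩ := SkewSp.gl_of_iso T hiso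
      have hxpow : ∀ (n : ℕ) (v : Fin d ⊕ Fin d → F), ((x ^ n : GL (Fin d ⊕ Fin d) F) : Matrix (Fin d ⊕ Fin d) (Fin d ⊕ Fin d) F) *ᵥ v = (T ^ n) v := by
        intro n v
        induction n generalizing v with
        | zero => simp
        | succ n ih =>
          rw [pow_succ, Units.val_mul, ← Matrix.mulVec_mulVec, hxT, ih, pow_succ, Module.End.mul_apply]
      have hxr : x ^ r = 1 := by
        apply Units.ext
        apply Cfsg.Agent.Lib.Classical.mat_ext_mulVec
        intro v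
        rw [hxpow, hTr, Units.val_one, Matrix.one_mulVec, Module.End.one_apply]
      have hxns : ∀ z : F, (x : Matrix (Fin d ⊕ Fin d) (Fin d ⊕ Fin d) F) ≠ z • (1 : Matrix (Fin d ⊕ Fin d) (Fin d ⊕ Fin d) F) := by
        intro z hz
        have hT1 : ∀ v, T v = z • v := by
          intro v
          rw [← hxT, hz, Matrix.smul_mulVec, Matrix.one_mulVec]
        have hTn : ∀ (n : ℕ) (v : Fin d ⊕ Fin d → F), (T ^ n) v = z ^ n • v := by
          intro n v
          induction n with
          | zero => simp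
          | succ n ih => rw [pow_succ, Module.End.mul_apply, hT1, map_smul, ih, smul_smul, pow_succ, mul_comm]
        obtain ⟨u, hu⟩ : ∃ u : Fin d ⊕ Fin d → F, u ≠ 0 := ⟨Pi.single (Sum.inl ⟨0, hd0⟩) 1, by
          intro h
          have := congrFun h (Sum.inl ⟨0, hd0⟩)
          simp at this⟩
        obtain ⟨v, -, hv⟩ := hnd u trivial hu
        have hzz : z * z = 1 := by
          have h1 : B (T u) (T v) = B u v := hiso u v
          rw [hT1, hT1, map_smul, map_smul, LinearMap.smul_apply, smul_eq_mul, smul_eq_mul] at h1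
          have h3 : (z * z - 1) * B u v = 0 := by linear_combination h1
          have h5 := (mul_eq_zero.mp h3).resolve_right hv
          linear_combination h5
        have hzr : z ^ r = 1 := by
          have h1 := hTn r u
          rw [hTr, Module.End.one_apply] at h1
          have h3 : (1 - z ^ r) • u = 0 := by
            rw [sub_smul, one_smul, ← h1, sub_self]
          rcases smul_eq_zero.mp h3 with h5 | h5
          · linear_combination -h5
          · exact absurd h5 hu
        have hz1 : z = 1 := by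
          obtain ⟨k, hk⟩ := hrodd
          rw [hk, pow_succ, pow_mul, sq, hzz, one_pow, one_mul] at hzr
          exact hzr
        subst hz1
        have h1 : LinearMap.ker (T - 1) = ⊤ := by
          rw [LinearMap.ker_eq_top]
          apply LinearMap.ext
          intro v
          rw [LinearMap.sub_apply, hT1, one_smul, Module.End.one_apply, sub_self, LinearMap.zero_apply]
        rw [h1, finrank_top, finrank_pi, Fintype.card_sum, Fintype.card_fin] at hfix
        have := blockDim_pos (F := F) hrq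
        omega
      obtain ⟨g, hg, hgx⟩ := hall x hx ⟨1, by rw [hxr, Units.val_one, one_smul]⟩ hxns
      obtain ⟨S, hSk, hSq, hSc⟩ := conj_gen hs hg
      have hy : (g⁻¹ * x * g) ^ r = 1 := by
        rw [show g⁻¹ * x * g = g⁻¹ * x * g⁻¹⁻¹ by rw [inv_inv], conj_pow, hxr]
        simp
      have hcomm := SkewSp.comm_of_norm hs hd0 hk hgx hrodd hy
      have hSc' := hSc x hcomm
      refine SkewBlock.no_comm (B := B) (T := T) (κ := S) (δ := δ) halt hnd h2 hr2 hrq hTr hiso hSk hSq hs.ns ?_ hdim h4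
      apply LinearMap.ext
      intro v
      have h1 := hSc' v
      rw [hxT, hxT] at h1
      rw [Module.End.mul_apply, Module.End.mul_apply]
      exact h1
  · rintro rfl x hx ⟨z, hz⟩ _
    exact SkewSp.exists_conj_of_sq hs hd0 hk hx hz

end Cfsg.Agent.S5976
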