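import Cfsg.Statements.S5979
import Cfsg.Agent.Lib.ClassMax.EluTensor
import Cfsg.Agent.Lib.ClassMax.EluOrder
import Cfsg.Agent.Lib.ClassMax.EluVal

set_option autoImplicit false
open scoped MatrixGroups
open Cfsg

namespace Cfsg.Agent.S5979

open Module Matrix Polynomial Cfsg.Agent.Lib.ClassMax.EluInv Cfsg.Agent.Lib.ClassMax.EluQuad Cfsg.Agent.Lib.ClassMax.EluVal Cfsg.Agent.Lib.ClassMax.EluTensor Cfsg.Agent.Lib.ClassMax.EluOrder Cfsg.Geo

section aux

variable {F : Type*} [Field F] {n a b : ℕ}

theorem rank_conj (Q Q' X : Matrix (Fin n) (Fin n) F) (h1 : Q * Q' = 1) (h2 : Q' * Q = 1) :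
    finrank F (LinearMap.range (Matrix.toLin' (Q * X * Q'))) = finrank F (LinearMap.range (Matrix.toLin' X)) := by
  have h3 := LinearMap.finrank_range_add_finrank_ker (Matrix.toLin' (Q * X * Q'))
  have h4 := LinearMap.finrank_range_add_finrank_ker (Matrix.toLin' X)
  rw [finrank_ker_conj Q Q' X h1 h2] at h3
  omega

theorem conj_sub (Q Q' X : Matrix (Fin n) (Fin n) F) (l : F) (h1 : Q * Q' = 1) : Q * X * Q' - l • 1 = Q * (X - l • 1) * Q' := by
  rw [mul_sub, sub_mul, Matrix.mul_smul, Matrix.smul_mul, mul_one, h1]

theorem scalar_of_rank_lt_b {X₀ Q Q' : Matrix (Fin n) (Fin n) F} {A : Matrix (Fin a) (Fin a) F} {B B' : Matrix (Fin b) (Fin b) F}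
    {e : Fin n ≃ Fin a × Fin b} (h1 : Q * Q' = 1) (h2 : Q' * Q = 1) (hB : B' * B = 1) (hX : X₀ = Q * tens A B e * Q') (l : F)
    (hlt : finrank F (LinearMap.range (Matrix.toLin' (X₀ - l • 1))) < b) : ∃ c : F, A = c • 1 := by
  by_contra hcon
  push Not at hcon
  have h3 := rank_ge_left A B B' hB e l hcon
  rw [hX, conj_sub Q Q' _ l h1, rank_conj Q Q' _ h1 h2] at hlt
  omega

theorem scalar_of_rank_lt_a {X₀ Q Q' : Matrix (Fin n) (Fin n) F} {A A' : Matrix (Fin a) (Fin a) F} {B B' : Matrix (Fin b) (Fin b) F}
    {e : Fin n ≃ Fin a × Fin b} (hab : a < b) (h1 : Q * Q' = 1) (h2 : Q' * Q = 1) (hA : A' * A = 1) (hB : B' * B = 1) (hX : X₀ = Q * tens A B e * Q') (l : F)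
    (hlt : finrank F (LinearMap.range (Matrix.toLin' (X₀ - l • 1))) < a) : ∃ c : F, X₀ = c • 1 := by
  obtain ⟨c, rfl⟩ := scalar_of_rank_lt_b h1 h2 hB hX l (by omega)
  have hB' : ∃ d : F, B = d • 1 := by
    by_contra hcon
    push Not at hcon
    have h3 := rank_ge_right (c • 1) A' hA B e l hcon
    rw [hX, conj_sub Q Q' _ l h1, rank_conj Q Q' _ h1 h2] at hlt
    omega
  obtain ⟨d, rfl⟩ := hB'
  refine ⟨c * d, ?_⟩
  rw [hX, tens_smul_left, tens_smul_right, tens_one, smul_smul, Matrix.mul_smul, Matrix.smul_mul, mul_one, h1]

theorem aeval_submatrix {κ : Type*} [Fintype κ] [DecidableEq κ] (ε : Fin n ≃ κ) (M : Matrix κ κ F) (p : F[X]) :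
    aeval (M.submatrix ε ε) p = (aeval M p).submatrix ε ε :=
  aeval_algHom_apply (Matrix.reindexAlgEquiv F F ε.symm).toAlgHom M p

theorem aeval_fromBlocks {c d : ℕ} (A : Matrix (Fin c) (Fin c) F) (D : Matrix (Fin d) (Fin d) F) (p : F[X]) :
    aeval (Matrix.fromBlocks A 0 0 D) p = Matrix.fromBlocks (aeval A p) 0 0 (aeval D p) := by
  have hpow : ∀ k, (Matrix.fromBlocks A 0 0 D) ^ k = Matrix.fromBlocks (A ^ k) 0 0 (D ^ k) := by
    intro k
    induction k with
    | zero => simp [Matrix.fromBlocks_one]
    | succ k ih =>
      rw [pow_succ, ih, Matrix.fromBlocks_multiply, pow_succ, pow_succ]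
      simp
  induction p using Polynomial.induction_on' with
  | add p q hp hq =>
    rw [map_add, map_add, map_add, hp, hq, Matrix.fromBlocks_add]
    simp
  | monomial k c' =>
    simp only [aeval_monomial, Algebra.algebraMap_eq_smul_one, Matrix.smul_mul, one_mul, hpow]
    rw [Matrix.fromBlocks_smul]
    simp

theorem scalar_of_tens_eq_one (ha : 0 < a) (hb : 0 < b) {A : Matrix (Fin a) (Fin a) F} {B : Matrix (Fin b) (Fin b) F} {e : Fin n ≃ Fin a × Fin b}
    (h : tens A B e = 1) : ∃ c : F, A = c • 1 := by
  classical
  have hent : ∀ s t u v, A s t * B u v = (if s = t ∧ u = v then 1 else 0) := by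
    intro s t u v
    have h1 := congrFun (congrFun h (e.symm (s, u))) (e.symm (t, v))
    rw [tens_apply] at h1
    simp only [Equiv.apply_symm_apply] at h1
    rw [h1, Matrix.one_apply]
    congr 1
    simp [Prod.ext_iff]
  let u₀ : Fin b := ⟨0, hb⟩
  let s₀ : Fin a := ⟨0, ha⟩
  have h1 := hent s₀ s₀ u₀ u₀
  simp only [true_and, if_true, and_self] at h1
  have hB0 : B u₀ u₀ ≠ 0 := by
    intro h0
    rw [h0, mul_zero] at h1
    exact zero_ne_one h1
  refine ⟨A s₀ s₀, ?_⟩
  ext s t
  have h2 := hent s t u₀ u₀
  by_cases hst : s = t
  · subst hst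
    simp only [true_and, if_true, and_self] at h2
    simp only [Matrix.smul_apply, Matrix.one_apply_eq, smul_eq_mul, mul_one]
    exact mul_right_cancel₀ hB0 (h2.trans h1.symm)
  · simp only [hst, false_and, if_false] at h2
    have : A s t = 0 := (mul_eq_zero.mp h2).resolve_right hB0
    rw [this]
    simp [Matrix.one_apply_ne hst]

/-- An `r`-th root in a field when `r` does not divide the order of the group of units. -/
theorem exists_root [Fintype F] {r : ℕ} (hr : r.Prime) (hrq1 : ¬ r ∣ Fintype.card F - 1) {w : F} (hw : w ≠ 0) : ∃ β : F, β ≠ 0 ∧ β ^ r = w := by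
  classical
  have hco : Nat.Coprime (Nat.card Fˣ) r := by
    rw [Nat.card_eq_fintype_card, Fintype.card_units]
    exact ((Nat.Prime.coprime_iff_not_dvd hr).mpr hrq1).symm
  obtain ⟨β, hβ⟩ := (powCoprime hco).surjective (Units.mk0 w hw)
  refine ⟨β, β.ne_zero, ?_⟩
  have := congrArg Units.val hβ
  simpa using this

theorem root_unity_trivial [Fintype F] {r : ℕ} (hr : r.Prime) (hrq1 : ¬ r ∣ Fintype.card F - 1) {z : F} (hz : z ^ r = 1) : z = 1 := by
  classical
  have hz0 : z ≠ 0 := by
    rintro rfl
    rw [zero_pow hr.ne_zero] at hz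
    exact zero_ne_one hz
  have hz1 : z ^ (Fintype.card F - 1) = 1 := FiniteField.pow_card_sub_one_eq_one z hz0
  have hco : Nat.Coprime r (Fintype.card F - 1) := (Nat.Prime.coprime_iff_not_dvd hr).mpr hrq1
  have h : z ^ Nat.gcd r (Fintype.card F - 1) = 1 := pow_gcd_eq_one.mpr ⟨hz, hz1⟩
  rwa [hco.gcd_eq_one, pow_one] at h

/-- A non-scalar matrix with scalar `r`-th power produces a small order of `q`. -/
theorem order_le_of_nonscalar [Fintype F] {r : ℕ} [Fact r.Prime] (hrq : ¬ r ∣ Fintype.card F) (hrq1 : ¬ r ∣ Fintype.card F - 1) {A A' : Matrix (Fin a) (Fin a) F}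
    (hA : A' * A = 1) {w : F} (hw : A ^ r = w • 1) (hns : ∀ c : F, A ≠ c • 1) : orderOf ((Fintype.card F : ℕ) : ZMod r) ≤ a := by
  classical
  have hr : r.Prime := Fact.out
  have hdetA : A.det ≠ 0 := by
    intro h
    have := congrArg Matrix.det hA
    rw [Matrix.det_mul, h, mul_zero, Matrix.det_one] at this
    exact zero_ne_one this
  have ha0 : 0 < a := by
    rcases Nat.eq_zero_or_pos a with h | h
    · subst h
      exfalso
      apply hns 0
      ext i
      exact i.elim0
    · exact h
  haveI : Nonempty (Fin a) := ⟨⟨0, ha0⟩⟩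
  have hw0 : w ≠ 0 := by
    rintro rfl
    rw [zero_smul] at hw
    have := congrArg Matrix.det hw
    rw [Matrix.det_pow, Matrix.det_zero] at this
    exact (pow_ne_zero _ hdetA) this
  obtain ⟨β, hβ, hβr⟩ := exists_root hr hrq1 hw0
  set A₁ : Matrix (Fin a) (Fin a) F := β⁻¹ • A with hA₁
  have hA₁r : A₁ ^ r = 1 := by
    rw [hA₁, _root_.smul_pow, hw, smul_smul, inv_pow, hβr, inv_mul_cancel₀ hw0, one_smul]
  have hdet1 : A₁.det ≠ 0 := by
    rw [hA₁, Matrix.det_smul]
    exact mul_ne_zero (pow_ne_zero _ (inv_ne_zero hβ)) hdetA
  let g : GL (Fin a) F := Matrix.GeneralLinearGroup.mkOfDetNeZero A₁ hdet1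
  have hg : g ^ r = 1 := by
    apply Units.ext
    rw [Units.val_pow_eq_pow_val]
    exact hA₁r
  have hg1 : g ≠ 1 := by
    intro h
    have h3 : A₁ = 1 := congrArg Units.val h
    apply hns β
    have : A = β • A₁ := by rw [hA₁, smul_smul, mul_inv_cancel₀ hβ, one_smul]
    rw [this, h3]
  have hord := orderOf_eq_prime hg hg1
  have hdvd : r ∣ Nat.card (GL (Fin a) F) := by
    rw [← hord]
    exact orderOf_dvd_natCard g
  exact order_le_of_dvd hrq hdvd

end aux


/-- Elements of prime order of PSL_n(q) and the stabilizers of tensor decompositions with factors of different dimensions. Here `T = PSL_n(F)` for a field `F` with `q` elements and `n = a·b` with `2 ≤ a < b`; a tensor decomposition `F^n ≅ F^a ⊗ F^b` is given by a bijection `e` of index sets and a change of basis `P`, and `H` is the subgroup of matrices of determinant 1 in its stabilizer (the conjugate by `P` of the group of Kronecker products `g₁ ⊗ g₂`) — a subgroup of type GL_a(q) ⊗ GL_b(q) (maximality is not assumed); Ω is the set of cosets of `H` in `T`, so an element of `T` of prime order `r` (a matrix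 `x` of determinant 1 with `x^r` scalar, `x` not scalar) fixes a point of Ω exactly when some conjugate of `x` by a matrix of determinant 1 lies in `H`. Let `r` be a prime dividing the index of `H`. Then every element of `T` of order `r` fixes a point of Ω if and only if `r = 2`, `a = 2`, `q` is odd and `(q − 1)_2 ≤ (n)_2` (2-parts). -/
theorem result {F : Type*} [Field F] [Fintype F] {p : ℕ} [Fact p.Prime] [CharP F p] {q : ℕ} (hq : Fintype.card F = q)
    (n a b : ℕ) (hab : n = a * b) (ha : 2 ≤ a) (hlt : a < b) (e : Fin n ≃ Fin a × Fin b) (P : GL (Fin n) F)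
    (r : ℕ) [Fact r.Prime]
    (hΩ : r ∣ (Cfsg.Geo.tensorProductSubgroup a b e P).relIndex (Cfsg.Geo.specialLinear (Fin n) F)) :
    (∀ x ∈ Cfsg.Geo.specialLinear (Fin n) F, (∃ z : F, ((x ^ r : GL (Fin n) F) : Matrix (Fin n) (Fin n) F) = z • (1 : Matrix (Fin n) (Fin n) F)) →
      (∀ z : F, (x : Matrix (Fin n) (Fin n) F) ≠ z • (1 : Matrix (Fin n) (Fin n) F)) →
      ∃ g ∈ Cfsg.Geo.specialLinear (Fin n) F, g⁻¹ * x * g ∈ Cfsg.Geo.tensorProductSubgroup a b e P) ↔
    (r = 2 ∧ a = 2 ∧ Odd q ∧ padicValNat 2 (q - 1) ≤ padicValNat 2 n) := by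
    classical
  have hr : r.Prime := Fact.out
  have hpp : p.Prime := Fact.out
  have hb3 : 3 ≤ b := by omega
  have hb0 : 0 < b := by omega
  have ha0 : 0 < a := by omega
  have hn6 : 6 ≤ n := by
    rw [hab]
    nlinarith
  have hn0 : 0 < n := by omega
  have hN0 : n ≠ 0 := by omega
  haveI : Nonempty (Fin n) := ⟨⟨0, hn0⟩⟩
  have hqF : Fintype.card F = q := hq
  have hcharp : ringChar F = p := ringChar.eq F p
  constructor
  · intro hall
    by_contra hcon
    -- the tensor form of an element
    have hform : ∀ X₀ : Matrix (Fin n) (Fin n) F, X₀.det = 1 → (∃ z : F, X₀ ^ r = z • 1) → (∀ c : F, X₀ ≠ c • 1) →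
        ∃ (Q Q' : Matrix (Fin n) (Fin n) F) (A A' : Matrix (Fin a) (Fin a) F) (B B' : Matrix (Fin b) (Fin b) F),
          Q * Q' = 1 ∧ Q' * Q = 1 ∧ A' * A = 1 ∧ B' * B = 1 ∧ X₀ = Q * tens A B e * Q' := by
      intro X₀ hdet hz hns
      have hdet0 : X₀.det ≠ 0 := by rw [hdet]; exact one_ne_zero
      let x : GL (Fin n) F := Matrix.GeneralLinearGroup.mkOfDetNeZero X₀ hdet0
      have hxc : (x : Matrix (Fin n) (Fin n) F) = X₀ := rfl
      have hxSL : x ∈ specialLinear (Fin n) F := by
        show Matrix.GeneralLinearGroup.det x = 1
        apply Units.ext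
        exact hdet
      obtain ⟨z, hz⟩ := hz
      obtain ⟨g, -, hg⟩ := hall x hxSL ⟨z, by rw [Units.val_pow_eq_pow_val]; exact hz⟩ (fun c => hns c)
      obtain ⟨A, B, hAB⟩ := (mem_tensor_iff e P _).mp hg
      refine ⟨(g : Matrix (Fin n) (Fin n) F) * (P : Matrix (Fin n) (Fin n) F), ((P⁻¹ : GL (Fin n) F) : Matrix (Fin n) (Fin n) F) * ((g⁻¹ : GL (Fin n) F) : Matrix (Fin n) (Fin n) F),
        A, ((A⁻¹ : GL (Fin a) F) : Matrix (Fin a) (Fin a) F), B, ((B⁻¹ : GL (Fin b) F) : Matrix (Fin b) (Fin b) F), ?_, ?_, ?_, ?_, ?_⟩
      · rw [← Units.val_mul, ← Units.val_mul, ← Units.val_mul]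
        simp
      · rw [← Units.val_mul, ← Units.val_mul, ← Units.val_mul]
        simp
      · rw [← Units.val_mul]; simp
      · rw [← Units.val_mul]; simp
      · have h3 : X₀ = (g : Matrix (Fin n) (Fin n) F) * ((g⁻¹ * x * g : GL (Fin n) F) : Matrix (Fin n) (Fin n) F) * ((g⁻¹ : GL (Fin n) F) : Matrix (Fin n) (Fin n) F) := by
          rw [← Units.val_mul, ← Units.val_mul]
          have : g * (g⁻¹ * x * g) * g⁻¹ = x := by group
          rw [this]
          rfl
        rw [h3, hAB]
        simp only [mul_assoc]
    let i₀ : Fin n := ⟨0, by omega⟩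
    let i₁ : Fin n := ⟨1, by omega⟩
    let i₂ : Fin n := ⟨2, by omega⟩
    have hi01 : i₀ ≠ i₁ := by simp [i₀, i₁, Fin.ext_iff]
    have hi02 : i₀ ≠ i₂ := by simp [i₀, i₂, Fin.ext_iff]
    have hi12 : i₁ ≠ i₂ := by simp [i₁, i₂, Fin.ext_iff]
    by_cases hrp : r = p
    · -- a transvection
      subst hrp
      set E : Matrix (Fin n) (Fin n) F := Matrix.single i₀ i₁ (1 : F) with hE
      set X₀ : Matrix (Fin n) (Fin n) F := Matrix.transvection i₀ i₁ (1 : F) with hX₀
      have hX₀E : X₀ = 1 + E := rfl
      have hdet : X₀.det = 1 := Matrix.det_transvection_of_ne _ _ hi01 _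
      have hEE : E * E = 0 := by
        rw [hE, Matrix.single_mul_single_of_ne _ _ _ _ hi01.symm]
      have hEr : E ^ r = 0 := by
        obtain ⟨t, ht⟩ : ∃ t, r = t + 2 := ⟨r - 2, by have := hr.two_le; omega⟩
        rw [ht, pow_add, pow_two, hEE, mul_zero]
      have hXr : X₀ ^ r = (1 : F) • 1 := by
        rw [hX₀E, add_pow_char_of_commute r (Commute.one_left _), one_pow, hEr, add_zero, one_smul]
      have hA01 : X₀ i₀ i₁ = 1 := by
        simp [hX₀E, hE, Matrix.one_apply_ne hi01, Matrix.single]
      have hns : ∀ c : F, X₀ ≠ c • 1 := by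
        intro c hc
        have h0 := congrFun (congrFun hc i₀) i₁
        rw [hA01] at h0
        simp [Matrix.one_apply_ne hi01] at h0
      obtain ⟨Q, Q', A, A', B, B', h1, h2, hA, hB, hX⟩ := hform X₀ hdet ⟨1, hXr⟩ hns
      have hrk : finrank F (LinearMap.range (Matrix.toLin' (X₀ - (1 : F) • 1))) ≤ 1 := by
        apply rank_le_rows _ (fun _ : Fin 1 => i₀)
        intro k hk j
        have hk' : k ≠ i₀ := fun h => hk 0 h.symm
        rw [one_smul, hX₀E, add_sub_cancel_left, hE]
        simp [Matrix.single, Ne.symm hk']
      obtain ⟨c, hc⟩ := scalar_of_rank_lt_a hlt h1 h2 hA hB hX 1 (by omega)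
      exact hns c hc
    · -- `r` is not the characteristic
      have hrq : ¬ r ∣ Fintype.card F := by
        obtain ⟨k, -, hk⟩ := FiniteField.card F p
        rw [hk]
        intro h
        have := (Nat.prime_dvd_prime_iff_eq hr hpp).mp (hr.dvd_of_dvd_pow h)
        exact hrp this
      by_cases hr2 : r = 2
      · subst hr2
        have hc2 : ringChar F ≠ 2 := by
          rw [hcharp]
          exact fun h => hrp h.symm
        have h2 : (2 : F) ≠ 0 := Ring.two_ne_zero hc2
        have hoddq : Odd q := by
          rw [← hqF, Nat.odd_iff]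
          exact FiniteField.odd_card_of_char_ne_two hc2
        by_cases ha2 : a = 2
        · have hlt' : padicValNat 2 n < padicValNat 2 (Fintype.card F - 1) := by
            rw [hq]
            by_contra h
            push Not at h
            exact hcon ⟨rfl, ha2, hoddq, h⟩
          obtain ⟨c, hc, hcn⟩ := exists_pow_eq_neg_one hN0 hlt'
          set X₀ : Matrix (Fin n) (Fin n) F := c • diagModel n 1 F with hX₀
          have hdet : X₀.det = 1 := by
            rw [hX₀, Matrix.det_smul, det_diagModel (by omega), Fintype.card_fin, hcn]; ring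
          have hX2 : X₀ ^ 2 = (c * c) • 1 := by
            rw [pow_two]
            exact scaled_diagModel_sq 1 c
          have hns : ∀ z : F, X₀ ≠ z • 1 := by
            intro z hz
            have h0 := congrFun (congrFun hz i₀) i₀
            have h1 := congrFun (congrFun hz i₁) i₁
            simp [hX₀, diagModel, i₀, i₁] at h0 h1
            apply mul_ne_zero h2 hc
            linear_combination h1 - h0
          obtain ⟨Q, Q', A, A', B, B', h1, h2', hA, hB, hX⟩ := hform X₀ hdet ⟨_, hX2⟩ hns
          have hrk : finrank F (LinearMap.range (Matrix.toLin' (X₀ - c • 1))) ≤ 1 := by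
            apply rank_le_rows _ (fun _ : Fin 1 => i₀)
            intro k hk j
            have hk' : k ≠ i₀ := fun h => hk 0 h.symm
            have hk1 : ¬ (k : ℕ) < 1 := by
              intro h'
              apply hk'
              apply Fin.ext
              show (k : ℕ) = 0
              omega
            have hk2 : (k : ℕ) ≠ 0 := by omega
            by_cases hkj : k = j
            · subst hkj
              simp [hX₀, diagModel, hk2]
            · simp [hX₀, diagModel, Matrix.diagonal_apply_ne _ hkj, Matrix.one_apply_ne hkj]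
          obtain ⟨z, hz⟩ := scalar_of_rank_lt_a hlt h1 h2' hA hB hX c (by omega)
          exact hns z hz
        · have ha3 : 3 ≤ a := by omega
          set X₀ : Matrix (Fin n) (Fin n) F := diagModel n 2 F with hX₀
          have hdet : X₀.det = 1 := by
            rw [hX₀, det_diagModel (by omega)]; ring
          have hX2 : X₀ ^ 2 = (1 : F) • 1 := by
            rw [pow_two, one_smul]
            exact diagModel_sq 2
          have hns : ∀ z : F, X₀ ≠ z • 1 := by
            intro z hz
            have h0 := congrFun (congrFun hz i₀) i₀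
            have h1 := congrFun (congrFun hz i₂) i₂
            simp [hX₀, diagModel, i₀, i₂] at h0 h1
            apply h2
            linear_combination h1 - h0
          obtain ⟨Q, Q', A, A', B, B', h1, h2', hA, hB, hX⟩ := hform X₀ hdet ⟨_, hX2⟩ hns
          have hrk : finrank F (LinearMap.range (Matrix.toLin' (X₀ - (1 : F) • 1))) ≤ 2 := by
            apply rank_le_rows _ (![i₀, i₁])
            intro k hk j
            have hk0 : k ≠ i₀ := fun h => hk 0 h.symm
            have hk1' : k ≠ i₁ := fun h => hk 1 h.symm
            have hk1 : ¬ (k : ℕ) < 2 := by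
              intro h'
              have h3 : (k : ℕ) = 0 ∨ (k : ℕ) = 1 := by omega
              rcases h3 with h3 | h3
              · exact hk0 (Fin.ext h3)
              · exact hk1' (Fin.ext h3)
            have hk2 : ¬ (k : ℕ) ≤ 1 := by omega
            by_cases hkj : k = j
            · subst hkj
              simp [hX₀, diagModel, hk2]
            · simp [hX₀, diagModel, Matrix.diagonal_apply_ne _ hkj, Matrix.one_apply_ne hkj]
          obtain ⟨z, hz⟩ := scalar_of_rank_lt_a hlt h1 h2' hA hB hX 1 (by omega)
          exact hns z hz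
      · -- `r` is odd
        by_cases hrq1 : r ∣ Fintype.card F - 1
        · -- an eigenvalue in the field
          have hcard : r ∣ Nat.card Fˣ := by
            rw [Nat.card_eq_fintype_card, Fintype.card_units]
            exact hrq1
          obtain ⟨u, hu⟩ := exists_prime_orderOf_dvd_card' r hcard
          set ζ : F := (u : F) with hζ
          have hζ0 : ζ ≠ 0 := u.ne_zero
          have hζr : ζ ^ r = 1 := by
            have h1 : u ^ r = 1 := by rw [← hu, pow_orderOf_eq_one]
            have := congrArg Units.val h1
            simpa using this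
          have hζ1 : ζ ≠ 1 := by
            intro h
            have h1 : u = 1 := Units.ext h
            rw [h1, orderOf_one] at hu
            exact hr.one_lt.ne hu
          have hζ2 : ζ ≠ ζ⁻¹ := by
            intro h
            have h1 : ζ ^ 2 = 1 := by
              rw [pow_two]
              nth_rewrite 2 [h]
              exact mul_inv_cancel₀ hζ0
            have h2 : u ^ 2 = 1 := Units.ext (by simpa only [Units.val_pow_eq_pow_val, Units.val_one] using h1)
            have h3 := orderOf_dvd_of_pow_eq_one h2
            rw [hu] at h3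
            exact hr2 ((Nat.prime_dvd_prime_iff_eq hr Nat.prime_two).mp h3)
          have hζi1 : ζ⁻¹ ≠ 1 := by
            intro h
            apply hζ1
            have := inv_inv ζ
            rw [h, inv_one] at this
            exact this.symm
          set d : Fin n → F := fun k => if k = i₀ then ζ else if k = i₁ then ζ⁻¹ else 1 with hd
          set X₀ : Matrix (Fin n) (Fin n) F := Matrix.diagonal d with hX₀
          have hdi₀ : d i₀ = ζ := by simp [hd]
          have hdi₁ : d i₁ = ζ⁻¹ := by simp [hd, hi01.symm]
          have hdo : ∀ k, k ≠ i₀ → k ≠ i₁ → d k = 1 := by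
            intro k h0 h1
            simp [hd, h0, h1]
          have hdet : X₀.det = 1 := by
            rw [hX₀, Matrix.det_diagonal]
            rw [← Finset.mul_prod_erase Finset.univ d (Finset.mem_univ i₀), hdi₀]
            rw [← Finset.mul_prod_erase _ d (Finset.mem_erase.mpr ⟨hi01.symm, Finset.mem_univ i₁⟩), hdi₁]
            rw [Finset.prod_eq_one]
            · field_simp
            · intro k hk
              simp only [Finset.mem_erase, Finset.mem_univ, and_true] at hk
              exact hdo k hk.2 hk.1
          have hXr : X₀ ^ r = (1 : F) • 1 := by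
            rw [hX₀, Matrix.diagonal_pow, one_smul, ← Matrix.diagonal_one]
            congr 1
            ext k
            simp only [Pi.pow_apply]
            by_cases h0 : k = i₀
            · subst h0
              rw [hdi₀, hζr]
            · by_cases h1 : k = i₁
              · subst h1
                rw [hdi₁, inv_pow, hζr, inv_one]
              · rw [hdo k h0 h1, one_pow]
          have hns : ∀ z : F, X₀ ≠ z • 1 := by
            intro z hz
            have h0 := congrFun (congrFun hz i₀) i₀
            have h1 := congrFun (congrFun hz i₁) i₁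
            simp only [hX₀, Matrix.diagonal_apply_eq, Matrix.smul_apply, Matrix.one_apply_eq, smul_eq_mul, mul_one, hdi₀, hdi₁] at h0 h1
            exact hζ2 (h0.trans h1.symm)
          obtain ⟨Q, Q', A, A', B, B', h1, h2', hA, hB, hX⟩ := hform X₀ hdet ⟨_, hXr⟩ hns
          have hrk : finrank F (LinearMap.range (Matrix.toLin' (X₀ - (1 : F) • 1))) ≤ 2 := by
            apply rank_le_rows _ (![i₀, i₁])
            intro k hk j
            have hk0 : k ≠ i₀ := fun h => hk 0 h.symm
            have hk1' : k ≠ i₁ := fun h => hk 1 h.symm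
            by_cases hkj : k = j
            · subst hkj
              simp [hX₀, hdo k hk0 hk1']
            · simp [hX₀, Matrix.diagonal_apply_ne _ hkj, Matrix.one_apply_ne hkj]
          obtain ⟨c, rfl⟩ := scalar_of_rank_lt_b h1 h2' hB hX 1 (by omega)
          have hne := finrank_ne_of_scalar (by omega) Q Q' h1 h2' c B e (irreducible_X_sub_C ζ)
          apply hne
          rw [← hX, natDegree_X_sub_C, aeval_sub_C, hX₀]
          have e1 : Matrix.diagonal d - ζ • 1 = Matrix.diagonal (fun k => d k - ζ) := by
            ext s t
            by_cases hst : s = t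
            · subst hst; simp
            · simp [Matrix.diagonal_apply_ne _ hst, Matrix.one_apply_ne hst]
          rw [e1, finrank_ker_diagonal]
          have hcardone : {k : Fin n // d k - ζ = 0} ≃ Unit :=
            { toFun := fun _ => ()
              invFun := fun _ => ⟨i₀, by rw [hdi₀, sub_self]⟩
              left_inv := by
                rintro ⟨k, hk⟩
                apply Subtype.ext
                show i₀ = k
                by_contra hne'
                by_cases h1 : k = i₁
                · subst h1
                  rw [hdi₁] at hk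
                  exact hζ2 (sub_eq_zero.mp hk).symm
                · rw [hdo k (Ne.symm hne') h1] at hk
                  exact hζ1 (sub_eq_zero.mp hk).symm
              right_inv := fun _ => rfl }
          rw [Nat.card_congr hcardone]
          simp
        · -- a block
          have hdvdGL : r ∣ Nat.card (GL (Fin n) F) := by
            have h3 := hΩ.trans (Subgroup.relIndex_dvd_card (tensorProductSubgroup a b e P) (specialLinear (Fin n) F))
            exact h3.trans (Subgroup.card_subgroup_dvd_card _)
          have hin := order_le_of_dvd hrq hdvdGL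
          have hblock := exists_block hrq hrq1
          have hordA : ∀ (A A' : Matrix (Fin a) (Fin a) F) (w : F), A' * A = 1 → A ^ r = w • 1 → (∀ c : F, A ≠ c • 1) → orderOf ((Fintype.card F : ℕ) : ZMod r) ≤ a := by
            intro A A' w hA hw hnsA
            exact order_le_of_nonscalar hrq hrq1 hA hw hnsA
          generalize orderOf ((Fintype.card F : ℕ) : ZMod r) = i at hin hblock hordA
          obtain ⟨y₀, f, hf, hfd, hy₀f, hf1, hy₀r, hy₀d, hy₀1⟩ := hblock
          obtain ⟨t, ht⟩ : ∃ t, n = i + t := ⟨n - i, by omega⟩
          let ε : Fin n ≃ Fin i ⊕ Fin t := (finCongr ht).trans finSumFinEquiv.symm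
          set Y : Matrix (Fin i ⊕ Fin t) (Fin i ⊕ Fin t) F := Matrix.fromBlocks y₀ 0 0 1 with hY
          set X₀ : Matrix (Fin n) (Fin n) F := Y.submatrix ε ε with hX₀
          have hdet : X₀.det = 1 := by
            rw [hX₀, Matrix.det_submatrix_equiv_self, hY, Matrix.det_fromBlocks_zero₂₁, hy₀d]
            simp
          have hXf : ∀ p' : F[X], aeval X₀ p' = (Matrix.fromBlocks (aeval y₀ p') 0 0 (aeval (1 : Matrix (Fin t) (Fin t) F) p')).submatrix ε ε := by
            intro p'
            rw [hX₀, aeval_submatrix, hY, aeval_fromBlocks]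
          have hXr : X₀ ^ r = (1 : F) • 1 := by
            have h3 := hXf (X ^ r)
            simp only [map_pow, aeval_X, one_pow, hy₀r] at h3
            rw [h3, Matrix.fromBlocks_one, one_smul]
            simp
          have hns : ∀ z : F, X₀ ≠ z • 1 := by
            intro z hz
            have h3 : (z ^ r) • (1 : Matrix (Fin n) (Fin n) F) = (1 : F) • 1 := by
              rw [← hXr, hz, _root_.smul_pow, one_pow]
            have h4 := congrFun (congrFun h3 ⟨0, hn0⟩) ⟨0, hn0⟩
            simp at h4
            have h5 := root_unity_trivial hr hrq1 h4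
            apply hy₀1
            ext s s'
            have h6 := congrFun (congrFun hz (ε.symm (Sum.inl s))) (ε.symm (Sum.inl s'))
            simp only [hX₀, hY, Matrix.submatrix_apply, Equiv.apply_symm_apply, Matrix.fromBlocks_apply₁₁, h5, one_smul] at h6
            rw [h6]
            by_cases hss : s = s'
            · subst hss; simp
            · have h7 : ε.symm (Sum.inl s) ≠ ε.symm (Sum.inl s') := by
                intro h8
                exact hss (Sum.inl_injective (ε.symm.injective h8))
              simp [Matrix.one_apply_ne hss, Matrix.one_apply_ne h7]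
          obtain ⟨Q, Q', A, A', B, B', h1, h2', hA, hB, hX⟩ := hform X₀ hdet ⟨_, hXr⟩ hns
          have hAscal : ∃ c : F, A = c • 1 := by
            by_cases hib : i < b
            · apply scalar_of_rank_lt_b h1 h2' hB hX 1
              have hrk : finrank F (LinearMap.range (Matrix.toLin' (X₀ - (1 : F) • 1))) ≤ i := by
                apply rank_le_rows _ (fun s : Fin i => ε.symm (Sum.inl s))
                intro k hk j
                have hk' : ∃ s', ε k = Sum.inr s' := by
                  rcases hεk : ε k with s | s'
                  · exfalso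
                    apply hk s
                    rw [← hεk, Equiv.symm_apply_apply]
                  · exact ⟨s', rfl⟩
                obtain ⟨s', hs'⟩ := hk'
                rw [Matrix.sub_apply, one_smul]
                simp only [hX₀, hY, Matrix.submatrix_apply, hs']
                rcases hεj : ε j with s | s''
                · have hkj : k ≠ j := by
                    intro h
                    rw [h, hεj] at hs'
                    exact Sum.inl_ne_inr hs'
                  simp [Matrix.one_apply_ne hkj]
                · by_cases hs : s' = s''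
                  · subst hs
                    have hkj : k = j := ε.injective (by rw [hs', hεj])
                    subst hkj
                    simp
                  · have hkj : k ≠ j := by
                      intro h
                      rw [h, hεj] at hs'
                      exact hs (Sum.inr_injective hs').symm
                    simp [Matrix.one_apply_ne hs, Matrix.one_apply_ne hkj]
              omega
            · by_contra hcontra
              push Not at hcontra
              have hten : tens (A ^ r) (B ^ r) e = 1 := by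
                have h3 : ∀ m : ℕ, (Q * tens A B e * Q') ^ m = Q * tens (A ^ m) (B ^ m) e * Q' := by
                  intro m
                  induction m with
                  | zero => simp [tens_one, h1]
                  | succ m ih =>
                    rw [pow_succ, ih, pow_succ, pow_succ]
                    calc Q * tens (A ^ m) (B ^ m) e * Q' * (Q * tens A B e * Q') = Q * tens (A ^ m) (B ^ m) e * (Q' * Q) * tens A B e * Q' := by simp only [mul_assoc]
                      _ = Q * (tens (A ^ m) (B ^ m) e * tens A B e) * Q' := by rw [h2', mul_one]; simp only [mul_assoc]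
                      _ = _ := by rw [tens_mul]
                have h4 := h3 r
                rw [← hX, hXr, one_smul] at h4
                calc tens (A ^ r) (B ^ r) e = (Q' * Q) * tens (A ^ r) (B ^ r) e * (Q' * Q) := by rw [h2', one_mul, mul_one]
                  _ = Q' * (Q * tens (A ^ r) (B ^ r) e * Q') * Q := by simp only [mul_assoc]
                  _ = 1 := by rw [← h4, mul_one, h2']
              obtain ⟨w, hw⟩ := scalar_of_tens_eq_one ha0 hb0 hten
              have h3 := hordA A A' w hA hw hcontra
              omega
          obtain ⟨c, rfl⟩ := hAscal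
          have hne := finrank_ne_of_scalar (by omega) Q Q' h1 h2' c B e hf
          apply hne
          rw [← hX, hXf, hy₀f, hfd]
          have h1m : aeval (1 : Matrix (Fin t) (Fin t) F) f = (f.eval 1) • 1 := by
            have h3 : aeval (algebraMap F (Matrix (Fin t) (Fin t) F) 1) f = algebraMap F _ (aeval (1 : F) f) := aeval_algebraMap_apply _ 1 f
            rw [map_one] at h3
            rw [h3, coe_aeval_eq_eval, Algebra.algebraMap_eq_smul_one]
          rw [h1m]
          have e1 : (Matrix.fromBlocks 0 0 0 ((f.eval 1) • (1 : Matrix (Fin t) (Fin t) F)) : Matrix (Fin i ⊕ Fin t) (Fin i ⊕ Fin t) F).submatrix ε ε =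
              Matrix.diagonal (fun k => Sum.elim (fun _ => (0 : F)) (fun _ => f.eval 1) (ε k)) := by
            ext s s'
            simp only [Matrix.submatrix_apply]
            rcases hs : ε s with u | u <;> rcases hs' : ε s' with u' | u'
            · by_cases hss : s = s'
              · subst hss
                simp [hs]
              · simp [Matrix.diagonal_apply_ne _ hss]
            · have hss : s ≠ s' := by
                intro h
                rw [h, hs'] at hs
                exact Sum.inr_ne_inl hs
              simp [Matrix.diagonal_apply_ne _ hss]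
            · have hss : s ≠ s' := by
                intro h
                rw [h, hs'] at hs
                exact Sum.inl_ne_inr hs
              simp [Matrix.diagonal_apply_ne _ hss]
            · by_cases hss : s = s'
              · subst hss
                rw [hs] at hs'
                have := Sum.inr_injective hs'
                subst this
                simp [hs]
              · have huu : u ≠ u' := by
                  intro h
                  apply hss
                  apply ε.injective
                  rw [hs, hs', h]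
                simp [Matrix.diagonal_apply_ne _ hss, Matrix.one_apply_ne huu]
          rw [e1, finrank_ker_diagonal]
          have hequiv : Fin i ≃ {k : Fin n // Sum.elim (fun _ => (0 : F)) (fun _ => f.eval 1) (ε k) = 0} :=
            Equiv.ofBijective (fun u : Fin i => ⟨ε.symm (Sum.inl u), by simp⟩) (by
              constructor
              · intro u u' h
                have h3 := congrArg Subtype.val h
                exact Sum.inl_injective (ε.symm.injective h3)
              · rintro ⟨k, hk⟩
                rcases hεk : ε k with u | u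
                · refine ⟨u, ?_⟩
                  apply Subtype.ext
                  show ε.symm (Sum.inl u) = k
                  rw [← hεk, Equiv.symm_apply_apply]
                · exfalso
                  rw [hεk] at hk
                  exact hf1 hk)
          rw [← Nat.card_congr hequiv]
          simp
  · rintro ⟨rfl, rfl, hodd, hv⟩ x hxSL hxz hns
    have hnb : n = 2 * b := hab
    have hc2 : ringChar F ≠ 2 := char_ne_two_of_odd (by rw [hq]; exact hodd)
    have h2 : (2 : F) ≠ 0 := Ring.two_ne_zero hc2
    obtain ⟨z, hz⟩ := hxz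
    set A : Matrix (Fin n) (Fin n) F := (x : Matrix (Fin n) (Fin n) F) with hA
    have hAA : A * A = z • 1 := by
      rw [← hz, Units.val_pow_eq_pow_val, pow_two]
    have hdet : A.det = 1 := by
      have h3 : Matrix.GeneralLinearGroup.det x = 1 := hxSL
      exact congrArg Units.val h3
    have hz0 : z ≠ 0 := by
      rintro rfl
      have h3 := congrArg Matrix.det hAA
      rw [Matrix.det_mul, hdet, zero_smul, Matrix.det_zero] at h3
      simp at h3
    set PM : Matrix (Fin n) (Fin n) F := (P : Matrix (Fin n) (Fin n) F) with hPM
    set PI : Matrix (Fin n) (Fin n) F := ((P⁻¹ : GL (Fin n) F) : Matrix (Fin n) (Fin n) F) with hPI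
    have hP1 : PM * PI = 1 := by rw [hPM, hPI, ← Units.val_mul, mul_inv_cancel, Units.val_one]
    have hP2 : PI * PM = 1 := by rw [hPM, hPI, ← Units.val_mul, inv_mul_cancel, Units.val_one]
    have hfinish : ∀ (R : Matrix (Fin n) (Fin n) F) (A₁ : GL (Fin 2) F) (B₁ : GL (Fin b) F), R.det = 1 →
        A * R = R * (PM * tens (A₁ : Matrix (Fin 2) (Fin 2) F) (B₁ : Matrix (Fin b) (Fin b) F) e * PI) →
        ∃ g ∈ specialLinear (Fin n) F, g⁻¹ * x * g ∈ tensorProductSubgroup 2 b e P := by
      intro R A₁ B₁ hR hAR
      have hR0 : R.det ≠ 0 := by rw [hR]; exact one_ne_zero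
      let g : GL (Fin n) F := Matrix.GeneralLinearGroup.mkOfDetNeZero R hR0
      have hgc : (g : Matrix (Fin n) (Fin n) F) = R := rfl
      refine ⟨g, ?_, ?_⟩
      · show Matrix.GeneralLinearGroup.det g = 1
        apply Units.ext
        exact hR
      · rw [mem_tensor_iff]
        refine ⟨A₁, B₁, ?_⟩
        have hginv : ((g⁻¹ : GL (Fin n) F) : Matrix (Fin n) (Fin n) F) * R = 1 := by
          rw [← hgc, ← Units.val_mul, inv_mul_cancel, Units.val_one]
        show ((g⁻¹ : GL (Fin n) F) : Matrix (Fin n) (Fin n) F) * A * R = _
        rw [mul_assoc, hAR, ← mul_assoc, hginv, one_mul]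
    by_cases hsq : ∃ c : F, c * c = z
    · obtain ⟨c, rfl⟩ := hsq
      have hc : c ≠ 0 := fun h => hz0 (by rw [h]; ring)
      have hj : finrank F (LinearMap.ker (Matrix.toLin' (A + c • 1))) ≤ n := by
        have := finrank_split h2 hc A hAA
        omega
      have hjeven : Even (finrank F (LinearMap.ker (Matrix.toLin' (A + c • 1)))) := by
        by_contra hodd'
        rw [Nat.not_even_iff_odd] at hodd'
        have h3 := det_split hn0 h2 hc A hAA
        rw [hdet, hodd'.neg_one_pow] at h3
        have h4 : c ^ n = -1 := by linear_combination h3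
        have h5 := val_lt_of_pow_eq_neg_one h2 hN0 hc h4
        rw [hq] at h5
        omega
      obtain ⟨t, ht⟩ := hjeven
      have htb : t ≤ b := by omega
      have hDdet : (diagModel b t F).det ≠ 0 := by
        rw [det_diagModel htb]
        exact pow_ne_zero _ (neg_ne_zero.mpr one_ne_zero)
      have hcdet : (c • (1 : Matrix (Fin 2) (Fin 2) F)).det ≠ 0 := by
        rw [Matrix.det_smul, Matrix.det_one, mul_one]
        exact pow_ne_zero _ hc
      let A₁ : GL (Fin 2) F := Matrix.GeneralLinearGroup.mkOfDetNeZero _ hcdet
      let B₁ : GL (Fin b) F := Matrix.GeneralLinearGroup.mkOfDetNeZero _ hDdet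
      set T₀ : Matrix (Fin n) (Fin n) F := tens (c • (1 : Matrix (Fin 2) (Fin 2) F)) (diagModel b t F) e with hT₀
      have hT₀T₀ : T₀ * T₀ = (c * c) • 1 := by
        rw [hT₀, tens_mul, Matrix.smul_mul, Matrix.mul_smul, one_mul, smul_smul, diagModel_sq, tens_smul_left, tens_one]
      set T : Matrix (Fin n) (Fin n) F := PM * T₀ * PI with hT
      have hTT : T * T = (c * c) • 1 := by
        calc T * T = PM * T₀ * (PI * PM) * T₀ * PI := by simp only [hT, mul_assoc]
          _ = PM * (T₀ * T₀) * PI := by rw [hP2, mul_one]; simp only [mul_assoc]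
          _ = _ := by rw [hT₀T₀, Matrix.mul_smul, Matrix.smul_mul, mul_one, hP1]
      have hker : T + c • 1 = PM * (T₀ + c • 1) * PI := by
        rw [hT, mul_add, add_mul, Matrix.mul_smul, Matrix.smul_mul, mul_one, hP1]
      have hT₀diag : T₀ + c • 1 = Matrix.diagonal (fun k => if ((e k).2 : ℕ) < t then 0 else 2 * c) := by
        ext s s'
        by_cases hss : s = s'
        · subst hss
          rw [Matrix.diagonal_apply_eq, Matrix.add_apply, hT₀, tens_apply]
          simp only [Matrix.smul_apply, Matrix.one_apply_eq, smul_eq_mul, mul_one, diagModel, Matrix.diagonal_apply_eq]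
          split_ifs <;> ring
        · rw [Matrix.diagonal_apply_ne _ hss, Matrix.add_apply, hT₀, tens_apply]
          simp only [Matrix.smul_apply, smul_eq_mul, Matrix.one_apply_ne hss, mul_zero, add_zero]
          by_cases h1 : (e s).1 = (e s').1
          · have h3 : (e s).2 ≠ (e s').2 := by
              intro h
              exact hss (e.injective (Prod.ext h1 h))
            simp [diagModel, Matrix.diagonal_apply_ne _ h3]
          · simp [Matrix.one_apply_ne h1]
      have hcard : Nat.card {k : Fin n // (if ((e k).2 : ℕ) < t then 0 else 2 * c) = 0} = 2 * t := by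
        have h2c : 2 * c ≠ 0 := mul_ne_zero h2 hc
        have h3 : Nat.card {k : Fin n // (if ((e k).2 : ℕ) < t then 0 else 2 * c) = 0} = Nat.card {ω : Fin 2 × Fin b // (ω.2 : ℕ) < t} := by
          apply Nat.card_congr
          apply e.subtypeEquiv
          intro k
          by_cases h : ((e k).2 : ℕ) < t
          · simp [h]
          · simp [h, h2c]
        rw [h3, Nat.card_eq_fintype_card, Fintype.card_subtype]
        have h4 : (Finset.univ.filter (fun ω : Fin 2 × Fin b => (ω.2 : ℕ) < t)) = (Finset.univ : Finset (Fin 2)) ×ˢ (Finset.univ.filter (fun s : Fin b => (s : ℕ) < t)) := by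
          ext ω
          simp
        rw [h4, Finset.card_product, Fin.card_filter_val_lt]
        simp
        omega
      obtain ⟨R, hR, hAR⟩ := conj_split hn0 h2 hc A T hAA hTT (by
        rw [hker, finrank_ker_conj PM PI _ hP1 hP2, hT₀diag, finrank_ker_diagonal, hcard]
        omega)
      exact hfinish R A₁ B₁ hR hAR
    · push Not at hsq
      have hcdet : (compSq z).det ≠ 0 := by
        rw [compSq_det]
        exact neg_ne_zero.mpr hz0
      let A₁ : GL (Fin 2) F := Matrix.GeneralLinearGroup.mkOfDetNeZero _ hcdet
      have hone : (1 : Matrix (Fin b) (Fin b) F).det ≠ 0 := by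
        rw [Matrix.det_one]; exact one_ne_zero
      let B₁ : GL (Fin b) F := Matrix.GeneralLinearGroup.mkOfDetNeZero _ hone
      set T₀ : Matrix (Fin n) (Fin n) F := tens (compSq z) (1 : Matrix (Fin b) (Fin b) F) e with hT₀
      have hT₀T₀ : T₀ * T₀ = z • 1 := by
        rw [hT₀, tens_mul, compSq_sq, one_mul, tens_smul_left, tens_one]
      set T : Matrix (Fin n) (Fin n) F := PM * T₀ * PI with hT
      have hTT : T * T = z • 1 := by
        calc T * T = PM * T₀ * (PI * PM) * T₀ * PI := by simp only [hT, mul_assoc]
          _ = PM * (T₀ * T₀) * PI := by rw [hP2, mul_one]; simp only [mul_assoc]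
          _ = _ := by rw [hT₀T₀, Matrix.mul_smul, Matrix.smul_mul, mul_one, hP1]
      obtain ⟨R, hR, hAR⟩ := conj_nonsq hn0 hsq A T hAA hTT
      exact hfinish R A₁ B₁ hR hAR

end Cfsg.Agent.S5979
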