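import Cfsg.Statements.S5983
import Cfsg.Agent.Lib.ClassMax.EluOForm2

set_option autoImplicit false
open scoped MatrixGroups
open Cfsg

namespace Cfsg.Agent.S5983

open Module Matrix Cfsg.Geo Cfsg.Agent.Lib.ClassMax Cfsg.Agent.Lib.ClassMax.EluOForm Cfsg.Agent.Lib.ClassMax.EluSpBlock Cfsg.Agent.Lib.ClassMax.EluOrder

set_option maxHeartbeats 2000000 in

/-- Elements of prime order of PSp_n(q), q even, and the subgroups of orthogonal type. Here `T = Sp_{2d}(F)` for a field `F` of characteristic 2 with `q` elements (`d ≥ 2`, `(d, q) ≠ (2, 2)`), realised as the invertible matrices preserving the standard alternating form; `Q` is a non-degenerate quadratic form on `F^{2d}` whose polar form is that alternating form, and `H` is the subgroup of `T` preserving `Q` up to a scalar (equivalently preserving `Q`) — a subgroup of type O^±_{2d}(q) (maximality is not assumed); `Q` is of plus type when `F^{2d}` contains a `d`-dimensional subspace on which `Q` vanishes, of minus type otherwise. Ω is the set of cosets of `H` in `T`, so an element of `T` of prime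 order `r` (`x ∈ T` with `x^r` scalar, `x` not scalar) fixes a point of Ω exactly when some `T`-conjugate of `x` preserves `Q`. Let `r` be a prime dividing the index of `H`. Then every element of `T` of order `r` fixes a point of Ω if and only if `r = 2` and either `Q` is of plus type or `d` is odd. -/
theorem result {F : Type*} [Field F] [Fintype F] {p : ℕ} [Fact p.Prime] [CharP F p] {q : ℕ} (hq : Fintype.card F = q)
    (hp : p = 2) (d : ℕ) (hd : 2 ≤ d) (hT : (d, q) ≠ (2, 2)) (Q : (Fin d ⊕ Fin d → F) → F) (hQ : Cfsg.Geo.IsNondegenerateQuadraticForm Q)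
    (hQf : ∀ u v, QuadraticMap.polar Q u v = Cfsg.sympForm d F u v)
    (r : ℕ) [Fact r.Prime]
    (hΩ : r ∣ (Cfsg.Geo.quadSimilarityGroup Q).relIndex (Cfsg.spGL d F)) :
    (∀ x ∈ Cfsg.spGL d F, (∃ z : F, ((x ^ r : GL (Fin d ⊕ Fin d) F) : Matrix (Fin d ⊕ Fin d) (Fin d ⊕ Fin d) F) = z • (1 : Matrix (Fin d ⊕ Fin d) (Fin d ⊕ Fin d) F)) →
      (∀ z : F, (x : Matrix (Fin d ⊕ Fin d) (Fin d ⊕ Fin d) F) ≠ z • (1 : Matrix (Fin d ⊕ Fin d) (Fin d ⊕ Fin d) F)) →
      ∃ g ∈ Cfsg.spGL d F, g⁻¹ * x * g ∈ Cfsg.Geo.quadSimilarityGroup Q) ↔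
    (r = 2 ∧ (Cfsg.Geo.IsPlusTypeOn Q ⊤ ∨ Odd d)) := by
    classical
  subst hq
  subst hp
  have hP : Pol Q := pol_of hQ hQf
  have hd0 : 0 < d := by omega
  have hwit : ∃ v : Fin d ⊕ Fin d → F, v ≠ 0 := by
    obtain ⟨u, w, huw⟩ := exists_form_ne (F := F) hd0
    refine ⟨u, ?_⟩
    rintro rfl
    apply huw
    simpa using Cfsg.Agent.Lib.KnownSimple.sympForm_smul_left 0 w w
  constructor
  · intro hall
    by_cases hr2 : r = 2
    · subst hr2
      refine ⟨rfl, ?_⟩
      by_contra hcon
      push Not at hcon
      obtain ⟨hnp, hev⟩ := hcon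
      obtain ⟨e, rfl⟩ := Nat.not_odd_iff_even.mp hev
      obtain ⟨x, hx, hx2, hne, hW⟩ := exists_witness_two (F := F) e (by omega)
      obtain ⟨g, hg, hy⟩ := hall x hx ⟨1, by rw [hx2]; simp⟩ (nonscalar_of hd0 hx hne)
      obtain ⟨hP', hinv⟩ := form_of_conj hP hd0 hx hg hy
      exact hnp (plus_of_transport g finrank_range_inrL (fun w hw => hW _ hP' hinv w hw))
    · exfalso
      have hr : r.Prime := Fact.out
      obtain ⟨kk, hkk0, hkk⟩ := FiniteField.card F 2
      have hq1' : 1 < Fintype.card F := Fintype.one_lt_card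
      set q := Fintype.card F with hqdef
      have hrq : ¬ r ∣ q := by
        intro h
        rw [hkk] at h
        exact hr2 ((Nat.prime_dvd_prime_iff_eq hr Nat.prime_two).mp (hr.dvd_of_dvd_pow h))
      have htwo : (2 : ZMod r) ≠ 0 := by
        intro h
        have h1 : ((2 : ℕ) : ZMod r) = 0 := by exact_mod_cast h
        rw [ZMod.natCast_eq_zero_iff] at h1
        exact hr2 ((Nat.prime_dvd_prime_iff_eq hr Nat.prime_two).mp h1)
      set a : ZMod r := (q : ZMod r) with ha
      obtain ⟨k, rfl⟩ : ∃ k, d = k + 1 := ⟨d - 1, by omega⟩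
      haveI : NeZero r := ⟨hr.ne_zero⟩
      have hne : ∀ x : GL (Fin (k + 1) ⊕ Fin (k + 1)) F, (∀ v, x.val *ᵥ v = v → v = 0) → ∃ v, x.val *ᵥ v ≠ v := by
        intro x hfix
        obtain ⟨v, hv⟩ := hwit
        exact ⟨v, fun h => hv (hfix v h)⟩
      by_cases hplus : IsPlusTypeOn Q ⊤
      · have h1 := index_plus hQ hP (by omega) hplus
        have h2 : r ∣ q ^ (k + 1) + 1 := by
          have h3 : r ∣ q ^ (k + 1) * (q ^ (k + 1) + 1) := by
            rw [← h1]
            exact hΩ.mul_left 2
          rcases (hr.dvd_mul).mp h3 with h4 | h4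
          · exact absurd (hr.dvd_of_dvd_pow h4) hrq
          · exact h4
        have h3 : a ^ (k + 1) = -1 := by
          have h4 : ((q ^ (k + 1) + 1 : ℕ) : ZMod r) = 0 := (ZMod.natCast_eq_zero_iff _ _).mpr h2
          push_cast at h4
          linear_combination h4
        have hbd : blockDim F r ∣ 2 * (k + 1) := by
          have h4 : a ^ (2 * (k + 1)) = 1 := by
            rw [mul_comm, pow_mul, h3]
            ring
          have h5 : orderOf a ∣ 2 * (k + 1) := orderOf_dvd_of_pow_eq_one h4
          unfold blockDim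
          split_ifs with he
          · exact h5
          · exfalso
            have h6 : Nat.Coprime (orderOf a) 2 := by
              rw [Nat.coprime_two_right]
              exact Nat.not_even_iff_odd.mp he
            have h7 : orderOf a ∣ k + 1 := h6.dvd_of_dvd_mul_left h5
            have h8 : a ^ (k + 1) = 1 := orderOf_dvd_iff_pow_eq_one.mp h7
            rw [h3] at h8
            apply htwo
            linear_combination -h8
        obtain ⟨x, hx, hxr, hfix⟩ := EluOForm.exists_fpf (d := k + 1) hrq hbd
        obtain ⟨g, hg, hy⟩ := hall x hx ⟨1, by rw [hxr]; simp⟩ (nonscalar_of hd0 hx (hne x hfix))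
        have h4 := zeros_of_witness hP hd0 hx hxr hfix hg hy
        rw [zeros_plus hQ (by omega) hplus] at h4
        have e1 : 2 * (k + 1) - 1 = 2 * k + 1 := by omega
        simp only [e1, Nat.add_sub_cancel] at h4
        have hle : q ^ k ≤ q ^ (2 * k + 1) + q ^ (k + 1) :=
          le_trans (Nat.pow_le_pow_right (by omega) (by omega)) (Nat.le_add_right _ _)
        have h5 : ((q ^ (2 * k + 1) + q ^ (k + 1) - q ^ k : ℕ) : ZMod r) = ((1 : ℕ) : ZMod r) := (ZMod.natCast_eq_natCast_iff _ _ _).mpr h4
        rw [Nat.cast_sub hle] at h5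
        push_cast at h5
        rw [← ha] at h5
        set b := a ^ k with hb
        have e2 : a ^ (2 * k + 1) = a * b * b := by
          rw [hb, pow_succ, two_mul, pow_add]
          ring
        have e3 : a * b = -1 := by
          rw [hb, ← pow_succ', h3]
        have e4 : a ^ (k + 1) = a * b := by
          rw [hb, pow_succ']
        rw [e2, e4, e3] at h5
        have h6 : 2 * (b + 1) = 0 := by linear_combination -h5
        have h7 : b = -1 := by
          rcases mul_eq_zero.mp h6 with h8 | h8
          · exact absurd h8 htwo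
          · linear_combination h8
        have h8 : a = 1 := by
          rw [h7] at e3
          linear_combination -e3
        have h9 : b = 1 := by
          rw [hb, h8, one_pow]
        rw [h9] at h7
        apply htwo
        linear_combination h7
      · have h1 := index_minus hQ hP (by omega) hplus
        have hq1 : 1 < q ^ (k + 1) := Nat.one_lt_pow (by omega) hq1'
        have h2 : r ∣ q ^ (k + 1) - 1 := by
          have h3 : r ∣ q ^ (k + 1) * (q ^ (k + 1) - 1) := by
            rw [← h1]
            exact hΩ.mul_left 2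
          rcases (hr.dvd_mul).mp h3 with h4 | h4
          · exact absurd (hr.dvd_of_dvd_pow h4) hrq
          · exact h4
        have h3 : a ^ (k + 1) = 1 := (pow_eq_one_iff_dvd (by omega)).mpr h2
        by_cases ha1 : a = 1
        · have hdv : r ∣ Nat.card Fˣ := by
            rw [Nat.card_eq_fintype_card, Fintype.card_units]
            have h4 : a ^ 1 = 1 := by rw [ha1, one_pow]
            have h5 := (pow_eq_one_iff_dvd (by omega)).mp h4
            rwa [pow_one] at h5
          obtain ⟨u, hu⟩ := exists_prime_orderOf_dvd_card' r hdv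
          have hω : (u : F) ^ r = 1 := by
            rw [← Units.val_pow_eq_pow_val, ← hu, pow_orderOf_eq_one, Units.val_one]
          have hω2 : (u : F) ^ 2 ≠ 1 := by
            intro h4
            have h5 : u ^ 2 = 1 := Units.ext (by rw [Units.val_pow_eq_pow_val, h4, Units.val_one])
            have h6 := orderOf_dvd_of_pow_eq_one h5
            rw [hu] at h6
            exact hr2 ((Nat.prime_dvd_prime_iff_eq hr Nat.prime_two).mp h6)
          obtain ⟨x, hx, hxr, hne', hW⟩ := exists_witness_diag (d := k + 1) hd0 hr.pos hω hω2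
          obtain ⟨g, hg, hy⟩ := hall x hx ⟨1, by rw [hxr]; simp⟩ (nonscalar_of hd0 hx hne')
          obtain ⟨hP', hinv⟩ := form_of_conj hP hd0 hx hg hy
          exact hplus (plus_of_transport g finrank_range_inlL (fun w hw => hW _ hP' hinv w hw))
        · have h5 : orderOf a ∣ k + 1 := orderOf_dvd_of_pow_eq_one h3
          have hbd : blockDim F r ∣ 2 * (k + 1) := by
            unfold blockDim
            split_ifs with he
            · exact h5.mul_left 2
            · exact Nat.mul_dvd_mul_left 2 h5
          obtain ⟨x, hx, hxr, hfix⟩ := EluOForm.exists_fpf (d := k + 1) hrq hbd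
          obtain ⟨g, hg, hy⟩ := hall x hx ⟨1, by rw [hxr]; simp⟩ (nonscalar_of hd0 hx (hne x hfix))
          have h4 := zeros_of_witness hP hd0 hx hxr hfix hg hy
          rw [zeros_minus hQ (by omega) hplus] at h4
          have e1 : 2 * (k + 1) - 1 = 2 * k + 1 := by omega
          simp only [e1, Nat.add_sub_cancel] at h4
          have hle : q ^ (k + 1) ≤ q ^ (2 * k + 1) + q ^ k :=
            le_trans (Nat.pow_le_pow_right (by omega) (by omega)) (Nat.le_add_right _ _)
          have h6 : ((q ^ (2 * k + 1) + q ^ k - q ^ (k + 1) : ℕ) : ZMod r) = ((1 : ℕ) : ZMod r) := (ZMod.natCast_eq_natCast_iff _ _ _).mpr h4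
          rw [Nat.cast_sub hle] at h6
          push_cast at h6
          rw [← ha] at h6
          set b := a ^ k with hb
          have e2 : a ^ (2 * k + 1) = a * b * b := by
            rw [hb, pow_succ, two_mul, pow_add]
            ring
          have e3 : a * b = 1 := by
            rw [hb, ← pow_succ', h3]
          have e4 : a ^ (k + 1) = a * b := by
            rw [hb, pow_succ']
          rw [e2, e4, e3] at h6
          have h7 : 2 * (b - 1) = 0 := by linear_combination h6
          have h8 : b = 1 := by
            rcases mul_eq_zero.mp h7 with h9 | h9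
            · exact absurd h9 htwo
            · exact sub_eq_zero.mp h9
          rw [h8, mul_one] at e3
          exact ha1 e3
  · rintro ⟨rfl, hty⟩ x hx ⟨z, hz⟩ -
    have hxx : ∀ v, x.val *ᵥ (x.val *ᵥ v) = v := by
      obtain ⟨u, w, huw⟩ := exists_form_ne (F := F) hd0
      have hz' : (x.val) * (x.val) = z • 1 := by
        rw [← hz, Units.val_pow_eq_pow_val, sq]
      have hm : ∀ v, x.val *ᵥ (x.val *ᵥ v) = z • v := by
        intro v
        rw [mulVec_mulVec, hz', smul_mulVec, one_mulVec]
      have h1 := (Cfsg.Agent.Lib.ClassMax.mem_spGL_iff x).mp hx (x.val *ᵥ u) (x.val *ᵥ w)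
      rw [hm, hm, Cfsg.Agent.Lib.KnownSimple.sympForm_smul_left, Cfsg.Agent.Lib.KnownSimple.sympForm_smul_right, (Cfsg.Agent.Lib.ClassMax.mem_spGL_iff x).mp hx] at h1
      have h2 : (z * z) = 1 := by
        have h3 : (z * z - 1) * Cfsg.sympForm d F u w = 0 := by linear_combination h1
        rcases mul_eq_zero.mp h3 with h4 | h4
        · exact sub_eq_zero.mp h4
        · exact absurd h4 huw
      have h3 : z = 1 := sq_inj (by rw [sq, h2, one_pow])
      intro v
      rw [hm, h3, one_smul]
    exact exists_conj_invol hP x hx hxx hty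

end Cfsg.Agent.S5983
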