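import Cfsg.Statements.S5984
import Mathlib
import Cfsg.Agent.Lib.ClassMax.HypPair4

set_option autoImplicit false
open scoped MatrixGroups
open Cfsg

namespace Cfsg.Agent.S5984

open Module Matrix Cfsg.Geo Cfsg.Agent.Lib.ClassMax Cfsg.Agent.Lib.ClassMax.HermOver Cfsg.Agent.Lib.ClassMax.UnitCore Cfsg.Agent.Lib.ClassMax.HypPair

variable {F : Type*} [Field F] [Fintype F] {n q : ℕ}

open Cfsg.Agent.Lib.Classical in
/-- The transvection witness. -/
theorem transv_witness (hF : Fintype.card F = q ^ 2) {p : ℕ} [Fact p.Prime] [CharP F p] (hn : 2 ≤ n) :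
    ∃ x : GL (Fin n) F, x ∈ Cfsg.GU n F q ⊓ specialLinear (Fin n) F ∧ x ^ p = 1 ∧ (∀ t : F, (x : Matrix (Fin n) (Fin n) F) ≠ t • 1) ∧
      ∃ (a : F) (c : Fin n → F), a ≠ 0 ∧ c ≠ 0 ∧ ∀ v, (x : Matrix (Fin n) (Fin n) F) *ᵥ v = (1 : F) • (v + (a * Cfsg.hermForm n F q v c) • c) := by
  classical
  obtain ⟨σ, hf, hσ⟩ := hermForm_unitary (n := n) hF
  obtain ⟨z, z', hzz, -, hzz', -, -⟩ := exists_hyp_pair hf (k := 0) Fin.elim0 (by simp; omega)
  have hz0 : z ≠ 0 := by
    rintro rfl
    rw [zero_left hf] at hzz'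
    exact zero_ne_one hzz'
  obtain ⟨a, ha0, ha⟩ := exists_skew hf
  set f := Cfsg.hermForm n F q with hfdef
  have hE : ∀ v, (eg f z 0 a : GL (Fin n) F).1 *ᵥ v = v + (a * f v z) • z := by
    intro v
    show ((eg f z 0 a : GL (Fin n) F) : Matrix (Fin n) (Fin n) F) *ᵥ v = _
    rw [eg_apply hf hzz (zero_right hf z) (skew_ok hf ha)]
    unfold egFun
    rw [zero_right hf]
    simp
  have hEU : eg f z 0 a ∈ Cfsg.GU n F q := eg_iso hf hzz (zero_right hf z) (skew_ok hf ha)
  have hfE : ∀ v, f ((eg f z 0 a : GL (Fin n) F).1 *ᵥ v) z = f v z := by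
    intro v
    rw [hE, hf.add_left, hf.smul_left, hzz, mul_zero, add_zero]
  have hpow : ∀ (k : ℕ) v, (((eg f z 0 a) ^ k : GL (Fin n) F) : Matrix (Fin n) (Fin n) F) *ᵥ v = v + (((k : F) * a) * f v z) • z := by
    intro k
    induction k with
    | zero =>
      intro v
      simp
    | succ k ih =>
      intro v
      rw [pow_succ, Units.val_mul, ← mulVec_mulVec, ih]
      change (eg f z 0 a : GL (Fin n) F).1 *ᵥ v + _ = _
      rw [hfE, hE]
      push_cast
      module
  refine ⟨eg f z 0 a, ⟨hEU, eg_tv_mem_SL hf hzz ha⟩, ?_, ?_, a, z, ha0, hz0, ?_⟩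
  · apply Units.ext
    apply Cfsg.Agent.Lib.Classical.mat_ext_mulVec
    intro v
    rw [hpow, CharP.cast_eq_zero F p]
    simp
  · intro t ht
    have h1 : (eg f z 0 a : GL (Fin n) F).1 *ᵥ z = z := by
      rw [hE, hzz, mul_zero, zero_smul, add_zero]
    have h2 : ∀ v, (eg f z 0 a : GL (Fin n) F).1 *ᵥ v = t • v := by
      intro v
      show ((eg f z 0 a : GL (Fin n) F) : Matrix (Fin n) (Fin n) F) *ᵥ v = _
      rw [ht, smul_mulVec, one_mulVec]
    rw [h2] at h1
    have ht1 : t = 1 := by
      have h3 : (t - 1) • z = 0 := by rw [sub_smul, h1, one_smul, sub_self]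
      rcases smul_eq_zero.mp h3 with h4 | h4
      · exact sub_eq_zero.mp h4
      · exact absurd h4 hz0
    have h5 := hE z'
    rw [h2, ht1, one_smul] at h5
    have h6 : (a * f z' z) • z = 0 := by
      have := congrArg (fun y => y - z') h5
      simpa using this.symm
    rcases smul_eq_zero.mp h6 with h7 | h7
    · rcases mul_eq_zero.mp h7 with h8 | h8
      · exact ha0 h8
      · rw [hf.herm, h8, map_zero] at hzz'
        exact zero_ne_one hzz'
    · exact hz0 h7
  · intro v
    rw [one_smul]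
    exact hE v
open Cfsg.Agent.Lib.Classical in
/-- The reflection witness. -/
theorem refl_witness (hF : Fintype.card F = q ^ 2) (h2 : (2 : F) ≠ 0) (hn : 2 ≤ n) (hval : ¬ padicValNat 2 (q + 1) ≤ padicValNat 2 n) :
    ∃ x : GL (Fin n) F, x ∈ Cfsg.GU n F q ⊓ specialLinear (Fin n) F ∧ (∃ z : F, ((x ^ 2 : GL (Fin n) F) : Matrix (Fin n) (Fin n) F) = z • 1) ∧ (∀ t : F, (x : Matrix (Fin n) (Fin n) F) ≠ t • 1) ∧
      ∃ (ω a : F) (c : Fin n → F), ω ≠ 0 ∧ a ≠ 0 ∧ c ≠ 0 ∧ ∀ v, (x : Matrix (Fin n) (Fin n) F) *ᵥ v = ω • (v + (a * Cfsg.hermForm n F q v c) • c) := by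
  classical
  haveI : Fact (Nat.Prime 2) := ⟨Nat.prime_two⟩
  have hq2 := two_le_q hF
  have hq0 : q ≠ 0 := by omega
  have hrc : ringChar F ≠ 2 := by
    intro hc
    apply h2
    haveI : CharP F 2 := by
      rw [← hc]
      exact ringChar.charP F
    exact CharTwo.two_eq_zero
  have hodd : Odd q := by
    have h3 := FiniteField.odd_card_of_char_ne_two hrc
    rw [hF] at h3
    exact (Nat.odd_pow_iff (by norm_num)).mp (Nat.odd_iff.mpr h3)
  obtain ⟨b, t, ht, hnb⟩ := Nat.exists_eq_two_pow_mul_odd (by omega : n ≠ 0)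
  have hvb : padicValNat 2 n = b := by
    have h0 : t ≠ 0 := ht.pos.ne'
    rw [hnb, padicValNat.mul (by positivity) h0, padicValNat.prime_pow, padicValNat.eq_zero_of_not_dvd (by
      rw [← even_iff_two_dvd, Nat.not_even_iff_odd]
      exact ht), add_zero]
  rw [hvb] at hval
  have hb : 2 ^ (b + 1) ∣ q + 1 := (pow_dvd_pow 2 (by omega : b + 1 ≤ padicValNat 2 (q + 1))).trans pow_padicValNat_dvd
  have hcard : Nat.card Fˣ = (q - 1) * (q + 1) := by
    rw [Nat.card_eq_fintype_card, Fintype.card_units, hF]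
    zify [show 1 ≤ q by omega, show 1 ≤ q ^ 2 from Nat.one_le_pow _ _ (by omega)]
    ring
  have hcpos : 0 < Nat.card Fˣ := Nat.card_pos
  obtain ⟨g, hg⟩ := IsCyclic.exists_generator (α := Fˣ)
  have hgo : orderOf g = Nat.card Fˣ := orderOf_eq_card_of_forall_mem_zpowers hg
  obtain ⟨c', hc'⟩ : 2 ^ (b + 1) ∣ Nat.card Fˣ := by
    rw [hcard]
    exact hb.mul_left _
  have hc'0 : c' ≠ 0 := by
    rintro rfl
    omega
  have hωo : orderOf (g ^ c') = 2 ^ (b + 1) := by
    rw [orderOf_pow_of_dvd hc'0 (by rw [hgo, hc']; exact dvd_mul_left _ _), hgo, hc']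
    exact Nat.mul_div_cancel _ (Nat.pos_of_ne_zero hc'0)
  set ω : F := ((g ^ c' : Fˣ) : F) with hω
  have hω0 : ω ≠ 0 := Units.ne_zero _
  have hpow : ∀ m : ℕ, ω ^ m = 1 ↔ 2 ^ (b + 1) ∣ m := by
    intro m
    rw [← hωo, orderOf_dvd_iff_pow_eq_one]
    constructor
    · intro h
      apply Units.ext
      simpa [hω] using h
    · intro h
      have := congrArg Units.val h
      simpa [hω] using this
  have hy2 : (ω ^ (2 ^ b)) * (ω ^ (2 ^ b)) = 1 := by
    rw [← pow_add, hpow, pow_succ, mul_two]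
  have hy1 : ω ^ (2 ^ b) ≠ 1 := by
    intro h
    have h1 := (hpow _).mp h
    have h3 := Nat.le_of_dvd (by positivity) h1
    rw [pow_succ] at h3
    have : 0 < 2 ^ b := by positivity
    omega
  have hy : ω ^ (2 ^ b) = -1 := (mul_self_eq_one_iff.mp hy2).resolve_left hy1
  have hωn : ω ^ n = -1 := by
    rw [hnb, pow_mul, hy, ht.neg_one_pow]
  have hωq : ω ^ (q + 1) = 1 := (hpow _).mpr hb
  have hqe : Even (q + 1) := hodd.add_one
  let i₀ : Fin n := ⟨0, by omega⟩
  let i₁ : Fin n := ⟨1, by omega⟩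
  have h01 : i₁ ≠ i₀ := by
    intro h
    have := congrArg Fin.val h
    simp [i₀, i₁] at this
  let s : Fin n → F := fun c => if c = i₀ then -1 else 1
  let d : Fin n → F := fun c => ω * s c
  have hs2 : ∀ c, s c * s c = 1 := by
    intro c
    simp only [s]
    split_ifs <;> simp
  have hsq : ∀ c, s c ^ (q + 1) = 1 := by
    intro c
    simp only [s]
    split_ifs
    · exact hqe.neg_one_pow
    · exact one_pow _
  have hdq : ∀ c, d c ^ (q + 1) = 1 := by
    intro c
    simp only [d]
    rw [mul_pow, hωq, hsq, one_mul]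
  have hdet : (diagonal d).det = 1 := by
    rw [det_diagonal]
    simp only [d]
    rw [Finset.prod_mul_distrib, Finset.prod_const, Finset.card_univ, Fintype.card_fin, hωn]
    simp [s]
  let x : GL (Fin n) F := Matrix.GeneralLinearGroup.mkOfDetNeZero (diagonal d) (by rw [hdet]; exact one_ne_zero)
  have hxm : (x : Matrix (Fin n) (Fin n) F) = diagonal d := rfl
  have hxv : ∀ v c, ((x : Matrix (Fin n) (Fin n) F) *ᵥ v) c = d c * v c := by
    intro v c
    rw [hxm, mulVec_diagonal]
  have hxU : x ∈ Cfsg.GU n F q := by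
    intro u v
    show Cfsg.hermForm n F q ((x : Matrix (Fin n) (Fin n) F) *ᵥ u) ((x : Matrix (Fin n) (Fin n) F) *ᵥ v) = _
    unfold Cfsg.hermForm
    refine Finset.sum_congr rfl fun c _ => ?_
    rw [hxv, hxv, mul_pow]
    have := hdq c
    rw [pow_succ'] at this
    linear_combination (u c * v c ^ q) * this
  refine ⟨x, ⟨hxU, ?_⟩, ⟨ω * ω, ?_⟩, ?_, ω, -2, Pi.single i₀ 1, hω0, neg_ne_zero.mpr h2, ?_, ?_⟩
  · show Matrix.GeneralLinearGroup.det x = 1
    apply Units.ext
    exact hdet
  · rw [pow_two, Units.val_mul, hxm, diagonal_mul_diagonal]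
    ext a c
    by_cases hac : a = c
    · subst hac
      simp only [diagonal_apply_eq, Matrix.smul_apply, Matrix.one_apply_eq, smul_eq_mul, mul_one, d]
      have := hs2 a
      linear_combination (ω * ω) * this
    · simp [diagonal_apply_ne _ hac, Matrix.one_apply_ne hac]
  · intro τ hτ
    have h1 := congrFun (congrFun hτ i₀) i₀
    have h3 := congrFun (congrFun hτ i₁) i₁
    rw [hxm] at h1 h3
    simp [d, s, h01, Matrix.one_apply] at h1 h3
    rw [← h1] at h3
    apply hω0
    have h5 : (2 : F) * ω = 0 := by linear_combination h3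
    exact (mul_eq_zero.mp h5).resolve_left h2
  · intro h
    have := congrFun h i₀
    simp at this
  · intro v
    rw [herm_right_single _ _ hq0]
    funext c
    rw [hxv]
    simp only [d, s, Pi.smul_apply, Pi.add_apply, smul_eq_mul]
    by_cases hc : c = i₀
    · subst hc
      simp
      ring
    · simp [hc]

/-- A subspace mapped into itself by an invertible matrix is mapped onto itself. -/
theorem map_eq_of_le {g : GL (Fin n) F} {S : Submodule F (Fin n → F)} (h : S.map (Matrix.toLin' (g : Matrix (Fin n) (Fin n) F)) ≤ S) :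
    S.map (Matrix.toLin' (g : Matrix (Fin n) (Fin n) F)) = S := by
  apply Submodule.eq_of_le_of_finrank_eq h
  exact (LinearEquiv.finrank_eq (Submodule.equivMapOfInjective _ (gl_injective g) _)).symm


/-- Elements of prime order of PSU_n(q) and the stabilizers of pairs of complementary totally singular subspaces. Here `T = PSU_n(q)` is realised through `SU_n(q)`, the matrices of determinant 1 over the field `F` with `q²` elements preserving the hermitian form `Σ uᵢ vᵢ^q`, with `n ≥ 4` even; `D` is a pair of complementary subspaces of dimension `n/2` on each of which the form vanishes identically, and `H` is the subgroup of `SU_n(q)` fixing or interchanging the two members — a subgroup of type GL_{n/2}(q²).2 (maximality is not assumed). Ω is the set of cosets of `H`, so an element of `T` of prime order `r` (`x ∈ SU_n(q)` with `x^r` scalar, `x` not scalar) fixes a point of Ω exactly when some `SU_n(q)`-conjugate of `x` lies in `H`. Let `r` be a prime dividing the index of `H`. Then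 every element of `T` of order `r` fixes a point of Ω if and only if `r = 2`, `q` is odd and `(q + 1)_2 ≤ (n)_2` (2-parts). -/
theorem result {F : Type*} [Field F] [Fintype F] {p : ℕ} [Fact p.Prime] [CharP F p] {q : ℕ} (hq : Fintype.card F = q ^ 2)
    (n : ℕ) (hn : 4 ≤ n) (he : Even n) (D : Fin 2 → Submodule F (Fin n → F)) (hD : Cfsg.Geo.IsMDecomposition (n / 2) D)
    (hDs : ∀ i, Cfsg.Geo.IsTotallySingularFor (Cfsg.hermForm n F q) (D i))
    (r : ℕ) [Fact r.Prime]
    (hΩ : r ∣ (Cfsg.Geo.decompositionStabilizer D).relIndex (Cfsg.GU n F q ⊓ Cfsg.Geo.specialLinear (Fin n) F)) :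
    (∀ x ∈ Cfsg.GU n F q ⊓ Cfsg.Geo.specialLinear (Fin n) F, (∃ z : F, ((x ^ r : GL (Fin n) F) : Matrix (Fin n) (Fin n) F) = z • (1 : Matrix (Fin n) (Fin n) F)) →
      (∀ z : F, (x : Matrix (Fin n) (Fin n) F) ≠ z • (1 : Matrix (Fin n) (Fin n) F)) →
      ∃ g ∈ Cfsg.GU n F q ⊓ Cfsg.Geo.specialLinear (Fin n) F, g⁻¹ * x * g ∈ Cfsg.Geo.decompositionStabilizer D) ↔
    (r = 2 ∧ Odd q ∧ padicValNat 2 (q + 1) ≤ padicValNat 2 n) := by
  classical
  have hr : r.Prime := Fact.out
  set f := Cfsg.hermForm n F q with hfdef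
  obtain ⟨σ, hf, hσ⟩ := hermForm_unitary (n := n) hq
  have hq2 := Cfsg.Agent.Lib.Classical.two_le_q hq
  obtain ⟨m, hm⟩ := he
  have hnm : n = 2 * m := by omega
  have hUP : UP f (D 0) (D 1) := by
    refine ⟨?_, hDs 0, hDs 1⟩
    apply le_antisymm le_top
    rw [← hD.iSup_eq_top]
    apply iSup_le
    intro i
    fin_cases i
    · exact le_sup_left
    · exact le_sup_right
  have hfin0 : finrank F (D 0) = m := by
    rw [hD.finrank_eq 0]
    omega
  have hn2 : 2 ≤ n := by omega
  have hp2 : p = 2 ∨ (2 : F) ≠ 0 := by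
    by_cases h : p = 2
    · exact Or.inl h
    · right
      apply Ring.two_ne_zero
      rw [ringChar.eq F p]
      exact h
  constructor
  · intro H
    by_cases hrp : r = p
    · exfalso
      subst hrp
      obtain ⟨x, hxS, hxr, hxn, a, c, ha, hc, hxv⟩ := transv_witness (p := r) hq hn2
      obtain ⟨g, hg, hgx⟩ := H x hxS ⟨1, by rw [hxr]; simp⟩ hxn
      obtain ⟨A, B, hAB, hfinA, hcases⟩ := stab_cases hUP hg.1 hgx
      rcases hcases with ⟨hA, hB⟩ | ⟨hA, -⟩
      · exact rank_one_stable hf hAB one_ne_zero ha hc hxv hA hB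
      · exact rank_one_swap hf hAB (by omega) one_ne_zero hxv hA
    · have hcard : ¬ r ∣ q := by
        intro h
        obtain ⟨k, hk⟩ := FiniteField.card F p
        have h1 : r ∣ p ^ (k : ℕ) := by
          rw [← hk.2, hq]
          exact h.trans (dvd_pow_self q two_ne_zero)
        exact hrp ((Nat.prime_dvd_prime_iff_eq hr Fact.out).mp (hr.dvd_of_dvd_pow h1))
      by_cases hr2 : r = 2
      · subst hr2
        have h2 : (2 : F) ≠ 0 := by
          rcases hp2 with h | h
          · exact absurd h.symm hrp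
          · exact h
        have hrc : ringChar F ≠ 2 := by
          rw [ringChar.eq F p]
          exact fun h => hrp h.symm
        have hodd : Odd q := by
          have h3 := FiniteField.odd_card_of_char_ne_two hrc
          rw [hq] at h3
          exact (Nat.odd_pow_iff (by norm_num)).mp (Nat.odd_iff.mpr h3)
        refine ⟨rfl, hodd, ?_⟩
        by_contra hval
        obtain ⟨x, hxS, hxr, hxn, ω, a, c, hω, ha, hc, hxv⟩ := refl_witness hq h2 hn2 hval
        obtain ⟨g, hg, hgx⟩ := H x hxS hxr hxn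
        obtain ⟨A, B, hAB, hfinA, hcases⟩ := stab_cases hUP hg.1 hgx
        rcases hcases with ⟨hA, hB⟩ | ⟨hA, -⟩
        · exact (rank_one_stable hf hAB hω ha hc hxv hA hB).elim
        · exact (rank_one_swap hf hAB (by omega) hω hxv hA).elim
      · exfalso
        obtain ⟨j, hj, hjr⟩ := prime_dvd_of_index hq hnm hUP hr hcard hΩ
        have hex : ∃ i, Odd i ∧ r ∣ q ^ i + 1 := ⟨2 * j + 1, ⟨j, rfl⟩, hjr⟩
        classical
        have hspec := Nat.find_spec hex
        have hle := Nat.find_min' hex (⟨⟨j, rfl⟩, hjr⟩ : Odd (2 * j + 1) ∧ r ∣ q ^ (2 * j + 1) + 1)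
        set i := Nat.find hex with hi
        have hmin : ∀ a < i, Odd a → ¬ r ∣ q ^ a + 1 := fun a ha h1 h3 => Nat.find_min hex ha ⟨h1, h3⟩
        obtain ⟨x, hxS, hxr, hxn, hxp⟩ : ∃ x : GL (Fin n) F, x ∈ Cfsg.GU n F q ⊓ specialLinear (Fin n) F ∧ x ^ r = 1 ∧ (∀ t : F, (x : Matrix (Fin n) (Fin n) F) ≠ t • 1) ∧
            ∀ A B, UP (Cfsg.hermForm n F q) A B → (∀ u ∈ A, (x : Matrix (Fin n) (Fin n) F) *ᵥ u ∈ A) → (∀ u ∈ B, (x : Matrix (Fin n) (Fin n) F) *ᵥ u ∈ B) → False := by
          by_cases hi1 : i = 1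
          · have h1 : r ∣ q + 1 := by
              have := hspec.2
              rwa [hi1, pow_one] at this
            exact exists_diag_witness hq hr2 h1 hn2
          · have hi3 : 1 < i := by
              have := hspec.1.pos
              omega
            exact exists_block_witness hq hr2 hcard hspec.1 hi3 hspec.2 hmin (by omega)
        obtain ⟨g, hg, hgx⟩ := H x hxS ⟨1, by rw [hxr]; simp⟩ hxn
        obtain ⟨A, B, hAB, hfinA, hcases⟩ := stab_cases hUP hg.1 hgx
        rcases hcases with ⟨hA, hB⟩ | ⟨hA, hB⟩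
        · exact hxp A B hAB hA hB
        · -- an element of odd order cannot interchange
          obtain ⟨k, hk⟩ := hr.eq_two_or_odd'.resolve_left hr2
          have hpw : ∀ (l : ℕ), (∀ u ∈ B, (((x ^ (2 * l) : GL (Fin n) F)) : Matrix (Fin n) (Fin n) F) *ᵥ u ∈ B) := by
            intro l
            induction l with
            | zero => intro u hu; simpa using hu
            | succ l ih =>
              intro u hu
              have e : 2 * (l + 1) = 2 * l + 1 + 1 := by ring
              rw [e, pow_succ, pow_succ, Units.val_mul, Units.val_mul, ← mulVec_mulVec, ← mulVec_mulVec]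
              exact ih _ (hA _ (hB _ hu))
          have hAbot : A = ⊥ := by
            rw [eq_bot_iff]
            intro u hu
            have h1 := hpw k _ (hA u hu)
            rw [mulVec_mulVec, ← Units.val_mul, ← pow_succ, ← hk, hxr, Units.val_one, one_mulVec] at h1
            rw [Submodule.mem_bot]
            exact Submodule.disjoint_def.mp (hAB.disjoint hf) u hu h1
          rw [hAbot, finrank_bot, hfin0] at hfinA
          omega
  · rintro ⟨rfl, hodd, hval⟩
    intro x hx ⟨z, hz⟩ hns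
    have hrc : ringChar F ≠ 2 := by
      intro hc
      have h1 := FiniteField.even_card_iff_char_two.mp hc
      rw [hq] at h1
      have h3 : Odd (q ^ 2) := hodd.pow
      rw [Nat.odd_iff] at h3
      omega
    have h2 : (2 : F) ≠ 0 := Ring.two_ne_zero hrc
    have hdet : (x : Matrix (Fin n) (Fin n) F).det = 1 := by
      have h3 : Matrix.GeneralLinearGroup.det x = 1 := hx.2
      have := congrArg Units.val h3
      simpa using this
    obtain ⟨A, B, hAB, hA, hB⟩ := exists_stable_pair hq h2 ⟨m, hm⟩ (by omega) x hx.1 hdet (z := z) (by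
      rw [← Units.val_mul, ← pow_two]
      exact hz) hval
    have hA0 : 0 < finrank F A := by
      have h3 := hAB.finrank_eq hf
      simp only [Fintype.card_fin] at h3
      omega
    obtain ⟨g, hg, hgA, hgB⟩ := exists_su_move hq hUP hAB hA0
    refine ⟨g, hg, 1, fun i => ?_⟩
    have key : ∀ S S' : Submodule F (Fin n → F), S.map (Matrix.toLin' (g : Matrix (Fin n) (Fin n) F)) = S' → (∀ u ∈ S', (x : Matrix (Fin n) (Fin n) F) *ᵥ u ∈ S') →
        S.map (Matrix.toLin' ((g⁻¹ * x * g : GL (Fin n) F) : Matrix (Fin n) (Fin n) F)) = S := by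
      intro S S' hS hS'
      apply map_eq_of_le
      rintro _ ⟨u, hu, rfl⟩
      have h3 : (g : Matrix (Fin n) (Fin n) F) *ᵥ u ∈ S' := by
        rw [← hS]
        exact ⟨u, hu, rfl⟩
      have h4 := hS' _ h3
      rw [← hS] at h4
      obtain ⟨w, hw, hwe⟩ := h4
      rw [Matrix.toLin'_apply] at hwe
      rw [Matrix.toLin'_apply, Units.val_mul, Units.val_mul, ← mulVec_mulVec, ← mulVec_mulVec, ← hwe, gl_cancel']
      exact hw
    fin_cases i
    · exact key _ _ hgA hA
    · exact key _ _ hgB hB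

end Cfsg.Agent.S5984
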