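import Cfsg.Statements.S5985
import Cfsg.Agent.Lib.ClassMax.EluOne2

set_option autoImplicit false
open scoped MatrixGroups
open Cfsg

namespace Cfsg.Agent.S5985

open Module Matrix Polynomial Cfsg.Geo Cfsg.Agent.Lib.ClassMax Cfsg.Agent.Lib.ClassMax.OmegaCore Cfsg.Agent.Lib.ClassMax.EluOne Cfsg.Agent.Lib.ClassMax.EluOrder

set_option maxHeartbeats 2000000 in

/-- Elements of prime order of Ω⁺_n(q), q even, with no fixed nonsingular 1-space. Here `T = PΩ⁺_n(F)`, `n = 2d ≥ 8`, realised through `Ω⁺_n(q)`, the commutator subgroup of the isometry group of `Q = Σ xᵢyᵢ` over the field `F` with `q` elements; an element of `T` of prime order `r` is an element `x` of `Ω⁺_n(q)` with `x^r` scalar and `x` not scalar; `q` is even (so the centre is trivial). Let Ω be the set of 1-dimensional subspaces spanned by a vector `v` with `Q(v) ≠ 0`, and let `r` be a prime dividing their number. Then every element of `T` of order `r` fixes some nonsingular 1-space if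 and only if `r = 2` and `n ≡ 2 (mod 4)` (that is, `d` is odd). -/
theorem result {F : Type*} [Field F] [Fintype F] {p : ℕ} [Fact p.Prime] [CharP F p] {q : ℕ} (hq : Fintype.card F = q)
    (hp : p = 2) (d : ℕ) (hd : 4 ≤ d) (r : ℕ) [Fact r.Prime]
    (hrΩ : r ∣ Nat.card {W : Submodule F (Fin d ⊕ Fin d → F) // Module.finrank F ↥W = 1 ∧ ∃ v ∈ W, Cfsg.quadFormPlus d F v ≠ 0}) :
    (∀ x : GL (Fin d ⊕ Fin d) F, x ∈ Cfsg.Geo.omegaGL (Cfsg.quadFormPlus d F) →
      (∃ z : F, ((x ^ r : GL (Fin d ⊕ Fin d) F) : Matrix (Fin d ⊕ Fin d) (Fin d ⊕ Fin d) F) = z • (1 : Matrix (Fin d ⊕ Fin d) (Fin d ⊕ Fin d) F)) →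
      (∀ z : F, (x : Matrix (Fin d ⊕ Fin d) (Fin d ⊕ Fin d) F) ≠ z • (1 : Matrix (Fin d ⊕ Fin d) (Fin d ⊕ Fin d) F)) →
      ∃ W : Submodule F (Fin d ⊕ Fin d → F), (Module.finrank F ↥W = 1 ∧ ∃ v ∈ W, Cfsg.quadFormPlus d F v ≠ 0) ∧ W.map (Matrix.toLin' (x : Matrix (Fin d ⊕ Fin d) (Fin d ⊕ Fin d) F)) ≤ W) ↔ (r = 2 ∧ Odd d) := by
    classical
  subst hq
  subst hp
  have h2 : (2 : F) = 0 := CharTwo.two_eq_zero
  have hQ : IsNondegenerateQuadraticForm (Cfsg.quadFormPlus d F) := isNondeg_of_NDQ (Cfsg.Agent.Lib.Classical.ndq_plus d)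
  haveI : Nonempty (Fin d ⊕ Fin d) := ⟨Sum.inl ⟨0, by omega⟩⟩
  have hcardι : Fintype.card (Fin d ⊕ Fin d) = 2 * d := by
    simp only [Fintype.card_sum, Fintype.card_fin]
    ring
  constructor
  · intro hall
    by_cases hr2 : r = 2
    · subst hr2
      refine ⟨rfl, ?_⟩
      by_contra hodd
      have heven : Even d := Nat.not_odd_iff_even.mp hodd
      obtain ⟨e, rfl⟩ := heven
      obtain ⟨x, hx, hx2, hfix⟩ := exists_lag_invol (F := F) (e := e) (by omega)
      exact absurd_of_witness hQ h2 hall x hx hx2 hfix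
    · exfalso
      have hr : r.Prime := Fact.out
      obtain ⟨kk, hkk0, hkk⟩ := FiniteField.card F 2
      have hrq : ¬ r ∣ Fintype.card F := by
        intro h
        rw [hkk] at h
        exact hr2 ((Nat.prime_dvd_prime_iff_eq hr Nat.prime_two).mp (hr.dvd_of_dvd_pow h))
      rw [count_plus d (by omega)] at hrΩ
      have h3 : r ∣ Fintype.card F ^ d - 1 := by
        rcases (hr.dvd_mul).mp hrΩ with h4 | h4
        · exact absurd (hr.dvd_of_dvd_pow h4) hrq
        · exact h4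
      have hi : orderOf ((Fintype.card F : ℕ) : ZMod r) ∣ d :=
        orderOf_dvd_of_pow_eq_one ((pow_eq_one_iff_dvd Fintype.card_pos).mpr h3)
      obtain ⟨x, hx, hxr, hfix⟩ := exists_fpf_plus hr2 hrq hd hi
      exact absurd_of_witness hQ h2 hall x hx hxr hfix
  · rintro ⟨rfl, hd'⟩ x hx ⟨z, hz⟩ _
    exact line_of_invol hQ h2 hcardι (fun h => (Nat.not_even_iff_odd.mpr hd') h.2) x hx hz

end Cfsg.Agent.S5985
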