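import Cfsg.Statements.S5986
import Cfsg.Agent.Lib.ClassMax.EluOne2
import Cfsg.Agent.Lib.ClassMax.EluSpPair

set_option autoImplicit false
open scoped MatrixGroups
open Cfsg

namespace Cfsg.Agent.S5986

open Module Matrix Polynomial Cfsg.Geo Cfsg.Agent.Lib.ClassMax Cfsg.Agent.Lib.ClassMax.OmegaCore Cfsg.Agent.Lib.ClassMax.EluOne Cfsg.Agent.Lib.ClassMax.EluOrder

set_option maxHeartbeats 2000000 in

/-- Elements of prime order of Ω⁻_n(q), q even, with no fixed nonsingular 1-space. Here `T = PΩ⁻_n(F)`, `n = 2d ≥ 8`, realised through `Ω⁻_n(q)`, the commutator subgroup of the isometry group of `Q = Σ_{i<d−1} xᵢyᵢ + z₁² + a z₁z₂ + b z₂²` with `z₁² + a z₁z₂ + b z₂²` anisotropic, over the field `F` with `q` elements; an element of `T` of prime order `r` is an element `x` of `Ω⁻_n(q)` with `x^r` scalar and `x` not scalar; `q` is even (so the centre is trivial). Let Ω be the set of 1-dimensional subspaces spanned by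 a vector `v` with `Q(v) ≠ 0`, and let `r` be a prime dividing their number. Then every element of `T` of order `r` fixes some nonsingular 1-space if and only if `r = 2`. -/
theorem result {F : Type*} [Field F] [Fintype F] {p : ℕ} [Fact p.Prime] [CharP F p] {q : ℕ} (hq : Fintype.card F = q)
    (hp : p = 2) (d : ℕ) (hd : 4 ≤ d) (a b : F) (hab : ∀ x y : F, x ^ 2 + a * x * y + b * y ^ 2 = 0 → x = 0 ∧ y = 0) (r : ℕ) [Fact r.Prime]
    (hrΩ : r ∣ Nat.card {W : Submodule F ((Fin (d - 1) ⊕ Fin (d - 1)) ⊕ Fin 2 → F) // Module.finrank F ↥W = 1 ∧ ∃ v ∈ W, Cfsg.quadFormMinus (d - 1) F a b v ≠ 0}) :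
    (∀ x : GL ((Fin (d - 1) ⊕ Fin (d - 1)) ⊕ Fin 2) F, x ∈ Cfsg.Geo.omegaGL (Cfsg.quadFormMinus (d - 1) F a b) →
      (∃ z : F, ((x ^ r : GL ((Fin (d - 1) ⊕ Fin (d - 1)) ⊕ Fin 2) F) : Matrix ((Fin (d - 1) ⊕ Fin (d - 1)) ⊕ Fin 2) ((Fin (d - 1) ⊕ Fin (d - 1)) ⊕ Fin 2) F) = z • (1 : Matrix ((Fin (d - 1) ⊕ Fin (d - 1)) ⊕ Fin 2) ((Fin (d - 1) ⊕ Fin (d - 1)) ⊕ Fin 2) F)) →
      (∀ z : F, (x : Matrix ((Fin (d - 1) ⊕ Fin (d - 1)) ⊕ Fin 2) ((Fin (d - 1) ⊕ Fin (d - 1)) ⊕ Fin 2) F) ≠ z • (1 : Matrix ((Fin (d - 1) ⊕ Fin (d - 1)) ⊕ Fin 2) ((Fin (d - 1) ⊕ Fin (d - 1)) ⊕ Fin 2) F)) →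
      ∃ W : Submodule F ((Fin (d - 1) ⊕ Fin (d - 1)) ⊕ Fin 2 → F), (Module.finrank F ↥W = 1 ∧ ∃ v ∈ W, Cfsg.quadFormMinus (d - 1) F a b v ≠ 0) ∧ W.map (Matrix.toLin' (x : Matrix ((Fin (d - 1) ⊕ Fin (d - 1)) ⊕ Fin 2) ((Fin (d - 1) ⊕ Fin (d - 1)) ⊕ Fin 2) F)) ≤ W) ↔ r = 2 := by
    classical
  subst hq
  subst hp
  have h2 : (2 : F) = 0 := CharTwo.two_eq_zero
  have hQ : IsNondegenerateQuadraticForm (Cfsg.quadFormMinus (d - 1) F a b) := isNondeg_of_NDQ (Cfsg.Agent.Lib.Classical.ndq_minus a b hab (d - 1))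
  haveI : Nonempty ((Fin (d - 1) ⊕ Fin (d - 1)) ⊕ Fin 2) := ⟨Sum.inr 0⟩
  have hcardι : Fintype.card ((Fin (d - 1) ⊕ Fin (d - 1)) ⊕ Fin 2) = 2 * d := by
    simp only [Fintype.card_sum, Fintype.card_fin]
    omega
  constructor
  · intro hall
    by_contra hr2
    have hr : r.Prime := Fact.out
    obtain ⟨kk, hkk0, hkk⟩ := FiniteField.card F 2
    have hrq : ¬ r ∣ Fintype.card F := by
      intro h
      rw [hkk] at h
      exact hr2 ((Nat.prime_dvd_prime_iff_eq hr Nat.prime_two).mp (hr.dvd_of_dvd_pow h))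
    rw [count_minus d (by omega) a b hab] at hrΩ
    have h3 : r ∣ Fintype.card F ^ d + 1 := by
      rcases (hr.dvd_mul).mp hrΩ with h4 | h4
      · exact absurd (hr.dvd_of_dvd_pow h4) hrq
      · exact h4
    obtain ⟨he, hi⟩ := Cfsg.Agent.Lib.ClassMax.EluSpPair.even_order_of_dvd hr2 h3
    have hi0 := order_pos (r := r) hrq
    obtain ⟨e, he⟩ := he
    have he2 : orderOf ((Fintype.card F : ℕ) : ZMod r) = 2 * e := by omega
    have hq1 : ((Fintype.card F : ℕ) : ZMod r) ^ (2 * e) = 1 := by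
      rw [← he2]
      exact pow_orderOf_eq_one _
    have hqe : ((Fintype.card F : ℕ) : ZMod r) ^ e = -1 := by
      have h4 : (((Fintype.card F : ℕ) : ZMod r) ^ e) ^ 2 = 1 := by
        rw [← pow_mul, mul_comm]
        exact hq1
      rcases sq_eq_one_iff.mp h4 with h5 | h5
      · exfalso
        have h6 := orderOf_dvd_of_pow_eq_one h5
        rw [he2] at h6
        have h7 := Nat.le_of_dvd (by omega) h6
        omega
      · exact h5
    have hqd : ((Fintype.card F : ℕ) : ZMod r) ^ d = -1 := by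
      have h4 : ((Fintype.card F ^ d + 1 : ℕ) : ZMod r) = 0 := (ZMod.natCast_eq_zero_iff _ _).mpr h3
      push_cast at h4
      exact eq_neg_of_add_eq_zero_left h4
    have hed : e ≤ d := by
      rw [he2] at hi
      have h4 := Nat.le_of_dvd (by omega) hi
      omega
    obtain ⟨h, rfl⟩ : ∃ h, d = h + e := ⟨d - e, by omega⟩
    have hqh : ((Fintype.card F : ℕ) : ZMod r) ^ h = 1 := by
      rw [pow_add, hqe] at hqd
      linear_combination -hqd
    have hih : orderOf ((Fintype.card F : ℕ) : ZMod r) ∣ h := orderOf_dvd_of_pow_eq_one hqh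
    obtain ⟨e', rfl⟩ : ∃ e', e = e' + 1 := ⟨e - 1, by omega⟩
    have hdvd : r ∣ Fintype.card F ^ (e' + 1) + 1 := by
      rw [← ZMod.natCast_eq_zero_iff]
      push_cast
      rw [hqe]
      ring
    obtain ⟨x, hx, hxr, hfix⟩ := exists_fpf_minus_aux hr2 hrq h e' (by omega) a b hab he2 hdvd hih
    exact absurd_of_witness hQ h2 hall x hx hxr hfix
  · rintro rfl x hx ⟨z, hz⟩ _
    exact line_of_invol hQ h2 hcardι (fun h => no_lag_minus d (by omega) a b hab h.1) x hx hz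

end Cfsg.Agent.S5986
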