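import Cfsg.Statements.S5994
import Cfsg.Agent.Lib.ClassMax.JPar6
import Cfsg.Agent.Lib.ClassMax.QuadOver

set_option autoImplicit false
open scoped MatrixGroups
open Cfsg

namespace Cfsg.Agent.S5994


/-- A necessary condition for every element of order p of PΩ⁻_n(q), q odd, to fix an elliptic `m`-space. Here `T = PΩ⁻_n(F)`, `n = 2d ≥ 8`, realised through `Ω⁻_n(q)`, the commutator subgroup of the isometry group of `Q = Σ_{i<d−1} xᵢyᵢ + z₁² + a z₁z₂ + b z₂²` with `z₁² + a z₁z₂ + b z₂²` anisotropic, over the field `F` with `q` elements; an element of `T` of prime order `r` is an element `x` of `Ω⁻_n(q)` with `x^r` scalar and `x` not scalar; `q` is odd; a nondegenerate `m`-space (even `m`) is a subspace on which the polar form of `Q` is nondegenerate; it is hyperbolic if it contains an `m/2`-dimensional subspace on which `Q` vanishes, elliptic otherwise. Let `m` be even with `2 ≤ m ≤ n − 2` and suppose `p` divides the number of elliptic `m`-spaces. If every element of `T` of order `p` fixes some elliptic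 `m`-space, then `n ≡ m (mod 4)` and every partition of `n` into parts of size at most `p` in which every even part has even multiplicity contains (as a sub-multiset) a partition of `m` in which every even part has even multiplicity. -/
theorem result {F : Type*} [Field F] [Fintype F] {p : ℕ} [Fact p.Prime] [CharP F p] {q : ℕ} (hq : Fintype.card F = q) (hqodd : Odd q)
    (d m : ℕ) (hd : 4 ≤ d) (hm : 2 ≤ m) (hme : Even m) (hmn : m + 2 ≤ 2 * d) (a b : F) (hab : ∀ x y : F, x ^ 2 + a * x * y + b * y ^ 2 = 0 → x = 0 ∧ y = 0)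
    (hpΩ : p ∣ Nat.card {W : Submodule F ((Fin (d - 1) ⊕ Fin (d - 1)) ⊕ Fin 2 → F) // Module.finrank F ↥W = m ∧ Cfsg.Geo.IsNondegenerateOn (QuadraticMap.polar (Cfsg.quadFormMinus (d - 1) F a b)) W ∧ ¬ Cfsg.Geo.IsPlusTypeOn (Cfsg.quadFormMinus (d - 1) F a b) W}) :
    (∀ x : GL ((Fin (d - 1) ⊕ Fin (d - 1)) ⊕ Fin 2) F, x ∈ Cfsg.Geo.omegaGL (Cfsg.quadFormMinus (d - 1) F a b) →
      (∃ z : F, ((x ^ p : GL ((Fin (d - 1) ⊕ Fin (d - 1)) ⊕ Fin 2) F) : Matrix ((Fin (d - 1) ⊕ Fin (d - 1)) ⊕ Fin 2) ((Fin (d - 1) ⊕ Fin (d - 1)) ⊕ Fin 2) F) = z • (1 : Matrix ((Fin (d - 1) ⊕ Fin (d - 1)) ⊕ Fin 2) ((Fin (d - 1) ⊕ Fin (d - 1)) ⊕ Fin 2) F)) →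
      (∀ z : F, (x : Matrix ((Fin (d - 1) ⊕ Fin (d - 1)) ⊕ Fin 2) ((Fin (d - 1) ⊕ Fin (d - 1)) ⊕ Fin 2) F) ≠ z • (1 : Matrix ((Fin (d - 1) ⊕ Fin (d - 1)) ⊕ Fin 2) ((Fin (d - 1) ⊕ Fin (d - 1)) ⊕ Fin 2) F)) →
      ∃ W : Submodule F ((Fin (d - 1) ⊕ Fin (d - 1)) ⊕ Fin 2 → F), (Module.finrank F ↥W = m ∧ Cfsg.Geo.IsNondegenerateOn (QuadraticMap.polar (Cfsg.quadFormMinus (d - 1) F a b)) W ∧ ¬ Cfsg.Geo.IsPlusTypeOn (Cfsg.quadFormMinus (d - 1) F a b) W) ∧ W.map (Matrix.toLin' (x : Matrix ((Fin (d - 1) ⊕ Fin (d - 1)) ⊕ Fin 2) ((Fin (d - 1) ⊕ Fin (d - 1)) ⊕ Fin 2) F)) ≤ W) →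
    ((2 * d) % 4 = m % 4 ∧ (∀ μ : Multiset ℕ, (∀ e ∈ μ, 0 < e ∧ e ≤ p) → (∀ e : ℕ, Even e → Even (μ.count e)) → μ.sum = 2 * d →
        ∃ ν : Multiset ℕ, ν ≤ μ ∧ ν.sum = m ∧ ∀ e : ℕ, Even e → Even (ν.count e))) := by
  classical
  intro h
  have h2 : (2 : F) ≠ 0 := Cfsg.Agent.Lib.ClassMax.QuadOver.two_ne_zero_of_odd (by rw [hq]; exact hqodd)
  have hp2 : p ≠ 2 := by
    rintro rfl
    apply h2
    have := CharP.cast_eq_zero F 2
    exact_mod_cast this
  have hpo : ¬ Even p := by
    intro hev
    have := (Fact.out : p.Prime).eq_two_or_odd'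
    rcases this with h' | h'
    · exact hp2 h'
    · exact (Nat.not_even_iff_odd.mpr h') hev
  have hp3 : 3 ≤ p := by
    have := (Fact.out : p.Prime).two_le
    omega
  obtain ⟨Q', hQ', hnd⟩ := Cfsg.Agent.Lib.Classical.ndq_minus (F := F) a b hab (d - 1)
  have key₁ : ∀ μ : Multiset ℕ, (∀ e ∈ μ, 0 < e ∧ e ≤ p) → (∀ e : ℕ, Even e → Even (μ.count e)) → (∃ e ∈ μ, ¬ Even e) → (∃ e ∈ μ, 2 ≤ e) →
      μ.sum = 2 * d → ∃ ν : Multiset ℕ, ν ≤ μ ∧ ν.sum = m ∧ (∀ e : ℕ, Even e → Even (ν.count e)) ∧ ((∀ e ∈ μ, e ≤ 2) → Multiset.count 1 ν ≠ 0) := by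
    intro μ hμ hev hodd hne hsum
    have hM := Cfsg.Agent.Lib.ClassMax.JPar.mdlm_all h2 hab μ (fun e he => (hμ e he).1) hev hodd (d - 1) (by omega)
    obtain ⟨A, hA1, hA2⟩ := Cfsg.Agent.Lib.ClassMax.JPar.exists_minus a b hM
    obtain ⟨x, hx1, hx2, hx3, hx4⟩ := Cfsg.Agent.Lib.ClassMax.JPar.core h2 Q' hnd (by simp only [Fintype.card_sum, Fintype.card_fin]; omega) A
      (by
        intro u v
        rw [hQ']
        exact hA1 u v) μ hμ hA2 hne
    rw [hQ'] at hx1 hx4
    obtain ⟨W, ⟨hW1, hW2, hW3⟩, hW4⟩ := h x hx1 ⟨1, by rw [hx2, one_smul]; rfl⟩ hx3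
    obtain ⟨ν, h1, h3, h4, h5⟩ := hx4 W hW2 hW4
    exact ⟨ν, h1, h3.trans hW1, h4, fun hle h0 => hW3 (h5 hle h0)⟩
  have key₂ : ∀ μ : Multiset ℕ, (∀ e ∈ μ, 0 < e ∧ e ≤ p) → (∀ e ∈ μ, Even e) → (∀ e : ℕ, Even e → Even (μ.count e)) →
      μ.sum = 2 * d → ∃ ν : Multiset ℕ, ν ≤ μ ∧ ν.sum = m ∧ (∀ e : ℕ, Even e → Even (ν.count e)) := by
    intro μ hμ hall hev hsum
    have hμ0 : μ ≠ 0 := by
      rintro rfl
      simp at hsum
      omega
    obtain ⟨e, he⟩ := Multiset.exists_mem_of_ne_zero hμ0
    have hee := hall e he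
    have he0 := (hμ e he).1
    have hep := (hμ e he).2
    have he2 : 2 ≤ e := by
      obtain ⟨l, hl⟩ := hee
      omega
    have he1p : e + 1 ≤ p := by
      have : e ≠ p := by
        rintro rfl
        exact hpo hee
      omega
    obtain ⟨μ₁, rfl⟩ := Multiset.exists_cons_of_mem he
    have h1 := hev e hee
    rw [Multiset.count_cons_self] at h1
    have h3 : e ∈ μ₁ := by
      rw [← Multiset.count_pos]
      rcases Nat.eq_zero_or_pos (Multiset.count e μ₁) with h0 | h0
      · rw [h0] at h1
        simp at h1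
      · exact h0
    obtain ⟨μ', rfl⟩ := Multiset.exists_cons_of_mem h3
    have hall' : ∀ x ∈ μ', Even x := fun x hx => hall x (by simp [hx])
    have hev' : ∀ x : ℕ, Even x → Even (μ'.count x) := by
      intro x hx
      have h4 := hev x hx
      by_cases hxe : x = e
      · subst hxe
        rw [Multiset.count_cons_self, Multiset.count_cons_self] at h4
        have : Multiset.count x μ' + 1 + 1 = Multiset.count x μ' + 2 := rfl
        rw [this] at h4
        exact (Nat.even_add.mp h4).mpr (by simp)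
      · rw [Multiset.count_cons_of_ne hxe, Multiset.count_cons_of_ne hxe] at h4
        exact h4
    have hpar1 : ¬ Even (e + 1) := by
      rw [Nat.even_add_one]
      exact not_not.mpr hee
    have hpar2 : ¬ Even (e - 1) := by
      obtain ⟨l, hl⟩ := hee
      rw [Nat.even_iff]
      omega
    simp only [Multiset.sum_cons] at hsum
    obtain ⟨ν'', h4, h5, h6, -⟩ := key₁ ((e + 1) ::ₘ (e - 1) ::ₘ μ')
      (by
        intro x hx
        simp only [Multiset.mem_cons] at hx
        rcases hx with rfl | rfl | hx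
        · omega
        · omega
        · exact hμ x (by simp [hx]))
      (by
        intro x hx
        have hn1 : x ≠ e + 1 := by
          rintro rfl
          exact hpar1 hx
        have hn2 : x ≠ e - 1 := by
          rintro rfl
          exact hpar2 hx
        rw [Multiset.count_cons_of_ne hn1, Multiset.count_cons_of_ne hn2]
        exact hev' x hx)
      ⟨e + 1, by simp, hpar1⟩ ⟨e + 1, by simp, by omega⟩
      (by
        simp only [Multiset.sum_cons]
        omega)
    have hsumev : ∀ ν₁ : Multiset ℕ, ν₁ ≤ μ' → Even ν₁.sum := by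
      intro ν₁ hν₁
      apply even_iff_two_dvd.mpr
      exact Multiset.dvd_sum (fun x hx => (hall' x (Multiset.mem_of_le hν₁ hx)).two_dvd)
    have hne12 : e - 1 ≠ e + 1 := by omega
    have hme' : Even ν''.sum := by rw [h5]; exact hme
    by_cases c₁ : e + 1 ∈ ν''
    · obtain ⟨ν₁, rfl⟩ := Multiset.exists_cons_of_mem c₁
      have h7 := (Multiset.cons_le_cons_iff _).mp h4
      by_cases c₂ : e - 1 ∈ ν₁
      · obtain ⟨ν₀, rfl⟩ := Multiset.exists_cons_of_mem c₂
        have h8 := (Multiset.cons_le_cons_iff _).mp h7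
        simp only [Multiset.sum_cons] at h5
        refine ⟨e ::ₘ e ::ₘ ν₀, Multiset.cons_le_cons _ (Multiset.cons_le_cons _ h8), ?_, ?_⟩
        · simp only [Multiset.sum_cons]
          omega
        · intro x hx
          have hn1 : x ≠ e + 1 := by
            rintro rfl
            exact hpar1 hx
          have hn2 : x ≠ e - 1 := by
            rintro rfl
            exact hpar2 hx
          have h9 := h6 x hx
          rw [Multiset.count_cons_of_ne hn1, Multiset.count_cons_of_ne hn2] at h9
          by_cases hxe : x = e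
          · subst hxe
            rw [Multiset.count_cons_self, Multiset.count_cons_self]
            have : Multiset.count x ν₀ + 1 + 1 = Multiset.count x ν₀ + 2 := rfl
            rw [this]
            exact h9.add even_two
          · rw [Multiset.count_cons_of_ne hxe, Multiset.count_cons_of_ne hxe]
            exact h9
      · exfalso
        have h8 := (Multiset.le_cons_of_notMem c₂).mp h7
        have h9 := hsumev _ h8
        rw [Multiset.sum_cons, Nat.even_add] at hme'
        exact hpar1 (hme'.mpr h9)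
    · have h7 := (Multiset.le_cons_of_notMem c₁).mp h4
      by_cases c₂ : e - 1 ∈ ν''
      · exfalso
        obtain ⟨ν₁, rfl⟩ := Multiset.exists_cons_of_mem c₂
        have h8 := (Multiset.cons_le_cons_iff _).mp h7
        have h9 := hsumev _ h8
        rw [Multiset.sum_cons, Nat.even_add] at hme'
        exact hpar2 (hme'.mpr h9)
      · have h8 := (Multiset.le_cons_of_notMem c₂).mp h7
        refine ⟨ν'', le_trans h8 (le_trans (Multiset.le_cons_self _ _) (Multiset.le_cons_self _ _)), h5, h6⟩
  refine ⟨?_, ?_⟩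
  · by_cases hde : Even d
    · obtain ⟨ν, h1, h3, h4⟩ := key₂ (Multiset.replicate d 2)
        (by
          intro x hx
          rw [Multiset.eq_of_mem_replicate hx]
          omega)
        (by
          intro x hx
          rw [Multiset.eq_of_mem_replicate hx]
          exact even_two)
        (by
          intro x hx
          rw [Multiset.count_replicate]
          by_cases h2x : 2 = x
          · rw [if_pos h2x]
            exact hde
          · rw [if_neg h2x]
            simp)
        (by
          rw [Multiset.sum_replicate, smul_eq_mul]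
          omega)
      obtain ⟨k, hk, rfl⟩ := Multiset.le_replicate_iff.mp h1
      have h5 := h4 2 even_two
      rw [Multiset.count_replicate_self] at h5
      rw [Multiset.sum_replicate, smul_eq_mul] at h3
      obtain ⟨l, rfl⟩ := h5
      obtain ⟨l', rfl⟩ := hde
      omega
    · have hod : Odd d := Nat.not_even_iff_odd.mp hde
      obtain ⟨l, hl⟩ := hod
      obtain ⟨ν, h1, h3, h4, h5⟩ := key₁ (1 ::ₘ 1 ::ₘ Multiset.replicate (2 * l) 2)
        (by
          intro x hx
          simp only [Multiset.mem_cons] at hx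
          rcases hx with rfl | rfl | hx
          · omega
          · omega
          · rw [Multiset.eq_of_mem_replicate hx]
            omega)
        (by
          intro x hx
          have hn : x ≠ 1 := by
            rintro rfl
            simp at hx
          rw [Multiset.count_cons_of_ne hn, Multiset.count_cons_of_ne hn, Multiset.count_replicate]
          by_cases h2x : 2 = x
          · rw [if_pos h2x]
            exact even_two_mul l
          · rw [if_neg h2x]
            simp)
        ⟨1, by simp, by simp⟩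
        (by
          by_cases hl0 : l = 0
          · omega
          · exact ⟨2, Multiset.mem_cons_of_mem (Multiset.mem_cons_of_mem (Multiset.mem_replicate.mpr ⟨by omega, rfl⟩)), le_rfl⟩)
        (by
          simp only [Multiset.sum_cons, Multiset.sum_replicate, smul_eq_mul]
          omega)
      have h6 : Multiset.count 1 ν ≠ 0 := h5 (by
        intro x hx
        simp only [Multiset.mem_cons] at hx
        rcases hx with rfl | rfl | hx
        · omega
        · omega
        · rw [Multiset.eq_of_mem_replicate hx])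
      have h7 : 1 ∈ ν := Multiset.count_pos.mp (Nat.pos_of_ne_zero h6)
      obtain ⟨ν₁, rfl⟩ := Multiset.exists_cons_of_mem h7
      have h8 := (Multiset.cons_le_cons_iff _).mp h1
      by_cases c : 1 ∈ ν₁
      · obtain ⟨ν₀, rfl⟩ := Multiset.exists_cons_of_mem c
        have h9 := (Multiset.cons_le_cons_iff _).mp h8
        obtain ⟨k, hk, rfl⟩ := Multiset.le_replicate_iff.mp h9
        have h10 := h4 2 even_two
        rw [Multiset.count_cons_of_ne (by omega), Multiset.count_cons_of_ne (by omega), Multiset.count_replicate_self] at h10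
        simp only [Multiset.sum_cons, Multiset.sum_replicate, smul_eq_mul] at h3
        obtain ⟨l', rfl⟩ := h10
        omega
      · exfalso
        have h9 := (Multiset.le_cons_of_notMem c).mp h8
        obtain ⟨k, hk, rfl⟩ := Multiset.le_replicate_iff.mp h9
        simp only [Multiset.sum_cons, Multiset.sum_replicate, smul_eq_mul] at h3
        obtain ⟨l', rfl⟩ := hme
        omega
  · intro μ hμ hev hsum
    by_cases hodd : ∃ e ∈ μ, ¬ Even e
    · by_cases hne : ∃ e ∈ μ, 2 ≤ e
      · obtain ⟨ν, h1, h3, h4, -⟩ := key₁ μ hμ hev hodd hne hsum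
        exact ⟨ν, h1, h3, h4⟩
      · exact Cfsg.Agent.Lib.ClassMax.JPar.all_one μ (fun e he => (hμ e he).1) hne (by omega)
    · push Not at hodd
      exact key₂ μ hμ hodd hev hsum

end Cfsg.Agent.S5994
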