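import Cfsg.Statements.S5995
import Cfsg.Agent.Lib.ClassMax.JPar5
import Cfsg.Agent.Lib.ClassMax.QuadOver

set_option autoImplicit false
open scoped MatrixGroups
open Cfsg

namespace Cfsg.Agent.S5995


/-- A necessary condition for every element of order p of Ω_n(q), nq odd, to fix a hyperbolic `m`-space. Here `T = Ω_n(F)`, `n = 2d+1 ≥ 7`, `q` odd, realised as the commutator subgroup of the isometry group of `Q = x₀² + Σ xᵢyᵢ` over the field `F` with `q` elements (trivial centre, so its elements of prime order `r` are used directly); a nondegenerate `m`-space (even `m`) is a subspace on which the polar form of `Q` is nondegenerate; it is hyperbolic if it contains an `m/2`-dimensional subspace on which `Q` vanishes, elliptic otherwise. Let `m` be even with `2 ≤ m ≤ n − 1` and suppose `p` divides the number of hyperbolic `m`-spaces. If every element of `T` of order `p` fixes some hyperbolic `m`-space, then `m ≡ 0 (mod 4)` and every partition of `n` into parts of size at most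 `p` in which every even part has even multiplicity contains (as a sub-multiset) a partition of `m` in which every even part has even multiplicity. -/
theorem result {F : Type*} [Field F] [Fintype F] {p : ℕ} [Fact p.Prime] [CharP F p] {q : ℕ} (hq : Fintype.card F = q) (hqodd : Odd q)
    (d m : ℕ) (hd : 3 ≤ d) (hm : 2 ≤ m) (hme : Even m) (hmn : m ≤ 2 * d)
    (hpΩ : p ∣ Nat.card {W : Submodule F (Unit ⊕ (Fin d ⊕ Fin d) → F) // Module.finrank F ↥W = m ∧ Cfsg.Geo.IsNondegenerateOn (QuadraticMap.polar (Cfsg.quadFormOdd d F)) W ∧ Cfsg.Geo.IsPlusTypeOn (Cfsg.quadFormOdd d F) W}) :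
    (∀ x : GL (Unit ⊕ (Fin d ⊕ Fin d)) F, x ∈ Cfsg.Geo.omegaGL (Cfsg.quadFormOdd d F) → orderOf x = p →
      ∃ W : Submodule F (Unit ⊕ (Fin d ⊕ Fin d) → F), (Module.finrank F ↥W = m ∧ Cfsg.Geo.IsNondegenerateOn (QuadraticMap.polar (Cfsg.quadFormOdd d F)) W ∧ Cfsg.Geo.IsPlusTypeOn (Cfsg.quadFormOdd d F) W) ∧ W.map (Matrix.toLin' (x : Matrix (Unit ⊕ (Fin d ⊕ Fin d)) (Unit ⊕ (Fin d ⊕ Fin d)) F)) ≤ W) →
    (m % 4 = 0 ∧ (∀ μ : Multiset ℕ, (∀ e ∈ μ, 0 < e ∧ e ≤ p) → (∀ e : ℕ, Even e → Even (μ.count e)) → μ.sum = 2 * d + 1 →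
        ∃ ν : Multiset ℕ, ν ≤ μ ∧ ν.sum = m ∧ ∀ e : ℕ, Even e → Even (ν.count e))) := by
  classical
  intro h
  have h2 : (2 : F) ≠ 0 := Cfsg.Agent.Lib.ClassMax.QuadOver.two_ne_zero_of_odd (by rw [hq]; exact hqodd)
  have hp2 : p ≠ 2 := by
    rintro rfl
    apply h2
    have := CharP.cast_eq_zero F 2
    exact_mod_cast this
  have hp3 : 3 ≤ p := by
    have := (Fact.out : p.Prime).two_le
    omega
  have key : ∀ μ : Multiset ℕ, (∀ e ∈ μ, 0 < e ∧ e ≤ p) → (∀ e : ℕ, Even e → Even (μ.count e)) → μ.sum = 2 * d + 1 →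
      ∃ ν : Multiset ℕ, ν ≤ μ ∧ ν.sum = m ∧ ∀ e : ℕ, Even e → Even (ν.count e) := by
    intro μ hμ hev hsum
    by_cases hne : ∃ e ∈ μ, 2 ≤ e
    · obtain ⟨Q', hQ', hnd⟩ := Cfsg.Agent.Lib.Classical.ndq_odd (F := F) h2 d
      obtain ⟨A, hA1, hA2⟩ := Cfsg.Agent.Lib.ClassMax.JPar.mdlo_all h2 μ (fun e he => (hμ e he).1) hev d hsum
      have hpol : ∀ u v, QuadraticMap.polar (⇑Q') u v = Cfsg.Agent.Lib.ClassMax.JPar.Tg (Cfsg.Agent.Lib.ClassMax.JPar.G2 F) (Fin d) u v := by
        intro u v
        rw [hQ']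
        exact Cfsg.Agent.Lib.ClassMax.JPar.polar_odd d u v
      obtain ⟨x, hx1, hx2, hx3, hx4⟩ := Cfsg.Agent.Lib.ClassMax.JPar.core h2 Q' hnd (by simp; omega) A
        (by
          intro u v
          rw [hpol, hpol]
          exact hA1 u v) μ hμ hA2 hne
      rw [hQ'] at hx1 hx4
      have hx5 : x ≠ 1 := by
        rintro rfl
        exact hx3 1 (by simp)
      haveI : Fact p.Prime := inferInstance
      have hord : orderOf x = p := orderOf_eq_prime hx2 hx5
      obtain ⟨W, ⟨hW1, hW2, hW3⟩, hW4⟩ := h x hx1 hord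
      obtain ⟨ν, hν1, hν2, hν3, -⟩ := hx4 W hW2 hW4
      exact ⟨ν, hν1, hν2.trans hW1, hν3⟩
    · exact Cfsg.Agent.Lib.ClassMax.JPar.all_one μ (fun e he => (hμ e he).1) hne (by omega)
  refine ⟨?_, key⟩
  have hm4 : ∀ e t : ℕ, ¬ Even e → 0 < e → e ≤ p → Even t → e + 2 * t = 2 * d + 1 → m % 4 = 0 := by
    intro e t he he0 hep ht hs
    obtain ⟨ν, h1, h3, h4⟩ := key (e ::ₘ Multiset.replicate t 2)
      (by
        intro x hx
        rcases Multiset.mem_cons.mp hx with rfl | hx
        · exact ⟨he0, hep⟩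
        · rw [Multiset.eq_of_mem_replicate hx]
          omega)
      (by
        intro x hx
        have hne : x ≠ e := by
          rintro rfl
          exact he hx
        rw [Multiset.count_cons_of_ne hne, Multiset.count_replicate]
        by_cases h2x : 2 = x
        · rw [if_pos h2x]
          exact ht
        · rw [if_neg h2x]
          simp)
      (by
        rw [Multiset.sum_cons, Multiset.sum_replicate, smul_eq_mul]
        omega)
    have := Cfsg.Agent.Lib.ClassMax.JPar.mod_four he h1 h4 (by rw [h3]; exact hme)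
    rwa [h3] at this
  by_cases hde : Even d
  · exact hm4 1 d (by decide) (by omega) (by omega) hde (by omega)
  · have hodd : Odd d := Nat.not_even_iff_odd.mp hde
    obtain ⟨l, rfl⟩ := hodd
    exact hm4 3 (2 * l) (by decide) (by omega) hp3 (even_two_mul l) (by omega)

end Cfsg.Agent.S5995
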