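import Cfsg.Statements.S5996
import Cfsg.Agent.Lib.ClassMax.JPar5
import Cfsg.Agent.Lib.ClassMax.QuadOver

set_option autoImplicit false
open scoped MatrixGroups
open Cfsg

namespace Cfsg.Agent.S5996


/-- A necessary condition for every element of order p of PΩ⁺_n(q), q odd, to fix a hyperbolic `m`-space. Here `T = PΩ⁺_n(F)`, `n = 2d ≥ 8`, realised through `Ω⁺_n(q)`, the commutator subgroup of the isometry group of `Q = Σ xᵢyᵢ` over the field `F` with `q` elements; an element of `T` of prime order `r` is an element `x` of `Ω⁺_n(q)` with `x^r` scalar and `x` not scalar; `q` is odd; a nondegenerate `m`-space (even `m`) is a subspace on which the polar form of `Q` is nondegenerate; it is hyperbolic if it contains an `m/2`-dimensional subspace on which `Q` vanishes, elliptic otherwise. Let `m` be even with `2 ≤ m < n/2` and suppose `p` divides the number of hyperbolic `m`-spaces. If every element of `T` of order `p` fixes some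 hyperbolic `m`-space, then every partition of `n` into parts of size at most `p` in which every even part has even multiplicity contains (as a sub-multiset) a partition of `m` in which every even part has even multiplicity. -/
theorem result {F : Type*} [Field F] [Fintype F] {p : ℕ} [Fact p.Prime] [CharP F p] {q : ℕ} (hq : Fintype.card F = q) (hqodd : Odd q)
    (d m : ℕ) (hd : 4 ≤ d) (hm : 2 ≤ m) (hme : Even m) (hmd : m < d)
    (hpΩ : p ∣ Nat.card {W : Submodule F (Fin d ⊕ Fin d → F) // Module.finrank F ↥W = m ∧ Cfsg.Geo.IsNondegenerateOn (QuadraticMap.polar (Cfsg.quadFormPlus d F)) W ∧ Cfsg.Geo.IsPlusTypeOn (Cfsg.quadFormPlus d F) W}) :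
    (∀ x : GL (Fin d ⊕ Fin d) F, x ∈ Cfsg.Geo.omegaGL (Cfsg.quadFormPlus d F) →
      (∃ z : F, ((x ^ p : GL (Fin d ⊕ Fin d) F) : Matrix (Fin d ⊕ Fin d) (Fin d ⊕ Fin d) F) = z • (1 : Matrix (Fin d ⊕ Fin d) (Fin d ⊕ Fin d) F)) →
      (∀ z : F, (x : Matrix (Fin d ⊕ Fin d) (Fin d ⊕ Fin d) F) ≠ z • (1 : Matrix (Fin d ⊕ Fin d) (Fin d ⊕ Fin d) F)) →
      ∃ W : Submodule F (Fin d ⊕ Fin d → F), (Module.finrank F ↥W = m ∧ Cfsg.Geo.IsNondegenerateOn (QuadraticMap.polar (Cfsg.quadFormPlus d F)) W ∧ Cfsg.Geo.IsPlusTypeOn (Cfsg.quadFormPlus d F) W) ∧ W.map (Matrix.toLin' (x : Matrix (Fin d ⊕ Fin d) (Fin d ⊕ Fin d) F)) ≤ W) →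
    (∀ μ : Multiset ℕ, (∀ e ∈ μ, 0 < e ∧ e ≤ p) → (∀ e : ℕ, Even e → Even (μ.count e)) → μ.sum = 2 * d →
        ∃ ν : Multiset ℕ, ν ≤ μ ∧ ν.sum = m ∧ ∀ e : ℕ, Even e → Even (ν.count e)) := by
  classical
  intro h μ hμ hev hsum
  have h2 : (2 : F) ≠ 0 := Cfsg.Agent.Lib.ClassMax.QuadOver.two_ne_zero_of_odd (by rw [hq]; exact hqodd)
  have hmsum : m ≤ μ.sum := by omega
  by_cases hne : ∃ e ∈ μ, 2 ≤ e
  · obtain ⟨Q', hQ', hnd⟩ := Cfsg.Agent.Lib.Classical.ndq_plus (F := F) d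
    obtain ⟨A, hA1, hA2⟩ := Cfsg.Agent.Lib.ClassMax.JPar.mdl_all h2 _ μ rfl (fun e he => (hμ e he).1) hev d hsum
    have hpol : ∀ u v, QuadraticMap.polar (⇑Q') u v = Cfsg.Agent.Lib.ClassMax.JPar.Bh (Fin d) u v := by
      intro u v
      rw [hQ']
      exact Cfsg.Agent.Lib.ClassMax.JPar.polar_plus d u v
    obtain ⟨x, hx1, hx2, hx3, hx4⟩ := Cfsg.Agent.Lib.ClassMax.JPar.core h2 Q' hnd (by simp; omega) A
      (by
        intro u v
        rw [hpol, hpol]
        exact hA1 u v) μ hμ hA2 hne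
    rw [hQ'] at hx1 hx4
    obtain ⟨W, ⟨hW1, hW2, hW3⟩, hW4⟩ := h x hx1 ⟨1, by rw [hx2, one_smul]; rfl⟩ hx3
    obtain ⟨ν, hν1, hν2, hν3, -⟩ := hx4 W hW2 hW4
    exact ⟨ν, hν1, hν2.trans hW1, hν3⟩
  · exact Cfsg.Agent.Lib.ClassMax.JPar.all_one μ (fun e he => (hμ e he).1) hne hmsum

end Cfsg.Agent.S5996
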