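import Cfsg.Statements.S5997
import Cfsg.Agent.Lib.ClassMax.ConjTwo

set_option autoImplicit false
open scoped MatrixGroups
open Cfsg

namespace Cfsg.Agent.S5997

/-- Conj-stable inclusion in a finite subgroup gives normalizer membership. -/
theorem mem_norm_of_conj {G : Type*} [Group G] (R : Subgroup G) [Finite R] (y : G) (h : ∀ t ∈ R, y * t * y⁻¹ ∈ R) :
    y ∈ Subgroup.normalizer (R : Set G) := by
  rw [Subgroup.mem_normalizer_iff]
  intro t
  refine ⟨h t, fun ht => ?_⟩
  let f : R → R := fun s => ⟨y * s * y⁻¹, h s s.2⟩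
  have hf : Function.Injective f := by
    intro a b hab
    have := congrArg Subtype.val hab
    simp only [f] at this
    exact Subtype.ext (by simpa using this)
  obtain ⟨s, hs⟩ := (Finite.injective_iff_surjective.mp hf) ⟨_, ht⟩
  have := congrArg Subtype.val hs
  simp only [f] at this
  have e : (s : G) = t := by simpa using this
  rw [← e]; exact s.2

/-- The matrix data of a quaternion subgroup of `GL₂`. -/
theorem q8_data {F : Type*} [Field F] (h2 : (2 : F) ≠ 0)
    (R : Subgroup (GL (Fin 2) F)) (φ : ↥R ≃* QuaternionGroup 2) :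
    ∃ A B : GL (Fin 2) F, A ∈ R ∧ B ∈ R ∧
      (A : Matrix (Fin 2) (Fin 2) F) * A = -1 ∧ (B : Matrix (Fin 2) (Fin 2) F) * B = -1 ∧
      (B : Matrix (Fin 2) (Fin 2) F) * A = -((A : Matrix (Fin 2) (Fin 2) F) * B) ∧
      ∀ h ∈ R, (h : Matrix (Fin 2) (Fin 2) F) = 1 ∨ (h : Matrix (Fin 2) (Fin 2) F) = -1 ∨
        (h : Matrix (Fin 2) (Fin 2) F) = A ∨ (h : Matrix (Fin 2) (Fin 2) F) = -A ∨
        (h : Matrix (Fin 2) (Fin 2) F) = B ∨ (h : Matrix (Fin 2) (Fin 2) F) = -B ∨
        (h : Matrix (Fin 2) (Fin 2) F) = A * B ∨ (h : Matrix (Fin 2) (Fin 2) F) = -(A * B) := by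
  classical
  let ψ : QuaternionGroup 2 → Matrix (Fin 2) (Fin 2) F := fun t => ((φ.symm t : R) : GL (Fin 2) F)
  have hψ : ∀ s t, ψ (s * t) = ψ s * ψ t := by
    intro s t
    simp only [ψ, map_mul, Subgroup.coe_mul, Units.val_mul]
  have hψ1 : ψ 1 = 1 := by simp [ψ]
  have hψinj : Function.Injective ψ := by
    intro s t hst
    have : (φ.symm s : R) = φ.symm t := Subtype.ext (Units.ext hst)
    exact φ.symm.injective this
  let a1 : QuaternionGroup 2 := QuaternionGroup.a 1
  let a2 : QuaternionGroup 2 := QuaternionGroup.a 2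
  let b0 : QuaternionGroup 2 := QuaternionGroup.xa 0
  set Z := ψ a2 with hZ
  set A := ψ a1 with hA
  set B := ψ b0 with hB
  have e1 : a1 * a1 = a2 := by decide
  have e2 : b0 * b0 = a2 := by decide
  have e3 : a2 * a2 = 1 := by decide
  have e4 : a1 * b0 = a2 * (b0 * a1) := by decide
  have hZZ : Z * Z = 1 := by rw [hZ, ← hψ, e3, hψ1]
  have hAA : A * A = Z := by rw [hA, ← hψ, e1]
  have hBB : B * B = Z := by rw [hB, ← hψ, e2]
  have hAB : A * B = Z * (B * A) := by rw [hA, hB, hZ, ← hψ, e4, hψ, hψ]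
  have hZ1 : Z ≠ 1 := by
    intro h
    rw [hZ, ← hψ1] at h
    exact absurd (hψinj h) (by decide)
  have hdA : A.det ≠ 0 := by
    have : IsUnit A := ((φ.symm a1 : R) : GL (Fin 2) F).isUnit
    exact ((Matrix.isUnit_iff_isUnit_det _).mp this).ne_zero
  have hdB : B.det ≠ 0 := by
    have : IsUnit B := ((φ.symm b0 : R) : GL (Fin 2) F).isUnit
    exact ((Matrix.isUnit_iff_isUnit_det _).mp this).ne_zero
  have hdZ : Z.det = 1 := by
    have := congrArg Matrix.det hAB
    simp only [Matrix.det_mul] at this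
    have h3 : A.det * B.det * (Z.det - 1) = 0 := by linear_combination -this
    have := mul_ne_zero hdA hdB
    exact sub_eq_zero.mp ((mul_eq_zero.mp h3).resolve_left this)
  have hZneg : Z = -1 := by
    have h1 := Cfsg.Agent.Lib.ClassMax.ConjTwo.ch Z
    rw [hZZ, hdZ, one_smul] at h1
    have h3 : Z.trace • Z = (2 : F) • (1 : Matrix (Fin 2) (Fin 2) F) := by
      have : Z.trace • Z = 1 + 1 := by rw [eq_sub_iff_add_eq] at h1; exact h1.symm
      rw [this, two_smul]
    have ht : Z.trace ≠ 0 := by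
      intro h0
      rw [h0, zero_smul] at h3
      have := congrFun (congrFun h3 0) 0
      simp at this
      exact h2 this.symm
    have h4 : Z = (2 / Z.trace) • (1 : Matrix (Fin 2) (Fin 2) F) := by
      rw [div_eq_mul_inv, mul_comm, mul_smul, ← h3, smul_smul, inv_mul_cancel₀ ht, one_smul]
    set l := 2 / Z.trace with hl
    rw [h4] at hZZ hZ1
    have h5 : l * l = 1 := by
      have := congrFun (congrFun hZZ 0) 0
      simpa [Matrix.mul_apply, Fin.sum_univ_two, Matrix.one_apply] using this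
    have h6 : l = 1 ∨ l = -1 := by
      have : (l - 1) * (l + 1) = 0 := by linear_combination h5
      rcases mul_eq_zero.mp this with h | h
      · left; exact sub_eq_zero.mp h
      · right; exact eq_neg_of_add_eq_zero_left h
    rcases h6 with h | h
    · rw [h, one_smul] at hZ1; exact absurd rfl hZ1
    · rw [h4, h]; simp
  refine ⟨((φ.symm a1 : R) : GL (Fin 2) F), ((φ.symm b0 : R) : GL (Fin 2) F), (φ.symm a1).2, (φ.symm b0).2,
    ?_, ?_, ?_, ?_⟩
  · exact hAA.trans hZneg
  · exact hBB.trans hZneg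
  · show B * A = -(A * B)
    rw [hAB, hZneg]; simp
  · intro h hh
    have hall : ∀ t : QuaternionGroup 2, t = 1 ∨ t = a2 ∨ t = a1 ∨ t = a2 * a1 ∨ t = b0 ∨ t = a2 * b0 ∨
        t = a1 * b0 ∨ t = a2 * (a1 * b0) := by decide
    have hval : (h : Matrix (Fin 2) (Fin 2) F) = ψ (φ ⟨h, hh⟩) := by
      simp [ψ]
    rw [hval]
    show ψ (φ ⟨h, hh⟩) = 1 ∨ ψ (φ ⟨h, hh⟩) = -1 ∨ ψ (φ ⟨h, hh⟩) = A ∨ ψ (φ ⟨h, hh⟩) = -A ∨
        ψ (φ ⟨h, hh⟩) = B ∨ ψ (φ ⟨h, hh⟩) = -B ∨ ψ (φ ⟨h, hh⟩) = A * B ∨ ψ (φ ⟨h, hh⟩) = -(A * B)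
    rcases hall (φ ⟨h, hh⟩) with e | e | e | e | e | e | e | e <;> rw [e]
    · left; exact hψ1
    · right; left; exact hZneg
    · right; right; left; rfl
    · right; right; right; left; rw [hψ]; show Z * A = -A; rw [hZneg]; simp
    · right; right; right; right; left; rfl
    · right; right; right; right; right; left; rw [hψ]; show Z * B = -B; rw [hZneg]; simp
    · right; right; right; right; right; right; left; rw [hψ]
    · right; right; right; right; right; right; right; rw [hψ, hψ]; show Z * (A * B) = -(A * B); rw [hZneg]; simp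


/-- Elements of prime order of PSL_2(p) and the normalizer of a quaternion subgroup. Here `T = PSL_2(F)` for the field `F` with `p` elements, `p ≥ 5` prime; `R` is a subgroup of GL_2(F) isomorphic to the quaternion group of order 8 (an absolutely irreducible 2-group of symplectic type), and `H` is the subgroup of matrices of determinant 1 normalizing `R` — a subgroup of type 2^{1+2}.O₂⁻(2), isomorphic modulo scalars to A₄ or S₄ (maximality is not assumed). Ω is the set of cosets of `H` in `T`, so an element of `T` of prime order `r` (a matrix `x` of determinant 1 with `x^r` scalar, `x` not scalar) fixes a point of Ω exactly when some conjugate of `x` by a matrix of determinant 1 normalizes `R`. Let `r` be a prime dividing the index of `H`. Then every element of `T` of order `r` fixes a point of Ω if and only if `r = 2` or `r = 3`. -/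
theorem result {F : Type*} [Field F] [Fintype F] {p : ℕ} [Fact p.Prime] [CharP F p] (hF : Fintype.card F = p) (hp : 5 ≤ p)
    (R : Subgroup (GL (Fin 2) F)) (hR : Nonempty (↥R ≃* QuaternionGroup 2))
    (r : ℕ) [Fact r.Prime]
    (hΩ : r ∣ (Cfsg.Geo.subgroupNormalizer R).relIndex (Cfsg.Geo.specialLinear (Fin 2) F)) :
    (∀ x ∈ Cfsg.Geo.specialLinear (Fin 2) F, (∃ z : F, ((x ^ r : GL (Fin 2) F) : Matrix (Fin 2) (Fin 2) F) = z • (1 : Matrix (Fin 2) (Fin 2) F)) →
      (∀ z : F, (x : Matrix (Fin 2) (Fin 2) F) ≠ z • (1 : Matrix (Fin 2) (Fin 2) F)) →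
      ∃ g ∈ Cfsg.Geo.specialLinear (Fin 2) F, g⁻¹ * x * g ∈ Cfsg.Geo.subgroupNormalizer R) ↔ (r = 2 ∨ r = 3) := by
    classical
  obtain ⟨φ⟩ := hR
  haveI hpf : Fact p.Prime := inferInstance
  have hodd : Fintype.card F % 2 = 1 := by
    rw [hF]
    exact (Nat.Prime.odd_of_ne_two hpf.out (by omega)) |> Nat.odd_iff.mp
  have hcast : ∀ n : ℕ, n < p → 0 < n → (n : F) ≠ 0 := by
    intro n h1 h2 h3
    rw [CharP.cast_eq_zero_iff F p] at h3
    exact absurd (Nat.le_of_dvd h2 h3) (by omega)
  have h2 : (2 : F) ≠ 0 := by exact_mod_cast hcast 2 (by omega) (by omega)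
  have h3 : (3 : F) ≠ 0 := by exact_mod_cast hcast 3 (by omega) (by omega)
  obtain ⟨A, B, hAR, hBR, hAA, hBB, hBA, hall⟩ := q8_data h2 R φ
  set mA : Matrix (Fin 2) (Fin 2) F := (A : Matrix (Fin 2) (Fin 2) F) with hmA
  set mB : Matrix (Fin 2) (Fin 2) F := (B : Matrix (Fin 2) (Fin 2) F) with hmB
  haveI : Finite R := Finite.of_equiv _ φ.symm.toEquiv
  have hBAx : ∀ X : Matrix (Fin 2) (Fin 2) F, mB * (mA * X) = -(mA * (mB * X)) := by
    intro X; rw [← mul_assoc, hBA, neg_mul, mul_assoc]
  have hAAx : ∀ X : Matrix (Fin 2) (Fin 2) F, mA * (mA * X) = -X := by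
    intro X; rw [← mul_assoc, hAA, neg_mul, one_mul]
  have hBBx : ∀ X : Matrix (Fin 2) (Fin 2) F, mB * (mB * X) = -X := by
    intro X; rw [← mul_assoc, hBB, neg_mul, one_mul]
  have hABne : mA * mB ≠ 0 := by
    intro h
    have h1 : mA * mB * (↑(B⁻¹ : GL (Fin 2) F) : Matrix (Fin 2) (Fin 2) F) * (↑(A⁻¹ : GL (Fin 2) F) : Matrix (Fin 2) (Fin 2) F) = 1 := by
      rw [mul_assoc mA, ← Units.val_mul, mul_inv_cancel, Units.val_one, mul_one, ← Units.val_mul, mul_inv_cancel, Units.val_one]
    rw [h] at h1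
    simp at h1
  have hneq : ∀ a b : F, a • mA ≠ b • mB ∨ a = 0 := by
    intro a b
    by_cases ha : a = 0
    · right; exact ha
    left
    intro h
    have h1 : mA = (b / a) • mB := by
      rw [div_eq_mul_inv, mul_comm, mul_smul, ← h, smul_smul, inv_mul_cancel₀ ha, one_smul]
    have h3 : mB * mA = mA * mB := by
      rw [h1]; simp [Matrix.mul_smul, Matrix.smul_mul]
    rw [hBA] at h3
    have h4 : (2 : F) • (mA * mB) = 0 := by
      rw [two_smul]
      nth_rw 1 [← h3]
      simp
    rcases smul_eq_zero.mp h4 with h5 | h5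
    · exact h2 h5
    · exact hABne h5
  have hAns : ∀ z : F, mA ≠ z • (1 : Matrix (Fin 2) (Fin 2) F) := by
    intro z h
    have h3 : mB * mA = mA * mB := by
      rw [h]; simp [Matrix.mul_smul, Matrix.smul_mul]
    rw [hBA] at h3
    have h4 : (2 : F) • (mA * mB) = 0 := by
      rw [two_smul]
      nth_rw 1 [← h3]
      simp
    rcases smul_eq_zero.mp h4 with h5 | h5
    · exact h2 h5
    · exact hABne h5
  have hBns : ∀ z : F, mB ≠ z • (1 : Matrix (Fin 2) (Fin 2) F) := by
    intro z h
    have h3 : mB * mA = mA * mB := by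
      rw [h]; simp [Matrix.mul_smul, Matrix.smul_mul]
    rw [hBA] at h3
    have h4 : (2 : F) • (mA * mB) = 0 := by
      rw [two_smul]
      nth_rw 1 [← h3]
      simp
    rcases smul_eq_zero.mp h4 with h5 | h5
    · exact h2 h5
    · exact hABne h5
  have hsq : ∀ M : Matrix (Fin 2) (Fin 2) F, M * M = -1 → (∀ z : F, M ≠ z • (1 : Matrix (Fin 2) (Fin 2) F)) →
      M.trace = 0 ∧ M.det = 1 := by
    intro M hM hns
    have h1 := Cfsg.Agent.Lib.ClassMax.ConjTwo.ch M
    rw [hM] at h1
    have ht : M.trace = 0 := by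
      by_contra ht
      apply hns ((M.det - 1) / M.trace)
      have h5 : M.trace • M = (M.det - 1) • (1 : Matrix (Fin 2) (Fin 2) F) := by
        rw [sub_smul, one_smul]
        rw [eq_sub_iff_add_eq] at h1
        rw [← h1]; abel
      rw [div_eq_mul_inv, mul_comm, mul_smul, ← h5, smul_smul, inv_mul_cancel₀ ht, one_smul]
    refine ⟨ht, ?_⟩
    rw [ht, zero_smul, zero_sub] at h1
    have := congrFun (congrFun (neg_inj.mp h1) 0) 0
    simpa using this.symm
  have hCC : (mA * mB) * (mA * mB) = -1 := by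
    rw [mul_assoc, hBAx, hBB]; simp [hAA]
  have hCns : ∀ z : F, mA * mB ≠ z • (1 : Matrix (Fin 2) (Fin 2) F) := by
    intro z h
    have h3 : mA * (mA * mB) = z • mA := by rw [h]; simp
    rw [hAAx] at h3
    have h4 : mB = (-z) • mA := by
      rw [neg_smul, ← h3, neg_neg]
    have h5 : mB * mA = mA * mB := by
      rw [h4]; simp [Matrix.mul_smul, Matrix.smul_mul]
    rw [hBA] at h5
    have h6 : (2 : F) • (mA * mB) = 0 := by
      rw [two_smul]
      nth_rw 1 [← h5]
      simp
    rcases smul_eq_zero.mp h6 with h7 | h7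
    · exact h2 h7
    · exact hABne h7
  obtain ⟨htA, hdA⟩ := hsq mA hAA hAns
  obtain ⟨htB, hdB⟩ := hsq mB hBB hBns
  obtain ⟨htC, hdC⟩ := hsq (mA * mB) hCC hCns
  have hNR : ∀ t : GL (Fin 2) F, ((t : Matrix (Fin 2) (Fin 2) F) = 1 ∨ (t : Matrix (Fin 2) (Fin 2) F) = -1 ∨
        (t : Matrix (Fin 2) (Fin 2) F) = mA ∨ (t : Matrix (Fin 2) (Fin 2) F) = -mA ∨
        (t : Matrix (Fin 2) (Fin 2) F) = mB ∨ (t : Matrix (Fin 2) (Fin 2) F) = -mB ∨
        (t : Matrix (Fin 2) (Fin 2) F) = mA * mB ∨ (t : Matrix (Fin 2) (Fin 2) F) = -(mA * mB)) → t ∈ R := by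
    intro t ht
    rcases ht with h | h | h | h | h | h | h | h
    · have : t = 1 := Units.ext h
      rw [this]; exact R.one_mem
    · have : t = A * A := Units.ext (by rw [h, Units.val_mul]; exact hAA.symm)
      rw [this]; exact R.mul_mem hAR hAR
    · have : t = A := Units.ext h
      rw [this]; exact hAR
    · have : t = A * A * A := Units.ext (by rw [h, Units.val_mul, Units.val_mul]; show -mA = mA * mA * mA; rw [hAA]; simp)
      rw [this]; exact R.mul_mem (R.mul_mem hAR hAR) hAR
    · have : t = B := Units.ext h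
      rw [this]; exact hBR
    · have : t = A * A * B := Units.ext (by rw [h, Units.val_mul, Units.val_mul]; show -mB = mA * mA * mB; rw [hAA]; simp)
      rw [this]; exact R.mul_mem (R.mul_mem hAR hAR) hBR
    · have : t = A * B := Units.ext (by rw [h, Units.val_mul])
      rw [this]; exact R.mul_mem hAR hBR
    · have : t = A * A * A * B := Units.ext (by
        rw [h, Units.val_mul, Units.val_mul, Units.val_mul]
        show -(mA * mB) = mA * mA * mA * mB
        rw [hAA]; simp)
      rw [this]; exact R.mul_mem (R.mul_mem (R.mul_mem hAR hAR) hAR) hBR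
  -- the element of order 3
  set Y' : Matrix (Fin 2) (Fin 2) F := -1 + mA + mB + mA * mB with hY'
  set Yb' : Matrix (Fin 2) (Fin 2) F := -1 - mA - mB - mA * mB with hYb'
  have hYY : Y' * Yb' = 1 + 1 + 1 + 1 := by
    rw [hY', hYb']
    simp only [sub_eq_add_neg, add_mul, mul_add, neg_mul, mul_neg, one_mul, mul_one, mul_assoc, hAA, hBB, hBA, hAAx, hBBx, hBAx, neg_neg]
    abel
  have hYY' : Yb' * Y' = 1 + 1 + 1 + 1 := by
    rw [hY', hYb']
    simp only [sub_eq_add_neg, add_mul, mul_add, neg_mul, mul_neg, one_mul, mul_one, mul_assoc, hAA, hBB, hBA, hAAx, hBBx, hBAx, neg_neg]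
    abel
  have hYA : Y' * mA = mA * mB * Y' := by
    rw [hY']
    simp only [sub_eq_add_neg, add_mul, mul_add, neg_mul, mul_neg, one_mul, mul_one, mul_assoc, hAA, hBB, hBA, hAAx, hBBx, hBAx, neg_neg]
    abel
  have hYB : Y' * mB = mA * Y' := by
    rw [hY']
    simp only [sub_eq_add_neg, add_mul, mul_add, neg_mul, mul_neg, one_mul, mul_one, mul_assoc, hAA, hBB, hBA, hAAx, hBBx, hBAx, neg_neg]
    abel
  have hYC : Y' * (mA * mB) = mB * Y' := by
    rw [hY']
    simp only [sub_eq_add_neg, add_mul, mul_add, neg_mul, mul_neg, one_mul, mul_one, mul_assoc, hAA, hBB, hBA, hAAx, hBBx, hBAx, neg_neg]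
    abel
  have h4 : (4 : F) ≠ 0 := by
    have : (4 : F) = 2 * 2 := by norm_num
    rw [this]; exact mul_ne_zero h2 h2
  have h11 : (1 + 1 + 1 + 1 : Matrix (Fin 2) (Fin 2) F) = (4 : F) • 1 := by
    ext i j
    fin_cases i <;> fin_cases j <;> simp <;> norm_num
  let y₀ : GL (Fin 2) F :=
    { val := (2⁻¹ : F) • Y'
      inv := (2⁻¹ : F) • Yb'
      val_inv := by
        rw [Matrix.smul_mul, Matrix.mul_smul, hYY, h11, smul_smul, smul_smul]
        have : (2⁻¹ : F) * 2⁻¹ * 4 = 1 := by field_simp; norm_num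
        rw [this, one_smul]
      inv_val := by
        rw [Matrix.smul_mul, Matrix.mul_smul, hYY', h11, smul_smul, smul_smul]
        have : (2⁻¹ : F) * 2⁻¹ * 4 = 1 := by field_simp; norm_num
        rw [this, one_smul] }
  have hy₀val : ((y₀ : GL (Fin 2) F) : Matrix (Fin 2) (Fin 2) F) = (2⁻¹ : F) • Y' := rfl
  have hy₀A : (y₀ : Matrix (Fin 2) (Fin 2) F) * mA = (mA * mB) * y₀ := by
    rw [hy₀val, Matrix.smul_mul, hYA, Matrix.mul_smul]
  have hy₀B : (y₀ : Matrix (Fin 2) (Fin 2) F) * mB = mA * y₀ := by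
    rw [hy₀val, Matrix.smul_mul, hYB, Matrix.mul_smul]
  have hy₀C : (y₀ : Matrix (Fin 2) (Fin 2) F) * (mA * mB) = mB * y₀ := by
    rw [hy₀val, Matrix.smul_mul, hYC, Matrix.mul_smul]
  have hy₀N : y₀ ∈ Cfsg.Geo.subgroupNormalizer R := by
    apply mem_norm_of_conj
    intro t ht
    apply hNR
    have hv : ((y₀ * t * y₀⁻¹ : GL (Fin 2) F) : Matrix (Fin 2) (Fin 2) F) = (y₀ : Matrix (Fin 2) (Fin 2) F) * t * ((y₀⁻¹ : GL (Fin 2) F) : Matrix (Fin 2) (Fin 2) F) := by
      simp
    have hcancel : ∀ X : Matrix (Fin 2) (Fin 2) F, X * (y₀ : Matrix (Fin 2) (Fin 2) F) * ((y₀⁻¹ : GL (Fin 2) F) : Matrix (Fin 2) (Fin 2) F) = X := by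
      intro X
      rw [mul_assoc, ← Units.val_mul, mul_inv_cancel, Units.val_one, mul_one]
    rw [hv]
    rcases hall t ht with h | h | h | h | h | h | h | h <;> rw [h]
    · left
      rw [mul_one, ← Units.val_mul, mul_inv_cancel, Units.val_one]
    · right; left
      rw [mul_neg, mul_one, neg_mul, ← Units.val_mul, mul_inv_cancel, Units.val_one]
    · right; right; right; right; right; right; left
      rw [hy₀A, hcancel]
    · right; right; right; right; right; right; right
      rw [mul_neg, hy₀A, neg_mul, hcancel]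
    · right; right; left
      rw [hy₀B, hcancel]
    · right; right; right; left
      rw [mul_neg, hy₀B, neg_mul, hcancel]
    · right; right; right; right; left
      rw [hy₀C, hcancel]
    · right; right; right; right; right; left
      rw [mul_neg, hy₀C, neg_mul, hcancel]
  have hAN : A ∈ Cfsg.Geo.subgroupNormalizer R :=
    Subgroup.le_normalizer hAR
  -- traces of y₀
  have hy₀ns : ∀ z : F, (y₀ : Matrix (Fin 2) (Fin 2) F) ≠ z • (1 : Matrix (Fin 2) (Fin 2) F) := by
    intro z h
    have hz : z ≠ 0 := by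
      rintro rfl
      rw [zero_smul] at h
      have := y₀.isUnit
      rw [h] at this
      exact not_isUnit_zero this
    have h1 := hy₀A
    rw [h] at h1
    simp only [Matrix.smul_mul, one_mul, Matrix.mul_smul, mul_one] at h1
    have h5 := smul_right_injective _ hz h1
    -- mA = mA * mB
    have h6 : mA * mA = mA * (mA * mB) := by rw [← h5]
    rw [hAA, hAAx] at h6
    have h7 : mB = 1 := by simpa using h6.symm
    rw [h7] at hBB
    have := congrFun (congrFun hBB 0) 0
    simp at this
    have h8 : (2 : F) = 0 := by linear_combination this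
    exact h2 h8
  have hy₀sum : (y₀ : Matrix (Fin 2) (Fin 2) F) * y₀ = -(y₀ : Matrix (Fin 2) (Fin 2) F) - 1 := by
    have h5 : (y₀ : Matrix (Fin 2) (Fin 2) F) * ((y₀⁻¹ : GL (Fin 2) F) : Matrix (Fin 2) (Fin 2) F) = 1 := by
      rw [← Units.val_mul, mul_inv_cancel, Units.val_one]
    have h6 : ((y₀⁻¹ : GL (Fin 2) F) : Matrix (Fin 2) (Fin 2) F) = -(y₀ : Matrix (Fin 2) (Fin 2) F) - 1 := by
      show (2⁻¹ : F) • Yb' = -((2⁻¹ : F) • Y') - 1
      rw [hYb', hY']
      have h7 : (1 : Matrix (Fin 2) (Fin 2) F) = (2⁻¹ : F) • (1 + 1) := by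
        rw [smul_add, ← add_smul]
        have : (2⁻¹ : F) + 2⁻¹ = 1 := by field_simp; norm_num
        rw [this, one_smul]
      calc (2⁻¹ : F) • (-1 - mA - mB - mA * mB) = (2⁻¹ : F) • (-(-1 + mA + mB + mA * mB) - (1 + 1)) := by
            congr 1; abel
        _ = -((2⁻¹ : F) • (-1 + mA + mB + mA * mB)) - (2⁻¹ : F) • (1 + 1) := by
            rw [smul_sub, smul_neg]
        _ = -((2⁻¹ : F) • (-1 + mA + mB + mA * mB)) - 1 := by rw [← h7]
    rw [h6] at h5
    rw [mul_sub, mul_neg, mul_one, sub_eq_iff_eq_add, neg_eq_iff_eq_neg] at h5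
    rw [h5]
    abel
  have hy₀tr : (y₀ : Matrix (Fin 2) (Fin 2) F).trace = -1 ∧ (y₀ : Matrix (Fin 2) (Fin 2) F).det = 1 := by
    have h1 := Cfsg.Agent.Lib.ClassMax.ConjTwo.ch (y₀ : Matrix (Fin 2) (Fin 2) F)
    rw [hy₀sum] at h1
    have ht : (y₀ : Matrix (Fin 2) (Fin 2) F).trace = -1 := by
      show ((2⁻¹ : F) • Y').trace = -1
      rw [Matrix.trace_smul, hY']
      simp only [Matrix.trace_add, Matrix.trace_neg, htA, htB, htC, Matrix.trace_one, Fintype.card_fin, smul_eq_mul]
      field_simp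
      norm_num
    refine ⟨ht, ?_⟩
    rw [ht] at h1
    simp only [neg_smul, one_smul] at h1
    have h3 : (1 : Matrix (Fin 2) (Fin 2) F) = (y₀ : Matrix (Fin 2) (Fin 2) F).det • 1 := by
      have := sub_right_inj.mp h1
      exact this
    have := congrFun (congrFun h3 0) 0
    simpa using this.symm
  -- the two implications
  have hconjR : ∀ (t : GL (Fin 2) F) (z : F), z ≠ 0 → (t : Matrix (Fin 2) (Fin 2) F) = z • (y₀ : Matrix (Fin 2) (Fin 2) F) →
      t ∈ Cfsg.Geo.subgroupNormalizer R := by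
    intro t z hz ht
    have hzu : IsUnit z := isUnit_iff_ne_zero.mpr hz
    let σ : GL (Fin 2) F := (Units.map (Matrix.scalar (Fin 2) : F →+* Matrix (Fin 2) (Fin 2) F).toMonoidHom) hzu.unit
    have hσ : (σ : Matrix (Fin 2) (Fin 2) F) = z • 1 := by
      simp [σ, Matrix.smul_one_eq_diagonal]
    have hσc : ∀ h : GL (Fin 2) F, σ * h = h * σ := by
      intro h
      apply Units.ext
      rw [Units.val_mul, Units.val_mul, hσ]
      simp
    have hσN : σ ∈ Cfsg.Geo.subgroupNormalizer R := by
      apply mem_norm_of_conj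
      intro s hs
      rw [hσc s, mul_inv_cancel_right]
      exact hs
    have : t = σ * y₀ := by
      apply Units.ext
      rw [Units.val_mul, hσ, ht]
      simp
    rw [this]
    exact Subgroup.mul_mem _ hσN hy₀N
  constructor
  · intro hall2
    by_contra hcon
    push Not at hcon
    obtain ⟨hr2, hr3⟩ := hcon
    have hrp := (Fact.out : r.Prime)
    have hr5 : 5 ≤ r := by
      have h4 : r ≠ 4 := by
        rintro rfl
        revert hrp; norm_num
      have := hrp.two_le
      omega
    have hdvd : r ∣ Nat.card (Cfsg.Geo.specialLinear (Fin 2) F) :=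
      hΩ.trans (Subgroup.relIndex_dvd_card _ _)
    obtain ⟨x0, hx0⟩ : ∃ x0 : ↥(Cfsg.Geo.specialLinear (Fin 2) F), orderOf x0 = r := exists_prime_orderOf_dvd_card' r hdvd
    have hxr : (x0 : GL (Fin 2) F) ^ r = 1 := by
      have := pow_orderOf_eq_one x0
      rw [hx0] at this
      have h3 := congrArg Subtype.val this
      simpa using h3
    have hdet1 : ((x0 : GL (Fin 2) F) : Matrix (Fin 2) (Fin 2) F).det = 1 := by
      have h := x0.2
      have h3 : Matrix.GeneralLinearGroup.det (x0 : GL (Fin 2) F) = 1 := h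
      have h5 := congrArg Units.val h3
      simpa using h5
    have hxns : ∀ z : F, ((x0 : GL (Fin 2) F) : Matrix (Fin 2) (Fin 2) F) ≠ z • (1 : Matrix (Fin 2) (Fin 2) F) := by
      intro z hz
      rw [hz] at hdet1
      have hz2 : z ^ 2 = 1 := by
        simpa [Matrix.det_smul] using hdet1
      have : x0 ^ 2 = 1 := by
        apply Subtype.ext
        apply Units.ext
        simp only [Subgroup.coe_pow, Subgroup.coe_one, Units.val_pow_eq_pow_val, Units.val_one]
        rw [hz, smul_pow, hz2]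
        simp
      have h5 := orderOf_dvd_of_pow_eq_one this
      rw [hx0] at h5
      exact hr2 ((Nat.prime_dvd_prime_iff_eq hrp Nat.prime_two).mp h5)
    obtain ⟨g, hgS, hgN⟩ := hall2 _ x0.2 ⟨1, by rw [hxr]; simp⟩ hxns
    set y : GL (Fin 2) F := g⁻¹ * x0 * g with hy
    have hyr : y ^ r = 1 := by
      have : y = g⁻¹ * (x0 : GL (Fin 2) F) * g⁻¹⁻¹ := by rw [hy, inv_inv]
      rw [this, conj_pow, hxr]
      simp
    have hypow : ∀ k : ℕ, y ^ k ∈ Cfsg.Geo.subgroupNormalizer R := fun k => Subgroup.pow_mem _ hgN k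
    have key : ∀ h : GL (Fin 2) F, h ∈ R → (∀ z : F, (h : Matrix (Fin 2) (Fin 2) F) ≠ z • (1 : Matrix (Fin 2) (Fin 2) F)) →
        y * h = h * y := by
      intro h hhR hns
      have hs : ∀ k : ℕ, ∃ i : Fin 3, ((y ^ k * h * (y ^ k)⁻¹ : GL (Fin 2) F) : Matrix (Fin 2) (Fin 2) F) =
            ![mA, mB, mA * mB] i ∨ ((y ^ k * h * (y ^ k)⁻¹ : GL (Fin 2) F) : Matrix (Fin 2) (Fin 2) F) = -(![mA, mB, mA * mB] i) := by
        intro k
        have hmem : y ^ k * h * (y ^ k)⁻¹ ∈ R := ((Subgroup.mem_normalizer_iff.mp (hypow k)) h).mp hhR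
        have hnot : ∀ z : F, ((y ^ k * h * (y ^ k)⁻¹ : GL (Fin 2) F) : Matrix (Fin 2) (Fin 2) F) ≠ z • 1 := by
          intro z hz
          apply hns z
          have h5 : (y ^ k * h * (y ^ k)⁻¹ : GL (Fin 2) F) * y ^ k = y ^ k * h := by group
          have h6 := congrArg Units.val h5
          rw [Units.val_mul, hz] at h6
          have h7 : ((y ^ k : GL (Fin 2) F) : Matrix (Fin 2) (Fin 2) F) * (z • 1) = ((y ^ k : GL (Fin 2) F) : Matrix (Fin 2) (Fin 2) F) * h := by
            rw [← Units.val_mul, ← h6]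
            simp
          exact ((Units.isUnit _).mul_right_inj.mp h7).symm
        rcases hall _ hmem with e | e | e | e | e | e | e | e
        · exact absurd (by rw [e]; simp) (hnot 1)
        · exact absurd (by rw [e]; simp) (hnot (-1))
        · exact ⟨0, Or.inl e⟩
        · exact ⟨0, Or.inr e⟩
        · exact ⟨1, Or.inl e⟩
        · exact ⟨1, Or.inr e⟩
        · exact ⟨2, Or.inl e⟩
        · exact ⟨2, Or.inr e⟩
      choose c hc using hs
      obtain ⟨k, j, hkj, hc2⟩ := Fintype.exists_ne_map_eq_of_card_lt (fun k : Fin 4 => c k.1) (by simp)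
      have hc3 : c k.1 = c j.1 := hc2
      -- a nonzero step m ≤ 3 with y^m h y^-m = ± h
      have step : ∃ m : ℕ, 1 ≤ m ∧ m ≤ 3 ∧ y ^ (2 * m) * h = h * y ^ (2 * m) := by
        have gen : ∀ k j : ℕ, k < j → j < 4 → c k = c j → ∃ m : ℕ, 1 ≤ m ∧ m ≤ 3 ∧ y ^ (2 * m) * h = h * y ^ (2 * m) := by
          intro k j hlt hj hcc
          refine ⟨j - k, by omega, by omega, ?_⟩
          obtain ⟨m, rfl⟩ : ∃ m, j = k + m := ⟨j - k, by omega⟩
          have hm : k + m - k = m := by omega
          rw [hm]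
          -- y^m h y^-m = ± h
          have hpm : y ^ m * h = h * y ^ m ∨ (((y ^ m : GL (Fin 2) F) : Matrix (Fin 2) (Fin 2) F) * h) = -((h : Matrix (Fin 2) (Fin 2) F) * ((y ^ m : GL (Fin 2) F) : Matrix (Fin 2) (Fin 2) F)) := by
            have hh1 := hc k
            have hh2 := hc (k + m)
            rw [← hcc] at hh2
            have hsplit : ((y ^ (k + m) * h * (y ^ (k + m))⁻¹ : GL (Fin 2) F) : Matrix (Fin 2) (Fin 2) F) = ((y ^ k * h * (y ^ k)⁻¹ : GL (Fin 2) F) : Matrix (Fin 2) (Fin 2) F) ∨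
                ((y ^ (k + m) * h * (y ^ (k + m))⁻¹ : GL (Fin 2) F) : Matrix (Fin 2) (Fin 2) F) = -((y ^ k * h * (y ^ k)⁻¹ : GL (Fin 2) F) : Matrix (Fin 2) (Fin 2) F) := by
              rcases hh1 with e1 | e1 <;> rcases hh2 with e2 | e2 <;> rw [e1, e2]
              · left; rfl
              · right; rfl
              · right; rw [neg_neg]
              · left; rfl
            rcases hsplit with e | e
            · left
              have e' : y ^ (k + m) * h * (y ^ (k + m))⁻¹ = y ^ k * h * (y ^ k)⁻¹ := Units.ext e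
              rw [pow_add] at e'
              have e2 : y ^ m * h * (y ^ m)⁻¹ = h := by
                have : (y ^ k)⁻¹ * (y ^ k * y ^ m * h * (y ^ k * y ^ m)⁻¹) * y ^ k = (y ^ k)⁻¹ * (y ^ k * h * (y ^ k)⁻¹) * y ^ k := by rw [e']
                simpa [mul_assoc] using this
              calc y ^ m * h = y ^ m * h * (y ^ m)⁻¹ * y ^ m := by group
                _ = h * y ^ m := by rw [e2]
            · right
              have e' : ((y ^ k : GL (Fin 2) F) : Matrix (Fin 2) (Fin 2) F) * ((y ^ m : GL (Fin 2) F) * h) * ((y ^ (k + m))⁻¹ : GL (Fin 2) F) = -(((y ^ k : GL (Fin 2) F) : Matrix (Fin 2) (Fin 2) F) * h * ((y ^ k)⁻¹ : GL (Fin 2) F)) := by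
                have e3 := e
                rw [pow_add, Units.val_mul, Units.val_mul, Units.val_mul, Units.val_mul] at e3
                rw [pow_add]
                simp only [Units.val_mul] at e3 ⊢
                rw [← e3]
                simp only [mul_assoc]
              -- multiply on the right by y^(k+m) and on the left by (y^k)⁻¹
              have hL : ((y ^ k)⁻¹ : GL (Fin 2) F).val * (y ^ k : GL (Fin 2) F).val = 1 := by
                rw [← Units.val_mul, inv_mul_cancel, Units.val_one]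
              have hR' : ((y ^ (k + m))⁻¹ : GL (Fin 2) F).val * (y ^ (k + m) : GL (Fin 2) F).val = 1 := by
                rw [← Units.val_mul, inv_mul_cancel, Units.val_one]
              have h8 := congrArg (fun X => ((y ^ k)⁻¹ : GL (Fin 2) F).val * X * (y ^ (k + m) : GL (Fin 2) F).val) e'
              have h9 : ((y ^ k)⁻¹ : GL (Fin 2) F).val * ((y ^ k : GL (Fin 2) F).val * ((y ^ m : GL (Fin 2) F).val * h.val) * ((y ^ (k + m))⁻¹ : GL (Fin 2) F).val) * (y ^ (k + m) : GL (Fin 2) F).val = (y ^ m : GL (Fin 2) F).val * h.val := by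
                calc _ = (((y ^ k)⁻¹ : GL (Fin 2) F).val * (y ^ k : GL (Fin 2) F).val) * ((y ^ m : GL (Fin 2) F).val * h.val) * (((y ^ (k + m))⁻¹ : GL (Fin 2) F).val * (y ^ (k + m) : GL (Fin 2) F).val) := by
                      simp only [mul_assoc]
                  _ = _ := by rw [hL, hR']; simp
              have h10 : ((y ^ k)⁻¹ : GL (Fin 2) F).val * (-((y ^ k : GL (Fin 2) F).val * h.val * ((y ^ k)⁻¹ : GL (Fin 2) F).val)) * (y ^ (k + m) : GL (Fin 2) F).val = -(h.val * (y ^ m : GL (Fin 2) F).val) := by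
                have h11 : (y ^ (k + m) : GL (Fin 2) F).val = (y ^ k : GL (Fin 2) F).val * (y ^ m : GL (Fin 2) F).val := by
                  rw [pow_add, Units.val_mul]
                have hL2 : ((y ^ k) : GL (Fin 2) F).val * ((y ^ k)⁻¹ : GL (Fin 2) F).val = 1 := by
                  rw [← Units.val_mul, mul_inv_cancel, Units.val_one]
                rw [h11]
                calc _ = -((((y ^ k)⁻¹ : GL (Fin 2) F).val * (y ^ k : GL (Fin 2) F).val) * h.val * (((y ^ k)⁻¹ : GL (Fin 2) F).val * (y ^ k : GL (Fin 2) F).val) * (y ^ m : GL (Fin 2) F).val) := by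
                      simp only [mul_neg, neg_mul, mul_assoc]
                  _ = _ := by rw [hL]; simp
              rw [h9, h10] at h8
              exact h8
          rcases hpm with e | e
          · rw [mul_comm 2 m, pow_mul]
            have : Commute (y ^ m) h := e
            exact (this.pow_left 2)
          · apply Units.ext
            rw [two_mul, pow_add, Units.val_mul, Units.val_mul, Units.val_mul]
            set u₀ : Matrix (Fin 2) (Fin 2) F := ((y ^ m : GL (Fin 2) F) : Matrix (Fin 2) (Fin 2) F) with hu₀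
            rw [mul_assoc, e, mul_neg, ← mul_assoc, e, neg_mul, neg_neg, mul_assoc, Units.val_mul]
        rcases lt_or_gt_of_ne (fun h => hkj (Fin.ext h) : k.1 ≠ j.1) with hlt | hlt
        · exact gen k.1 j.1 hlt j.2 hc3
        · exact gen j.1 k.1 hlt k.2 hc3.symm
      obtain ⟨m, hm1, hm3, hcomm⟩ := step
      have hcop : Nat.Coprime (2 * m) r := by
        apply Nat.Coprime.symm
        rw [Nat.Prime.coprime_iff_not_dvd hrp]
        intro hd
        have hle := Nat.le_of_dvd (by omega) hd
        have hr : r = 5 ∨ r = 6 := by omega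
        rcases hr with hr | hr
        · rw [hr] at hd; omega
        · rw [hr] at hrp; revert hrp; norm_num
      obtain ⟨u, hu⟩ := Nat.exists_mul_mod_eq_one_of_coprime hcop (by omega)
      have hyu : y = (y ^ (2 * m)) ^ u := by
        rw [← pow_mul, pow_eq_pow_mod _ hyr, hu.2, pow_one]
      have hcomm2 : Commute (y ^ (2 * m)) h := hcomm
      have := hcomm2.pow_left u
      rw [← hyu] at this
      exact this
    have hyA : (y : Matrix (Fin 2) (Fin 2) F) * mA = mA * y := by
      have := congrArg Units.val (key A hAR hAns)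
      simpa using this
    have hyB : (y : Matrix (Fin 2) (Fin 2) F) * mB = mB * y := by
      have := congrArg Units.val (key B hBR hBns)
      simpa using this
    -- y is scalar
    set D : Matrix (Fin 2) (Fin 2) F := (y : Matrix (Fin 2) (Fin 2) F) - ((y : Matrix (Fin 2) (Fin 2) F).trace / 2) • 1 with hD
    have hDtr : D.trace = 0 := by
      rw [hD, Matrix.trace_sub, Matrix.trace_smul, Matrix.trace_one]
      simp
      field_simp
      ring
    have hDA : D * mA = mA * D := by
      rw [hD]; simp [sub_mul, mul_sub, hyA]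
    have hDB : D * mB = mB * D := by
      rw [hD]; simp [sub_mul, mul_sub, hyB]
    have hex : ∀ M : Matrix (Fin 2) (Fin 2) F, M * M = -1 → M.trace = 0 → D * M = M * D → ∃ a : F, D = a • M := by
      intro M hM ht hc
      have h5 := Cfsg.Agent.Lib.ClassMax.ConjTwo.polar D M
      rw [hDtr, ht] at h5
      simp only [zero_smul, zero_add, mul_zero, sub_zero] at h5
      rw [← hc] at h5
      obtain ⟨l, h6⟩ : ∃ l : F, D * M = l • 1 := by
        refine ⟨(D * M).trace / 2, ?_⟩
        have h7 : (2 : F) • (D * M) = (D * M).trace • 1 := by rw [two_smul, h5]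
        rw [div_eq_mul_inv, mul_comm, mul_smul, ← h7, smul_smul, inv_mul_cancel₀ h2, one_smul]
      refine ⟨-l, ?_⟩
      have h8 : D * M * M = -D := by rw [mul_assoc, hM]; simp
      rw [h6] at h8
      have h9 : l • M = -D := by simpa using h8
      rw [neg_smul, h9, neg_neg]
    obtain ⟨a, ha⟩ := hex mA hAA htA hDA
    obtain ⟨b, hb⟩ := hex mB hBB htB hDB
    have ha0 : a = 0 := (hneq a b).resolve_left (fun h => h (ha.symm.trans hb))
    have hD0 : D = 0 := by rw [ha, ha0, zero_smul]
    have hyscal : (y : Matrix (Fin 2) (Fin 2) F) = ((y : Matrix (Fin 2) (Fin 2) F).trace / 2) • 1 := by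
      rw [hD] at hD0
      exact sub_eq_zero.mp hD0
    obtain ⟨c, hc⟩ : ∃ c : F, (y : Matrix (Fin 2) (Fin 2) F) = c • 1 := ⟨_, hyscal⟩
    apply hxns c
    have hx : (x0 : GL (Fin 2) F) = g * y * g⁻¹ := by rw [hy]; group
    rw [hx, Units.val_mul, Units.val_mul, hc]
    simp only [Matrix.mul_smul, Matrix.smul_mul, mul_one]
    congr 1
    rw [← Units.val_mul, mul_inv_cancel, Units.val_one]
  · intro hr
    intro x hxS hxz hns
    obtain ⟨z, hz⟩ := hxz
    have hdet1 : (x : Matrix (Fin 2) (Fin 2) F).det = 1 := by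
      have h3 : Matrix.GeneralLinearGroup.det x = 1 := hxS
      have h5 := congrArg Units.val h3
      simpa using h5
    have hmk : ∀ (h : Matrix (Fin 2) (Fin 2) F), h.det = 1 → ∃ g : GL (Fin 2) F, g ∈ Cfsg.Geo.specialLinear (Fin 2) F ∧ (g : Matrix (Fin 2) (Fin 2) F) = h := by
      intro h hh
      refine ⟨Matrix.GeneralLinearGroup.mkOfDetNeZero h (by rw [hh]; exact one_ne_zero), ?_, rfl⟩
      show Matrix.GeneralLinearGroup.det _ = 1
      apply Units.ext
      simpa using hh
    have hconjval : ∀ (g t : GL (Fin 2) F) (M : Matrix (Fin 2) (Fin 2) F), (t : Matrix (Fin 2) (Fin 2) F) * g = g * M →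
        ((g⁻¹ * t * g : GL (Fin 2) F) : Matrix (Fin 2) (Fin 2) F) = M := by
      intro g t M h
      rw [Units.val_mul, Units.val_mul, mul_assoc, h, ← mul_assoc, ← Units.val_mul, inv_mul_cancel, Units.val_one, one_mul]
    rcases hr with hr | hr
    · subst hr
      have hxx : (x : Matrix (Fin 2) (Fin 2) F) * x = z • 1 := by
        rw [← hz, pow_two, Units.val_mul]
      have h1 := Cfsg.Agent.Lib.ClassMax.ConjTwo.ch (x : Matrix (Fin 2) (Fin 2) F)
      rw [hxx, hdet1, one_smul] at h1
      have ht : (x : Matrix (Fin 2) (Fin 2) F).trace = 0 := by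
        by_contra ht
        apply hns ((z + 1) / (x : Matrix (Fin 2) (Fin 2) F).trace)
        have h5 : (x : Matrix (Fin 2) (Fin 2) F).trace • (x : Matrix (Fin 2) (Fin 2) F) = (z + 1) • 1 := by
          rw [add_smul, one_smul, h1]; abel
        rw [div_eq_mul_inv, mul_comm, mul_smul, ← h5, smul_smul, inv_mul_cancel₀ ht, one_smul]
      obtain ⟨h, hh1, hh2⟩ := Cfsg.Agent.Lib.ClassMax.ConjTwo.exists_sl_conj hodd (x : Matrix (Fin 2) (Fin 2) F) mA hns hAns
        (by rw [ht, htA]) (by rw [hdet1, hdA]) (by rw [htA, hdA]; simpa using h4)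
      obtain ⟨g, hgS, hg⟩ := hmk h hh1
      refine ⟨g, hgS, ?_⟩
      have : g⁻¹ * x * g = A := Units.ext (hconjval g x mA (by rw [hg]; exact hh2))
      rw [this]; exact hAN
    · subst hr
      have hxxx : (x : Matrix (Fin 2) (Fin 2) F) * x * x = z • 1 := by
        rw [← hz, pow_succ, pow_two, Units.val_mul, Units.val_mul]
      have hz2 : z ^ 2 = 1 := by
        have := congrArg Matrix.det hxxx
        simp only [Matrix.det_mul, hdet1, Matrix.det_smul, Matrix.det_one] at this
        simpa using this.symm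
      have hz0 : z ≠ 0 := by
        rintro rfl
        simp at hz2
      set w : Matrix (Fin 2) (Fin 2) F := z • (x : Matrix (Fin 2) (Fin 2) F) with hw
      have hwd : w.det = 1 := by
        rw [hw, Matrix.det_smul, hdet1]
        simpa using hz2
      have hwns : ∀ c : F, w ≠ c • (1 : Matrix (Fin 2) (Fin 2) F) := by
        intro c hc
        apply hns (z * c)
        have h5 : (x : Matrix (Fin 2) (Fin 2) F) = z • w := by
          rw [hw, smul_smul, ← pow_two, hz2, one_smul]
        rw [h5, hc, smul_smul]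
      have hwww : w * w * w = 1 := by
        rw [hw]
        simp only [Matrix.smul_mul, Matrix.mul_smul, smul_smul]
        rw [hxxx, smul_smul]
        have : z * (z * z) * z = 1 := by
          calc z * (z * z) * z = (z ^ 2) ^ 2 := by ring
            _ = 1 := by rw [hz2]; simp
        rw [this, one_smul]
      have h1 := Cfsg.Agent.Lib.ClassMax.ConjTwo.ch w
      rw [hwd, one_smul] at h1
      set t := w.trace with ht
      have h5 : (t ^ 2 - 1) • w = (1 + t) • (1 : Matrix (Fin 2) (Fin 2) F) := by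
        have h6 : (1 : Matrix (Fin 2) (Fin 2) F) = (t * t) • w - t • 1 - w := by
          calc (1 : Matrix (Fin 2) (Fin 2) F) = w * w * w := hwww.symm
            _ = (t • w - 1) * w := by rw [h1]
            _ = t • (w * w) - w := by rw [sub_mul, Matrix.smul_mul, one_mul]
            _ = t • (t • w - 1) - w := by rw [h1]
            _ = (t * t) • w - t • 1 - w := by rw [smul_sub, smul_smul]
        rw [eq_sub_iff_add_eq, eq_sub_iff_add_eq] at h6
        rw [add_smul, one_smul, sub_smul, one_smul, pow_two, ← h6]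
        abel
      have ht2 : t ^ 2 - 1 = 0 := by
        by_contra h6
        apply hwns ((1 + t) / (t ^ 2 - 1))
        rw [div_eq_mul_inv, mul_comm, mul_smul, ← h5, smul_smul, inv_mul_cancel₀ h6, one_smul]
      have ht3 : t = -1 := by
        rw [ht2, zero_smul] at h5
        have h7 := congrFun (congrFun h5 0) 0
        simp at h7
        exact eq_neg_of_add_eq_zero_right h7.symm
      obtain ⟨h, hh1, hh2⟩ := Cfsg.Agent.Lib.ClassMax.ConjTwo.exists_sl_conj hodd w (y₀ : Matrix (Fin 2) (Fin 2) F) hwns hy₀ns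
        (by rw [hy₀tr.1]; exact ht3) (by rw [hy₀tr.2, hwd]) (by
          rw [hy₀tr.1, hy₀tr.2]
          intro h9
          apply h3
          linear_combination -h9)
      obtain ⟨g, hgS, hg⟩ := hmk h hh1
      refine ⟨g, hgS, ?_⟩
      apply hconjR _ z hz0
      apply hconjval
      rw [hg]
      have h5 : (x : Matrix (Fin 2) (Fin 2) F) = z • w := by
        rw [hw, smul_smul, ← pow_two, hz2, one_smul]
      rw [h5, Matrix.smul_mul, hh2]
      exact (Matrix.mul_smul _ _ _).symm

end Cfsg.Agent.S5997
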