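import Cfsg.Statements.S5998
import Cfsg.Agent.Lib.ClassMax.Hessian2

set_option autoImplicit false
open scoped MatrixGroups
open Cfsg

namespace Cfsg.Agent.S5998

open Matrix Cfsg.Agent.Lib.ClassMax.Hessian

/-- A primitive cube root of unity exists. -/
theorem exists_omega {F : Type*} [Field F] [Fintype F] {p : ℕ} (hF : Fintype.card F = p) (hp3 : p % 3 = 1) (hp : 1 < p) :
    ∃ ω : F, ω ^ 2 + ω + 1 = 0 ∧ ω ≠ 1 := by
  obtain ⟨g, hg⟩ := IsCyclic.exists_generator (α := Fˣ)
  have hord : orderOf g = p - 1 := by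
    rw [orderOf_eq_card_of_forall_mem_zpowers hg, Nat.card_units, Nat.card_eq_fintype_card, hF]
  obtain ⟨m, hm⟩ : ∃ m, p - 1 = 3 * m := ⟨(p - 1) / 3, by omega⟩
  have hm0 : 0 < m := by omega
  have h1 : (g ^ m) ^ 3 = 1 := by
    rw [← pow_mul, mul_comm, ← hm, ← hord, pow_orderOf_eq_one]
  have h2 : g ^ m ≠ 1 := by
    intro h
    have := orderOf_le_of_pow_eq_one hm0 h
    omega
  have h3 : (((g ^ m : Fˣ) : F)) ^ 3 = 1 := by
    have := congrArg Units.val h1
    simpa using this
  have h4 : ((g ^ m : Fˣ) : F) ≠ 1 := fun h => h2 (Units.ext h)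
  refine ⟨((g ^ m : Fˣ) : F), ?_, h4⟩
  have h5 : (((g ^ m : Fˣ) : F) - 1) * (((g ^ m : Fˣ) : F) ^ 2 + ((g ^ m : Fˣ) : F) + 1) = 0 := by linear_combination h3
  exact (mul_eq_zero.mp h5).resolve_left (sub_ne_zero.mpr h4)

/-- Cube roots of unity are cubes when `9` divides `q - 1`. -/
theorem exists_cube {F : Type*} [Field F] [Fintype F] {p : ℕ} (hF : Fintype.card F = p) (hp9 : p % 9 = 1) (z : Fˣ) (hz : z ^ 3 = 1) : ∃ t : Fˣ, t ^ 3 = z := by
  obtain ⟨g, hg⟩ := IsCyclic.exists_generator (α := Fˣ)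
  have hord : orderOf g = p - 1 := by
    rw [orderOf_eq_card_of_forall_mem_zpowers hg, Nat.card_units, Nat.card_eq_fintype_card, hF]
  have h1 : z ∈ Submonoid.powers g := by
    rw [mem_powers_iff_mem_zpowers]
    exact hg z
  obtain ⟨k, rfl⟩ := h1
  have h2 : orderOf g ∣ k * 3 := by
    apply orderOf_dvd_of_pow_eq_one
    rw [pow_mul]
    exact hz
  rw [hord] at h2
  obtain ⟨a, ha⟩ := h2
  have h3 : k % 3 = 0 := by
    have h4 : p - 1 = 9 * ((p - 1) / 9) := by omega
    rw [h4] at ha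
    generalize hA : ((p - 1) / 9) * a = A
    have e : k * 3 = 9 * A := by rw [ha, ← hA]; ring
    omega
  obtain ⟨b, hb⟩ : ∃ b, k = 3 * b := ⟨k / 3, by omega⟩
  refine ⟨g ^ b, ?_⟩
  rw [← pow_mul, hb]
  congr 1
  ring

/-- The order of the special linear group. -/
theorem card_sl3 {F : Type*} [Field F] [Fintype F] :
    Nat.card (Cfsg.Geo.specialLinear (Fin 3) F) = Fintype.card F ^ 3 * ((Fintype.card F ^ 3 - 1) * (Fintype.card F ^ 2 - 1)) := by
  classical
  have h := Cfsg.Agent.Lib.Classical.card_GL_eq_mul_card_SL (F := F) (Fin 3)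
  have h3 := Nat.card_congr (Cfsg.Agent.Lib.Classical.slEquivKerDet (Fin 3) F).toEquiv
  rw [Matrix.card_GL_field, Fin.prod_univ_three, Nat.card_eq_fintype_card (α := F)] at h
  simp only [Fin.val_zero, Fin.val_one, Fin.val_two, pow_zero, pow_one] at h
  change _ = Nat.card (Cfsg.Geo.specialLinear (Fin 3) F) at h3
  rw [← h3]
  set q := Fintype.card F with hq
  have hq2 : 1 < q := Fintype.one_lt_card
  obtain ⟨s, hs⟩ : ∃ s, q = s + 1 := ⟨q - 1, by omega⟩
  have hs0 : 0 < s := by omega
  have e1 : q - 1 = s := by omega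
  rw [e1] at h
  apply Nat.eq_of_mul_eq_mul_left hs0
  rw [← h, hs]
  have e2 : (s + 1) ^ 3 - 1 = s * (s * s + 3 * s + 3) := by
    have : (s + 1) ^ 3 = s * (s * s + 3 * s + 3) + 1 := by ring
    omega
  have e3 : (s + 1) ^ 2 - 1 = s * (s + 2) := by
    have : (s + 1) ^ 2 = s * (s + 2) + 1 := by ring
    omega
  have e4 : (s + 1) ^ 3 - (s + 1) = (s + 1) * (s * (s + 2)) := by
    have : (s + 1) ^ 3 = (s + 1) * (s * (s + 2)) + (s + 1) := by ring
    omega
  have e5 : (s + 1) ^ 3 - (s + 1) ^ 2 = (s + 1) ^ 2 * s := by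
    have : (s + 1) ^ 3 = (s + 1) ^ 2 * s + (s + 1) ^ 2 := by ring
    omega
  rw [e2, e3, e4, e5]
  ring

theorem not_81 : ∀ a : ZMod 81, (a.val % 9 = 4 ∨ a.val % 9 = 7) → a ^ 3 * ((a ^ 3 - 1) * (a ^ 2 - 1)) ≠ 0 := by
  decide


/-- Elements of prime order of PSL_3(p), p ≡ 1 (mod 3), and the normalizer of an extraspecial subgroup of order 27. Here `T = PSL_3(F)` for the field `F` with `p` elements, `p` a prime with `p ≡ 1 (mod 3)`; `R` is a non-abelian subgroup of GL_3(F) of order 27 and exponent 3 (an extraspecial group 3^{1+2}, acting absolutely irreducibly), and `H` is the subgroup of matrices of determinant 1 normalizing `R` — a subgroup of type 3^{1+2}.Sp₂(3) (maximality is not assumed). Ω is the set of cosets of `H` in `T`, so an element of `T` of prime order `r` (a matrix `x` of determinant 1 with `x^r` scalar, `x` not scalar) fixes a point of Ω exactly when some conjugate of `x` by a matrix of determinant 1 normalizes `R`. Let `r` be a prime dividing the index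 of `H`. Then every element of `T` of order `r` fixes a point of Ω if and only if `r = 2`, or `r = 3` and `p ≡ 1 (mod 9)`. -/
theorem result {F : Type*} [Field F] [Fintype F] {p : ℕ} [Fact p.Prime] [CharP F p] (hF : Fintype.card F = p) (hp3 : p % 3 = 1)
    (R : Subgroup (GL (Fin 3) F)) (hR : Nat.card R = 27) (hRe : Monoid.exponent R = 3) (hRna : ¬ IsMulCommutative R)
    (r : ℕ) [Fact r.Prime]
    (hΩ : r ∣ (Cfsg.Geo.subgroupNormalizer R).relIndex (Cfsg.Geo.specialLinear (Fin 3) F)) :
    (∀ x ∈ Cfsg.Geo.specialLinear (Fin 3) F, (∃ z : F, ((x ^ r : GL (Fin 3) F) : Matrix (Fin 3) (Fin 3) F) = z • (1 : Matrix (Fin 3) (Fin 3) F)) →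
      (∀ z : F, (x : Matrix (Fin 3) (Fin 3) F) ≠ z • (1 : Matrix (Fin 3) (Fin 3) F)) →
      ∃ g ∈ Cfsg.Geo.specialLinear (Fin 3) F, g⁻¹ * x * g ∈ Cfsg.Geo.subgroupNormalizer R) ↔ (r = 2 ∨ (r = 3 ∧ p % 9 = 1)) := by
  classical
  have hp : p.Prime := Fact.out
  have hr : r.Prime := Fact.out
  have hp1 : 1 < p := hp.one_lt
  haveI : Finite (GL (Fin 3) F) := inferInstance
  obtain ⟨ω₀, h1, h2⟩ := exists_omega hF hp3 hp1
  obtain ⟨ω, h, hn⟩ := exists_nf h1 h2 hR hRe hRna
  haveI : Finite R := Nat.finite_of_card_ne_zero (by omega)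
  have hN : ∀ y : GL (Fin 3) F, y ∈ Cfsg.Geo.subgroupNormalizer R ↔ y ∈ Subgroup.normalizer (R : Set (GL (Fin 3) F)) := fun y => Iff.rfl
  constructor
  · intro hall
    by_contra hcon
    push Not at hcon
    obtain ⟨hr2, hr3⟩ := hcon
    by_cases hr3' : r = 3
    · subst hr3'
      have hp9 : p % 9 ≠ 1 := hr3 rfl
      -- the order of the normaliser is divisible by 27
      have hle : R ≤ Cfsg.Geo.subgroupNormalizer R ⊓ Cfsg.Geo.specialLinear (Fin 3) F :=
        le_inf (Subgroup.le_normalizer) hn.le_sl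
      obtain ⟨t, ht⟩ := Subgroup.card_dvd_of_le hle
      rw [hR] at ht
      have hidx := Subgroup.card_mul_index ((Cfsg.Geo.subgroupNormalizer R).subgroupOf (Cfsg.Geo.specialLinear (Fin 3) F))
      have hc : Nat.card ↥((Cfsg.Geo.subgroupNormalizer R).subgroupOf (Cfsg.Geo.specialLinear (Fin 3) F)) = Nat.card ↥(Cfsg.Geo.subgroupNormalizer R ⊓ Cfsg.Geo.specialLinear (Fin 3) F) := by
        rw [← Subgroup.inf_subgroupOf_right]
        exact Nat.card_congr (Subgroup.subgroupOfEquivOfLe inf_le_right).toEquiv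
      obtain ⟨m, hm⟩ := hΩ
      rw [hc, ht, card_sl3, hF] at hidx
      change 27 * t * (Cfsg.Geo.subgroupNormalizer R).relIndex (Cfsg.Geo.specialLinear (Fin 3) F) = _ at hidx
      rw [hm] at hidx
      have h81 : ((p ^ 3 * ((p ^ 3 - 1) * (p ^ 2 - 1)) : ℕ) : ZMod 81) = 0 := by
        rw [← hidx]
        have : 27 * t * (3 * m) = 81 * (t * m) := by ring
        rw [this]
        push_cast
        have h81' : (81 : ZMod 81) = 0 := by decide
        rw [h81', zero_mul]
      have hp31 : 1 ≤ p ^ 3 := Nat.one_le_pow _ _ hp.pos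
      have hp21 : 1 ≤ p ^ 2 := Nat.one_le_pow _ _ hp.pos
      rw [Nat.cast_mul, Nat.cast_mul, Nat.cast_sub hp31, Nat.cast_sub hp21] at h81
      push_cast at h81
      refine not_81 (p : ZMod 81) ?_ h81
      rw [ZMod.val_natCast]
      have : p % 81 % 9 = p % 9 := Nat.mod_mod_of_dvd p (by norm_num)
      rw [this]
      omega
    · -- a large prime
      have hr5 : 5 ≤ r := by
        have h3 := hr.two_le
        by_contra h4
        have h5 : r = 2 ∨ r = 3 ∨ r = 4 := by omega
        rcases h5 with h5 | h5 | h5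
        · exact hr2 h5
        · exact hr3' h5
        · subst h5
          exact absurd hr (by norm_num)
      have hdvd : r ∣ Nat.card (Cfsg.Geo.specialLinear (Fin 3) F) := hΩ.trans (Subgroup.relIndex_dvd_card _ _)
      obtain ⟨x, hx⟩ := exists_prime_orderOf_dvd_card' r hdvd
      have hxr : (x : GL (Fin 3) F) ^ r = 1 := by
        have := pow_orderOf_eq_one x
        rw [hx] at this
        exact congrArg Subtype.val this
      have hns : ∀ z : F, ((x : GL (Fin 3) F) : Matrix (Fin 3) (Fin 3) F) ≠ z • (1 : Matrix (Fin 3) (Fin 3) F) := by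
        intro z hz
        have hdet : (((x : GL (Fin 3) F)) : Matrix (Fin 3) (Fin 3) F).det = 1 := by
          have := congrArg Units.val (show GeneralLinearGroup.det (x : GL (Fin 3) F) = 1 from x.2)
          simpa using this
        rw [hz, Matrix.det_smul, Matrix.det_one] at hdet
        have hz3 : z ^ 3 = 1 := by simpa using hdet
        have hx3 : x ^ 3 = 1 := by
          apply Subtype.ext
          apply Units.ext
          show (((x : GL (Fin 3) F) ^ 3 : GL (Fin 3) F) : Matrix (Fin 3) (Fin 3) F) = 1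
          rw [Units.val_pow_eq_pow_val, hz, smul_pow, one_pow, hz3, one_smul]
        have h4 := orderOf_dvd_of_pow_eq_one hx3
        rw [hx] at h4
        have := Nat.le_of_dvd (by norm_num) h4
        omega
      obtain ⟨g, hg, hgx⟩ := hall x x.2 ⟨1, by rw [hxr, Units.val_one, one_smul]⟩ hns
      have hy : (g⁻¹ * (x : GL (Fin 3) F) * g) ^ r = 1 := by
        rw [show g⁻¹ * (x : GL (Fin 3) F) * g = g⁻¹ * (x : GL (Fin 3) F) * g⁻¹⁻¹ by rw [inv_inv], conj_pow, hxr]
        simp
      have hcen := centralizes hn hR hgx hr5 hy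
      obtain ⟨t, ht⟩ := hn.scalar_of_comm (hcen _ hn.d_mem) (hcen _ hn.c_mem)
      apply hns (t : F)
      have : (x : GL (Fin 3) F) = sc t := by
        have e : (x : GL (Fin 3) F) = g * (g⁻¹ * (x : GL (Fin 3) F) * g) * g⁻¹ := by group
        rw [e, ht, ← sc_comm, sc_comm t, ← sc_comm]
        group
      rw [this, coe_sc]
  · rintro hcase x hx ⟨z, hz⟩ hns
    rcases hcase with rfl | ⟨rfl, hp9⟩
    · have h2F : (2 : F) ≠ 0 := by
        intro h0
        have h3 : ((2 : ℕ) : F) = 0 := by exact_mod_cast h0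
        rw [CharP.cast_eq_zero_iff F p] at h3
        have := (Nat.prime_dvd_prime_iff_eq hp Nat.prime_two).mp h3
        omega
      exact elem_two hn h2F hx hz hns
    · exact elem_three hn (exists_cube hF hp9) hx hz

end Cfsg.Agent.S5998
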