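import Cfsg.Statements.S5999
import Cfsg.Agent.Lib.ClassMax.Hessian3
import Cfsg.Agent.S5998

set_option autoImplicit false
open scoped MatrixGroups
open Cfsg

namespace Cfsg.Agent.S5999

open Matrix Cfsg.Agent.Lib.ClassMax.Hessian

/-- Cube roots of unity are cubes of elements of norm one when `9` divides `q + 1`. -/
theorem exists_cube_u {F : Type*} [Field F] [Fintype F] {p : ℕ} (hF : Fintype.card F = p ^ 2) (hp : 2 ≤ p) (hp9 : p % 9 = 8) (z : Fˣ) (hz : z ^ 3 = 1) :
    ∃ t : Fˣ, t ^ 3 = z ∧ (t : F) ^ (p + 1) = 1 := by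
  classical
  obtain ⟨g, hg⟩ := IsCyclic.exists_generator (α := Fˣ)
  have hq2 : p ^ 2 - 1 = (p - 1) * (p + 1) := by
    obtain ⟨k, rfl⟩ : ∃ k, p = k + 1 := ⟨p - 1, by omega⟩
    simp only [Nat.add_sub_cancel]
    have : (k + 1) ^ 2 = k * (k + 1 + 1) + 1 := by ring
    omega
  have hord : orderOf g = (p - 1) * (p + 1) := by
    rw [orderOf_eq_card_of_forall_mem_zpowers hg, Nat.card_eq_fintype_card, Fintype.card_units, hF, hq2]
  have h1 : z ∈ Submonoid.powers g := by
    rw [mem_powers_iff_mem_zpowers]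
    exact hg z
  obtain ⟨k, rfl⟩ := h1
  obtain ⟨n, hn⟩ : ∃ n, p + 1 = 9 * n := ⟨(p + 1) / 9, by omega⟩
  have h2 : orderOf g ∣ k * (p + 1) := by
    apply orderOf_dvd_of_pow_eq_one
    rw [pow_mul, hn, show 9 * n = 3 * (3 * n) by ring, pow_mul, hz, one_pow]
  rw [hord] at h2
  have h3 : p - 1 ∣ k := Nat.dvd_of_mul_dvd_mul_right (by omega : 0 < p + 1) h2
  obtain ⟨k₁, rfl⟩ := h3
  have h4 : orderOf g ∣ (p - 1) * k₁ * 3 := by
    apply orderOf_dvd_of_pow_eq_one
    rw [pow_mul]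
    exact hz
  rw [hord, mul_assoc] at h4
  have h5 : p + 1 ∣ k₁ * 3 := Nat.dvd_of_mul_dvd_mul_left (by omega) h4
  rw [hn] at h5
  obtain ⟨a, ha⟩ := h5
  have h6 : k₁ % 3 = 0 := by
    generalize hA : n * a = A
    have e : k₁ * 3 = 9 * A := by rw [ha, ← hA]; ring
    omega
  obtain ⟨m, hm⟩ : ∃ m, k₁ = 3 * m := ⟨k₁ / 3, by omega⟩
  refine ⟨g ^ ((p - 1) * m), ?_, ?_⟩
  · rw [← pow_mul, hm]
    congr 1
    ring
  · have h7 : (g ^ ((p - 1) * m)) ^ (p + 1) = 1 := by
      rw [← pow_mul, show (p - 1) * m * (p + 1) = (p - 1) * (p + 1) * m by ring, pow_mul, ← hord, pow_orderOf_eq_one, one_pow]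
    have := congrArg Units.val h7
    simpa using this

/-- The order of the special unitary group. -/
theorem card_su3 {F : Type*} [Field F] [Fintype F] {p : ℕ} (hF : Fintype.card F = p ^ 2) (hp : 2 ≤ p) :
    Nat.card ↥(Cfsg.GU 3 F p ⊓ Cfsg.Geo.specialLinear (Fin 3) F) = p ^ 3 * ((p ^ 2 - 1) * (p ^ 3 + 1)) := by
  classical
  have h := Cfsg.Agent.Lib.Classical.card_su hF (n := 3) (by norm_num)
  rw [Finset.prod_range_succ, Finset.prod_range_succ, Finset.prod_range_succ, Finset.prod_range_zero] at h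
  have h0 : ¬ Even 1 := by decide
  have h1 : Even 0 := by decide
  have h2 : Even 2 := by decide
  simp only [h0, h1, h2, if_true, if_false, zero_add, one_mul, pow_one] at h
  have e1 : Nat.card ↥(Cfsg.GU 3 F p ⊓ Cfsg.Geo.specialLinear (Fin 3) F) = Nat.card (Cfsg.SU 3 F p) := by
    rw [Nat.card_congr (Cfsg.Agent.Lib.Classical.suEquivKer 3 F p)]
    refine Nat.card_congr
      { toFun := fun g => ⟨⟨g.1, g.2.1⟩, ?_⟩
        invFun := fun g => ⟨g.1.1, ⟨g.1.2, ?_⟩⟩
        left_inv := fun g => rfl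
        right_inv := fun g => rfl }
    · rw [MonoidHom.mem_ker]
      exact g.2.2
    · have := g.2
      rw [MonoidHom.mem_ker] at this
      exact this
  rw [e1]
  apply Nat.eq_of_mul_eq_mul_left (show 0 < p + 1 by omega)
  rw [h]
  norm_num
  ring

theorem not_81 : ∀ a : ZMod 81, (a.val % 9 = 2 ∨ a.val % 9 = 5) → a ^ 3 * ((a ^ 2 - 1) * (a ^ 3 + 1)) ≠ 0 := by
  decide


/-- Elements of prime order of PSU_3(p), p ≡ 2 (mod 3), and the normalizer of an extraspecial subgroup of order 27. Here `T = PSU_3(p)` for a prime `p ≥ 5` with `p ≡ 2 (mod 3)`, realised through `SU_3(p)`, the matrices of determinant 1 over the field `F` with `p²` elements preserving the hermitian form `Σ uᵢvᵢ^p`; `R` is a non-abelian subgroup of order 27 and exponent 3 of the full unitary group of that form (an extraspecial group 3^{1+2}, acting absolutely irreducibly), and `H` is the subgroup of `SU_3(p)` normalizing `R` — a subgroup of type 3^{1+2}.Sp₂(3) (maximality is not assumed).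 Ω is the set of cosets of `H`, so an element of `T` of prime order `r` (`x ∈ SU_3(p)` with `x^r` scalar, `x` not scalar) fixes a point of Ω exactly when some `SU_3(p)`-conjugate of `x` normalizes `R`. Let `r` be a prime dividing the index of `H`. Then every element of `T` of order `r` fixes a point of Ω if and only if `r = 2`, or `r = 3` and `p ≡ 8 (mod 9)`. -/
theorem result {F : Type*} [Field F] [Fintype F] {p : ℕ} [Fact p.Prime] [CharP F p] (hF : Fintype.card F = p ^ 2) (hp : 5 ≤ p) (hp3 : p % 3 = 2)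
    (R : Subgroup (GL (Fin 3) F)) (hRU : R ≤ Cfsg.GU 3 F p) (hR : Nat.card R = 27) (hRe : Monoid.exponent R = 3) (hRna : ¬ IsMulCommutative R)
    (r : ℕ) [Fact r.Prime]
    (hΩ : r ∣ (Cfsg.Geo.subgroupNormalizer R).relIndex (Cfsg.GU 3 F p ⊓ Cfsg.Geo.specialLinear (Fin 3) F)) :
    (∀ x ∈ Cfsg.GU 3 F p ⊓ Cfsg.Geo.specialLinear (Fin 3) F, (∃ z : F, ((x ^ r : GL (Fin 3) F) : Matrix (Fin 3) (Fin 3) F) = z • (1 : Matrix (Fin 3) (Fin 3) F)) →
      (∀ z : F, (x : Matrix (Fin 3) (Fin 3) F) ≠ z • (1 : Matrix (Fin 3) (Fin 3) F)) →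
      ∃ g ∈ Cfsg.GU 3 F p ⊓ Cfsg.Geo.specialLinear (Fin 3) F, g⁻¹ * x * g ∈ Cfsg.Geo.subgroupNormalizer R) ↔ (r = 2 ∨ (r = 3 ∧ p % 9 = 8)) := by
  classical
  have hpp : p.Prime := Fact.out
  have hr : r.Prime := Fact.out
  have hp1 : 1 < p ^ 2 := by nlinarith
  haveI : Finite (GL (Fin 3) F) := inferInstance
  have hp23 : p ^ 2 % 3 = 1 := by
    have : p ^ 2 % 3 = (p % 3) ^ 2 % 3 := Nat.pow_mod p 2 3
    rw [this, hp3]
    norm_num
  obtain ⟨ω₀, h1, h2⟩ := Cfsg.Agent.S5998.exists_omega hF hp23 hp1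
  have hpo : Odd p := hpp.odd_of_ne_two (by omega)
  have h2F : (2 : F) ≠ 0 := by
    intro h0
    have h3 : ((2 : ℕ) : F) = 0 := by exact_mod_cast h0
    rw [CharP.cast_eq_zero_iff F p] at h3
    have := (Nat.prime_dvd_prime_iff_eq hpp Nat.prime_two).mp h3
    omega
  obtain ⟨ω, h₀, hn₀⟩ := exists_nf h1 h2 hR hRe hRna
  obtain ⟨h, hn, hhU⟩ := NF.exists_unitary hF h2F hp3 hn₀ hRU
  haveI : Finite R := Nat.finite_of_card_ne_zero (by omega)
  constructor
  · intro hall
    by_contra hcon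
    push Not at hcon
    obtain ⟨hr2, hr3⟩ := hcon
    by_cases hr3' : r = 3
    · subst hr3'
      have hp9 : p % 9 ≠ 8 := hr3 rfl
      have hle : R ≤ Cfsg.Geo.subgroupNormalizer R ⊓ (Cfsg.GU 3 F p ⊓ Cfsg.Geo.specialLinear (Fin 3) F) :=
        le_inf (Subgroup.le_normalizer) (le_inf hRU hn.le_sl)
      obtain ⟨t, ht⟩ := Subgroup.card_dvd_of_le hle
      rw [hR] at ht
      have hidx := Subgroup.card_mul_index ((Cfsg.Geo.subgroupNormalizer R).subgroupOf (Cfsg.GU 3 F p ⊓ Cfsg.Geo.specialLinear (Fin 3) F))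
      have hc : Nat.card ↥((Cfsg.Geo.subgroupNormalizer R).subgroupOf (Cfsg.GU 3 F p ⊓ Cfsg.Geo.specialLinear (Fin 3) F)) = Nat.card ↥(Cfsg.Geo.subgroupNormalizer R ⊓ (Cfsg.GU 3 F p ⊓ Cfsg.Geo.specialLinear (Fin 3) F)) := by
        rw [← Subgroup.inf_subgroupOf_right]
        exact Nat.card_congr (Subgroup.subgroupOfEquivOfLe inf_le_right).toEquiv
      obtain ⟨m, hm⟩ := hΩ
      rw [hc, ht, card_su3 hF (by omega)] at hidx
      change 27 * t * (Cfsg.Geo.subgroupNormalizer R).relIndex (Cfsg.GU 3 F p ⊓ Cfsg.Geo.specialLinear (Fin 3) F) = _ at hidx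
      rw [hm] at hidx
      have h81 : ((p ^ 3 * ((p ^ 2 - 1) * (p ^ 3 + 1)) : ℕ) : ZMod 81) = 0 := by
        rw [← hidx]
        have : 27 * t * (3 * m) = 81 * (t * m) := by ring
        rw [this]
        push_cast
        have h81' : (81 : ZMod 81) = 0 := by decide
        rw [h81', zero_mul]
      have hp21 : 1 ≤ p ^ 2 := Nat.one_le_pow _ _ hpp.pos
      rw [Nat.cast_mul, Nat.cast_mul, Nat.cast_sub hp21] at h81
      push_cast at h81
      refine not_81 (p : ZMod 81) ?_ h81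
      rw [ZMod.val_natCast]
      have : p % 81 % 9 = p % 9 := Nat.mod_mod_of_dvd p (by norm_num)
      rw [this]
      omega
    · have hr5 : 5 ≤ r := by
        have h3 := hr.two_le
        by_contra h4
        have h5 : r = 2 ∨ r = 3 ∨ r = 4 := by omega
        rcases h5 with h5 | h5 | h5
        · exact hr2 h5
        · exact hr3' h5
        · subst h5
          exact absurd hr (by norm_num)
      have hdvd : r ∣ Nat.card ↥(Cfsg.GU 3 F p ⊓ Cfsg.Geo.specialLinear (Fin 3) F) := hΩ.trans (Subgroup.relIndex_dvd_card _ _)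
      obtain ⟨x, hx⟩ := exists_prime_orderOf_dvd_card' r hdvd
      have hxr : (x : GL (Fin 3) F) ^ r = 1 := by
        have := pow_orderOf_eq_one x
        rw [hx] at this
        exact congrArg Subtype.val this
      have hns : ∀ z : F, ((x : GL (Fin 3) F) : Matrix (Fin 3) (Fin 3) F) ≠ z • (1 : Matrix (Fin 3) (Fin 3) F) := by
        intro z hz
        have hdet : (((x : GL (Fin 3) F)) : Matrix (Fin 3) (Fin 3) F).det = 1 := by
          have := congrArg Units.val (show GeneralLinearGroup.det (x : GL (Fin 3) F) = 1 from x.2.2)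
          simpa using this
        rw [hz, Matrix.det_smul, Matrix.det_one] at hdet
        have hz3 : z ^ 3 = 1 := by simpa using hdet
        have hx3 : x ^ 3 = 1 := by
          apply Subtype.ext
          apply Units.ext
          show (((x : GL (Fin 3) F) ^ 3 : GL (Fin 3) F) : Matrix (Fin 3) (Fin 3) F) = 1
          rw [Units.val_pow_eq_pow_val, hz, smul_pow, one_pow, hz3, one_smul]
        have h4 := orderOf_dvd_of_pow_eq_one hx3
        rw [hx] at h4
        have := Nat.le_of_dvd (by norm_num) h4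
        omega
      obtain ⟨g, hg, hgx⟩ := hall x x.2 ⟨1, by rw [hxr, Units.val_one, one_smul]⟩ hns
      have hy : (g⁻¹ * (x : GL (Fin 3) F) * g) ^ r = 1 := by
        rw [show g⁻¹ * (x : GL (Fin 3) F) * g = g⁻¹ * (x : GL (Fin 3) F) * g⁻¹⁻¹ by rw [inv_inv], conj_pow, hxr]
        simp
      have hcen := centralizes hn hR hgx hr5 hy
      obtain ⟨t, ht⟩ := hn.scalar_of_comm (hcen _ hn.d_mem) (hcen _ hn.c_mem)
      apply hns (t : F)
      have : (x : GL (Fin 3) F) = sc t := by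
        have e : (x : GL (Fin 3) F) = g * (g⁻¹ * (x : GL (Fin 3) F) * g) * g⁻¹ := by group
        rw [e, ht, ← sc_comm, sc_comm t, ← sc_comm]
        group
      rw [this, coe_sc]
  · rintro hcase x hx ⟨z, hz⟩ hns
    rcases hcase with rfl | ⟨rfl, hp9⟩
    · exact elem_two_u hF h2F hp3 hpo hn hhU hx hz hns
    · exact elem_three_u hF h2F hp3 hn hhU (exists_cube_u hF (by omega) hp9) hx hz

end Cfsg.Agent.S5999
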